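import Mathlib
import Cfsg.Agent.Lib.BNPair
import Cfsg.Statements.S0319
-- import your own Cfsg.Agent.* helpers here

set_option autoImplicit false
open Cfsg

namespace Cfsg.Agent.S0319

open Cfsg.Agent.Lib.BNPair in
/-- Key step: a normal subgroup `H`; generators in `B ⊔ H` commute modulo `B` with those outside. -/
lemma comm_key {G : Type*} [Group G] (P : Cfsg.BNPair G) (H : Subgroup G) [hH : H.Normal]
    {s s' : G} (hs : s ∈ P.S) (hs' : s' ∈ P.S) (hsM : s ∈ P.B ⊔ H) (hs'M : s' ∉ P.B ⊔ H) :
    s * s' * s⁻¹ * s'⁻¹ ∈ P.B := by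
  set M : Subgroup G := P.B ⊔ H with hM
  have hBM : P.B ≤ M := le_sup_left
  have hHM : H ≤ M := le_sup_right
  have hsN := s_mem_N hs
  have hs'N := s_mem_N hs'
  have hss : s ∈ H ⊔ P.B := by rwa [sup_comm]
  obtain ⟨h, hh, b, hb, e⟩ : ∃ h ∈ H, ∃ b ∈ P.B, s = h * b := by
    have := (Subgroup.normal_mul H P.B)
    have h2 : s ∈ ((H ⊔ P.B : Subgroup G) : Set G) := hss
    rw [this] at h2
    obtain ⟨h, hh, b, hb, e⟩ := Set.mem_mul.1 h2
    exact ⟨h, hh, b, hb, e.symm⟩
  have hne : s ≠ s' := fun h => hs'M (h ▸ hsM)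
  have hy : s' * s * b⁻¹ * s' ∈ M := by
    have h1 : s' * h * s'⁻¹ ∈ H := hH.conj_mem h hh s'
    have e2 : s' * s * b⁻¹ * s' = (s' * h * s'⁻¹) * (s' * s') := by
      rw [e]; group
    rw [e2]
    exact mul_mem (hHM h1) (hBM (ss_mem_T hs'))
  have hmem1 : s' * s * b⁻¹ ∈ C P (s' * s) :=
    mem_C.2 ⟨1, one_mem _, b⁻¹, inv_mem hb, by group⟩
  have hM_of : ∀ {n g : G}, g ∈ M → g ∈ C P n → n ∈ M := by
    intro n g hg hn
    obtain ⟨x, hx, y, hy, rfl⟩ := mem_C.1 hn
    have e3 : n = x⁻¹ * (x * n * y) * y⁻¹ := by group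
    rw [e3]
    exact mul_mem (mul_mem (hBM (inv_mem hx)) hg) (hBM (inv_mem hy))
  have hmM : s' * s * s' ∈ M := by
    rcases mul_mem_union_right hs' (mul_mem hs'N hsN) hmem1 with h1 | h1
    · exact hM_of hy h1
    · exfalso
      have h2 := hM_of hy h1
      apply hs'M
      have e3 : s' = (s' * s) * s⁻¹ := by group
      rw [e3]
      exact mul_mem h2 (inv_mem hsM)
  have hSJ : ∀ u ∈ P.S, u ∈ M → u ∈ ({s | s ∈ P.S ∧ s ∈ M} : Set G) := fun u h1 h2 => ⟨h1, h2⟩
  set m : G := s' * s * s' with hm
  have hmN : m ∈ P.N := mul_mem (mul_mem hs'N hsN) hs'N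
  obtain ⟨l, hl, hk, hEl⟩ := exists_word_len hmN
  have hlM : l.prod ∈ M := by
    have e3 : l.prod = m * (m⁻¹ * l.prod) := by group
    rw [e3]
    exact mul_mem hmM (hBM hEl.symm)
  have hall := mem_of_reduced hBM l hl (by rw [hk, len_congr hEl]) hlM
  have hPs : Ps P s' m := by
    by_contra hcon
    have h2 : ¬ Ps P s' l.prod := fun h3 => hcon (Ps_congr hEl h3)
    obtain ⟨l', h3, -, h5⟩ := exchange hs' l hl h2
    have hl'M : l'.prod ∈ M := by
      apply Subgroup.list_prod_mem
      intro x hx
      exact hall x (h3.subset hx)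
    have h6 : E P l'.prod (s' * m) := h5.trans (hEl.mul_left s')
    have h7 : s' * m ∈ M := by
      have e3 : s' * m = l'.prod * (l'.prod⁻¹ * (s' * m)) := by group
      rw [e3]
      exact mul_mem hl'M (hBM h6)
    apply hs'M
    have h8 : s * s' ∈ M := by
      have e5 : s * s' = (s' * s')⁻¹ * (s' * m) := by
        rw [hm]; group
      rw [e5]
      exact mul_mem (hBM (inv_mem (ss_mem_T hs'))) h7
    have e6 : s' = s⁻¹ * (s * s') := by group
    rw [e6]
    exact mul_mem (inv_mem hsM) h8
  have hlt := len_gt_of_Ps hs' hmN hPs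
  have hE2 : E P (s * s') (s' * m) := by
    have e5 : s' * m = (s' * s') * (s * s') := by rw [hm]; group
    rw [e5]
    exact (E.refl (s * s')).left_T (mul_mem hsN hs'N) (ss_mem_T hs') (mul_mem hs'N hs'N)
  have hle2 : len P (s * s') ≤ 2 := by
    have := len_mul_le hs hs'N
    rw [len_s hs'] at this
    exact this
  rw [← len_congr hE2] at hlt
  rw [← hk] at hlt
  have hl1 : l.length = 0 ∨ l.length = 1 := by omega
  rcases hl1 with h0 | h1
  · exfalso
    have hmB : m ∈ P.B := (len_eq_zero hmN).1 (by rw [← hk]; exact h0)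
    apply s_not_mem_B hs
    have e5 : s = (s'⁻¹ * m * s') * (s' * s')⁻¹ := by rw [hm]; group
    rw [e5]
    exact mul_mem (conj_T' hs'N hmB hmN) (inv_mem (ss_mem_T hs'))
  · obtain ⟨u, rfl⟩ := List.length_eq_one_iff.1 h1
    simp only [List.prod_singleton] at hEl
    have huS : u ∈ P.S := hl u (by simp)
    have huN := s_mem_N huS
    have hK : ({s', u} : Set G) ⊆ P.S := by
      rintro x (rfl | hx)
      · exact hs'
      · rw [Set.mem_singleton_iff.1 hx]
        exact huS
    have hb2 : P.B ≤ P.parabolic {s', u} := le_sup_left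
    have hc2 : Subgroup.closure ({s', u} : Set G) ≤ P.parabolic {s', u} := le_sup_right
    have hus : u * s' ∈ P.parabolic {s', u} :=
      mul_mem (hc2 (Subgroup.subset_closure (by simp))) (hc2 (Subgroup.subset_closure (by simp)))
    have hss2 : s' * s ∈ P.parabolic {s', u} := by
      have e5 : s' * s = (u * s') * ((s'⁻¹ * (u⁻¹ * m) * s') * (s' * s')⁻¹) := by
        rw [hm]; group
      rw [e5]
      refine mul_mem hus (hb2 (mul_mem (conj_T' hs'N hEl (mul_mem (inv_mem huN) hmN))
        (inv_mem (ss_mem_T hs'))))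
    have hlen2 : len P (s' * s) = 2 := by
      by_cases h2 : Ps P s' s
      · have h3 := len_gt_of_Ps hs' hsN h2
        have h4 := len_mul_le hs' hsN
        rw [len_s hs] at h3 h4
        omega
      · exfalso
        have h3 := len_lt_of_not_Ps hs' hsN h2
        rw [len_s hs] at h3
        have h4 : s' * s ∈ P.B := (len_eq_zero (mul_mem hs'N hsN)).1 (by omega)
        apply hne
        refine (P.inj s' hs' s hs ?_).symm
        have e5 : s'⁻¹ * s = (s' * s')⁻¹ * (s' * s) := by group
        rw [e5]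
        exact mul_mem (inv_mem (ss_mem_T hs')) h4
    have hall2 := mem_of_reduced hb2 [s', s] (by simp [hs, hs'])
      (by simp [hlen2]) (by simpa using hss2)
    have hs2 : s ∈ P.parabolic {s', u} := hall2 s (by simp)
    have hs3 := mem_of_mem_parabolic hK hs hs2
    have hus : s = u := by
      rcases hs3 with h3 | h3
      · exact absurd h3 hne
      · exact Set.mem_singleton_iff.1 h3
    rw [← hus] at hEl
    have hc : (s * s' * s⁻¹ * s'⁻¹)⁻¹ ∈ P.B := by
      have e5 : (s * s' * s⁻¹ * s'⁻¹)⁻¹ = s * ((s⁻¹ * m) * (s' * s')⁻¹) * s⁻¹ := by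
        rw [hm]; group
      rw [e5]
      refine conj_T hsN (mul_mem hEl (inv_mem (ss_mem_T hs'))) ?_
      exact mul_mem (mul_mem (inv_mem hsN) hmN) (inv_mem (mul_mem hs'N hs'N))
    simpa using inv_mem hc


/-- Simplicity criterion for groups with a (B,N)-pair: if the distinguished generators admit no
splitting into two non-empty mutually commuting parts, `B` is solvable, `G` is perfect and the intersection
of all conjugates of `B` is trivial, then `G` is simple. -/
theorem result {G : Type*} [Group G] [Nontrivial G]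
    (P : Cfsg.BNPair G) (hirr : P.Irreducible) (hsolv : Group.IsSolvable P.B) (hperf : commutator G = ⊤)
    (hcore : P.B.normalCore = ⊥) : IsSimpleGroup G := by
  open Cfsg.Agent.Lib.BNPair in
  refine ⟨fun H hH => ?_⟩
  set J : Set G := {s | s ∈ P.S ∧ s ∈ P.B ⊔ H} with hJdef
  have hB : P.B ≤ P.B ⊔ H := le_sup_left
  have hE : P.B ⊔ H = P.parabolic J := eq_parabolic hB
  by_cases hne : J.Nonempty ∧ (P.S \ J).Nonempty
  · exfalso
    obtain ⟨s, hs, s', hs', hnot⟩ := hirr J (fun s hs => hs.1) hne.1 hne.2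
    apply hnot
    refine comm_key P H hs.1 hs'.1 hs.2 ?_
    intro h
    exact hs'.2 ⟨hs'.1, h⟩
  · by_cases hJe : J = ∅
    · left
      rw [hJe, Cfsg.BNPair.parabolic, Subgroup.closure_empty, sup_bot_eq] at hE
      have hHB : H ≤ P.B := by
        have : H ≤ P.B ⊔ H := le_sup_right
        rwa [hE] at this
      have : H ≤ P.B.normalCore := Subgroup.normal_le_normalCore.2 hHB
      rw [hcore] at this
      exact le_bot_iff.1 this
    · right
      have hSJ : P.S ⊆ J := by
        intro s hs
        by_contra hcon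
        exact hne ⟨Set.nonempty_iff_ne_empty.2 hJe, ⟨s, hs, hcon⟩⟩
      have htop : P.B ⊔ H = ⊤ := by
        rw [eq_top_iff, ← parabolic_S_eq_top (P := P)]
        refine sup_le hB ?_
        rw [Subgroup.closure_le]
        exact fun s hs => (hSJ hs).2
      let q : G →* G ⧸ H := QuotientGroup.mk' H
      have hq : Function.Surjective q := QuotientGroup.mk'_surjective H
      have hqB : Function.Surjective (q.comp P.B.subtype) := by
        intro z
        obtain ⟨g, rfl⟩ := hq z
        have hg : g ∈ P.B ⊔ H := by rw [htop]; trivial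
        have h2 : g ∈ ((P.B ⊔ H : Subgroup G) : Set G) := hg
        rw [Subgroup.mul_normal] at h2
        obtain ⟨b, hb, h, hh, e⟩ := Set.mem_mul.1 h2
        refine ⟨⟨b, hb⟩, ?_⟩
        simp only [MonoidHom.comp_apply, Subgroup.subtype_apply]
        rw [← e, map_mul]
        have : q h = 1 := (QuotientGroup.eq_one_iff h).2 hh
        rw [this, mul_one]
      haveI : Group.IsSolvable P.B := hsolv
      have hsq : Group.IsSolvable (G ⧸ H) := Group.isSolvable_of_surjective hqB
      have hderiv : ∀ n, derivedSeries (G ⧸ H) n = ⊤ := by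
        intro n
        induction n with
        | zero => rfl
        | succ n ih =>
          rw [derivedSeries_succ, ih]
          have h3 : (commutator G).map q = ⊤ := by
            rw [hperf]
            exact Subgroup.map_top_of_surjective q hq
          rw [commutator_def, Subgroup.map_commutator, Subgroup.map_top_of_surjective q hq] at h3
          exact h3
      obtain ⟨n, hn⟩ := (Group.isSolvable_def (G ⧸ H)).1 hsq
      rw [hderiv n] at hn
      rw [eq_top_iff]
      intro g _
      have h4 : q g ∈ (⊥ : Subgroup (G ⧸ H)) := by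
        rw [← hn]; trivial
      exact (QuotientGroup.eq_one_iff g).1 ((Subgroup.mem_bot).1 h4)

end Cfsg.Agent.S0319
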