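import Cfsg.Statements.S0074
import Cfsg.Agent.Lib.Focal
open scoped commutatorElement

set_option autoImplicit false
open Cfsg

namespace Cfsg.Agent.S0074

/-- For an abelian Sylow p-subgroup P, the intersection of P with the derived subgroup of G equals its intersection with the derived subgroup of the normalizer of P. -/
theorem result {G : Type*} [Group G] [Finite G] {p : ℕ} [Fact p.Prime] (P : Sylow p G) (hP : IsMulCommutative P) : commutator G ⊓ (P : Subgroup G) = ⁅Subgroup.normalizer (P : Set G), Subgroup.normalizer (P : Set G)⁆ ⊓ (P : Subgroup G) := by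
  classical
  have hc : ∀ a ∈ (P : Subgroup G), ∀ b ∈ (P : Subgroup G), a * b = b * a := fun a ha b hb =>
    congrArg Subtype.val (hP.is_comm.comm ⟨a, ha⟩ ⟨b, hb⟩)
  apply le_antisymm
  · refine le_inf ?_ inf_le_right
    rw [inf_comm]
    refine Cfsg.Agent.Lib.Focal.inf_commutator_le_of P _ ?_
    intro x hx g hg
    haveI := hP
    obtain ⟨n, hn, hne⟩ := Sylow.conj_eq_normalizer_conj_of_mem P x g⁻¹ hx (by rw [inv_inv]; exact hg)
    have h1 : g * x * g⁻¹ = n⁻¹ * x * n := by simpa using hne
    rw [h1]
    have hxN : x ∈ Subgroup.normalizer ((P : Subgroup G) : Set G) := Subgroup.le_normalizer hx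
    have : x⁻¹ * (n⁻¹ * x * n) = ⁅x⁻¹, n⁻¹⁆ := by
      rw [commutatorElement_def]; group
    rw [this]
    exact Subgroup.commutator_mem_commutator (Subgroup.inv_mem _ hxN) (Subgroup.inv_mem _ hn)
  · refine inf_le_inf_right _ ?_
    exact Subgroup.commutator_mono le_top le_top

end Cfsg.Agent.S0074
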