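import Cfsg.Statements.S0088
open scoped commutatorElement

set_option autoImplicit false
open Cfsg

namespace Cfsg.Agent.S0088

/-- An abelian Hall subgroup meets G' ∩ Z(G) trivially. -/
theorem result {G : Type*} [Group G] [Finite G] (H : Subgroup G) (hc : IsMulCommutative H) (hHall : Nat.Coprime (Nat.card H) H.index) : H ⊓ commutator G ⊓ Subgroup.center G = ⊥ := by
  classical
  rw [eq_bot_iff]
  rintro z ⟨⟨hzH, hzc⟩, hzZ⟩
  rw [Subgroup.mem_bot]
  letI : CommGroup H := { (inferInstance : Group H) with mul_comm := fun a b => hc.is_comm.comm a b }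
  let V : G →* H := MonoidHom.transfer (MonoidHom.id H)
  have hVz : V z = 1 := by
    have : commutator G ≤ V.ker := by
      rw [commutator_def, Subgroup.commutator_le]
      intro a _ b _
      rw [MonoidHom.mem_ker, map_commutatorElement, commutatorElement_eq_one_iff_mul_comm]
      exact mul_comm _ _
    exact this hzc
  have hkey : ∀ (k : ℕ) (g₀ : G), g₀⁻¹ * z ^ k * g₀ ∈ H → g₀⁻¹ * z ^ k * g₀ = z ^ k := by
    intro k g₀ _
    have h1 : z ^ k ∈ Subgroup.center G := Subgroup.pow_mem _ hzZ k
    rw [(Subgroup.mem_center_iff.mp h1 g₀⁻¹)]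
    group
  have h2 := MonoidHom.transfer_eq_pow (MonoidHom.id H) z hkey
  have h3 : (⟨z ^ H.index, MonoidHom.transfer_eq_pow_aux z hkey⟩ : H) = 1 := by
    have h4 : MonoidHom.transfer (MonoidHom.id H) z = 1 := hVz
    rw [h2] at h4
    exact h4
  have h5 : z ^ H.index = 1 := congrArg Subtype.val h3
  have h6 : orderOf z ∣ H.index := orderOf_dvd_of_pow_eq_one h5
  have h7 : orderOf z ∣ Nat.card H := by
    have := orderOf_dvd_natCard (⟨z, hzH⟩ : H)
    rwa [Subgroup.orderOf_mk] at this
  have h8 : orderOf z = 1 := Nat.eq_one_of_dvd_coprimes hHall h7 h6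
  exact orderOf_eq_one_iff.mp h8

end Cfsg.Agent.S0088
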