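import Cfsg.Statements.S0090
import Cfsg.Agent.S0088
import Cfsg.Agent.Lib.TraceFix
import Cfsg.Agent.Lib.H7Basic
open scoped commutatorElement

set_option autoImplicit false
open Cfsg

namespace Cfsg.Agent.S0090


theorem decomp {G : Type*} [Group G] [Finite G] (A : Subgroup G) [hAn : A.Normal] (hc : IsMulCommutative A)
    (hHall : Nat.Coprime (Nat.card A) A.index) (a : G) (ha : a ∈ A) :
    ∃ c ∈ Subgroup.center G, c ∈ A ∧ ∃ w ∈ ⁅A, (⊤ : Subgroup G)⁆, w ∈ A ∧ a ^ A.index = c * w := by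
  classical
  letI : CommGroup A := { (inferInstance : Group A) with mul_comm := fun a b => hc.is_comm.comm a b }
  let φ : G →* MulAut A := MulAut.conjNormal
  let W : Subgroup A := (⁅A, (⊤ : Subgroup G)⁆).subgroupOf A
  have hz : ∀ s ∈ A, φ s ⟨a, ha⟩ = ⟨a, ha⟩ := by
    intro s hs
    apply Subtype.ext
    show s * a * s⁻¹ = a
    have := congrArg Subtype.val (hc.is_comm.comm (⟨s, hs⟩ : A) ⟨a, ha⟩)
    have h1 : s * a = a * s := this
    rw [h1]
    group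
  have hW : ∀ l : G, φ l ⟨a, ha⟩ / ⟨a, ha⟩ ∈ W := by
    intro l
    rw [Subgroup.mem_subgroupOf]
    have h1 : ((φ l ⟨a, ha⟩ / ⟨a, ha⟩ : A) : G) = ⁅l, a⁆ := by
      rw [div_eq_mul_inv, Subgroup.coe_mul, Subgroup.coe_inv, commutatorElement_def]
      rfl
    rw [h1, ← commutatorElement_inv]
    exact Subgroup.inv_mem _ (Subgroup.commutator_mem_commutator ha (Subgroup.mem_top l))
  obtain ⟨c, hc1, hc2⟩ := Cfsg.Agent.Lib.TraceFix.exists_norm' φ A ⟨a, ha⟩ hz W hW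
  refine ⟨c, ?_, c.2, ((⟨a, ha⟩ : A) ^ A.index / c : A), ?_, SetLike.coe_mem _, ?_⟩
  · rw [Subgroup.mem_center_iff]
    intro g
    have h1 : g * c * g⁻¹ = c := congrArg Subtype.val (hc1 g)
    calc g * c = (g * c * g⁻¹) * g := by group
      _ = c * g := by rw [h1]
  · have h2 : (((⟨a, ha⟩ : A) ^ A.index / c : A)) = (c / (⟨a, ha⟩ : A) ^ A.index)⁻¹ := by
      rw [inv_div]
    rw [h2]
    exact (Subgroup.mem_subgroupOf.mp (W.inv_mem hc2))
  · have h3 : (c * ((⟨a, ha⟩ : A) ^ A.index / c) : A) = (⟨a, ha⟩ : A) ^ A.index := by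
      rw [mul_div_cancel]
    have := congrArg Subtype.val h3
    rw [Subgroup.coe_mul] at this
    rw [this, Subgroup.coe_pow]


/-- An abelian normal Hall subgroup A splits as the internal direct product of G' ∩ A and Z(G) ∩ A, and [A, G] = G' ∩ A. -/
theorem result {G : Type*} [Group G] [Finite G] (A : Subgroup G) [A.Normal] (hc : IsMulCommutative A) (hHall : Nat.Coprime (Nat.card A) A.index) : ⁅A, (⊤ : Subgroup G)⁆ = commutator G ⊓ A ∧ (commutator G ⊓ A) ⊓ (Subgroup.center G ⊓ A) = ⊥ ∧ (commutator G ⊓ A) ⊔ (Subgroup.center G ⊓ A) = A := by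
  classical
  have hle1 : ⁅A, (⊤ : Subgroup G)⁆ ≤ commutator G ⊓ A :=
    le_inf (Subgroup.commutator_mono le_top le_rfl) (Subgroup.commutator_le_left _ _)
  have hdisj : (commutator G ⊓ A) ⊓ (Subgroup.center G ⊓ A) = ⊥ := by
    rw [eq_bot_iff]
    rintro z ⟨⟨h1, h2⟩, ⟨h3, -⟩⟩
    have h4 := Cfsg.Agent.S0088.result A hc hHall
    have h5 : z ∈ A ⊓ commutator G ⊓ Subgroup.center G := ⟨⟨h2, h1⟩, h3⟩
    rwa [h4] at h5
  have hpow : ∀ a ∈ A, a ∈ ⁅A, (⊤ : Subgroup G)⁆ ⊔ (Subgroup.center G ⊓ A) := by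
    intro a ha
    obtain ⟨c, hcZ, hcA, w, hw, hwA, he⟩ := decomp A hc hHall a ha
    have h1 : a ^ A.index ∈ ⁅A, (⊤ : Subgroup G)⁆ ⊔ (Subgroup.center G ⊓ A) := by
      rw [he]
      exact Subgroup.mul_mem _ ((le_sup_right : _ ≤ ⁅A, (⊤ : Subgroup G)⁆ ⊔ (Subgroup.center G ⊓ A)) ⟨hcZ, hcA⟩)
        ((le_sup_left : _ ≤ ⁅A, (⊤ : Subgroup G)⁆ ⊔ (Subgroup.center G ⊓ A)) hw)
    have hcop : (orderOf a).Coprime A.index := by
      refine Nat.Coprime.coprime_dvd_left ?_ hHall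
      have := orderOf_dvd_natCard (⟨a, ha⟩ : A)
      rwa [Subgroup.orderOf_mk] at this
    exact Cfsg.Agent.Lib.H7Basic.mem_of_pow_mem_of_coprime _ a _ hcop h1
  have heq : ⁅A, (⊤ : Subgroup G)⁆ = commutator G ⊓ A := by
    refine le_antisymm hle1 ?_
    rintro x ⟨hx1, hx2⟩
    obtain ⟨c, hcZ, hcA, w, hw, hwA, he⟩ := decomp A hc hHall x hx2
    have hwc : w ∈ commutator G ⊓ A := hle1 hw
    have hpc : x ^ A.index ∈ commutator G := Subgroup.pow_mem _ hx1 _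
    have hcc : c ∈ commutator G := by
      have : c = x ^ A.index * w⁻¹ := by rw [he]; group
      rw [this]
      exact Subgroup.mul_mem _ hpc (Subgroup.inv_mem _ hwc.1)
    have hc1 : c ∈ (commutator G ⊓ A) ⊓ (Subgroup.center G ⊓ A) := ⟨⟨hcc, hcA⟩, ⟨hcZ, hcA⟩⟩
    rw [hdisj, Subgroup.mem_bot] at hc1
    rw [hc1, one_mul] at he
    have hcop : (orderOf x).Coprime A.index := by
      refine Nat.Coprime.coprime_dvd_left ?_ hHall
      have := orderOf_dvd_natCard (⟨x, hx2⟩ : A)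
      rwa [Subgroup.orderOf_mk] at this
    refine Cfsg.Agent.Lib.H7Basic.mem_of_pow_mem_of_coprime _ x _ hcop ?_
    rw [he]
    exact hw
  refine ⟨heq, hdisj, ?_⟩
  rw [← heq]
  apply le_antisymm
  · exact sup_le (Subgroup.commutator_le_left _ _) inf_le_right
  · exact hpow

end Cfsg.Agent.S0090
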