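import Cfsg.Statements.S0075
import Cfsg.Agent.S0074
import Cfsg.Agent.S0090
import Cfsg.Agent.Lib.PResidual
import Cfsg.Agent.Lib.H7PGroup
import Cfsg.Agent.Lib.H7Basic
open scoped commutatorElement

set_option autoImplicit false
open Cfsg

namespace Cfsg.Agent.S0075


theorem inf_residual_le {G : Type*} [Group G] [Finite G] {p : ℕ} [Fact p.Prime] (T : Sylow p G) :
    (T : Subgroup G) ⊓ Cfsg.pResidual p G ≤ commutator G := by
  classical
  have hpp : p.Prime := Fact.out
  rintro x ⟨hxT, hxR⟩
  -- the `p'`-part of the order of `G`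
  obtain ⟨m, hm, hcop⟩ : ∃ m, (∀ g : G, (orderOf g).Coprime p → g ^ m = 1) ∧ m.Coprime p := by
    refine ⟨ordCompl[p] (Nat.card G), ?_, (Nat.coprime_ordCompl hpp Nat.card_pos.ne').symm⟩
    intro g hg
    apply orderOf_dvd_iff_pow_eq_one.mp
    have h1 : orderOf g ∣ Nat.card G := orderOf_dvd_natCard g
    have h2 : Nat.card G = p ^ (Nat.card G).factorization p * ordCompl[p] (Nat.card G) :=
      (Nat.ordProj_mul_ordCompl_eq_self _ _).symm
    rw [h2] at h1
    exact (Nat.Coprime.pow_right _ hg).dvd_of_dvd_mul_left h1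
  let π : G →* Abelianization G := Abelianization.of
  let f : G →* Abelianization G := (powMonoidHom m).comp π
  have hRf : Cfsg.pResidual p G ≤ f.ker := by
    rw [Cfsg.pResidual, Subgroup.closure_le]
    intro g hg
    show f g = 1
    show (π g) ^ m = 1
    rw [← map_pow, hm g hg, map_one]
  have h1 : π (x ^ m) = 1 := by
    rw [map_pow]
    exact hRf hxR
  have h2 : x ^ m ∈ commutator G := by
    rw [← Abelianization.ker_of]
    exact h1
  have h3 : (orderOf x).Coprime m := by
    obtain ⟨k, hk⟩ := IsPGroup.iff_orderOf.mp T.isPGroup' ⟨x, hxT⟩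
    rw [Subgroup.orderOf_mk] at hk
    rw [hk]
    exact Nat.Coprime.pow_left _ hcop.symm
  exact Cfsg.Agent.Lib.H7Basic.mem_of_pow_mem_of_coprime _ x m h3 h2


/-- For an abelian Sylow p-subgroup T, its intersection with the subgroup generated by the elements of order prime to p is the commutator of T with its normalizer. -/
theorem result {G : Type*} [Group G] [Finite G] {p : ℕ} [Fact p.Prime] (T : Sylow p G) (hT : IsMulCommutative T) : (T : Subgroup G) ⊓ Cfsg.pResidual p G = ⁅(T : Subgroup G), Subgroup.normalizer (T : Set G)⁆ := by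
  classical
  haveI := hT
  let N : Subgroup G := Subgroup.normalizer ((T : Subgroup G) : Set G)
  have hTN : (T : Subgroup G) ≤ N := Subgroup.le_normalizer
  have hcomm : commutator G ≤ Cfsg.pResidual p G := by
    -- `G / R` is an image of `T`
    haveI hRn : (Cfsg.pResidual p G).Normal := Cfsg.Agent.Lib.PResidual.pResidual_normal p G
    have hsup : Cfsg.pResidual p G ⊔ (T : Subgroup G) = ⊤ := Cfsg.Agent.Lib.PResidual.pResidual_sup_sylow T
    have hgen : Subgroup.closure (((Cfsg.pResidual p G : Subgroup G) : Set G) ∪ ((T : Subgroup G) : Set G)) = ⊤ := by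
      rw [Subgroup.closure_union, Subgroup.closure_eq, Subgroup.closure_eq, hsup]
    refine Cfsg.Agent.Lib.H7PGroup.commutator_le_of_closure _ hgen _ ?_
    rintro a (ha | ha) b (hb | hb)
    · exact (Subgroup.commutator_le_left _ ⊤) (Subgroup.commutator_mem_commutator ha (Subgroup.mem_top b))
    · exact (Subgroup.commutator_le_left _ ⊤) (Subgroup.commutator_mem_commutator ha (Subgroup.mem_top b))
    · exact (Subgroup.commutator_le_right ⊤ _) (Subgroup.commutator_mem_commutator (Subgroup.mem_top a) hb)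
    · have : ⁅a, b⁆ = 1 := by
        rw [commutatorElement_eq_one_iff_mul_comm]
        exact congrArg Subtype.val (hT.is_comm.comm ⟨a, ha⟩ ⟨b, hb⟩)
      rw [this]
      exact Subgroup.one_mem _
  -- apply the normal Hall decomposition inside `N`
  let A : Subgroup N := (T : Subgroup G).subgroupOf N
  haveI hAn : A.Normal := Subgroup.normal_in_normalizer
  have hAc : IsMulCommutative A := ⟨⟨fun a b => by
    apply Subtype.ext
    apply Subtype.ext
    show ((a : N) : G) * ((b : N) : G) = ((b : N) : G) * ((a : N) : G)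
    exact congrArg Subtype.val (hT.is_comm.comm ⟨_, a.2⟩ ⟨_, b.2⟩)⟩⟩
  have hHall : Nat.Coprime (Nat.card A) A.index := by
    have h1 := (T.subtype hTN).card_coprime_index
    rwa [Sylow.coe_subtype] at h1
  obtain ⟨h1, -, -⟩ := Cfsg.Agent.S0090.result A hAc hHall
  have hmap : A.map N.subtype = (T : Subgroup G) := Subgroup.map_subgroupOf_eq_of_le hTN
  have htop : (⊤ : Subgroup N).map N.subtype = N := by
    rw [← MonoidHom.range_eq_map, Subgroup.range_subtype]
  have h2 : ⁅(T : Subgroup G), N⁆ = ⁅N, N⁆ ⊓ (T : Subgroup G) := by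
    have h3 := congrArg (Subgroup.map N.subtype) h1
    rw [Subgroup.map_commutator, hmap, htop, Subgroup.map_inf _ _ _ N.subtype_injective] at h3
    rw [h3, hmap, Subgroup.map_subtype_commutator]
  have h4 := Cfsg.Agent.S0074.result T hT
  show (T : Subgroup G) ⊓ Cfsg.pResidual p G = ⁅(T : Subgroup G), N⁆
  rw [h2]
  apply le_antisymm
  · rintro x ⟨hxT, hxR⟩
    have h5 : x ∈ commutator G ⊓ (T : Subgroup G) := ⟨inf_residual_le T ⟨hxT, hxR⟩, hxT⟩
    rw [h4] at h5
    exact h5
  · rintro x ⟨hx1, hx2⟩
    refine ⟨hx2, hcomm ?_⟩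
    exact (Subgroup.commutator_mono le_top le_top) hx1

end Cfsg.Agent.S0075
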