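import Cfsg.Statements.S2389
import Cfsg.Agent.Lib.SpSemi
import Cfsg.Agent.Lib.GLClass
-- import your own Cfsg.Agent.* helpers here

set_option autoImplicit false
set_option linter.all false
open Cfsg

namespace Cfsg.Agent.S2389

/-- In the symplectic group `Sp_{2n}(q)`, `q` a power of the prime `p`, two elements of order prime to `p` with the same characteristic polynomial are conjugate in `Sp_{2n}(q)`. -/
theorem result {F : Type*} [Field F] [Fintype F] (p : ℕ) [Fact p.Prime] [CharP F p] (n : ℕ)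
    (g h : ↥(Matrix.symplecticGroup (Fin n) F)) (hg : (orderOf g).Coprime p) (hh : (orderOf h).Coprime p)
    (hc : (g : Matrix (Fin n ⊕ Fin n) (Fin n ⊕ Fin n) F).charpoly = (h : Matrix (Fin n ⊕ Fin n) (Fin n ⊕ Fin n) F).charpoly) :
    IsConj g h := by
  classical
  apply Cfsg.Agent.Lib.SpSemi.sp_conj (p := p) g h hg
  let e : (Fin n ⊕ Fin n) ≃ Fin (n + n) := finSumFinEquiv
  let ρ := Matrix.reindexAlgEquiv F F e
  let toM : ↥(Matrix.symplecticGroup (Fin n) F) →* (Matrix (Fin (n + n)) (Fin (n + n)) F) :=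
    (ρ : Matrix (Fin n ⊕ Fin n) (Fin n ⊕ Fin n) F →* Matrix (Fin (n + n)) (Fin (n + n)) F).comp
      (Matrix.symplecticGroup (Fin n) F).subtype
  let u : ↥(Matrix.symplecticGroup (Fin n) F) → GL (Fin (n + n)) F := fun a =>
    ⟨toM a, toM a⁻¹, by rw [← map_mul]; simp, by rw [← map_mul]; simp⟩
  have hupow : ∀ a, (u a) ^ orderOf a = 1 := by
    intro a
    apply Units.ext
    show (toM a) ^ orderOf a = 1
    rw [← map_pow, pow_orderOf_eq_one, map_one]
  have hco : ∀ a, (orderOf a).Coprime p → (orderOf (u a)).Coprime p := by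
    intro a ha
    exact Nat.Coprime.coprime_dvd_left (orderOf_dvd_of_pow_eq_one (hupow a)) ha
  have hch : ∀ a : ↥(Matrix.symplecticGroup (Fin n) F), ((u a : GL (Fin (n + n)) F) : Matrix (Fin (n + n)) (Fin (n + n)) F).charpoly =
      (a : Matrix (Fin n ⊕ Fin n) (Fin n ⊕ Fin n) F).charpoly := by
    intro a
    exact Matrix.charpoly_reindex e _
  have hconj := Cfsg.Agent.Lib.GLClass.conj_of_charpoly (p := p) (u g) (u h) (hco g hg) (hco h hh) (by rw [hch, hch, hc])
  obtain ⟨c, hc'⟩ := isConj_iff.1 hconj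
  have hc2 : (c : Matrix (Fin (n + n)) (Fin (n + n)) F) * toM g = toM h * (c : Matrix (Fin (n + n)) (Fin (n + n)) F) := by
    have h1 : c * u g = u h * c := by rw [← hc']; group
    exact congrArg Units.val h1
  refine ⟨⟨ρ.symm c.1, ρ.symm (c⁻¹).1, ?_, ?_⟩, ?_⟩
  · rw [← map_mul, c.mul_inv, map_one]
  · rw [← map_mul, c.inv_mul, map_one]
  · show ρ.symm c.1 * (g : Matrix (Fin n ⊕ Fin n) (Fin n ⊕ Fin n) F) = (h : Matrix (Fin n ⊕ Fin n) (Fin n ⊕ Fin n) F) * ρ.symm c.1
    apply ρ.injective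
    rw [map_mul, map_mul, AlgEquiv.apply_symm_apply]
    exact hc2

end Cfsg.Agent.S2389
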