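import Cfsg.Statements.S0839
-- import your own Cfsg.Agent.* helpers here

set_option autoImplicit false
open Cfsg

namespace Cfsg.Agent.S0839

/-- Every transvection t ∈ SL_(n+2)(F) (rank(t − 1) = 1, (t − 1)² = 0) is conjugate in SL_(n+2)(F) to 1 + v·e_0ᵀ for some column vector v with v_0 = 0 (the group A of matrices that are the identity except in the first column below the diagonal); the dimension is written n + 2 ≥ 2. -/
theorem result {F : Type*} [Field F] (n : ℕ) (t : Matrix.SpecialLinearGroup (Fin (n + 2)) F) (ht : Cfsg.IsTransvection (t : Matrix (Fin (n + 2)) (Fin (n + 2)) F)) : ∃ (g : Matrix.SpecialLinearGroup (Fin (n + 2)) F) (v : Fin (n + 2) → F), v 0 = 0 ∧ ((g⁻¹ * t * g : Matrix.SpecialLinearGroup (Fin (n + 2)) F) : Matrix (Fin (n + 2)) (Fin (n + 2)) F) = 1 + Matrix.vecMulVec v (Pi.single 0 1) := by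
  classical
  obtain ⟨hrank, hsq⟩ := ht
  set N : Matrix (Fin (n + 2)) (Fin (n + 2)) F := (t : Matrix (Fin (n + 2)) (Fin (n + 2)) F) - 1 with hN
  -- write `N` as a product of a column and a row
  obtain ⟨a, b, hab⟩ : ∃ a b : Fin (n + 2) → F, N = Matrix.vecMulVec a b := by
    have h1 : Module.finrank F (LinearMap.range N.mulVecLin) = 1 := hrank
    obtain ⟨⟨a, ha⟩, ha0, hall⟩ := finrank_eq_one_iff'.1 h1
    have hcol : ∀ j, ∃ c : F, c • a = N.mulVecLin (Pi.single j 1) := by
      intro j
      obtain ⟨c, hc⟩ := hall ⟨N.mulVecLin (Pi.single j 1), LinearMap.mem_range_self _ _⟩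
      exact ⟨c, congrArg Subtype.val hc⟩
    choose b hb using hcol
    refine ⟨a, b, ?_⟩
    ext i j
    have h2 := congrFun (hb j) i
    simp only [Pi.smul_apply, smul_eq_mul, Matrix.mulVecLin_apply, Matrix.mulVec_single_one,
      Matrix.col_apply] at h2
    rw [← h2, Matrix.vecMulVec_apply, mul_comm]
  have hN0 : N ≠ 0 := by
    intro h0
    rw [h0, Matrix.rank_zero] at hrank
    exact zero_ne_one hrank
  have hb0 : b ≠ 0 := by
    rintro rfl
    apply hN0
    rw [hab]
    ext i j
    simp [Matrix.vecMulVec_apply]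
  have ha0 : a ≠ 0 := by
    rintro rfl
    apply hN0
    rw [hab]
    ext i j
    simp [Matrix.vecMulVec_apply]
  have hdot : b ⬝ᵥ a = 0 := by
    rw [hab, Matrix.vecMulVec_mul_vecMulVec] at hsq
    rcases Matrix.vecMulVec_eq_zero.1 hsq with h2 | h2
    · exact absurd h2 ha0
    · rcases smul_eq_zero.1 h2 with h3 | h3
      · exact h3
      · exact absurd h3 hb0
  -- a special linear matrix with given first row
  have hrow : ∀ c : Fin (n + 2) → F, c 0 ≠ 0 →
      ∃ h : Matrix.SpecialLinearGroup (Fin (n + 2)) F, ∀ j, (h : Matrix (Fin (n + 2)) (Fin (n + 2)) F) 0 j = c j := by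
    intro c hc
    let H : Matrix (Fin (n + 2)) (Fin (n + 2)) F := Matrix.of fun i j =>
      if i = 0 then c j else if i = 1 then (if j = 1 then (c 0)⁻¹ else 0) else (if i = j then 1 else 0)
    have hdet : H.det = 1 := by
      have h1 : H.BlockTriangular id := by
        intro i j hij
        have hij' : j < i := hij
        have hi0 : i ≠ 0 := by
          rintro rfl
          exact (Fin.not_lt_zero j) hij'
        simp only [H, Matrix.of_apply, if_neg hi0]
        by_cases hi1 : i = 1
        · subst hi1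
          have hj : j ≠ 1 := by
            rintro rfl
            exact lt_irrefl _ hij'
          simp [hj]
        · simp only [if_neg hi1]
          rw [if_neg]
          rintro rfl
          exact lt_irrefl _ hij'
      rw [Matrix.det_of_isUpperTriangular h1]
      rw [Fin.prod_univ_succ, Fin.prod_univ_succ]
      have h2 : H 0 0 = c 0 := by simp [H]
      have h3 : H (Fin.succ 0) (Fin.succ 0) = (c 0)⁻¹ := by
        simp [H]
      have h4 : ∀ i : Fin n, H (Fin.succ (Fin.succ i)) (Fin.succ (Fin.succ i)) = 1 := by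
        intro i
        have h5 : (Fin.succ (Fin.succ i) : Fin (n + 2)) ≠ 0 := Fin.succ_ne_zero _
        have h6 : (Fin.succ (Fin.succ i) : Fin (n + 2)) ≠ 1 := by
          intro h7
          have := congrArg Fin.val h7
          simp at this
        simp only [H, Matrix.of_apply, if_neg h5, if_neg h6, if_true]
      simp only [h2, h3, h4, Finset.prod_const_one, mul_one]
      exact mul_inv_cancel₀ hc
    refine ⟨⟨H, hdet⟩, fun j => ?_⟩
    show H 0 j = c j
    simp [H]
  have hrow' : ∃ h : Matrix.SpecialLinearGroup (Fin (n + 2)) F,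
      ∀ j, (h : Matrix (Fin (n + 2)) (Fin (n + 2)) F) 0 j = b j := by
    by_cases hb00 : b 0 = 0
    · obtain ⟨r, hr⟩ := Function.ne_iff.1 hb0
      have hr' : b r ≠ 0 := hr
      have hr0 : r ≠ 0 := by
        rintro rfl
        exact hr' hb00
      obtain ⟨h', hh'⟩ := hrow (b + Pi.single 0 (b r)) (by simpa [hb00] using hr')
      let T : Matrix.SpecialLinearGroup (Fin (n + 2)) F := ⟨Matrix.transvection r 0 (-1), Matrix.det_transvection_of_ne r 0 hr0 (-1)⟩
      refine ⟨h' * T, fun j => ?_⟩
      rw [Matrix.SpecialLinearGroup.coe_mul]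
      show (((h' : Matrix (Fin (n + 2)) (Fin (n + 2)) F) * (Matrix.transvection r 0 (-1) : Matrix (Fin (n + 2)) (Fin (n + 2)) F) : Matrix (Fin (n + 2)) (Fin (n + 2)) F)) 0 j = b j
      by_cases hj : j = 0
      · subst hj
        rw [Matrix.mul_transvection_apply_same, hh', hh']
        simp [hb00, Pi.single_eq_of_ne hr0]
      · rw [Matrix.mul_transvection_apply_of_ne _ _ _ _ hj, hh']
        simp [Pi.single_eq_of_ne hj]
    · exact hrow b hb00
  obtain ⟨h, hh⟩ := hrow'
  refine ⟨h⁻¹, Matrix.mulVec (h : Matrix (Fin (n + 2)) (Fin (n + 2)) F) a, ?_, ?_⟩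
  · rw [Matrix.mulVec, dotProduct]
    simp only [hh]
    exact hdot
  · have ht' : (t : Matrix (Fin (n + 2)) (Fin (n + 2)) F) = 1 + Matrix.vecMulVec a b := by
      rw [← hab, hN]
      abel
    have hinv : ((h⁻¹ : Matrix.SpecialLinearGroup (Fin (n + 2)) F)⁻¹ : Matrix.SpecialLinearGroup (Fin (n + 2)) F) = h := inv_inv h
    rw [hinv, Matrix.SpecialLinearGroup.coe_mul, Matrix.SpecialLinearGroup.coe_mul, ht']
    have hh1 : (h : Matrix (Fin (n + 2)) (Fin (n + 2)) F) * ((h⁻¹ : Matrix.SpecialLinearGroup (Fin (n + 2)) F) : Matrix (Fin (n + 2)) (Fin (n + 2)) F) = 1 := by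
      rw [← Matrix.SpecialLinearGroup.coe_mul, mul_inv_cancel, Matrix.SpecialLinearGroup.coe_one]
    have hrowinv : Matrix.vecMul b ((h⁻¹ : Matrix.SpecialLinearGroup (Fin (n + 2)) F) : Matrix (Fin (n + 2)) (Fin (n + 2)) F) = Pi.single 0 1 := by
      have h1 : b = Matrix.vecMul (Pi.single 0 1) (h : Matrix (Fin (n + 2)) (Fin (n + 2)) F) := by
        ext j
        rw [Matrix.single_one_vecMul]
        exact (hh j).symm
      rw [h1, Matrix.vecMul_vecMul, hh1, Matrix.vecMul_one]
    rw [mul_add, add_mul, mul_one, hh1, Matrix.mul_vecMulVec, Matrix.vecMulVec_mul, hrowinv]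

end Cfsg.Agent.S0839
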