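import Cfsg.Statements.S2579
import Cfsg.Agent.S0839
import Cfsg.Agent.Lib.Transvection

set_option autoImplicit false
open Cfsg

namespace Cfsg.Agent.S2579

open Matrix in
/-- the row-column transvection matrix -/
abbrev MM {n : ℕ} {F : Type*} [Field F] (v : Fin (n + 1) → F) : Matrix (Fin (n + 1)) (Fin (n + 1)) F :=
  1 + Matrix.vecMulVec v (Pi.single 0 1)

theorem mm_mulVec {n : ℕ} {F : Type*} [Field F] (v x : Fin (n + 1) → F) :
    Matrix.mulVec (MM v) x = x + x 0 • v := by
  rw [MM, Matrix.add_mulVec, Matrix.one_mulVec]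
  congr 1
  ext i
  simp [Matrix.mulVec, dotProduct, Matrix.vecMulVec_apply, Pi.single_apply, mul_comm]

theorem exists_psi {V F : Type*} [Field F] [AddCommGroup V] [Module F V] [FiniteDimensional F V] (v v' : V)
    (h1 : v ∉ Submodule.span F {v'}) (h2 : v' ∉ Submodule.span F {v}) :
    ∃ ψ : V →ₗ[F] F, ψ v = 1 ∧ ψ v' = 1 := by
  obtain ⟨f, hf, hf0⟩ := Submodule.exists_dual_map_eq_bot_of_notMem h1 inferInstance
  obtain ⟨g, hg, hg0⟩ := Submodule.exists_dual_map_eq_bot_of_notMem h2 inferInstance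
  have hfv' : f v' = 0 := by
    have : f v' ∈ (Submodule.span F {v'}).map f := Submodule.mem_map_of_mem (Submodule.mem_span_singleton_self v')
    rw [hf0] at this
    simpa using this
  have hgv : g v = 0 := by
    have : g v ∈ (Submodule.span F {v}).map g := Submodule.mem_map_of_mem (Submodule.mem_span_singleton_self v)
    rw [hg0] at this
    simpa using this
  refine ⟨(f v)⁻¹ • f + (g v')⁻¹ • g, ?_, ?_⟩
  · simp [hgv, hf]
  · simp [hfv', hg]

open Matrix in
/-- conjugacy of the standard transvections -/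
theorem step {n : ℕ} {F : Type*} [Field F] (v v' : Fin (n + 1) → F) (hv : v 0 = 0) (hv' : v' 0 = 0)
    (h1 : v ∉ Submodule.span F {v'}) (h2 : v' ∉ Submodule.span F {v}) :
    ∃ c : Matrix.SpecialLinearGroup (Fin (n + 1)) F, (c : Matrix _ _ F) * MM v = MM v' * (c : Matrix _ _ F) := by
  classical
  obtain ⟨ψ, hψ1, hψ2⟩ := exists_psi v v' h1 h2
  have hw : ψ (v' - v) = 0 := by simp [hψ1, hψ2]
  have hdet : (Cfsg.Agent.Lib.Transvection.tvMat ψ (v' - v)).det = 1 := Cfsg.Agent.Lib.Transvection.tvMat_det ψ _ hw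
  refine ⟨⟨_, hdet⟩, ?_⟩
  apply Cfsg.Agent.Lib.Transvection.matrix_ext_mulVec
  intro x
  show ((Cfsg.Agent.Lib.Transvection.tvMat ψ (v' - v)) * MM v) *ᵥ x = (MM v' * (Cfsg.Agent.Lib.Transvection.tvMat ψ (v' - v))) *ᵥ x
  rw [← Matrix.mulVec_mulVec, ← Matrix.mulVec_mulVec, mm_mulVec, mm_mulVec, Cfsg.Agent.Lib.Transvection.tvMat_mulVec, Cfsg.Agent.Lib.Transvection.tvMat_mulVec]
  simp only [map_add, map_smul, hψ1, smul_eq_mul, mul_one]
  ext i
  have h0 : (x + ψ x • (v' - v)) 0 = x 0 := by simp [hv, hv']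
  rw [h0]
  simp only [Pi.add_apply, Pi.smul_apply, Pi.sub_apply, smul_eq_mul]
  ring

/-- In SL_n(F) with n ≥ 3, over a finite field F, any two transvections (matrices t with t − 1 of rank one and square zero) are conjugate by an element of SL_n(F). -/
theorem result {F : Type*} [Field F] [Finite F] {n : ℕ} (hn : 3 ≤ n) (s t : Matrix.SpecialLinearGroup (Fin n) F) (hs : Cfsg.IsTransvection (s : Matrix (Fin n) (Fin n) F)) (ht : Cfsg.IsTransvection (t : Matrix (Fin n) (Fin n) F)) : IsConj s t := by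
  classical
  obtain ⟨j, rfl⟩ : ∃ j, n = j + 3 := ⟨n - 3, by omega⟩
  obtain ⟨g1, v1, hv10, h1⟩ := Cfsg.Agent.S0839.result (j + 1) s hs
  obtain ⟨g2, v2, hv20, h2⟩ := Cfsg.Agent.S0839.result (j + 1) t ht
  have hne : ∀ (u : Matrix.SpecialLinearGroup (Fin (j + 3)) F) (hu : Cfsg.IsTransvection (u : Matrix (Fin (j + 3)) (Fin (j + 3)) F)) (g : Matrix.SpecialLinearGroup (Fin (j + 3)) F) (v : Fin (j + 3) → F),
      ((g⁻¹ * u * g : Matrix.SpecialLinearGroup (Fin (j + 3)) F) : Matrix (Fin (j + 3)) (Fin (j + 3)) F) = 1 + Matrix.vecMulVec v (Pi.single 0 1) → v ≠ 0 := by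
    intro u hu g v h hv
    subst hv
    have h0 : (g⁻¹ * u * g : Matrix.SpecialLinearGroup (Fin (j + 3)) F) = 1 := by
      apply Subtype.ext
      rw [h]
      simp [Matrix.vecMulVec]
      rfl
    have hu1 : u = 1 := by
      have : u = g * (g⁻¹ * u * g) * g⁻¹ := by group
      rw [this, h0]; group
    have := hu.1
    rw [hu1] at this
    simp at this
  have hv1 := hne s hs g1 v1 h1
  have hv2 := hne t ht g2 v2 h2
  have hrel : ∃ c : Matrix.SpecialLinearGroup (Fin (j + 3)) F, (c : Matrix _ _ F) * MM v1 = MM v2 * (c : Matrix _ _ F) := by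
    by_cases hind : v1 ∉ Submodule.span F {v2} ∧ v2 ∉ Submodule.span F {v1}
    · exact step v1 v2 hv10 hv20 hind.1 hind.2
    · -- the dependent case
      have hsp : Submodule.span F {v1} = Submodule.span F {v2} := by
        have hdep : v1 ∈ Submodule.span F {v2} ∨ v2 ∈ Submodule.span F {v1} := by tauto
        rcases hdep with h | h
        · obtain ⟨a, rfl⟩ := Submodule.mem_span_singleton.mp h
          have ha : a ≠ 0 := by
            rintro rfl
            exact hv1 (zero_smul _ _)
          exact Submodule.span_singleton_smul_eq (IsUnit.mk0 a ha) v2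
        · obtain ⟨a, rfl⟩ := Submodule.mem_span_singleton.mp h
          have ha : a ≠ 0 := by
            rintro rfl
            exact hv2 (zero_smul _ _)
          exact (Submodule.span_singleton_smul_eq (IsUnit.mk0 a ha) v1).symm
      -- choose `z`
      obtain ⟨z, hz0, hz⟩ : ∃ z : Fin (j + 3) → F, z 0 = 0 ∧ z ∉ Submodule.span F {v1} := by
        by_contra hall
        push Not at hall
        have v2' : ((2 : Fin (j + 3)) : ℕ) = 2 := show 2 % (j + 3) = 2 from Nat.mod_eq_of_lt (by omega)
        have v1' : ((1 : Fin (j + 3)) : ℕ) = 1 := show 1 % (j + 3) = 1 from Nat.mod_eq_of_lt (by omega)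
        have v0' : ((0 : Fin (j + 3)) : ℕ) = 0 := rfl
        have h01 : (1 : Fin (j + 3)) ≠ 0 := by
          intro h; have := congrArg Fin.val h; omega
        have h02 : (2 : Fin (j + 3)) ≠ 0 := by
          intro h; have := congrArg Fin.val h; omega
        have h12 : (2 : Fin (j + 3)) ≠ 1 := by
          intro h; have := congrArg Fin.val h; omega
        have e1 : (Pi.single 1 1 : Fin (j + 3) → F) ∈ Submodule.span F {v1} := hall _ (Pi.single_eq_of_ne (Ne.symm h01) _)
        have e2 : (Pi.single 2 1 : Fin (j + 3) → F) ∈ Submodule.span F {v1} := hall _ (Pi.single_eq_of_ne (Ne.symm h02) _)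
        obtain ⟨a, ha⟩ := Submodule.mem_span_singleton.mp e1
        obtain ⟨b, hb⟩ := Submodule.mem_span_singleton.mp e2
        have h1' : a * v1 1 = 1 := by
          have := congrFun ha 1
          rwa [Pi.smul_apply, smul_eq_mul, Pi.single_eq_same] at this
        have h2' : b * v1 1 = 0 := by
          have := congrFun hb 1
          rwa [Pi.smul_apply, smul_eq_mul, Pi.single_eq_of_ne (Ne.symm h12)] at this
        have h3' : b * v1 2 = 1 := by
          have := congrFun hb 2
          rwa [Pi.smul_apply, smul_eq_mul, Pi.single_eq_same] at this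
        have hv11 : v1 1 ≠ 0 := by
          intro h; rw [h, mul_zero] at h1'; exact zero_ne_one h1'
        have hb0 : b = 0 := by
          rcases mul_eq_zero.mp h2' with h | h
          · exact h
          · exact absurd h hv11
        rw [hb0, zero_mul] at h3'
        exact zero_ne_one h3'
      have hnot : ∀ y : Fin (j + 3) → F, y ≠ 0 → z ∉ Submodule.span F {y} → y ∉ Submodule.span F {z} := by
        intro y hy hzy hyz
        obtain ⟨a, rfl⟩ := Submodule.mem_span_singleton.mp hyz
        have ha : a ≠ 0 := by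
          rintro rfl
          exact hy (zero_smul _ _)
        apply hzy
        rw [Submodule.span_singleton_smul_eq (IsUnit.mk0 a ha) z]
        exact Submodule.mem_span_singleton_self z
      have hz2 : z ∉ Submodule.span F {v2} := hsp ▸ hz
      obtain ⟨c1, hc1⟩ := step v1 z hv10 hz0 (hnot v1 hv1 hz) hz
      obtain ⟨c2, hc2⟩ := step z v2 hz0 hv20 hz2 (hnot v2 hv2 hz2)
      refine ⟨c2 * c1, ?_⟩
      rw [Matrix.SpecialLinearGroup.coe_mul, Matrix.mul_assoc, hc1, ← Matrix.mul_assoc, hc2, Matrix.mul_assoc]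
  obtain ⟨c, hc⟩ := hrel
  have hconj1 : IsConj s (g1⁻¹ * s * g1) := isConj_iff.mpr ⟨g1⁻¹, by group⟩
  have hconj2 : IsConj t (g2⁻¹ * t * g2) := isConj_iff.mpr ⟨g2⁻¹, by group⟩
  have hconj3 : IsConj (g1⁻¹ * s * g1) (g2⁻¹ * t * g2) := by
    rw [isConj_iff]
    refine ⟨c, ?_⟩
    have : c * (g1⁻¹ * s * g1) = (g2⁻¹ * t * g2) * c := by
      apply Subtype.ext
      rw [Matrix.SpecialLinearGroup.coe_mul, Matrix.SpecialLinearGroup.coe_mul _ c, h1, h2]
      exact hc
    rw [this]; group
  exact (hconj1.trans hconj3).trans hconj2.symm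

end Cfsg.Agent.S2579
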