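import Mathlib
import Cfsg.Agent.Lib.InvPair
import Cfsg.Statements.S0236
-- import your own Cfsg.Agent.* helpers here

set_option autoImplicit false
open Cfsg

namespace Cfsg.Agent.S0236

/-- If x is an involution, the number of ordered pairs (u, v) of involutions with uv = x, plus one, equals the number of involutions in the centralizer of x. -/
theorem result {G : Type*} [Group G] [Finite G] (x : G) (hx : orderOf x = 2) : Nat.card {p : G × G // orderOf p.1 = 2 ∧ orderOf p.2 = 2 ∧ p.1 * p.2 = x} + 1 = Nat.card {t : G // orderOf t = 2 ∧ Commute t x} := by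
  classical
  have hx2 := Cfsg.Agent.Lib.InvPair.mul_self_of_order hx
  have hxi := Cfsg.Agent.Lib.InvPair.inv_of_order hx
  have hP : orderOf x = 2 ∧ Commute x x := ⟨hx, Commute.refl x⟩
  rw [← Cfsg.Agent.Lib.InvPair.card_subtype_succ (Q := fun t => orderOf t = 2 ∧ Commute t x) hP]
  congr 1
  refine Nat.card_congr
    { toFun := fun p => ⟨p.1.1, ⟨p.2.1, ?_⟩, ?_⟩
      invFun := fun t => ⟨(t.1, t.1 * x), t.2.1.1, ?_, ?_⟩
      left_inv := ?_
      right_inv := ?_ }
  · have h1 := Cfsg.Agent.Lib.InvPair.inverts_of_pair p.2.1 p.2.2.1 p.2.2.2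
    rw [hxi] at h1
    exact mul_inv_eq_iff_eq_mul.1 h1
  · intro h
    have h1 := p.2.2.2
    rw [h] at h1
    have h2 : p.1.2 = 1 := by
      have : x * p.1.2 = x * 1 := by rw [h1, mul_one]
      exact mul_left_cancel this
    have h3 := p.2.2.1
    rw [h2, orderOf_one] at h3
    omega
  · obtain ⟨t, ⟨ht, hc⟩, hne⟩ := t
    simp only
    have ht2 := Cfsg.Agent.Lib.InvPair.mul_self_of_order ht
    apply orderOf_eq_prime
    · rw [pow_two]
      calc t * x * (t * x) = t * (x * t) * x := by group
        _ = t * (t * x) * x := by rw [hc.eq]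
        _ = (t * t) * (x * x) := by group
        _ = 1 := by rw [ht2, hx2, one_mul]
    · intro h
      apply hne
      have h3 : t * x = t * t := by rw [h, ht2]
      exact (mul_left_cancel h3).symm
  · simp only
    have ht2 := Cfsg.Agent.Lib.InvPair.mul_self_of_order t.2.1.1
    rw [← mul_assoc, ht2, one_mul]
  · rintro ⟨⟨u, v⟩, hu, hv, e⟩
    simp only at hu hv e ⊢
    have hu2 := Cfsg.Agent.Lib.InvPair.mul_self_of_order hu
    apply Subtype.ext
    simp only [Prod.mk.injEq, true_and]
    rw [← e, ← mul_assoc, hu2, one_mul]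
  · rintro ⟨t, ht, e⟩
    rfl

end Cfsg.Agent.S0236
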