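import Mathlib
import Cfsg.Statements.S0237
-- import your own Cfsg.Agent.* helpers here

set_option autoImplicit false
open Cfsg

namespace Cfsg.Agent.S0237

/-- If x is real (conjugate to x⁻¹) in a finite group G, the number of g with g x g⁻¹ = x⁻¹ equals |C_G(x)|. -/
theorem result {G : Type*} [Group G] [Finite G] (x : G) (hreal : IsConj x x⁻¹) : Nat.card {g : G // g * x * g⁻¹ = x⁻¹} = Nat.card (Subgroup.centralizer ({x} : Set G)) := by
  classical
  obtain ⟨c, hc⟩ := isConj_iff.1 hreal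
  have hmem : ∀ z : G, z ∈ Subgroup.centralizer ({x} : Set G) ↔ z * x * z⁻¹ = x := by
    intro z
    rw [Subgroup.mem_centralizer_singleton_iff, mul_inv_eq_iff_eq_mul]
  refine Nat.card_congr
    { toFun := fun g => ⟨c⁻¹ * g.1, ?_⟩
      invFun := fun z => ⟨c * z.1, ?_⟩
      left_inv := ?_
      right_inv := ?_ }
  · rw [hmem]
    have h1 := g.2
    have : c⁻¹ * g.1 * x * (c⁻¹ * g.1)⁻¹ = c⁻¹ * (g.1 * x * g.1⁻¹) * c := by group
    rw [this, h1, ← hc]
    group
  · have h1 := (hmem z.1).1 z.2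
    have : c * z.1 * x * (c * z.1)⁻¹ = c * (z.1 * x * z.1⁻¹) * c⁻¹ := by group
    rw [this, h1, hc]
  · intro g
    apply Subtype.ext
    simp
  · intro z
    apply Subtype.ext
    simp

end Cfsg.Agent.S0237
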