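import Mathlib
import Cfsg.Agent.Lib.InvPair
import Cfsg.Agent.S0236
import Cfsg.Agent.S0237
import Cfsg.Statements.S0238
-- import your own Cfsg.Agent.* helpers here

set_option autoImplicit false
open Cfsg

namespace Cfsg.Agent.S0238

/-- For every x in a finite group G, the number c of ordered pairs (u, v) of involutions with uv = x is at most |C_G(x)|; c = 0 when x is not conjugate to x⁻¹; and c + 2 ≤ |C_G(x)| when x is an involution. -/
theorem result {G : Type*} [Group G] [Finite G] (x : G) : Nat.card {p : G × G // orderOf p.1 = 2 ∧ orderOf p.2 = 2 ∧ p.1 * p.2 = x} ≤ Nat.card (Subgroup.centralizer ({x} : Set G)) ∧ (¬ IsConj x x⁻¹ → Nat.card {p : G × G // orderOf p.1 = 2 ∧ orderOf p.2 = 2 ∧ p.1 * p.2 = x} = 0) ∧ (orderOf x = 2 → Nat.card {p : G × G // orderOf p.1 = 2 ∧ orderOf p.2 = 2 ∧ p.1 * p.2 = x} + 2 ≤ Nat.card (Subgroup.centralizer ({x} : Set G))) := by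
  classical
  have hc : ∀ p : {p : G × G // orderOf p.1 = 2 ∧ orderOf p.2 = 2 ∧ p.1 * p.2 = x}, IsConj x x⁻¹ := by
    intro p
    exact isConj_iff.2 ⟨p.1.1, Cfsg.Agent.Lib.InvPair.inverts_of_pair p.2.1 p.2.2.1 p.2.2.2⟩
  have hmem : ∀ c : G, Function.Injective (fun z : {g : G // g * x * g⁻¹ = x⁻¹} => z.1) :=
    fun _ => Subtype.val_injective
  refine ⟨?_, ?_, ?_⟩
  · by_cases hne : Nonempty {p : G × G // orderOf p.1 = 2 ∧ orderOf p.2 = 2 ∧ p.1 * p.2 = x}
    · obtain ⟨p⟩ := hne
      have hreal := hc p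
      have hcount : Nat.card {g : G // g * x * g⁻¹ = x⁻¹} =
          Nat.card (Subgroup.centralizer ({x} : Set G)) := Cfsg.Agent.S0237.result x hreal
      rw [← hcount]
      refine Nat.card_le_card_of_injective
        (fun q => ⟨q.1.1, Cfsg.Agent.Lib.InvPair.inverts_of_pair q.2.1 q.2.2.1 q.2.2.2⟩) ?_
      intro q₁ q₂ h
      have h1 : q₁.1.1 = q₂.1.1 := congrArg Subtype.val h
      apply Subtype.ext
      apply Prod.ext h1
      have e3 : q₁.1.1 * q₁.1.2 = q₂.1.1 * q₂.1.2 := q₁.2.2.2.trans q₂.2.2.2.symm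
      rw [h1] at e3
      exact mul_left_cancel e3
    · rw [not_nonempty_iff] at hne
      simp
  · intro hn
    haveI : IsEmpty {p : G × G // orderOf p.1 = 2 ∧ orderOf p.2 = 2 ∧ p.1 * p.2 = x} :=
      ⟨fun p => hn (hc p)⟩
    simp
  · intro hx
    have h1 := Cfsg.Agent.S0236.result x hx
    have h2 : Nat.card {z : Subgroup.centralizer ({x} : Set G) // True ∧ z ≠ 1} + 1 =
        Nat.card {z : Subgroup.centralizer ({x} : Set G) // True} :=
      Cfsg.Agent.Lib.InvPair.card_subtype_succ (Q := fun _ => True) trivial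
    have h3 : Nat.card {z : Subgroup.centralizer ({x} : Set G) // True} =
        Nat.card (Subgroup.centralizer ({x} : Set G)) :=
      Nat.card_congr (Equiv.subtypeUnivEquiv (fun _ => trivial))
    have h4 : Nat.card {t : G // orderOf t = 2 ∧ Commute t x} ≤
        Nat.card {z : Subgroup.centralizer ({x} : Set G) // True ∧ z ≠ 1} := by
      refine Nat.card_le_card_of_injective
        (fun t => ⟨⟨t.1, Subgroup.mem_centralizer_singleton_iff.2 t.2.2.eq⟩, trivial, ?_⟩) ?_
      · intro h
        have h5 : t.1 = 1 := congrArg Subtype.val h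
        have h6 := t.2.1
        rw [h5, orderOf_one] at h6
        omega
      · intro a b h
        apply Subtype.ext
        have := congrArg (fun w : {z : Subgroup.centralizer ({x} : Set G) // True ∧ z ≠ 1} => (w.1 : G)) h
        exact this
    omega

end Cfsg.Agent.S0238
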