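import Cfsg.Statements.S5421
import Cfsg.Agent.Lib.FusionAlperin

set_option autoImplicit false
open Cfsg

namespace Cfsg.Agent.S5421

theorem inv_of_fixfree {G : Type*} [Group G] {K : Subgroup G} [Finite K] {t : G} (ht : t * t = 1)
    (htK : ∀ x ∈ K, t * x * t⁻¹ ∈ K) (hfix : ∀ x ∈ K, t * x = x * t → x = 1) :
    ∀ x ∈ K, t * x * t⁻¹ = x⁻¹ := by
  have htinv : t⁻¹ = t := by
    rw [inv_eq_iff_mul_eq_one]
    exact ht
  let f : K → K := fun x => ⟨(x : G)⁻¹ * (t * x * t⁻¹), K.mul_mem (K.inv_mem x.2) (htK _ x.2)⟩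
  have hf : Function.Injective f := by
    intro x y hxy
    have h1 : (x : G)⁻¹ * (t * x * t⁻¹) = (y : G)⁻¹ * (t * y * t⁻¹) := congrArg Subtype.val hxy
    have h2 : ((y : G) * (x : G)⁻¹) ∈ K := K.mul_mem y.2 (K.inv_mem x.2)
    have h3 : t * ((y : G) * (x : G)⁻¹) = ((y : G) * (x : G)⁻¹) * t := by
      have h4 : (y : G) * (x : G)⁻¹ = t * y * t⁻¹ * (t * x * t⁻¹)⁻¹ := by
        have h5 : (y : G) * ((x : G)⁻¹ * (t * x * t⁻¹)) = (y : G) * ((y : G)⁻¹ * (t * y * t⁻¹)) := by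
          rw [h1]
        have h6 : (y : G) * (x : G)⁻¹ * (t * x * t⁻¹) = t * y * t⁻¹ := by
          rw [mul_assoc, h5]
          group
        rw [← h6]
        group
      calc t * ((y : G) * (x : G)⁻¹) = (t * y * t⁻¹ * (t * x * t⁻¹)⁻¹) * t := by group
        _ = _ := by rw [← h4]
    have h7 := hfix _ h2 h3
    exact Subtype.ext (mul_inv_eq_one.mp h7).symm
  have hfs : Function.Surjective f := Finite.surjective_of_injective hf
  intro x hx
  obtain ⟨u, hu⟩ := hfs ⟨x, hx⟩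
  have hu' : (u : G)⁻¹ * (t * u * t⁻¹) = x := congrArg Subtype.val hu
  rw [← hu', htinv]
  have h8 : t * t = 1 := ht
  calc t * ((u : G)⁻¹ * (t * u * t)) * t = t * (u : G)⁻¹ * t * u * (t * t) := by group
    _ = t * (u : G)⁻¹ * t * u := by rw [h8, mul_one]
    _ = t⁻¹ * (u : G)⁻¹ * t⁻¹ * u := by rw [htinv]
    _ = _ := by group

theorem eq_one_of_odd_of_mul_self {G : Type*} [Group G] {K : Subgroup G} [Finite K]
    (hK : Odd (Nat.card K)) {x : G} (hx : x ∈ K) (h : x = x⁻¹) : x = 1 := by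
  have h1 : orderOf x ∣ 2 := by
    apply orderOf_dvd_of_pow_eq_one
    rw [pow_two]
    nth_rewrite 1 [h]
    simp
  have h2 : orderOf (⟨x, hx⟩ : K) ∣ Nat.card K := orderOf_dvd_natCard _
  rw [Subgroup.orderOf_mk] at h2
  have h3 : Nat.Coprime (orderOf x) 2 :=
    Nat.Coprime.coprime_dvd_left h2 ((Nat.coprime_two_right).mpr hK)
  have h4 := Nat.Coprime.eq_one_of_dvd h3 h1
  exact orderOf_eq_one_iff.mp h4


/-- Let Q be an extraspecial 2-subgroup of the finite group G whose centralizer in G is its centre Z and which is normal in the centralizer of Z. If some involution b of Q outside Z has Z inside the largest normal 2-subgroup of the centralizer of b, then Q is a large extraspecial 2-subgroup of G. -/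
theorem result {G : Type*} [Group G] [Finite G] (Q : Subgroup G) (hL1 : Cfsg.IsExtraspecial 2 ↥Q) (hL2 : Subgroup.centralizer (Q : Set G) = ((Subgroup.center ↥Q).map Q.subtype)) (hL3 : Subgroup.centralizer (((Subgroup.center ↥Q).map Q.subtype) : Set G) ≤ Subgroup.normalizer (Q : Set G)) (b : G) (hbQ : b ∈ Q) (hbZ : b ∉ ((Subgroup.center ↥Q).map Q.subtype)) (hb : orderOf b = 2) (hZ : ((Subgroup.center ↥Q).map Q.subtype) ≤ (Cfsg.pCore 2 ↥(Subgroup.centralizer ({b} : Set G))).map (Subgroup.centralizer ({b} : Set G)).subtype) : Cfsg.IsLargeExtraspecial Q := by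
  classical
  obtain ⟨⟨h2, hfr, hcomm⟩, hcard⟩ := id hL1
  refine ⟨hL1, hL2, hL3, ?_⟩
  intro K hKodd hQK
  haveI : Finite K := inferInstance
  -- the non-commuting partner of b
  have hb' : (⟨b, hbQ⟩ : Q) ∉ Subgroup.center Q := by
    intro hmem
    exact hbZ ⟨_, hmem, rfl⟩
  obtain ⟨y', hy'⟩ : ∃ y' : Q, y' * ⟨b, hbQ⟩ ≠ ⟨b, hbQ⟩ * y' := by
    by_contra hcon
    push Not at hcon
    exact hb' (Subgroup.mem_center_iff.mpr hcon)
  set c : Q := y' * ⟨b, hbQ⟩ * y'⁻¹ * (⟨b, hbQ⟩ : Q)⁻¹ with hc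
  have hc1 : c ≠ 1 := by
    intro h
    apply hy'
    rw [hc] at h
    have h3 := mul_inv_eq_one.mp h
    have h4 := mul_inv_eq_iff_eq_mul.mp h3
    exact h4
  have hccen : c ∈ Subgroup.center Q := by
    rw [← hcomm]
    have := Subgroup.commutator_mem_commutator (Subgroup.mem_top y') (Subgroup.mem_top (⟨b, hbQ⟩ : Q))
    rwa [commutatorElement_def] at this
  set z : G := (c : G) with hzdef
  have hcenter : ∀ w : Q, w ∈ Subgroup.center Q → w = 1 ∨ w = c := by
    intro w hw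
    obtain ⟨v, -, hv⟩ := (Nat.card_eq_two_iff' (1 : Subgroup.center Q)).mp hcard
    by_cases hw1 : w = 1
    · exact Or.inl hw1
    · right
      have h3 := hv ⟨w, hw⟩ (fun h => hw1 (congrArg Subtype.val h))
      have h4 := hv ⟨c, hccen⟩ (fun h => hc1 (congrArg Subtype.val h))
      have h5 : (⟨w, hw⟩ : Subgroup.center Q) = ⟨c, hccen⟩ := by rw [h3, h4]
      exact congrArg Subtype.val h5
  have hzZ : z ∈ (Subgroup.center Q).map Q.subtype := ⟨c, hccen, rfl⟩
  have hzQ : z ∈ Q := c.2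
  have hzz : z * z = 1 := by
    have h3 : c * c ∈ Subgroup.center Q := Subgroup.mul_mem _ hccen hccen
    have hcc : c * c = 1 := by
      rcases hcenter _ h3 with h4 | h4
      · exact h4
      · exact absurd (mul_eq_left.mp h4) hc1
    exact congrArg Subtype.val hcc
  have hyb : (y' : G) * b * (y' : G)⁻¹ = z * b := by
    rw [hzdef, hc]
    push_cast
    group
  have hbb : b * b = 1 := by
    rw [← pow_two, ← hb]
    exact pow_orderOf_eq_one b
  have hnorm : ∀ q ∈ Q, ∀ x ∈ K, q * x * q⁻¹ ∈ K := by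
    intro q hq x hx
    exact (Subgroup.mem_normalizer_iff.mp (hQK hq) x).mp hx
  have hKQ : ∀ x ∈ K, x ∈ Q → x = 1 := by
    intro x hxK hxQ
    obtain ⟨k, hk⟩ := (IsPGroup.iff_orderOf.1 h2) ⟨x, hxQ⟩
    rw [Subgroup.orderOf_mk] at hk
    have h5 : orderOf (⟨x, hxK⟩ : K) ∣ Nat.card K := orderOf_dvd_natCard _
    rw [Subgroup.orderOf_mk] at h5
    have h6 : Nat.Coprime (orderOf x) 2 :=
      Nat.Coprime.coprime_dvd_left h5 ((Nat.coprime_two_right).mpr hKodd)
    rw [hk] at h6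
    have h7 : k = 0 := by
      by_contra hk0
      have := (Nat.coprime_pow_left_iff (Nat.pos_of_ne_zero hk0) _ _).mp h6
      simp at this
    rw [h7, pow_zero] at hk
    exact orderOf_eq_one_iff.mp hk
  -- Step 1: no fixed points of z
  have hfixz : ∀ x ∈ K, z * x = x * z → x = 1 := by
    intro x hxK hxz
    have hxC : x ∈ Subgroup.centralizer (((Subgroup.center Q).map Q.subtype : Subgroup G) : Set G) := by
      rw [Subgroup.mem_centralizer_iff]
      rintro w ⟨w', hw', rfl⟩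
      rcases hcenter w' hw' with rfl | rfl
      · simp
      · exact hxz
    have hxN := hL3 hxC
    have hxQ : x ∈ Subgroup.centralizer (Q : Set G) := by
      rw [Subgroup.mem_centralizer_iff]
      intro q hq
      have hq' : q ∈ Q := hq
      have h3 : x * q * x⁻¹ ∈ Q := (Subgroup.mem_normalizer_iff.mp hxN q).mp hq'
      have h4 : x * q * x⁻¹ * q⁻¹ ∈ Q := Q.mul_mem h3 (Q.inv_mem hq')
      have h5 : x * q * x⁻¹ * q⁻¹ ∈ K := by
        have : x * q * x⁻¹ * q⁻¹ = x * (q * x⁻¹ * q⁻¹) := by group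
        rw [this]
        exact K.mul_mem hxK (hnorm q hq' _ (K.inv_mem hxK))
      have h6 := hKQ _ h5 h4
      have h7 := mul_inv_eq_one.mp h6
      have h8 := mul_inv_eq_iff_eq_mul.mp h7
      exact h8.symm
    rw [hL2] at hxQ
    obtain ⟨w, -, hw⟩ := hxQ
    exact hKQ x hxK (by rw [← hw]; exact w.2)
  -- Step 2: z inverts K
  have hzinv := inv_of_fixfree hzz (hnorm z hzQ) hfixz
  -- Step 3: no fixed points of b
  have hfixb : ∀ x ∈ K, b * x = x * b → x = 1 := by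
    intro x hxK hxb
    set C := Subgroup.centralizer ({b} : Set G) with hCdef
    have hxC : x ∈ C := by
      rw [hCdef, Subgroup.mem_centralizer_iff]
      intro w hw
      have hw' : w = b := hw
      rw [hw']
      exact hxb
    obtain ⟨w, hw, hwe⟩ := hZ hzZ
    have hwC : (w : G) = z := hwe
    have h3 : (⟨x, hxC⟩ : C) * w * (⟨x, hxC⟩ : C)⁻¹ ∈ Cfsg.pCore 2 C :=
      (Cfsg.Agent.Lib.FusionAlperin.pCore_normal' (X := C) 2).conj_mem _ hw _
    have h4 : (⟨x, hxC⟩ : C) * w * (⟨x, hxC⟩ : C)⁻¹ * w⁻¹ ∈ Cfsg.pCore 2 C :=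
      Subgroup.mul_mem _ h3 (Subgroup.inv_mem _ hw)
    have h5 : (((⟨x, hxC⟩ : C) * w * (⟨x, hxC⟩ : C)⁻¹ * w⁻¹ : C) : G) = x * x := by
      push_cast
      rw [hwC]
      have hzinv2 : z⁻¹ = z := by
        rw [inv_eq_iff_mul_eq_one]
        exact hzz
      have h6 := hzinv x hxK
      have h7 : z * x⁻¹ * z⁻¹ = x := by
        have : z * x⁻¹ * z⁻¹ = (z * x * z⁻¹)⁻¹ := by group
        rw [this, h6, inv_inv]
      calc x * z * x⁻¹ * z⁻¹ = x * (z * x⁻¹ * z⁻¹) := by group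
        _ = x * x := by rw [h7]
    have hcC := Cfsg.Agent.Lib.FusionAlperin.isPGroup_pCore' (X := C) 2
    obtain ⟨k, hk⟩ := (IsPGroup.iff_orderOf.1 hcC) ⟨_, h4⟩
    have hk' : orderOf (x * x) = 2 ^ k := by
      rw [← h5]
      have : orderOf (((⟨x, hxC⟩ : C) * w * (⟨x, hxC⟩ : C)⁻¹ * w⁻¹ : C) : G) =
          orderOf ((⟨x, hxC⟩ : C) * w * (⟨x, hxC⟩ : C)⁻¹ * w⁻¹) := by
        exact Subgroup.orderOf_coe _
      rw [this]
      rw [Subgroup.orderOf_mk] at hk
      exact hk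
    have hxxK : x * x ∈ K := K.mul_mem hxK hxK
    have h8 : orderOf (⟨x * x, hxxK⟩ : K) ∣ Nat.card K := orderOf_dvd_natCard _
    rw [Subgroup.orderOf_mk, hk'] at h8
    have h9 : Nat.Coprime (2 ^ k) 2 :=
      Nat.Coprime.coprime_dvd_left h8 ((Nat.coprime_two_right).mpr hKodd)
    have h10 : k = 0 := by
      by_contra hk0
      have := (Nat.coprime_pow_left_iff (Nat.pos_of_ne_zero hk0) _ _).mp h9
      simp at this
    rw [h10, pow_zero] at hk'
    have h11 : x * x = 1 := orderOf_eq_one_iff.mp hk'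
    exact eq_one_of_odd_of_mul_self hKodd hxK (eq_inv_of_mul_eq_one_left h11)
  -- Step 4: b inverts K
  have hbinv := inv_of_fixfree hbb (hnorm b hbQ) hfixb
  -- Step 5
  rw [eq_bot_iff]
  intro x hxK
  rw [Subgroup.mem_bot]
  have hy'Q : (y' : G) ∈ Q := y'.2
  have hx' : (y' : G)⁻¹ * x * (y' : G) ∈ K := by
    have := hnorm _ (Q.inv_mem hy'Q) x hxK
    simpa using this
  have h3 := hbinv _ hx'
  have h4 : (y' : G) * (b * ((y' : G)⁻¹ * x * y') * b⁻¹) * (y' : G)⁻¹ = x⁻¹ := by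
    rw [h3]
    group
  have h5 : (y' : G) * (b * ((y' : G)⁻¹ * x * y') * b⁻¹) * (y' : G)⁻¹ =
      ((y' : G) * b * (y' : G)⁻¹) * x * ((y' : G) * b * (y' : G)⁻¹)⁻¹ := by group
  rw [h5, hyb] at h4
  have h6 := hbinv x hxK
  have h7 : (z * b) * x * (z * b)⁻¹ = z * (b * x * b⁻¹) * z⁻¹ := by group
  rw [h7, h6] at h4
  have h8 : z * x⁻¹ * z⁻¹ = x := by
    have : z * x⁻¹ * z⁻¹ = (z * x * z⁻¹)⁻¹ := by group
    rw [this, hzinv x hxK, inv_inv]
  rw [h8] at h4
  exact eq_one_of_odd_of_mul_self hKodd hxK h4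

end Cfsg.Agent.S5421
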