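import Cfsg.Statements.S1012
import Cfsg.Agent.Lib.SylowCount
-- import your own Cfsg.Agent.* helpers here

set_option autoImplicit false
set_option linter.all false
open Cfsg

namespace Cfsg.Agent.S1012

/-- A group of order 24 containing no element of order 6 is isomorphic to the symmetric group of degree 4. -/
theorem result {G : Type*} [Group G] [Finite G] (h : Nat.card G = 24) (h6 : ∀ g : G, orderOf g ≠ 6) : Nonempty (G ≃* Equiv.Perm (Fin 4)) := by
  classical
  haveI hp3 : Fact (Nat.Prime 3) := ⟨by norm_num⟩
  haveI hp2 : Fact (Nat.Prime 2) := ⟨by norm_num⟩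
  have hfac : Nat.card G = 3 ^ 1 * 8 := by rw [h]; norm_num
  have hcS : ∀ S : Sylow 3 G, Nat.card (S : Subgroup G) = 3 := fun S => by
    rw [Cfsg.Agent.Lib.SylowCount.card_sylow_of_factor S 1 8 hfac (by norm_num), pow_one]
  have h1 := Cfsg.Agent.Lib.SylowCount.card_sylow_dvd_cofactor (G := G) (p := 3) 1 8 hfac (by norm_num)
  have h2 := Cfsg.Agent.Lib.SylowCount.card_sylow_mod (G := G) 3
  obtain ⟨P⟩ : Nonempty (Sylow 3 G) := inferInstance
  obtain ⟨u', hu'⟩ := exists_prime_orderOf_dvd_card' (G := (P : Subgroup G)) 3 (by rw [hcS P])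
  have hu : orderOf (u' : G) = 3 := by rw [Subgroup.orderOf_coe]; exact hu'
  -- no involution commutes with an element of order three
  have hnocomm : ∀ t u : G, orderOf t = 2 → orderOf u = 3 → t * u ≠ u * t := by
    intro t u ht hu hc
    apply h6 (t * u)
    have : Commute t u := hc
    rw [this.orderOf_mul_eq_mul_orderOf_of_coprime (by rw [ht, hu]; norm_num), ht, hu]
  have hn : Nat.card (Sylow 3 G) = 1 ∨ Nat.card (Sylow 3 G) = 4 := by
    generalize Nat.card (Sylow 3 G) = n at h1 h2
    have hle : n ≤ 8 := Nat.le_of_dvd (by norm_num) h1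
    interval_cases n <;> simp_all
  have hne1 : Nat.card (Sylow 3 G) ≠ 1 := by
    intro hn1
    haveI := (Nat.card_eq_one_iff_unique.1 hn1).1
    haveI hPn : (P : Subgroup G).Normal := Sylow.normal_of_subsingleton P
    -- conjugation action on P has kernel of even order
    let f : G →* MulAut (P : Subgroup G) := MulAut.conjNormal
    have hcardAut : Nat.card (MulAut (P : Subgroup G)) = 2 := by
      rw [Cfsg.Agent.Lib.SylowCount.card_mulAut_of_card_prime (p := 3) (hcS P)]
    have h3 : f.ker.index ∣ 2 := by
      rw [Subgroup.index_ker]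
      rw [← hcardAut]
      exact Subgroup.card_subgroup_dvd_card _
    have h4 := f.ker.card_mul_index
    rw [h] at h4
    have h5 : 2 ∣ Nat.card f.ker := by
      have hle := Nat.le_of_dvd (by norm_num) h3
      interval_cases (f.ker.index) <;> omega
    obtain ⟨t, ht⟩ := exists_prime_orderOf_dvd_card' (G := f.ker) 2 h5
    have ht' : orderOf (t : G) = 2 := by rw [Subgroup.orderOf_coe]; exact ht
    apply hnocomm (t : G) (u' : G) ht' hu
    have h7 : f (t : G) = 1 := t.2
    have h8 := congrArg (fun φ : MulAut (P : Subgroup G) => ((φ u' : (P : Subgroup G)) : G)) h7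
    simp only [f, MulAut.conjNormal_apply, MulAut.one_apply] at h8
    calc (t : G) * u' = ((t : G) * u' * (t : G)⁻¹) * t := by group
      _ = u' * t := by rw [h8]
  have hn4 : Nat.card (Sylow 3 G) = 4 := hn.resolve_left hne1
  let φ : G →* Equiv.Perm (Sylow 3 G) := MulAction.toPermHom G (Sylow 3 G)
  have hN6 : ∀ S : Sylow 3 G, Nat.card (Subgroup.normalizer ((S : Subgroup G) : Set G)) = 6 := fun S =>
    Cfsg.Agent.Lib.SylowCount.card_normalizer_of_card_sylow S 4 6 hn4 (by rw [h]) (by norm_num)
  have hkerle : ∀ S : Sylow 3 G, φ.ker ≤ Subgroup.normalizer ((S : Subgroup G) : Set G) := by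
    intro S x hx
    have h3 : φ x = 1 := hx
    have h4 : x • S = S := by
      exact Equiv.congr_fun h3 S
    exact Sylow.smul_eq_iff_mem_normalizer.1 h4
  -- the kernel has no elements of order 3
  have hker3 : ¬ 3 ∣ Nat.card φ.ker := by
    intro hd
    obtain ⟨x, hx⟩ := exists_prime_orderOf_dvd_card' (G := φ.ker) 3 hd
    have hx' : orderOf (x : G) = 3 := by rw [Subgroup.orderOf_coe]; exact hx
    have hpg : IsPGroup 3 (Subgroup.zpowers (x : G)) := by
      apply IsPGroup.of_card (n := 1)
      rw [Nat.card_zpowers, hx', pow_one]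
    have hall : ∀ S : Sylow 3 G, (x : G) ∈ (S : Subgroup G) := by
      intro S
      have h5 := hpg.inf_normalizer_sylow S
      have hmem : (x : G) ∈ Subgroup.zpowers (x : G) ⊓ Subgroup.normalizer ((S : Subgroup G) : Set G) :=
        ⟨Subgroup.mem_zpowers _, hkerle S x.2⟩
      exact (h5.le hmem).2
    have hx1 : (x : G) ≠ 1 := by
      intro h5
      rw [h5, orderOf_one] at hx'
      omega
    apply hne1
    rw [Nat.card_eq_one_iff_unique]
    refine ⟨⟨fun S T => Cfsg.Agent.Lib.SylowCount.sylow_eq_of_mem (hcS S) (hcS T) (hall S) (hall T) hx1⟩, ⟨P⟩⟩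
  have hker6 : Nat.card φ.ker ∣ 6 := by
    have := Subgroup.card_dvd_of_le (hkerle P)
    rwa [hN6 P] at this
  have hker2 : ¬ 2 ∣ Nat.card φ.ker := by
    intro hd
    obtain ⟨t, ht⟩ := exists_prime_orderOf_dvd_card' (G := φ.ker) 2 hd
    have ht' : orderOf (t : G) = 2 := by rw [Subgroup.orderOf_coe]; exact ht
    have hc2 : Nat.card φ.ker = 2 := by
      have hle := Nat.le_of_dvd (by norm_num) hker6
      generalize Nat.card φ.ker = m at *
      interval_cases m <;> omega
    -- the kernel has order two and is normal: central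
    apply hnocomm (t : G) (u' : G) ht' hu
    have h3 : (u' : G) * t * (u' : G)⁻¹ ∈ φ.ker := (inferInstance : φ.ker.Normal).conj_mem _ t.2 _
    -- all non-identity elements of ker are equal to t
    have ht1 : (t : G) ≠ 1 := by
      intro h5
      rw [h5, orderOf_one] at ht'
      omega
    have h4 : (u' : G) * t * (u' : G)⁻¹ = t := by
      have hsub : (Subgroup.zpowers t : Subgroup φ.ker) = ⊤ := by
        apply Subgroup.eq_top_of_card_eq
        rw [Nat.card_zpowers, ht, hc2]
      have hmem : (⟨_, h3⟩ : φ.ker) ∈ Subgroup.zpowers t := by rw [hsub]; exact Subgroup.mem_top _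
      obtain ⟨k, hk⟩ := hmem
      have hk2 : (t : G) ^ k = (u' : G) * t * (u' : G)⁻¹ := congrArg Subtype.val hk
      have hpar : k % 2 = 0 ∨ k % 2 = 1 := by omega
      rcases hpar with hpar | hpar
      · exfalso
        have hk3 : (t : G) ^ k = 1 := by
          rw [← Int.emod_add_mul_ediv k 2, hpar, zero_add, zpow_mul]
          have : (t : G) ^ (2 : ℤ) = 1 := by
            have h8 := pow_orderOf_eq_one (t : G)
            rw [ht'] at h8
            exact_mod_cast h8
          rw [this, one_zpow]
        rw [hk3] at hk2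
        have h9 : (t : G) = 1 := by
          have e : (t : G) = (u' : G)⁻¹ * ((u' : G) * t * (u' : G)⁻¹) * (u' : G) := by group
          rw [e, ← hk2]; group
        exact ht1 h9
      · rw [← hk2, ← Int.emod_add_mul_ediv k 2, hpar, zpow_add, zpow_mul]
        have : (t : G) ^ (2 : ℤ) = 1 := by
          have h8 := pow_orderOf_eq_one (t : G)
          rw [ht'] at h8
          exact_mod_cast h8
        rw [this, one_zpow]
        simp
    calc (t : G) * u' = ((u' : G) * t * (u' : G)⁻¹)⁻¹ * ((u' : G) * t * (u' : G)⁻¹) * ((t : G) * u') := by group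
      _ = _ := by
        rw [h4]
        have h8 := pow_orderOf_eq_one (t : G)
        rw [ht', pow_two] at h8
        calc (t : G)⁻¹ * t * ((t : G) * u') = t * u' := by group
          _ = (u' : G) * t * (u' : G)⁻¹ * u' := by rw [h4]
          _ = u' * t := by group
  have hker1 : Nat.card φ.ker = 1 := by
    have hle := Nat.le_of_dvd (by norm_num) hker6
    generalize Nat.card φ.ker = m at *
    interval_cases m <;> omega
  have hinj : Function.Injective φ := by
    rw [← MonoidHom.ker_eq_bot_iff]
    exact Subgroup.card_eq_one.1 hker1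
  -- transfer to Fin 4
  have e : Sylow 3 G ≃ Fin 4 := by
    have := Finite.equivFin (Sylow 3 G)
    rw [hn4] at this
    exact this
  let ψ : G →* Equiv.Perm (Fin 4) := (Equiv.permCongrHom e).toMonoidHom.comp φ
  have hψ : Function.Injective ψ := (Equiv.permCongrHom e).injective.comp hinj
  have hbij : Function.Bijective ψ := hψ.bijective_of_nat_card_le (by
    rw [Nat.card_perm, h]; simp [Nat.factorial])
  exact ⟨MulEquiv.ofBijective ψ hbij⟩

end Cfsg.Agent.S1012
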