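import Cfsg.Statements.S0169
import Cfsg.Agent.Lib.CharCliff

set_option autoImplicit false
set_option linter.style.haveILetI false
set_option linter.unusedVariables false
open scoped ComplexConjugate
open Cfsg

namespace Cfsg.Agent.S0169

/-- Itô's Theorem on character degrees: the degree of an irreducible complex representation of a finite group divides the index of any abelian normal subgroup. -/
theorem result {G : Type*} [Group G] [Finite G] {V : Type*} [AddCommGroup V] [Module ℂ V] [FiniteDimensional ℂ V] (ρ : Representation ℂ G V) [ρ.IsIrreducible] (H : Subgroup G) [H.Normal] (hH : ∀ a ∈ H, ∀ b ∈ H, a * b = b * a) : Module.finrank ℂ V ∣ H.index := by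
  classical
  cases nonempty_fintype G
  letI : Fintype H := Fintype.ofFinite _
  open Cfsg.Agent.Lib.CharOps Cfsg.Agent.Lib.CharAb Cfsg.Agent.Lib.CharBasic Cfsg.Agent.Lib.CharCliff Cfsg.Agent.Lib.CharDeg Cfsg.Agent.Lib.CharCore in
  have hρ : ρ.IsIrreducible := ‹_›
  have hχ := isIrrCharacter_character ρ hρ
  have hχc := IsIrrCharacter.isCharacter' hχ
  have hdpos := finrank_pos_of_irreducible ρ hρ
  have hres := isCharacter_restrict H hχc
  have hne : (fun x : H => ρ.character x) 1 ≠ 0 := by
    simp only [OneMemClass.coe_one]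
    rw [Representation.char_one]
    exact_mod_cast hdpos.ne'
  obtain ⟨l, hl, hin⟩ := exists_constituent hres hne
  have habel : ∀ a b : H, a * b = b * a := fun a b => Subtype.ext (hH a a.2 b b.2)
  have hl1 : l 1 = 1 := (commutative_iff_apply_one.mp habel) ⟨l, hl⟩
  have hlc := IsIrrCharacter.isCharacter' hl
  have hlnorm : ∀ a : H, ‖l a‖ = 1 := by
    intro a
    have h1 : l a * conj (l a) = 1 := by
      rw [← character_inv_of_isCharacter hlc, ← degree_one_mul hlc hl1, mul_inv_cancel, hl1]
    have h2 : ‖l a‖ ^ 2 = 1 := by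
      have h3 := congrArg norm h1
      rw [norm_mul, Complex.norm_conj, norm_one] at h3
      rw [pow_two]
      exact h3
    nlinarith [norm_nonneg (l a), sq_nonneg (‖l a‖ - 1)]
  obtain ⟨ψ, hψ, hχeq, e, he0, hval⟩ := clifford_corr H hχ hl hin
  set T := inertia H l with hT
  have hle : H ≤ T := le_inertia H (IsCharacter.isClassFunction' hlc)
  obtain ⟨n, σ, hσ, hσψ⟩ := hψ
  subst hσψ
  have h1val := hval 1 (hle H.one_mem)
  have hn : n = e := by
    have h2 : σ.character 1 = (e : ℂ) := by
      have h3 : (⟨((1 : H) : G), hle H.one_mem⟩ : T) = 1 := rfl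
      rw [h3] at h1val
      rw [h1val, hl1, mul_one]
    rw [Representation.char_one] at h2
    simp only [Module.finrank_fin_fun] at h2
    exact_mod_cast h2
  -- scalars
  have hsc : ∀ a ∈ H.subgroupOf T, ∃ c : ℂ, σ a = c • LinearMap.id := by
    intro a ha
    have ha' : (a : G) ∈ H := Subgroup.mem_subgroupOf.mp ha
    apply (norm_character_eq_iff σ a).mp
    have h3 := hval ⟨a, ha'⟩ a.2
    have h4 : (⟨((⟨(a : G), ha'⟩ : H) : G), a.2⟩ : T) = a := rfl
    rw [h4] at h3
    rw [h3, norm_mul, hlnorm, mul_one, hn]
    simp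
  have hdvd := finrank_dvd_index_of_scalar σ hσ (H.subgroupOf T) hsc
  simp only [Module.finrank_fin_fun] at hdvd
  have hrel : (H.subgroupOf T).index = H.relIndex T := rfl
  rw [hrel] at hdvd
  have hdeg : Module.finrank ℂ V = T.index * n := by
    have h2 := congrFun hχeq 1
    rw [Representation.char_one, indFun_one, Representation.char_one] at h2
    simp only [Module.finrank_fin_fun] at h2
    exact_mod_cast h2
  rw [hdeg, ← Subgroup.relIndex_mul_index hle, mul_comm]
  exact Nat.mul_dvd_mul_right hdvd _

end Cfsg.Agent.S0169
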