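import Cfsg.Statements.S1465
import Mathlib
import Cfsg.Agent.Lib.OddStable
-- import your own Cfsg.Agent.* helpers here

set_option autoImplicit false
set_option linter.all false
open Cfsg

namespace Cfsg.Agent.S1465

/-- Let p be an odd prime, G a solvable group of odd order, P a normal p-subgroup of G, and X the subgroup generated by a family of abelian p-subgroups of G each normalized by P. Then the image of X in G/C_G(P) lies in O_p(G/C_G(P)); and if O_{p'}(G) = 1 and O_p(G) ∩ C_G(P) ≤ P then X ≤ O_p(G). -/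
theorem result {G : Type*} [Group G] [Finite G] [Group.IsSolvable G] (hodd : Odd (Nat.card G)) (p : ℕ) [Fact p.Prime] (hp : p ≠ 2) (P : Subgroup G) [P.Normal] (hP : IsPGroup p P)
    (S : Set (Subgroup G)) (hS : ∀ B ∈ S, IsMulCommutative B ∧ IsPGroup p B ∧ P ≤ Subgroup.normalizer (B : Set G)) :
    (sSup S).map (QuotientGroup.mk' (Subgroup.centralizer (P : Set G))) ≤ Cfsg.pCore p (G ⧸ Subgroup.centralizer (P : Set G)) ∧
      (Cfsg.pPrimeCore p G = ⊥ → Cfsg.pCore p G ⊓ Subgroup.centralizer (P : Set G) ≤ P → sSup S ≤ Cfsg.pCore p G) := by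
  have hP1 : sSup S ≤ (Cfsg.pCore p (G ⧸ Subgroup.centralizer (P : Set G))).comap (QuotientGroup.mk' (Subgroup.centralizer (P : Set G))) := by
    apply sSup_le
    intro B hB
    obtain ⟨hab, hBp, hBN⟩ := hS B hB
    intro b hb
    apply Cfsg.Agent.Lib.OddStable.mk_mem_pCore hp hodd P hP b
    have h0 : Subgroup.zpowers b ≤ B := Subgroup.zpowers_le.2 hb
    have h1 : ⁅P, Subgroup.zpowers b⁆ ≤ B := by
      rw [Subgroup.commutator_le]
      intro u hu x hx
      have hxB := h0 hx
      have h2 : u * x * u⁻¹ ∈ B := (Subgroup.mem_normalizer_iff.1 (hBN hu) x).1 hxB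
      rw [commutatorElement_def]
      exact B.mul_mem h2 (B.inv_mem hxB)
    rw [eq_bot_iff, Subgroup.commutator_le]
    intro u hu x hx
    have huB := h1 hu
    have hxB := h0 hx
    have : (⟨u, huB⟩ : B) * ⟨x, hxB⟩ = ⟨x, hxB⟩ * ⟨u, huB⟩ := hab.is_comm.comm _ _
    have h3 : u * x = x * u := congrArg Subtype.val this
    rw [commutatorElement_def, h3]
    simp
  refine ⟨?_, ?_⟩
  · rw [Subgroup.map_le_iff_le_comap]
    exact hP1
  · intro hO hC
    refine hP1.trans ?_
    apply Cfsg.Agent.Lib.PCore.le_pCore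
    · exact Subgroup.Normal.comap (Cfsg.Agent.Lib.PCore.pCore_normal p _) _
    · apply IsPGroup.comap_of_ker_isPGroup (Cfsg.Agent.Lib.PCore.isPGroup_pCore p _)
      rw [QuotientGroup.ker_mk']
      exact Cfsg.Agent.Lib.OddStable.centralizer_isPGroup P hO hC

end Cfsg.Agent.S1465
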