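import Cfsg.Statements.S1125
import Cfsg.Agent.Lib.RankOneSetup2
-- import your own Cfsg.Agent.* helpers here

set_option autoImplicit false
set_option linter.all false
open Cfsg

namespace Cfsg.Agent.S1125

/-- In the rank-one set-up (`G` finite and doubly transitive on `Ω`, `t` an involution moving `a`, `Q` normal in `G_a` with `G_a = Q D`, `Q ⊓ D = 1` for the two-point stabiliser `D = G_a ⊓ G_{t • a}`, `|Q|` even, `|D|` odd), let `X ⊆ D` fix at least three points of `Ω`. Then `C_G(X)` is doubly transitive on the fixed-point set of `X`, `|C_Q(X)|` is even, and `C_{G_a}(X) = C_Q(X) C_D(X)`. -/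
theorem result {G Ω : Type*} [Group G] [Finite G] [MulAction G Ω] {a : Ω} {t : G} {Q : Subgroup G}
    (hS : Cfsg.IsRankOneSetup G Ω a t Q)
    (X : Set G) (hX : X ⊆ ((MulAction.stabilizer G a ⊓ MulAction.stabilizer G (t • a)) : Set G))
    (h3 : ∃ b c d : Ω, b ≠ c ∧ b ≠ d ∧ c ≠ d ∧ ∀ x ∈ X, x • b = b ∧ x • c = c ∧ x • d = d) :
    (∀ b₁ b₂ c₁ c₂ : Ω, (∀ x ∈ X, x • b₁ = b₁ ∧ x • b₂ = b₂ ∧ x • c₁ = c₁ ∧ x • c₂ = c₂) →
        b₁ ≠ b₂ → c₁ ≠ c₂ → ∃ g ∈ Subgroup.centralizer X, g • b₁ = c₁ ∧ g • b₂ = c₂) ∧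
      Even (Nat.card ↥(Subgroup.centralizer X ⊓ Q)) ∧
      (Subgroup.centralizer X ⊓ Q) ⊔ (Subgroup.centralizer X ⊓ (MulAction.stabilizer G a ⊓ MulAction.stabilizer G (t • a))) = Subgroup.centralizer X ⊓ MulAction.stabilizer G a := by
  classical
  obtain ⟨b, c, d, hbc, hbd, hcd, h⟩ := h3
  have hcent : ∀ g : G, g ∈ Subgroup.centralizer X ↔ ∀ x ∈ X, x * g = g * x := fun g => Subgroup.mem_centralizer_iff
  refine ⟨?_, ?_, ?_⟩
  · intro b₁ b₂ c₁ c₂ hx hb hc
    obtain ⟨g, hg, h1, h2⟩ := Cfsg.Agent.Lib.RankOneSetup2.exists_comm_two_trans hS X hbc hbd hcd h hx hb hc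
    exact ⟨g, (hcent g).2 hg, h1, h2⟩
  · obtain ⟨i, hii, hia, hita, hic⟩ := Cfsg.Agent.Lib.RankOneSetup2.exists_swap_comm hS X hX hbc hbd hcd h
    have hi1 : i ≠ 1 := by
      rintro rfl
      rw [one_smul] at hia
      exact Cfsg.Agent.Lib.RankOneSetup.ta_ne hS hia.symm
    obtain ⟨e, he⟩ := Cfsg.Agent.Lib.RankOneSetup.invol_has_fixed hS hii
    have hxe : ∀ x ∈ X, x • e = e := by
      intro x hx
      have h1 : i • (x • e) = x • e := by
        rw [← mul_smul, ← hic x hx, mul_smul, he]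
      exact Cfsg.Agent.Lib.RankOneSetup.invol_fix_unique hS hii hi1 h1 he
    obtain ⟨g, hg, hgc⟩ := Cfsg.Agent.Lib.RankOneSetup2.exists_comm_trans hS X hbc hbd hcd h hxe (fun x hx => (hX hx).1)
    obtain ⟨u, hu⟩ : ∃ u, u = g * i * g⁻¹ := ⟨_, rfl⟩
    have huu : u * u = 1 := by
      rw [hu]
      calc g * i * g⁻¹ * (g * i * g⁻¹) = g * (i * i) * g⁻¹ := by group
        _ = 1 := by rw [hii]; group
    have hu1 : u ≠ 1 := by
      intro h'
      apply hi1
      have : i = g⁻¹ * u * g := by rw [hu]; group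
      rw [this, h']; group
    have hua : u • a = a := by
      rw [hu, ← hg, mul_smul, mul_smul, inv_smul_smul, he]
    have huQ : u ∈ Q := Cfsg.Agent.Lib.RankOneSetup2.invol_mem_Q hS hua huu
    have huC : u ∈ Subgroup.centralizer X := by
      refine (hcent u).2 ?_
      intro x hx
      have h1 := hgc x hx
      have h2 := hic x hx
      have h3 : x * g⁻¹ = g⁻¹ * x := by
        calc x * g⁻¹ = g⁻¹ * (g * x) * g⁻¹ := by group
          _ = g⁻¹ * (x * g) * g⁻¹ := by rw [h1]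
          _ = g⁻¹ * x := by group
      rw [hu]
      calc x * (g * i * g⁻¹) = (x * g) * i * g⁻¹ := by group
        _ = g * (x * i) * g⁻¹ := by rw [h1]; group
        _ = g * (i * x) * g⁻¹ := by rw [h2]
        _ = g * i * (x * g⁻¹) := by group
        _ = g * i * (g⁻¹ * x) := by rw [h3]
        _ = g * i * g⁻¹ * x := by group
    have hord : orderOf u = 2 := orderOf_eq_prime (by rw [pow_two]; exact huu) hu1
    have hdvd := Subgroup.orderOf_dvd_natCard (Subgroup.centralizer X ⊓ Q) (x := u) ⟨huC, huQ⟩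
    rw [hord] at hdvd
    exact even_iff_two_dvd.2 hdvd
  · apply le_antisymm
    · apply sup_le
      · intro g hg
        exact ⟨hg.1, hS.le hg.2⟩
      · intro g hg
        exact ⟨hg.1, hg.2.1⟩
    · rintro g ⟨hgC, hga⟩
      have hgc := (hcent g).1 hgC
      have hfix : ∀ x ∈ X, x • (g • (t • a)) = g • (t • a) := by
        intro x hx
        rw [← mul_smul, hgc x hx, mul_smul, (hX hx).2]
      have hne : g • (t • a) ≠ a := by
        intro h'
        have h2 : g • (t • a) = g • a := by rw [h', show g • a = a from hga]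
        exact Cfsg.Agent.Lib.RankOneSetup.ta_ne hS (smul_left_cancel g h2)
      obtain ⟨q, hq, hqe, hqc⟩ := Cfsg.Agent.Lib.RankOneSetup2.exists_Q_comm hS X (fun x hx => (hX hx).1)
        (Cfsg.Agent.Lib.RankOneSetup.ta_ne hS) hne (fun x hx => (hX hx).2) hfix
      have hqC : q ∈ Subgroup.centralizer X := (hcent q).2 hqc
      have hd : q⁻¹ * g ∈ Subgroup.centralizer X ⊓ (MulAction.stabilizer G a ⊓ MulAction.stabilizer G (t • a)) := by
        refine ⟨Subgroup.mul_mem _ (Subgroup.inv_mem _ hqC) hgC, ?_, ?_⟩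
        · exact Subgroup.mul_mem _ (Subgroup.inv_mem _ (hS.le hq)) hga
        · show (q⁻¹ * g) • (t • a) = t • a
          rw [mul_smul, ← hqe, inv_smul_smul]
      have h3 : g = q * (q⁻¹ * g) := by group
      rw [h3]
      exact Subgroup.mul_mem _ (Subgroup.mem_sup_left ⟨hqC, hq⟩) (Subgroup.mem_sup_right hd)

end Cfsg.Agent.S1125
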