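import Cfsg.Statements.S2639
import Cfsg.Agent.Lib.GUEmbed

set_option autoImplicit false
open Cfsg

namespace Cfsg.Agent.S2639


open Matrix in
theorem mem_symplectic {l : Type*} [Fintype l] [DecidableEq l] {F : Type*} [Field F]
    (A : Matrix (l ⊕ l) (l ⊕ l) F)
    (h : ∀ v w : l ⊕ l → F, (∑ i, ((A *ᵥ v) (Sum.inl i) * (A *ᵥ w) (Sum.inr i)
        - (A *ᵥ v) (Sum.inr i) * (A *ᵥ w) (Sum.inl i)))
      = ∑ i, (v (Sum.inl i) * w (Sum.inr i) - v (Sum.inr i) * w (Sum.inl i))) :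
    A ∈ Matrix.symplecticGroup l F := by
  classical
  rw [SymplecticGroup.mem_iff']
  have hJ : ∀ v w : l ⊕ l → F, v ⬝ᵥ (Matrix.J l F *ᵥ w)
      = - ∑ i, (v (Sum.inl i) * w (Sum.inr i) - v (Sum.inr i) * w (Sum.inl i)) := by
    intro v w
    have hw : w = Sum.elim (w ∘ Sum.inl) (w ∘ Sum.inr) := by
      funext i; rcases i with i | i <;> rfl
    conv_lhs => rw [hw]
    rw [Matrix.J, Matrix.fromBlocks_mulVec, dotProduct, Fintype.sum_sum_type, ← Finset.sum_add_distrib,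
      ← Finset.sum_neg_distrib]
    refine Finset.sum_congr rfl fun i _ => ?_
    simp [Matrix.neg_mulVec]
    ring
  ext i j
  have h1 : ∀ (M : Matrix (l ⊕ l) (l ⊕ l) F) i j, M i j = (Pi.single i 1) ⬝ᵥ (M *ᵥ Pi.single j 1) := by
    intro M i j
    simp
  rw [h1 (Aᵀ * Matrix.J l F * A) i j, h1 (Matrix.J l F) i j, hJ, ← Matrix.mulVec_mulVec, ← Matrix.mulVec_mulVec, Matrix.dotProduct_mulVec,
    Matrix.vecMul_transpose, hJ, h]


/-- The unitary group embeds in the symplectic group of twice the dimension over the subfield: for a field K with q² elements and a field F with q elements (isomorphic to the subfield of K of order q), there is an injective homomorphism GU_m(q) → Sp_2m(F). -/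
theorem result {K F : Type*} [Field K] [Fintype K] [Field F] [Fintype F] {q : ℕ} (hK : Fintype.card K = q ^ 2) (hF : Fintype.card F = q) (m : ℕ) : ∃ φ : ↥(Cfsg.GU m K q) →* ↥(Matrix.symplecticGroup (Fin m) F), Function.Injective φ := by
  classical
  open Matrix in
  obtain ⟨φ, ι, δ, s, ζ, f, hφ, h2, hι, hsurj, hδ0, hδ, hs, hζ, hζ1, hf⟩ :=
    Cfsg.Agent.Lib.GUEmbed.exists_all hK hF
  letI : Algebra F K := ι.toAlgebra
  have hι' : ∀ x : F, φ (algebraMap F K x) = algebraMap F K x := hι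
  obtain ⟨ρ, hρ⟩ := Cfsg.Agent.Lib.GUEmbed.exists_equiv (A := Fin m ⊕ Fin m) hK hF (by simp; ring)
    (Cfsg.Agent.Lib.GUEmbed.symρ f) (Cfsg.Agent.Lib.GUEmbed.symρ_injective hι' hf)
  obtain ⟨Φ, hΦ, hΦ2⟩ := Cfsg.Agent.Lib.GUEmbed.exists_transfer ρ
  have hform : ∀ v w : Fin m ⊕ Fin m → F, algebraMap F K (∑ i, (v (Sum.inl i) * w (Sum.inr i)
      - v (Sum.inr i) * w (Sum.inl i)))
      = δ * (Cfsg.hermForm m K q (ρ v) (ρ w) - Cfsg.hermForm m K q (ρ w) (ρ v)) := by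
    intro v w
    rw [Cfsg.Agent.Lib.GUEmbed.herm_self hφ, Cfsg.Agent.Lib.GUEmbed.herm_self hφ, hρ, hρ, map_sum,
      ← Finset.sum_sub_distrib, Finset.mul_sum]
    refine Finset.sum_congr rfl fun i _ => ?_
    exact (Cfsg.Agent.Lib.GUEmbed.sym_formula hι' hf _ _ _ _).symm
  have hmem : ∀ g : Cfsg.GU m K q, (Φ g.1).1 ∈ Matrix.symplecticGroup (Fin m) F := by
    intro g
    apply mem_symplectic
    intro v w
    apply (algebraMap F K).injective
    rw [hform, hform, hΦ2, hΦ2]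
    have e1 : Cfsg.hermForm m K q (g.1.1 *ᵥ ρ v) (g.1.1 *ᵥ ρ w) = Cfsg.hermForm m K q (ρ v) (ρ w) := g.2 (ρ v) (ρ w)
    have e2 : Cfsg.hermForm m K q (g.1.1 *ᵥ ρ w) (g.1.1 *ᵥ ρ v) = Cfsg.hermForm m K q (ρ w) (ρ v) := g.2 (ρ w) (ρ v)
    rw [e1, e2]
  refine ⟨(((Units.coeHom _).comp Φ).comp (Cfsg.GU m K q).subtype).codRestrict _ hmem, ?_⟩
  intro a b hab
  apply Subtype.ext
  apply hΦ
  apply Units.ext
  exact congrArg Subtype.val hab

end Cfsg.Agent.S2639
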