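import Cfsg.Statements.S0598
import Mathlib
import Cfsg.Agent.Lib.ThompsonBasic

set_option autoImplicit false
open Cfsg

namespace Cfsg.Agent.S0598

open scoped commutatorElement

section
variable {G : Type*} [Group G] [Finite G]

theorem key1 {V A : Subgroup G} (hVc : ∀ x ∈ V, ∀ y ∈ V, x * y = y * x)
    (hAV : ∀ a ∈ A, ∀ x ∈ V, a * x * a⁻¹ ∈ V)
    (hcomm : ∀ a ∈ A, ∀ b ∈ A, ∀ x ∈ V, a * (b * x * b⁻¹) * a⁻¹ = b * (a * x * a⁻¹) * b⁻¹)
    {v t a : G} (hv : v ∈ V) (ht : t ∈ A) (ha : a ∈ A)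
    (h : a * ⁅v, t⁆ * a⁻¹ = ⁅v, t⁆) : t * ⁅v, a⁆ * t⁻¹ = ⁅v, a⁆ := by
  simp only [commutatorElement_def] at h ⊢
  -- all the conjugates live in the abelian group `V`
  set tv := t * v * t⁻¹ with htv
  set av := a * v * a⁻¹ with hav
  set atv := a * tv * a⁻¹ with hatv
  have htvV : tv ∈ V := hAV t ht v hv
  have havV : av ∈ V := hAV a ha v hv
  have hatvV : atv ∈ V := hAV a ha tv htvV
  have h1 : v * t * v⁻¹ * t⁻¹ = v * tv⁻¹ := by rw [htv]; group
  have h2 : v * a * v⁻¹ * a⁻¹ = v * av⁻¹ := by rw [hav]; group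
  rw [h1] at h
  rw [h2]
  have h3 : a * (v * tv⁻¹) * a⁻¹ = av * atv⁻¹ := by rw [hav, hatv]; group
  rw [h3] at h
  have h4 : t * (v * av⁻¹) * t⁻¹ = tv * (t * av * t⁻¹)⁻¹ := by rw [htv]; group
  have h5 : t * av * t⁻¹ = atv := by
    rw [hav, hatv, htv]
    exact (hcomm a ha t ht v hv).symm
  rw [h4, h5]
  -- additive manipulation in `V`
  have hc1 := hVc v hv av havV
  have hc2 := hVc v hv tv htvV
  have hc3 := hVc av havV tv htvV
  have hc4 := hVc atv hatvV tv htvV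
  have hc5 := hVc atv hatvV av havV
  have hc6 := hVc atv hatvV v hv
  -- from `av - atv = v - tv` deduce `tv - atv = v - av`
  have h6 : av * atv⁻¹ * (av⁻¹ * tv) = v * tv⁻¹ * (av⁻¹ * tv) := by rw [h]
  have h7 : tv * atv⁻¹ = v * av⁻¹ := by
    have e1 : av * atv⁻¹ * (av⁻¹ * tv) = tv * atv⁻¹ := by
      have hi : atv⁻¹ * av⁻¹ = av⁻¹ * atv⁻¹ := by
        have := hc5
        calc atv⁻¹ * av⁻¹ = (av * atv)⁻¹ := by group
          _ = (atv * av)⁻¹ := by rw [hc5]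
          _ = av⁻¹ * atv⁻¹ := by group
      have hi2 : atv⁻¹ * tv = tv * atv⁻¹ := by
        calc atv⁻¹ * tv = atv⁻¹ * (tv * atv) * atv⁻¹ := by group
          _ = atv⁻¹ * (atv * tv) * atv⁻¹ := by rw [hc4]
          _ = tv * atv⁻¹ := by group
      calc av * atv⁻¹ * (av⁻¹ * tv) = av * (atv⁻¹ * av⁻¹) * tv := by group
        _ = av * (av⁻¹ * atv⁻¹) * tv := by rw [hi]
        _ = atv⁻¹ * tv := by group
        _ = tv * atv⁻¹ := hi2
    have e2 : v * tv⁻¹ * (av⁻¹ * tv) = v * av⁻¹ := by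
      have hi : tv⁻¹ * av⁻¹ = av⁻¹ * tv⁻¹ := by
        calc tv⁻¹ * av⁻¹ = (av * tv)⁻¹ := by group
          _ = (tv * av)⁻¹ := by rw [hc3]
          _ = av⁻¹ * tv⁻¹ := by group
      calc v * tv⁻¹ * (av⁻¹ * tv) = v * (tv⁻¹ * av⁻¹) * tv := by group
        _ = v * (av⁻¹ * tv⁻¹) * tv := by rw [hi]
        _ = v * av⁻¹ := by group
    rw [e1, e2] at h6
    exact h6
  exact h7

theorem comm_mul {V : Subgroup G} (hVc : ∀ x ∈ V, ∀ y ∈ V, x * y = y * x) {a u u' : G} 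
    (hAV : ∀ x ∈ V, a * x * a⁻¹ ∈ V) (hu : u ∈ V) (hu' : u' ∈ V) :
    ⁅u * u', a⁆ = ⁅u, a⁆ * ⁅u', a⁆ := by
  simp only [commutatorElement_def]
  have h1 : a * u⁻¹ * a⁻¹ ∈ V := hAV _ (V.inv_mem hu)
  have h2 := hVc _ h1 u' hu'
  calc u * u' * a * (u * u')⁻¹ * a⁻¹ = u * u' * (a * u'⁻¹ * a⁻¹) * (a * u⁻¹ * a⁻¹) := by group
    _ = u * (u' * (a * u'⁻¹ * a⁻¹)) * (a * u⁻¹ * a⁻¹) := by group
    _ = u * ((a * u⁻¹ * a⁻¹) * (u' * (a * u'⁻¹ * a⁻¹))) := by
        rw [mul_assoc, hVc _ (V.mul_mem hu' (hAV _ (V.inv_mem hu'))) _ h1]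
    _ = _ := by group

theorem comm_zpow {V : Subgroup G} (hVc : ∀ x ∈ V, ∀ y ∈ V, x * y = y * x) {a v : G}
    (hAV : ∀ x ∈ V, a * x * a⁻¹ ∈ V) (hv : v ∈ V) (k : ℤ) : ⁅v ^ k, a⁆ = ⁅v, a⁆ ^ k := by
  simp only [commutatorElement_def]
  have h1 : a * v⁻¹ * a⁻¹ ∈ V := hAV _ (V.inv_mem hv)
  have hc : Commute v (a * v⁻¹ * a⁻¹) := hVc _ hv _ h1
  have e1 : v * a * v⁻¹ * a⁻¹ = v * (a * v⁻¹ * a⁻¹) := by group
  rw [e1, hc.mul_zpow]
  have e2 : a * (v ^ k)⁻¹ * a⁻¹ = (a * v⁻¹ * a⁻¹) ^ k := by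
    rw [conj_zpow, inv_zpow]
  calc v ^ k * a * (v ^ k)⁻¹ * a⁻¹ = v ^ k * (a * (v ^ k)⁻¹ * a⁻¹) := by group
    _ = _ := by rw [e2]

theorem sup_max {a b c d m : ℕ} (hm : 0 < m) (h1 : a * b ≤ m) (h2 : c * d ≤ m)
    (h : m * m ≤ (a * b) * (c * d)) : a * b = m ∧ c * d = m := by
  constructor
  · by_contra hne
    have h3 : a * b < m := lt_of_le_of_ne h1 hne
    have h4 : (a * b) * (c * d) < m * m := by
      calc (a * b) * (c * d) ≤ (a * b) * m := Nat.mul_le_mul_left _ h2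
        _ < m * m := Nat.mul_lt_mul_of_pos_right h3 hm
    omega
  · by_contra hne
    have h3 : c * d < m := lt_of_le_of_ne h2 hne
    have h4 : (a * b) * (c * d) < m * m := by
      calc (a * b) * (c * d) ≤ m * (c * d) := Nat.mul_le_mul_right _ h1
        _ < m * m := Nat.mul_lt_mul_of_pos_left h3 hm
    omega

end

/-- The replacement statement, all subgroups having at most the maximal product. -/
theorem main {G : Type*} [Group G] [Finite G] (V A : Subgroup G)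
    (hVc : ∀ x ∈ V, ∀ y ∈ V, x * y = y * x) (hAV : ∀ a ∈ A, ∀ x ∈ V, a * x * a⁻¹ ∈ V)
    (hAA : ∀ a ∈ A, ∀ b ∈ A, ⁅a, b⁆ ∈ Subgroup.centralizer (V : Set G))
    (hmax : ∀ B : Subgroup G, B ≤ A → Nat.card B * Nat.card ↥(V ⊓ Subgroup.centralizer (B : Set G)) ≤
      Nat.card A * Nat.card ↥(V ⊓ Subgroup.centralizer (A : Set G)))
    (U : Subgroup G) (hU : U ≤ V) :
    Nat.card ↥(A ⊓ Subgroup.centralizer ((⁅U, A⁆ : Subgroup G) : Set G)) *
        Nat.card ↥(V ⊓ Subgroup.centralizer ((A ⊓ Subgroup.centralizer ((⁅U, A⁆ : Subgroup G) : Set G) : Subgroup G) : Set G)) =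
      Nat.card A * Nat.card ↥(V ⊓ Subgroup.centralizer (A : Set G)) ∧
    V ⊓ Subgroup.centralizer ((A ⊓ Subgroup.centralizer ((⁅U, A⁆ : Subgroup G) : Set G) : Subgroup G) : Set G) =
      ⁅U, A⁆ ⊔ (V ⊓ Subgroup.centralizer (A : Set G)) := by
  classical
  set C := V ⊓ Subgroup.centralizer (A : Set G) with hC
  set m := Nat.card A * Nat.card C with hm
  have hmpos : 0 < m := Nat.mul_pos Nat.card_pos Nat.card_pos
  have hcomm : ∀ a ∈ A, ∀ b ∈ A, ∀ x ∈ V, a * (b * x * b⁻¹) * a⁻¹ = b * (a * x * a⁻¹) * b⁻¹ := by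
    intro a ha b hb x hx
    have h1 := hAA a ha b hb
    have hy : b * (a * x * a⁻¹) * b⁻¹ ∈ V := hAV b hb _ (hAV a ha x hx)
    have h2 := (Subgroup.mem_centralizer_iff.mp h1) _ hy
    set y := b * (a * x * a⁻¹) * b⁻¹ with hyd
    have h3 : ⁅a, b⁆ * y * ⁅a, b⁆⁻¹ = y := by
      rw [← h2]; group
    rw [← h3]
    simp only [commutatorElement_def, hyd]
    group
  have hAVinv : ∀ a ∈ A, ∀ x, a * x * a⁻¹ ∈ V → x ∈ V := by
    intro a ha x hx
    have := hAV a⁻¹ (A.inv_mem ha) _ hx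
    simpa [mul_assoc] using this
  have hcV : ∀ u ∈ V, ∀ a ∈ A, ⁅u, a⁆ ∈ V := by
    intro u hu a ha
    have e : ⁅u, a⁆ = u * (a * u⁻¹ * a⁻¹) := by
      simp only [commutatorElement_def]; group
    rw [e]
    exact V.mul_mem hu (hAV a ha _ (V.inv_mem hu))
  have hRV : ∀ W : Subgroup G, W ≤ V → ⁅W, A⁆ ≤ V := by
    intro W hW
    rw [Subgroup.commutator_le]
    intro u hu a ha
    exact hcV u (hW hu) a ha
  have hCV : C ≤ V := inf_le_left
  have hcenC : ∀ c ∈ C, ∀ a ∈ A, a * c * a⁻¹ = c := by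
    intro c hc a ha
    have := Subgroup.mem_centralizer_iff.mp hc.2 a ha
    rw [this]; group
  -- the predicate
  let Q : Subgroup G → Prop := fun R =>
    Nat.card ↥(A ⊓ Subgroup.centralizer (R : Set G)) *
        Nat.card ↥(V ⊓ Subgroup.centralizer ((A ⊓ Subgroup.centralizer (R : Set G) : Subgroup G) : Set G)) = m ∧
    V ⊓ Subgroup.centralizer ((A ⊓ Subgroup.centralizer (R : Set G) : Subgroup G) : Set G) = R ⊔ C
  have hsup_le : ∀ R : Subgroup G, R ≤ V → R ⊔ C ≤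
      V ⊓ Subgroup.centralizer ((A ⊓ Subgroup.centralizer (R : Set G) : Subgroup G) : Set G) := by
    intro R hR
    apply sup_le
    · intro r hr
      refine ⟨hR hr, Subgroup.mem_centralizer_iff.mpr (fun b hb => ?_)⟩
      exact (Subgroup.mem_centralizer_iff.mp hb.2 r hr).symm
    · intro c hc
      refine ⟨hc.1, Subgroup.mem_centralizer_iff.mpr (fun b hb => ?_)⟩
      exact Subgroup.mem_centralizer_iff.mp hc.2 b hb.1
  -- the single generator case
  have hsingle : ∀ v ∈ V, Q ⁅Subgroup.zpowers v, A⁆ := by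
    intro v hv
    set R := ⁅Subgroup.zpowers v, A⁆ with hR
    have hRle : R ≤ V := hRV _ (Subgroup.zpowers_le.mpr hv)
    set B := A ⊓ Subgroup.centralizer (R : Set G) with hB
    have hmem : ∀ t ∈ A, ⁅v, t⁆ ∈ C → t ∈ B := by
      intro t ht hc
      refine ⟨ht, ?_⟩
      have hle : R ≤ Subgroup.centralizer ({t} : Set G) := by
        rw [hR, Subgroup.commutator_le]
        intro w hw a ha
        obtain ⟨k, rfl⟩ := Subgroup.mem_zpowers_iff.mp hw
        rw [Subgroup.mem_centralizer_singleton_iff]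
        have hvk : v ^ k ∈ V := V.zpow_mem hv k
        have h1 : ⁅v ^ k, t⁆ ∈ C := by
          rw [comm_zpow hVc (hAV t ht) hv k]
          exact C.zpow_mem hc k
        have h2 := key1 hVc hAV hcomm hvk ht ha (hcenC _ h1 a ha)
        calc ⁅v ^ k, a⁆ * t = t * ⁅v ^ k, a⁆ * t⁻¹ * t := by rw [h2]
          _ = t * ⁅v ^ k, a⁆ := by group
      refine Subgroup.mem_centralizer_iff.mpr (fun r hr => ?_)
      have := hle hr
      rw [Subgroup.mem_centralizer_singleton_iff] at this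
      exact this
    have hL2 : ∀ a₀ ∈ A, ∀ a ∈ A, ∀ c₀ ∈ C, ∀ c ∈ C, ⁅v, a₀⁆ * c₀ = ⁅v, a⁆ * c → ⁅v, a₀⁻¹ * a⁆ ∈ C := by
      intro a₀ ha₀ a ha c₀ hc₀ c hc h
      set t := a₀⁻¹ * a with ht
      have htA : t ∈ A := A.mul_mem (A.inv_mem ha₀) ha
      have e0 : ∀ b, ⁅v, b⁆ = v * (b * v⁻¹ * b⁻¹) := by
        intro b
        simp only [commutatorElement_def]; group
      rw [e0, e0] at h
      have h1 : (a₀ * v⁻¹ * a₀⁻¹) * c₀ = (a * v⁻¹ * a⁻¹) * c := by
        have := mul_left_cancel (a := v) (by simpa [mul_assoc] using h)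
        simpa [mul_assoc] using this
      have h2 : a₀⁻¹ * ((a₀ * v⁻¹ * a₀⁻¹) * c₀) * a₀⁻¹⁻¹ = a₀⁻¹ * ((a * v⁻¹ * a⁻¹) * c) * a₀⁻¹⁻¹ := by rw [h1]
      have h3 := hcenC c₀ hc₀ a₀⁻¹ (A.inv_mem ha₀)
      have h4 := hcenC c hc a₀⁻¹ (A.inv_mem ha₀)
      have h5 : v⁻¹ * c₀ = (t * v⁻¹ * t⁻¹) * c := by
        calc v⁻¹ * c₀ = v⁻¹ * (a₀⁻¹ * c₀ * a₀⁻¹⁻¹) := by rw [h3]
          _ = a₀⁻¹ * ((a₀ * v⁻¹ * a₀⁻¹) * c₀) * a₀⁻¹⁻¹ := by group
          _ = a₀⁻¹ * ((a * v⁻¹ * a⁻¹) * c) * a₀⁻¹⁻¹ := h2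
          _ = (t * v⁻¹ * t⁻¹) * (a₀⁻¹ * c * a₀⁻¹⁻¹) := by rw [ht]; group
          _ = (t * v⁻¹ * t⁻¹) * c := by rw [h4]
      have h6 : t * v⁻¹ * t⁻¹ = v⁻¹ * c₀ * c⁻¹ := by rw [h5]; group
      rw [e0, h6]
      have h7 : v * (v⁻¹ * c₀ * c⁻¹) = c₀ * c⁻¹ := by group
      rw [h7]
      exact C.mul_mem hc₀ (C.inv_mem hc)
    -- the count
    have hcount : Nat.card A * Nat.card C ≤ Nat.card B * Nat.card ↥(R ⊔ C) := by
      let g : ↥A × ↥C → ↥(R ⊔ C) := fun p =>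
        ⟨⁅v, (p.1 : G)⁆ * p.2, (R ⊔ C).mul_mem
          ((le_sup_left : R ≤ R ⊔ C) (Subgroup.commutator_mem_commutator (Subgroup.mem_zpowers v) p.1.2))
          ((le_sup_right : C ≤ R ⊔ C) p.2.2)⟩
      let ρ := Function.invFun g
      have hρ : ∀ p, g (ρ (g p)) = g p := fun p => Function.invFun_eq ⟨p, rfl⟩
      let Φ : ↥A × ↥C → ↥(R ⊔ C) × ↥B := fun p =>
        (g p, ⟨((ρ (g p)).1 : G)⁻¹ * p.1, hmem _ (A.mul_mem (A.inv_mem (ρ (g p)).1.2) p.1.2)
          (hL2 _ (ρ (g p)).1.2 _ p.1.2 _ (ρ (g p)).2.2 _ p.2.2 (congrArg Subtype.val (hρ p)))⟩)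
      have hΦ : Function.Injective Φ := by
        rintro ⟨⟨a, ha⟩, ⟨c, hc⟩⟩ ⟨⟨a', ha'⟩, ⟨c', hc'⟩⟩ h
        have h1 : g (⟨a, ha⟩, ⟨c, hc⟩) = g (⟨a', ha'⟩, ⟨c', hc'⟩) := congrArg Prod.fst h
        have h2 := congrArg (fun q => ((q.2 : ↥B) : G)) h
        simp only [Φ] at h2
        rw [h1] at h2
        have h3 : a = a' := mul_left_cancel h2
        subst h3
        have h4 : ⁅v, a⁆ * c = ⁅v, a⁆ * c' := congrArg Subtype.val h1
        have h5 : c = c' := mul_left_cancel h4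
        subst h5
        rfl
      have h1 := Nat.card_le_card_of_injective Φ hΦ
      rw [Nat.card_prod, Nat.card_prod] at h1
      rw [mul_comm (Nat.card B)]
      exact h1
    have hle2 : R ⊔ C ≤ V ⊓ Subgroup.centralizer (B : Set G) := hsup_le R hRle
    have hc2 : Nat.card ↥(R ⊔ C) ≤ Nat.card ↥(V ⊓ Subgroup.centralizer (B : Set G)) :=
      Subgroup.card_le_of_le hle2
    have hmB := hmax B inf_le_left
    have hBpos : 0 < Nat.card B := Nat.card_pos
    have h3 : Nat.card B * Nat.card ↥(V ⊓ Subgroup.centralizer (B : Set G)) = m := by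
      apply le_antisymm hmB
      calc m ≤ Nat.card B * Nat.card ↥(R ⊔ C) := hcount
        _ ≤ _ := Nat.mul_le_mul_left _ hc2
    refine ⟨h3, ?_⟩
    symm
    apply Subgroup.eq_of_le_of_card_ge hle2
    have h4 : Nat.card B * Nat.card ↥(V ⊓ Subgroup.centralizer (B : Set G)) ≤ Nat.card B * Nat.card ↥(R ⊔ C) := by
      rw [h3]; exact hcount
    exact Nat.le_of_mul_le_mul_left h4 hBpos
  -- combining two
  have hcombine : ∀ R₁ R₂ : Subgroup G, R₁ ≤ V → R₂ ≤ V → Q R₁ → Q R₂ → Q (R₁ ⊔ R₂) := by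
    intro R₁ R₂ hR₁ hR₂ hQ₁ hQ₂
    set B₁ := A ⊓ Subgroup.centralizer (R₁ : Set G) with hB₁
    set B₂ := A ⊓ Subgroup.centralizer (R₂ : Set G) with hB₂
    set D₁ := V ⊓ Subgroup.centralizer (B₁ : Set G) with hD₁
    set D₂ := V ⊓ Subgroup.centralizer (B₂ : Set G) with hD₂
    obtain ⟨hd₁, he₁⟩ := hQ₁
    obtain ⟨hd₂, he₂⟩ := hQ₂
    have hB : A ⊓ Subgroup.centralizer ((R₁ ⊔ R₂ : Subgroup G) : Set G) = B₁ ⊓ B₂ := by
      ext x
      constructor
      · rintro ⟨hx, hc⟩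
        have h1 : (R₁ ⊔ R₂ : Subgroup G) ≤ Subgroup.centralizer ({x} : Set G) := by
          intro r hr
          rw [Subgroup.mem_centralizer_singleton_iff]
          exact (Subgroup.mem_centralizer_iff.mp hc r hr)
        refine ⟨⟨hx, Subgroup.mem_centralizer_iff.mpr (fun r hr => ?_)⟩, ⟨hx, Subgroup.mem_centralizer_iff.mpr (fun r hr => ?_)⟩⟩
        · exact Subgroup.mem_centralizer_iff.mp hc r ((le_sup_left : R₁ ≤ R₁ ⊔ R₂) hr)
        · exact Subgroup.mem_centralizer_iff.mp hc r ((le_sup_right : R₂ ≤ R₁ ⊔ R₂) hr)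
      · rintro ⟨⟨hx, hc₁⟩, ⟨-, hc₂⟩⟩
        refine ⟨hx, Subgroup.mem_centralizer_iff.mpr (fun r hr => ?_)⟩
        have h1 : (R₁ ⊔ R₂ : Subgroup G) ≤ Subgroup.centralizer ({x} : Set G) := by
          apply sup_le
          · intro s hs
            rw [Subgroup.mem_centralizer_singleton_iff]
            exact Subgroup.mem_centralizer_iff.mp hc₁ s hs
          · intro s hs
            rw [Subgroup.mem_centralizer_singleton_iff]
            exact Subgroup.mem_centralizer_iff.mp hc₂ s hs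
        have := h1 hr
        rw [Subgroup.mem_centralizer_singleton_iff] at this
        exact this
    have hAVc : ∀ R : Subgroup G, R ≤ V → ∀ a ∈ A, ∀ b ∈ A, ⁅a, b⁆ ∈ A ⊓ Subgroup.centralizer (R : Set G) := by
      intro R hR a ha b hb
      refine ⟨?_, Subgroup.mem_centralizer_iff.mpr (fun r hr => ?_)⟩
      · have e : ⁅a, b⁆ = a * b * a⁻¹ * b⁻¹ := rfl
        rw [e]
        exact A.mul_mem (A.mul_mem (A.mul_mem ha hb) (A.inv_mem ha)) (A.inv_mem hb)
      · exact Subgroup.mem_centralizer_iff.mp (hAA a ha b hb) r (hR hr)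
    have hnorm : B₁ ≤ Subgroup.normalizer (B₂ : Set G) := by
      intro b hb
      rw [Subgroup.mem_normalizer_iff]
      have key : ∀ a ∈ A, a ∈ B₂ → a ∈ A → ∀ y ∈ A, y * a * y⁻¹ ∈ B₂ := by
        intro a _ ha _ y hy
        have e : y * a * y⁻¹ = ⁅y, a⁆ * a := by
          simp only [commutatorElement_def]; group
        rw [e]
        exact B₂.mul_mem (hAVc R₂ hR₂ y hy a ha.1) ha
      intro h
      constructor
      · intro hh
        exact key h hh.1 hh hh.1 b hb.1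
      · intro hh
        have hhA : h ∈ A := by
          have h1 := key _ hh.1 hh hh.1 b⁻¹ (A.inv_mem hb.1)
          have h2 : h = b⁻¹ * (b * h * b⁻¹) * b⁻¹⁻¹ := by group
          rw [h2]
          exact (A.mul_mem (A.mul_mem (A.inv_mem hb.1) hh.1) (A.inv_mem (A.inv_mem hb.1)))
        have h1 := key _ hh.1 hh hh.1 b⁻¹ (A.inv_mem hb.1)
        have h2 : h = b⁻¹ * (b * h * b⁻¹) * b⁻¹⁻¹ := by group
        rw [h2]
        exact h1
    have hnormD : D₁ ≤ Subgroup.normalizer (D₂ : Set G) := by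
      intro d hd
      rw [Subgroup.mem_normalizer_iff]
      intro h
      constructor
      · intro hh
        have : d * h * d⁻¹ = h := by
          rw [hVc d hd.1 h hh.1]; group
        rwa [this]
      · intro hh
        have hdV := hd.1
        have hhV : h ∈ V := by
          have h1 : d * h * d⁻¹ ∈ V := hh.1
          have h2 : h = d⁻¹ * (d * h * d⁻¹) * d := by group
          rw [h2]
          exact V.mul_mem (V.mul_mem (V.inv_mem hdV) h1) hdV
        have : d * h * d⁻¹ = h := by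
          rw [hVc d hd.1 h hhV]; group
        rwa [this] at hh
    have hc1 := Cfsg.Agent.Lib.ThompsonBasic.card_sup_mul_card_inf B₂ B₁ hnorm
    have hc2 := Cfsg.Agent.Lib.ThompsonBasic.card_sup_mul_card_inf D₂ D₁ hnormD
    have hsupA : B₂ ⊔ B₁ ≤ A := sup_le inf_le_left inf_le_left
    have hm1 := hmax _ hsupA
    have hinfA : B₂ ⊓ B₁ ≤ A := inf_le_left.trans inf_le_left
    have hm2 := hmax _ hinfA
    have hD12 : D₂ ⊓ D₁ ≤ V ⊓ Subgroup.centralizer ((B₂ ⊔ B₁ : Subgroup G) : Set G) := by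
      rintro x ⟨hx₂, hx₁⟩
      refine ⟨hx₂.1, Subgroup.mem_centralizer_iff.mpr (fun b hb => ?_)⟩
      have h1 : (B₂ ⊔ B₁ : Subgroup G) ≤ Subgroup.centralizer ({x} : Set G) := by
        apply sup_le
        · intro s hs
          rw [Subgroup.mem_centralizer_singleton_iff]
          exact (Subgroup.mem_centralizer_iff.mp hx₂.2 s hs)
        · intro s hs
          rw [Subgroup.mem_centralizer_singleton_iff]
          exact (Subgroup.mem_centralizer_iff.mp hx₁.2 s hs)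
      have := h1 hb
      rw [Subgroup.mem_centralizer_singleton_iff] at this
      exact this
    have hD12' : D₂ ⊔ D₁ ≤ V ⊓ Subgroup.centralizer ((B₂ ⊓ B₁ : Subgroup G) : Set G) := by
      apply sup_le
      · rintro x hx
        exact ⟨hx.1, Subgroup.mem_centralizer_iff.mpr (fun b hb => Subgroup.mem_centralizer_iff.mp hx.2 b hb.1)⟩
      · rintro x hx
        exact ⟨hx.1, Subgroup.mem_centralizer_iff.mpr (fun b hb => Subgroup.mem_centralizer_iff.mp hx.2 b hb.2)⟩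
    have hkey : m * m ≤ (Nat.card ↥(B₂ ⊓ B₁) * Nat.card ↥(D₂ ⊔ D₁)) * (Nat.card ↥(B₂ ⊔ B₁) * Nat.card ↥(D₂ ⊓ D₁)) := by
      have e : (Nat.card ↥(B₂ ⊓ B₁) * Nat.card ↥(D₂ ⊔ D₁)) * (Nat.card ↥(B₂ ⊔ B₁) * Nat.card ↥(D₂ ⊓ D₁)) =
          (Nat.card ↥(B₂ ⊔ B₁) * Nat.card ↥(B₂ ⊓ B₁)) * (Nat.card ↥(D₂ ⊔ D₁) * Nat.card ↥(D₂ ⊓ D₁)) := by ring
      rw [e, hc1, hc2]
      apply le_of_eq
      rw [← hd₂]
      nth_rewrite 2 [hd₂]
      rw [← hd₁]
      ring
    have hle3 : Nat.card ↥(B₂ ⊓ B₁) * Nat.card ↥(D₂ ⊔ D₁) ≤ m := by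
      refine le_trans (Nat.mul_le_mul_left _ (Subgroup.card_le_of_le hD12')) hm2
    have hle4 : Nat.card ↥(B₂ ⊔ B₁) * Nat.card ↥(D₂ ⊓ D₁) ≤ m := by
      refine le_trans (Nat.mul_le_mul_left _ (Subgroup.card_le_of_le hD12)) hm1
    obtain ⟨hmm, -⟩ := sup_max hmpos hle3 hle4 hkey
    have hBinf : B₁ ⊓ B₂ = B₂ ⊓ B₁ := inf_comm _ _
    show Nat.card ↥(A ⊓ Subgroup.centralizer ((R₁ ⊔ R₂ : Subgroup G) : Set G)) * Nat.card ↥(V ⊓ Subgroup.centralizer ((A ⊓ Subgroup.centralizer ((R₁ ⊔ R₂ : Subgroup G) : Set G) : Subgroup G) : Set G)) = m ∧ V ⊓ Subgroup.centralizer ((A ⊓ Subgroup.centralizer ((R₁ ⊔ R₂ : Subgroup G) : Set G) : Subgroup G) : Set G) = R₁ ⊔ R₂ ⊔ C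
    rw [hB, hBinf]
    have hcardeq : Nat.card ↥(V ⊓ Subgroup.centralizer ((B₂ ⊓ B₁ : Subgroup G) : Set G)) = Nat.card ↥(D₂ ⊔ D₁) := by
      apply le_antisymm
      · have h5 : Nat.card ↥(B₂ ⊓ B₁) * Nat.card ↥(V ⊓ Subgroup.centralizer ((B₂ ⊓ B₁ : Subgroup G) : Set G)) ≤
            Nat.card ↥(B₂ ⊓ B₁) * Nat.card ↥(D₂ ⊔ D₁) := by
          rw [hmm]; exact hm2
        exact Nat.le_of_mul_le_mul_left h5 Nat.card_pos
      · exact Subgroup.card_le_of_le hD12'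
    refine ⟨by rw [hcardeq]; exact hmm, ?_⟩
    have h6 : D₂ ⊔ D₁ = V ⊓ Subgroup.centralizer ((B₂ ⊓ B₁ : Subgroup G) : Set G) :=
      Subgroup.eq_of_le_of_card_ge hD12' (by rw [hcardeq])
    rw [← h6]
    have h7 : D₁ = R₁ ⊔ C := he₁
    have h8 : D₂ = R₂ ⊔ C := he₂
    rw [h7, h8]
    apply le_antisymm
    · apply sup_le
      · exact sup_le (le_sup_of_le_left le_sup_right) le_sup_right
      · exact sup_le (le_sup_of_le_left le_sup_left) le_sup_right
    · apply sup_le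
      · apply sup_le
        · exact le_sup_of_le_right le_sup_left
        · exact le_sup_of_le_left le_sup_left
      · exact le_sup_of_le_left le_sup_right
  -- the sup of commutators
  have hcommsup : ∀ W₁ W₂ : Subgroup G, W₁ ≤ V → W₂ ≤ V → ⁅W₁ ⊔ W₂, A⁆ = ⁅W₁, A⁆ ⊔ ⁅W₂, A⁆ := by
    intro W₁ W₂ h₁ h₂
    apply le_antisymm
    · let S : Subgroup G :=
        { carrier := {u | u ∈ V ∧ ∀ a ∈ A, ⁅u, a⁆ ∈ ⁅W₁, A⁆ ⊔ ⁅W₂, A⁆}
          mul_mem' := by
            rintro u u' ⟨hu, h1⟩ ⟨hu', h2⟩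
            refine ⟨V.mul_mem hu hu', fun a ha => ?_⟩
            rw [comm_mul hVc (hAV a ha) hu hu']
            exact Subgroup.mul_mem _ (h1 a ha) (h2 a ha)
          one_mem' := ⟨V.one_mem, fun a _ => by
            rw [commutatorElement_one_left]; exact Subgroup.one_mem _⟩
          inv_mem' := by
            rintro u ⟨hu, h1⟩
            refine ⟨V.inv_mem hu, fun a ha => ?_⟩
            have e := comm_zpow hVc (hAV a ha) hu (-1)
            rw [zpow_neg_one, zpow_neg_one] at e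
            rw [e]
            exact Subgroup.inv_mem _ (h1 a ha) }
      have hS : W₁ ⊔ W₂ ≤ S := by
        apply sup_le
        · intro u hu
          exact ⟨h₁ hu, fun a ha => (le_sup_left : ⁅W₁, A⁆ ≤ _) (Subgroup.commutator_mem_commutator hu ha)⟩
        · intro u hu
          exact ⟨h₂ hu, fun a ha => (le_sup_right : ⁅W₂, A⁆ ≤ _) (Subgroup.commutator_mem_commutator hu ha)⟩
      rw [Subgroup.commutator_le]
      intro u hu a ha
      exact (hS hu).2 a ha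
    · exact sup_le (Subgroup.commutator_mono le_sup_left le_rfl) (Subgroup.commutator_mono le_sup_right le_rfl)
  -- finite induction
  have hfin : ∀ s : Finset G, (∀ x ∈ s, x ∈ V) → Q ⁅Subgroup.closure (s : Set G), A⁆ := by
    intro s
    induction s using Finset.induction_on with
    | empty =>
      intro _
      have h0 : ⁅Subgroup.closure ((∅ : Finset G) : Set G), A⁆ = ⊥ := by
        simp
      rw [h0]
      have h1 : A ⊓ Subgroup.centralizer ((⊥ : Subgroup G) : Set G) = A := by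
        apply inf_eq_left.mpr
        intro a _
        refine Subgroup.mem_centralizer_iff.mpr (fun r hr => ?_)
        have hr1 : r = 1 := hr
        rw [hr1]; simp
      show Nat.card ↥(A ⊓ Subgroup.centralizer ((⊥ : Subgroup G) : Set G)) * Nat.card ↥(V ⊓ Subgroup.centralizer ((A ⊓ Subgroup.centralizer ((⊥ : Subgroup G) : Set G) : Subgroup G) : Set G)) = m ∧ V ⊓ Subgroup.centralizer ((A ⊓ Subgroup.centralizer ((⊥ : Subgroup G) : Set G) : Subgroup G) : Set G) = ⊥ ⊔ C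
      rw [h1, bot_sup_eq]
      exact ⟨rfl, rfl⟩
    | insert v s _ ih =>
      intro hs
      have hs' : ∀ x ∈ s, x ∈ V := fun x hx => hs x (Finset.mem_insert_of_mem hx)
      have hv : v ∈ V := hs v (Finset.mem_insert_self v s)
      have hcl : Subgroup.closure (s : Set G) ≤ V := by
        rw [Subgroup.closure_le]
        exact fun x hx => hs' x hx
      have e : Subgroup.closure ((insert v s : Finset G) : Set G) = Subgroup.zpowers v ⊔ Subgroup.closure (s : Set G) := by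
        rw [Finset.coe_insert, Set.insert_eq, Subgroup.closure_union, Subgroup.zpowers_eq_closure]
      rw [e, hcommsup _ _ (Subgroup.zpowers_le.mpr hv) hcl]
      exact hcombine _ _ (hRV _ (Subgroup.zpowers_le.mpr hv)) (hRV _ hcl) (hsingle v hv) (ih hs')
  have hcl : Subgroup.closure (((Set.toFinite (U : Set G)).toFinset : Finset G) : Set G) = U := by
    rw [Set.Finite.coe_toFinset, Subgroup.closure_eq]
  have h := hfin (Set.toFinite (U : Set G)).toFinset (fun x hx => hU ((Set.Finite.mem_toFinset _).mp hx))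
  rw [hcl] at h
  exact h

/-- Thompson's replacement dichotomy: for A acting with abelian image on an elementary abelian p-group V and U ≤ V, either some subgroup of A increases the product of its order with the order of its fixed points, or C_A([U,A]) preserves that product and has fixed points exactly [U,A]C_V(A). -/
theorem result {G : Type*} [Group G] [Finite G] {p : ℕ} [Fact p.Prime] (V A : Subgroup G) (hV : Cfsg.IsElementaryAbelian p V) (hAV : A ≤ Subgroup.normalizer (V : Set G)) (hab : ⁅A, A⁆ ≤ Subgroup.centralizer (V : Set G)) (U : Subgroup G) (hU : U ≤ V) : ∃ B : Subgroup G, B ≤ A ∧ ((Nat.card A * Nat.card ↥(V ⊓ Subgroup.centralizer (A : Set G)) < Nat.card B * Nat.card ↥(V ⊓ Subgroup.centralizer (B : Set G))) ∨ (B = A ⊓ Subgroup.centralizer ((⁅U, A⁆ : Subgroup G) : Set G) ∧ (V ⊓ Subgroup.centralizer (B : Set G)) = ⁅U, A⁆ ⊔ (V ⊓ Subgroup.centralizer (A : Set G)) ∧ Nat.card A * Nat.card ↥(V ⊓ Subgroup.centralizer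 (A : Set G)) = Nat.card B * Nat.card ↥(V ⊓ Subgroup.centralizer (B : Set G)))) := by
  classical
  have hVc : ∀ x ∈ V, ∀ y ∈ V, x * y = y * x := by
    intro x hx y hy
    have := hV.1.is_comm.comm (⟨x, hx⟩ : V) ⟨y, hy⟩
    exact congrArg Subtype.val this
  have hAV' : ∀ a ∈ A, ∀ x ∈ V, a * x * a⁻¹ ∈ V := by
    intro a ha x hx
    exact (Subgroup.mem_normalizer_iff.mp (hAV ha) x).mp hx
  have hAA : ∀ a ∈ A, ∀ b ∈ A, ⁅a, b⁆ ∈ Subgroup.centralizer (V : Set G) := by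
    intro a ha b hb
    exact hab (Subgroup.commutator_mem_commutator ha hb)
  by_cases hex : ∃ B : Subgroup G, B ≤ A ∧ Nat.card A * Nat.card ↥(V ⊓ Subgroup.centralizer (A : Set G)) < Nat.card B * Nat.card ↥(V ⊓ Subgroup.centralizer (B : Set G))
  · obtain ⟨B, hB, h⟩ := hex
    exact ⟨B, hB, Or.inl h⟩
  · push Not at hex
    obtain ⟨h1, h2⟩ := main V A hVc hAV' hAA hex U hU
    exact ⟨_, inf_le_left, Or.inr ⟨rfl, h2, h1.symm⟩⟩

end Cfsg.Agent.S0598
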