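import Cfsg.Statements.S0607
import Mathlib
import Cfsg.Agent.S0598
import Cfsg.Agent.Lib.NormalE
import Cfsg.Agent.Lib.H6Q8

set_option autoImplicit false
open Cfsg

namespace Cfsg.Agent.S0607

open scoped commutatorElement

/-- The replacement Theorem for the Thompson subgroup: from A of maximal order among elementary abelian p-subgroups one obtains A₀ = [V, A] C_A([V, A]) of the same kind, quadratic on V and nontrivial on V when A is. -/
theorem result {G : Type*} [Group G] [Finite G] {p : ℕ} [Fact p.Prime] (V : Subgroup G) [V.Normal] (hV : Cfsg.IsElementaryAbelian p V) (A : Subgroup G) (hA : A ∈ Cfsg.maxElementaryAbelianSubgroups p G) : (⁅V, A⁆ ⊔ (A ⊓ Subgroup.centralizer ((⁅V, A⁆ : Subgroup G) : Set G))) ∈ Cfsg.maxElementaryAbelianSubgroups p G ∧ ⁅⁅V, ⁅V, A⁆ ⊔ (A ⊓ Subgroup.centralizer ((⁅V, A⁆ : Subgroup G) : Set G))⁆, ⁅V, A⁆ ⊔ (A ⊓ Subgroup.centralizer ((⁅V, A⁆ : Subgroup G) : Set G))⁆ = ⊥ ∧ (⁅V, A⁆ ≠ ⊥ → ⁅V, ⁅V, A⁆ ⊔ (A ⊓ Subgroup.centralizer ((⁅V,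 A⁆ : Subgroup G) : Set G))⁆ ≠ ⊥) := by
  classical
  have hpp : p.Prime := Fact.out
  obtain ⟨⟨hVcm, hVe⟩⟩ := And.intro hV trivial
  obtain ⟨⟨hAcm, hAe⟩, hAmax⟩ := hA
  have hVc : ∀ x ∈ V, ∀ y ∈ V, x * y = y * x := by
    intro x hx y hy
    have := hVcm.is_comm.comm (⟨x, hx⟩ : V) ⟨y, hy⟩
    exact congrArg Subtype.val this
  have hAc : ∀ x ∈ A, ∀ y ∈ A, x * y = y * x := by
    intro x hx y hy
    have := hAcm.is_comm.comm (⟨x, hx⟩ : A) ⟨y, hy⟩
    exact congrArg Subtype.val this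
  have hmkE : ∀ X : Subgroup G, (∀ x ∈ X, ∀ y ∈ X, x * y = y * x) → (∀ x ∈ X, x ^ p = 1) →
      Cfsg.IsElementaryAbelian p X := by
    intro X h1 h2
    refine ⟨⟨⟨fun a b => Subtype.ext (h1 a.1 a.2 b.1 b.2)⟩⟩, h2⟩
  have hAV : ∀ a ∈ A, ∀ x ∈ V, a * x * a⁻¹ ∈ V := fun a _ x hx => (inferInstance : V.Normal).conj_mem x hx a
  set C := V ⊓ Subgroup.centralizer (A : Set G) with hC
  -- `C ≤ A`
  have hCA : C ≤ A := by
    have h1 := Cfsg.Agent.Lib.NormalE.sup_comm_exp (p := p) hAc
      (A := A) (B := C) (fun a ha b hb => hVc a ha.1 b hb.1)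
      (fun a ha b hb => (Subgroup.mem_centralizer_iff.mp hb.2 a ha)) hAe (fun a ha => hVe a ha.1)
    have h2 := hAmax _ (hmkE _ h1.1 h1.2)
    have h3 : A = A ⊔ C := Subgroup.eq_of_le_of_card_ge le_sup_left h2
    rw [h3]
    exact le_sup_right
  have hCeq : ∀ x, x ∈ A → x ∈ V → x ∈ C := by
    intro x hx hxV
    exact ⟨hxV, Subgroup.mem_centralizer_iff.mpr (fun a ha => hAc a ha x hx)⟩
  -- the maximality hypothesis
  have hmax : ∀ B : Subgroup G, B ≤ A → Nat.card B * Nat.card ↥(V ⊓ Subgroup.centralizer (B : Set G)) ≤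
      Nat.card A * Nat.card C := by
    intro B hB
    set D := V ⊓ Subgroup.centralizer (B : Set G) with hD
    have hBD : ∀ b ∈ B, ∀ d ∈ D, b * d = d * b := fun b hb d hd =>
      (Subgroup.mem_centralizer_iff.mp hd.2 b hb)
    have h1 := Cfsg.Agent.Lib.NormalE.sup_comm_exp (p := p) (A := B) (B := D)
      (fun a ha b hb => hAc a (hB ha) b (hB hb)) (fun a ha b hb => hVc a ha.1 b hb.1)
      hBD (fun a ha => hAe a (hB ha)) (fun a ha => hVe a ha.1)
    have h2 := hAmax _ (hmkE _ h1.1 h1.2)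
    have hn : D ≤ Subgroup.normalizer (B : Set G) := by
      intro d hd
      rw [Subgroup.mem_normalizer_iff]
      intro b
      constructor
      · intro hb
        have : d * b * d⁻¹ = b := by rw [← hBD b hb d hd]; group
        rwa [this]
      · intro hb
        have hb' : b = d⁻¹ * (d * b * d⁻¹) * d := by group
        have h5 := hBD _ hb d⁻¹ (D.inv_mem hd)
        rw [hb', ← h5]
        simpa using hb
    have h3 := Cfsg.Agent.Lib.ThompsonBasic.card_sup_mul_card_inf B D hn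
    have h4 : B ⊓ D ≤ C := fun x hx => hCeq x (hB hx.1) hx.2.1
    rw [← h3]
    exact Nat.mul_le_mul h2 (Subgroup.card_le_of_le h4)
  have hAA : ∀ a ∈ A, ∀ b ∈ A, ⁅a, b⁆ ∈ Subgroup.centralizer (V : Set G) := by
    intro a ha b hb
    rw [commutatorElement_eq_one_iff_mul_comm.mpr (hAc a ha b hb)]
    exact Subgroup.one_mem _
  obtain ⟨hd, he⟩ := Cfsg.Agent.S0598.main V A hVc hAV hAA hmax V le_rfl
  set R : Subgroup G := ⁅V, A⁆ with hR
  set B := A ⊓ Subgroup.centralizer (R : Set G) with hB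
  have hRV : R ≤ V := by
    rw [hR, Subgroup.commutator_le]
    intro u hu a ha
    have e : ⁅u, a⁆ = u * (a * u⁻¹ * a⁻¹) := by
      simp only [commutatorElement_def]; group
    rw [e]
    exact V.mul_mem hu (hAV a ha _ (V.inv_mem hu))
  have hRB : ∀ a ∈ R, ∀ b ∈ B, a * b = b * a := fun a ha b hb =>
    (Subgroup.mem_centralizer_iff.mp hb.2 a ha)
  have hBA : B ≤ A := inf_le_left
  have hsup := Cfsg.Agent.Lib.NormalE.sup_comm_exp (p := p) (A := R) (B := B)
    (fun a ha b hb => hVc a (hRV ha) b (hRV hb)) (fun a ha b hb => hAc a (hBA ha) b (hBA hb))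
    hRB (fun a ha => hVe a (hRV ha)) (fun a ha => hAe a (hBA ha))
  set A₀ := R ⊔ B with hA₀
  have hA₀E : Cfsg.IsElementaryAbelian p A₀ := hmkE _ hsup.1 hsup.2
  -- cardinality
  have hCB : C ≤ B := by
    intro c hc
    refine ⟨hCA hc, Subgroup.mem_centralizer_iff.mpr (fun r hr => ?_)⟩
    exact hVc r (hRV hr) c hc.1
  set D := V ⊓ Subgroup.centralizer (B : Set G) with hD
  have hDe : D = R ⊔ C := he
  have hA₀D : A₀ = D ⊔ B := by
    rw [hDe, hA₀]
    apply le_antisymm
    · exact sup_le (le_sup_of_le_left le_sup_left) le_sup_right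
    · exact sup_le (sup_le le_sup_left (le_trans hCB le_sup_right)) le_sup_right
  have hDB : D ⊓ B = C := by
    apply le_antisymm
    · intro x hx
      exact hCeq x (hBA hx.2) hx.1.1
    · exact le_inf (by rw [hDe]; exact le_sup_right) hCB
  have hnDB : B ≤ Subgroup.normalizer (D : Set G) := by
    intro b hb
    rw [Subgroup.mem_normalizer_iff]
    intro d
    constructor
    · intro hd'
      have : b * d * b⁻¹ = d := by
        rw [Subgroup.mem_centralizer_iff.mp hd'.2 b hb]; group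
      rwa [this]
    · intro hd'
      have h2 := (Subgroup.mem_centralizer_iff.mp hd'.2 b hb)
      have : b * d * b⁻¹ = d := mul_left_cancel (a := b) (by rw [h2]; group)
      rwa [this] at hd'
  have hcard1 := Cfsg.Agent.Lib.ThompsonBasic.card_sup_mul_card_inf D B hnDB
  rw [hDB, ← hA₀D] at hcard1
  have hcardA₀ : Nat.card A₀ = Nat.card A := by
    have h1 : Nat.card A₀ * Nat.card C = Nat.card A * Nat.card C := by
      rw [hcard1, mul_comm (Nat.card D)]
      exact hd
    exact Nat.eq_of_mul_eq_mul_right Nat.card_pos h1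
  have hmaxA₀ : A₀ ∈ Cfsg.maxElementaryAbelianSubgroups p G :=
    ⟨hA₀E, fun X hX => by rw [hcardA₀]; exact hAmax X hX⟩
  -- decomposition of elements of `A₀`
  have hdec : ∀ x ∈ A₀, ∃ r ∈ R, ∃ b ∈ B, x = r * b := by
    let T : Subgroup G :=
      { carrier := {x | ∃ r ∈ R, ∃ b ∈ B, x = r * b}
        mul_mem' := by
          rintro _ _ ⟨r, hr, b, hb, rfl⟩ ⟨r', hr', b', hb', rfl⟩
          refine ⟨r * r', R.mul_mem hr hr', b * b', B.mul_mem hb hb', ?_⟩
          calc r * b * (r' * b') = r * (b * r') * b' := by group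
            _ = r * (r' * b) * b' := by rw [hRB r' hr' b hb]
            _ = _ := by group
        one_mem' := ⟨1, R.one_mem, 1, B.one_mem, by simp⟩
        inv_mem' := by
          rintro _ ⟨r, hr, b, hb, rfl⟩
          refine ⟨r⁻¹, R.inv_mem hr, b⁻¹, B.inv_mem hb, ?_⟩
          rw [mul_inv_rev]
          have h1 := hRB r⁻¹ (R.inv_mem hr) b⁻¹ (B.inv_mem hb)
          exact h1.symm }
    have hle : A₀ ≤ T := by
      apply sup_le
      · intro r hr
        exact ⟨r, hr, 1, B.one_mem, by simp⟩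
      · intro b hb
        exact ⟨1, R.one_mem, b, hb, by simp⟩
    exact fun x hx => hle hx
  -- `[V, A₀] ≤ R`
  have hVA₀ : ⁅V, A₀⁆ ≤ R := by
    rw [Subgroup.commutator_le]
    intro v hv x hx
    obtain ⟨r, hr, b, hb, rfl⟩ := hdec x hx
    have h1 : ⁅v, r * b⁆ = ⁅v, b⁆ := by
      simp only [commutatorElement_def]
      have h2 : b * v⁻¹ * b⁻¹ ∈ V := hAV b (hBA hb) _ (V.inv_mem hv)
      have h3 := hVc r (hRV hr) _ h2
      calc v * (r * b) * v⁻¹ * (r * b)⁻¹ = v * (r * (b * v⁻¹ * b⁻¹)) * r⁻¹ := by group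
        _ = v * ((b * v⁻¹ * b⁻¹) * r) * r⁻¹ := by rw [h3]
        _ = _ := by group
    rw [h1]
    exact Subgroup.commutator_mem_commutator hv (hBA hb)
  have hRA₀ : R ≤ A₀ := le_sup_left
  refine ⟨hmaxA₀, ?_, ?_⟩
  · rw [eq_bot_iff, Subgroup.commutator_le]
    intro u hu x hx
    rw [Subgroup.mem_bot, commutatorElement_eq_one_iff_mul_comm]
    exact hsup.1 u (hRA₀ (hVA₀ hu)) x hx
  · intro hne hbot
    apply hne
    -- `A₀` centralizes `V`
    have hcen : ∀ v ∈ V, ∀ x ∈ A₀, v * x = x * v := by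
      intro v hv x hx
      have := Subgroup.commutator_mem_commutator hv hx
      rw [hbot, Subgroup.mem_bot] at this
      exact commutatorElement_eq_one_iff_mul_comm.mp this
    have h1 := Cfsg.Agent.Lib.NormalE.sup_comm_exp (p := p) (A := A₀) (B := V)
      hsup.1 hVc (fun a ha b hb => (hcen b hb a ha).symm) hsup.2 hVe
    have h2 := hAmax _ (hmkE _ h1.1 h1.2)
    rw [← hcardA₀] at h2
    have h3 : A₀ = A₀ ⊔ V := Subgroup.eq_of_le_of_card_ge le_sup_left h2
    have hVA₀' : V ≤ A₀ := by rw [h3]; exact le_sup_right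
    have hVD : V ≤ D := by
      intro v hv
      refine ⟨hv, Subgroup.mem_centralizer_iff.mpr (fun b hb => ?_)⟩
      exact (hcen v hv b ((le_sup_right : B ≤ A₀) hb)).symm
    -- `R = [R, A]`
    have hVeq : V = R ⊔ C := by
      rw [← hDe]
      exact le_antisymm hVD inf_le_left
    have hRR : R ≤ ⁅R, A⁆ := by
      show ⁅V, A⁆ ≤ ⁅R, A⁆
      rw [Subgroup.commutator_le]
      intro u hu a ha
      let S : Subgroup G :=
        { carrier := {u | u ∈ V ∧ ∀ a ∈ A, ⁅u, a⁆ ∈ ⁅R, A⁆}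
          mul_mem' := by
            rintro u u' ⟨hu, h1⟩ ⟨hu', h2⟩
            refine ⟨V.mul_mem hu hu', fun a ha => ?_⟩
            rw [Cfsg.Agent.S0598.comm_mul hVc (hAV a ha) hu hu']
            exact Subgroup.mul_mem _ (h1 a ha) (h2 a ha)
          one_mem' := ⟨V.one_mem, fun a _ => by
            rw [commutatorElement_one_left]; exact Subgroup.one_mem _⟩
          inv_mem' := by
            rintro u ⟨hu, h1⟩
            refine ⟨V.inv_mem hu, fun a ha => ?_⟩
            have e := Cfsg.Agent.S0598.comm_zpow hVc (hAV a ha) hu (-1)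
            rw [zpow_neg_one, zpow_neg_one] at e
            rw [e]
            exact Subgroup.inv_mem _ (h1 a ha) }
      have hS : V ≤ S := by
        rw [hVeq]
        apply sup_le
        · intro r hr
          exact ⟨hRV hr, fun a ha => Subgroup.commutator_mem_commutator hr ha⟩
        · intro c hc
          refine ⟨hc.1, fun a ha => ?_⟩
          have h1 : ⁅c, a⁆ = 1 := by
            rw [commutatorElement_eq_one_iff_mul_comm]
            exact (Subgroup.mem_centralizer_iff.mp hc.2 a ha).symm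
          rw [h1]
          exact Subgroup.one_mem _
      exact (hS hu).2 a ha
    set L := V ⊔ A with hL
    have hVp : IsPGroup p V := by
      rw [IsPGroup.iff_orderOf]
      rintro ⟨y, hy⟩
      rcases (Nat.dvd_prime hpp).mp (orderOf_dvd_of_pow_eq_one (hVe y hy)) with h | h
      · exact ⟨0, by rw [Subgroup.orderOf_mk, h, pow_zero]⟩
      · exact ⟨1, by rw [Subgroup.orderOf_mk, h, pow_one]⟩
    have hAp : IsPGroup p A := by
      rw [IsPGroup.iff_orderOf]
      rintro ⟨y, hy⟩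
      rcases (Nat.dvd_prime hpp).mp (orderOf_dvd_of_pow_eq_one (hAe y hy)) with h | h
      · exact ⟨0, by rw [Subgroup.orderOf_mk, h, pow_zero]⟩
      · exact ⟨1, by rw [Subgroup.orderOf_mk, h, pow_one]⟩
    have hLp : IsPGroup p L := IsPGroup.to_sup_of_normal_left hVp hAp
    haveI hnil : Group.IsNilpotent L := hLp.isNilpotent
    have hRL : R ≤ L := hRV.trans le_sup_left
    have hAL : A ≤ L := le_sup_right
    have hbot := Cfsg.Agent.Lib.H6Q8.bot_of_le_comm (R.subgroupOf L) (by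
      intro x hx
      have h1 : (x : G) ∈ R := Subgroup.mem_subgroupOf.mp hx
      have h2 : (x : G) ∈ ⁅R, A⁆ := hRR h1
      have h3 : (⁅R.subgroupOf L, (⊤ : Subgroup L)⁆).map L.subtype = ⁅R, L⁆ := by
        rw [Subgroup.map_commutator, Subgroup.map_subgroupOf_eq_of_le hRL]
        congr 1
        ext y
        simp
      have h4 : (x : G) ∈ (⁅R.subgroupOf L, (⊤ : Subgroup L)⁆).map L.subtype := by
        rw [h3]
        exact Subgroup.commutator_mono le_rfl hAL h2
      obtain ⟨y, hy, hyx⟩ := h4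
      have h5 : y = x := Subtype.ext hyx
      rwa [h5] at hy)
    rw [eq_bot_iff]
    intro x hx
    have h1 : (⟨x, hRL hx⟩ : L) ∈ R.subgroupOf L := Subgroup.mem_subgroupOf.mpr hx
    rw [hbot, Subgroup.mem_bot] at h1
    exact congrArg Subtype.val h1

end Cfsg.Agent.S0607
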