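import Cfsg.Statements.S0622
import Cfsg.Agent.Lib.ThompsonBasic

set_option autoImplicit false
universe u
open Cfsg

namespace Cfsg.Agent.S0622

open Cfsg Cfsg.Agent.Lib.ThompsonBasic

lemma mem_omegaCT_map {P Q : Type*} [Group P] [Group Q] {p : ℕ} (e : P ≃* Q) :
    (omegaCenterThompson p P).map e.toMonoidHom ≤ omegaCenterThompson p Q := by
  unfold omegaCenterThompson omegaOne
  rw [MonoidHom.map_closure]
  apply Subgroup.closure_mono
  rintro _ ⟨x, ⟨hx, hxp⟩, rfl⟩
  obtain ⟨hx1, hx2⟩ := Subgroup.mem_inf.mp hx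
  have hJ := thompson_map_equiv (p := p) e
  refine ⟨Subgroup.mem_inf.mpr ⟨?_, ?_⟩, ?_⟩
  · rw [← hJ]
    exact ⟨x, hx1, rfl⟩
  · rw [Subgroup.mem_centralizer_iff] at hx2 ⊢
    intro h hh
    rw [SetLike.mem_coe, ← hJ] at hh
    obtain ⟨j, hj, rfl⟩ := hh
    have := hx2 j hj
    show e j * e x = e x * e j
    rw [← map_mul, ← map_mul, this]
  · show (e x) ^ p = 1
    rw [← map_pow, hxp, map_one]

lemma omegaCT_map {P Q : Type*} [Group P] [Group Q] {p : ℕ} (e : P ≃* Q) :
    (omegaCenterThompson p P).map e.toMonoidHom = omegaCenterThompson p Q := by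
  apply le_antisymm (mem_omegaCT_map e)
  have h := mem_omegaCT_map (p := p) e.symm
  rw [Subgroup.map_le_iff_le_comap] at h
  intro x hx
  exact ⟨e.symm x, h hx, by simp⟩

lemma omegaZ_map_le {P Q : Type*} [Group P] [Group Q] {p : ℕ} (e : P ≃* Q) :
    (omegaOne p (Subgroup.center P)).map e.toMonoidHom ≤ omegaOne p (Subgroup.center Q) := by
  unfold omegaOne
  rw [MonoidHom.map_closure]
  apply Subgroup.closure_mono
  rintro _ ⟨x, ⟨hx, hxp⟩, rfl⟩
  refine ⟨?_, ?_⟩
  · rw [Subgroup.mem_center_iff] at hx ⊢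
    intro g
    obtain ⟨g₀, rfl⟩ := e.surjective g
    have := hx g₀
    show e g₀ * e x = e x * e g₀
    rw [← map_mul, ← map_mul, this]
  · show (e x) ^ p = 1
    rw [← map_pow, hxp, map_one]

lemma stable_comp {p : ℕ} {S S' H : Type u} [Group S] [Group S'] [Group H] (η : S ≃* S') {τ : S' →* H}
    (hτ : IsStableEmbedding p τ) : IsStableEmbedding p (τ.comp η.toMonoidHom) := by
  obtain ⟨h1, h2, ⟨P, hP⟩, h4, h5, h6⟩ := hτ
  have hJ : (thompsonSubgroup p S).map (τ.comp η.toMonoidHom) = (thompsonSubgroup p S').map τ := by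
    rw [← Subgroup.map_map, thompson_map_equiv]
  have hO : (omegaCenterThompson p S).map (τ.comp η.toMonoidHom) = (omegaCenterThompson p S').map τ := by
    rw [← Subgroup.map_map, omegaCT_map]
  refine ⟨h1.comp η.injective, h2, ⟨P, ?_⟩, h4, ?_, ?_⟩
  · rw [hP]
    ext x
    constructor
    · rintro ⟨y, rfl⟩
      exact ⟨η.symm y, by simp⟩
    · rintro ⟨y, rfl⟩
      exact ⟨η y, rfl⟩
  · rw [hJ]
    exact h5
  · intro V _ hV
    rw [hO] at hV
    exact h6 V hV

lemma omegaCT_normal {p : ℕ} {S H : Type u} [Group S] [Group H] {τ : S →* H} (hτ : IsStableEmbedding p τ) :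
    ((omegaCenterThompson p S).map τ).Normal := by
  obtain ⟨h1, -, -, -, h5, -⟩ := hτ
  constructor
  have key : ∀ g : H, ((omegaCenterThompson p S).map τ).map (MulAut.conj g).toMonoidHom ≤ (omegaCenterThompson p S).map τ := by
    intro g
    unfold omegaCenterThompson omegaOne
    simp only [MonoidHom.map_closure]
    rw [Subgroup.closure_le]
    rintro _ ⟨_, ⟨x, ⟨hx, hxp⟩, rfl⟩, rfl⟩
    obtain ⟨hx1, hx2⟩ := Subgroup.mem_inf.mp hx
    have h6 : g * τ x * g⁻¹ ∈ (thompsonSubgroup p S).map τ := h5.conj_mem _ ⟨x, hx1, rfl⟩ g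
    obtain ⟨x', hx', hxx'⟩ := h6
    apply Subgroup.subset_closure
    refine ⟨x', ⟨Subgroup.mem_inf.mpr ⟨hx', ?_⟩, ?_⟩, hxx'⟩
    · rw [Subgroup.mem_centralizer_iff] at hx2 ⊢
      intro j hj
      apply h1
      have h7 : g⁻¹ * τ j * g⁻¹⁻¹ ∈ (thompsonSubgroup p S).map τ := h5.conj_mem _ ⟨j, hj, rfl⟩ g⁻¹
      obtain ⟨j', hj', hjj'⟩ := h7
      have h8 := hx2 j' hj'
      have h9 : τ j' * τ x = τ x * τ j' := by rw [← map_mul, h8, map_mul]
      rw [map_mul, map_mul, hxx']
      rw [hjj'] at h9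
      have h10 := congrArg (fun y => g * y * g⁻¹) h9
      calc τ j * (g * τ x * g⁻¹) = g * (g⁻¹ * τ j * g⁻¹⁻¹ * τ x) * g⁻¹ := by group
        _ = g * (τ x * (g⁻¹ * τ j * g⁻¹⁻¹)) * g⁻¹ := h10
        _ = _ := by group
    · apply h1
      rw [map_pow, hxx', map_one, conj_pow, ← map_pow, hxp, map_one]
      group
  intro n hn g
  exact key g ⟨n, hn, rfl⟩

lemma omegaZ_le_omegaCT {p : ℕ} {S : Type u} [Group S] [Finite S] :
    omegaOne p (Subgroup.center S) ≤ omegaCenterThompson p S := by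
  unfold omegaCenterThompson omegaOne
  apply Subgroup.closure_mono
  rintro x ⟨hx, hxp⟩
  have hxc : x ∈ Subgroup.centralizer (thompsonSubgroup p S : Set S) := by
    rw [Subgroup.mem_centralizer_iff]
    intro h _
    exact (Subgroup.mem_center_iff.mp hx h)
  exact ⟨Subgroup.mem_inf.mpr ⟨mem_thompson_of_centralizes hxc hxp, hxc⟩, hxp⟩

lemma omegaCT_mem {p : ℕ} {S : Type u} [Group S] [Finite S] :
    omegaCenterThompson p S ∈ {W : Subgroup S | omegaOne p (Subgroup.center S) ≤ W ∧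
      ∀ (H : Type u) [Group H] (τ : S →* H), IsStableEmbedding p τ → (W.map τ).Normal} :=
  ⟨omegaZ_le_omegaCT, fun _ _ _ hτ => omegaCT_normal hτ⟩

lemma closure_normal {p : ℕ} {S : Type u} [Group S] [Finite S] {H : Type u} [Group H] {τ : S →* H}
    (hτ : IsStableEmbedding p τ) : ((stableNormalClosure p S).map τ).Normal := by
  have hinj := hτ.1
  constructor
  rintro _ ⟨w, hw, rfl⟩ g
  have hW : ∀ W ∈ {W : Subgroup S | omegaOne p (Subgroup.center S) ≤ W ∧
      ∀ (H : Type u) [Group H] (τ : S →* H), IsStableEmbedding p τ → (W.map τ).Normal},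
      g * τ w * g⁻¹ ∈ W.map τ := by
    intro W hWm
    have hw' : w ∈ W := (Subgroup.mem_sInf.mp hw) W hWm
    exact (hWm.2 H τ hτ).conj_mem _ ⟨w, hw', rfl⟩ g
  obtain ⟨w₀, hw₀, he⟩ := hW _ omegaCT_mem
  refine ⟨w₀, ?_, he⟩
  refine Subgroup.mem_sInf.mpr fun W hWm => ?_
  obtain ⟨w₁, hw₁, he₁⟩ := hW W hWm
  have : w₁ = w₀ := hinj (he₁.trans he.symm)
  rwa [← this]

lemma closure_map_ge {p : ℕ} {S S' : Type u} [Group S] [Group S'] [Finite S] (η : S ≃* S') :
    stableNormalClosure p S' ≤ (stableNormalClosure p S).map η.toMonoidHom := by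
  refine sInf_le ⟨?_, ?_⟩
  · have h1 : omegaOne p (Subgroup.center S) ≤ stableNormalClosure p S := le_sInf fun _ h => h.1
    have h2 := omegaZ_map_le (p := p) η.symm
    rw [Subgroup.map_le_iff_le_comap] at h2
    intro x hx
    exact ⟨η.symm x, h1 (h2 hx), by simp⟩
  · intro H _ τ hτ
    rw [Subgroup.map_map]
    exact closure_normal (stable_comp η hτ)

lemma closure_map {p : ℕ} {S S' : Type u} [Group S] [Group S'] [Finite S] (η : S ≃* S') :
    (stableNormalClosure p S).map η.toMonoidHom = stableNormalClosure p S' := by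
  haveI : Finite S' := Finite.of_equiv S η.toEquiv
  apply le_antisymm _ (closure_map_ge η)
  have h := closure_map_ge (p := p) η.symm
  rw [Subgroup.map_le_iff_le_comap]
  intro x hx
  obtain ⟨y, hy, he⟩ := h hx
  have : y = η x := by
    rw [← he]
    simp
  rw [this] at hy
  exact hy

/-- Basic properties of the stable normal closure W(S) of Ω₁(Z(S)) in a finite p-group: characteristic, squeezed between Ω₁(Z(S)) and Ω₁(Z(J(S))), nontrivial for S ≠ 1, and transported by group isomorphisms. -/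
theorem result {S : Type u} [Group S] [Finite S] {p : ℕ} [Fact p.Prime] (hS : IsPGroup p S) : (Cfsg.stableNormalClosure p S).Characteristic ∧ Cfsg.omegaOne p (Subgroup.center S) ≤ Cfsg.stableNormalClosure p S ∧ Cfsg.stableNormalClosure p S ≤ Cfsg.omegaCenterThompson p S ∧ (Nontrivial S → Cfsg.stableNormalClosure p S ≠ ⊥) ∧ ∀ (S' : Type u) [Group S'] (η : S ≃* S'), (Cfsg.stableNormalClosure p S).map η.toMonoidHom = Cfsg.stableNormalClosure p S' := by
  classical
  have hle1 : Cfsg.omegaOne p (Subgroup.center S) ≤ Cfsg.stableNormalClosure p S := le_sInf fun _ h => h.1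
  refine ⟨?_, hle1, sInf_le omegaCT_mem, ?_, fun S' _ η => closure_map η⟩
  · rw [Subgroup.characteristic_iff_map_eq]
    intro φ
    exact closure_map φ
  · intro hnt hbot
    haveI hcn := hS.center_nontrivial
    have hpc : IsPGroup p (Subgroup.center S) := hS.to_subgroup _
    obtain ⟨k, hk, hcard⟩ := hpc.nontrivial_iff_card.mp hcn
    have hdvd : p ∣ Nat.card (Subgroup.center S) := by
      rw [hcard]
      exact dvd_pow_self p (by omega)
    obtain ⟨x, hx⟩ := exists_prime_orderOf_dvd_card' p hdvd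
    have hxp : (x : S) ^ p = 1 := by
      have : x ^ p = 1 := by
        rw [← hx]
        exact pow_orderOf_eq_one x
      exact congrArg Subtype.val this
    have hxm : (x : S) ∈ Cfsg.omegaOne p (Subgroup.center S) := Subgroup.subset_closure ⟨x.2, hxp⟩
    have h0 := hle1 hxm
    rw [hbot, Subgroup.mem_bot] at h0
    have h1 : x = 1 := Subtype.ext h0
    rw [h1, orderOf_one] at hx
    exact (Fact.out : p.Prime).one_lt.ne hx

end Cfsg.Agent.S0622
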