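import Cfsg.Statements.S0623
import Cfsg.Agent.S0622
import Cfsg.Agent.Lib.PCore

set_option autoImplicit false
open Cfsg

namespace Cfsg.Agent.S0623

open Cfsg Cfsg.Agent.S0622

open scoped commutatorElement

lemma zpow_conj_eq {H : Type*} [Group H] (V : Subgroup H) [hV : V.Normal] {g g' : H}
    (h : ∀ v ∈ V, g' * v * g'⁻¹ = g * v * g⁻¹) (k : ℤ) {v : H} (hv : v ∈ V) :
    g' ^ k * v * (g' ^ k)⁻¹ = g ^ k * v * (g ^ k)⁻¹ := by
  have h1 : MulAut.conjNormal (H := V) g' = MulAut.conjNormal g := by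
    ext v
    exact h v v.2
  have h2 : MulAut.conjNormal (H := V) (g' ^ k) = MulAut.conjNormal (g ^ k) := by
    rw [map_zpow, map_zpow, h1]
  have h3 := congrArg (fun φ => ((φ ⟨v, hv⟩ : V) : H)) h2
  exact h3

lemma comm_eq {H : Type*} [Group H] (V : Subgroup H) [hV : V.Normal] {g g' : H}
    (h : ∀ v ∈ V, g' * v * g'⁻¹ = g * v * g⁻¹) {X : Subgroup H} (hX : X ≤ V) :
    ⁅X, Subgroup.zpowers g'⁆ ≤ ⁅X, Subgroup.zpowers g⁆ := by
  rw [Subgroup.commutator_le]
  rintro x hx _ ⟨k, rfl⟩
  have h1 := zpow_conj_eq V h k (V.inv_mem (hX hx))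
  have h2 : ⁅x, g' ^ k⁆ = ⁅x, g ^ k⁆ := by
    rw [commutatorElement_def, commutatorElement_def]
    calc x * g' ^ k * x⁻¹ * (g' ^ k)⁻¹ = x * (g' ^ k * x⁻¹ * (g' ^ k)⁻¹) := by group
      _ = x * (g ^ k * x⁻¹ * (g ^ k)⁻¹) := by rw [h1]
      _ = _ := by group
  show ⁅x, g' ^ k⁆ ∈ _
  rw [h2]
  exact Subgroup.commutator_mem_commutator hx ⟨k, rfl⟩

/-- No element of a finite p-group acts quadratically and nontrivially on the stable normal closure W(S). -/
theorem result {S : Type*} [Group S] [Finite S] {p : ℕ} [Fact p.Prime] (hS : IsPGroup p S) (x : S) (hq : ⁅⁅Cfsg.stableNormalClosure p S, Subgroup.zpowers x⁆, Subgroup.zpowers x⁆ = ⊥) : ⁅Cfsg.stableNormalClosure p S, Subgroup.zpowers x⁆ = ⊥ := by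
  classical
  set W := Cfsg.stableNormalClosure p S with hWdef
  let Q : Set S := {s | ⁅⁅W, Subgroup.zpowers s⁆, Subgroup.zpowers s⁆ = ⊥}
  let Wst : Subgroup S := W ⊓ Subgroup.centralizer Q
  have hx : x ∈ Q := hq
  have hmem : Wst ∈ {W : Subgroup S | omegaOne p (Subgroup.center S) ≤ W ∧
      ∀ (H : Type _) [Group H] (τ : S →* H), IsStableEmbedding p τ → (W.map τ).Normal} := by
    refine ⟨le_inf (le_sInf fun _ h => h.1) ?_, ?_⟩
    · unfold omegaOne
      rw [Subgroup.closure_le]
      rintro z ⟨hz, -⟩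
      rw [SetLike.mem_coe, Subgroup.mem_centralizer_iff]
      intro s _
      exact (Subgroup.mem_center_iff.mp hz s)
    · intro H _ τ hτ
      have hVn : (W.map τ).Normal := closure_normal hτ
      haveI := hVn
      obtain ⟨hinj, hfinH, ⟨P, hP⟩, hcen, hJ, hstab⟩ := hτ
      haveI := hfinH
      have hVle : W.map τ ≤ (omegaCenterThompson p S).map τ :=
        Subgroup.map_mono (sInf_le omegaCT_mem)
      have hst := hstab (W.map τ) hVle
      set V := W.map τ with hV
      set C := Subgroup.centralizer (V : Set H) with hC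
      constructor
      rintro _ ⟨w, hw, rfl⟩ h
      obtain ⟨hw1, hw2⟩ := Subgroup.mem_inf.mp hw
      have hy : h * τ w * h⁻¹ ∈ V := hVn.conj_mem _ ⟨w, hw1, rfl⟩ h
      obtain ⟨w', hw', he⟩ := hy
      refine ⟨w', Subgroup.mem_inf.mpr ⟨hw', ?_⟩, he⟩
      rw [Subgroup.mem_centralizer_iff]
      intro s hs
      apply hinj
      have he' : τ w' = h * τ w * h⁻¹ := he
      rw [map_mul, map_mul, he']
      set a := h⁻¹ * τ s * h with ha
      have hsq : ⁅⁅V, Subgroup.zpowers (τ s)⁆, Subgroup.zpowers (τ s)⁆ = ⊥ := by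
        have h1 : ⁅⁅W, Subgroup.zpowers s⁆, Subgroup.zpowers s⁆ = ⊥ := hs
        have h2 := congrArg (Subgroup.map τ) h1
        rw [Subgroup.map_commutator, Subgroup.map_commutator, MonoidHom.map_zpowers, Subgroup.map_bot] at h2
        exact h2
      have hp1 := hst (τ s) hsq
      haveI hcoreN : (pCore p (H ⧸ C)).Normal := Cfsg.Agent.Lib.PCore.pCore_normal p _
      have hamem : (QuotientGroup.mk a : H ⧸ C) ∈ pCore p (H ⧸ C) := by
        have h1 := hcoreN.conj_mem _ hp1 (QuotientGroup.mk h⁻¹)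
        have h2 : (QuotientGroup.mk a : H ⧸ C) = QuotientGroup.mk h⁻¹ * QuotientGroup.mk (τ s) * (QuotientGroup.mk h⁻¹)⁻¹ := by
          have h3 : (QuotientGroup.mk' C) a = (QuotientGroup.mk' C) h⁻¹ * (QuotientGroup.mk' C) (τ s) * ((QuotientGroup.mk' C) h⁻¹)⁻¹ := by
            rw [ha, map_mul, map_mul, map_inv, inv_inv]
          exact h3
        rw [h2]
        exact h1
      let P' := P.mapSurjective (QuotientGroup.mk'_surjective C)
      have hmem2 := Cfsg.Agent.Lib.PCore.pCore_le_sylow P' hamem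
      have hP' : (P' : Subgroup _) = (P : Subgroup H).map (QuotientGroup.mk' C) := rfl
      rw [hP', hP] at hmem2
      obtain ⟨_, ⟨t, rfl⟩, htc⟩ := hmem2
      have hcC : (τ t)⁻¹ * a ∈ C := by
        rw [← QuotientGroup.eq]
        exact htc
      set c := (τ t)⁻¹ * a with hcdef
      have hac : a = τ t * c := by
        rw [hcdef]
        group
      have hcV : ∀ v ∈ V, c * v = v * c := by
        intro v hv
        rw [hC, Subgroup.mem_centralizer_iff] at hcC
        exact (hcC v hv).symm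
      -- `a` acts quadratically
      have haq : ⁅⁅V, Subgroup.zpowers a⁆, Subgroup.zpowers a⁆ = ⊥ := by
        have h1 := congrArg (Subgroup.map (MulAut.conj h⁻¹).toMonoidHom) hsq
        have hVmap : V.map (MulAut.conj h⁻¹).toMonoidHom = V := by
          apply le_antisymm
          · rintro _ ⟨v, hv, rfl⟩
            exact hVn.conj_mem _ hv h⁻¹
          · intro v hv
            refine ⟨h * v * h⁻¹, hVn.conj_mem _ hv h, ?_⟩
            show h⁻¹ * (h * v * h⁻¹) * h⁻¹⁻¹ = v
            group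
        have hzp : (Subgroup.zpowers (τ s)).map (MulAut.conj h⁻¹).toMonoidHom = Subgroup.zpowers a := by
          rw [MonoidHom.map_zpowers]
          congr 1
          show h⁻¹ * τ s * h⁻¹⁻¹ = a
          rw [ha, inv_inv]
        rw [Subgroup.map_commutator, Subgroup.map_commutator, hVmap, hzp, Subgroup.map_bot] at h1
        exact h1
      have hact : ∀ v ∈ V, τ t * v * (τ t)⁻¹ = a * v * a⁻¹ := by
        intro v hv
        rw [hac]
        calc τ t * v * (τ t)⁻¹ = τ t * (v * c) * c⁻¹ * (τ t)⁻¹ := by group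
          _ = τ t * (c * v) * c⁻¹ * (τ t)⁻¹ := by rw [hcV v hv]
          _ = _ := by group
      have hXV : ⁅V, Subgroup.zpowers a⁆ ≤ V := Subgroup.commutator_le_left _ _
      have htq : ⁅⁅V, Subgroup.zpowers (τ t)⁆, Subgroup.zpowers (τ t)⁆ = ⊥ := by
        rw [eq_bot_iff, ← haq]
        refine le_trans (Subgroup.commutator_mono (comm_eq V hact le_rfl) le_rfl) ?_
        exact comm_eq V hact hXV
      have ht : t ∈ Q := by
        show ⁅⁅W, Subgroup.zpowers t⁆, Subgroup.zpowers t⁆ = ⊥
        have h2 := htq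
        rw [hV, ← MonoidHom.map_zpowers, ← Subgroup.map_commutator, ← Subgroup.map_commutator] at h2
        exact (Subgroup.map_eq_bot_iff_of_injective _ hinj).mp h2
      have h3 : t * w = w * t := by
        rw [Subgroup.mem_centralizer_iff] at hw2
        exact (hw2 t ht)
      have h4 : τ t * τ w = τ w * τ t := by
        rw [← map_mul, h3, map_mul]
      have h5 : a * τ w = τ w * a := by
        rw [hac]
        calc τ t * c * τ w = τ t * (c * τ w) := by group
          _ = τ t * (τ w * c) := by rw [hcV _ ⟨w, hw1, rfl⟩]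
          _ = (τ t * τ w) * c := by group
          _ = (τ w * τ t) * c := by rw [h4]
          _ = _ := by group
      have h6 : τ s = h * a * h⁻¹ := by
        rw [ha]
        group
      rw [h6]
      calc h * a * h⁻¹ * (h * τ w * h⁻¹) = h * (a * τ w) * h⁻¹ := by group
        _ = h * (τ w * a) * h⁻¹ := by rw [h5]
        _ = _ := by group
  have hle : W ≤ Wst := sInf_le hmem
  rw [eq_bot_iff, Subgroup.commutator_le]
  rintro w hw _ ⟨k, rfl⟩
  have h1 := (Subgroup.mem_inf.mp (hle hw)).2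
  rw [Subgroup.mem_centralizer_iff] at h1
  have h2 := h1 x hx
  have h3 : Commute w (x ^ k) := (Commute.zpow_right (show Commute w x from h2.symm) k)
  rw [Subgroup.mem_bot, commutatorElement_eq_one_iff_mul_comm]
  exact h3

end Cfsg.Agent.S0623
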