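import Cfsg.Statements.S0001
import Cfsg.Agent.Lib.SchurZ

set_option autoImplicit false
open Pointwise
open Cfsg

namespace Cfsg.Agent.S0001

/-- Conjugacy half of the Schur–Zassenhaus Theorem, under a solvability assumption on the normal Hall subgroup or on its quotient. -/
theorem result {G : Type*} [Group G] [Finite G] (N : Subgroup G) [N.Normal]
    (hN : (Nat.card N).Coprime N.index) (hsolv : Group.IsSolvable N ∨ Group.IsSolvable (G ⧸ N))
    (H K : Subgroup G) (hH : Subgroup.IsComplement' N H) (hK : Subgroup.IsComplement' N K) :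
    ∃ g : G, MulAut.conj g • H = K := by
  have hcH : N.index = Nat.card H := hH.symm.index_eq_card
  have hcK : N.index = Nat.card K := hK.symm.index_eq_card
  have hs : Group.IsSolvable N ∨ Group.IsSolvable H := by
    rcases hsolv with h | h
    · exact Or.inl h
    · right
      refine Group.isSolvable_of_isSolvable_injective (f := (QuotientGroup.mk' N).comp H.subtype) ?_
      intro x y hxy
      have h1 : (x : G)⁻¹ * y ∈ N := QuotientGroup.eq.mp hxy
      have h2 : (x : G)⁻¹ * y ∈ H := H.mul_mem (H.inv_mem x.2) y.2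
      have h3 : (x : G)⁻¹ * y ∈ N ⊓ H := ⟨h1, h2⟩
      rw [hH.disjoint.eq_bot, Subgroup.mem_bot] at h3
      exact Subtype.ext (inv_mul_eq_one.mp h3)
  obtain ⟨g, hg⟩ := Cfsg.Agent.Lib.SchurZ.sz_conj N H K hs hH.sup_eq_top
    (by rw [← hcH]; exact hN) (by rw [← hcH, hcK])
  exact ⟨g, hg⟩

end Cfsg.Agent.S0001
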