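import Cfsg.Statements.S0002
import Cfsg.Agent.Lib.Hall

set_option autoImplicit false
open Pointwise
open Cfsg

namespace Cfsg.Agent.S0002

/-- Schur's Theorem, conjugacy part, for an abelian normal subgroup of coprime order and index: any two complements are conjugate by an element of the normal subgroup. -/
theorem result {G : Type*} [Group G] [Finite G] (A : Subgroup G) [A.Normal] [IsMulCommutative A]
    (hA : (Nat.card A).Coprime A.index)
    (H K : Subgroup G) (hH : Subgroup.IsComplement' A H) (hK : Subgroup.IsComplement' A K) :
    ∃ a ∈ A, MulAut.conj a • H = K := by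
  have hc1 : A.index = Nat.card H := hH.symm.index_eq_card
  have hc2 : A.index = Nat.card K := hK.symm.index_eq_card
  have hsup : K ≤ A ⊔ H := by rw [hH.sup_eq_top]; exact le_top
  have hs : Group.IsSolvable A := by
    exact isSolvable_of_comm (fun a b => Subtype.ext (by
      have := (inferInstance : IsMulCommutative A).is_comm.comm a b
      exact congrArg Subtype.val this))
  obtain ⟨a, ha, h⟩ := Cfsg.Agent.Lib.SchurZ.sz_conj_ambient A H K
    (fun x _ => Subgroup.normalizer_eq_top_iff.mpr (inferInstance : A.Normal) ▸ Subgroup.mem_top x) hsup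
    (by rw [← hc1, hc2]) (by rw [← hc1]; exact hA) (Or.inl hs)
  exact ⟨a, ha, h⟩

end Cfsg.Agent.S0002
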