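import Cfsg.Statements.S0009
import Cfsg.Agent.Lib.FitCore

set_option autoImplicit false
open Cfsg

namespace Cfsg.Agent.S0009

/-- The Fitting subgroup of a finite group is generated by the p-cores, p ranging over the primes. -/
theorem result {G : Type*} [Group G] [Finite G] :
    Cfsg.fittingSubgroup G = ⨆ p : Nat.Primes, Cfsg.pCore (p : ℕ) G := by
  classical
  apply le_antisymm
  · rw [← Subgroup.relIndex_eq_one]
    by_contra hne
    obtain ⟨q, hq, hqd⟩ := Nat.exists_prime_and_dvd hne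
    haveI : Fact q.Prime := ⟨hq⟩
    have h1 : Cfsg.pCore q G ≤ ⨆ p : Nat.Primes, Cfsg.pCore (p : ℕ) G :=
      le_iSup (fun p : Nat.Primes => Cfsg.pCore (p : ℕ) G) ⟨q, hq⟩
    have h2 := Subgroup.relIndex_dvd_of_le_left (Cfsg.fittingSubgroup G) h1
    exact Cfsg.Agent.Lib.FitCore.relIndex_pCore_not_dvd_fitting q (hqd.trans h2)
  · refine iSup_le fun p => ?_
    haveI : Fact (p : ℕ).Prime := ⟨p.2⟩
    exact Cfsg.Agent.Lib.FitCore.pCore_le_fitting (p : ℕ)

end Cfsg.Agent.S0009
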