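import Cfsg.Statements.S0014
import Cfsg.Agent.Lib.H6PGroup

set_option autoImplicit false
open Cfsg

namespace Cfsg.Agent.S0014


open Cfsg.Agent.Lib.H6PGroup in
theorem index_step {G : Type*} [Group G] [Finite G] {p : ℕ} [Fact p.Prime] (hG : IsPGroup p G)
    (K : Subgroup G) (hK : frattini G ≤ K) (x : G) (hx : x ∉ K) :
    K.index = p * (K ⊔ Subgroup.zpowers x).index := by
  classical
  haveI hKn : K.Normal := by
    refine ⟨fun k hk g => ?_⟩
    have h1 := hK (comm_mem_frattini hG g k)
    have h2 : g * k * g⁻¹ = (g * k * g⁻¹ * k⁻¹) * k := by group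
    rw [h2]; exact K.mul_mem h1 hk
  let π := QuotientGroup.mk' K
  have hπs : Function.Surjective π := QuotientGroup.mk'_surjective K
  have hord : orderOf (π x) = p := by
    apply orderOf_eq_prime
    · rw [← map_pow]; exact (QuotientGroup.eq_one_iff _).mpr (hK (pow_mem_frattini hG x))
    · intro h; exact hx ((QuotientGroup.eq_one_iff _).mp h)
  have hcomap : K ⊔ Subgroup.zpowers x = (Subgroup.zpowers (π x)).comap π := by
    have : Subgroup.zpowers (π x) = (Subgroup.zpowers x).map π := (MonoidHom.map_zpowers π x).symm
    rw [this, Subgroup.comap_map_eq, QuotientGroup.ker_mk', sup_comm]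
  rw [hcomap, Subgroup.index_comap_of_surjective _ hπs]
  have h1 := (Subgroup.zpowers (π x)).card_mul_index
  rw [Nat.card_zpowers, hord] at h1
  exact h1.symm

theorem sup_closure_insert {G : Type*} [Group G] [DecidableEq G] (K : Subgroup G) (a : G) (T : Finset G) :
    (K ⊔ Subgroup.closure (T : Set G)) ⊔ Subgroup.zpowers a =
      K ⊔ Subgroup.closure ((insert a T : Finset G) : Set G) := by
  rw [Finset.coe_insert, Set.insert_eq, Subgroup.closure_union, ← Subgroup.zpowers_eq_closure,
    sup_assoc, sup_comm (Subgroup.closure (T : Set G))]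

theorem index_le {G : Type*} [Group G] [Finite G] {p : ℕ} [Fact p.Prime] (hG : IsPGroup p G)
    (T : Finset G) : ∀ K : Subgroup G, frattini G ≤ K →
      K.index ≤ p ^ T.card * (K ⊔ Subgroup.closure (T : Set G)).index := by
  classical
  induction T using Finset.induction_on with
  | empty =>
    intro K _
    simp
  | insert a T ha ih =>
    intro K hK
    rw [Finset.card_insert_of_notMem ha, ← sup_closure_insert]
    have h1 := ih K hK
    set K' := K ⊔ Subgroup.closure (T : Set G) with hK'
    have hK'Φ : frattini G ≤ K' := hK.trans le_sup_left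
    by_cases hx : a ∈ K'
    · rw [sup_eq_left.mpr (Subgroup.zpowers_le.mpr hx)]
      refine h1.trans (Nat.mul_le_mul_right _ ?_)
      exact Nat.pow_le_pow_right (Fact.out : p.Prime).pos (Nat.le_succ _)
    · have h2 := index_step hG K' hK'Φ a hx
      rw [h2] at h1
      calc K.index ≤ p ^ T.card * (p * (K' ⊔ Subgroup.zpowers a).index) := h1
        _ = p ^ (T.card + 1) * (K' ⊔ Subgroup.zpowers a).index := by rw [pow_succ]; ring

theorem index_eq {G : Type*} [Group G] [Finite G] [DecidableEq G] {p : ℕ} [Fact p.Prime] (hG : IsPGroup p G)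
    (T : Finset G) : (∀ t ∈ T, t ∉ frattini G ⊔ Subgroup.closure ((T.erase t : Finset G) : Set G)) →
      (frattini G).index = p ^ T.card * (frattini G ⊔ Subgroup.closure (T : Set G)).index := by
  induction T using Finset.induction_on with
  | empty =>
    intro _
    simp
  | insert a T ha ih =>
    intro h
    have h1 := ih (fun t ht hmem => by
      have hta : t ∈ insert a T := Finset.mem_insert_of_mem ht
      apply h t hta
      refine (sup_le_sup_left (Subgroup.closure_mono ?_) _) hmem
      intro y hy
      have hy' := Finset.mem_coe.mp hy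
      exact Finset.mem_coe.mpr (Finset.erase_subset_erase _ (Finset.subset_insert _ _) hy'))
    have h2 := h a (Finset.mem_insert_self a T)
    rw [Finset.erase_insert ha] at h2
    have h3 := index_step hG _ (le_sup_left : frattini G ≤ frattini G ⊔ Subgroup.closure (T : Set G)) a h2
    rw [Finset.card_insert_of_notMem ha, ← sup_closure_insert, h1, h3]
    rw [pow_succ]; ring


/-- Burnside's basis Theorem: in a finite p-group whose Frattini quotient has order p ^ n, every generating set contains n elements that already generate, and no set with fewer than n elements generates. -/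
theorem result {G : Type*} [Group G] [Finite G] (p n : ℕ) [Fact p.Prime]
    (hG : IsPGroup p G) (hn : (frattini G).index = p ^ n) :
    (∀ S : Finset G, Subgroup.closure (S : Set G) = ⊤ → ∃ T : Finset G, T ⊆ S ∧ T.card = n ∧ Subgroup.closure (T : Set G) = ⊤) ∧
    (∀ T : Finset G, Subgroup.closure (T : Set G) = ⊤ → n ≤ T.card) := by
  classical
  have hp : p.Prime := Fact.out
  constructor
  · intro S hS
    let F : Finset (Finset G) := S.powerset.filter (fun T => Subgroup.closure (T : Set G) = ⊤)
    have hF : F.Nonempty := ⟨S, Finset.mem_filter.mpr ⟨Finset.mem_powerset.mpr (Finset.Subset.refl S), hS⟩⟩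
    obtain ⟨T, hT, hmin⟩ := Finset.exists_min_image F Finset.card hF
    have hTS : T ⊆ S := Finset.mem_powerset.mp (Finset.mem_filter.mp hT).1
    have hTc : Subgroup.closure (T : Set G) = ⊤ := (Finset.mem_filter.mp hT).2
    refine ⟨T, hTS, ?_, hTc⟩
    have hind : ∀ t ∈ T, t ∉ frattini G ⊔ Subgroup.closure ((T.erase t : Finset G) : Set G) := by
      intro t ht hmem
      have h1 : Subgroup.closure ((T.erase t : Finset G) : Set G) ⊔ frattini G = ⊤ := by
        rw [eq_top_iff, ← hTc, Subgroup.closure_le, sup_comm]
        intro y hy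
        by_cases hyt : y = t
        · rw [hyt]; exact hmem
        · exact (le_sup_right : _ ≤ frattini G ⊔ _)
            (Subgroup.subset_closure (Finset.mem_coe.mpr (Finset.mem_erase.mpr ⟨hyt, hy⟩)))
      have h2 := frattini_nongenerating h1
      have h3 : T.erase t ∈ F := Finset.mem_filter.mpr
        ⟨Finset.mem_powerset.mpr ((Finset.erase_subset _ _).trans hTS), h2⟩
      have h4 := hmin _ h3
      have h5 := Finset.card_erase_lt_of_mem ht
      omega
    have h := index_eq hG T hind
    rw [hTc, sup_top_eq, Subgroup.index_top, mul_one, hn] at h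
    exact (Nat.pow_right_injective hp.two_le h).symm
  · intro T hT
    have h := index_le hG T (frattini G) le_rfl
    rw [hT, sup_top_eq, Subgroup.index_top, mul_one, hn] at h
    exact (Nat.pow_le_pow_iff_right hp.one_lt).mp h

end Cfsg.Agent.S0014
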