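import Cfsg.Statements.S0019
import Cfsg.Agent.Lib.H7Basic
import Cfsg.Agent.Lib.SchurZ

set_option autoImplicit false
open Cfsg

namespace Cfsg.Agent.S0019


universe u

theorem closure_le_of {G : Type*} [Group G] [Finite G] {p : ℕ} [Fact p.Prime] (H₁ H₂ A₀ : Subgroup G)
    (h12 : ∀ g : G, ∃ x ∈ H₁, ∃ y ∈ H₂, g = x * y)
    (hn : ∀ x ∈ H₁, ∀ a ∈ A₀, x * a * x⁻¹ ∈ A₀) (hp : IsPGroup p A₀) (hnd : ¬ p ∣ H₂.index) :
    Subgroup.normalClosure (A₀ : Set G) ≤ H₂ := by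
  classical
  obtain ⟨q, hq⟩ := hp.nonempty_fixed_point_of_prime_not_dvd_card (G ⧸ H₂) hnd
  obtain ⟨g, rfl⟩ := QuotientGroup.mk_surjective q
  have h1 : ∀ a ∈ A₀, g⁻¹ * a * g ∈ H₂ := by
    intro a ha
    have h2 : (⟨a, ha⟩ : A₀) • ((g : G ⧸ H₂)) = (g : G ⧸ H₂) := hq ⟨a, ha⟩
    have h3 : ((a * g : G) : G ⧸ H₂) = (g : G ⧸ H₂) := h2
    have h4 := QuotientGroup.eq.mp h3
    have h5 : (a * g)⁻¹ * g ∈ H₂ := h4
    have h6 := H₂.inv_mem h5
    have e : ((a * g)⁻¹ * g)⁻¹ = g⁻¹ * a * g := by group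
    rwa [e] at h6
  obtain ⟨x₀, hx₀, y₀, hy₀, hg⟩ := h12 g
  have h2 : A₀ ≤ H₂ := by
    intro a ha
    have h3 := h1 (x₀ * a * x₀⁻¹) (hn x₀ hx₀ a ha)
    have h4 : a = y₀ * (g⁻¹ * (x₀ * a * x₀⁻¹) * g) * y₀⁻¹ := by
      rw [hg]; group
    rw [h4]
    exact H₂.mul_mem (H₂.mul_mem hy₀ h3) (H₂.inv_mem hy₀)
  unfold Subgroup.normalClosure
  rw [Subgroup.closure_le]
  intro z hz
  obtain ⟨a, ha, hc⟩ := Group.mem_conjugatesOfSet_iff.mp hz
  obtain ⟨c, hc⟩ := isConj_iff.mp hc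
  obtain ⟨x, hx, y, hy, hcinv⟩ := h12 c⁻¹
  have h3 := h2 (hn x⁻¹ (H₁.inv_mem hx) a ha)
  have h4 : z = y⁻¹ * (x⁻¹ * a * x⁻¹⁻¹) * y := by
    have : c = y⁻¹ * x⁻¹ := by
      have := congrArg (fun t => t⁻¹) hcinv
      simpa using this
    rw [← hc, this]; group
  rw [h4]
  exact H₂.mul_mem (H₂.mul_mem (H₂.inv_mem hy) h3) hy

theorem aux : ∀ (n : ℕ) (G : Type u) [Group G] [Finite G] (H₁ H₂ H₃ : Subgroup G)
    (_ : Group.IsSolvable H₁) (_ : Group.IsSolvable H₂) (_ : Group.IsSolvable H₃)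
    (_ : ∀ g : G, ∃ x ∈ H₁, ∃ y ∈ H₂, g = x * y) (_ : ∀ g : G, ∃ x ∈ H₁, ∃ y ∈ H₃, g = x * y)
    (_ : H₂.index.Coprime H₃.index), Nat.card G = n → Group.IsSolvable G := by
  intro n
  induction n using Nat.strong_induction_on with
  | _ n ih =>
  intro G _ _ H₁ H₂ H₃ h₁ h₂ h₃ h12 h13 hcop hn
  classical
  by_cases hb : H₁ = ⊥
  · -- `G = H₂`
    have htop : H₂ = ⊤ := by
      rw [eq_top_iff]
      intro g _
      obtain ⟨x, hx, y, hy, rfl⟩ := h12 g
      rw [hb, Subgroup.mem_bot] at hx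
      rw [hx, one_mul]; exact hy
    subst htop
    exact Group.isSolvable_of_isSolvable_injective (f := (MulEquiv.symm Subgroup.topEquiv).toMonoidHom)
      (MulEquiv.injective _)
  · haveI : Nontrivial H₁ := (Subgroup.nontrivial_iff_ne_bot H₁).mpr hb
    obtain ⟨p, A, hp, hAn, hAb, hAp, -⟩ := Cfsg.Agent.Lib.H7Basic.exists_normal_pGroup h₁
    haveI : Fact p.Prime := ⟨hp⟩
    let A₀ : Subgroup G := A.map H₁.subtype
    have hA₀p : IsPGroup p A₀ := hAp.map _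
    have hA₀n : ∀ x ∈ H₁, ∀ a ∈ A₀, x * a * x⁻¹ ∈ A₀ := by
      rintro x hx _ ⟨a, ha, rfl⟩
      exact ⟨(⟨x, hx⟩ : H₁) * a * (⟨x, hx⟩ : H₁)⁻¹, hAn.conj_mem a ha _, rfl⟩
    have hA₀b : A₀ ≠ ⊥ := by
      intro h
      apply hAb
      rw [eq_bot_iff]
      intro a ha
      have : (a : G) ∈ A₀ := ⟨a, ha, rfl⟩
      rw [h, Subgroup.mem_bot] at this
      exact Subgroup.mem_bot.mpr (Subtype.ext this)
    let N : Subgroup G := Subgroup.normalClosure (A₀ : Set G)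
    haveI hNn : N.Normal := Subgroup.normalClosure_normal
    have hA₀N : A₀ ≤ N := Subgroup.le_normalClosure
    have hNb : N ≠ ⊥ := fun h => hA₀b (le_bot_iff.mp (h ▸ hA₀N))
    have hNs : Group.IsSolvable N := by
      by_cases hnd : p ∣ H₂.index
      · have hnd3 : ¬ p ∣ H₃.index := fun h => by
          have := Nat.dvd_gcd hnd h
          rw [hcop] at this
          exact hp.one_lt.ne' (Nat.dvd_one.mp this)
        exact Cfsg.Agent.Lib.SchurZ.isSolvable_of_le (closure_le_of H₁ H₃ A₀ h13 hA₀n hA₀p hnd3) h₃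
      · exact Cfsg.Agent.Lib.SchurZ.isSolvable_of_le (closure_le_of H₁ H₂ A₀ h12 hA₀n hA₀p hnd) h₂
    let π := QuotientGroup.mk' N
    have hπs : Function.Surjective π := QuotientGroup.mk'_surjective N
    have hcard : Nat.card (G ⧸ N) < n := by
      rw [← hn]
      have h1 : Nat.card N * N.index = Nat.card G := N.card_mul_index
      have h2 : 1 < Nat.card N := by
        haveI : Nontrivial N := (Subgroup.nontrivial_iff_ne_bot N).mpr hNb
        exact Finite.one_lt_card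
      have h3 : 0 < N.index := Nat.pos_of_ne_zero Subgroup.index_ne_zero_of_finite
      show N.index < _
      nlinarith
    have himg : ∀ H : Subgroup G, Group.IsSolvable H → Group.IsSolvable (H.map π) := by
      intro H hH
      exact Group.isSolvable_of_surjective (f := π.subgroupMap H) (π.subgroupMap_surjective H)
    have hfac : ∀ H : Subgroup G, (∀ g : G, ∃ x ∈ H₁, ∃ y ∈ H, g = x * y) →
        ∀ g : G ⧸ N, ∃ x ∈ H₁.map π, ∃ y ∈ H.map π, g = x * y := by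
      intro H hH g
      obtain ⟨g₀, rfl⟩ := hπs g
      obtain ⟨x, hx, y, hy, rfl⟩ := hH g₀
      exact ⟨π x, ⟨x, hx, rfl⟩, π y, ⟨y, hy, rfl⟩, map_mul π x y⟩
    have hcop' : (H₂.map π).index.Coprime (H₃.map π).index :=
      (hcop.coprime_dvd_left (Subgroup.index_map_dvd H₂ hπs)).coprime_dvd_right
        (Subgroup.index_map_dvd H₃ hπs)
    have hQ := ih _ hcard (G ⧸ N) (H₁.map π) (H₂.map π) (H₃.map π) (himg _ h₁) (himg _ h₂) (himg _ h₃)
      (hfac _ h12) (hfac _ h13) hcop' rfl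
    exact Group.isSolvable_of_ker_le_range N.subtype π
      (by rw [QuotientGroup.ker_mk', Subgroup.range_subtype])


/-- A finite group that factorises as H₁H₂ and as H₁H₃ with all three subgroups solvable and the indices of H₂ and H₃ coprime is solvable. -/
theorem result {G : Type*} [Group G] [Finite G] (H₁ H₂ H₃ : Subgroup G)
    (h₁ : Group.IsSolvable H₁) (h₂ : Group.IsSolvable H₂) (h₃ : Group.IsSolvable H₃)
    (h12 : ∀ g : G, ∃ x ∈ H₁, ∃ y ∈ H₂, g = x * y) (h13 : ∀ g : G, ∃ x ∈ H₁, ∃ y ∈ H₃, g = x * y)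
    (hcop : H₂.index.Coprime H₃.index) : Group.IsSolvable G := by
  exact aux _ G H₁ H₂ H₃ h₁ h₂ h₃ h12 h13 hcop rfl

end Cfsg.Agent.S0019
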