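import Cfsg.Statements.S0020
import Cfsg.Agent.Lib.Hall
import Cfsg.Agent.S0007
import Cfsg.Agent.Lib.H6Hall

set_option autoImplicit false
open Pointwise
open Cfsg

namespace Cfsg.Agent.S0020

/-- A finite solvable group admits a Sylow system: Sylow subgroups, one for each prime, that pairwise permute as sets. -/
theorem result {G : Type*} [Group G] [Finite G] [Group.IsSolvable G] :
    ∃ S : (p : Nat.Primes) → Sylow (p : ℕ) G,
      ∀ p q : Nat.Primes, (S p : Set G) * (S q : Set G) = (S q : Set G) * (S p : Set G) := by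
  classical
  set n := Nat.card G with hn
  have hn0 : n ≠ 0 := Nat.card_pos.ne'
  let v : ℕ → ℕ := fun q => n.factorization q
  have hH : ∀ q : ℕ, ∃ H : Subgroup G, q.Prime → H.index = q ^ v q := by
    intro q
    by_cases hq : q.Prime
    · have h1 : n = (n / q ^ v q) * q ^ v q := by
        have h0 := Nat.ordProj_mul_ordCompl_eq_self n q
        rw [mul_comm] at h0
        exact h0.symm
      have hc : (n / q ^ v q).Coprime (q ^ v q) :=
        ((Nat.coprime_ordCompl hq hn0).symm.pow_right _)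
      obtain ⟨H, hH⟩ := Cfsg.Agent.Lib.Hall.hall_exists _ G _ _ rfl h1 hc
      refine ⟨H, fun _ => ?_⟩
      have h2 := H.card_mul_index
      rw [hH, ← hn] at h2
      have hpos : 0 < n / q ^ v q := Nat.pos_of_ne_zero (by
        intro h0
        rw [h0, zero_mul] at h1
        exact hn0 h1)
      refine Nat.eq_of_mul_eq_mul_left hpos ?_
      rw [h2]; exact h1
    · exact ⟨⊤, fun h => absurd h hq⟩
  choose H hH using hH
  have hI : ∀ T : Finset ℕ, (∀ q ∈ T, q.Prime) → (T.inf H).index = ∏ q ∈ T, q ^ v q := by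
    intro T
    induction T using Finset.induction_on with
    | empty => intro _; simp
    | insert a T ha ih =>
      intro hT
      have hT' : ∀ q ∈ T, q.Prime := fun q hq => hT q (Finset.mem_insert_of_mem hq)
      have haP := hT a (Finset.mem_insert_self a T)
      rw [Finset.inf_insert, Finset.prod_insert ha, ← ih hT', ← hH a haP]
      refine (Cfsg.Agent.S0007.result _ _ ?_).1
      rw [hH a haP, ih hT']
      refine Nat.Coprime.prod_right (fun q hq => ?_)
      exact Nat.coprime_pow_primes _ _ haP (hT' q hq) (fun h => ha (h ▸ hq))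
  let Pr := n.primeFactors
  have hPrP : ∀ q ∈ Pr, q.Prime := fun q hq => Nat.prime_of_mem_primeFactors hq
  have hprod : ∏ q ∈ Pr, q ^ v q = n := by
    have := Nat.factorization_prod_pow_eq_self hn0
    rwa [Finsupp.prod, Nat.support_factorization] at this
  have hposv : ∀ q ∈ Pr, 0 < q ^ v q := fun q hq => pow_pos (hPrP q hq).pos _
  -- the erasure of one prime from a set of primes
  have hcase : ∀ (T : Finset ℕ) (q : ℕ), q.Prime → ∃ d : ℕ, d ∣ q ^ v q ∧
      ∏ r ∈ T, r ^ v r = d * ∏ r ∈ T.erase q, r ^ v r := by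
    intro T q hq
    by_cases hqT : q ∈ T
    · exact ⟨q ^ v q, dvd_rfl, (Finset.mul_prod_erase T (fun r => r ^ v r) hqT).symm⟩
    · exact ⟨1, one_dvd _, by rw [Finset.erase_eq_of_notMem hqT, one_mul]⟩
  have hsubP : ∀ T : Finset ℕ, T ⊆ Pr → ∀ q ∈ T, q.Prime := fun T hT q hq => hPrP q (hT hq)
  have hepos : ∀ T : Finset ℕ, T ⊆ Pr → 0 < ∏ r ∈ T, r ^ v r := fun T hT =>
    Finset.prod_pos (fun r hr => hposv r (hT hr))
  -- the Sylow subgroups
  have hcardS : ∀ p : ℕ, p.Prime → Nat.card ((Pr.erase p).inf H : Subgroup G) = p ^ n.factorization p := by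
    intro p hp
    have h1 := ((Pr.erase p).inf H).card_mul_index
    rw [hI _ (hsubP _ (Finset.erase_subset _ _))] at h1
    obtain ⟨d, hd, hd2⟩ : ∃ d : ℕ, d = p ^ v p ∧ ∏ r ∈ Pr, r ^ v r = d * ∏ r ∈ Pr.erase p, r ^ v r := by
      by_cases hpPr : p ∈ Pr
      · exact ⟨p ^ v p, rfl, (Finset.mul_prod_erase Pr (fun r => r ^ v r) hpPr).symm⟩
      · refine ⟨1, ?_, by rw [Finset.erase_eq_of_notMem hpPr, one_mul]⟩
        have : v p = 0 := by
          show n.factorization p = 0
          rw [← Finsupp.notMem_support_iff, Nat.support_factorization]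
          exact hpPr
        rw [this, pow_zero]
    rw [hprod] at hd2
    have h2 := hepos (Pr.erase p) (Finset.erase_subset _ _)
    have h3 : Nat.card ((Pr.erase p).inf H : Subgroup G) * ∏ r ∈ Pr.erase p, r ^ v r = p ^ v p * ∏ r ∈ Pr.erase p, r ^ v r := by
      rw [h1, ← hd, ← hd2]
    exact Nat.eq_of_mul_eq_mul_right h2 h3
  have hfact : ∀ p : Nat.Primes, Fact (p : ℕ).Prime := fun p => ⟨p.2⟩
  refine ⟨fun p => Sylow.ofCard ((Pr.erase (p : ℕ)).inf H) (hcardS p p.2), ?_⟩
  intro p q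
  by_cases hpq : p = q
  · rw [hpq]
  have hpq' : (p : ℕ) ≠ q := fun h => hpq (Subtype.ext h)
  let W : Subgroup G := ((Pr.erase (p : ℕ)).erase (q : ℕ)).inf H
  have hW2 : W = ((Pr.erase (q : ℕ)).erase (p : ℕ)).inf H := by
    show ((Pr.erase (p : ℕ)).erase (q : ℕ)).inf H = _
    rw [Finset.erase_right_comm]
  -- the pairwise statement
  have hperm : ∀ A B W' : Subgroup G, A ≤ W' → B ≤ W' → (A.relIndex W').Coprime (B.relIndex W') →
      (A : Set G) * (B : Set G) = (W' : Set G) := by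
    intro A B W' hA hB hc
    ext w
    constructor
    · rintro ⟨a, ha, b, hb, rfl⟩
      exact W'.mul_mem (hA ha) (hB hb)
    · intro hw
      obtain ⟨s, hs, hsg⟩ := Cfsg.Agent.Lib.H6Hall.exists_mul_of_coprime (B.subgroupOf W') (A.subgroupOf W')
        hc.symm (⟨w, hw⟩ : W')
      refine ⟨s, Subgroup.mem_subgroupOf.mp hs, _, Subgroup.mem_subgroupOf.mp hsg, ?_⟩
      show (s : G) * ((s⁻¹ * ⟨w, hw⟩ : W') : G) = w
      simp
  -- relative indices
  have hrel : ∀ a b : ℕ, a.Prime → b.Prime → ((Pr.erase a).inf H).relIndex (((Pr.erase a).erase b).inf H) ∣ b ^ v b := by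
    intro a b ha hb
    have hle : (Pr.erase a).inf H ≤ ((Pr.erase a).erase b).inf H :=
      Finset.inf_mono (Finset.erase_subset _ _)
    have h1 := Subgroup.relIndex_mul_index hle
    have hsub : Pr.erase a ⊆ Pr := Finset.erase_subset _ _
    have hsub2 : (Pr.erase a).erase b ⊆ Pr := (Finset.erase_subset _ _).trans hsub
    rw [hI _ (hsubP _ hsub), hI _ (hsubP _ hsub2)] at h1
    obtain ⟨d, hd, hd2⟩ := hcase (Pr.erase a) b hb
    rw [hd2] at h1
    have h2 := hepos _ hsub2
    have h3 := Nat.eq_of_mul_eq_mul_right h2 h1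
    rw [h3]; exact hd
  have hA := hrel p q p.2 q.2
  have hB := hrel q p q.2 p.2
  rw [← hW2] at hB
  have hcop : (((Pr.erase (p : ℕ)).inf H).relIndex W).Coprime (((Pr.erase (q : ℕ)).inf H).relIndex W) := by
    have hc0 : ((q : ℕ) ^ v q).Coprime ((p : ℕ) ^ v p) := Nat.coprime_pow_primes _ _ q.2 p.2 hpq'.symm
    exact (hc0.coprime_dvd_left hA).coprime_dvd_right hB
  have hle1 : (Pr.erase (p : ℕ)).inf H ≤ W := Finset.inf_mono (Finset.erase_subset _ _)
  have hle2 : (Pr.erase (q : ℕ)).inf H ≤ W := by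
    rw [hW2]; exact Finset.inf_mono (Finset.erase_subset _ _)
  have e1 := hperm _ _ W hle1 hle2 hcop
  have e2 := hperm _ _ W hle2 hle1 hcop.symm
  have e3 : ∀ p : Nat.Primes, ((Sylow.ofCard ((Pr.erase (p : ℕ)).inf H) (hcardS p p.2) : Sylow (p : ℕ) G) : Set G) =
      (((Pr.erase (p : ℕ)).inf H : Subgroup G) : Set G) := fun _ => rfl
  show ((Sylow.ofCard ((Pr.erase (p : ℕ)).inf H) (hcardS p p.2) : Sylow (p : ℕ) G) : Set G) *
    ((Sylow.ofCard ((Pr.erase (q : ℕ)).inf H) (hcardS q q.2) : Sylow (q : ℕ) G) : Set G) =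
    ((Sylow.ofCard ((Pr.erase (q : ℕ)).inf H) (hcardS q q.2) : Sylow (q : ℕ) G) : Set G) *
    ((Sylow.ofCard ((Pr.erase (p : ℕ)).inf H) (hcardS p p.2) : Sylow (p : ℕ) G) : Set G)
  rw [e3 p, e3 q, e1, e2]

end Cfsg.Agent.S0020
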