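import Cfsg.Statements.S0022
import Cfsg.Agent.Lib.SchurZ

set_option autoImplicit false
open Cfsg

namespace Cfsg.Agent.S0022

/-- Under coprime action fixed points pass to quotients: with A normalising K, coprime orders, A or K solvable, and N an A-invariant normal subgroup of K, every coset of N in K fixed by conjugation by A contains an element centralised by A. -/
theorem result {G : Type*} [Group G] [Finite G] (A K : Subgroup G) (hAK : A ≤ Subgroup.normalizer (K : Set G))
    (hcop : (Nat.card A).Coprime (Nat.card K)) (hsolv : Group.IsSolvable A ∨ Group.IsSolvable K)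
    (N : Subgroup G) (hNK : N ≤ K) (hNnormal : K ≤ Subgroup.normalizer (N : Set G)) (hNA : A ≤ Subgroup.normalizer (N : Set G))
    (k : G) (hk : k ∈ K) (hfix : ∀ a ∈ A, a * k * a⁻¹ * k⁻¹ ∈ N) :
    ∃ c ∈ K ⊓ Subgroup.centralizer (A : Set G), k⁻¹ * c ∈ N := by
  have hNK' : N ≤ K := hNK
  obtain ⟨n, hn, hc⟩ := Cfsg.Agent.Lib.SchurZ.exists_fixed N A hNA k
    (fun a ha => by
      have h1 := hfix a ha
      have h2 := N.inv_mem h1
      have h3 : (a * k * a⁻¹ * k⁻¹)⁻¹ = k * a * k⁻¹ * a⁻¹ := by group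
      rwa [h3] at h2)
    (Nat.Coprime.coprime_dvd_left (Subgroup.card_dvd_of_le hNK) hcop.symm)
    (hsolv.symm.imp (Cfsg.Agent.Lib.SchurZ.isSolvable_of_le hNK) id)
  refine ⟨n * k, ⟨K.mul_mem (hNK hn) hk, hc⟩, ?_⟩
  have h1 : k⁻¹ * (n * k) = k⁻¹ * n * k⁻¹⁻¹ := by group
  rw [h1]
  exact Cfsg.Agent.Lib.Commutators.conj_mem_of_mem_normalizer (hNnormal (K.inv_mem hk)) hn

end Cfsg.Agent.S0022
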