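import Cfsg.Statements.S0032
import Cfsg.Agent.Lib.Amalgam

set_option autoImplicit false
open Cfsg

namespace Cfsg.Agent.S0032

/-- If an automorphism of a finite group fixes only the identity and maps a normal subgroup N into itself, then the only cosets of N it fixes are those in N: a fixed coset xN forces x ∈ N. -/
theorem result {G : Type*} [Group G] [Finite G] (φ : G ≃* G)
    (hφ : MonoidHom.FixedPointFree (φ : G →* G)) (N : Subgroup G) [N.Normal] (hN : ∀ n ∈ N, φ n ∈ N)
    (x : G) (hx : (φ x)⁻¹ * x ∈ N) : x ∈ N := by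
  classical
  have hinj : ∀ a b : G, (φ a)⁻¹ * a = (φ b)⁻¹ * b → a = b := by
    intro a b h
    have h1 : (φ : G →* G) (b * a⁻¹) = b * a⁻¹ := by
      show φ (b * a⁻¹) = b * a⁻¹
      rw [map_mul, map_inv]
      calc φ b * (φ a)⁻¹ = φ b * ((φ a)⁻¹ * a) * a⁻¹ := by group
        _ = φ b * ((φ b)⁻¹ * b) * a⁻¹ := by rw [h]
        _ = b * a⁻¹ := by group
    have h3 := hφ _ h1
    exact (mul_inv_eq_one.mp h3).symm
  let f : N → N := fun n => ⟨(φ n)⁻¹ * n, N.mul_mem (N.inv_mem (hN n n.2)) n.2⟩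
  have hfi : Function.Injective f := by
    intro a b hab
    apply Subtype.ext
    exact hinj _ _ (congrArg Subtype.val hab)
  have hfs := Finite.surjective_of_injective hfi
  obtain ⟨m, hm⟩ := hfs ⟨_, hx⟩
  have hm' : (φ m)⁻¹ * m = (φ x)⁻¹ * x := congrArg Subtype.val hm
  have := hinj _ _ hm'
  rw [← this]
  exact m.2

end Cfsg.Agent.S0032
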