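import Cfsg.Statements.S0033
import Cfsg.Agent.Lib.ThompsonFpf
-- import your own Cfsg.Agent.* helpers here

set_option autoImplicit false
set_option linter.all false
open Cfsg

namespace Cfsg.Agent.S0033

/-- Thompson's Theorem on fixed-point-free automorphisms: a finite group with an automorphism of prime order fixing only the identity is nilpotent. -/
theorem result {G : Type*} [Group G] [Finite G] (φ : G ≃* G)
    (hφ : MonoidHom.FixedPointFree (φ : G →* G)) (p : ℕ) (hp : p.Prime) (hord : orderOf φ = p) :
    Group.IsNilpotent G := by
  have h1 : φ ^ p = 1 := by rw [← hord]; exact pow_orderOf_eq_one φ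
  have h2 : ∀ (n : ℕ) (g : G), (φ : G →* G)^[n] g = (φ ^ n) g := by
    intro n
    induction n with
    | zero => intro g; rfl
    | succ n ih =>
      intro g
      rw [Function.iterate_succ_apply', ih, pow_succ']
      rfl
  exact Cfsg.Agent.Lib.ThompsonFpf.thompson_aux hp _ G (φ : G →* G) rfl hφ (by
    intro g
    rw [h2, h1]
    rfl)

end Cfsg.Agent.S0033
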