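import Cfsg.Statements.S0036
import Cfsg.Agent.S0034

set_option autoImplicit false
open Cfsg

namespace Cfsg.Agent.S0036

/-- When a Frobenius complement contains an involution, an elementary argument shows the Frobenius kernel is closed under multiplication (hence a subgroup). -/
theorem result {G : Type*} [Group G] [Finite G] (H : Subgroup G) (hH : Cfsg.IsFrobeniusComplement H)
    (t : G) (ht : t ∈ H) (ht1 : t ≠ 1) (ht2 : t * t = 1) :
    ∀ x ∈ Cfsg.frobeniusKernel H, ∀ y ∈ Cfsg.frobeniusKernel H, x * y ∈ Cfsg.frobeniusKernel H := by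
  classical
  have hTI := Cfsg.Agent.S0034.ti_of H hH
  have htH : t * t = 1 := ht2
  have htinv : t⁻¹ = t := inv_eq_of_mul_eq_one_left ht2
  -- elements lying in two conjugates
  have F1 : ∀ a b z : G, a⁻¹ * z * a ∈ H → b⁻¹ * z * b ∈ H → z ≠ 1 → a⁻¹ * b ∈ H := by
    intro a b z ha hb hz
    by_contra hd
    have h1 := hTI _ hd _ hb (by
      have : (a⁻¹ * b) * (b⁻¹ * z * b) * (a⁻¹ * b)⁻¹ = a⁻¹ * z * a := by group
      rw [this]; exact ha)
    apply hz
    have h2 : z = b * (b⁻¹ * z * b) * b⁻¹ := by group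
    rw [h2, h1]; group
  -- products of involutions from different conjugates
  have F2 : ∀ (a b u v : G), u * u = 1 → v * v = 1 → u ≠ 1 → v ≠ 1 → a⁻¹ * u * a ∈ H → b⁻¹ * v * b ∈ H →
      a⁻¹ * b ∉ H → u * v ≠ 1 ∧ ∀ c : G, c⁻¹ * (u * v) * c ∉ H := by
    intro a b u v hu hv hu1 hv1 hua hvb hab
    have huinv : u⁻¹ = u := inv_eq_of_mul_eq_one_left hu
    have hvinv : v⁻¹ = v := inv_eq_of_mul_eq_one_left hv
    have hz1 : u * v ≠ 1 := by
      intro h0
      have huv : u = v := by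
        calc u = u * (v * v) := by rw [hv, mul_one]
          _ = (u * v) * v := by group
          _ = v := by rw [h0, one_mul]
      subst huv
      exact hab (F1 a b u hua hvb hu1)
    refine ⟨hz1, fun c hc => ?_⟩
    have hzinv : (u * v)⁻¹ = v * u := by rw [mul_inv_rev, huinv, hvinv]
    have hz2 : (u * v)⁻¹ ≠ 1 := inv_ne_one.mpr hz1
    have hc' : c⁻¹ * (u * v)⁻¹ * c ∈ H := by
      have : c⁻¹ * (u * v)⁻¹ * c = (c⁻¹ * (u * v) * c)⁻¹ := by group
      rw [this]; exact H.inv_mem hc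
    have hcu : c⁻¹ * u * c ∈ H := by
      have h5 : (u * c)⁻¹ * (u * v)⁻¹ * (u * c) = c⁻¹ * (u * v) * c := by
        calc (u * c)⁻¹ * (u * v)⁻¹ * (u * c) = c⁻¹ * (u⁻¹ * (u * v)⁻¹ * u) * c := by group
          _ = c⁻¹ * (u * (v * u) * u) * c := by rw [huinv, hzinv]
          _ = c⁻¹ * (u * v * (u * u)) * c := by group
          _ = c⁻¹ * (u * v) * c := by rw [hu, mul_one]
      have h6 := F1 c (u * c) _ hc' (by rw [h5]; exact hc) hz2
      have : c⁻¹ * (u * c) = c⁻¹ * u * c := by group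
      rwa [this] at h6
    have hcv : c⁻¹ * v * c ∈ H := by
      have h5 : (v * c)⁻¹ * (u * v)⁻¹ * (v * c) = c⁻¹ * (u * v) * c := by
        calc (v * c)⁻¹ * (u * v)⁻¹ * (v * c) = c⁻¹ * (v⁻¹ * (u * v)⁻¹ * v) * c := by group
          _ = c⁻¹ * (v * (v * u) * v) * c := by rw [hvinv, hzinv]
          _ = c⁻¹ * ((v * v) * u * v) * c := by group
          _ = c⁻¹ * (u * v) * c := by rw [hv, one_mul]
      have h6 := F1 c (v * c) _ hc' (by rw [h5]; exact hc) hz2
      have : c⁻¹ * (v * c) = c⁻¹ * v * c := by group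
      rwa [this] at h6
    have h7 := F1 a c u hua hcu hu1
    have h8 := F1 b c v hvb hcv hv1
    apply hab
    have : a⁻¹ * b = (a⁻¹ * c) * (b⁻¹ * c)⁻¹ := by group
    rw [this]
    exact H.mul_mem h7 (H.inv_mem h8)
  -- conjugates of `t`
  have hconj : ∀ g : G, g⁻¹ * (g * t * g⁻¹) * g ∈ H := by
    intro g
    have : g⁻¹ * (g * t * g⁻¹) * g = t := by group
    rw [this]; exact ht
  have huu : ∀ g : G, (g * t * g⁻¹) * (g * t * g⁻¹) = 1 := by
    intro g
    calc (g * t * g⁻¹) * (g * t * g⁻¹) = g * (t * t) * g⁻¹ := by group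
      _ = 1 := by rw [ht2]; group
  have hu1 : ∀ g : G, g * t * g⁻¹ ≠ 1 := by
    intro g h0
    apply ht1
    have : t = g⁻¹ * (g * t * g⁻¹) * g := by group
    rw [this, h0]; group
  let q₀ : G ⧸ H := ((1 : G) : G ⧸ H)
  let Q₁ := {q : G ⧸ H // q ≠ q₀}
  let Y : Set G := Cfsg.frobeniusKernel H \ {1}
  have hcardY : Nat.card Y + 1 = H.index := by
    have h1m : (1 : G) ∈ Cfsg.frobeniusKernel H := Or.inl rfl
    have := Set.ncard_diff_singleton_add_one h1m (Set.toFinite _)
    rw [Nat.card_coe_set_eq, this, ← Nat.card_coe_set_eq, Cfsg.Agent.S0034.card_kernel H hH]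
  have hcardQ : Nat.card Q₁ + 1 = H.index := by
    letI : Fintype (G ⧸ H) := Fintype.ofFinite _
    show Nat.card {q : G ⧸ H // q ≠ q₀} + 1 = Nat.card (G ⧸ H)
    rw [Nat.card_eq_fintype_card, Nat.card_eq_fintype_card, Fintype.card_subtype_compl,
      Fintype.card_subtype_eq]
    have : 0 < Fintype.card (G ⧸ H) := Fintype.card_pos
    omega
  have hΨ : ∀ q : Q₁, t * (Quotient.out q.1 * t * (Quotient.out q.1)⁻¹) ∈ Y := by
    intro q
    have hout : (Quotient.out q.1) ∉ H := by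
      intro hm
      apply q.2
      have : ((Quotient.out q.1 : G) : G ⧸ H) = ((1 : G) : G ⧸ H) := by
        rw [QuotientGroup.eq]
        simpa using hm
      rwa [QuotientGroup.out_eq'] at this
    have h1 := F2 1 (Quotient.out q.1) t _ ht2 (huu _) ht1 (hu1 _) (by simpa using ht) (hconj _)
      (by simpa using hout)
    refine ⟨Or.inr fun g hg => ?_, h1.1⟩
    obtain ⟨m, hm, hme⟩ := hg
    have hme' : g * m * g⁻¹ = t * (Quotient.out q.1 * t * (Quotient.out q.1)⁻¹) := hme
    apply h1.2 g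
    rw [← hme']
    have : g⁻¹ * (g * m * g⁻¹) * g = m := by group
    rw [this]; exact hm
  let Ψ : Q₁ → Y := fun q => ⟨_, hΨ q⟩
  have hΨi : Function.Injective Ψ := by
    intro q q' h
    have h0 : t * (Quotient.out q.1 * t * (Quotient.out q.1)⁻¹) =
        t * (Quotient.out q'.1 * t * (Quotient.out q'.1)⁻¹) := congrArg Subtype.val h
    have h1 := mul_left_cancel h0
    have h2 := F1 (Quotient.out q.1) (Quotient.out q'.1) (Quotient.out q.1 * t * (Quotient.out q.1)⁻¹)
      (hconj _) (by rw [h1]; exact hconj _) (hu1 _)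
    have h3 : ((Quotient.out q.1 : G) : G ⧸ H) = ((Quotient.out q'.1 : G) : G ⧸ H) :=
      QuotientGroup.eq.mpr h2
    rw [QuotientGroup.out_eq', QuotientGroup.out_eq'] at h3
    exact Subtype.ext h3
  have hΨb : Function.Bijective Ψ := by
    apply hΨi.bijective_of_nat_card_le
    omega
  -- inverses stay in the kernel
  have hinvY : ∀ x ∈ Y, x⁻¹ ∈ Y := by
    rintro x ⟨hx, hx1⟩
    refine ⟨?_, fun h => hx1 (inv_eq_one.mp h)⟩
    rcases hx with hx | hx
    · exact absurd hx hx1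
    · refine Or.inr fun g hg => hx g ?_
      have := Subgroup.inv_mem _ hg
      simpa using this
  intro x hx y hy
  by_cases hx1 : x = 1
  · rw [hx1, one_mul]; exact hy
  by_cases hy1 : y = 1
  · rw [hy1, mul_one]; exact hx
  obtain ⟨q, hq⟩ := hΨb.2 ⟨x⁻¹, hinvY x ⟨hx, hx1⟩⟩
  obtain ⟨q', hq'⟩ := hΨb.2 ⟨y, ⟨hy, hy1⟩⟩
  have hq0 : t * (Quotient.out q.1 * t * (Quotient.out q.1)⁻¹) = x⁻¹ := congrArg Subtype.val hq
  have hq'0 : t * (Quotient.out q'.1 * t * (Quotient.out q'.1)⁻¹) = y := congrArg Subtype.val hq'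
  set u := Quotient.out q.1 * t * (Quotient.out q.1)⁻¹ with hu
  set u' := Quotient.out q'.1 * t * (Quotient.out q'.1)⁻¹ with hu'
  have hxy : x * y = u * u' := by
    have hx' : x = u⁻¹ * t⁻¹ := by
      have : x = (t * u)⁻¹ := by rw [hq0, inv_inv]
      rw [this, mul_inv_rev]
    have huinv : u⁻¹ = u := inv_eq_of_mul_eq_one_left (huu _)
    rw [hx', ← hq'0, htinv, huinv]
    calc u * t * (t * u') = u * (t * t) * u' := by group
      _ = u * u' := by rw [ht2, mul_one]
  rw [hxy]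
  by_cases hqq : q = q'
  · have : u' = u := by
      rw [hu', hu, hqq]
    rw [this, huu]
    exact Or.inl rfl
  · have hnot : (Quotient.out q.1)⁻¹ * (Quotient.out q'.1) ∉ H := by
      intro hm
      apply hqq
      have h3 : ((Quotient.out q.1 : G) : G ⧸ H) = ((Quotient.out q'.1 : G) : G ⧸ H) :=
        QuotientGroup.eq.mpr hm
      rw [QuotientGroup.out_eq', QuotientGroup.out_eq'] at h3
      exact Subtype.ext h3
    have h1 := F2 _ _ u u' (huu _) (huu _) (hu1 _) (hu1 _) (hconj (Quotient.out q.1)) (hconj (Quotient.out q'.1)) hnot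
    refine Or.inr fun g hg => ?_
    obtain ⟨m, hm, hme⟩ := hg
    have hme' : g * m * g⁻¹ = u * u' := hme
    apply h1.2 g
    rw [← hme']
    have : g⁻¹ * (g * m * g⁻¹) * g = m := by group
    rw [this]; exact hm

end Cfsg.Agent.S0036
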