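import Cfsg.Statements.S0047
import Cfsg.Agent.Lib.Commutators

open scoped commutatorElement

set_option autoImplicit false
open Cfsg

namespace Cfsg.Agent.S0047


theorem conj_comm_left {G : Type*} [Group G] (c x y : G) (h : c * y = y * c) :
    c * (x * y * x⁻¹ * y⁻¹) * c⁻¹ = (c * x * c⁻¹) * y * (c * x * c⁻¹)⁻¹ * y⁻¹ := by
  have hy : c * y * c⁻¹ = y := by rw [h]; group
  calc c * (x * y * x⁻¹ * y⁻¹) * c⁻¹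
      = (c * x * c⁻¹) * (c * y * c⁻¹) * (c * x * c⁻¹)⁻¹ * (c * y * c⁻¹)⁻¹ := by group
    _ = _ := by rw [hy]

theorem conj_comm_right {G : Type*} [Group G] (c x y : G) (h : c * x = x * c) :
    c * (x * y * x⁻¹ * y⁻¹) * c⁻¹ = x * (c * y * c⁻¹) * x⁻¹ * (c * y * c⁻¹)⁻¹ := by
  have hy : c * x * c⁻¹ = x := by rw [h]; group
  calc c * (x * y * x⁻¹ * y⁻¹) * c⁻¹
      = (c * x * c⁻¹) * (c * y * c⁻¹) * (c * x * c⁻¹)⁻¹ * (c * y * c⁻¹)⁻¹ := by group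
    _ = _ := by rw [hy]

theorem drop_right {G : Type*} [Group G] (a b₃ b : G) (h : b₃ * b = b * b₃) :
    (a * b₃) * b * (a * b₃)⁻¹ * b⁻¹ = a * b * a⁻¹ * b⁻¹ := by
  have hb : b₃ * b * b₃⁻¹ = b := by rw [h]; group
  calc (a * b₃) * b * (a * b₃)⁻¹ * b⁻¹ = a * (b₃ * b * b₃⁻¹) * a⁻¹ * b⁻¹ := by group
    _ = _ := by rw [hb]

theorem drop_left {G : Type*} [Group G] (x b a : G) (h : a * x = x * a) :
    x * (b * a) * x⁻¹ * (b * a)⁻¹ = x * b * x⁻¹ * b⁻¹ := by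
  have ha : a * x⁻¹ * a⁻¹ = x⁻¹ := by
    have : a * x⁻¹ = x⁻¹ * a := by
      calc a * x⁻¹ = x⁻¹ * (x * a) * x⁻¹ := by group
        _ = x⁻¹ * (a * x) * x⁻¹ := by rw [h]
        _ = x⁻¹ * a := by group
    rw [this]; group
  calc x * (b * a) * x⁻¹ * (b * a)⁻¹ = x * b * (a * x⁻¹ * a⁻¹) * b⁻¹ := by group
    _ = _ := by rw [ha]


/-- A finite group which is the product AB of two abelian subgroups A and B is solvable. -/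
theorem result {G : Type*} [Group G] [Finite G] (A B : Subgroup G)
    [IsMulCommutative A] [IsMulCommutative B] (hAB : ∀ g : G, ∃ a ∈ A, ∃ b ∈ B, g = a * b) :
    Group.IsSolvable G := by
  classical
  have hA : ∀ a ∈ A, ∀ b ∈ A, a * b = b * a := fun a ha b hb => by
    have := (inferInstance : IsMulCommutative A).is_comm.comm ⟨a, ha⟩ ⟨b, hb⟩
    exact congrArg Subtype.val this
  have hB : ∀ a ∈ B, ∀ b ∈ B, a * b = b * a := fun a ha b hb => by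
    have := (inferInstance : IsMulCommutative B).is_comm.comm ⟨a, ha⟩ ⟨b, hb⟩
    exact congrArg Subtype.val this
  have hBA : ∀ g : G, ∃ b ∈ B, ∃ a ∈ A, g = b * a := by
    intro g
    obtain ⟨a, ha, b, hb, h⟩ := hAB g⁻¹
    refine ⟨b⁻¹, B.inv_mem hb, a⁻¹, A.inv_mem ha, ?_⟩
    rw [← mul_inv_rev, ← h, inv_inv]
  have key : ∀ a ∈ A, ∀ a₁ ∈ A, ∀ b ∈ B, ∀ b₁ ∈ B,
      (a₁ * b₁) * (a * b * a⁻¹ * b⁻¹) * (a₁ * b₁)⁻¹ = (b₁ * a₁) * (a * b * a⁻¹ * b⁻¹) * (b₁ * a₁)⁻¹ := by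
    intro a ha a₁ ha₁ b hb b₁ hb₁
    obtain ⟨b₂, hb₂, a₂, ha₂, h2⟩ := hBA (a₁ * b * a₁⁻¹)
    obtain ⟨a₃, ha₃, b₃, hb₃, h3⟩ := hAB (b₁ * a * b₁⁻¹)
    have e1 : (a₁ * b₁) * (a * b * a⁻¹ * b⁻¹) * (a₁ * b₁)⁻¹ = a₃ * b₂ * a₃⁻¹ * b₂⁻¹ := by
      calc (a₁ * b₁) * (a * b * a⁻¹ * b⁻¹) * (a₁ * b₁)⁻¹
          = a₁ * (b₁ * (a * b * a⁻¹ * b⁻¹) * b₁⁻¹) * a₁⁻¹ := by group
        _ = a₁ * ((b₁ * a * b₁⁻¹) * b * (b₁ * a * b₁⁻¹)⁻¹ * b⁻¹) * a₁⁻¹ := by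
            rw [conj_comm_left b₁ a b (hB _ hb₁ _ hb)]
        _ = a₁ * ((a₃ * b₃) * b * (a₃ * b₃)⁻¹ * b⁻¹) * a₁⁻¹ := by rw [h3]
        _ = a₁ * (a₃ * b * a₃⁻¹ * b⁻¹) * a₁⁻¹ := by
            rw [drop_right a₃ b₃ b (hB _ hb₃ _ hb)]
        _ = a₃ * (a₁ * b * a₁⁻¹) * a₃⁻¹ * (a₁ * b * a₁⁻¹)⁻¹ := by
            rw [conj_comm_right a₁ a₃ b (hA _ ha₁ _ ha₃)]
        _ = a₃ * (b₂ * a₂) * a₃⁻¹ * (b₂ * a₂)⁻¹ := by rw [h2]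
        _ = a₃ * b₂ * a₃⁻¹ * b₂⁻¹ := by rw [drop_left a₃ b₂ a₂ (hA _ ha₂ _ ha₃)]
    have e2 : (b₁ * a₁) * (a * b * a⁻¹ * b⁻¹) * (b₁ * a₁)⁻¹ = a₃ * b₂ * a₃⁻¹ * b₂⁻¹ := by
      calc (b₁ * a₁) * (a * b * a⁻¹ * b⁻¹) * (b₁ * a₁)⁻¹
          = b₁ * (a₁ * (a * b * a⁻¹ * b⁻¹) * a₁⁻¹) * b₁⁻¹ := by group
        _ = b₁ * (a * (a₁ * b * a₁⁻¹) * a⁻¹ * (a₁ * b * a₁⁻¹)⁻¹) * b₁⁻¹ := by
            rw [conj_comm_right a₁ a b (hA _ ha₁ _ ha)]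
        _ = b₁ * (a * (b₂ * a₂) * a⁻¹ * (b₂ * a₂)⁻¹) * b₁⁻¹ := by rw [h2]
        _ = b₁ * (a * b₂ * a⁻¹ * b₂⁻¹) * b₁⁻¹ := by rw [drop_left a b₂ a₂ (hA _ ha₂ _ ha)]
        _ = (b₁ * a * b₁⁻¹) * b₂ * (b₁ * a * b₁⁻¹)⁻¹ * b₂⁻¹ := by
            rw [conj_comm_left b₁ a b₂ (hB _ hb₁ _ hb₂)]
        _ = (a₃ * b₃) * b₂ * (a₃ * b₃)⁻¹ * b₂⁻¹ := by rw [h3]
        _ = a₃ * b₂ * a₃⁻¹ * b₂⁻¹ := by rw [drop_right a₃ b₃ b₂ (hB _ hb₃ _ hb₂)]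
    rw [e1, e2]
  -- commutators commute
  let S : Set G := {g | ∃ g₁ ∈ A, ∃ g₂ ∈ B, ⁅g₁, g₂⁆ = g}
  have hS : ⁅A, B⁆ = Subgroup.closure S := Subgroup.commutator_def A B
  have hgen : ∀ x ∈ S, ∀ y ∈ S, x * y = y * x := by
    rintro x ⟨a', ha', b', hb', rfl⟩ y ⟨a, ha, b, hb, rfl⟩
    have h := key a ha a'⁻¹ (A.inv_mem ha') b hb b'⁻¹ (B.inv_mem hb')
    simp only [commutatorElement_def]
    set u := a * b * a⁻¹ * b⁻¹ with hu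
    have h' : (a' * b' * a'⁻¹ * b'⁻¹) * u * (a' * b' * a'⁻¹ * b'⁻¹)⁻¹ = u := by
      have e : a' * b' * a'⁻¹ * b'⁻¹ = (b'⁻¹ * a'⁻¹)⁻¹ * (a'⁻¹ * b'⁻¹) := by group
      rw [e]
      calc (b'⁻¹ * a'⁻¹)⁻¹ * (a'⁻¹ * b'⁻¹) * u * ((b'⁻¹ * a'⁻¹)⁻¹ * (a'⁻¹ * b'⁻¹))⁻¹
          = (b'⁻¹ * a'⁻¹)⁻¹ * ((a'⁻¹ * b'⁻¹) * u * (a'⁻¹ * b'⁻¹)⁻¹) * (b'⁻¹ * a'⁻¹) := by group
        _ = (b'⁻¹ * a'⁻¹)⁻¹ * ((b'⁻¹ * a'⁻¹) * u * (b'⁻¹ * a'⁻¹)⁻¹) * (b'⁻¹ * a'⁻¹) := by rw [h]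
        _ = u := by group
    calc (a' * b' * a'⁻¹ * b'⁻¹) * u
        = ((a' * b' * a'⁻¹ * b'⁻¹) * u * (a' * b' * a'⁻¹ * b'⁻¹)⁻¹) * (a' * b' * a'⁻¹ * b'⁻¹) := by group
      _ = u * (a' * b' * a'⁻¹ * b'⁻¹) := by rw [h']
  let N : Subgroup G := ⁅A, B⁆
  have h1 : N ≤ Subgroup.centralizer S := by
    show ⁅A, B⁆ ≤ _
    rw [hS, Subgroup.closure_le]
    intro x hx
    exact Subgroup.mem_centralizer_iff.mpr (fun y hy => hgen y hy x hx)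
  have h2 : N ≤ Subgroup.centralizer (N : Set G) := by
    show ⁅A, B⁆ ≤ _
    rw [hS, Subgroup.closure_le]
    intro x hx
    refine Subgroup.mem_centralizer_iff.mpr (fun y hy => ?_)
    have := Subgroup.mem_centralizer_iff.mp (h1 hy) x hx
    exact this.symm
  have hsup : A ⊔ B = ⊤ := by
    rw [eq_top_iff]
    intro g _
    obtain ⟨a, ha, b, hb, rfl⟩ := hAB g
    exact Subgroup.mul_mem _ ((le_sup_left : A ≤ _) ha) ((le_sup_right : B ≤ _) hb)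
  haveI hNn : N.Normal := Cfsg.Agent.Lib.Commutators.normal_of_le_normalizer hsup
    Cfsg.Agent.Lib.Commutators.commutator_le_normalizer_left
    Cfsg.Agent.Lib.Commutators.commutator_le_normalizer_right
  have hsN : Group.IsSolvable N := isSolvable_of_comm (fun a b => Subtype.ext
    (Subgroup.mem_centralizer_iff.mp (h2 a.2) b b.2).symm)
  have hsQ : Group.IsSolvable (G ⧸ N) := by
    apply isSolvable_of_comm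
    intro x y
    obtain ⟨g, rfl⟩ := QuotientGroup.mk_surjective x
    obtain ⟨g', rfl⟩ := QuotientGroup.mk_surjective y
    obtain ⟨a, ha, b, hb, rfl⟩ := hAB g
    obtain ⟨a', ha', b', hb', rfl⟩ := hAB g'
    have hcQ : ∀ a ∈ A, ∀ b ∈ B, Commute (a : G ⧸ N) (b : G ⧸ N) := by
      intro a ha b hb
      have : ⁅a, b⁆ ∈ N := Subgroup.commutator_mem_commutator ha hb
      have h0 : ((⁅a, b⁆ : G) : G ⧸ N) = 1 := (QuotientGroup.eq_one_iff _).mpr this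
      rw [commutatorElement_def] at h0
      show ((a : G ⧸ N)) * (b : G ⧸ N) = (b : G ⧸ N) * (a : G ⧸ N)
      have h3 : ((a : G ⧸ N)) * (b : G ⧸ N) * (a : G ⧸ N)⁻¹ * (b : G ⧸ N)⁻¹ = 1 := h0
      calc ((a : G ⧸ N)) * (b : G ⧸ N)
          = (((a : G ⧸ N)) * (b : G ⧸ N) * (a : G ⧸ N)⁻¹ * (b : G ⧸ N)⁻¹) * ((b : G ⧸ N) * (a : G ⧸ N)) := by group
        _ = _ := by rw [h3, one_mul]
    have e1 : Commute (a : G ⧸ N) (a' : G ⧸ N) := congrArg (fun z : G => (z : G ⧸ N)) (hA a ha a' ha')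
    have e2 : Commute (b : G ⧸ N) (b' : G ⧸ N) := congrArg (fun z : G => (z : G ⧸ N)) (hB b hb b' hb')
    have e3 := hcQ a ha b' hb'
    have e4 := (hcQ a' ha' b hb).symm
    have := ((e1.mul_right e3).mul_left (e4.mul_right e2))
    exact this
  exact Group.isSolvable_of_ker_le_range N.subtype (QuotientGroup.mk' N)
    (by rw [QuotientGroup.ker_mk', Subgroup.range_subtype])

end Cfsg.Agent.S0047
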