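import Cfsg.Statements.S0048
import Cfsg.Agent.Lib.H7Basic
import Cfsg.Agent.Lib.PIrreducible
import Cfsg.Agent.Lib.SchurZ2

set_option autoImplicit false
open Cfsg

namespace Cfsg.Agent.S0048


universe u

theorem aux : ∀ (n : ℕ) (G : Type u) [Group G] [Finite G] (_ : Group.IsSolvable G) (M : Subgroup G),
    IsCoatom M → Nat.card G = n → IsPrimePow M.index := by
  intro n
  induction n using Nat.strong_induction_on with
  | _ n ih =>
  intro G _ _ hs M hM hn
  classical
  haveI : Nontrivial G := by
    by_contra h
    rw [not_nontrivial_iff_subsingleton] at h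
    exact hM.1 (Subsingleton.elim _ _)
  obtain ⟨p, A, hp, hAn, hAb, hAp, -⟩ := Cfsg.Agent.Lib.H7Basic.exists_normal_pGroup hs
  haveI := hAn
  haveI : Fact p.Prime := ⟨hp⟩
  by_cases hAM : A ≤ M
  · let π := QuotientGroup.mk' A
    have hπs : Function.Surjective π := QuotientGroup.mk'_surjective A
    have hker : π.ker = A := QuotientGroup.ker_mk' A
    have hc : IsCoatom (M.map π) :=
      Cfsg.Agent.Lib.PIrreducible.isCoatom_map π hπs hM (by rw [hker]; exact hAM)
    have hcard : Nat.card (G ⧸ A) < n := by
      rw [← hn]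
      have h1 : Nat.card A * A.index = Nat.card G := A.card_mul_index
      have h2 : 1 < Nat.card A := by
        haveI : Nontrivial A := (Subgroup.nontrivial_iff_ne_bot A).mpr hAb
        exact Finite.one_lt_card
      have h3 : 0 < A.index := Nat.pos_of_ne_zero Subgroup.index_ne_zero_of_finite
      show A.index < _
      nlinarith
    haveI hsq : Group.IsSolvable (G ⧸ A) := Group.isSolvable_of_surjective (f := π) hπs
    have := ih _ hcard (G ⧸ A) hsq (M.map π) hc rfl
    have hidx : (M.map π).index = M.index := by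
      rw [Subgroup.index_map, hker, sup_eq_left.mpr hAM,
        MonoidHom.range_eq_top.mpr hπs, Subgroup.index_top, mul_one]
    rwa [hidx] at this
  · have hsup : A ⊔ M = ⊤ := by
      have hlt : M < A ⊔ M := lt_of_le_of_ne le_sup_right (fun h => hAM (h ▸ le_sup_left))
      exact hM.2 _ hlt
    have hMN : M ≤ Subgroup.normalizer (A : Set G) := by
      rw [Subgroup.normalizer_eq_top_iff.mpr hAn]; exact le_top
    have h1 := Cfsg.Agent.Lib.SchurZ2.card_sup_mul_card_inf A M hMN
    rw [hsup, Subgroup.card_top] at h1
    have h2 : M.index * Nat.card M = Nat.card G := M.index_mul_card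
    have h3 : M.index * Nat.card (A ⊓ M : Subgroup G) = Nat.card A := by
      have hpos : 0 < Nat.card M := Nat.card_pos
      apply Nat.eq_of_mul_eq_mul_right hpos
      rw [mul_right_comm, h2, h1]
    obtain ⟨a, ha⟩ := IsPGroup.iff_card.mp hAp
    have h4 : M.index ∣ p ^ a := ⟨_, by rw [← ha, h3]⟩
    obtain ⟨k, -, hk⟩ := (Nat.dvd_prime_pow hp).mp h4
    have hk0 : k ≠ 0 := by
      rintro rfl
      rw [pow_zero] at hk
      exact hM.1 (Subgroup.index_eq_one.mp hk)
    exact ⟨p, k, hp.prime, Nat.pos_of_ne_zero hk0, hk.symm⟩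


/-- In a finite solvable group every maximal subgroup has index a prime power. -/
theorem result {G : Type*} [Group G] [Finite G] [Group.IsSolvable G]
    (M : Subgroup G) (hM : IsCoatom M) : IsPrimePow M.index := by
  exact aux _ G ‹_› M hM rfl

end Cfsg.Agent.S0048
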