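import Cfsg.Statements.S0049
import Cfsg.Agent.Lib.FitCore

set_option autoImplicit false
open Cfsg

namespace Cfsg.Agent.S0049

/-- A prime divisor of the order of a finite group also divides the index of the Frattini subgroup. -/
theorem result {G : Type*} [Group G] [Finite G] (p : ℕ) (hp : p.Prime) (hdvd : p ∣ Nat.card G) :
    p ∣ (frattini G).index := by
  classical
  by_contra hnd
  let Φ := frattini G
  haveI hΦn : Φ.Normal := Subgroup.normal_of_characteristic _
  haveI hΦnil : Group.IsNilpotent Φ := frattini_nilpotent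
  haveI : Fact p.Prime := ⟨hp⟩
  let Q : Sylow p Φ := default
  have q := (Group.isNilpotent_of_finite_tfae (G := Φ)).out 0 3
  have hQn : (Q : Subgroup Φ).Normal := q.mp hΦnil p inferInstance Q
  haveI hQc : (Q : Subgroup Φ).Characteristic := Sylow.characteristic_of_normal Q hQn
  let R : Subgroup G := (Q : Subgroup Φ).map Φ.subtype
  haveI hRn : R.Normal := Cfsg.Agent.Lib.FitCore.map_subtype_normal_of_char Φ (Q : Subgroup Φ)
  have hRp : IsPGroup p R := Q.isPGroup'.map _
  have hRle : R ≤ Φ := by
    rintro _ ⟨x, -, rfl⟩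
    exact x.2
  have hnp : ¬ p ∣ R.index := by
    show ¬ p ∣ ((Q : Subgroup Φ).map Φ.subtype).index
    rw [Subgroup.index_map_subtype, hp.dvd_mul]
    rintro (h | h)
    · exact Q.not_dvd_index h
    · exact hnd h
  have hcop : (Nat.card R).Coprime R.index := by
    obtain ⟨k, hk⟩ := IsPGroup.iff_card.mp hRp
    rw [hk]; exact ((Nat.Prime.coprime_iff_not_dvd hp).mpr hnp).pow_left k
  obtain ⟨H, hH⟩ := Subgroup.exists_right_complement'_of_coprime hcop
  have h1 : H ⊔ Φ = ⊤ := by
    rw [eq_top_iff, ← hH.sup_eq_top]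
    exact sup_le (hRle.trans le_sup_right) le_sup_left
  have h2 : H = ⊤ := frattini_nongenerating h1
  have h3 : R = ⊥ := by
    have := hH.disjoint.eq_bot
    rwa [h2, inf_top_eq] at this
  rw [h3, Subgroup.index_bot] at hnp
  exact hnp hdvd

end Cfsg.Agent.S0049
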