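import Cfsg.Statements.S0050
import Cfsg.Agent.Lib.Hall

set_option autoImplicit false
open Cfsg

namespace Cfsg.Agent.S0050

/-- Frattini argument for Hall subgroups: if L is a solvable normal subgroup and H a subgroup of L of order coprime to its index in L, then L together with the normaliser of H generates the whole group. -/
theorem result {G : Type*} [Group G] [Finite G] (L : Subgroup G) [L.Normal] (hL : Group.IsSolvable L)
    (H : Subgroup G) (hHL : H ≤ L) (hHall : (Nat.card H).Coprime (H.relIndex L)) :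
    L ⊔ Subgroup.normalizer (H : Set G) = ⊤ := by
  classical
  haveI : Group.IsSolvable L := hL
  have hHL' : H.subgroupOf L ≃* H := Subgroup.subgroupOfEquivOfLe hHL
  have hcH : Nat.card (H.subgroupOf L) = Nat.card H := Nat.card_congr hHL'.toEquiv
  have hidx : (H.subgroupOf L).index = H.relIndex L := rfl
  have hcard : Nat.card L = Nat.card (H.subgroupOf L) * H.relIndex L :=
    ((H.subgroupOf L).card_mul_index).symm
  rw [eq_top_iff]
  intro g _
  -- the conjugate of `H` lies in `L`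
  let H' := H.map (MulAut.conj g).toMonoidHom
  have hH'L : H' ≤ L := by
    rintro _ ⟨h, hh, rfl⟩
    exact (inferInstance : L.Normal).conj_mem h (hHL hh) g
  have hcH' : Nat.card (H'.subgroupOf L) = Nat.card H := by
    rw [← Cfsg.Agent.Lib.SchurZ.conj_map_card H g]
    exact Nat.card_congr (Subgroup.subgroupOfEquivOfLe hH'L).toEquiv
  have hcop : (Nat.card (H.subgroupOf L)).Coprime (H.relIndex L) := by
    rw [hcH]; exact hHall
  obtain ⟨l, hl⟩ := Cfsg.Agent.Lib.Hall.hall_conj _ L _ _ rfl hcard hcop (H.subgroupOf L)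
    (H'.subgroupOf L) rfl (by rw [hcH']; exact hHall)
  -- `l⁻¹ g` normalizes `H`
  have hmem : (l : G)⁻¹ * g ∈ Subgroup.normalizer (H : Set G) := by
    apply Cfsg.Agent.Lib.H5Basic.mem_normalizer_of_map_conj_le
    rintro _ ⟨h, hh, rfl⟩
    have h1 : (⟨g * h * g⁻¹, hH'L ⟨h, hh, rfl⟩⟩ : L) ∈ H'.subgroupOf L :=
      Subgroup.mem_subgroupOf.mpr ⟨h, hh, rfl⟩
    obtain ⟨y, hy, hye⟩ := hl h1
    have hy' : (y : G) ∈ H := Subgroup.mem_subgroupOf.mp hy
    have h2 : (l : G) * y * (l : G)⁻¹ = g * h * g⁻¹ := congrArg Subtype.val hye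
    have h3 : ((l : G)⁻¹ * g) * h * ((l : G)⁻¹ * g)⁻¹ = y := by
      calc ((l : G)⁻¹ * g) * h * ((l : G)⁻¹ * g)⁻¹ = (l : G)⁻¹ * (g * h * g⁻¹) * l := by group
        _ = (l : G)⁻¹ * ((l : G) * y * (l : G)⁻¹) * l := by rw [h2]
        _ = y := by group
    show ((l : G)⁻¹ * g) * h * ((l : G)⁻¹ * g)⁻¹ ∈ H
    rw [h3]; exact hy'
  have h1 : g = (l : G) * ((l : G)⁻¹ * g) := by group
  rw [h1]
  exact Subgroup.mul_mem _ ((le_sup_left : L ≤ _) l.2) ((le_sup_right : Subgroup.normalizer (H : Set G) ≤ _) hmem)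

end Cfsg.Agent.S0050
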