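import Cfsg.Statements.S0053
import Cfsg.Agent.Lib.Commutators
import Cfsg.Agent.Lib.SchurZ

set_option autoImplicit false
open Cfsg

namespace Cfsg.Agent.S0053

/-- An abelian minimal normal subgroup N of a finite group is complemented exactly when N is not inside the Frattini subgroup. -/
theorem result {G : Type*} [Group G] [Finite G]
    (N : Subgroup G) [N.Normal] [IsMulCommutative N] (hN : N ≠ ⊥)
    (hmin : ∀ M : Subgroup G, M.Normal → M ≤ N → M = ⊥ ∨ M = N) :
    (∃ H : Subgroup G, Subgroup.IsComplement' N H) ↔ ¬ N ≤ frattini G := by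
  classical
  constructor
  · rintro ⟨H, hH⟩ hle
    have h1 : H ⊔ frattini G = ⊤ := by
      rw [eq_top_iff, ← hH.sup_eq_top]
      exact sup_le (hle.trans le_sup_right) le_sup_left
    have h2 := frattini_nongenerating h1
    have h3 : N ⊓ H = ⊥ := hH.disjoint.eq_bot
    rw [h2, inf_top_eq] at h3
    exact hN h3
  · intro hn
    -- a maximal subgroup not containing `N`
    obtain ⟨x, hx, hxΦ⟩ := SetLike.not_le_iff_exists.mp hn
    simp only [frattini, Order.radical, Subgroup.mem_iInf] at hxΦ
    push_neg at hxΦ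
    obtain ⟨M, hM, hxM⟩ := hxΦ
    have hNM : ¬ N ≤ M := fun h => hxM (h hx)
    have hsup : N ⊔ M = ⊤ := by
      have hlt : M < N ⊔ M := lt_of_le_of_ne le_sup_right (fun h => hNM (h ▸ le_sup_left))
      exact hM.2 _ hlt
    have hcomm : ∀ a ∈ N, ∀ b ∈ N, a * b = b * a := fun a ha b hb => by
      have := (inferInstance : IsMulCommutative N).is_comm.comm ⟨a, ha⟩ ⟨b, hb⟩
      exact congrArg Subtype.val this
    -- `N ⊓ M` is normal
    have hIn : (N ⊓ M).Normal := by
      apply Subgroup.normalizer_eq_top_iff.mp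
      rw [eq_top_iff, ← hsup]
      refine sup_le ?_ ?_
      · intro n hn
        apply Cfsg.Agent.Lib.Commutators.mem_normalizer_of_conj_mem
        · rintro y ⟨hy1, hy2⟩
          have : n * y * n⁻¹ = y := by rw [hcomm n hn y hy1]; group
          rw [this]; exact ⟨hy1, hy2⟩
        · rintro y ⟨hy1, hy2⟩
          have : n⁻¹ * y * n = y := by
            have h5 := hcomm n hn y hy1
            calc n⁻¹ * y * n = n⁻¹ * (y * n) := by group
              _ = n⁻¹ * (n * y) := by rw [h5]
              _ = y := by group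
          rw [this]; exact ⟨hy1, hy2⟩
      · intro m hm
        apply Cfsg.Agent.Lib.Commutators.mem_normalizer_of_conj_mem
        · rintro y ⟨hy1, hy2⟩
          exact ⟨(inferInstance : N.Normal).conj_mem y hy1 m, M.mul_mem (M.mul_mem hm hy2) (M.inv_mem hm)⟩
        · rintro y ⟨hy1, hy2⟩
          refine ⟨?_, M.mul_mem (M.mul_mem (M.inv_mem hm) hy2) hm⟩
          simpa using (inferInstance : N.Normal).conj_mem y hy1 m⁻¹
    have hbot : N ⊓ M = ⊥ := by
      rcases hmin _ hIn inf_le_left with h | h
      · exact h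
      · exact absurd (inf_eq_left.mp h) hNM
    refine ⟨M, ?_⟩
    have hdisj : Disjoint N M := disjoint_iff.mpr hbot
    have hc : IsCompl N M := ⟨hdisj, codisjoint_iff.mpr hsup⟩
    -- `N` normal gives complement
    apply Subgroup.isComplement'_of_card_mul_and_disjoint _ hdisj
    have h1 := Cfsg.Agent.Lib.SchurZ.card_sup_of_disjoint N M hbot
    rw [hsup, Subgroup.card_top] at h1
    exact h1.symm

end Cfsg.Agent.S0053
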