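import Cfsg.Statements.S0054
import Cfsg.Agent.Lib.Amalgam

set_option autoImplicit false
open Cfsg

namespace Cfsg.Agent.S0054

/-- A regular normal subgroup of a finite 2-transitive group is elementary abelian: it is commutative and all its elements have order dividing one prime. -/
theorem result {G : Type*} [Group G] [Finite G]
    {X : Type*} [Nonempty X] [MulAction G X] (h2 : MulAction.IsMultiplyPretransitive G X 2)
    (N : Subgroup G) [N.Normal] (htrans : MulAction.IsPretransitive N X) (hreg : ∀ x : X, MulAction.stabilizer N x = ⊥) :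
    IsMulCommutative N ∧ ∃ p : ℕ, p.Prime ∧ ∀ n ∈ N, n ^ p = 1 := by
  classical
  obtain ⟨x₀⟩ := ‹Nonempty X›
  have hreg' : ∀ (n : G), n ∈ N → n • x₀ = x₀ → n = 1 := by
    intro n hn h
    have h1 : (⟨n, hn⟩ : N) ∈ MulAction.stabilizer N x₀ := h
    rw [hreg x₀, Subgroup.mem_bot] at h1
    exact congrArg Subtype.val h1
  have hconj : ∀ n ∈ N, n ≠ 1 → ∀ m ∈ N, m ≠ 1 → ∃ g : G, g * n * g⁻¹ = m := by
    intro n hn hn1 m hm hm1
    have hb1 : x₀ ≠ n • x₀ := fun h => hn1 (hreg' n hn h.symm)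
    have hb2 : x₀ ≠ m • x₀ := fun h => hm1 (hreg' m hm h.symm)
    obtain ⟨g, hg1, hg2⟩ := (MulAction.is_two_pretransitive_iff.mp h2) hb1 hb2
    refine ⟨g, ?_⟩
    have hN : N.Normal := inferInstance
    have hmem : m⁻¹ * (g * n * g⁻¹) ∈ N := N.mul_mem (N.inv_mem hm) (hN.conj_mem n hn g)
    have hfix : (m⁻¹ * (g * n * g⁻¹)) • x₀ = x₀ := by
      have hginv : g⁻¹ • x₀ = x₀ := by
        rw [inv_smul_eq_iff]; exact hg1.symm
      rw [mul_smul, mul_smul, mul_smul, hginv, hg2, inv_smul_smul]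
    have := hreg' _ hmem hfix
    exact (inv_mul_eq_one.mp this).symm
  by_cases hb : N = ⊥
  · have hall : ∀ x ∈ N, x = 1 := by
      rw [hb]
      exact fun x hx => Subgroup.mem_bot.mp hx
    constructor
    · refine ⟨⟨fun a b => ?_⟩⟩
      apply Subtype.ext
      show (a : G) * b = b * a
      rw [hall _ a.2, hall _ b.2]
    · refine ⟨2, Nat.prime_two, fun n hn => ?_⟩
      rw [hb, Subgroup.mem_bot] at hn
      rw [hn, one_pow]
  · haveI : Nontrivial N := (Subgroup.nontrivial_iff_ne_bot N).mpr hb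
    obtain ⟨p, hp, hpd⟩ := Nat.exists_prime_and_dvd (Finite.one_lt_card (α := N)).ne'
    haveI : Fact p.Prime := ⟨hp⟩
    obtain ⟨n₀, hn₀⟩ := exists_prime_orderOf_dvd_card' p hpd
    have hn₀G : orderOf (n₀ : G) = p := by rw [Subgroup.orderOf_coe, hn₀]
    have hn₀1 : (n₀ : G) ≠ 1 := by
      intro h
      rw [h, orderOf_one] at hn₀G
      exact hp.one_lt.ne hn₀G
    have hpow : ∀ n ∈ N, n ^ p = 1 := by
      intro n hn
      by_cases hn1 : n = 1
      · rw [hn1, one_pow]
      obtain ⟨g, hg⟩ := hconj _ n₀.2 hn₀1 n hn hn1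
      rw [← hg, conj_pow, ← hn₀G, pow_orderOf_eq_one]
      group
    have hNp : IsPGroup p N := by
      intro n
      refine ⟨1, ?_⟩
      apply Subtype.ext
      simpa using hpow n n.2
    haveI := hNp.center_nontrivial
    obtain ⟨⟨z, hzc⟩, hz1⟩ := exists_ne (1 : Subgroup.center N)
    have hz1' : (z : G) ≠ 1 := fun h => hz1 (Subtype.ext (Subtype.ext h))
    have hN : N.Normal := inferInstance
    constructor
    · refine ⟨⟨fun a b => ?_⟩⟩
      apply Subtype.ext
      show (a : G) * b = b * a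
      by_cases ha : (a : G) = 1
      · rw [ha, one_mul, mul_one]
      obtain ⟨g, hg⟩ := hconj _ z.2 hz1' _ a.2 ha
      have hb' : g⁻¹ * b * g ∈ N := by
        simpa using hN.conj_mem _ b.2 g⁻¹
      have h1 := Subgroup.mem_center_iff.mp hzc ⟨_, hb'⟩
      have h2 : (g⁻¹ * b * g) * (z : G) = z * (g⁻¹ * b * g) := congrArg Subtype.val h1
      rw [← hg]
      calc g * z * g⁻¹ * b = g * (z * (g⁻¹ * b * g)) * g⁻¹ := by group
        _ = g * ((g⁻¹ * b * g) * z) * g⁻¹ := by rw [h2]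
        _ = b * (g * z * g⁻¹) := by group
    · exact ⟨p, hp, hpow⟩

end Cfsg.Agent.S0054
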