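import Cfsg.Statements.S0055
import Cfsg.Agent.Lib.PReduced
import Cfsg.Agent.Lib.SchurZ

open scoped commutatorElement

set_option autoImplicit false
open Cfsg

namespace Cfsg.Agent.S0055

/-- If A normalises an abelian subgroup V of coprime order, then V is the internal direct product of its A-fixed points and its commutator with A: the two meet trivially and generate V. -/
theorem result {G : Type*} [Group G] [Finite G] (A V : Subgroup G) [IsMulCommutative V]
    (hAV : A ≤ Subgroup.normalizer (V : Set G)) (hcop : (Nat.card A).Coprime (Nat.card V)) :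
    (V ⊓ Subgroup.centralizer (A : Set G)) ⊓ ⁅V, A⁆ = ⊥ ∧ (V ⊓ Subgroup.centralizer (A : Set G)) ⊔ ⁅V, A⁆ = V := by
  classical
  refine ⟨?_, ?_⟩
  · letI : CommGroup V := { (inferInstance : Group V) with
      mul_comm := fun a b => (inferInstance : IsMulCommutative V).is_comm.comm a b }
    let φ : A →* MulAut V := Cfsg.Agent.Lib.PReduced.actHom V hAV
    have hφ : ∀ (x : A) (a : V), ((φ x a : V) : G) = x * a * (x : G)⁻¹ := fun x a => rfl
    letI : Fintype A := Fintype.ofFinite _
    let F : V →* V := MonoidHom.mk' (fun z => ∏ a : A, φ a z) (fun a b => by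
      simp only [map_mul]; exact Finset.prod_mul_distrib)
    have hF : ∀ z, F z = ∏ a : A, φ a z := fun z => rfl
    have hFφ : ∀ (l : A) (z : V), F (φ l z) = F z := by
      intro l z
      rw [hF, hF]
      exact Fintype.prod_equiv (Equiv.mulRight l) _ _ (fun a => by
        simp [MulAut.mul_apply])
    have hK : ⁅V, A⁆ ≤ (F.ker).map V.subtype := by
      rw [Subgroup.commutator_le]
      intro v hv a ha
      refine ⟨⟨v, hv⟩ * (φ ⟨a, ha⟩ ⟨v, hv⟩)⁻¹, ?_, ?_⟩
      · show F _ = 1
        rw [map_mul, map_inv, hFφ, mul_inv_cancel]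
      · show v * (a * v * a⁻¹)⁻¹ = _
        simp [commutatorElement_def]
        group
    rw [eq_bot_iff]
    rintro x ⟨⟨hxV, hxC⟩, hxK⟩
    obtain ⟨v, hv, rfl⟩ := hK hxK
    have hfix : ∀ a : A, φ a v = v := by
      intro a
      apply Subtype.ext
      rw [hφ]
      have : (a : G) * (v : G) = v * a := Subgroup.mem_centralizer_iff.mp hxC a a.2
      show (a : G) * v * (a : G)⁻¹ = v
      rw [this]; group
    have hpow : v ^ Nat.card A = 1 := by
      have h1 : F v = 1 := hv
      rw [hF] at h1
      simp only [hfix, Finset.prod_const, Finset.card_univ, ← Nat.card_eq_fintype_card] at h1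
      exact h1
    have h1 : orderOf v ∣ Nat.card A := orderOf_dvd_of_pow_eq_one hpow
    have h2 : orderOf v ∣ Nat.card V := orderOf_dvd_natCard v
    have h3 : orderOf v = 1 := Nat.eq_one_of_dvd_coprimes hcop h1 h2
    have h4 : v = 1 := orderOf_eq_one_iff.mp h3
    rw [Subgroup.mem_bot]
    show (v : G) = 1
    rw [h4]; rfl
  · rw [sup_comm]
    have hV : Group.IsSolvable V := isSolvable_of_comm (fun a b =>
      (inferInstance : IsMulCommutative V).is_comm.comm a b)
    exact Cfsg.Agent.Lib.SchurZ.commutator_sup_centralizer hAV hcop.symm (Or.inl hV)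

end Cfsg.Agent.S0055
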