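import Cfsg.Statements.S0056
import Cfsg.Agent.S0055

set_option autoImplicit false
open Cfsg

namespace Cfsg.Agent.S0056

/-- A coprime action on an abelian group that fixes all elements of prime order is trivial. -/
theorem result {G : Type*} [Group G] [Finite G] (A V : Subgroup G) [IsMulCommutative V]
    (hAV : A ≤ Subgroup.normalizer (V : Set G)) (hcop : (Nat.card A).Coprime (Nat.card V))
    (hΩ : ∀ v ∈ V, (orderOf v).Prime → ∀ a ∈ A, a * v = v * a) : A ≤ Subgroup.centralizer (V : Set G) := by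
  classical
  have h := Cfsg.Agent.S0055.result A V hAV hcop
  by_contra hn
  have hcomm : ⁅V, A⁆ ≠ ⊥ := by
    intro hb
    apply hn
    rw [Subgroup.commutator_eq_bot_iff_le_centralizer] at hb
    exact Subgroup.le_centralizer_iff.mp hb
  haveI : Nontrivial (⁅V, A⁆ : Subgroup G) := (Subgroup.nontrivial_iff_ne_bot _).mpr hcomm
  obtain ⟨p, hp, hpd⟩ := Nat.exists_prime_and_dvd (Finite.one_lt_card (α := (⁅V, A⁆ : Subgroup G))).ne'
  haveI : Fact p.Prime := ⟨hp⟩
  obtain ⟨x, hx⟩ := exists_prime_orderOf_dvd_card' p hpd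
  have hxG : orderOf (x : G) = p := by rw [Subgroup.orderOf_coe, hx]
  have hxV : (x : G) ∈ V := Cfsg.Agent.Lib.SchurZ.commutator_le_of_normalizes hAV x.2
  have hxc : (x : G) ∈ Subgroup.centralizer (A : Set G) := by
    refine Subgroup.mem_centralizer_iff.mpr (fun a ha => ?_)
    exact hΩ _ hxV (by rw [hxG]; exact hp) a ha
  have h1 : (x : G) ∈ (V ⊓ Subgroup.centralizer (A : Set G)) ⊓ ⁅V, A⁆ := ⟨⟨hxV, hxc⟩, x.2⟩
  rw [h.1, Subgroup.mem_bot] at h1
  rw [h1, orderOf_one] at hxG
  exact hp.one_lt.ne hxG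

end Cfsg.Agent.S0056
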