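import Cfsg.Statements.S0059
import Cfsg.Agent.Lib.SchurZ
import Cfsg.Agent.Lib.Commutators

set_option autoImplicit false
open Cfsg

namespace Cfsg.Agent.S0059

/-- Let a finite group act on a set on which a normal subgroup K of coprime order and index is transitive, with K or the quotient solvable. Then any complement H of K has a fixed point, and any two H-fixed points are interchanged by an element of K centralising H. -/
theorem result {G : Type*} [Group G] [Finite G] {X : Type*} [Nonempty X] [MulAction G X]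
    (K H : Subgroup G) [K.Normal] (hc : Subgroup.IsComplement' K H) (hcop : (Nat.card K).Coprime K.index)
    (hsolv : Group.IsSolvable K ∨ Group.IsSolvable (G ⧸ K)) (htrans : MulAction.IsPretransitive K X) :
    (∃ x : X, ∀ h ∈ H, h • x = x) ∧
    ∀ x y : X, (∀ h ∈ H, h • x = x) → (∀ h ∈ H, h • y = y) → ∃ k ∈ K ⊓ Subgroup.centralizer (H : Set G), k • x = y := by
  classical
  have hd : K ⊓ H = ⊥ := hc.disjoint.eq_bot
  have hsup : K ⊔ H = ⊤ := hc.sup_eq_top
  have hKn : K.Normal := inferInstance
  have hHK : H ≤ Subgroup.normalizer (K : Set G) := by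
    rw [Subgroup.normalizer_eq_top_iff.mpr hKn]; exact le_top
  have hcK : (Nat.card K).Coprime (Nat.card H) := by rw [← hc.symm.index_eq_card]; exact hcop
  have hsH : Group.IsSolvable K ∨ Group.IsSolvable H := by
    rcases hsolv with h | h
    · exact Or.inl h
    · right
      haveI := h
      refine Group.isSolvable_of_isSolvable_injective (f := (QuotientGroup.mk' K).comp H.subtype) ?_
      intro a b hab
      have h1 : (QuotientGroup.mk' K) (a : G) = (QuotientGroup.mk' K) (b : G) := hab
      have h2 : (a : G)⁻¹ * b ∈ K := QuotientGroup.eq.mp h1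
      have h3 : (a : G)⁻¹ * b ∈ K ⊓ H := ⟨h2, H.mul_mem (H.inv_mem a.2) b.2⟩
      rw [hd, Subgroup.mem_bot] at h3
      apply Subtype.ext
      exact (inv_mul_eq_one.mp h3)
  constructor
  · obtain ⟨x₀⟩ := ‹Nonempty X›
    let S := MulAction.stabilizer G x₀
    have hKS : K ⊔ S = ⊤ := by
      rw [eq_top_iff]
      intro g _
      obtain ⟨k, hk⟩ := MulAction.exists_smul_eq K x₀ (g • x₀)
      have hk' : (k : G) • x₀ = g • x₀ := hk
      have h1 : (k : G)⁻¹ * g ∈ S := by
        rw [MulAction.mem_stabilizer_iff, mul_smul, inv_smul_eq_iff]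
        exact hk'.symm
      have h2 : g = k * ((k : G)⁻¹ * g) := by group
      rw [h2]
      exact Subgroup.mul_mem _ ((le_sup_left : K ≤ _) k.2) ((le_sup_right : S ≤ _) h1)
    let N' : Subgroup S := K.subgroupOf S
    haveI hN'n : N'.Normal := inferInstance
    have hidx : N'.index = K.index := by
      show K.relIndex S = K.index
      rw [← Subgroup.relIndex_sup_left S K, hKS, Subgroup.relIndex_top_right]
    have hcop' : (Nat.card N').Coprime N'.index := by
      rw [hidx]
      have h1 : Nat.card N' ∣ Nat.card K :=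
        Subgroup.card_dvd_of_le (H := (N'.map S.subtype)) (K := K) (by
          rintro _ ⟨y, hy, rfl⟩
          exact Subgroup.mem_subgroupOf.mp hy) |> fun h => by
            rwa [Subgroup.card_map_of_injective S.subtype_injective] at h
      exact hcop.coprime_dvd_left h1
    obtain ⟨H₁', hH₁'⟩ := Subgroup.exists_right_complement'_of_coprime hcop'
    let H₁ : Subgroup G := H₁'.map S.subtype
    have hc1 : Nat.card H₁ = Nat.card H := by
      rw [Subgroup.card_map_of_injective S.subtype_injective, ← hH₁'.symm.index_eq_card, hidx,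
        hc.symm.index_eq_card]
    obtain ⟨g, hg⟩ := Cfsg.Agent.Lib.SchurZ.sz_conj K H H₁ hsH hsup hcK hc1
    refine ⟨g⁻¹ • x₀, fun h hh => ?_⟩
    have h1 : g * h * g⁻¹ ∈ H₁ := by rw [← hg]; exact ⟨h, hh, rfl⟩
    have h2 : g * h * g⁻¹ ∈ S := by
      obtain ⟨y, -, hy⟩ := h1
      rw [← hy]; exact y.2
    have h3 : (g * h * g⁻¹) • x₀ = x₀ := h2
    calc h • (g⁻¹ • x₀) = g⁻¹ • ((g * h * g⁻¹) • x₀) := by simp [mul_smul]
      _ = g⁻¹ • x₀ := by rw [h3]
  · intro x y hx hy
    obtain ⟨k, hk⟩ := MulAction.exists_smul_eq K x y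
    have hk' : (k : G) • x = y := hk
    let S := MulAction.stabilizer G y
    let N := K ⊓ S
    have hHS : H ≤ S := fun h hh => hy h hh
    have hNn : H ≤ Subgroup.normalizer (N : Set G) := by
      intro a ha
      apply Cfsg.Agent.Lib.Commutators.mem_normalizer_of_conj_mem
      · rintro z ⟨hz1, hz2⟩
        exact ⟨hKn.conj_mem z hz1 a, S.mul_mem (S.mul_mem (hHS ha) hz2) (S.inv_mem (hHS ha))⟩
      · rintro z ⟨hz1, hz2⟩
        refine ⟨?_, S.mul_mem (S.mul_mem (S.inv_mem (hHS ha)) hz2) (hHS ha)⟩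
        simpa using hKn.conj_mem z hz1 a⁻¹
    have hcN : (Nat.card N).Coprime (Nat.card H) :=
      hcK.coprime_dvd_left (Subgroup.card_dvd_of_le inf_le_left)
    have hsN : Group.IsSolvable N ∨ Group.IsSolvable H := by
      rcases hsH with h | h
      · left
        exact Cfsg.Agent.Lib.SchurZ.isSolvable_of_le inf_le_left h
      · exact Or.inr h
    have hxN : ∀ a ∈ H, (k : G) * a * (k : G)⁻¹ ∈ N ⊔ H := by
      intro a ha
      have h1 : (k : G) * a * (k : G)⁻¹ ∈ S := by
        rw [MulAction.mem_stabilizer_iff]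
        have h2 : a • x = x := hx a ha
        calc ((k : G) * a * (k : G)⁻¹) • y = (k : G) • (a • ((k : G)⁻¹ • y)) := by simp [mul_smul]
          _ = (k : G) • (a • x) := by rw [← hk', inv_smul_smul]
          _ = y := by rw [h2, hk']
      have h3 : (k : G) * a * (k : G)⁻¹ = ((k : G) * (a * (k : G)⁻¹ * a⁻¹)) * a := by group
      rw [h3]
      refine Subgroup.mul_mem _ ((le_sup_left : N ≤ _) ⟨?_, ?_⟩) ((le_sup_right : H ≤ _) ha)
      · exact K.mul_mem k.2 (hKn.conj_mem _ (K.inv_mem k.2) a)
      · have h4 : (k : G) * (a * (k : G)⁻¹ * a⁻¹) = ((k : G) * a * (k : G)⁻¹) * a⁻¹ := by group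
        rw [h4]
        exact S.mul_mem h1 (S.inv_mem (hHS ha))
    obtain ⟨n, hn, hnk⟩ := Cfsg.Agent.Lib.SchurZ.exists_normalizing N H hNn (k : G) hxN hcN hsN
    have hdK : n * (k : G) ∈ K := K.mul_mem hn.1 k.2
    refine ⟨n * k, ⟨hdK, Cfsg.Agent.Lib.SchurZ.mem_centralizer_of_mem_normalizer hHK hd hdK hnk⟩, ?_⟩
    rw [mul_smul, hk']
    exact hn.2

end Cfsg.Agent.S0059
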