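import Cfsg.Statements.S0060
import Cfsg.Agent.Lib.FitCore
import Cfsg.Agent.Lib.H5Basic
import Cfsg.Agent.Lib.Commutators
import Cfsg.Agent.Lib.PIrreducible

set_option autoImplicit false
open Pointwise
open Cfsg

namespace Cfsg.Agent.S0060

/-- Brodkey's Theorem: in a finite group with abelian Sylow p-subgroups and no nontrivial normal p-subgroup, some conjugate of a Sylow p-subgroup meets it trivially. -/
theorem result {G : Type*} [Group G] [Finite G] (p : ℕ) [Fact p.Prime]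
    (S : Sylow p G) (hS : IsMulCommutative S) (hOp : Cfsg.pCore p G = ⊥) :
    ∃ g : G, (S : Subgroup G) ⊓ MulAut.conj g • (S : Subgroup G) = ⊥ := by
  classical
  have hcomm : ∀ (P : Sylow p G), ∀ a ∈ (P : Subgroup G), ∀ b ∈ (P : Subgroup G), a * b = b * a := by
    intro P a ha b hb
    obtain ⟨g, rfl⟩ := MulAction.exists_smul_eq G S P
    have ha' := Cfsg.Agent.Lib.H5Basic.mem_of_mem_smul_sylow S g a ha
    have hb' := Cfsg.Agent.Lib.H5Basic.mem_of_mem_smul_sylow S g b hb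
    have h1 := hS.is_comm.comm ⟨_, ha'⟩ ⟨_, hb'⟩
    have h2 : (g⁻¹ * a * g) * (g⁻¹ * b * g) = (g⁻¹ * b * g) * (g⁻¹ * a * g) := congrArg Subtype.val h1
    have h3 : g * ((g⁻¹ * a * g) * (g⁻¹ * b * g)) * g⁻¹ = g * ((g⁻¹ * b * g) * (g⁻¹ * a * g)) * g⁻¹ := by rw [h2]
    have e1 : g * ((g⁻¹ * a * g) * (g⁻¹ * b * g)) * g⁻¹ = a * b := by group
    have e2 : g * ((g⁻¹ * b * g) * (g⁻¹ * a * g)) * g⁻¹ = b * a := by group
    rwa [e1, e2] at h3
  obtain ⟨⟨P, Q⟩, hmin⟩ := Finite.exists_min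
    (fun (a : Sylow p G × Sylow p G) => Nat.card ((a.1 : Subgroup G) ⊓ (a.2 : Subgroup G) : Subgroup G))
  simp only [] at hmin
  let D : Subgroup G := (P : Subgroup G) ⊓ (Q : Subgroup G)
  by_cases hD : D = ⊥
  · obtain ⟨a, rfl⟩ := MulAction.exists_smul_eq G S P
    obtain ⟨b, rfl⟩ := MulAction.exists_smul_eq G S Q
    refine ⟨a⁻¹ * b, ?_⟩
    rw [eq_bot_iff]
    rintro x ⟨hx1, hx2⟩
    have hx2' : (a⁻¹ * b)⁻¹ * x * (a⁻¹ * b) ∈ (S : Subgroup G) := by
      have := (Subgroup.mem_pointwise_smul_iff_inv_smul_mem).mp hx2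
      simpa [MulAut.conj_apply, mul_assoc] using this
    have h1 : a * x * a⁻¹ ∈ D := by
      refine ⟨Cfsg.Agent.Lib.H5Basic.conj_mem_smul_sylow S a x hx1, ?_⟩
      have h2 := Cfsg.Agent.Lib.H5Basic.conj_mem_smul_sylow S b _ hx2'
      have e : b * ((a⁻¹ * b)⁻¹ * x * (a⁻¹ * b)) * b⁻¹ = a * x * a⁻¹ := by group
      rwa [e] at h2
    rw [hD, Subgroup.mem_bot] at h1
    rw [Subgroup.mem_bot]
    have h3 : x = a⁻¹ * (a * x * a⁻¹) * a := by group
    rw [h3, h1]; group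
  exfalso
  -- a Sylow subgroup not containing `D`
  have hR : ∃ R : Sylow p G, ¬ D ≤ (R : Subgroup G) := by
    by_contra hall
    push Not at hall
    apply hD
    rw [eq_bot_iff, ← hOp]
    intro x hx
    exact Cfsg.Agent.Lib.FitCore.mem_pCore_of_forall_sylow p x (fun R => hall R hx)
  obtain ⟨R, hR⟩ := hR
  let M : Subgroup G := Subgroup.normalizer (D : Set G)
  have hsubM : ∀ T : Sylow p G, D ≤ (T : Subgroup G) → (T : Subgroup G) ≤ M := by
    intro T hDT t ht
    apply Cfsg.Agent.Lib.Commutators.mem_normalizer_of_conj_mem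
    · intro y hy
      have : t * y * t⁻¹ = y := by rw [hcomm T t ht y (hDT hy)]; group
      rw [this]; exact hy
    · intro y hy
      have h5 : t⁻¹ * y * t = y := by
        have h6 := hcomm T t⁻¹ (Subgroup.inv_mem _ ht) y (hDT hy)
        rw [h6]; group
      rw [h5]; exact hy
  have hPM : (P : Subgroup G) ≤ M := hsubM P inf_le_left
  have hQM : (Q : Subgroup G) ≤ M := hsubM Q inf_le_right
  -- the Sylow `P` of `M` and a Sylow of `M` containing `R ⊓ M`
  let P' : Sylow p M := P.subtype (by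
    show (P : Subgroup G) ≤ M
    exact hPM)
  have hRp : IsPGroup p ((R : Subgroup G).subgroupOf M) :=
    Cfsg.Agent.Lib.PIrreducible.isPGroup_subgroupOf R.isPGroup' M
  obtain ⟨U, hU⟩ := hRp.exists_le_sylow
  obtain ⟨m, hm⟩ := MulAction.exists_smul_eq M P' U
  let Q' : Sylow p G := (m : G) • Q
  have hkey : (R : Subgroup G) ⊓ (Q' : Subgroup G) ≤ D ⊓ (R : Subgroup G) := by
    rintro x ⟨hxR, hxQ⟩
    have hy := Cfsg.Agent.Lib.H5Basic.mem_of_mem_smul_sylow Q (m : G) x hxQ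
    have hyM : (m : G)⁻¹ * x * m ∈ M := hQM hy
    have hxM : x ∈ M := by
      have e : x = (m : G) * ((m : G)⁻¹ * x * m) * (m : G)⁻¹ := by group
      rw [e]
      exact M.mul_mem (M.mul_mem m.2 hyM) (M.inv_mem m.2)
    have hxU : (⟨x, hxM⟩ : M) ∈ (U : Subgroup M) := hU (Subgroup.mem_subgroupOf.mpr hxR)
    rw [← hm] at hxU
    have hz := Cfsg.Agent.Lib.H5Basic.mem_of_mem_smul_sylow P' m _ hxU
    have hz' : (m : G)⁻¹ * x * m ∈ (P : Subgroup G) := by
      have := hz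
      rw [show (P' : Subgroup M) = (P : Subgroup G).subgroupOf M from rfl, Subgroup.mem_subgroupOf] at this
      exact this
    have hyD : (m : G)⁻¹ * x * m ∈ D := ⟨hz', hy⟩
    refine ⟨?_, hxR⟩
    have := Cfsg.Agent.Lib.Commutators.conj_mem_of_mem_normalizer m.2 hyD
    have e : (m : G) * ((m : G)⁻¹ * x * m) * (m : G)⁻¹ = x := by group
    rwa [e] at this
  have h1 := hmin (R, Q')
  simp only [] at h1
  have h2 : Nat.card ((R : Subgroup G) ⊓ (Q' : Subgroup G) : Subgroup G) ≤ Nat.card (D ⊓ (R : Subgroup G) : Subgroup G) :=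
    Subgroup.card_le_of_le hkey
  have h3 : D ⊓ (R : Subgroup G) = D := by
    apply Subgroup.eq_of_le_of_card_ge inf_le_left
    exact h1.trans h2
  exact hR (inf_eq_left.mp h3)

end Cfsg.Agent.S0060
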