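import Cfsg.Statements.S0063
import Mathlib

set_option autoImplicit false
open Cfsg

namespace Cfsg.Agent.S0063


universe u

theorem aux : ∀ (m : ℕ) (G : Type u) [Group G] [Finite G] (p : ℕ) [Fact p.Prime],
    Nat.card G = p ^ m → 1 < m → Group.nilpotencyClass G ≤ m - 1 := by
  intro m
  induction m using Nat.strong_induction_on with
  | _ m ih =>
  intro G _ _ p _ hG hm
  classical
  have hpG : IsPGroup p G := IsPGroup.of_card hG
  haveI : Group.IsNilpotent G := hpG.isNilpotent
  by_cases hcomm : ∀ a b : G, a * b = b * a
  · letI : CommGroup G := { (inferInstance : Group G) with mul_comm := hcomm }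
    have := CommGroup.nilpotencyClass_le_one (G := G)
    omega
  · haveI : Nontrivial G := by
      by_contra h
      rw [not_nontrivial_iff_subsingleton] at h
      exact hcomm (fun a b => Subsingleton.elim _ _)
    have hQp : IsPGroup p (G ⧸ Subgroup.center G) := hpG.to_quotient _
    obtain ⟨m', hm'⟩ := IsPGroup.iff_card.mp hQp
    have hlt : m' < m := by
      haveI := hpG.center_nontrivial
      have h1 : Nat.card (Subgroup.center G) * (Subgroup.center G).index = Nat.card G :=
        (Subgroup.center G).card_mul_index
      have h2 : 1 < Nat.card (Subgroup.center G) := Finite.one_lt_card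
      have h3 : Nat.card (G ⧸ Subgroup.center G) < Nat.card G := by
        have h4 : 0 < (Subgroup.center G).index := Nat.pos_of_ne_zero Subgroup.index_ne_zero_of_finite
        show (Subgroup.center G).index < _
        nlinarith
      rw [hm', hG] at h3
      exact (Nat.pow_lt_pow_iff_right (Fact.out : p.Prime).one_lt).mp h3
    have hge : 1 < m' := by
      by_contra h
      have hcyc : IsCyclic (G ⧸ Subgroup.center G) := by
        have : m' = 0 ∨ m' = 1 := by omega
        rcases this with rfl | rfl
        · rw [pow_zero] at hm'
          haveI : Subsingleton (G ⧸ Subgroup.center G) := (Nat.card_eq_one_iff_unique.mp hm').1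
          exact isCyclic_of_subsingleton
        · rw [pow_one] at hm'
          exact isCyclic_of_prime_card hm'
      exact hcomm (commutative_of_cyclic_center_quotient (QuotientGroup.mk' (Subgroup.center G))
        (by rw [QuotientGroup.ker_mk']))
    have h2 := ih m' hlt (G ⧸ Subgroup.center G) p hm' hge
    rw [nilpotencyClass_eq_quotient_center_plus_one]
    omega


/-- A finite group of prime-power order p ^ m with m > 1 is nilpotent of class at most m - 1. -/
theorem result {G : Type*} [Group G] [Finite G] (p m : ℕ) [Fact p.Prime]
    (hG : Nat.card G = p ^ m) (hm : 1 < m) : Group.nilpotencyClass G ≤ m - 1 := by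
  exact aux m G p hG hm

end Cfsg.Agent.S0063
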