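import Cfsg.Statements.S0064
import Cfsg.Agent.Lib.Wielandt

set_option autoImplicit false
open Cfsg

namespace Cfsg.Agent.S0064

/-- A finite group is nilpotent exactly when each of its subgroups is subnormal. -/
theorem result {G : Type*} [Group G] [Finite G] :
    Group.IsNilpotent G ↔ ∀ H : Subgroup G, H.IsSubnormal := by
  constructor
  · intro h H
    exact Cfsg.Agent.Lib.Wielandt.subnormal_of_nilpotent H
  · intro h
    have q := (Group.isNilpotent_of_finite_tfae (G := G)).out 0 1
    refine q.mpr ?_
    intro H hlt
    -- a proper subnormal subgroup lies properly in its normalizer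
    obtain hH | ⟨K, hHK, hK, hN⟩ := Subgroup.IsSubnormal.iff_eq_top_or_exists.mp (h H)
    · exact absurd hH (lt_top_iff_ne_top.mp hlt |> fun h' => h')
    · exact lt_of_lt_of_le hHK ((Subgroup.normal_subgroupOf_iff_le_normalizer hHK.le).mp hN)

end Cfsg.Agent.S0064
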