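import Cfsg.Statements.S0067
import Cfsg.Agent.Lib.Wielandt

set_option autoImplicit false
open Pointwise
open Cfsg

namespace Cfsg.Agent.S0067

/-- If the join of a subgroup A with each of its conjugates is nilpotent, then A is subnormal in the finite group and contained in the Fitting subgroup. -/
theorem result {G : Type*} [Group G] [Finite G] (A : Subgroup G)
    (h : ∀ g : G, Group.IsNilpotent (A ⊔ MulAut.conj g • A : Subgroup G)) : A.IsSubnormal ∧ A ≤ Cfsg.fittingSubgroup G := by
  have hA : A.IsSubnormal := by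
    apply Cfsg.Agent.Lib.Wielandt.isSubnormal_of_conj
    intro g
    haveI := h g
    exact Cfsg.Agent.Lib.Wielandt.subnormal_of_nilpotent (A.subgroupOf (A ⊔ MulAut.conj g • A))
  refine ⟨hA, Cfsg.Agent.Lib.Wielandt.le_fitting_of_subnormal _ G rfl A hA ?_⟩
  have h1 := h 1
  have h2 : A ≤ A ⊔ MulAut.conj (1 : G) • A := le_sup_left
  haveI := h1
  have e : A.subgroupOf (A ⊔ MulAut.conj (1 : G) • A) ≃* A := Subgroup.subgroupOfEquivOfLe h2
  exact nilpotent_of_surjective e.toMonoidHom e.surjective

end Cfsg.Agent.S0067
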