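import Cfsg.Statements.S0068
import Cfsg.Agent.Lib.Amalgam

set_option autoImplicit false
open Cfsg

namespace Cfsg.Agent.S0068

/-- Frobenius complements of even order: if H complements a nontrivial normal subgroup K, each nonidentity element of H has trivial centraliser in K, and H has even order, then H contains a unique involution s, K is abelian, and s inverts every element of K. -/
theorem result {G : Type*} [Group G] [Finite G] (K H : Subgroup G) [K.Normal]
    (hc : Subgroup.IsComplement' K H) (hK : K ≠ ⊥) (hfpf : ∀ h ∈ H, h ≠ 1 → K ⊓ Subgroup.centralizer {h} = ⊥)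
    (heven : 2 ∣ Nat.card H) :
    (∃ s ∈ H, orderOf s = 2 ∧ (∀ t ∈ H, orderOf t = 2 → t = s) ∧ ∀ k ∈ K, s * k * s⁻¹ = k⁻¹) ∧ IsMulCommutative K := by
  classical
  have hdisj : K ⊓ H = ⊥ := hc.disjoint.eq_bot
  have hinv : ∀ s ∈ H, orderOf s = 2 → ∀ k ∈ K, s * k * s⁻¹ = k⁻¹ := by
    intro s hsH hs
    have hs1 : s ≠ 1 := by
      rintro rfl
      rw [orderOf_one] at hs
      omega
    have hss : s * s = 1 := by rw [← pow_two, ← hs, pow_orderOf_eq_one]
    have hsinv : s⁻¹ = s := inv_eq_of_mul_eq_one_left hss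
    have hKn : K.Normal := inferInstance
    let f : K → K := fun k => ⟨(k : G)⁻¹ * (s * k * s⁻¹), K.mul_mem (K.inv_mem k.2) (hKn.conj_mem _ k.2 s)⟩
    have hinj : Function.Injective f := by
      intro k l h
      have h1 : (k : G)⁻¹ * (s * k * s⁻¹) = (l : G)⁻¹ * (s * l * s⁻¹) := congrArg Subtype.val h
      have h2 : ((l : G) * (k : G)⁻¹) * s = s * ((l : G) * (k : G)⁻¹) := by
        have h3 : (l : G) * ((k : G)⁻¹ * (s * k * s⁻¹)) * s * (k : G)⁻¹ = s * ((l : G) * (k : G)⁻¹) := by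
          rw [h1]; group
        rw [← h3]; group
      have h4 : (l : G) * (k : G)⁻¹ ∈ K ⊓ Subgroup.centralizer {s} := by
        refine ⟨K.mul_mem l.2 (K.inv_mem k.2), ?_⟩
        exact Subgroup.mem_centralizer_singleton_iff.mpr h2
      rw [hfpf s hsH hs1, Subgroup.mem_bot] at h4
      apply Subtype.ext
      exact (mul_inv_eq_one.mp h4).symm
    have hsurj := Finite.injective_iff_surjective.mp hinj
    intro k hk
    obtain ⟨j, hj⟩ := hsurj ⟨k, hk⟩
    have hj' : (j : G)⁻¹ * (s * j * s⁻¹) = k := congrArg Subtype.val hj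
    rw [← hj']
    calc s * ((j : G)⁻¹ * (s * j * s⁻¹)) * s⁻¹ = s * (j : G)⁻¹ * s * j * (s⁻¹ * s⁻¹) := by group
      _ = s * (j : G)⁻¹ * s * j := by rw [hsinv, hss, mul_one]
      _ = s * (j : G)⁻¹ * s⁻¹ * j := by rw [hsinv]
      _ = ((j : G)⁻¹ * (s * j * s⁻¹))⁻¹ := by group
  haveI hne : Nontrivial H := by
    haveI : Fact (Nat.Prime 2) := ⟨Nat.prime_two⟩
    obtain ⟨x, hx⟩ := exists_prime_orderOf_dvd_card' (G := H) 2 heven
    refine ⟨⟨x, 1, fun h => ?_⟩⟩
    rw [h, orderOf_one] at hx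
    omega
  haveI : Fact (Nat.Prime 2) := ⟨Nat.prime_two⟩
  obtain ⟨x, hx⟩ := exists_prime_orderOf_dvd_card' (G := H) 2 heven
  have hxG : orderOf (x : G) = 2 := by rw [Subgroup.orderOf_coe, hx]
  have hxi := hinv x x.2 hxG
  refine ⟨⟨x, x.2, hxG, ?_, hxi⟩, ?_⟩
  · intro t ht htG
    have hti := hinv t ht htG
    obtain ⟨k₀, hk₀, hk₀1⟩ := (Subgroup.bot_or_exists_ne_one K).resolve_left hK
    by_contra hne
    have hts : t * (x : G) ≠ 1 := by
      intro h
      apply hne
      have hxx : (x : G) * x = 1 := by rw [← pow_two, ← hxG, pow_orderOf_eq_one]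
      calc t = t * ((x : G) * x) := by rw [hxx, mul_one]
        _ = (t * x) * x := by group
        _ = x := by rw [h, one_mul]
    have h1 : k₀ ∈ K ⊓ Subgroup.centralizer {t * (x : G)} := by
      refine ⟨hk₀, ?_⟩
      refine Subgroup.mem_centralizer_singleton_iff.mpr ?_
      have h2 : (t * (x : G)) * k₀ * (t * (x : G))⁻¹ = k₀ := by
        calc (t * (x : G)) * k₀ * (t * (x : G))⁻¹ = t * ((x : G) * k₀ * (x : G)⁻¹) * t⁻¹ := by group
          _ = t * k₀⁻¹ * t⁻¹ := by rw [hxi k₀ hk₀]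
          _ = (t * k₀ * t⁻¹)⁻¹ := by group
          _ = k₀ := by rw [hti k₀ hk₀, inv_inv]
      calc k₀ * (t * (x : G)) = ((t * (x : G)) * k₀ * (t * (x : G))⁻¹) * (t * (x : G)) := by rw [h2]
        _ = (t * (x : G)) * k₀ := by group
    rw [hfpf _ (H.mul_mem ht x.2) hts, Subgroup.mem_bot] at h1
    exact hk₀1 h1
  · refine ⟨⟨fun a b => Subtype.ext ?_⟩⟩
    have hab := hxi ((a : G) * b) (K.mul_mem a.2 b.2)
    have h1 : (x : G) * ((a : G) * b) * (x : G)⁻¹ =
        ((x : G) * a * (x : G)⁻¹) * ((x : G) * b * (x : G)⁻¹) := by group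
    rw [h1, hxi a a.2, hxi b b.2, mul_inv_rev] at hab
    show (a : G) * b = b * a
    have h2 := congrArg (fun z => z⁻¹) hab
    simp only [mul_inv_rev, inv_inv] at h2
    exact h2.symm

end Cfsg.Agent.S0068
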