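import Cfsg.Statements.S0069
import Cfsg.Agent.Lib.FrobC
import Cfsg.Agent.Lib.StrongEmb2
import Cfsg.Agent.Lib.SchurZ2
import Cfsg.Agent.Lib.H5Basic
import Cfsg.Agent.S0016
import Cfsg.Agent.S0040
import Cfsg.Agent.S0041
import Cfsg.Agent.S0056
import Cfsg.Agent.S0068

set_option autoImplicit false
open Cfsg

namespace Cfsg.Agent.S0069


theorem isSolvable_of_prime_product {G : Type*} [Group G] [Finite G] (A N : Subgroup G) (hNA : N ≤ A)
    (hN : N ≤ Subgroup.normalizer (N : Set G)) (hAN : A ≤ Subgroup.normalizer (N : Set G))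
    (hNc : ∀ a ∈ N, ∀ b ∈ N, a * b = b * a) {p : ℕ} (hp : p.Prime)
    (hc : Nat.card A = Nat.card N * p) : Group.IsSolvable A := by
  classical
  let N' : Subgroup A := N.subgroupOf A
  haveI hn : N'.Normal := Subgroup.normal_subgroupOf_of_le_normalizer hAN
  have hc1 : Nat.card N' = Nat.card N := Nat.card_congr (Subgroup.subgroupOfEquivOfLe hNA).toEquiv
  have hc2 : Nat.card (A ⧸ N') = p := by
    have h := Subgroup.card_mul_index N'
    rw [hc1, hc] at h
    have hpos : 0 < Nat.card N := Nat.card_pos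
    exact Nat.eq_of_mul_eq_mul_left hpos h
  haveI : Fact p.Prime := ⟨hp⟩
  haveI : IsCyclic (A ⧸ N') := isCyclic_of_prime_card hc2
  haveI h1 : Group.IsSolvable (A ⧸ N') := isSolvable_of_comm (fun a b => by
    obtain ⟨g, hg⟩ := IsCyclic.exists_generator (α := A ⧸ N')
    obtain ⟨i, rfl⟩ := hg a
    obtain ⟨j, rfl⟩ := hg b
    exact ((Commute.refl g).zpow_zpow i j).eq)
  haveI h2 : Group.IsSolvable N' := isSolvable_of_comm (fun a b => by
    apply Subtype.ext
    apply Subtype.ext
    exact hNc _ (Subgroup.mem_subgroupOf.mp a.2) _ (Subgroup.mem_subgroupOf.mp b.2))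
  exact Group.isSolvable_of_ker_le_range N'.subtype (QuotientGroup.mk' N')
    (by rw [QuotientGroup.ker_mk', Subgroup.range_subtype])

/-- Lemma A: two elements of distinct prime orders in a Frobenius complement, with `x` normalizing
`⟨v⟩`, commute. -/
theorem commute_of_prime {G : Type*} [Group G] [Finite G] (K H : Subgroup G) [hKn : K.Normal]
    (hK : K ≠ ⊥) (hfpf : ∀ h ∈ H, h ≠ 1 → K ⊓ Subgroup.centralizer {h} = ⊥) (x v : G)
    (hxH : x ∈ H) (hvH : v ∈ H) {p r : ℕ} (hp : p.Prime) (hr : r.Prime) (hpr : p ≠ r)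
    (hxo : orderOf x = p) (hvo : orderOf v = r)
    (hxv : x ∈ Subgroup.normalizer ((Subgroup.zpowers v : Subgroup G) : Set G)) : x * v = v * x := by
  classical
  have hHK : H ≤ Subgroup.normalizer (K : Set G) :=
    le_top.trans (Subgroup.normalizer_eq_top_iff.mpr hKn).ge
  let N := Subgroup.zpowers v
  let T := Subgroup.zpowers x
  let A := N ⊔ T
  have hNc : Nat.card N = r := by rw [Nat.card_zpowers, hvo]
  have hTc : Nat.card T = p := by rw [Nat.card_zpowers, hxo]
  have hTN : T ≤ Subgroup.normalizer (N : Set G) := Subgroup.zpowers_le.mpr hxv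
  have hdisj : N ⊓ T = ⊥ := Cfsg.Agent.Lib.SchurZ.inf_eq_bot_of_coprime (by
    rw [hNc, hTc]; exact (Nat.coprime_primes hr hp).mpr hpr.symm)
  have hAc : Nat.card A = r * p := by
    have h := Cfsg.Agent.Lib.SchurZ2.card_sup_mul_card_inf N T hTN
    rw [hdisj, Subgroup.card_bot, mul_one, hNc, hTc] at h
    exact h
  have hAH : A ≤ H := sup_le (Subgroup.zpowers_le.mpr hvH) (Subgroup.zpowers_le.mpr hxH)
  have hcop : (Nat.card A).Coprime (Nat.card K) :=
    Nat.Coprime.coprime_dvd_left (Subgroup.card_dvd_of_le hAH)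
      (Cfsg.Agent.Lib.FrobC.coprime_of_fpf H K hHK hfpf)
  have hAN : A ≤ Subgroup.normalizer (N : Set G) := sup_le Subgroup.le_normalizer hTN
  have hsA : Group.IsSolvable A := isSolvable_of_prime_product A N le_sup_left Subgroup.le_normalizer
    hAN (fun a ha b hb => by
      obtain ⟨i, rfl⟩ := ha
      obtain ⟨j, rfl⟩ := hb
      exact ((Commute.refl v).zpow_zpow i j).eq) hp (by rw [hAc, hNc])
  have hKc : Nat.card K ≠ 1 := by
    intro h
    apply hK
    exact (Subgroup.eq_bot_iff_card K).mpr h
  obtain ⟨t, ht, htd⟩ := Nat.exists_prime_and_dvd hKc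
  haveI : Fact t.Prime := ⟨ht⟩
  obtain ⟨Y, hY⟩ := Cfsg.Agent.Lib.SchurZ2.exists_invariant_sylow A K (hAH.trans hHK) hcop.symm
    (Or.inr hsA) t
  let S : Subgroup G := (Y : Subgroup K).map K.subtype
  have hSK : S ≤ K := by
    rintro _ ⟨a, _, rfl⟩
    exact a.2
  have hSp : IsPGroup t S := Y.isPGroup'.map K.subtype
  have hS1 : S ≠ ⊥ := by
    intro e
    have h1 : (Y : Subgroup K) = ⊥ := by
      rw [eq_bot_iff]
      intro a ha
      have h2 : (a : G) ∈ S := ⟨a, ha, rfl⟩
      rw [e] at h2
      exact Subgroup.mem_bot.mpr (Subtype.ext (Subgroup.mem_bot.mp h2))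
    exact Y.ne_bot_of_dvd_card htd h1
  obtain ⟨c, hcS, hc1, hcc⟩ := Cfsg.Agent.Lib.TraceFix.exists_fixed_of_normalizes hSp hSp
    Subgroup.le_normalizer hS1
  let V : Subgroup G := S ⊓ Subgroup.centralizer (S : Set G)
  haveI hVc : IsMulCommutative V := ⟨⟨fun a b => by
    apply Subtype.ext
    have h1 := Subgroup.mem_inf.mp a.2
    have h2 := Subgroup.mem_inf.mp b.2
    exact ((Subgroup.mem_centralizer_iff.mp h2.2) a h1.1)⟩⟩
  have hV : V ≠ ⊥ := by
    intro e
    have : c ∈ V := Subgroup.mem_inf.mpr ⟨hcS, hcc⟩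
    rw [e] at this
    exact hc1 (Subgroup.mem_bot.mp this)
  have hAV : A ≤ Subgroup.normalizer (V : Set G) := by
    intro a ha
    have h1 := Subgroup.mem_normalizer_iff.mp (hY ha)
    have h2 := Subgroup.mem_normalizer_iff.mp
      (Cfsg.Agent.Lib.PReduced.normalizer_le_normalizer_centralizer S (hY ha))
    refine Subgroup.mem_normalizer_iff.mpr fun y => ?_
    show y ∈ S ⊓ Subgroup.centralizer (S : Set G) ↔ a * y * a⁻¹ ∈ S ⊓ Subgroup.centralizer (S : Set G)
    rw [Subgroup.mem_inf, Subgroup.mem_inf]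
    exact and_congr (h1 y) (h2 y)
  have hfpf' : ∀ a ∈ A, a ≠ 1 → V ⊓ Subgroup.centralizer {a} = ⊥ := by
    intro a ha ha1
    rw [eq_bot_iff, ← hfpf a (hAH ha) ha1]
    exact inf_le_inf_right _ (inf_le_left.trans hSK)
  have hcy := Cfsg.Agent.S0041.result A V hV hAV hfpf' (Or.inr ⟨r, p, hr, hp, hAc⟩)
  have hxA : x ∈ A := (le_sup_right : T ≤ A) (Subgroup.mem_zpowers x)
  have hvA : v ∈ A := (le_sup_left : N ≤ A) (Subgroup.mem_zpowers v)
  obtain ⟨g, hg⟩ := IsCyclic.exists_generator (α := A)
  obtain ⟨i, hi⟩ := hg ⟨x, hxA⟩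
  obtain ⟨j, hj⟩ := hg ⟨v, hvA⟩
  have hi' : (g : G) ^ i = x := congrArg Subtype.val hi
  have hj' : (g : G) ^ j = v := congrArg Subtype.val hj
  rw [← hi', ← hj']
  exact ((Commute.refl (g : G)).zpow_zpow i j).eq

/-- Lemma B. -/
theorem centralizes_cyclic {G : Type*} [Group G] [Finite G] (K H : Subgroup G) [hKn : K.Normal]
    (hK : K ≠ ⊥) (hfpf : ∀ h ∈ H, h ≠ 1 → K ⊓ Subgroup.centralizer {h} = ⊥) (R : Subgroup G)
    (hRH : R ≤ H) (hRc : IsCyclic R) (x : G) (hxH : x ∈ H) {p : ℕ} (hp : p.Prime)
    (hxo : orderOf x = p) (hxR : x ∈ Subgroup.normalizer (R : Set G))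
    (hcop : p.Coprime (Nat.card R)) : ∀ y ∈ R, x * y = y * x := by
  classical
  haveI hRm : IsMulCommutative R := ⟨⟨fun a b => by
    obtain ⟨g, hg⟩ := IsCyclic.exists_generator (α := R)
    obtain ⟨i, rfl⟩ := hg a
    obtain ⟨j, rfl⟩ := hg b
    exact ((Commute.refl g).zpow_zpow i j).eq⟩⟩
  have h1 : Subgroup.zpowers x ≤ Subgroup.centralizer (R : Set G) := by
    refine Cfsg.Agent.S0056.result (Subgroup.zpowers x) R (Subgroup.zpowers_le.mpr hxR)
      (by rw [Nat.card_zpowers, hxo]; exact hcop) ?_
    intro v hvR hvp a ha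
    have hr := hvp
    haveI : Fact (orderOf v).Prime := ⟨hr⟩
    -- `x v x⁻¹` lies in `⟨v⟩`
    have hxvR : x * v * x⁻¹ ∈ R := (Subgroup.mem_normalizer_iff.mp hxR v).mp hvR
    have hmem : (⟨x * v * x⁻¹, hxvR⟩ : R) ∈ Subgroup.zpowers (⟨v, hvR⟩ : R) := by
      refine Cfsg.Agent.Lib.StrongEmb.mem_zpowers_of_cyclic (p := orderOf v) ?_ ?_ ?_
      · exact Subtype.ext (by simpa using pow_orderOf_eq_one v)
      · intro e
        have : v = 1 := congrArg Subtype.val e
        rw [this, orderOf_one] at hr
        exact Nat.not_prime_one hr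
      · apply Subtype.ext
        simp only [Subgroup.coe_pow, OneMemClass.coe_one]
        rw [conj_pow, pow_orderOf_eq_one]
        group
    have hmem' : x * v * x⁻¹ ∈ Subgroup.zpowers v := by
      obtain ⟨k, hk⟩ := hmem
      refine ⟨k, ?_⟩
      have := congrArg Subtype.val hk
      simpa using this
    have hnorm : x ∈ Subgroup.normalizer ((Subgroup.zpowers v : Subgroup G) : Set G) := by
      refine Cfsg.Agent.Lib.H5Basic.mem_normalizer_of_map_conj_le ?_
      rw [MonoidHom.map_zpowers]
      exact Subgroup.zpowers_le.mpr hmem'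
    have hrd : orderOf v ∣ Nat.card R := by
      have := orderOf_dvd_natCard (⟨v, hvR⟩ : R)
      rwa [Subgroup.orderOf_mk] at this
    have hpr : p ≠ orderOf v := by
      intro e
      have h2 : p ∣ Nat.card R := e ▸ hrd
      have := Nat.Coprime.eq_one_of_dvd hcop h2
      exact hp.ne_one this
    have hcomm := commute_of_prime K H hK hfpf x v hxH (hRH hvR) hp hr hpr hxo rfl hnorm
    obtain ⟨i, rfl⟩ := ha
    exact (Commute.zpow_left (show Commute x v from hcomm) i).eq
  intro y hy
  exact ((Subgroup.mem_centralizer_iff.mp (h1 (Subgroup.mem_zpowers x))) y hy).symm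


/-- A Frobenius complement has nontrivial centre: if H ≠ 1 complements a nontrivial normal subgroup K and every nonidentity element of H has trivial centraliser in K, then the centre of H is nontrivial. -/
theorem result {G : Type*} [Group G] [Finite G] (K H : Subgroup G) [K.Normal]
    (hc : Subgroup.IsComplement' K H) (hK : K ≠ ⊥) (hH : H ≠ ⊥) (hfpf : ∀ h ∈ H, h ≠ 1 → K ⊓ Subgroup.centralizer {h} = ⊥) :
    Subgroup.center H ≠ ⊥ := by
  classical
  have hHK : H ≤ Subgroup.normalizer (K : Set G) := le_top.trans (Subgroup.normalizer_eq_top_iff.mpr ‹K.Normal›).ge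
  by_cases heven : 2 ∣ Nat.card H
  · obtain ⟨⟨s, hsH, hso, huniq, -⟩, -⟩ := Cfsg.Agent.S0068.result K H hc hK hfpf heven
    have hs1 : s ≠ 1 := by
      rintro rfl
      rw [orderOf_one] at hso
      omega
    intro e
    have hsz : (⟨s, hsH⟩ : H) ∈ Subgroup.center H := by
      rw [Subgroup.mem_center_iff]
      intro h
      apply Subtype.ext
      show (h : G) * s = s * h
      have h1 : orderOf ((h : G) * s * (h : G)⁻¹) = 2 := by rw [← MulAut.conj_apply, MulEquiv.orderOf_eq]; exact hso
      have h2 := huniq _ (H.mul_mem (H.mul_mem h.2 hsH) (H.inv_mem h.2)) h1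
      calc (h : G) * s = ((h : G) * s * (h : G)⁻¹) * h := by group
        _ = s * h := by rw [h2]
    rw [e] at hsz
    exact hs1 (congrArg Subtype.val (Subgroup.mem_bot.mp hsz))
  · -- odd order
    have hcardH : Nat.card H ≠ 1 := by
      intro h
      exact hH ((Subgroup.eq_bot_iff_card H).mpr h)
    set p := (Nat.card H).minFac with hpdef
    have hp : p.Prime := Nat.minFac_prime hcardH
    haveI : Fact p.Prime := ⟨hp⟩
    have hpd : p ∣ Nat.card H := Nat.minFac_dvd _
    -- `r`-subgroups are cyclic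
    have hcyc : ∀ (r : ℕ) [Fact r.Prime] (Y : Subgroup H), IsPGroup r Y → IsCyclic Y := by
      intro r _ Y hY
      obtain ⟨Q, hQ⟩ := hY.exists_le_sylow
      have hQc : IsCyclic Q := by
        rcases Cfsg.Agent.S0040.result K H hc hK hfpf r Q with h | ⟨n, ⟨e⟩⟩
        · exact h
        · exfalso
          apply heven
          have h1 : Nat.card Q = Nat.card (QuaternionGroup (2 ^ n)) := Nat.card_congr e.toEquiv
          have h2 : Nat.card (QuaternionGroup (2 ^ n)) = 4 * 2 ^ n := by
            rw [Nat.card_eq_fintype_card, QuaternionGroup.card]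
          have h3 : Nat.card Q ∣ Nat.card H := Subgroup.card_subgroup_dvd_card _
          rw [h1, h2] at h3
          exact (Dvd.intro_left (2 * 2 ^ n) (by ring)).trans h3
      haveI hQc' : IsCyclic (Q : Subgroup H) := hQc
      haveI h5 : IsCyclic (Y.subgroupOf (Q : Subgroup H)) := Subgroup.isCyclic _
      exact isCyclic_of_surjective _ (Subgroup.subgroupOfEquivOfLe hQ).surjective
    obtain ⟨P⟩ : Nonempty (Sylow p H) := inferInstance
    have hPc : IsCyclic P := hcyc p (P : Subgroup H) P.isPGroup'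
    have hcompl := IsCyclic.isComplement' (G := H) (p := p) (P := P) rfl hPc
    set L : Subgroup H := (MonoidHom.transferSylow P (hPc.normalizer_le_centralizer rfl)).ker with hL
    have hLn : L.Normal := by rw [hL]; exact MonoidHom.normal_ker _
    have hLc : Nat.card L = (P : Subgroup H).index := hcompl.index_eq_card.symm
    have hpL : ¬ p ∣ Nat.card L := by
      rw [hLc]; exact P.not_dvd_index
    -- an element `x` of order `p`
    have hpP : p ∣ Nat.card P := P.dvd_card_of_dvd_card hpd
    obtain ⟨x₀, hx₀⟩ := exists_prime_orderOf_dvd_card' p hpP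
    let x : H := x₀
    have hxP : x ∈ (P : Subgroup H) := x₀.2
    have hxo : orderOf x = p := (Subgroup.orderOf_coe x₀).trans hx₀
    have hxo' : orderOf (x : G) = p := (Subgroup.orderOf_coe x).trans hxo
    have hx1 : x ≠ 1 := by
      intro e
      rw [e, orderOf_one] at hxo
      exact hp.ne_one hxo.symm
    -- `x` centralizes `L`
    let C : Subgroup H := Subgroup.centralizer {x}
    have hLC : L ≤ C := by
      have hidx : (C.subgroupOf L).index = 1 := by
        by_contra hne
        obtain ⟨r, hr, hrd⟩ := Nat.exists_prime_and_dvd hne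
        haveI : Fact r.Prime := ⟨hr⟩
        have hrL : r ∣ Nat.card L := hrd.trans (Subgroup.index_dvd_card _)
        have hrp : r ≠ p := by
          rintro rfl
          exact hpL hrL
        have hAL : Subgroup.zpowers x ≤ Subgroup.normalizer (L : Set H) :=
          le_top.trans (Subgroup.normalizer_eq_top_iff.mpr hLn).ge
        have hcop : Nat.Coprime (Nat.card L) (Nat.card (Subgroup.zpowers x)) := by
          rw [Nat.card_zpowers, hxo]
          exact ((Nat.Prime.coprime_iff_not_dvd hp).mpr hpL).symm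
        have hsol : Group.IsSolvable (Subgroup.zpowers x) := isSolvable_of_comm (fun a b => by
          obtain ⟨i, hi⟩ := a.2
          obtain ⟨j, hj⟩ := b.2
          apply Subtype.ext
          rw [Subgroup.coe_mul, Subgroup.coe_mul, ← hi, ← hj]
          exact ((Commute.refl x).zpow_zpow i j).eq)
        obtain ⟨Y, hY⟩ := Cfsg.Agent.Lib.SchurZ2.exists_invariant_sylow (Subgroup.zpowers x) L hAL hcop
          (Or.inr hsol) r
        let Y' : Subgroup H := (Y : Subgroup L).map L.subtype
        have hY'p : IsPGroup r Y' := Y.isPGroup'.map L.subtype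
        have hY'c : IsCyclic Y' := hcyc r Y' hY'p
        let R : Subgroup G := Y'.map H.subtype
        have hRc : IsCyclic R := by
          have e : Y' ≃* R := Y'.equivMapOfInjective H.subtype H.subtype_injective
          exact isCyclic_of_surjective _ e.surjective
        have hRp : IsPGroup r R := hY'p.map H.subtype
        have hRH : R ≤ H := by
          rintro _ ⟨a, _, rfl⟩
          exact a.2
        have hxR : (x : G) ∈ Subgroup.normalizer (R : Set G) := by
          have h1 := Subgroup.mem_normalizer_iff.mp (hY (Subgroup.mem_zpowers x))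
          refine Subgroup.mem_normalizer_iff.mpr fun y => ?_
          constructor
          · rintro ⟨a, ha, rfl⟩
            exact ⟨x * a * x⁻¹, (h1 a).mp ha, rfl⟩
          · rintro ⟨a, ha, hae⟩
            have h2 : a = x * ⟨y, by
              have : y = (x : G)⁻¹ * a * x := by
                have hae' : (a : G) = x * y * (x : G)⁻¹ := hae
                rw [hae']; group
              rw [this]
              exact H.mul_mem (H.mul_mem (H.inv_mem x.2) a.2) x.2⟩ * x⁻¹ := Subtype.ext hae
            refine ⟨⟨y, _⟩, (h1 _).mpr (h2 ▸ ha), rfl⟩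
        have hcopR : p.Coprime (Nat.card R) := by
          obtain ⟨k, hk⟩ := IsPGroup.iff_card.mp hRp
          rw [hk]
          exact Nat.Coprime.pow_right _ ((Nat.coprime_primes hp hr).mpr hrp.symm)
        have hcomm := centralizes_cyclic K H hK hfpf R hRH hRc (x : G) x.2 hp hxo' hxR hcopR
        have hYC : (Y : Subgroup L) ≤ C.subgroupOf L := by
          intro a ha
          rw [Subgroup.mem_subgroupOf, Subgroup.mem_centralizer_singleton_iff]
          apply Subtype.ext
          have h3 := hcomm (((a : L) : H) : G) ⟨_, ⟨a, ha, rfl⟩, rfl⟩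
          exact h3.symm
        have h4 : (C.subgroupOf L).index ∣ (Y : Subgroup L).index := Subgroup.index_dvd_of_le hYC
        exact Y.not_dvd_index (hrd.trans h4)
      exact Subgroup.relIndex_eq_one.mp hidx
    -- conclusion
    intro e
    have hxz : x ∈ Subgroup.center H := by
      rw [Subgroup.mem_center_iff]
      intro h
      obtain ⟨⟨l, q⟩, rfl⟩ := hcompl.2 h
      have h1 : x * (l : H) = (l : H) * x := ((Subgroup.mem_centralizer_singleton_iff.mp (hLC l.2))).symm
      have hPcomm : x * (q : H) = (q : H) * x := by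
        obtain ⟨g, hg⟩ := IsCyclic.exists_generator (α := P)
        obtain ⟨i, hi⟩ := hg x₀
        obtain ⟨j, hj⟩ := hg q
        have hi' : ((g : H)) ^ i = x := congrArg Subtype.val hi
        have hj' : ((g : H)) ^ j = q := congrArg Subtype.val hj
        rw [← hi', ← hj']
        exact ((Commute.refl (g : H)).zpow_zpow i j).eq
      show ((l : H) * (q : H)) * x = x * ((l : H) * (q : H))
      rw [mul_assoc, ← hPcomm, ← mul_assoc, ← h1, mul_assoc]
    rw [e] at hxz
    exact hx1 (Subgroup.mem_bot.mp hxz)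

end Cfsg.Agent.S0069
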