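import Cfsg.Statements.S0070
import Cfsg.Agent.Lib.FitCore
import Cfsg.Agent.Lib.PIrreducible

set_option autoImplicit false
open Cfsg

namespace Cfsg.Agent.S0070

/-- The Fitting subgroup commutes with passing to the Frattini quotient: the Fitting subgroup of G modulo its Frattini subgroup is the image of the Fitting subgroup of G. -/
theorem result {G : Type*} [Group G] [Finite G] :
    Cfsg.fittingSubgroup (G ⧸ frattini G) = (Cfsg.fittingSubgroup G).map (QuotientGroup.mk' (frattini G)) := by
  classical
  let Φ := frattini G
  let π := QuotientGroup.mk' Φ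
  have hπs : Function.Surjective π := QuotientGroup.mk'_surjective Φ
  have hker : π.ker = Φ := QuotientGroup.ker_mk' Φ
  haveI hFn : (Cfsg.fittingSubgroup G).Normal := Cfsg.Agent.Lib.FitCore.fitting_normal
  apply le_antisymm
  swap
  · apply Cfsg.Agent.Lib.FitCore.le_fitting _ (Subgroup.Normal.map hFn π hπs)
    haveI := Cfsg.Agent.Lib.FitCore.fitting_isNilpotent (G := G)
    exact nilpotent_of_surjective (π.subgroupMap (Cfsg.fittingSubgroup G))
      (π.subgroupMap_surjective (Cfsg.fittingSubgroup G))
  · let F' := Cfsg.fittingSubgroup (G ⧸ Φ)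
    let L := F'.comap π
    haveI hF'n : F'.Normal := Cfsg.Agent.Lib.FitCore.fitting_normal
    haveI hF'nil : Group.IsNilpotent F' := Cfsg.Agent.Lib.FitCore.fitting_isNilpotent
    haveI hLn : L.Normal := Subgroup.Normal.comap hF'n π
    have hL : Group.IsNilpotent L := by
      have q := (Group.isNilpotent_of_finite_tfae (G := L)).out 0 3
      refine q.mpr ?_
      intro p hp P
      let φ : L →* F' := π.subgroupComap F'
      have hφs : Function.Surjective φ := π.subgroupComap_surjective_of_surjective F' hπs
      let P' : Sylow p F' := P.mapSurjective hφs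
      have q2 := (Group.isNilpotent_of_finite_tfae (G := F')).out 0 3
      have hP'n : (P' : Subgroup F').Normal := q2.mp hF'nil p hp P'
      haveI hP'c : (P' : Subgroup F').Characteristic := Sylow.characteristic_of_normal P' hP'n
      let T : Subgroup (G ⧸ Φ) := (P' : Subgroup F').map F'.subtype
      haveI hTn : T.Normal := Cfsg.Agent.Lib.FitCore.map_subtype_normal_of_char F' (P' : Subgroup F')
      let P₀ : Subgroup G := (P : Subgroup L).map L.subtype
      have hT : T = P₀.map π := by
        show (((P : Subgroup L).map φ)).map F'.subtype = ((P : Subgroup L).map L.subtype).map π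
        rw [Subgroup.map_map, Subgroup.map_map]
        rfl
      let X : Subgroup G := T.comap π
      haveI hXn : X.Normal := Subgroup.Normal.comap hTn π
      have hX : X = P₀ ⊔ Φ := by
        show T.comap π = _
        rw [hT, Subgroup.comap_map_eq, hker]
      have hXL : X ≤ L := by
        apply Subgroup.comap_mono
        rintro _ ⟨x, -, rfl⟩
        exact x.2
      have hP₀X : P₀ ≤ X := by rw [hX]; exact le_sup_left
      have hP₀p : IsPGroup p P₀ := P.isPGroup'.map _
      have hP₀Xp : IsPGroup p (P₀.subgroupOf X) := Cfsg.Agent.Lib.PIrreducible.isPGroup_subgroupOf hP₀p X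
      obtain ⟨Y, hY⟩ := hP₀Xp.exists_le_sylow
      have hY' : (Y : Subgroup X).map X.subtype = P₀ := by
        have hle : P₀ ≤ (Y : Subgroup X).map X.subtype := by
          intro x hx
          exact ⟨⟨x, hP₀X hx⟩, hY (Subgroup.mem_subgroupOf.mpr hx), rfl⟩
        have hpY : IsPGroup p ((Y : Subgroup X).map X.subtype : Subgroup G) := Y.isPGroup'.map _
        have hpY2 : IsPGroup p (((Y : Subgroup X).map X.subtype).subgroupOf L) :=
          Cfsg.Agent.Lib.PIrreducible.isPGroup_subgroupOf hpY L
        have hPle : (P : Subgroup L) ≤ ((Y : Subgroup X).map X.subtype).subgroupOf L := by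
          intro x hx
          exact Subgroup.mem_subgroupOf.mpr (hle ⟨x, hx, rfl⟩)
        have heq := P.is_maximal' hpY2 hPle
        apply le_antisymm _ hle
        rintro _ ⟨y, hy, rfl⟩
        have hyL : (y : G) ∈ L := hXL y.2
        have h1 : (⟨y, hyL⟩ : L) ∈ (P : Subgroup L) := by
          rw [← heq]
          exact Subgroup.mem_subgroupOf.mpr ⟨y, hy, rfl⟩
        exact ⟨_, h1, rfl⟩
      have h1 := Sylow.normalizer_sup_eq_top Y
      have h2 : Subgroup.normalizer (P₀ : Set G) ⊔ Φ = ⊤ := by
        rw [eq_top_iff, ← h1]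
        have h1a : ((Y : Subgroup X).map X.subtype : Subgroup G) = P₀ := hY'
        refine sup_le ?_ ?_
        · show Subgroup.normalizer (((Y : Subgroup X).map X.subtype : Subgroup G) : Set G) ≤ _
          rw [h1a]; exact le_sup_left
        · rw [hX]
          exact sup_le (Subgroup.le_normalizer.trans le_sup_left) le_sup_right
      have h3 := frattini_nongenerating h2
      have h4 : P₀.Normal := Subgroup.normalizer_eq_top_iff.mp h3
      refine ⟨fun x hx g => ?_⟩
      have h5 : ((g : L) : G) * x * ((g : L) : G)⁻¹ ∈ P₀ := h4.conj_mem x ⟨x, hx, rfl⟩ g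
      obtain ⟨y, hy, hye⟩ := h5
      have : y = g * x * g⁻¹ := Subtype.ext hye
      rwa [← this]
    have hLF : L ≤ Cfsg.fittingSubgroup G := Cfsg.Agent.Lib.FitCore.le_fitting L hLn hL
    have h5 : F' = L.map π := (Subgroup.map_comap_eq_self_of_surjective hπs F').symm
    show F' ≤ _
    rw [h5]
    exact Subgroup.map_mono hLF

end Cfsg.Agent.S0070
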