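import Cfsg.Statements.S0073
import Cfsg.Agent.Lib.ConjCount

set_option autoImplicit false
open Cfsg

namespace Cfsg.Agent.S0073

/-- For a finite non-abelian simple group, either the cube of the least prime divisor of the order divides the order, or 12 does. -/
theorem result {G : Type*} [Group G] [Finite G] [IsSimpleGroup G] (hG : ∃ x y : G, x * y ≠ y * x) : (Nat.card G).minFac ^ 3 ∣ Nat.card G ∨ 12 ∣ Nat.card G := by
  classical
  by_contra hcon
  push_neg at hcon
  obtain ⟨h3, h12⟩ := hcon
  have hne : Nat.card G ≠ 1 := by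
    intro h
    haveI := (Nat.card_eq_one_iff_unique.mp h).1
    obtain ⟨x, y, hxy⟩ := hG
    exact hxy (Subsingleton.elim _ _)
  set p := (Nat.card G).minFac with hpdef
  have hp : p.Prime := Nat.minFac_prime hne
  haveI : Fact p.Prime := ⟨hp⟩
  have hpn : p ∣ Nat.card G := Nat.minFac_dvd _
  obtain ⟨P⟩ : Nonempty (Sylow p G) := inferInstance
  obtain ⟨a, ha⟩ := IsPGroup.iff_card.mp P.isPGroup'
  have ha0 : a ≠ 0 := by
    rintro rfl
    have h1 := P.dvd_card_of_dvd_card hpn
    rw [ha, pow_zero] at h1
    exact hp.one_lt.ne' (Nat.dvd_one.mp h1)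
  have hPn : Nat.card (P : Subgroup G) ∣ Nat.card G := Subgroup.card_subgroup_dvd_card _
  have ha2 : a ≤ 2 := by
    by_contra hlt
    apply h3
    refine (pow_dvd_pow p (by omega : 3 ≤ a)).trans ?_
    rw [← ha]
    exact hPn
  have hcomm : ∀ (X : Type _) [Group X], Nat.card X = p ^ a → ∀ x y : X, x * y = y * x := by
    intro X _ hX
    haveI : Finite X := Nat.finite_of_card_ne_zero (by rw [hX]; exact pow_ne_zero _ hp.ne_zero)
    have h1 : a = 1 ∨ a = 2 := by omega
    rcases h1 with rfl | rfl
    · rw [pow_one] at hX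
      haveI : IsCyclic X := isCyclic_of_prime_card hX
      intro x y
      obtain ⟨g, hg⟩ := IsCyclic.exists_generator (α := X)
      obtain ⟨i, rfl⟩ := hg x
      obtain ⟨j, rfl⟩ := hg y
      exact ((Commute.refl g).zpow_zpow i j).eq
    · exact IsPGroup.commutative_of_card_eq_prime_sq hX
  have hPab := hcomm (P : Subgroup G) ha
  have hPC : (P : Subgroup G) ≤ Subgroup.centralizer ((P : Subgroup G) : Set G) := by
    intro x hx
    rw [Subgroup.mem_centralizer_iff]
    intro y hy
    exact congrArg Subtype.val (hPab ⟨y, hy⟩ ⟨x, hx⟩)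
  have hN : Subgroup.normalizer ((P : Subgroup G) : Set G) ≤ Subgroup.centralizer ((P : Subgroup G) : Set G) := by
    intro g hg
    by_contra hgC
    obtain ⟨z, hz, hzC, q, k, hq, hzo⟩ := Cfsg.Agent.Lib.ConjCount.exists_primary_not_mem _ _ g rfl hgC
    have hzN : z ∈ Subgroup.normalizer ((P : Subgroup G) : Set G) := (Subgroup.zpowers_le.mpr hg) hz
    have hk0 : k ≠ 0 := by
      rintro rfl
      rw [pow_zero] at hzo
      apply hzC
      rw [orderOf_eq_one_iff.mp hzo]
      exact Subgroup.one_mem _
    haveI : Fact q.Prime := ⟨hq⟩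
    let T : Subgroup G := Subgroup.zpowers z
    have hT : IsPGroup q T := by
      apply IsPGroup.of_card (n := k)
      rw [Nat.card_zpowers, hzo]
    have hTN : T ≤ Subgroup.normalizer ((P : Subgroup G) : Set G) := Subgroup.zpowers_le.mpr hzN
    have hqp : q ≠ p := by
      intro e
      have hT' : IsPGroup p T := e ▸ hT
      have hs : IsPGroup p ((P : Subgroup G) ⊔ T : Subgroup G) :=
        IsPGroup.to_sup_of_normal_left' P.isPGroup' hT' hTN
      have h1 := P.is_maximal' hs le_sup_left
      apply hzC
      apply hPC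
      have : z ∈ ((P : Subgroup G) ⊔ T : Subgroup G) := (le_sup_right : T ≤ _) (Subgroup.mem_zpowers z)
      rwa [h1] at this
    have hqn : q ∣ Nat.card G := by
      refine Dvd.dvd.trans ?_ (orderOf_dvd_natCard z)
      rw [hzo]
      exact dvd_pow_self q hk0
    have hpq : p < q := lt_of_le_of_ne (Nat.minFac_le_of_dvd hq.two_le hqn) (Ne.symm hqp)
    have hmod := Cfsg.Agent.Lib.ConjCount.card_modEq_fixed T (P : Subgroup G) hT hTN
    set F : Subgroup G := (P : Subgroup G) ⊓ Subgroup.centralizer (T : Set G) with hF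
    have hFP : F ≤ (P : Subgroup G) := inf_le_left
    have hFd : Nat.card F ∣ p ^ a := by
      rw [← ha]
      exact Subgroup.card_dvd_of_le hFP
    obtain ⟨b, hb, hbe⟩ := (Nat.dvd_prime_pow hp).mp hFd
    have hblt : b < a := by
      refine lt_of_le_of_ne hb ?_
      rintro rfl
      have h1 : F = (P : Subgroup G) := Subgroup.eq_of_le_of_card_ge hFP (by rw [ha, hbe])
      apply hzC
      rw [Subgroup.mem_centralizer_iff]
      intro x hx
      have hxF : x ∈ F := by rw [h1]; exact hx
      exact (Subgroup.mem_centralizer_iff.mp (Subgroup.mem_inf.mp hxF).2 z (Subgroup.mem_zpowers z)).symm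
    rw [ha, hbe] at hmod
    have hd : q ∣ p ^ a - p ^ b := (Nat.modEq_iff_dvd' (Nat.pow_le_pow_right hp.pos hb)).mp hmod.symm
    obtain ⟨e, rfl⟩ : ∃ e, a = b + e := ⟨a - b, by omega⟩
    have hfac : p ^ (b + e) - p ^ b = p ^ b * (p ^ e - 1) := by
      rw [pow_add, Nat.mul_sub, mul_one]
    rw [hfac] at hd
    have hcop : Nat.Coprime q (p ^ b) := Nat.Coprime.pow_right _ ((Nat.coprime_primes hq hp).mpr hqp)
    have hd2 : q ∣ p ^ e - 1 := hcop.dvd_of_dvd_mul_left hd
    have he : e = 1 ∨ (e = 2 ∧ b = 0) := by omega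
    have hp1 : 1 ≤ p := hp.one_lt.le
    rcases he with rfl | ⟨rfl, rfl⟩
    · rw [pow_one] at hd2
      have := Nat.le_of_dvd (by have := hp.one_lt; omega) hd2
      omega
    · have hfac2 : p ^ 2 - 1 = (p - 1) * (p + 1) := by
        obtain ⟨m, hm⟩ : ∃ m, p = m + 1 := ⟨p - 1, by omega⟩
        rw [hm]
        simp only [Nat.add_sub_cancel]
        have : (m + 1) ^ 2 = m * (m + 1 + 1) + 1 := by ring
        rw [this, Nat.add_sub_cancel]
      rw [hfac2] at hd2
      rcases (hq.dvd_mul).mp hd2 with h4 | h4
      · have := Nat.le_of_dvd (by have := hp.one_lt; omega) h4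
        omega
      · have h5 := Nat.le_of_dvd (by omega) h4
        have h6 : q = p + 1 := by omega
        have hp2 : p = 2 := by
          rcases hp.eq_two_or_odd with h | h
          · exact h
          · rcases hq.eq_two_or_odd with h' | h'
            · have := hp.two_le
              omega
            · omega
        have hq3 : q = 3 := by omega
        apply h12
        have h7 : 4 ∣ Nat.card G := by
          have h8 : p ^ (0 + 2) ∣ Nat.card G := by
            rw [← ha]
            exact hPn
          rw [hp2] at h8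
          exact h8
        have h9 : 3 ∣ Nat.card G := by rw [← hq3]; exact hqn
        exact Nat.Coprime.mul_dvd_of_dvd_of_dvd (by norm_num) h9 h7
  have hcompl := MonoidHom.ker_transferSylow_isComplement' P hN
  set L := (MonoidHom.transferSylow P hN).ker with hL
  haveI hLn : L.Normal := by rw [hL]; exact MonoidHom.normal_ker _
  have hcard := hcompl.card_mul
  rcases IsSimpleGroup.eq_bot_or_eq_top_of_normal L hLn with h | h
  · rw [h, Subgroup.card_bot, one_mul, ha] at hcard
    obtain ⟨x, y, hxy⟩ := hG
    exact hxy (hcomm G hcard.symm x y)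
  · rw [h, Subgroup.card_top] at hcard
    have h1 : Nat.card (P : Subgroup G) = 1 := by
      have h2 : 0 < Nat.card G := Nat.card_pos
      exact Nat.eq_of_mul_eq_mul_left h2 (by rw [hcard, mul_one])
    rw [ha] at h1
    exact ha0 ((Nat.pow_eq_one.mp h1).resolve_left hp.one_lt.ne')

end Cfsg.Agent.S0073
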