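import Cfsg.Statements.S0076
import Cfsg.Agent.Lib.H5Basic

set_option autoImplicit false
open Cfsg

namespace Cfsg.Agent.S0076

/-- Two P-invariant subsets of a Sylow p-subgroup P that are conjugate in G are conjugate under the normalizer of P. -/
theorem result {G : Type*} [Group G] [Finite G] {p : ℕ} [Fact p.Prime] (P : Sylow p G) (X Y : Set G) (hXP : X ⊆ P) (hYP : Y ⊆ P) (hX : ∀ x ∈ P, (fun y => x * y * x⁻¹) '' X = X) (hY : ∀ x ∈ P, (fun y => x * y * x⁻¹) '' Y = Y) (g : G) (hg : (fun y => g * y * g⁻¹) '' X = Y) : ∃ n ∈ Subgroup.normalizer (P : Set G), (fun y => n * y * n⁻¹) '' X = Y := by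
  classical
  let M : Subgroup G :=
    { carrier := {h | (fun y => h * y * h⁻¹) '' Y = Y}
      mul_mem' := by
        intro a b ha hb
        show (fun y => a * b * y * (a * b)⁻¹) '' Y = Y
        have h1 : (fun y => a * b * y * (a * b)⁻¹) = (fun y => a * y * a⁻¹) ∘ (fun y => b * y * b⁻¹) := by
          funext y
          simp only [Function.comp]
          group
        rw [h1, Set.image_comp, hb, ha]
      one_mem' := by
        show (fun y => 1 * y * 1⁻¹) '' Y = Y
        simp
      inv_mem' := by
        intro a ha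
        show (fun y => a⁻¹ * y * a⁻¹⁻¹) '' Y = Y
        have ha' : (fun y => a * y * a⁻¹) '' Y = Y := ha
        conv_lhs => rw [← ha']
        rw [Set.image_image]
        have h1 : (fun y => a⁻¹ * (a * y * a⁻¹) * a⁻¹⁻¹) = id := by
          funext y
          simp only [id]
          group
        rw [h1, Set.image_id] }
  have hPM : (P : Subgroup G) ≤ M := fun x hx => hY x hx
  let P₂ : Sylow p G := g • P
  have hP₂M : (P₂ : Subgroup G) ≤ M := by
    intro x hx
    have h1 : g⁻¹ * x * g ∈ (P : Subgroup G) := by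
      have := Cfsg.Agent.Lib.H5Basic.mem_of_mem_smul_sylow P g x hx
      exact this
    show (fun y => x * y * x⁻¹) '' Y = Y
    have h2 : (fun y => x * y * x⁻¹) '' Y = (fun y => g * y * g⁻¹) '' ((fun y => (g⁻¹ * x * g) * y * (g⁻¹ * x * g)⁻¹) '' X) := by
      rw [← hg, Set.image_image, Set.image_image]
      congr 1
      funext y
      group
    rw [h2, hX _ h1, hg]
  obtain ⟨h, hh⟩ := MulAction.exists_smul_eq M (P₂.subtype hP₂M) (P.subtype hPM)
  simp_rw [Sylow.smul_subtype, Subgroup.smul_def] at hh
  have hh2 : ((h : G) • P₂ : Sylow p G) = P := Sylow.subtype_injective hh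
  have hn : (h : G) * g ∈ Subgroup.normalizer ((P : Subgroup G) : Set G) := by
    refine Sylow.smul_eq_iff_mem_normalizer.mp ?_
    rw [mul_smul]
    exact hh2
  refine ⟨(h : G) * g, hn, ?_⟩
  have h1 : (fun y => ((h : G) * g) * y * ((h : G) * g)⁻¹) =
      (fun y => (h : G) * y * (h : G)⁻¹) ∘ (fun y => g * y * g⁻¹) := by
    funext y
    simp only [Function.comp]
    group
  rw [h1, Set.image_comp, hg]
  exact h.2

end Cfsg.Agent.S0076
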