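import Cfsg.Statements.S0079
import Cfsg.Agent.Lib.PNilpC
import Cfsg.Agent.Lib.SchurZ
import Cfsg.Agent.Lib.PReduced

set_option autoImplicit false
open Cfsg

namespace Cfsg.Agent.S0079


universe u

theorem npc_aux {G : Type u} [Group G] [Finite G] (H : Subgroup G) (hH : Group.IsNilpotent H)
    (hHall : Nat.Coprime (Nat.card H) H.index) (p : ℕ) (hpp : p.Prime) (hpd : p ∣ Nat.card H)
    (hfus : ∀ x ∈ H, ∀ y ∈ H, (∃ g : G, g * x * g⁻¹ = y) → ∃ h ∈ H, h * x * h⁻¹ = y) :
    ∃ N : Subgroup G, N.Normal ∧ ¬ p ∣ Nat.card N ∧ (∀ g : G, ∃ k : ℕ, g ^ p ^ k ∈ N) := by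
  haveI : Fact p.Prime := ⟨hpp⟩
  have hpH : ¬ p ∣ H.index := fun hd =>
    hpp.one_lt.ne' (Nat.eq_one_of_dvd_coprimes hHall hpd hd)
  obtain ⟨P₀⟩ : Nonempty (Sylow p H) := inferInstance
  have hnorm : (P₀ : Subgroup H).Normal :=
    (by
      have q := (Group.isNilpotent_of_finite_tfae (G := H)).out 0 3
      exact q.mp hH p ⟨hpp⟩ P₀)
  have hPp : IsPGroup p ((P₀ : Subgroup H).map H.subtype) := P₀.isPGroup'.map H.subtype
  have hPidx : ¬ p ∣ ((P₀ : Subgroup H).map H.subtype).index := by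
    rw [Subgroup.index_map_subtype]
    intro hd
    rcases (Nat.Prime.dvd_mul hpp).mp hd with h1 | h1
    · exact P₀.not_dvd_index h1
    · exact hpH h1
  let P : Sylow p G := hPp.toSylow hPidx
  have hPc : (P : Subgroup G) = (P₀ : Subgroup H).map H.subtype := IsPGroup.toSylow_coe hPp hPidx
  have hPH : (P : Subgroup G) ≤ H := by
    rw [hPc]
    exact Subgroup.map_subtype_le _
  obtain ⟨n, hn⟩ := hH.nilpotent
  have hnpc : HasNormalPComplement p H :=
    Cfsg.Agent.Lib.PNilpB.npc_of_upperCentral (G := H) n (fun a _ => by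
      rw [hn]; exact Subgroup.mem_top a)
  have hPn : ∀ h ∈ H, ∀ s ∈ (P : Subgroup G), h * s * h⁻¹ ∈ (P : Subgroup G) := by
    intro h hh s hs
    rw [hPc] at hs ⊢
    obtain ⟨s', hs', rfl⟩ := hs
    refine ⟨⟨h, hh⟩ * s' * ⟨h, hh⟩⁻¹, hnorm.conj_mem s' hs' _, ?_⟩
    simp
  have hmemP : ∀ z ∈ H, (∃ k : ℕ, z ^ p ^ k = 1) → z ∈ (P : Subgroup G) := by
    intro z hz hk
    obtain ⟨k, hk⟩ := hk
    have hz' : (⟨z, hz⟩ : H) ∈ (P₀ : Subgroup H) := by
      have hzk : (⟨z, hz⟩ : H) ^ p ^ k = 1 := Subtype.ext (by simpa using hk)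
      have hq : IsPGroup p (Subgroup.zpowers (⟨z, hz⟩ : H)) := by
        intro w
        obtain ⟨i, hi⟩ := Subgroup.mem_zpowers_iff.mp w.2
        refine ⟨k, Subtype.ext ?_⟩
        show ((w : H)) ^ p ^ k = 1
        rw [← hi, ← zpow_natCast, ← zpow_mul, mul_comm, zpow_mul, zpow_natCast, hzk, one_zpow]
      obtain ⟨Q, hQ⟩ := hq.exists_le_sylow
      haveI := P₀.unique_of_normal hnorm
      have hQP : Q = P₀ := Subsingleton.elim _ _
      rw [← hQP]
      exact hQ (Subgroup.mem_zpowers _)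
    rw [hPc]
    exact ⟨⟨z, hz⟩, hz', rfl⟩
  have hnp : HasNormalPComplement p G := by
    apply Cfsg.Agent.Lib.PNilpB.npc_of_fusion_exp P
    intro a ha _ g hga
    obtain ⟨h, hh, hxy⟩ := hfus a (hPH ha) _ (hPH hga) ⟨g, rfl⟩
    obtain ⟨y, z, hyz, hcomm, hyc, ⟨k, hzp⟩, hyZ, hzZ⟩ := Cfsg.Agent.Lib.PResidual.exists_decomp (p := p) h
    have hyH : y ∈ H := (Subgroup.zpowers_le.mpr hh) hyZ
    have hzH : z ∈ H := (Subgroup.zpowers_le.mpr hh) hzZ
    have hzP : z ∈ (P : Subgroup G) := hmemP z hzH ⟨k, by rw [← hzp]; exact pow_orderOf_eq_one z⟩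
    refine ⟨z, hzP, ?_⟩
    have hza : z * a * z⁻¹ ∈ (P : Subgroup G) :=
      Subgroup.mul_mem _ (Subgroup.mul_mem _ hzP ha) (Subgroup.inv_mem _ hzP)
    have hc := Cfsg.Agent.Lib.PNilpC.commute_of_npc_in hnpc P.isPGroup' hPH hPn hyH hyc hza
    rw [← hxy, hyz]
    calc y * z * a * (y * z)⁻¹ = y * (z * a * z⁻¹) * y⁻¹ := by group
      _ = z * a * z⁻¹ * y * y⁻¹ := by rw [hc]
      _ = z * a * z⁻¹ := by group
  exact (Cfsg.Agent.Lib.PNilp.npc_iff (p := p)).mp hnp


/-- A nilpotent Hall subgroup has a normal complement exactly when elements of it that are conjugate in the whole group are already conjugate inside it. -/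
theorem result {G : Type*} [Group G] [Finite G] (H : Subgroup G) (hH : Group.IsNilpotent H) (hHall : Nat.Coprime (Nat.card H) H.index) : (∃ N : Subgroup G, N.Normal ∧ N.IsComplement' H) ↔ ∀ x ∈ H, ∀ y ∈ H, (∃ g : G, g * x * g⁻¹ = y) → ∃ h ∈ H, h * x * h⁻¹ = y := by
  classical
  constructor
  · rintro ⟨N, hN, hc⟩ x hx y hy ⟨g, hg⟩
    haveI := hN
    have hg' : g ∈ ((N ⊔ H : Subgroup G) : Set G) := by
      rw [hc.sup_eq_top]; exact Subgroup.mem_top g
    rw [Subgroup.normal_mul] at hg'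
    obtain ⟨n, hn, h, hh, rfl⟩ := Set.mem_mul.mp hg'
    refine ⟨h, hh, ?_⟩
    have htH : h * x * h⁻¹ ∈ H := H.mul_mem (H.mul_mem hh hx) (H.inv_mem hh)
    set t := h * x * h⁻¹ with ht
    have h1 : y = n * t * n⁻¹ := by
      rw [← hg, ht]; group
    have h2 : y * t⁻¹ ∈ N := by
      have h3 : y * t⁻¹ = n * (t * n⁻¹ * t⁻¹) := by rw [h1]; group
      rw [h3]
      exact N.mul_mem hn (hN.conj_mem _ (N.inv_mem hn) t)
    have h3 : y * t⁻¹ ∈ H := H.mul_mem hy (H.inv_mem htH)
    have h4 : y * t⁻¹ = 1 := Subgroup.disjoint_def.mp hc.disjoint h2 h3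
    exact (mul_inv_eq_one.mp h4).symm
  · intro hfus
    have hn0 : Nat.card H ≠ 0 := Nat.card_pos.ne'
    have hex : ∀ p : (Nat.card H).primeFactors, ∃ N : Subgroup G, N.Normal ∧ ¬ (p : ℕ) ∣ Nat.card N ∧
        (∀ g : G, ∃ k : ℕ, g ^ (p : ℕ) ^ k ∈ N) := fun p =>
      npc_aux H hH hHall p (Nat.prime_of_mem_primeFactors p.2) (Nat.dvd_of_mem_primeFactors p.2) hfus
    choose F hFn hFc hFp using hex
    have hFidx : ∀ p : (Nat.card H).primeFactors,
        (F p).index ∣ (p : ℕ) ^ (Nat.card H).factorization p := by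
      intro p
      have hpp : (p : ℕ).Prime := Nat.prime_of_mem_primeFactors p.2
      haveI : Fact (p : ℕ).Prime := ⟨hpp⟩
      haveI := hFn p
      have hq : IsPGroup (p : ℕ) (G ⧸ F p) := by
        intro w
        obtain ⟨g, rfl⟩ := QuotientGroup.mk_surjective w
        obtain ⟨k, hk⟩ := hFp p g
        exact ⟨k, by rw [← QuotientGroup.mk_pow, QuotientGroup.eq_one_iff]; exact hk⟩
      obtain ⟨a, ha⟩ := IsPGroup.iff_card.mp hq
      have hidx : (F p).index = (p : ℕ) ^ a := ha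
      have hpd : (p : ℕ) ∣ Nat.card H := Nat.dvd_of_mem_primeFactors p.2
      have hpH : ¬ (p : ℕ) ∣ H.index := fun hd =>
        hpp.one_lt.ne' (Nat.eq_one_of_dvd_coprimes hHall hpd hd)
      have hc1 := Subgroup.card_mul_index (F p)
      have hc2 := Subgroup.card_mul_index H
      have hd1 : (F p).index ∣ Nat.card H * H.index := by
        rw [hc2, ← hc1]; exact Dvd.intro_left _ rfl
      have hcop : Nat.Coprime (F p).index H.index := by
        rw [hidx]
        exact Nat.Coprime.pow_left _ ((Nat.Prime.coprime_iff_not_dvd hpp).2 hpH)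
      have hd2 : (F p).index ∣ Nat.card H := hcop.dvd_of_dvd_mul_right hd1
      rw [hidx] at hd2 ⊢
      have h3 : a ≤ (Nat.card H).factorization p := (hpp.pow_dvd_iff_le_factorization hn0).mp hd2
      exact pow_dvd_pow _ h3
    let N : Subgroup G := ⨅ p, F p
    have hNn : N.Normal := by
      haveI := hFn
      exact Subgroup.normal_iInf_normal hFn
    have hidx : N.index ≤ Nat.card H := by
      have h1 : N.index ≤ ∏ p, (F p).index := Subgroup.index_iInf_le F
      refine h1.trans ?_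
      have h2 : ∏ p : (Nat.card H).primeFactors, (F p).index ≤
          ∏ p : (Nat.card H).primeFactors, (p : ℕ) ^ (Nat.card H).factorization p := by
        apply Finset.prod_le_prod'
        intro p _
        apply Nat.le_of_dvd _ (hFidx p)
        exact pow_pos (Nat.prime_of_mem_primeFactors p.2).pos _
      refine h2.trans (le_of_eq ?_)
      rw [Finset.prod_coe_sort (Nat.card H).primeFactors (fun p => p ^ (Nat.card H).factorization p)]
      have h3 := Nat.factorization_prod_pow_eq_self hn0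
      rw [Finsupp.prod, Nat.support_factorization] at h3
      exact h3
    have hdisj : Disjoint N H := by
      rw [Subgroup.disjoint_def]
      intro x hxN hxH
      by_contra hx1
      have hord : orderOf x ≠ 1 := fun h => hx1 (orderOf_eq_one_iff.mp h)
      obtain ⟨q, hq, hqd⟩ := Nat.exists_prime_and_dvd hord
      have hqH : q ∣ Nat.card H := by
        have h1 : orderOf (⟨x, hxH⟩ : H) ∣ Nat.card H := orderOf_dvd_natCard _
        rw [Subgroup.orderOf_mk] at h1
        exact hqd.trans h1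
      have hqm : q ∈ (Nat.card H).primeFactors := Nat.mem_primeFactors.mpr ⟨hq, hqH, hn0⟩
      have hxF : x ∈ F ⟨q, hqm⟩ := (Subgroup.mem_iInf.mp hxN) ⟨q, hqm⟩
      apply hFc ⟨q, hqm⟩
      have h1 : orderOf (⟨x, hxF⟩ : F ⟨q, hqm⟩) ∣ Nat.card (F ⟨q, hqm⟩) := orderOf_dvd_natCard _
      rw [Subgroup.orderOf_mk] at h1
      exact hqd.trans h1
    refine ⟨N, hNn, ?_⟩
    have hc1 := Subgroup.card_mul_index N
    have hc2 := Cfsg.Agent.Lib.SchurZ.card_sup_of_disjoint N H hdisj.eq_bot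
    have hc3 : Nat.card (N ⊔ H : Subgroup G) ≤ Nat.card G := Subgroup.card_le_card_group _
    have hcard : Nat.card N * Nat.card H = Nat.card G := by
      apply le_antisymm
      · rw [← hc2]; exact hc3
      · rw [← hc1]
        exact Nat.mul_le_mul_left _ hidx
    exact Subgroup.isComplement'_of_card_mul_and_disjoint hcard hdisj

end Cfsg.Agent.S0079
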