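import Cfsg.Statements.S0085
import Cfsg.Agent.Lib.SmallBurn
-- import your own Cfsg.Agent.* helpers here

set_option autoImplicit false
open Cfsg

namespace Cfsg.Agent.S0085

/-- A group whose Sylow 2-subgroups are elementary abelian of order 8 and whose order is prime to 3 and to 7 has a normal 2-complement. -/
theorem result {G : Type*} [Group G] [Finite G] (T : Sylow 2 G) (h8 : Nat.card T = 8) (he : ∀ x : T, x * x = 1) (h3 : ¬ 3 ∣ Nat.card G) (h7 : ¬ 7 ∣ Nat.card G) : Cfsg.HasNormalPComplement 2 G := by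
  refine Cfsg.Agent.Lib.SmallBurn.main T ?_ h3 (Or.inr ⟨h8, h7⟩)
  intro a ha b hb
  have h1 : a * a = 1 := congrArg Subtype.val (he ⟨a, ha⟩)
  have h2 : b * b = 1 := congrArg Subtype.val (he ⟨b, hb⟩)
  have h3' : (a * b) * (a * b) = 1 := congrArg Subtype.val (he ⟨a * b, Subgroup.mul_mem _ ha hb⟩)
  have ai : a⁻¹ = a := inv_eq_of_mul_eq_one_left h1
  have bi : b⁻¹ = b := inv_eq_of_mul_eq_one_left h2
  have h4 := eq_inv_of_mul_eq_one_left h3'
  rw [mul_inv_rev, ai, bi] at h4
  exact h4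

end Cfsg.Agent.S0085
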