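import Cfsg.Statements.S0086
import Cfsg.Agent.Lib.PResidual

set_option autoImplicit false
open Cfsg

namespace Cfsg.Agent.S0086

/-- A normal complement to a Sylow p-subgroup is exactly the set of elements of order prime to p. -/
theorem result {G : Type*} [Group G] [Finite G] {p : ℕ} [Fact p.Prime] (P : Sylow p G) (N : Subgroup G) [N.Normal] (hN : N.IsComplement' (P : Subgroup G)) (x : G) : x ∈ N ↔ Nat.Coprime (orderOf x) p := by
  classical
  have hsup : N ⊔ (P : Subgroup G) = ⊤ := hN.sup_eq_top
  have hQ : IsPGroup p (G ⧸ N) :=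
    Cfsg.Agent.Lib.PResidual.isPGroup_quotient_of_sup_eq_top P.isPGroup' hsup
  have hidx : (P : Subgroup G).index = Nat.card N := hN.index_eq_card
  have hnd : ¬ p ∣ Nat.card N := by
    rw [← hidx]
    exact P.not_dvd_index
  constructor
  · intro hx
    have h1 : orderOf x ∣ Nat.card N := Subgroup.orderOf_dvd_natCard N hx
    exact Nat.Coprime.coprime_dvd_left h1 ((Nat.Prime.coprime_iff_not_dvd Fact.out).mpr hnd).symm
  · intro hx
    exact Cfsg.Agent.Lib.PResidual.mem_of_coprime_of_isPGroup_quotient hQ hx

end Cfsg.Agent.S0086
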