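import Cfsg.Statements.S0087
import Cfsg.Agent.Lib.AbHall

set_option autoImplicit false
open Cfsg

namespace Cfsg.Agent.S0087

/-- A Hall subgroup that is central in its normalizer has a normal complement. -/
theorem result {G : Type*} [Group G] [Finite G] (H : Subgroup G) (hHall : Nat.Coprime (Nat.card H) H.index) (h : Subgroup.normalizer (H : Set G) ≤ Subgroup.centralizer (H : Set G)) : ∃ N : Subgroup G, N.Normal ∧ N.IsComplement' H := by
  classical
  have hHc : ∀ a ∈ H, ∀ b ∈ H, a * b = b * a := by
    intro a ha b hb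
    have h1 : a ∈ Subgroup.centralizer (H : Set G) :=
      h (Subgroup.le_normalizer ha)
    exact (Subgroup.mem_centralizer_iff.mp h1 b hb).symm
  letI : CommGroup H :=
    { (inferInstance : Group H) with
      mul_comm := fun a b => Subtype.ext (hHc a a.2 b b.2) }
  let V : G →* H := MonoidHom.transfer (MonoidHom.id H)
  have hVpow : ∀ x : H, ((V (x : G) : H) : G) = (x : G) ^ H.index := by
    intro x
    have key : ∀ (k : ℕ) (g₀ : G), g₀⁻¹ * (x : G) ^ k * g₀ ∈ H →
        g₀⁻¹ * (x : G) ^ k * g₀ = (x : G) ^ k := by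
      intro k g₀ hu
      set y : G := (x : G) ^ k with hy
      have hyH : y ∈ H := H.pow_mem x.2 k
      set u : G := g₀⁻¹ * y * g₀ with hu'
      let C : Subgroup G := Subgroup.centralizer {y}
      have hHC : H ≤ C := by
        intro a ha
        rw [Subgroup.mem_centralizer_singleton_iff]
        exact hHc a ha y hyH
      let H₂ : Subgroup G := H.map (MulAut.conj g₀).toMonoidHom
      have hmemH₂ : ∀ a, a ∈ H₂ ↔ g₀⁻¹ * a * g₀ ∈ H := by
        intro a
        constructor
        · rintro ⟨b, hb, rfl⟩
          simpa [mul_assoc] using hb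
        · intro ha
          refine ⟨g₀⁻¹ * a * g₀, ha, ?_⟩
          simp [mul_assoc]
      have hyH₂ : y ∈ H₂ := (hmemH₂ y).mpr hu
      have hH₂c : ∀ a ∈ H₂, ∀ b ∈ H₂, a * b = b * a := by
        intro a ha b hb
        have h1 := hHc _ ((hmemH₂ a).mp ha) _ ((hmemH₂ b).mp hb)
        have h2 : g₀⁻¹ * (a * b) * g₀ = g₀⁻¹ * (b * a) * g₀ := by
          calc g₀⁻¹ * (a * b) * g₀ = g₀⁻¹ * a * g₀ * (g₀⁻¹ * b * g₀) := by group
            _ = g₀⁻¹ * b * g₀ * (g₀⁻¹ * a * g₀) := h1
            _ = g₀⁻¹ * (b * a) * g₀ := by group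
        have h3 := mul_right_cancel h2
        exact mul_left_cancel h3
      have hH₂C : H₂ ≤ C := by
        intro a ha
        rw [Subgroup.mem_centralizer_singleton_iff]
        exact hH₂c a ha y hyH₂
      have hcardH₂ : Nat.card H₂ = Nat.card H :=
        Subgroup.card_map_of_injective (MulAut.conj g₀).injective
      have hindexH₂ : H₂.index = H.index := by
        have h1 := Subgroup.card_mul_index H₂
        have h2 := Subgroup.card_mul_index H
        rw [hcardH₂, ← h2] at h1
        exact Nat.eq_of_mul_eq_mul_left Nat.card_pos h1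
      have hc1 : Nat.card (H₂.subgroupOf C) = Nat.card H₂ :=
        Nat.card_congr (Subgroup.subgroupOfEquivOfLe hH₂C).toEquiv
      have hc2 : Nat.card (H.subgroupOf C) = Nat.card H :=
        Nat.card_congr (Subgroup.subgroupOfEquivOfLe hHC).toEquiv
      have hcop : Nat.Coprime (Nat.card (H₂.subgroupOf C)) (H₂.subgroupOf C).index := by
        rw [hc1, hcardH₂]
        have h1 : (H₂.subgroupOf C).index ∣ H.index := by
          rw [← hindexH₂, ← Subgroup.relIndex_mul_index hH₂C]
          exact Dvd.intro _ rfl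
        exact Nat.Coprime.coprime_dvd_right h1 hHall
      obtain ⟨c, hc⟩ := Cfsg.Agent.Lib.AbHall.ab_hall_conj _ C rfl
        (H₂.subgroupOf C) (H.subgroupOf C)
        (fun a ha b hb => Subtype.ext (hH₂c _ (Subgroup.mem_subgroupOf.mp ha) _ (Subgroup.mem_subgroupOf.mp hb)))
        (fun a ha b hb => Subtype.ext (hHc _ (Subgroup.mem_subgroupOf.mp ha) _ (Subgroup.mem_subgroupOf.mp hb)))
        (by rw [hc1, hc2, hcardH₂]) hcop
      have hm : (c : G) * g₀ ∈ Subgroup.normalizer (H : Set G) := by
        apply Cfsg.Agent.Lib.H5Basic.mem_normalizer_of_map_conj_le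
        intro z hz
        obtain ⟨b, hb, rfl⟩ := hz
        have hb2 : g₀ * b * g₀⁻¹ ∈ H₂ := by
          rw [hmemH₂]
          simpa [mul_assoc] using hb
        have h3 := hc ⟨g₀ * b * g₀⁻¹, hH₂C hb2⟩ (Subgroup.mem_subgroupOf.mpr hb2)
        have h4 := Subgroup.mem_subgroupOf.mp h3
        have h5 : ((c : G) * g₀) * b * ((c : G) * g₀)⁻¹ = (c : G) * (g₀ * b * g₀⁻¹) * (c : G)⁻¹ := by group
        simpa [h5, mul_assoc] using h4
      have hmc := h hm
      have hu2 := Subgroup.mem_centralizer_iff.mp hmc u hu
      have hcy : (c : G) * y = y * (c : G) := by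
        have := c.2
        rw [Subgroup.mem_centralizer_singleton_iff] at this
        exact this
      have h6 : g₀ * u = y * g₀ := by
        rw [hu']; group
      have h7 : u * ((c : G) * g₀) = (c : G) * y * g₀ := by
        rw [hu2, mul_assoc, h6]; simp [mul_assoc]
      have h8 : u * ((c : G) * g₀) = y * ((c : G) * g₀) := by
        rw [h7, hcy, mul_assoc]
      exact mul_right_cancel h8
    have h1 := MonoidHom.transfer_eq_pow (MonoidHom.id H) (x : G) key
    rw [h1]
    rfl
  let W : H →* H := V.comp H.subtype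
  have hWinj : Function.Injective W := by
    rw [injective_iff_map_eq_one]
    intro x hx
    have h1 : (x : G) ^ H.index = 1 := by
      rw [← hVpow x]
      have h2 : V (x : G) = 1 := hx
      rw [h2]
      rfl
    have h2 : x ^ H.index = 1 := Subtype.ext (by simpa using h1)
    have h3 : orderOf x ∣ H.index := orderOf_dvd_of_pow_eq_one h2
    have h4 : orderOf x ∣ Nat.card H := orderOf_dvd_natCard x
    have h5 : orderOf x = 1 := Nat.eq_one_of_dvd_coprimes hHall h4 h3
    exact orderOf_eq_one_iff.mp h5
  have hWsurj : Function.Surjective W := Finite.surjective_of_injective hWinj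
  have hVsurj : Function.Surjective V := by
    intro z
    obtain ⟨x, hx⟩ := hWsurj z
    exact ⟨x, hx⟩
  refine ⟨V.ker, MonoidHom.normal_ker V, ?_⟩
  have hindex : V.ker.index = Nat.card H := by
    rw [Subgroup.index_ker, MonoidHom.range_eq_top.mpr hVsurj]
    exact Nat.card_congr Subgroup.topEquiv.toEquiv
  have hcard : Nat.card V.ker * Nat.card H = Nat.card G := by
    rw [← hindex]
    exact Subgroup.card_mul_index V.ker
  apply Subgroup.isComplement'_of_card_mul_and_disjoint hcard
  rw [Subgroup.disjoint_def]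
  intro x hx1 hx2
  have h1 : W ⟨x, hx2⟩ = 1 := hx1
  have h2 := hWinj (h1.trans (map_one W).symm)
  exact congrArg Subtype.val h2

end Cfsg.Agent.S0087
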