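import Cfsg.Statements.S0089
import Cfsg.Agent.S0088

set_option autoImplicit false
open Cfsg

namespace Cfsg.Agent.S0089

/-- When all Sylow subgroups are abelian, the derived subgroup meets the centre trivially. -/
theorem result {G : Type*} [Group G] [Finite G] (h : ∀ p : ℕ, p.Prime → ∀ P : Sylow p G, IsMulCommutative P) : commutator G ⊓ Subgroup.center G = ⊥ := by
  classical
  rw [eq_bot_iff]
  rintro z ⟨hzc, hzZ⟩
  rw [Subgroup.mem_bot]
  by_contra hz1
  obtain ⟨r, hr, hrd⟩ := Nat.exists_prime_and_dvd (fun h => hz1 (orderOf_eq_one_iff.mp h) : orderOf z ≠ 1)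
  obtain ⟨m, hm⟩ := hrd
  let w := z ^ m
  have hwo : orderOf w = r := by
    show orderOf (z ^ m) = r
    have hm0 : m ≠ 0 := by
      rintro rfl
      rw [mul_zero] at hm
      exact (orderOf_pos z).ne' hm
    rw [orderOf_pow' z hm0, hm, Nat.gcd_mul_left_left]
    rw [Nat.mul_div_cancel _ (Nat.pos_of_ne_zero hm0)]
  haveI : Fact r.Prime := ⟨hr⟩
  have hw1 : w ≠ 1 := by
    intro e
    rw [e, orderOf_one] at hwo
    exact hr.ne_one hwo.symm
  have hT : IsPGroup r (Subgroup.zpowers w) := by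
    apply IsPGroup.of_card (n := 1)
    rw [Nat.card_zpowers, hwo, pow_one]
  obtain ⟨Q, hQ⟩ := hT.exists_le_sylow
  have hwQ : w ∈ (Q : Subgroup G) := hQ (Subgroup.mem_zpowers w)
  have h1 := Cfsg.Agent.S0088.result (Q : Subgroup G) (h r hr Q) Q.card_coprime_index
  have h2 : w ∈ (Q : Subgroup G) ⊓ commutator G ⊓ Subgroup.center G :=
    ⟨⟨hwQ, Subgroup.pow_mem _ hzc m⟩, Subgroup.pow_mem _ hzZ m⟩
  rw [h1] at h2
  exact hw1 (Subgroup.mem_bot.mp h2)

end Cfsg.Agent.S0089
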