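import Cfsg.Statements.S0091
import Cfsg.Agent.Lib.Focal
open scoped commutatorElement

set_option autoImplicit false
open Cfsg

namespace Cfsg.Agent.S0091

/-- If a nontrivial Sylow p-subgroup controls its own fusion then it is not contained in the derived subgroup. -/
theorem result {G : Type*} [Group G] [Finite G] {p : ℕ} [Fact p.Prime] (P : Sylow p G) (hp : p ∣ Nat.card G) (h : ∀ x ∈ P, ∀ y ∈ P, (∃ g : G, g * x * g⁻¹ = y) → ∃ z ∈ P, z * x * z⁻¹ = y) : ¬ (P : Subgroup G) ≤ commutator G := by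
  classical
  intro hle
  have hpp : p.Prime := Fact.out
  have h1 : (P : Subgroup G) ⊓ commutator G ≤ ⁅(P : Subgroup G), (P : Subgroup G)⁆ := by
    refine Cfsg.Agent.Lib.Focal.inf_commutator_le_of P _ ?_
    intro x hx g hg
    obtain ⟨z, hz, hze⟩ := h x hx _ hg ⟨g, rfl⟩
    rw [← hze]
    have : x⁻¹ * (z * x * z⁻¹) = ⁅x⁻¹, z⁆ := by
      rw [commutatorElement_def]; group
    rw [this]
    exact Subgroup.commutator_mem_commutator ((P : Subgroup G).inv_mem hx) hz
  have h2 : (P : Subgroup G) ≤ ⁅(P : Subgroup G), (P : Subgroup G)⁆ :=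
    (le_inf le_rfl hle).trans h1
  have hPnt : Nontrivial (P : Subgroup G) := by
    rw [Subgroup.nontrivial_iff_ne_bot]
    exact P.ne_bot_of_dvd_card hp
  haveI hnil : Group.IsNilpotent (P : Subgroup G) := P.isPGroup'.isNilpotent
  haveI hsol : Group.IsSolvable (P : Subgroup G) := inferInstance
  have h3 := Group.IsSolvable.commutator_lt_top_of_nontrivial (G := (P : Subgroup G))
  apply h3.ne
  rw [eq_top_iff]
  intro x _
  have hx : (x : G) ∈ ⁅(P : Subgroup G), (P : Subgroup G)⁆ := h2 x.2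
  rw [← Subgroup.map_subtype_commutator] at hx
  obtain ⟨y, hy, hye⟩ := hx
  have : y = x := Subtype.ext hye
  rw [← this]
  exact hy

end Cfsg.Agent.S0091
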