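import Cfsg.Statements.S0094
import Cfsg.Agent.Lib.H6PGroup
import Cfsg.Agent.Lib.PNilpB

open scoped commutatorElement

set_option autoImplicit false
open Cfsg

namespace Cfsg.Agent.S0094

/-- In a special p-group every central element has order dividing p. -/
theorem result {P : Type*} [Group P] [Finite P] {p : ℕ} [Fact p.Prime] (h : Cfsg.IsSpecial p P) (z : P) (hz : z ∈ Subgroup.center P) : z ^ p = 1 := by
  classical
  obtain ⟨hP, hF, hC⟩ := h
  have hpow : ∀ x : P, x ^ p ∈ Subgroup.center P := fun x => by
    rw [← hF]; exact Cfsg.Agent.Lib.H6PGroup.pow_mem_frattini hP x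
  have hcc : ∀ x y : P, x * y * x⁻¹ * y⁻¹ ∈ Subgroup.center P := fun x y => by
    rw [← hC]
    have : ⁅x, y⁆ ∈ commutator P := Subgroup.commutator_mem_commutator (Subgroup.mem_top x) (Subgroup.mem_top y)
    rwa [commutatorElement_def] at this
  have hcp : ∀ x y : P, (x * y * x⁻¹ * y⁻¹) ^ p = 1 := by
    intro x y
    set c := x * y * x⁻¹ * y⁻¹ with hcdef
    have hcc' := Subgroup.mem_center_iff.mp (hcc x y)
    have h1 : x * y = c * y * x := by rw [hcdef]; group
    have h2 := Cfsg.Agent.Lib.PNilpB.zpow_class2 h1 (show Commute c x from (hcc' x).symm) p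
    have h3 : x ^ p * y = y * x ^ p := (Subgroup.mem_center_iff.mp (hpow x) y).symm
    rw [h3] at h2
    have h4 : 1 * (y * x ^ p) = c ^ p * (y * x ^ p) := by
      rw [one_mul, ← mul_assoc]; exact h2
    exact (mul_right_cancel h4).symm
  rw [← hC] at hz
  rw [commutator_def, Subgroup.commutator_def] at hz
  induction hz using Subgroup.closure_induction with
  | mem x hx =>
    obtain ⟨a, -, b, -, rfl⟩ := hx
    rw [commutatorElement_def]
    exact hcp a b
  | one => exact one_pow _
  | mul x y hx hy hxp hyp =>
    have hx' : x ∈ Subgroup.center P := by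
      rw [← hC, commutator_def, Subgroup.commutator_def]; exact hx
    have hcomm : Commute x y := (Subgroup.mem_center_iff.mp hx' y).symm
    rw [hcomm.mul_pow, hxp, hyp, one_mul]
  | inv x _ hxp => rw [inv_pow, hxp, inv_one]

end Cfsg.Agent.S0094
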