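import Cfsg.Statements.S0096
import Cfsg.Agent.Lib.PNilpB

open scoped commutatorElement

set_option autoImplicit false
open Cfsg

namespace Cfsg.Agent.S0096

/-- For odd p, in a p-group of class at most two the elements of order dividing p generate a subgroup of exponent dividing p. -/
theorem result {P : Type*} [Group P] [Finite P] {p : ℕ} [Fact p.Prime] (hp : p ≠ 2) (hP : IsPGroup p P) (h2 : ⁅commutator P, (⊤ : Subgroup P)⁆ = ⊥) (g : P) (hg : g ∈ Subgroup.closure {x : P | x ^ p = 1}) : g ^ p = 1 := by
  classical
  have hp' : p.Prime := Fact.out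
  have hcent : ∀ c ∈ commutator P, ∀ y : P, Commute c y := by
    intro c hc y
    have h1 : commutator P ≤ Subgroup.centralizer ((⊤ : Subgroup P) : Set P) :=
      Subgroup.commutator_eq_bot_iff_le_centralizer.mp h2
    have := Subgroup.mem_centralizer_iff.mp (h1 hc) y (Subgroup.mem_top y)
    exact this.symm
  induction hg using Subgroup.closure_induction with
  | mem x hx => exact hx
  | one => exact one_pow _
  | mul a b _ _ hap hbp =>
    let c := b * a * b⁻¹ * a⁻¹
    have hcm : c ∈ commutator P := by
      have : ⁅b, a⁆ ∈ commutator P := Subgroup.commutator_mem_commutator (Subgroup.mem_top b) (Subgroup.mem_top a)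
      rwa [commutatorElement_def] at this
    have h1 : b * a = c * a * b := by
      show b * a = (b * a * b⁻¹ * a⁻¹) * a * b
      group
    have hca := hcent c hcm a
    have hcb := hcent c hcm b
    have h3 := Cfsg.Agent.Lib.PNilpB.pow_mul_class2 h1 hca hcb p
    have h4 := Cfsg.Agent.Lib.PNilpB.zpow_class2 h1 hcb p
    rw [hbp, one_mul, mul_one] at h4
    have hcp : c ^ p = 1 := by
      have : 1 * a = c ^ p * a := by rw [one_mul]; exact h4
      exact (mul_right_cancel this).symm
    rw [h3, hap, hbp, one_mul, one_mul]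
    have hodd : p % 2 = 1 := Nat.odd_iff.mp (hp'.odd_of_ne_two hp)
    obtain ⟨k, hk⟩ : ∃ k, p = 2 * k + 1 := ⟨p / 2, by omega⟩
    have hch : p.choose 2 = p * k := by
      rw [Nat.choose_two_right, hk]
      have : (2 * k + 1) * (2 * k + 1 - 1) = 2 * ((2 * k + 1) * k) := by
        simp only [Nat.add_sub_cancel]
        ring
      rw [this, Nat.mul_div_cancel_left _ (by norm_num)]
    rw [hch, pow_mul, hcp, one_pow]
  | inv x _ hxp => rw [inv_pow, hxp, inv_one]

end Cfsg.Agent.S0096
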