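import Cfsg.Statements.S0097
import Cfsg.Agent.S0094
import Cfsg.Agent.S0096

open scoped commutatorElement

set_option autoImplicit false
open Cfsg

namespace Cfsg.Agent.S0097

/-- For odd p and E extraspecial, the subgroup generated by the elements of order dividing p has exponent dividing p and index at most p. -/
theorem result {E : Type*} [Group E] [Finite E] {p : ℕ} [Fact p.Prime] (hp : p ≠ 2) (h : Cfsg.IsExtraspecial p E) : (Subgroup.closure {x : E | x ^ p = 1}).index ≤ p ∧ ∀ g ∈ Subgroup.closure {x : E | x ^ p = 1}, g ^ p = 1 := by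
  classical
  have hp' : p.Prime := Fact.out
  have hcp : ∀ z ∈ Subgroup.center E, z ^ p = 1 := fun z hz => Cfsg.Agent.S0094.result h.1 z hz
  have hC := h.1.2.2
  have hcomm : ∀ a b : E, a * b * a⁻¹ * b⁻¹ ∈ Subgroup.center E := fun a b => by
    rw [← hC]
    have : ⁅a, b⁆ ∈ commutator E := Subgroup.commutator_mem_commutator (Subgroup.mem_top a) (Subgroup.mem_top b)
    rwa [commutatorElement_def] at this
  have h2 : ⁅commutator E, (⊤ : Subgroup E)⁆ = ⊥ := by
    rw [hC, Subgroup.commutator_eq_bot_iff_le_centralizer]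
    intro z hz
    exact Subgroup.mem_centralizer_iff.mpr (fun y _ => Subgroup.mem_center_iff.mp hz y)
  have hexp : ∀ g ∈ Subgroup.closure {x : E | x ^ p = 1}, g ^ p = 1 :=
    fun g hg => Cfsg.Agent.S0096.result hp h.1.1 h2 g hg
  refine ⟨?_, hexp⟩
  have hodd : p % 2 = 1 := Nat.odd_iff.mp (hp'.odd_of_ne_two hp)
  obtain ⟨k, hk⟩ : ∃ k, p = 2 * k + 1 := ⟨p / 2, by omega⟩
  have hch : p.choose 2 = p * k := by
    rw [Nat.choose_two_right, hk]
    have : (2 * k + 1) * (2 * k + 1 - 1) = 2 * ((2 * k + 1) * k) := by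
      simp only [Nat.add_sub_cancel]
      ring
    rw [this, Nat.mul_div_cancel_left _ (by norm_num)]
  have hpowmul : ∀ a b : E, (a * b) ^ p = a ^ p * b ^ p := by
    intro a b
    let c := b * a * b⁻¹ * a⁻¹
    have hcZ : c ∈ Subgroup.center E := hcomm b a
    have h1 : b * a = c * a * b := by
      show b * a = (b * a * b⁻¹ * a⁻¹) * a * b
      group
    have hca : Commute c a := (Subgroup.mem_center_iff.mp hcZ a).symm
    have hcb : Commute c b := (Subgroup.mem_center_iff.mp hcZ b).symm
    have h3 := Cfsg.Agent.Lib.PNilpB.pow_mul_class2 h1 hca hcb p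
    rw [h3, hch, pow_mul, hcp c hcZ, one_pow, mul_one]
  let f : E →* Subgroup.center E := MonoidHom.mk' (fun a => ⟨a ^ p, by
    rw [← h.1.2.1]; exact Cfsg.Agent.Lib.H6PGroup.pow_mem_frattini h.1.1 a⟩) (by
      intro a b
      apply Subtype.ext
      exact hpowmul a b)
  have hle : f.ker ≤ Subgroup.closure {x : E | x ^ p = 1} := by
    intro a ha
    apply Subgroup.subset_closure
    exact congrArg Subtype.val (MonoidHom.mem_ker.mp ha)
  have h1 : (Subgroup.closure {x : E | x ^ p = 1}).index ∣ f.ker.index := Subgroup.index_dvd_of_le hle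
  have h3 : f.ker.index ≤ p := by
    rw [Subgroup.index_ker]
    rw [← h.2]
    exact Subgroup.card_le_card_group _
  exact (Nat.le_of_dvd (Nat.pos_of_ne_zero Subgroup.index_ne_zero_of_finite) h1).trans h3

end Cfsg.Agent.S0097
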