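import Cfsg.Statements.S0099
import Mathlib
import Cfsg.Agent.Lib.ExtraIso2

set_option autoImplicit false
open Cfsg

namespace Cfsg.Agent.S0099

/-- Among three extraspecial 2-groups of equal order, some two are isomorphic. -/
theorem result {E₁ : Type*} {E₂ : Type*} {E₃ : Type*} [Group E₁] [Group E₂] [Group E₃] [Finite E₁] [Finite E₂] [Finite E₃] (h₁ : Cfsg.IsExtraspecial 2 E₁) (h₂ : Cfsg.IsExtraspecial 2 E₂) (h₃ : Cfsg.IsExtraspecial 2 E₃) (h12 : Nat.card E₁ = Nat.card E₂) (h23 : Nat.card E₂ = Nat.card E₃) : Nonempty (E₁ ≃* E₂) ∨ Nonempty (E₂ ≃* E₃) ∨ Nonempty (E₁ ≃* E₃) := by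
  classical
  obtain ⟨z₁, hz₁⟩ := Cfsg.Agent.Lib.ExtraPlus.exists_data h₁
  obtain ⟨z₂, hz₂⟩ := Cfsg.Agent.Lib.ExtraPlus.exists_data h₂
  obtain ⟨z₃, hz₃⟩ := Cfsg.Agent.Lib.ExtraPlus.exists_data h₃
  haveI : Fintype E₁ := Fintype.ofFinite _
  haveI : Fintype E₂ := Fintype.ofFinite _
  haveI : Fintype E₃ := Fintype.ofFinite _
  have g₁ := hz₁.gauss
  have g₂ := hz₂.gauss
  have g₃ := hz₃.gauss
  rw [Nat.card_eq_fintype_card, Nat.card_eq_fintype_card] at h12 h23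
  obtain ⟨s₁, hs₁⟩ : ∃ s, s = ∑ x : E₁, Cfsg.Agent.Lib.ExtraPlus.ss x := ⟨_, rfl⟩
  obtain ⟨s₂, hs₂⟩ : ∃ s, s = ∑ x : E₂, Cfsg.Agent.Lib.ExtraPlus.ss x := ⟨_, rfl⟩
  obtain ⟨s₃, hs₃⟩ : ∃ s, s = ∑ x : E₃, Cfsg.Agent.Lib.ExtraPlus.ss x := ⟨_, rfl⟩
  rw [← hs₁] at g₁
  rw [← hs₂, ← h12] at g₂
  rw [← hs₃, ← h23, ← h12] at g₃
  by_cases h1 : s₁ = s₂
  · left
    obtain ⟨ψ, -⟩ := Cfsg.Agent.Lib.ExtraIso2.iso_es _ hz₁ hz₂ rfl h12.symm (by rw [← hs₁, ← hs₂, h1])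
    exact ⟨ψ⟩
  by_cases h2 : s₂ = s₃
  · right; left
    obtain ⟨ψ, -⟩ := Cfsg.Agent.Lib.ExtraIso2.iso_es _ hz₂ hz₃ rfl h23.symm (by rw [← hs₂, ← hs₃, h2])
    exact ⟨ψ⟩
  right; right
  have h3 : s₁ = s₃ := by
    have e1 : (s₁ - s₂) * (s₁ + s₂) = 0 := by linarith
    have e2 : (s₂ - s₃) * (s₂ + s₃) = 0 := by linarith
    have e3 : s₁ + s₂ = 0 := (mul_eq_zero.1 e1).resolve_left (sub_ne_zero.2 h1)
    have e4 : s₂ + s₃ = 0 := (mul_eq_zero.1 e2).resolve_left (sub_ne_zero.2 h2)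
    linarith
  obtain ⟨ψ, -⟩ := Cfsg.Agent.Lib.ExtraIso2.iso_es _ hz₁ hz₃ rfl (h23.symm.trans h12.symm) (by rw [← hs₁, ← hs₃, h3])
  exact ⟨ψ⟩

end Cfsg.Agent.S0099
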