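import Cfsg.Statements.S0130
import Cfsg.Agent.Lib.PNormal
import Cfsg.Agent.Lib.PNilpB
import Cfsg.Agent.Lib.CoprimeAct
import Cfsg.Agent.Lib.PGroupBasic
open scoped commutatorElement

set_option autoImplicit false
open Cfsg

namespace Cfsg.Agent.S0130


theorem exists_between {G : Type*} [Group G] [Finite G] {p : ℕ} [Fact p.Prime] (hG : IsPGroup p G)
    (A S : Subgroup G) [hA : A.Normal] [hS : S.Normal] (hAS : A ≤ S) (hne : S ≠ A) :
    ∃ B : Subgroup G, B.Normal ∧ A ≤ B ∧ B ≤ S ∧ B ≠ S ∧ ∀ g : G, ∀ b ∈ S, g * b * g⁻¹ * b⁻¹ ∈ B := by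
  classical
  let π : G →* G ⧸ A := QuotientGroup.mk' A
  have hπ : Function.Surjective π := QuotientGroup.mk'_surjective A
  have hQ : IsPGroup p (G ⧸ A) := hG.of_surjective π hπ
  let Sb : Subgroup (G ⧸ A) := S.map π
  haveI : Sb.Normal := Subgroup.Normal.map hS π hπ
  have hSb : Sb ≠ ⊥ := by
    intro e
    apply hne
    apply le_antisymm _ hAS
    intro s hs
    have h1 : π s ∈ Sb := ⟨s, hs, rfl⟩
    rw [e, Subgroup.mem_bot] at h1
    exact (QuotientGroup.eq_one_iff s).mp h1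
  obtain ⟨B₁, b₀, hB₁n, hB₁le, hb₀S, hb₀B, -, hcomm, -⟩ :=
    Cfsg.Agent.Lib.PNormal.exists_normal_index_p hQ Sb hSb
  haveI := hB₁n
  refine ⟨B₁.comap π, Subgroup.Normal.comap hB₁n π, ?_, ?_, ?_, ?_⟩
  · intro a ha
    show π a ∈ B₁
    rw [show π a = 1 from (QuotientGroup.eq_one_iff a).mpr ha]
    exact B₁.one_mem
  · intro x hx
    obtain ⟨s, hs, hse⟩ := hB₁le hx
    have h1 : s⁻¹ * x ∈ A := QuotientGroup.eq.mp hse
    have h2 : x = s * (s⁻¹ * x) := by group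
    rw [h2]
    exact S.mul_mem hs (hAS h1)
  · intro e
    obtain ⟨s, hs, hse⟩ := hb₀S
    apply hb₀B
    rw [← hse]
    have : s ∈ B₁.comap π := by rw [e]; exact hs
    exact this
  · intro g b hb
    show π (g * b * g⁻¹ * b⁻¹) ∈ B₁
    rw [map_mul, map_mul, map_mul, map_inv, map_inv]
    exact hcomm _ _ ⟨b, hb, rfl⟩

theorem arith_choose {p n : ℕ} (hp : p.Prime) :
    p ^ n ∣ (p ^ n).choose 2 * p := by
  have h2 : (p ^ n).choose 2 * 2 = p ^ n * (p ^ n - 1) := by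
    rw [Nat.choose_two_right]
    exact Nat.div_mul_cancel (Nat.even_mul_pred_self _).two_dvd
  rcases hp.eq_two_or_odd with rfl | hodd
  · rw [h2]
    exact dvd_mul_right _ _
  · have hc : Nat.Coprime (p ^ n) 2 := by
      apply Nat.Coprime.pow_left
      exact (Nat.coprime_primes hp Nat.prime_two).mpr (by omega)
    have h3 : p ^ n ∣ (p ^ n).choose 2 := by
      have : p ^ n ∣ (p ^ n).choose 2 * 2 := by rw [h2]; exact dvd_mul_right _ _
      exact hc.dvd_of_dvd_mul_right this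
    exact h3.mul_right p

/-- The final contradiction. -/
theorem final_step {G : Type*} [Group G] [Finite G] {p : ℕ} [hpf : Fact p.Prime] (hG : IsPGroup p G)
    (n : ℕ) (hn : p ^ n ≠ 2) (A : Subgroup G) [hAn : A.Normal] (hA : IsMulCommutative A)
    (hAe : ∀ a ∈ A, a ^ p ^ n = 1)
    (hmax : ∀ B : Subgroup G, B.Normal → IsMulCommutative B → (∀ b ∈ B, b ^ p ^ n = 1) → A ≤ B → B = A)
    (S : Subgroup G) [hSn : S.Normal] (hAS : A ≤ S) (hSC : S ≤ Subgroup.centralizer (A : Set G))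
    (hSS : ⁅S, S⁆ ≤ A) (y : G) (hyS : y ∈ S) (hyA : y ∉ A) (hy : y ^ p ^ n = 1) : False := by
  classical
  have hp : p.Prime := Fact.out
  have hcomA : ∀ a ∈ A, ∀ s ∈ S, a * s = s * a := fun a ha s hs =>
    (Subgroup.mem_centralizer_iff.mp (hSC hs) a ha)
  have hn0 : n ≠ 0 := by
    rintro rfl
    rw [pow_zero, pow_one] at hy
    exact hyA (hy ▸ A.one_mem)
  -- a power of `y` of order `p` modulo `A`
  obtain ⟨k, hk⟩ := IsPGroup.iff_orderOf.mp hG y
  have hex : ∃ m, y ^ p ^ m ∈ A := ⟨k, by rw [← hk, pow_orderOf_eq_one]; exact A.one_mem⟩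
  let m := Nat.find hex
  have hm : y ^ p ^ m ∈ A := Nat.find_spec hex
  have hm0 : m ≠ 0 := by
    intro e
    rw [e, pow_zero, pow_one] at hm
    exact hyA hm
  let y₁ := y ^ p ^ (m - 1)
  have hy₁A : y₁ ∉ A := Nat.find_min hex (by omega)
  have hy₁p : y₁ ^ p ∈ A := by
    show (y ^ p ^ (m - 1)) ^ p ∈ A
    rw [← pow_mul, ← pow_succ, show m - 1 + 1 = m by omega]
    exact hm
  have hy₁n : y₁ ^ p ^ n = 1 := by
    show (y ^ p ^ (m - 1)) ^ p ^ n = 1
    rw [← pow_mul, mul_comm, pow_mul, hy, one_pow]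
  have hy₁S : y₁ ∈ S := S.pow_mem hyS _
  -- the subgroup
  have hmuln : ∀ v ∈ S, ∀ v' ∈ S, v' ^ p ∈ A → ∀ e : ℕ, (v * v') ^ e = v ^ e * v' ^ e * ⁅v', v⁆ ^ e.choose 2 := by
    intro v hv v' hv' _ e
    have hd : ⁅v', v⁆ ∈ A := hSS (Subgroup.commutator_mem_commutator hv' hv)
    exact Cfsg.Agent.Lib.PNilpB.pow_mul_class2 (by rw [commutatorElement_def]; group)
      (show _ = _ from hcomA _ hd _ hv) (show _ = _ from hcomA _ hd _ hv') e
  have hdp : ∀ v ∈ S, ∀ v' ∈ S, v' ^ p ∈ A → ⁅v', v⁆ ^ p = 1 := by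
    intro v hv v' hv' hv'p
    have hd : ⁅v', v⁆ ∈ A := hSS (Subgroup.commutator_mem_commutator hv' hv)
    have h1 : v' * v * v'⁻¹ = ⁅v', v⁆ * v := by
      rw [commutatorElement_def]; group
    have h2 : v' * ⁅v', v⁆ = ⁅v', v⁆ * v' := (hcomA _ hd _ hv').symm
    have h3 := Cfsg.Agent.Lib.CoprimeAct.conj_pow_formula h1 h2 p
    have h4 : v' ^ p * v * (v' ^ p)⁻¹ = v := by
      rw [hcomA _ hv'p _ hv]
      group
    rw [h4] at h3
    exact (mul_eq_right.mp h3.symm)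
  let V : Subgroup G :=
    { carrier := {v | v ∈ S ∧ v ^ p ∈ A ∧ v ^ p ^ n = 1}
      mul_mem' := by
        rintro a b ⟨ha1, ha2, ha3⟩ ⟨hb1, hb2, hb3⟩
        have hd : ⁅b, a⁆ ∈ A := hSS (Subgroup.commutator_mem_commutator hb1 ha1)
        refine ⟨S.mul_mem ha1 hb1, ?_, ?_⟩
        · rw [hmuln a ha1 b hb1 hb2]
          exact A.mul_mem (A.mul_mem ha2 hb2) (A.pow_mem hd _)
        · rw [hmuln a ha1 b hb1 hb2, ha3, hb3, one_mul, one_mul]
          obtain ⟨r, hr⟩ := hp.dvd_choose_pow (n := n) (k := 2) (by norm_num) (Ne.symm hn)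
          rw [hr, pow_mul, hdp a ha1 b hb1 hb2, one_pow]
      one_mem' := ⟨S.one_mem, by rw [one_pow]; exact A.one_mem, one_pow _⟩
      inv_mem' := by
        rintro a ⟨ha1, ha2, ha3⟩
        exact ⟨S.inv_mem ha1, by rw [inv_pow]; exact A.inv_mem ha2, by rw [inv_pow, ha3, inv_one]⟩ }
  have hVmem : ∀ v, v ∈ V ↔ v ∈ S ∧ v ^ p ∈ A ∧ v ^ p ^ n = 1 := fun v => Iff.rfl
  haveI hVn : V.Normal := by
    refine ⟨fun v hv g => ?_⟩
    rw [hVmem] at hv ⊢
    refine ⟨hSn.conj_mem v hv.1 g, ?_, ?_⟩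
    · rw [conj_pow]
      exact hAn.conj_mem _ hv.2.1 g
    · rw [conj_pow, hv.2.2]
      group
  have hAV : A ≤ V := by
    intro a ha
    exact ⟨hAS ha, A.pow_mem ha _, hAe a ha⟩
  have hy₁V : y₁ ∈ V := ⟨hy₁S, hy₁p, hy₁n⟩
  let π : G →* G ⧸ A := QuotientGroup.mk' A
  have hπ : Function.Surjective π := QuotientGroup.mk'_surjective A
  have hQ : IsPGroup p (G ⧸ A) := hG.of_surjective π hπ
  let Vb : Subgroup (G ⧸ A) := V.map π
  haveI : Vb.Normal := Subgroup.Normal.map hVn π hπ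
  have hVb : Vb ≠ ⊥ := by
    intro e
    have h1 : π y₁ ∈ Vb := ⟨y₁, hy₁V, rfl⟩
    rw [e, Subgroup.mem_bot] at h1
    exact hy₁A ((QuotientGroup.eq_one_iff y₁).mp h1)
  obtain ⟨w, ⟨v, hv, rfl⟩, hw1, hwc⟩ :=
    Cfsg.Agent.Lib.PGroupBasic.exists_ne_one_mem_center_of_normal hQ Vb hVb
  have hvA : v ∉ A := fun h => hw1 ((QuotientGroup.eq_one_iff v).mpr h)
  let W : Subgroup (G ⧸ A) := Subgroup.zpowers (π v)
  haveI hWn : W.Normal := by
    refine ⟨fun x hx g => ?_⟩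
    have hxc : x ∈ Subgroup.center (G ⧸ A) := (Subgroup.zpowers_le.mpr hwc) hx
    rw [(Subgroup.mem_center_iff.mp hxc g), mul_assoc, mul_inv_cancel, mul_one]
    exact hx
  let B : Subgroup G := W.comap π
  have hform : ∀ b ∈ B, ∃ k : ℤ, ∃ a ∈ A, b = v ^ k * a := by
    intro b hb
    obtain ⟨k, hk⟩ : π b ∈ W := hb
    refine ⟨k, (v ^ k)⁻¹ * b, ?_, by group⟩
    have h1 : π ((v ^ k)⁻¹ * b) = 1 := by
      rw [map_mul, map_inv, map_zpow]
      have h2 : (π v) ^ k = π b := hk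
      rw [h2, inv_mul_cancel]
    exact (QuotientGroup.eq_one_iff _).mp h1
  have hvS : v ∈ S := hv.1
  have hvAc : ∀ a ∈ A, ∀ k : ℤ, Commute (v ^ k) a := fun a ha k =>
    (Commute.zpow_left (show Commute v a from (hcomA a ha v hvS).symm) k)
  have hAbc : ∀ a ∈ A, ∀ b ∈ A, a * b = b * a := fun a ha b hb =>
    congrArg Subtype.val (hA.is_comm.comm ⟨a, ha⟩ ⟨b, hb⟩)
  have hBc : IsMulCommutative B := ⟨⟨fun x y => by
    apply Subtype.ext
    obtain ⟨i, a, ha, hxe⟩ := hform x x.2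
    obtain ⟨j, b, hb, hye⟩ := hform y y.2
    show (x : G) * y = y * x
    rw [hxe, hye]
    have h1 : Commute (v ^ i) (v ^ j) := (Commute.refl v).zpow_zpow i j
    calc v ^ i * a * (v ^ j * b) = v ^ i * v ^ j * (a * b) := by
          rw [mul_assoc, ← mul_assoc a, ← (hvAc a ha j).eq]; group
      _ = v ^ j * v ^ i * (b * a) := by rw [h1.eq, hAbc a ha b hb]
      _ = v ^ j * b * (v ^ i * a) := by
          rw [mul_assoc (v ^ j) b, ← mul_assoc b, ← (hvAc b hb i).eq]; group⟩⟩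
  have hBe : ∀ b ∈ B, b ^ p ^ n = 1 := by
    intro b hb
    obtain ⟨i, a, ha, rfl⟩ := hform b hb
    rw [(hvAc a ha i).mul_pow, hAe a ha, mul_one, ← zpow_natCast, ← zpow_mul, mul_comm, zpow_mul,
      zpow_natCast, hv.2.2, one_zpow]
  have hAB : A ≤ B := by
    intro a ha
    show π a ∈ W
    rw [show π a = 1 from (QuotientGroup.eq_one_iff a).mpr ha]
    exact W.one_mem
  have h := hmax B (Subgroup.Normal.comap hWn π) hBc hBe hAB
  apply hvA
  rw [← h]
  show π v ∈ W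
  exact Subgroup.mem_zpowers _


/-- If A is maximal among the normal abelian subgroups of exponent dividing p^n of a p-group (p^n ≠ 2), then A contains every element of order dividing p^n in its centralizer. -/
theorem result {G : Type*} [Group G] [Finite G] {p : ℕ} [Fact p.Prime] (hG : IsPGroup p G) (n : ℕ) (hn : p ^ n ≠ 2) (A : Subgroup G) [A.Normal] (hA : IsMulCommutative A) (hAe : ∀ a ∈ A, a ^ p ^ n = 1) (hmax : ∀ B : Subgroup G, B.Normal → IsMulCommutative B → (∀ b ∈ B, b ^ p ^ n = 1) → A ≤ B → B = A) (x : G) (hx : x ∈ Subgroup.centralizer (A : Set G)) (hxn : x ^ p ^ n = 1) : x ∈ A := by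
  classical
  by_contra hxA
  have hp : p.Prime := Fact.out
  let C : Subgroup G := Subgroup.centralizer (A : Set G)
  have hAC : A ≤ C := by
    intro a ha
    rw [Subgroup.mem_centralizer_iff]
    intro b hb
    exact congrArg Subtype.val (hA.is_comm.comm ⟨b, hb⟩ ⟨a, ha⟩)
  haveI hCn : C.Normal := Subgroup.normal_centralizer
  let T : Set G := {t | t ∈ C ∧ t ^ p ^ n = 1}
  let Ω : Subgroup G := Subgroup.closure T
  have hΩC : Ω ≤ C := (Subgroup.closure_le _).mpr fun t ht => ht.1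
  have hTΩ : ∀ t, t ∈ C → t ^ p ^ n = 1 → t ∈ Ω := fun t h1 h2 => Subgroup.subset_closure ⟨h1, h2⟩
  have hAΩ : A ≤ Ω := fun a ha => hTΩ a (hAC ha) (hAe a ha)
  haveI hΩn : Ω.Normal := by
    refine ⟨fun n' hn' g => ?_⟩
    induction hn' using Subgroup.closure_induction with
    | mem t ht =>
      apply hTΩ
      · exact hCn.conj_mem t ht.1 g
      · rw [conj_pow, ht.2]
        group
    | one => simp
    | mul a b _ _ ha hb =>
      have : g * (a * b) * g⁻¹ = (g * a * g⁻¹) * (g * b * g⁻¹) := by group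
      rw [this]
      exact Ω.mul_mem ha hb
    | inv a _ ha =>
      have : g * a⁻¹ * g⁻¹ = (g * a * g⁻¹)⁻¹ := by group
      rw [this]
      exact Ω.inv_mem ha
  by_cases hΩΩ : ⁅Ω, Ω⁆ ≤ A
  · exact final_step hG n hn A hA hAe hmax Ω hAΩ hΩC hΩΩ x (hTΩ x hx hxn) hxA hxn
  -- minimal counterexample
  let F : Set (Subgroup G) := {S | S.Normal ∧ A ≤ S ∧ S ≤ Ω ∧ ¬ ⁅S, Ω⁆ ≤ A}
  have hΩF : Ω ∈ F := ⟨hΩn, hAΩ, le_rfl, hΩΩ⟩
  obtain ⟨S', hS'le, hS'min⟩ := (Set.toFinite F).exists_le_minimal hΩF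
  obtain ⟨hS'n, hAS', hS'Ω, hS'c⟩ := hS'min.prop
  haveI := hS'n
  have hS'A : S' ≠ A := by
    intro e
    apply hS'c
    rw [e, Subgroup.commutator_le]
    intro a ha t ht
    have h1 := Subgroup.mem_centralizer_iff.mp (hΩC ht) a ha
    rw [commutatorElement_eq_one_iff_mul_comm.mpr h1]
    exact A.one_mem
  obtain ⟨B, hBn, hAB, hBS, hBne, hBc⟩ := exists_between hG A S' hAS' hS'A
  haveI := hBn
  have hBF : B ∉ F := fun h => hBne (le_antisymm hBS (hS'min.le_of_le h hBS))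
  have hBΩ : B ≤ Ω := hBS.trans hS'Ω
  have hBΩc : ⁅B, Ω⁆ ≤ A := by
    by_contra hh
    exact hBF ⟨hBn, hAB, hBΩ, hh⟩
  -- a commutator outside `A`
  obtain ⟨w, hw, t, ht, hwt⟩ : ∃ w ∈ S', ∃ t ∈ T, ⁅w, t⁆ ∉ A := by
    by_contra hcon
    push_neg at hcon
    apply hS'c
    rw [Subgroup.commutator_le]
    intro w hw v hv
    induction hv using Subgroup.closure_induction with
    | mem t ht => exact hcon w hw t ht
    | one =>
      rw [commutatorElement_one_right]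
      exact A.one_mem
    | mul a b _ _ ha hb =>
      have : ⁅w, a * b⁆ = ⁅w, a⁆ * (a * ⁅w, b⁆ * a⁻¹) := by
        simp only [commutatorElement_def]; group
      rw [this]
      exact A.mul_mem ha (‹A.Normal›.conj_mem _ hb a)
    | inv a _ ha =>
      have : ⁅w, a⁻¹⁆ = a⁻¹ * ⁅w, a⁆⁻¹ * a := by
        simp only [commutatorElement_def]; group
      rw [this]
      have := ‹A.Normal›.conj_mem _ (A.inv_mem ha) a⁻¹
      rwa [inv_inv] at this
  set z := ⁅w, t⁆ with hz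
  have htΩ : t ∈ Ω := Subgroup.subset_closure ht
  have hzB : z ∈ B := by
    have h1 := hBc t w⁻¹ (‹S'.Normal› |> fun _ => S'.inv_mem hw)
    have h2 : z = w * (t * w⁻¹ * t⁻¹ * w⁻¹⁻¹) * w⁻¹ := by
      rw [hz, commutatorElement_def]; group
    rw [h2]
    exact hBn.conj_mem _ h1 w
  have hzΩ : z ∈ Ω := hBΩ hzB
  have hAΩc : ∀ a ∈ A, ∀ s ∈ Ω, a * s = s * a := fun a ha s hs =>
    Subgroup.mem_centralizer_iff.mp (hΩC hs) a ha
  have hc1 : ⁅z, t⁆ ∈ A := hBΩc (Subgroup.commutator_mem_commutator hzB htΩ)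
  have hcA : ⁅t, z⁆ ∈ A := by
    rw [← commutatorElement_inv]
    exact A.inv_mem hc1
  set c := ⁅t, z⁆ with hc
  have hcz : Commute c z := hAΩc c hcA z hzΩ
  have hct : Commute c t := hAΩc c hcA t htΩ
  have hN : p ^ n = p ^ n := rfl
  have hform := Cfsg.Agent.Lib.PNilpB.pow_mul_class2 (x := z) (z := t) (c := c)
    (by rw [hc, commutatorElement_def]; group) hcz hct (p ^ n)
  have hzt : z * t = w * t * w⁻¹ := by
    rw [hz, commutatorElement_def]; group
  have htN : t ^ p ^ n = 1 := ht.2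
  have hmain : z ^ p ^ n * c ^ (p ^ n).choose 2 = 1 := by
    rw [hzt, conj_pow, htN, mul_one, mul_inv_cancel, mul_one] at hform
    exact hform.symm
  have hBC : B ≤ C := hBΩ.trans hΩC
  have hBB : ⁅B, B⁆ ≤ A := (Subgroup.commutator_mono le_rfl hBΩ).trans hBΩc
  have hcN : c ^ p ^ n = 1 := hAe c hcA
  have hzN : z ^ p ^ n = (c ^ (p ^ n).choose 2)⁻¹ := eq_inv_of_mul_eq_one_left hmain
  by_cases hzp : z ^ p ∈ A
  · -- `c ^ p = 1`
    have hcp : c ^ p = 1 := by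
      have h1 : t * z * t⁻¹ = c * z := by
        rw [hc, commutatorElement_def]; group
      have h2 : (t * z * t⁻¹) ^ p = c ^ p * z ^ p := by
        rw [h1, hcz.mul_pow]
      rw [conj_pow] at h2
      have h3 : t * z ^ p * t⁻¹ = z ^ p := by
        rw [← hAΩc _ hzp t htΩ]
        group
      rw [h3] at h2
      exact (mul_eq_right.mp h2.symm)
    obtain ⟨r, hr⟩ := hp.dvd_choose_pow (n := n) (k := 2) (by norm_num) (Ne.symm hn)
    have hz1 : z ^ p ^ n = 1 := by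
      rw [hzN, hr, pow_mul, hcp, one_pow, inv_one]
    exact final_step hG n hn A hA hAe hmax B hAB hBC hBB z hzB hwt hz1
  · have hz1 : (z ^ p) ^ p ^ n = 1 := by
      rw [← pow_mul, mul_comm, pow_mul, hzN, inv_pow, ← pow_mul]
      obtain ⟨r, hr⟩ := arith_choose (p := p) (n := n) hp
      rw [hr, pow_mul, hcN, one_pow, inv_one]
    exact final_step hG n hn A hA hAe hmax B hAB hBC hBB (z ^ p) (B.pow_mem hzB p) hzp hz1

end Cfsg.Agent.S0130
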