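import Cfsg.Statements.S0100
import Cfsg.Agent.S0130
import Cfsg.Agent.Lib.PNormal

set_option autoImplicit false
open Cfsg

namespace Cfsg.Agent.S0100

/-- For odd p, a p-group without normal elementary abelian subgroups of order p^3 has p-rank at most 2. -/
theorem result {P : Type*} [Group P] [Finite P] {p : ℕ} [Fact p.Prime] (hp : p ≠ 2) (hP : IsPGroup p P) (h : ∀ A : Subgroup P, A.Normal → IsMulCommutative A → (∀ a ∈ A, a ^ p = 1) → Nat.card A ≠ p ^ 3) (E : Subgroup P) (hE : IsMulCommutative E) (hEe : ∀ e ∈ E, e ^ p = 1) : Nat.card E ≤ p ^ 2 := by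
  classical
  have hpp : p.Prime := Fact.out
  by_contra hlt
  push_neg at hlt
  let F : Set (Subgroup P) := {N | N.Normal ∧ IsMulCommutative N ∧ ∀ b ∈ N, b ^ p ^ 1 = 1}
  have hbot : (⊥ : Subgroup P) ∈ F := ⟨inferInstance, ⟨⟨fun a b => by
    apply Subtype.ext
    have ha := Subgroup.mem_bot.mp a.2
    have hb := Subgroup.mem_bot.mp b.2
    show (a : P) * b = b * a
    rw [ha, hb]⟩⟩, fun b hb => by
      rw [Subgroup.mem_bot.mp hb, one_pow]⟩
  obtain ⟨N, -, hNmax⟩ := (Set.toFinite F).exists_le_maximal hbot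
  obtain ⟨hNn, hNc, hNe⟩ := hNmax.prop
  haveI := hNn
  have hmax : ∀ B : Subgroup P, B.Normal → IsMulCommutative B → (∀ b ∈ B, b ^ p ^ 1 = 1) → N ≤ B → B = N := by
    intro B hB hBc hBe hNB
    exact le_antisymm (hNmax.le_of_ge ⟨hB, hBc, hBe⟩ hNB) hNB
  have hp1 : p ^ 1 ≠ 2 := by rwa [pow_one]
  obtain ⟨f, hf⟩ := IsPGroup.iff_card.mp (hP.to_subgroup N)
  have hf2 : f ≤ 2 := by
    by_contra hlt2
    obtain ⟨D, hDn, hDN, hDc⟩ := Cfsg.Agent.Lib.PNormal.exists_normal_card hP f N hNn hf 3 (by omega)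
    refine h D hDn ⟨⟨fun a b => ?_⟩⟩ ?_ hDc
    · apply Subtype.ext
      show (a : P) * b = b * a
      exact congrArg Subtype.val (hNc.is_comm.comm ⟨a, hDN a.2⟩ ⟨b, hDN b.2⟩)
    · intro a ha
      have := hNe a (hDN ha)
      rwa [pow_one] at this
  let C : Subgroup P := Subgroup.centralizer (N : Set P)
  haveI hCn : C.Normal := Subgroup.normal_centralizer
  have hidx : C.index ≤ p := by
    have h1 := Cfsg.Agent.Lib.PNormal.index_centralizer_le hP f N hNn hf
    refine h1.trans ?_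
    have h2 : f * (f - 1) / 2 ≤ 1 := by interval_cases f <;> simp
    calc p ^ (f * (f - 1) / 2) ≤ p ^ 1 := Nat.pow_le_pow_right hpp.pos h2
      _ = p := pow_one p
  have hEC : E ⊓ C ≤ N := by
    rintro x ⟨hxE, hxC⟩
    refine Cfsg.Agent.S0130.result hP 1 hp1 N hNc hNe hmax x hxC ?_
    rw [pow_one]
    exact hEe x hxE
  have hrel : C.relIndex E ≤ p :=
    (Nat.le_of_dvd (Nat.pos_of_ne_zero Subgroup.index_ne_zero_of_finite)
      (Subgroup.relIndex_dvd_index_of_normal C E)).trans hidx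
  have hcardE : Nat.card E = Nat.card (E ⊓ C : Subgroup P) * C.relIndex E := by
    have h1 := Subgroup.card_mul_index ((E ⊓ C).subgroupOf E)
    have h2 : Nat.card ((E ⊓ C).subgroupOf E) = Nat.card (E ⊓ C : Subgroup P) :=
      Nat.card_congr (Subgroup.subgroupOfEquivOfLe (inf_le_left : E ⊓ C ≤ E)).toEquiv
    have h3 : ((E ⊓ C).subgroupOf E).index = C.relIndex E := Subgroup.inf_relIndex_left E C
    rw [h2, h3] at h1
    exact h1.symm
  have hcardL : Nat.card (E ⊓ C : Subgroup P) ≤ p ^ f := by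
    rw [← hf]
    exact Subgroup.card_le_of_le hEC
  obtain ⟨e, he⟩ := IsPGroup.iff_card.mp (hP.to_subgroup E)
  have he3 : 3 ≤ e := by
    rw [he] at hlt
    have := (Nat.pow_lt_pow_iff_right hpp.one_lt).mp hlt
    omega
  have hE3 : p ^ e ≤ p ^ (f + 1) := by
    rw [← he, hcardE, pow_succ]
    exact Nat.mul_le_mul hcardL hrel
  have hef : e ≤ f + 1 := (Nat.pow_le_pow_iff_right hpp.one_lt).mp hE3
  have hf2' : f = 2 := by omega
  have he3' : e = 3 := by omega
  subst hf2'
  subst he3'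
  have hrelpos : 0 < C.relIndex E := Nat.pos_of_ne_zero
    (fun h0 => by rw [h0, mul_zero] at hcardE; rw [he] at hcardE; exact (pow_pos hpp.pos 3).ne' hcardE)
  have hLeq : Nat.card (E ⊓ C : Subgroup P) = p ^ 2 := by
    apply le_antisymm hcardL
    by_contra hlt2
    push_neg at hlt2
    have h1 : Nat.card E < p ^ 2 * p := by
      rw [hcardE]
      calc Nat.card (E ⊓ C : Subgroup P) * C.relIndex E ≤ Nat.card (E ⊓ C : Subgroup P) * p := Nat.mul_le_mul_left _ hrel
        _ < p ^ 2 * p := Nat.mul_lt_mul_of_pos_right hlt2 hpp.pos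
    rw [he, ← pow_succ] at h1
    exact lt_irrefl _ h1
  have hLN : E ⊓ C = N := Subgroup.eq_of_le_of_card_ge hEC (by rw [hf, hLeq])
  have hNE : N ≤ E := by rw [← hLN]; exact inf_le_left
  have hEC2 : E ≤ C := by
    intro x hxE
    rw [Subgroup.mem_centralizer_iff]
    intro n hn
    exact congrArg Subtype.val (hE.is_comm.comm ⟨n, hNE hn⟩ ⟨x, hxE⟩)
  have h4 : E ⊓ C = E := inf_eq_left.mpr hEC2
  rw [h4, he] at hLeq
  have := Nat.pow_right_injective hpp.two_le hLeq
  omega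

end Cfsg.Agent.S0100
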