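import Cfsg.Statements.S0104
import Cfsg.Agent.Lib.AmalgamChar
import Cfsg.Agent.Lib.H5Basic
import Cfsg.Agent.Lib.Commutators
import Cfsg.Agent.Lib.SchurZ

set_option autoImplicit false
open Cfsg

namespace Cfsg.Agent.S0104

/-- A subgroup Z of a Sylow p-subgroup P that is normalized by N_G(P) is weakly closed in P exactly when it is normal in every Sylow p-subgroup containing it. -/
theorem result {G : Type*} [Group G] [Finite G] {p : ℕ} [Fact p.Prime] (P : Sylow p G) (Z : Subgroup G) (hZP : Z ≤ (P : Subgroup G)) (hZN : Subgroup.normalizer (P : Set G) ≤ Subgroup.normalizer (Z : Set G)) : Cfsg.IsWeaklyClosed Z P ↔ ∀ R : Sylow p G, Z ≤ (R : Subgroup G) → (R : Subgroup G) ≤ Subgroup.normalizer (Z : Set G) := by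
  classical
  constructor
  · rintro ⟨-, hW⟩ R hZR
    obtain ⟨x, hx⟩ := MulAction.exists_smul_eq G R P
    have h1 : Z.map (MulAut.conj x).toMonoidHom ≤ (P : Subgroup G) := by
      rintro _ ⟨z, hz, rfl⟩
      rw [← hx]
      exact Cfsg.Agent.Lib.H5Basic.conj_mem_smul_sylow R x z (hZR hz)
    have h2 := hW x h1
    have h3 : x ∈ Subgroup.normalizer (Z : Set G) := Cfsg.Agent.Lib.AmalgamChar.mem_normalizer_of_map_eq h2
    intro r hr
    have h4 : x * r * x⁻¹ ∈ (P : Subgroup G) := by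
      rw [← hx]
      exact Cfsg.Agent.Lib.H5Basic.conj_mem_smul_sylow R x r hr
    have h5 : x * r * x⁻¹ ∈ Subgroup.normalizer (Z : Set G) := hZN (Subgroup.le_normalizer h4)
    have e : r = x⁻¹ * (x * r * x⁻¹) * x := by group
    rw [e]
    exact Subgroup.mul_mem _ (Subgroup.mul_mem _ (Subgroup.inv_mem _ h3) h5) h3
  · intro hR
    refine ⟨hZP, fun g hg => ?_⟩
    let Z' := Z.map (MulAut.conj g).toMonoidHom
    have hconjR : ∀ R : Sylow p G, Z' ≤ (R : Subgroup G) →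
        (R : Subgroup G) ≤ Subgroup.normalizer (Z' : Set G) := by
      intro R hZ'R
      have h1 : Z ≤ ((g⁻¹ • R : Sylow p G) : Subgroup G) := by
        intro z hz
        have h2 : g * z * g⁻¹ ∈ (R : Subgroup G) := hZ'R ⟨z, hz, rfl⟩
        have h3 := Cfsg.Agent.Lib.H5Basic.conj_mem_smul_sylow R g⁻¹ _ h2
        have e : g⁻¹ * (g * z * g⁻¹) * g⁻¹⁻¹ = z := by group
        rwa [e] at h3
      have h2 := hR _ h1
      intro r hr
      have h3 : g⁻¹ * r * g⁻¹⁻¹ ∈ ((g⁻¹ • R : Sylow p G) : Subgroup G) :=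
        Cfsg.Agent.Lib.H5Basic.conj_mem_smul_sylow R g⁻¹ r hr
      have h4 := h2 h3
      apply Cfsg.Agent.Lib.H5Basic.mem_normalizer_of_map_conj_le
      rintro _ ⟨_, ⟨z, hz, rfl⟩, rfl⟩
      have h5 := Cfsg.Agent.Lib.Commutators.conj_mem_of_mem_normalizer h4 hz
      refine ⟨_, h5, ?_⟩
      show g * (g⁻¹ * r * g⁻¹⁻¹ * z * (g⁻¹ * r * g⁻¹⁻¹)⁻¹) * g⁻¹ = r * (g * z * g⁻¹) * r⁻¹
      group
    let N := Subgroup.normalizer (Z' : Set G)
    have hPN : (P : Subgroup G) ≤ N := hconjR P hg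
    have hgPZ : Z' ≤ ((g • P : Sylow p G) : Subgroup G) := by
      rintro _ ⟨z, hz, rfl⟩
      exact Cfsg.Agent.Lib.H5Basic.conj_mem_smul_sylow P g z (hZP hz)
    have hgPN : ((g • P : Sylow p G) : Subgroup G) ≤ N := hconjR _ hgPZ
    obtain ⟨n, hn⟩ := MulAction.exists_smul_eq N (P.subtype hPN) ((g • P).subtype hgPN)
    -- `g⁻¹ n` normalizes `P`
    have hd : g⁻¹ * (n : G) ∈ Subgroup.normalizer ((P : Subgroup G) : Set G) := by
      apply Cfsg.Agent.Lib.H5Basic.mem_normalizer_of_map_conj_le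
      rintro _ ⟨x, hx, rfl⟩
      have h1 : (⟨x, hPN hx⟩ : N) ∈ (((P.subtype hPN : Sylow p N)) : Subgroup N) := by
        rw [Sylow.coe_subtype]
        exact Subgroup.mem_subgroupOf.mpr hx
      have h2 := Cfsg.Agent.Lib.H5Basic.conj_mem_smul_sylow (P.subtype hPN) n _ h1
      rw [hn, Sylow.coe_subtype, Subgroup.mem_subgroupOf] at h2
      have h3 := Cfsg.Agent.Lib.H5Basic.mem_of_mem_smul_sylow P g _ h2
      have e : g⁻¹ * ((n * ⟨x, hPN hx⟩ * n⁻¹ : N) : G) * g = (g⁻¹ * n) * x * (g⁻¹ * n)⁻¹ := by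
        simp only [Subgroup.coe_mul, Subgroup.coe_inv]
        group
      rw [e] at h3
      exact h3
    have hdZ : g⁻¹ * (n : G) ∈ Subgroup.normalizer (Z : Set G) := hZN hd
    have hZle : Z ≤ Z' := by
      intro z hz
      -- `z` is a conjugate of `z₁ ∈ Z` under `n⁻¹ g`
      have hdinv := Subgroup.inv_mem _ hdZ
      have hz₁ : (g⁻¹ * (n : G)) * z * (g⁻¹ * (n : G))⁻¹ ∈ Z :=
        Cfsg.Agent.Lib.Commutators.conj_mem_of_mem_normalizer hdZ hz
      have h1 : g * ((g⁻¹ * (n : G)) * z * (g⁻¹ * (n : G))⁻¹) * g⁻¹ ∈ Z' := ⟨_, hz₁, rfl⟩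
      have h2 := Cfsg.Agent.Lib.Commutators.conj_inv_mem_of_mem_normalizer n.2 h1
      have e : (n : G)⁻¹ * (g * ((g⁻¹ * (n : G)) * z * (g⁻¹ * (n : G))⁻¹) * g⁻¹) * n = z := by group
      rwa [e] at h2
    exact (Subgroup.eq_of_le_of_card_ge hZle (by
      rw [Cfsg.Agent.Lib.SchurZ.conj_map_card])).symm

end Cfsg.Agent.S0104
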