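import Cfsg.Statements.S0105
import Cfsg.Agent.S0074
import Cfsg.Agent.S0090
import Cfsg.Agent.Lib.FocalGen
open scoped commutatorElement IsMulCommutative

set_option autoImplicit false
open Cfsg

namespace Cfsg.Agent.S0105

/-- With an abelian Sylow p-subgroup P, some quotient of G is isomorphic to the part of P central in N_G(P). -/
theorem result {G : Type*} [Group G] [Finite G] {p : ℕ} [Fact p.Prime] (P : Sylow p G) (hP : IsMulCommutative P) : ∃ (N : Subgroup G) (hN : N.Normal), Nonempty (G ⧸ N ≃* ((P : Subgroup G) ⊓ Subgroup.centralizer (Subgroup.normalizer (P : Set G) : Set G) : Subgroup G)) := by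
  classical
  haveI := hP
  let N : Subgroup G := Subgroup.normalizer ((P : Subgroup G) : Set G)
  have hPN : (P : Subgroup G) ≤ N := Subgroup.le_normalizer
  let A : Subgroup N := (P : Subgroup G).subgroupOf N
  haveI hAn : A.Normal := Subgroup.normal_in_normalizer
  have hAc : IsMulCommutative A := ⟨⟨fun a b => by
    apply Subtype.ext
    apply Subtype.ext
    show ((a : N) : G) * ((b : N) : G) = ((b : N) : G) * ((a : N) : G)
    exact congrArg Subtype.val (hP.is_comm.comm ⟨_, a.2⟩ ⟨_, b.2⟩)⟩⟩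
  have hHall : Nat.Coprime (Nat.card A) A.index := by
    have h1 := (P.subtype hPN).card_coprime_index
    rwa [Sylow.coe_subtype] at h1
  obtain ⟨-, hdisj, hsup⟩ := Cfsg.Agent.S0090.result A hAc hHall
  have hfoc : (P : Subgroup G).focalSubgroup = commutator G ⊓ (P : Subgroup G) :=
    Cfsg.Agent.Lib.FocalGen.focal_eq_inf _ (Cfsg.Agent.Lib.FocalGen.coprime_of_sylow P)
  have hS74 := Cfsg.Agent.S0074.result P hP
  -- the transfer map
  let V := (P : Subgroup G).transferFocal
  have hVs : Function.Surjective V := Subgroup.transferFocal_surjective P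
  let Z₀ : Subgroup G := (P : Subgroup G) ⊓ Subgroup.centralizer (N : Set G)
  let f : Z₀ →* ((P : Subgroup G) ⧸ (P : Subgroup G).focalSubgroupOf) :=
    (QuotientGroup.mk' _).comp (Subgroup.inclusion (inf_le_left : Z₀ ≤ (P : Subgroup G)))
  have hmem : ∀ z (hz : z ∈ (P : Subgroup G).focalSubgroup), z ∈ ⁅N, N⁆ := by
    intro z hz
    rw [hfoc] at hz
    have h1 : z ∈ commutator G ⊓ (P : Subgroup G) := hz
    rw [hS74] at h1
    exact h1.1
  have hfinj : Function.Injective f := by
    rw [← MonoidHom.ker_eq_bot_iff, eq_bot_iff]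
    rintro z hz
    have h1 : (QuotientGroup.mk (⟨z, z.2.1⟩ : (P : Subgroup G)) : (P : Subgroup G) ⧸ (P : Subgroup G).focalSubgroupOf) = 1 := hz
    have h2 : (⟨z, z.2.1⟩ : (P : Subgroup G)) ∈ (P : Subgroup G).focalSubgroupOf := (QuotientGroup.eq_one_iff _).mp h1
    have h3 : (z : G) ∈ (P : Subgroup G).focalSubgroup := h2
    have h4 := hmem _ h3
    rw [← Subgroup.map_subtype_commutator] at h4
    obtain ⟨y, hy, hye⟩ := h4
    have hyA : y ∈ A := by
      show (y : G) ∈ (P : Subgroup G)
      have : (y : G) = z := hye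
      rw [this]
      exact z.2.1
    have hyZ : y ∈ Subgroup.center N := by
      rw [Subgroup.mem_center_iff]
      intro n
      apply Subtype.ext
      have hz2 := z.2.2
      have : (y : G) = z := hye
      show (n : G) * (y : G) = (y : G) * n
      rw [this]
      exact (Subgroup.mem_centralizer_iff.mp hz2 n n.2)
    have h5 : y ∈ (commutator N ⊓ A) ⊓ (Subgroup.center N ⊓ A) := ⟨⟨hy, hyA⟩, ⟨hyZ, hyA⟩⟩
    rw [hdisj, Subgroup.mem_bot] at h5
    have h6 : (z : G) = 1 := by
      rw [← show (y : G) = z from hye, h5]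
      rfl
    exact Subgroup.mem_bot.mpr (Subtype.ext h6)
  have hfsurj : Function.Surjective f := by
    intro y
    obtain ⟨x, rfl⟩ := QuotientGroup.mk_surjective y
    have hxN : (x : G) ∈ N := hPN x.2
    have hxA : (⟨x, hxN⟩ : N) ∈ A := x.2
    have h1 : (⟨x, hxN⟩ : N) ∈ (((commutator N ⊓ A) ⊔ (Subgroup.center N ⊓ A) : Subgroup N) : Set N) := by
      rw [hsup]
      exact hxA
    rw [Subgroup.mul_normal, Set.mem_mul] at h1
    obtain ⟨w, ⟨hw1, hw2⟩, z, ⟨hz1, hz2⟩, hwz⟩ := h1
    have hzP : (z : G) ∈ (P : Subgroup G) := hz2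
    have hwP : (w : G) ∈ (P : Subgroup G) := hw2
    have hzC : (z : G) ∈ Subgroup.centralizer (N : Set G) := by
      rw [Subgroup.mem_centralizer_iff]
      intro n hn
      have := Subgroup.mem_center_iff.mp hz1 ⟨n, hn⟩
      exact congrArg Subtype.val this
    refine ⟨⟨z, hzP, hzC⟩, ?_⟩
    have hxe : (x : G) = (w : G) * z := (congrArg Subtype.val hwz).symm
    have hwG : (w : G) ∈ commutator G ⊓ (P : Subgroup G) := by
      rw [hS74]
      refine ⟨?_, hwP⟩
      rw [← Subgroup.map_subtype_commutator]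
      exact ⟨w, hw1, rfl⟩
    have hwfoc : (w : G) ∈ (P : Subgroup G).focalSubgroup := by
      rw [hfoc]; exact hwG
    show (QuotientGroup.mk (⟨z, hzP⟩ : (P : Subgroup G)) : (P : Subgroup G) ⧸ (P : Subgroup G).focalSubgroupOf) = QuotientGroup.mk x
    apply QuotientGroup.eq.mpr
    show ((⟨z, hzP⟩ : (P : Subgroup G))⁻¹ * x : (P : Subgroup G)).1 ∈ (P : Subgroup G).focalSubgroup
    have h2 : (((⟨z, hzP⟩ : (P : Subgroup G))⁻¹ * x : (P : Subgroup G)) : G) = (w : G) := by
      show (z : G)⁻¹ * (x : G) = w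
      rw [hxe]
      have h3 : (w : G) * z = z * w := by
        have := Subgroup.mem_center_iff.mp hz1 w
        exact congrArg Subtype.val this
      rw [h3]
      group
    rw [h2]
    exact hwfoc
  let e₁ : G ⧸ V.ker ≃* ((P : Subgroup G) ⧸ (P : Subgroup G).focalSubgroupOf) :=
    QuotientGroup.quotientKerEquivOfSurjective V hVs
  let e₂ : Z₀ ≃* ((P : Subgroup G) ⧸ (P : Subgroup G).focalSubgroupOf) :=
    MulEquiv.ofBijective f ⟨hfinj, hfsurj⟩
  exact ⟨V.ker, inferInstance, ⟨e₁.trans e₂.symm⟩⟩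

end Cfsg.Agent.S0105
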