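import Cfsg.Statements.S0107
import Mathlib
import Cfsg.Agent.S0111
import Cfsg.Agent.Lib.PResidual
import Cfsg.Agent.Lib.SylowCount
import Cfsg.Agent.Lib.CharBlockOrth

set_option autoImplicit false
set_option linter.style.haveILetI false
set_option linter.unusedVariables false
open scoped ComplexConjugate
open Cfsg

namespace Cfsg.Agent.S0107

/-- A finite group with no nontrivial 2-group quotient and dihedral Sylow 2-subgroups of order at least 8 has a single class of involutions. -/
theorem result {G : Type*} [Group G] [Finite G] (T : Sylow 2 G) (n : ℕ) (hn : 2 ≤ n) (hT : Nonempty ((T : Subgroup G) ≃* DihedralGroup (2 ^ n))) (hO : Cfsg.pResidual 2 G = ⊤) (x y : G) (hx : orderOf x = 2) (hy : orderOf y = 2) : ∃ g : G, g * x * g⁻¹ = y := by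
  classical
  cases nonempty_fintype G
  obtain ⟨e⟩ := hT
  have hM : ¬ ∃ M : Subgroup G, M.Normal ∧ M.index = 2 := by
    rintro ⟨M, hMn, hMi⟩
    haveI := hMn
    have hp : IsPGroup 2 (G ⧸ M) := by
      apply IsPGroup.of_card (n := 1)
      rw [← Subgroup.index_eq_card, hMi, pow_one]
    have h1 : Cfsg.pResidual 2 G ≤ M := Cfsg.Agent.Lib.PResidual.pResidual_le_of_isPGroup_quotient hp
    rw [hO, top_le_iff] at h1
    rw [h1, Subgroup.index_top] at hMi
    omega
  -- the cyclic subgroup of index two
  let R₀ : Subgroup (DihedralGroup (2 ^ n)) := Subgroup.zpowers (DihedralGroup.r 1)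
  haveI : NeZero (2 ^ n) := ⟨by positivity⟩
  have hcardD : Nat.card (DihedralGroup (2 ^ n)) = 2 * 2 ^ n := DihedralGroup.nat_card
  have hcardR₀ : Nat.card R₀ = 2 ^ n := by
    rw [Nat.card_zpowers, DihedralGroup.orderOf_r_one]
  let R₁ : Subgroup (T : Subgroup G) := R₀.map e.symm.toMonoidHom
  have hcardR₁ : Nat.card R₁ = 2 ^ n := by
    rw [← hcardR₀]
    exact Subgroup.card_map_of_injective e.symm.injective
  have hcardT : Nat.card (T : Subgroup G) = 2 * 2 ^ n := by
    rw [← hcardD]
    exact Nat.card_congr e.toEquiv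
  let Q : Subgroup G := R₁.map (T : Subgroup G).subtype
  have hcardQ : Nat.card Q = 2 ^ n := by
    rw [← hcardR₁]
    exact Subgroup.card_map_of_injective (T : Subgroup G).subtype_injective
  have hQT : Q ≤ T := by
    rintro _ ⟨x, -, rfl⟩
    exact x.2
  have hQi : Q.relIndex (T : Subgroup G) = 2 := by
    have h1 : R₁.index = 2 := by
      have h2 := Subgroup.card_mul_index R₁
      rw [hcardR₁, hcardT] at h2
      have h3 : 0 < 2 ^ n := by positivity
      exact Nat.eq_of_mul_eq_mul_left h3 (by rw [h2]; ring)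
    have h4 : Q.subgroupOf (T : Subgroup G) = R₁ := by
      ext x
      simp only [Subgroup.mem_subgroupOf, Q, Subgroup.mem_map]
      constructor
      · rintro ⟨y, hy, hxy⟩
        have : y = x := Subtype.ext hxy
        rwa [← this]
      · intro hx
        exact ⟨x, hx, rfl⟩
    rw [Subgroup.relIndex, h4, h1]
  -- uniqueness of involutions in `Q`
  have huniq : ∀ a ∈ Q, ∀ b ∈ Q, orderOf a = 2 → orderOf b = 2 → a = b := by
    have hcyc : IsCyclic Q := by
      have h1 : IsCyclic R₀ := inferInstance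
      have h2 : Q ≃* R₀ := by
        have e1 : Q ≃* R₁ := (Subgroup.equivMapOfInjective R₁ (T : Subgroup G).subtype (T : Subgroup G).subtype_injective).symm
        have e2 : R₀ ≃* R₁ := Subgroup.equivMapOfInjective R₀ e.symm.toMonoidHom e.symm.injective
        exact e1.trans e2.symm
      exact isCyclic_of_injective h2.toMonoidHom h2.injective
    letI : Fintype Q := Fintype.ofFinite _
    intro a ha b hb hao hbo
    by_contra hab
    have hle := IsCyclic.card_pow_eq_one_le (α := Q) (n := 2) (by norm_num)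
    have hsub : ({1, ⟨a, ha⟩, ⟨b, hb⟩} : Finset Q) ⊆ Finset.univ.filter (fun x : Q => x ^ 2 = 1) := by
      intro x hx
      simp only [Finset.mem_insert, Finset.mem_singleton] at hx
      simp only [Finset.mem_filter, Finset.mem_univ, true_and]
      rcases hx with rfl | rfl | rfl
      · simp
      · apply Subtype.ext
        simp only [Subgroup.coe_pow, Subgroup.coe_one]
        rw [← hao, pow_orderOf_eq_one]
      · apply Subtype.ext
        simp only [Subgroup.coe_pow, Subgroup.coe_one]
        rw [← hbo, pow_orderOf_eq_one]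
    have hcard3 : ({1, ⟨a, ha⟩, ⟨b, hb⟩} : Finset Q).card = 3 := by
      rw [Finset.card_eq_three]
      refine ⟨1, ⟨a, ha⟩, ⟨b, hb⟩, ?_, ?_, ?_, rfl⟩
      · intro h
        have : a = 1 := (congrArg Subtype.val h).symm
        rw [this, orderOf_one] at hao
        omega
      · intro h
        have : b = 1 := (congrArg Subtype.val h).symm
        rw [this, orderOf_one] at hbo
        omega
      · intro h
        exact hab (congrArg Subtype.val h)
    have := Finset.card_le_card hsub
    omega
  -- conjugate into `Q`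
  have hconj : ∀ x : G, orderOf x = 2 → ∃ g : G, g * x * g⁻¹ ∈ Q := by
    intro x hx
    haveI : Fact (Nat.Prime 2) := ⟨Nat.prime_two⟩
    have hp : IsPGroup 2 (Subgroup.zpowers x) := by
      apply IsPGroup.of_card (n := 1)
      rw [Nat.card_zpowers, hx, pow_one]
    obtain ⟨S, hS⟩ := hp.exists_le_sylow
    obtain ⟨c, hc⟩ := MulAction.exists_smul_eq G S T
    have hux : c * x * c⁻¹ ∈ (T : Subgroup G) := by
      rw [← hc]
      have h1 : x ∈ (S : Subgroup G) := hS (Subgroup.mem_zpowers x)
      exact (Cfsg.Agent.Lib.SylowCount.mem_smul_sylow c _ S).2 (by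
        have : c⁻¹ * (c * x * c⁻¹) * c = x := by group
        rw [this]; exact h1)
    by_cases huQ : c * x * c⁻¹ ∈ Q
    · exact ⟨c, huQ⟩
    · have hou : orderOf (c * x * c⁻¹) = 2 := by
        rw [← hx]
        exact Cfsg.Agent.Lib.CharBlockOrth.orderOf_conj' c x
      rcases Cfsg.Agent.S0111.result T Q hQT hQi (c * x * c⁻¹) hou hux huQ with ⟨M, hMn, hMi, -⟩ | ⟨g, hg⟩
      · exact absurd ⟨M, hMn, hMi⟩ hM
      · refine ⟨g * c, ?_⟩
        have : g * c * x * (g * c)⁻¹ = g * (c * x * c⁻¹) * g⁻¹ := by group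
        rwa [this]
  obtain ⟨a, ha⟩ := hconj x hx
  obtain ⟨b, hb⟩ := hconj y hy
  have hoa : orderOf (a * x * a⁻¹) = 2 := by
    rw [← hx]
    exact Cfsg.Agent.Lib.CharBlockOrth.orderOf_conj' a x
  have hob : orderOf (b * y * b⁻¹) = 2 := by
    rw [← hy]
    exact Cfsg.Agent.Lib.CharBlockOrth.orderOf_conj' b y
  have hab := huniq _ ha _ hb hoa hob
  refine ⟨b⁻¹ * a, ?_⟩
  calc b⁻¹ * a * x * (b⁻¹ * a)⁻¹ = b⁻¹ * (a * x * a⁻¹) * b := by group
    _ = b⁻¹ * (b * y * b⁻¹) * b := by rw [hab]
    _ = y := by group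

end Cfsg.Agent.S0107
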