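import Cfsg.Statements.S0109
import Mathlib
import Cfsg.Agent.Lib.SolvStable
import Cfsg.Agent.Lib.ZJApps
import Cfsg.Agent.Lib.ZJFunctor
import Cfsg.Agent.Lib.FitSolv

set_option autoImplicit false
open Cfsg

namespace Cfsg.Agent.S0109

open scoped commutatorElement



/-- The Thompson factorization Theorem for solvable groups states that, with p odd (and abelian Sylow 2-subgroups when p = 3) and no nontrivial normal subgroup of order prime to p, every element of G is a product of an element normalizing J(P) and an element centralizing the elements of order dividing p in the centre of P. -/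
theorem result {G : Type*} [Group G] [Finite G] {p : ℕ} [Fact p.Prime] (hp : p ≠ 2) (hs : Group.IsSolvable G) (h3 : p = 3 → ∀ T : Sylow 2 G, IsMulCommutative T) (hF : ∀ N : Subgroup G, N.Normal → Nat.Coprime (Nat.card N) p → N = ⊥) (P : Sylow p G) (g : G) : ∃ a ∈ Subgroup.normalizer (Cfsg.thompsonSubgroupOf p (P : Subgroup G) : Set G), ∃ c ∈ Subgroup.centralizer {x : G | x ∈ (P : Subgroup G) ∧ (∀ y ∈ (P : Subgroup G), x * y = y * x) ∧ x ^ p = 1}, g = a * c := by
  classical
  have hpp : p.Prime := Fact.out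
  haveI := hs
  have hstable := Cfsg.Agent.Lib.SolvStable.stable_of_solvable hp hs h3
  -- the core
  have hcore : Cfsg.pPrimeCore p G = ⊥ := by
    refine hF _ (Cfsg.Agent.Lib.FitCore.pPrimeCore_normal p) ?_
    exact ((Nat.Prime.coprime_iff_not_dvd hpp).2 (Cfsg.Agent.Lib.FitCore.not_dvd_card_pPrimeCore p hpp)).symm
  have hC := Cfsg.Agent.Lib.FitSolv.centralizer_pCore_le (G := G) p hcore
  haveI hQn := Cfsg.Agent.Lib.FitCore.pCore_normal (G := G) p
  have hQP := Cfsg.Agent.Lib.FitCore.pCore_le_sylow p P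
  have hQp := Cfsg.Agent.Lib.FitCore.pCore_isPGroup (G := G) p
  -- the subgroup of central elements of order dividing `p`
  let E : Subgroup G :=
    { carrier := {x : G | x ∈ (P : Subgroup G) ∧ (∀ y ∈ (P : Subgroup G), x * y = y * x) ∧ x ^ p = 1}
      mul_mem' := by
        rintro a b ⟨ha, hac, hap⟩ ⟨hb, hbc, hbp⟩
        refine ⟨Subgroup.mul_mem _ ha hb, ?_, ?_⟩
        · intro y hy
          rw [mul_assoc, hbc y hy, ← mul_assoc, hac y hy, mul_assoc]
        · have : Commute a b := hac b hb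
          rw [this.mul_pow, hap, hbp, one_mul]
      one_mem' := ⟨Subgroup.one_mem _, by simp, by simp⟩
      inv_mem' := by
        rintro a ⟨ha, hac, hap⟩
        refine ⟨Subgroup.inv_mem _ ha, ?_, by rw [inv_pow, hap, inv_one]⟩
        intro y hy
        have h1 := hac y hy
        calc a⁻¹ * y = a⁻¹ * (y * a) * a⁻¹ := by group
          _ = a⁻¹ * (a * y) * a⁻¹ := by rw [h1]
          _ = y * a⁻¹ := by group }
  have hES : ∀ x, x ∈ E ↔ (x ∈ (P : Subgroup G) ∧ (∀ y ∈ (P : Subgroup G), x * y = y * x) ∧ x ^ p = 1) := fun x => Iff.rfl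
  let ZQ : Subgroup G := Cfsg.pCore p G ⊓ Subgroup.centralizer (Cfsg.pCore p G : Set G)
  haveI hZQ : ZQ.Normal := inferInstance
  have hEZ : E ≤ ZQ := by
    intro x hx
    have h1 : x ∈ Subgroup.centralizer (Cfsg.pCore p G : Set G) := by
      rw [Subgroup.mem_centralizer_iff]
      intro y hy
      exact ((hx.2.1 y (hQP hy))).symm
    exact ⟨hC h1, h1⟩
  let B : Subgroup G := Subgroup.normalClosure (E : Set G)
  haveI hBn : B.Normal := Subgroup.normalClosure_normal
  have hBZ : B ≤ ZQ := Subgroup.normalClosure_le_normal hEZ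
  have hBQ : B ≤ Cfsg.pCore p G := hBZ.trans inf_le_left
  have hBab : ∀ b ∈ B, ∀ c ∈ B, ⁅b, c⁆ = 1 := by
    intro b hb c hc
    rw [commutatorElement_eq_one_iff_mul_comm]
    exact ((Subgroup.mem_centralizer_iff.1 (hBZ hb).2) c (hBQ hc)).symm
  have hle : E ≤ B := Subgroup.le_normalClosure
  obtain ⟨c, hc, n, hn, hg⟩ := Cfsg.Agent.Lib.ZJ.main_B (X := G) (e := p) (p := p) hp (Or.inr rfl) P (D := (P : Subgroup G))
    (Cfsg.Agent.Lib.ZJFunctor.stronglyClosed_self _) (E := E) (B := B) hBn rfl (hBQ.trans hQP)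
    (fun x hx => hx.1) (fun z hz => hz.2.2)
    (fun z hz A hA a ha => hz.2.1 a (hA.1 ha))
    (fun b hb c hc d _ => by rw [hBab b hb c hc, one_mul, mul_one])
    (fun b hb c hc A _ a _ => by rw [hBab b hb c hc, one_mul, mul_one])
    (Cfsg.Agent.Lib.ZJApps.stabOn_of_normalizerStable hstable hBn (hQp.to_le hBQ)) g⁻¹
  refine ⟨n⁻¹, ?_, c⁻¹, ?_, ?_⟩
  · rw [Cfsg.Agent.Lib.ZJApps.thompsonOf_eq]
    exact Subgroup.inv_mem _ hn
  · refine Subgroup.inv_mem _ ?_
    rw [Subgroup.mem_centralizer_iff] at hc ⊢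
    intro h hh
    exact hc h (hle hh)
  · have : g = (g⁻¹)⁻¹ := by group
    rw [this, hg]
    group

end Cfsg.Agent.S0109
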