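import Cfsg.Statements.S0110
import Cfsg.Agent.Lib.H6PGroup

open scoped commutatorElement

set_option autoImplicit false
open Cfsg

namespace Cfsg.Agent.S0110

/-- In a p-group G, an extraspecial subgroup E with [G, E] ≤ Z(E) satisfies G = E C_G(E). -/
theorem result {G : Type*} [Group G] [Finite G] {p : ℕ} [Fact p.Prime] (hG : IsPGroup p G) (E : Subgroup G) (hE : Cfsg.IsExtraspecial p E) (h : ⁅(⊤ : Subgroup G), E⁆ ≤ E ⊓ Subgroup.centralizer (E : Set G)) : E ⊔ Subgroup.centralizer (E : Set G) = ⊤ := by
  classical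
  obtain ⟨⟨hEp, hF, hC⟩, hZ⟩ := hE
  have hp : p.Prime := Fact.out
  -- generators of `E`
  have hidx : ∃ r : ℕ, (frattini E).index = p ^ r := by
    have h1 : (frattini E).index ∣ Nat.card E := Subgroup.index_dvd_card _
    obtain ⟨k, hk⟩ := IsPGroup.iff_card.mp hEp
    rw [hk] at h1
    obtain ⟨r, -, hr⟩ := (Nat.dvd_prime_pow hp).mp h1
    exact ⟨r, hr⟩
  obtain ⟨r, hr⟩ := hidx
  obtain ⟨S, hS, hcl⟩ := Cfsg.Agent.Lib.H6PGroup.exists_gens_of_frattini p r hr
  let Zs : Subgroup G := E ⊓ Subgroup.centralizer (E : Set G)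
  have hZs : Nat.card Zs = p := by
    rw [← hZ]
    have e : (Subgroup.center E).map E.subtype = Zs := by
      ext x
      constructor
      · rintro ⟨z, hz, rfl⟩
        refine ⟨z.2, Subgroup.mem_centralizer_iff.mpr (fun y hy => ?_)⟩
        have := Subgroup.mem_center_iff.mp hz ⟨y, hy⟩
        exact congrArg Subtype.val this
      · rintro ⟨hx, hxc⟩
        refine ⟨⟨x, hx⟩, Subgroup.mem_center_iff.mpr (fun y => ?_), rfl⟩
        apply Subtype.ext
        exact Subgroup.mem_centralizer_iff.mp hxc y y.2
    rw [← e, Subgroup.card_map_of_injective E.subtype_injective]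
  have hcomm : ∀ g : G, ∀ e ∈ E, g * e * g⁻¹ * e⁻¹ ∈ Zs := by
    intro g e he
    apply h
    have := Subgroup.commutator_mem_commutator (Subgroup.mem_top g) he
    rwa [commutatorElement_def] at this
  let X := S → Zs
  let Θ₀ : G → X := fun g s => ⟨g * (s : E) * g⁻¹ * ((s : E) : G)⁻¹, hcomm g _ (s : E).2⟩
  let Θ : (E ⧸ frattini E) → X := fun q => Θ₀ ((Quotient.out q : E) : G)
  have hΘi : Function.Injective Θ := by
    intro q q' hqq
    have h1 : ∀ s : S, ((Quotient.out q : E) : G) * (s : E) * ((Quotient.out q : E) : G)⁻¹ * ((s : E) : G)⁻¹ =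
        ((Quotient.out q' : E) : G) * (s : E) * ((Quotient.out q' : E) : G)⁻¹ * ((s : E) : G)⁻¹ := by
      intro s
      exact congrArg Subtype.val (congrFun hqq s)
    -- the difference is central in `E`
    let d : E := (Quotient.out q)⁻¹ * Quotient.out q'
    have hd : ∀ s : E, s ∈ Subgroup.closure (S : Set E) → d * s = s * d := by
      intro s hs
      induction hs using Subgroup.closure_induction with
      | mem s hs =>
        have h2 := h1 ⟨s, hs⟩
        apply Subtype.ext
        show (((Quotient.out q)⁻¹ * Quotient.out q' : E) : G) * (s : G) = (s : G) * (((Quotient.out q)⁻¹ * Quotient.out q' : E) : G)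
        have h3 := mul_right_cancel h2
        have h4 : ((Quotient.out q : E) : G) * (s : G) * ((Quotient.out q : E) : G)⁻¹ =
          ((Quotient.out q' : E) : G) * (s : G) * ((Quotient.out q' : E) : G)⁻¹ := h3
        simp only [Subgroup.coe_mul, Subgroup.coe_inv]
        have h5 : ((Quotient.out q' : E) : G) * (s : G) = ((Quotient.out q : E) : G) * (s : G) * ((Quotient.out q : E) : G)⁻¹ * ((Quotient.out q' : E) : G) := by
          rw [h4]; group
        calc ((Quotient.out q : E) : G)⁻¹ * ((Quotient.out q' : E) : G) * (s : G)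
            = ((Quotient.out q : E) : G)⁻¹ * (((Quotient.out q' : E) : G) * (s : G)) := by group
          _ = ((Quotient.out q : E) : G)⁻¹ * (((Quotient.out q : E) : G) * (s : G) * ((Quotient.out q : E) : G)⁻¹ * ((Quotient.out q' : E) : G)) := by rw [h5]
          _ = _ := by group
      | one => simp
      | mul a b _ _ ha hb =>
        calc d * (a * b) = (d * a) * b := by group
          _ = (a * d) * b := by rw [ha]
          _ = a * (d * b) := by group
          _ = a * (b * d) := by rw [hb]
          _ = _ := by group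
      | inv a _ ha =>
        calc d * a⁻¹ = a⁻¹ * (a * d) * a⁻¹ := by group
          _ = a⁻¹ * (d * a) * a⁻¹ := by rw [ha]
          _ = a⁻¹ * d := by group
    have hdc : d ∈ Subgroup.center E := by
      refine Subgroup.mem_center_iff.mpr (fun s => ?_)
      have : s ∈ Subgroup.closure (S : Set E) := by rw [hcl]; trivial
      exact (hd s this).symm
    rw [← hF] at hdc
    have h6 := QuotientGroup.eq.mpr hdc
    rw [QuotientGroup.out_eq', QuotientGroup.out_eq'] at h6
    exact h6
  have hcardX : Nat.card X ≤ Nat.card (E ⧸ frattini E) := by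
    show Nat.card (S → Zs) ≤ _
    rw [Nat.card_fun, hZs]
    show _ ≤ (frattini E).index
    rw [hr, Nat.card_eq_fintype_card, Fintype.card_coe]
    exact Nat.pow_le_pow_right hp.pos hS
  have hΘb := hΘi.bijective_of_nat_card_le hcardX
  rw [eq_top_iff]
  intro g _
  obtain ⟨q, hq⟩ := hΘb.2 (Θ₀ g)
  let e : G := ((Quotient.out q : E) : G)
  have heE : e ∈ E := (Quotient.out q).2
  have hval : ∀ s : S, e * (s : E) * e⁻¹ * ((s : E) : G)⁻¹ = g * (s : E) * g⁻¹ * ((s : E) : G)⁻¹ := by
    intro s
    exact congrArg Subtype.val (congrFun hq s)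
  let y := e⁻¹ * g
  have hy : ∀ s : E, s ∈ Subgroup.closure (S : Set E) → y * (s : G) = s * y := by
    intro s hs
    induction hs using Subgroup.closure_induction with
    | mem s hs =>
      have h3 := mul_right_cancel (hval ⟨s, hs⟩)
      have h3' : e * (s : G) * e⁻¹ = g * (s : G) * g⁻¹ := h3
      show (e⁻¹ * g) * (s : G) = s * (e⁻¹ * g)
      have h5 : g * (s : G) = e * (s : G) * e⁻¹ * g := by rw [h3']; group
      calc (e⁻¹ * g) * (s : G) = e⁻¹ * (g * (s : G)) := by group
        _ = e⁻¹ * (e * (s : G) * e⁻¹ * g) := by rw [h5]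
        _ = _ := by group
    | one => simp
    | mul a b _ _ ha hb =>
      simp only [Subgroup.coe_mul]
      calc y * ((a : G) * b) = (y * a) * b := by group
        _ = (a * y) * b := by rw [ha]
        _ = a * (y * b) := by group
        _ = a * (b * y) := by rw [hb]
        _ = _ := by group
    | inv a _ ha =>
      simp only [Subgroup.coe_inv]
      calc y * (a : G)⁻¹ = (a : G)⁻¹ * (a * y) * (a : G)⁻¹ := by group
        _ = (a : G)⁻¹ * (y * a) * (a : G)⁻¹ := by rw [ha]
        _ = (a : G)⁻¹ * y := by group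
  have hyC : y ∈ Subgroup.centralizer (E : Set G) := by
    refine Subgroup.mem_centralizer_iff.mpr (fun s hs => ?_)
    have : (⟨s, hs⟩ : E) ∈ Subgroup.closure (S : Set E) := by rw [hcl]; trivial
    exact (hy _ this).symm
  have hg : g = e * y := by
    show g = e * (e⁻¹ * g)
    group
  rw [hg]
  exact Subgroup.mul_mem _ ((le_sup_left : E ≤ _) heE) ((le_sup_right : Subgroup.centralizer (E : Set G) ≤ _) hyC)

end Cfsg.Agent.S0110
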