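import Cfsg.Statements.S0112
import Cfsg.Agent.Lib.PGroupBasic
import Cfsg.Agent.Lib.PNormal
import Cfsg.Agent.Lib.H5Basic

set_option autoImplicit false
open Cfsg

namespace Cfsg.Agent.S0112


universe u

theorem central_of_normal_card_p {G : Type*} [Group G] [Finite G] {p : ℕ} [hp : Fact p.Prime]
    (hG : IsPGroup p G) (W : Subgroup G) [W.Normal] (hW : Nat.card W = p) : W ≤ Subgroup.center G := by
  have hW1 : W ≠ ⊥ := by
    intro e
    rw [e, Subgroup.card_bot] at hW
    exact hp.out.ne_one hW.symm
  obtain ⟨z, hz, hz1, hzc⟩ := Cfsg.Agent.Lib.PGroupBasic.exists_ne_one_mem_center_of_normal hG W hW1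
  have hzo : orderOf z ∣ p := by
    have := orderOf_dvd_natCard (⟨z, hz⟩ : W)
    rwa [Subgroup.orderOf_mk, hW] at this
  have hzo' : orderOf z = p := by
    rcases (Nat.dvd_prime hp.out).mp hzo with h | h
    · exact absurd (orderOf_eq_one_iff.mp h) hz1
    · exact h
  have hZW : Subgroup.zpowers z = W := by
    apply Subgroup.eq_of_le_of_card_ge (Subgroup.zpowers_le.mpr hz)
    rw [Nat.card_zpowers, hzo', hW]
  rw [← hZW]
  exact Subgroup.zpowers_le.mpr hzc

theorem aux {p : ℕ} [hp : Fact p.Prime] : ∀ (n : ℕ) (X : Type u) [Group X] [Finite X],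
    Nat.card X = p ^ n → ∀ A : Subgroup X, Nat.card A = p ^ 2 →
    Subgroup.centralizer (A : Set X) = A → Group.nilpotencyClass X = n - 1 := by
  classical
  intro n
  induction n with
  | zero =>
    intro X _ _ hX A hA _
    exfalso
    have h1 := Subgroup.card_le_card_group A
    rw [hX, hA, pow_zero] at h1
    have : 1 < p ^ 2 := Nat.one_lt_pow (by norm_num) hp.out.one_lt
    omega
  | succ n ih =>
    intro X _ _ hX A hA hC
    have hXp : IsPGroup p X := IsPGroup.of_card hX
    haveI hnil : Group.IsNilpotent X := hXp.isNilpotent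
    haveI hnt : Nontrivial X := by
      have h1 : 1 < Nat.card X := by
        rw [hX]
        exact Nat.one_lt_pow (by omega) hp.out.one_lt
      exact Finite.one_lt_card_iff_nontrivial.mp h1
    have hAb : ∀ a ∈ A, ∀ b ∈ A, a * b = b * a := by
      intro a ha b hb
      have h1 : a ∈ Subgroup.centralizer (A : Set X) := by rw [hC]; exact ha
      exact (Subgroup.mem_centralizer_iff.mp h1 b hb).symm
    let Z := Subgroup.center X
    have hZA : Z ≤ A := by
      rw [← hC]
      intro z hz
      rw [Subgroup.mem_centralizer_iff]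
      intro a _
      exact (Subgroup.mem_center_iff.mp hz a)
    have hclass := nilpotencyClass_eq_quotient_center_plus_one (G := X)
    by_cases hAtop : A = ⊤
    · -- abelian case
      have hZtop : Z = ⊤ := by
        rw [eq_top_iff, ← hAtop]
        intro a ha
        rw [Subgroup.mem_center_iff]
        intro g
        have : g ∈ A := by rw [hAtop]; trivial
        exact hAb g this a ha
      have hn : n = 1 := by
        have h1 : Nat.card X = p ^ 2 := by
          rw [← hA, hAtop, Subgroup.card_top]
        rw [hX] at h1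
        have := Nat.pow_right_injective hp.out.two_le h1
        omega
      subst hn
      have h2 : Group.nilpotencyClass (X ⧸ Z) = 0 := by
        rw [nilpotencyClass_zero_iff_subsingleton]
        rw [show Z = ⊤ from hZtop]
        exact QuotientGroup.subsingleton_quotient_top
      rw [hclass]
      show Group.nilpotencyClass (X ⧸ Z) + 1 = 1
      rw [h2]
    · -- `A` proper
      have hZ1 : Nat.Prime p := hp.out
      haveI hZnt : Nontrivial Z := hXp.center_nontrivial
      have hZne : Z ≠ A := by
        intro e
        apply hAtop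
        rw [← hC, eq_top_iff]
        intro g _
        rw [Subgroup.mem_centralizer_iff]
        intro a ha
        have hz : a ∈ Z := by
          rw [e]; exact ha
        exact (Subgroup.mem_center_iff.mp hz g).symm
      have hZc : Nat.card Z = p := by
        have h1 : Nat.card Z ∣ p ^ 2 := hA ▸ Subgroup.card_dvd_of_le hZA
        obtain ⟨k, hk, hke⟩ := (Nat.dvd_prime_pow hZ1).mp h1
        interval_cases k
        · rw [pow_zero] at hke
          exact absurd (Finite.one_lt_card_iff_nontrivial.mpr hZnt) (by omega)
        · rw [pow_one] at hke; exact hke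
        · exact absurd (Subgroup.eq_of_le_of_card_ge hZA (by rw [hA, hke])) hZne
      -- generation of `A` by an element outside `Z`
      have hAgen : ∀ a₁ ∈ A, a₁ ∉ Z → ∀ b ∈ A, ∃ k : ℤ, (a₁ ^ k)⁻¹ * b ∈ Z := by
        intro a₁ ha₁ ha₁Z b hb
        let E : Subgroup X := Subgroup.zpowers a₁ ⊔ Z
        have hEA : E ≤ A := sup_le (Subgroup.zpowers_le.mpr ha₁) hZA
        have hZE : Z ≤ E := le_sup_right
        have hEeq : E = A := by
          have h1 : Nat.card E ∣ p ^ 2 := hA ▸ Subgroup.card_dvd_of_le hEA
          obtain ⟨k, hk, hke⟩ := (Nat.dvd_prime_pow hZ1).mp h1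
          have h2 : Nat.card Z ∣ Nat.card E := Subgroup.card_dvd_of_le hZE
          rw [hZc, hke] at h2
          interval_cases k
          · rw [pow_zero] at h2
            exact absurd (Nat.dvd_one.mp h2) hZ1.ne_one
          · exfalso
            rw [pow_one] at hke
            apply ha₁Z
            have h3 : E = Z := (Subgroup.eq_of_le_of_card_ge hZE (by rw [hke, hZc])).symm
            rw [← h3]
            exact (le_sup_left : Subgroup.zpowers a₁ ≤ E) (Subgroup.mem_zpowers a₁)
          · exact Subgroup.eq_of_le_of_card_ge hEA (by rw [hA, hke])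
        have hbE : b ∈ (E : Set X) := by rw [hEeq]; exact hb
        rw [show (E : Set X) = _ from Subgroup.mul_normal (Subgroup.zpowers a₁) Z, Set.mem_mul] at hbE
        obtain ⟨c, ⟨k, hk⟩, z, hz, rfl⟩ := hbE
        refine ⟨k, ?_⟩
        have hc : a₁ ^ k = c := hk
        rw [hc, inv_mul_cancel_left]
        exact hz
      -- the normalizer
      let N : Subgroup X := Subgroup.normalizer (A : Set X)
      have hAN : A ≤ N := Subgroup.le_normalizer
      have hZN : Z ≤ N := hZA.trans hAN
      have hAltN : A < N := normalizerCondition_of_isNilpotent A (lt_of_le_of_ne le_top hAtop)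
      let Z' : Subgroup N := Z.subgroupOf N
      haveI hZ'n : Z'.Normal := inferInstance
      let A' : Subgroup N := A.subgroupOf N
      haveI hA'n : A'.Normal := Subgroup.normal_in_normalizer
      let Q := N ⧸ Z'
      let π' : N →* Q := QuotientGroup.mk' Z'
      have hπ' : Function.Surjective π' := QuotientGroup.mk'_surjective Z'
      have hNp : IsPGroup p N := hXp.to_subgroup N
      have hQp : IsPGroup p Q := hNp.of_surjective π' hπ'
      have hAb' : A'.map π' ≠ ⊥ := by
        obtain ⟨a, haA, haZ⟩ : ∃ a ∈ A, a ∉ Z := by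
          by_contra h
          push_neg at h
          exact hZne (le_antisymm hZA h)
        intro e
        have h1 : π' ⟨a, hAN haA⟩ ∈ A'.map π' := ⟨⟨a, hAN haA⟩, haA, rfl⟩
        rw [e, Subgroup.mem_bot] at h1
        exact haZ ((QuotientGroup.eq_one_iff (⟨a, hAN haA⟩ : N)).mp h1)
      haveI hAbn : (A'.map π').Normal := Subgroup.Normal.map hA'n π' hπ'
      obtain ⟨w, hwA, hw1, hwc⟩ := Cfsg.Agent.Lib.PGroupBasic.exists_ne_one_mem_center_of_normal hQp (A'.map π') hAb'
      obtain ⟨a₁', ha₁A', rfl⟩ := hwA
      let a₁ : X := a₁'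
      have ha₁A : a₁ ∈ A := ha₁A'
      have ha₁Z : a₁ ∉ Z := by
        intro h
        apply hw1
        exact (QuotientGroup.eq_one_iff _).mpr h
      -- commutators with `N`
      have hcommZ : ∀ u : N, ∀ b ∈ A, (u : X) * b * (u : X)⁻¹ * b⁻¹ ∈ Z := by
        intro u b hb
        obtain ⟨k, hk⟩ := hAgen a₁ ha₁A ha₁Z b hb
        have hbN : b ∈ N := hAN hb
        have hbz : b = a₁ ^ k * ((a₁ ^ k)⁻¹ * b) := by group
        set z := (a₁ ^ k)⁻¹ * b with hz
        have hzc : ∀ g : X, g * z = z * g := fun g => (Subgroup.mem_center_iff.mp hk g)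
        have h1 : π' u * π' a₁' = π' a₁' * π' u := Subgroup.mem_center_iff.mp hwc (π' u)
        have h2 : π' (u * a₁' * u⁻¹ * a₁'⁻¹) = 1 := by
          rw [map_mul, map_mul, map_mul, map_inv, map_inv, h1]
          group
        have h3 : (u : X) * a₁ * (u : X)⁻¹ * a₁⁻¹ ∈ Z := (QuotientGroup.eq_one_iff (u * a₁' * u⁻¹ * a₁'⁻¹)).mp h2
        -- so `u a₁ u⁻¹ = c a₁` with `c` central, and the powers behave
        set c := (u : X) * a₁ * (u : X)⁻¹ * a₁⁻¹ with hc
        have hcc : ∀ g : X, g * c = c * g := fun g => (Subgroup.mem_center_iff.mp h3 g)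
        have hua : (u : X) * a₁ * (u : X)⁻¹ = c * a₁ := by rw [hc]; group
        have hpowk : (u : X) * a₁ ^ k * (u : X)⁻¹ = (c * a₁) ^ k := by
          rw [← conj_zpow, hua]
        have hcommute : Commute c a₁ := (hcc a₁).symm
        have h4 : (u : X) * b * (u : X)⁻¹ * b⁻¹ = c ^ k := by
          have h5 : (u : X) * z * (u : X)⁻¹ = z := by rw [hzc (u : X)]; group
          have h6 : (u : X) * b * (u : X)⁻¹ = ((u : X) * a₁ ^ k * (u : X)⁻¹) * ((u : X) * z * (u : X)⁻¹) := by
            rw [hbz]; group
          rw [h6, hpowk, h5, hcommute.mul_zpow]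
          have h7 : b⁻¹ = z⁻¹ * (a₁ ^ k)⁻¹ := by
            rw [hbz]; group
          rw [h7]
          group
        rw [h4]
        exact Z.zpow_mem h3 k
      -- the index bound
      have hidx : A.relIndex N ≤ p := by
        rw [← hZc]
        let S := A.subgroupOf N
        have hfun : ∀ q : N ⧸ S, ((Quotient.out q : N) : X) * a₁ * ((Quotient.out q : N) : X)⁻¹ * a₁⁻¹ ∈ Z :=
          fun q => hcommZ _ _ ha₁A
        let f : N ⧸ S → Z := fun q => ⟨_, hfun q⟩
        have hf : Function.Injective f := by
          intro q q' h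
          have h4 : ((Quotient.out q : N) : X) * a₁ * ((Quotient.out q : N) : X)⁻¹ * a₁⁻¹ =
              ((Quotient.out q' : N) : X) * a₁ * ((Quotient.out q' : N) : X)⁻¹ * a₁⁻¹ :=
            congrArg Subtype.val h
          have h5 := mul_right_cancel h4
          rw [← QuotientGroup.out_eq' q, ← QuotientGroup.out_eq' q']
          apply QuotientGroup.eq.mpr
          rw [Subgroup.mem_subgroupOf]
          set x : N := Quotient.out q
          set y : N := Quotient.out q'
          show (((x⁻¹ * y : N) : N) : X) ∈ A
          rw [← hC, Subgroup.mem_centralizer_iff]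
          intro b hb
          have hxy : ((x⁻¹ * y : N) : X) = (x : X)⁻¹ * y := rfl
          rw [hxy]
          have h6 : ((x : X)⁻¹ * y) * a₁ = a₁ * ((x : X)⁻¹ * y) := by
            have h7 : (x : X) * a₁ * (x : X)⁻¹ * y = (y : X) * a₁ := by
              rw [h5]; group
            calc ((x : X)⁻¹ * y) * a₁ = (x : X)⁻¹ * ((y : X) * a₁) := by group
              _ = (x : X)⁻¹ * ((x : X) * a₁ * (x : X)⁻¹ * y) := by rw [h7]
              _ = a₁ * ((x : X)⁻¹ * y) := by group
          obtain ⟨k, hk⟩ := hAgen a₁ ha₁A ha₁Z b hb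
          have h8 := (Subgroup.mem_center_iff.mp hk) ((x : X)⁻¹ * y)
          have h9 : Commute ((x : X)⁻¹ * y) (a₁ ^ k) := (Commute.zpow_right (show Commute _ _ from h6) k)
          have hb' : b = a₁ ^ k * ((a₁ ^ k)⁻¹ * b) := by group
          rw [hb']
          calc a₁ ^ k * ((a₁ ^ k)⁻¹ * b) * ((x : X)⁻¹ * y)
              = a₁ ^ k * (((a₁ ^ k)⁻¹ * b) * ((x : X)⁻¹ * y)) := by group
            _ = a₁ ^ k * (((x : X)⁻¹ * y) * ((a₁ ^ k)⁻¹ * b)) := by rw [← h8]
            _ = (a₁ ^ k * ((x : X)⁻¹ * y)) * ((a₁ ^ k)⁻¹ * b) := by group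
            _ = (((x : X)⁻¹ * y) * a₁ ^ k) * ((a₁ ^ k)⁻¹ * b) := by rw [h9.eq]
            _ = ((x : X)⁻¹ * y) * (a₁ ^ k * ((a₁ ^ k)⁻¹ * b)) := by group
        exact Nat.card_le_card_of_injective f hf
      have hNcard : Nat.card N = p ^ 3 := by
        have h1 : Nat.card (A.subgroupOf N) = p ^ 2 := by
          rw [← hA]
          exact Nat.card_congr (Subgroup.subgroupOfEquivOfLe hAN).toEquiv
        have h2 := Subgroup.card_mul_index (A.subgroupOf N)
        rw [h1] at h2
        have h3 : (A.subgroupOf N).index ∣ Nat.card N := Subgroup.index_dvd_card _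
        obtain ⟨e, he⟩ := IsPGroup.iff_card.mp hNp
        rw [he] at h3
        obtain ⟨k, hk, hke⟩ := (Nat.dvd_prime_pow hZ1).mp h3
        have hne1 : (A.subgroupOf N).index ≠ 1 := by
          intro h
          have h4 : N ≤ A := Subgroup.relIndex_eq_one.mp h
          exact absurd (le_antisymm hAN h4) hAltN.ne
        have hleq : (A.subgroupOf N).index ≤ p := hidx
        have hkk : k = 1 := by
          rw [hke] at hne1 hleq
          rcases k with _ | _ | k
          · simp at hne1
          · rfl
          · exfalso
            have : p ^ (k + 1 + 1) = p * p ^ (k + 1) := by ring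
            rw [this] at hleq
            have h5 : 1 < p ^ (k + 1) := Nat.one_lt_pow (by omega) hZ1.one_lt
            nlinarith [hZ1.pos]
        rw [hke, hkk, pow_one] at h2
        rw [← h2]
        ring
      -- the quotient
      let Y := X ⧸ Z
      let π : X →* Y := QuotientGroup.mk' Z
      have hπ : Function.Surjective π := QuotientGroup.mk'_surjective Z
      have hYc : Nat.card Y = p ^ n := by
        have h1 := Subgroup.card_mul_index Z
        rw [hX, hZc, pow_succ] at h1
        have h2 : p * Z.index = p * p ^ n := by rw [h1, mul_comm]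
        exact Nat.eq_of_mul_eq_mul_left hZ1.pos h2
      let B : Subgroup Y := N.map π
      have hBc : Nat.card B = p ^ 2 := by
        have hker : π.ker = Z := QuotientGroup.ker_mk' Z
        have h1 : B.index = N.index := by
          have h2 := Subgroup.index_map N π
          rw [hker, sup_eq_left.mpr hZN, MonoidHom.range_eq_top.mpr hπ, Subgroup.index_top, mul_one] at h2
          exact h2
        have h2 := Subgroup.card_mul_index B
        have h3 := Subgroup.card_mul_index N
        rw [hNcard, hX] at h3
        rw [hYc, h1] at h2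
        have h4 : 0 < N.index := Nat.pos_of_ne_zero Subgroup.index_ne_zero_of_finite
        have h5 : Nat.card B * p * N.index = p ^ 2 * p * N.index := by
          calc Nat.card B * p * N.index = (Nat.card B * N.index) * p := by ring
            _ = p ^ (n + 1) := by rw [h2, pow_succ]
            _ = p ^ 3 * N.index := h3.symm
            _ = p ^ 2 * p * N.index := by rw [pow_succ]
        have h6 := Nat.eq_of_mul_eq_mul_right h4 h5
        exact Nat.eq_of_mul_eq_mul_right hZ1.pos h6
      have hCB : Subgroup.centralizer (B : Set Y) = B := by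
        apply le_antisymm
        · intro y hy
          obtain ⟨x, rfl⟩ := hπ y
          have hxN : x ∈ N := by
            apply Cfsg.Agent.Lib.H5Basic.mem_normalizer_of_map_conj_le
            rintro _ ⟨b, hb, rfl⟩
            have hbB : π b ∈ B := ⟨b, hAN hb, rfl⟩
            have h1 := Subgroup.mem_centralizer_iff.mp hy _ hbB
            have h2 : π (x * b * x⁻¹ * b⁻¹) = 1 := by
              rw [map_mul, map_mul, map_mul, map_inv, map_inv, ← h1]
              group
            have h3 : x * b * x⁻¹ * b⁻¹ ∈ Z := (QuotientGroup.eq_one_iff _).mp h2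
            have h4 : x * b * x⁻¹ = (x * b * x⁻¹ * b⁻¹) * b := by group
            show x * b * x⁻¹ ∈ A
            rw [h4]
            exact A.mul_mem (hZA h3) hb
          exact ⟨x, hxN, rfl⟩
        · intro b hb
          rw [Subgroup.mem_centralizer_iff]
          intro c hc
          have hcomm := IsPGroup.commutative_of_card_eq_prime_sq (p := p) hBc
          exact congrArg Subtype.val (hcomm ⟨c, hc⟩ ⟨b, hb⟩)
      have hIH := ih Y hYc B hBc hCB
      rw [hclass]
      show Group.nilpotencyClass Y + 1 = _
      rw [hIH]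
      have hn2 : 2 ≤ n + 1 := by
        by_contra hlt
        apply hAtop
        apply Subgroup.eq_of_le_of_card_ge le_top
        rw [Subgroup.card_top, hX, hA]
        exact Nat.pow_le_pow_right hZ1.pos (by omega)
      have hn3 : 1 ≤ n := by omega
      have hneA : p ^ 2 < p ^ (n + 1) := by
        have h1 : Nat.card A < Nat.card X := by
          have h2 := Subgroup.card_le_card_group A
          rcases h2.lt_or_eq with h3 | h3
          · exact h3
          · exfalso
            apply hAtop
            apply Subgroup.eq_of_le_of_card_ge le_top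
            rw [Subgroup.card_top, h3]
        rwa [hA, hX] at h1
      have hn4 : 2 < n + 1 := (Nat.pow_lt_pow_iff_right hZ1.one_lt).mp hneA
      omega


/-- A p-group with a self-centralizing subgroup of order p^2 is of maximal class. -/
theorem result {X : Type*} [Group X] [Finite X] {p : ℕ} [Fact p.Prime] (n : ℕ) (hX : Nat.card X = p ^ n) (A : Subgroup X) (hA : Nat.card A = p ^ 2) (hC : Subgroup.centralizer (A : Set X) = A) : Group.nilpotencyClass X = n - 1 := by
  exact aux n X hX A hA hC

end Cfsg.Agent.S0112
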