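import Cfsg.Statements.S0113
import Cfsg.Agent.Lib.MaxClass
import Cfsg.Agent.Lib.Order8
import Cfsg.Agent.Lib.PGroupBasic

set_option autoImplicit false
open Cfsg

namespace Cfsg.Agent.S0113


universe u

open Cfsg.Agent.Lib.MaxClass in
theorem aux (n : ℕ) (hn : 3 ≤ n) : ∀ (X : Type u) [Group X] [Finite X], Nat.card X = 2 ^ n →
    Group.nilpotencyClass X = n - 1 → ∃ C : Subgroup X, IsCyclic C ∧ C.index = 2 := by
  classical
  haveI hp2 : Fact (Nat.Prime 2) := ⟨Nat.prime_two⟩
  induction n, hn using Nat.le_induction with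
  | base =>
    intro X _ _ hX hc
    have hXp : IsPGroup 2 X := IsPGroup.of_card hX
    haveI hnil : Group.IsNilpotent X := hXp.isNilpotent
    haveI hnt : Nontrivial X := by
      have h1 : 1 < Nat.card X := by rw [hX]; norm_num
      exact Finite.one_lt_card_iff_nontrivial.mp h1
    have hna : ¬ ∀ a b : X, a * b = b * a := by
      intro hcomm
      have := class_eq_one_of_comm hcomm
      omega
    obtain ⟨a, ha⟩ := Cfsg.Agent.Lib.Order8.exists_order_four (by rw [hX]; norm_num) hna
    exact ⟨Subgroup.zpowers a, inferInstance, Cfsg.Agent.Lib.Order8.index_zpowers_four (by rw [hX]; norm_num) ha⟩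
  | succ n hn ih =>
    intro X _ _ hX hc
    have hXp : IsPGroup 2 X := IsPGroup.of_card hX
    haveI hnil : Group.IsNilpotent X := hXp.isNilpotent
    haveI hnt : Nontrivial X := by
      have h1 : 1 < Nat.card X := by
        rw [hX]
        exact Nat.one_lt_two_pow (by omega)
      exact Finite.one_lt_card_iff_nontrivial.mp h1
    have hna : ¬ ∀ a b : X, a * b = b * a := by
      intro hcomm
      have := class_eq_one_of_comm hcomm
      omega
    have hZc : Nat.card (Subgroup.center X) = 2 := card_center (by omega) hX hc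
    let Z := Subgroup.center X
    let Y := X ⧸ Z
    let π : X →* Y := QuotientGroup.mk' Z
    have hπ : Function.Surjective π := QuotientGroup.mk'_surjective Z
    have hYc : Nat.card Y = 2 ^ n := by
      have h1 := Subgroup.card_mul_index Z
      rw [hX, hZc, pow_succ] at h1
      have h2 : 2 * Z.index = 2 * 2 ^ n := by rw [h1, mul_comm]
      exact Nat.eq_of_mul_eq_mul_left (by norm_num) h2
    have hclassY : Group.nilpotencyClass Y = n - 1 := by
      have h1 := nilpotencyClass_eq_quotient_center_plus_one (G := X)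
      have h2 : Group.nilpotencyClass (X ⧸ Subgroup.center X) = Group.nilpotencyClass Y := rfl
      omega
    obtain ⟨Cb, hCy, hCi⟩ := ih Y hYc hclassY
    let C : Subgroup X := Cb.comap π
    have hi : C.index = 2 := by
      rw [← hCi]
      exact Subgroup.index_comap_of_surjective Cb hπ
    have hZC : Z ≤ C := by
      intro z hz
      show π z ∈ Cb
      rw [show π z = 1 from (QuotientGroup.eq_one_iff z).mpr hz]
      exact Cb.one_mem
    obtain ⟨cb, hcb⟩ := IsCyclic.exists_generator (α := Cb)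
    obtain ⟨c, hcc⟩ := hπ cb
    have hcC : c ∈ C := by
      show π c ∈ Cb
      rw [hcc]
      exact cb.2
    have hform : ∀ d ∈ C, ∃ i : ℤ, ∃ z ∈ Z, d = c ^ i * z := by
      intro d hd
      obtain ⟨i, hi⟩ := hcb ⟨π d, hd⟩
      refine ⟨i, (c ^ i)⁻¹ * d, ?_, by group⟩
      have h1 : π (c ^ i) = π d := by
        rw [map_zpow, hcc]
        exact congrArg Subtype.val hi
      exact (QuotientGroup.eq_one_iff _).mp (by
        rw [QuotientGroup.mk_mul, QuotientGroup.mk_inv]
        show (π (c ^ i))⁻¹ * π d = 1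
        rw [h1, inv_mul_cancel])
    have hzc : ∀ z ∈ Z, ∀ g : X, g * z = z * g := fun z hz g => Subgroup.mem_center_iff.mp hz g
    have hab : ∀ a ∈ C, ∀ b ∈ C, a * b = b * a := by
      intro a ha b hb
      obtain ⟨i, z, hz, rfl⟩ := hform a ha
      obtain ⟨j, w, hw, rfl⟩ := hform b hb
      have h1 : Commute (c ^ i) (c ^ j) := (Commute.refl c).zpow_zpow i j
      calc c ^ i * z * (c ^ j * w) = c ^ i * c ^ j * (z * w) := by
            rw [mul_assoc, ← mul_assoc z, ← hzc z hz (c ^ j)]; group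
        _ = c ^ j * c ^ i * (w * z) := by rw [h1.eq, hzc w hw z]
        _ = c ^ j * w * (c ^ i * z) := by
            rw [mul_assoc (c ^ j) w, ← mul_assoc w, ← hzc w hw (c ^ i)]; group
    have hCne : C ≠ ⊤ := by
      intro e
      rw [e, Subgroup.index_top] at hi
      omega
    obtain ⟨t, ht⟩ : ∃ t, t ∉ C := by
      by_contra h
      push_neg at h
      exact hCne (Subgroup.eq_top_iff' _ |>.mpr h)
    have hform2 := card_formula C hi hab hna
    rw [hX, hZc] at hform2
    have hX'c : Nat.card (commutator X) = 2 ^ (n - 1) := by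
      have h1 : 2 ^ (n + 1) = 2 * 2 * 2 ^ (n - 1) := by
        obtain ⟨m, rfl⟩ : ∃ m, n = m + 1 := ⟨n - 1, by omega⟩
        simp only [Nat.add_sub_cancel]
        ring
      rw [h1] at hform2
      have h2 : 2 * 2 * 2 ^ (n - 1) = 2 * 2 * Nat.card (commutator X) := by
        rw [hform2]; ring
      exact (Nat.eq_of_mul_eq_mul_left (by norm_num) h2).symm
    have hX'1 : commutator X ≠ ⊥ := by
      intro e
      rw [e, Subgroup.card_bot] at hX'c
      have : 1 < 2 ^ (n - 1) := Nat.one_lt_two_pow (by omega)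
      omega
    obtain ⟨z₀, hz₀X', hz₀1, hz₀Z⟩ :=
      Cfsg.Agent.Lib.PGroupBasic.exists_ne_one_mem_center_of_normal hXp (commutator X) hX'1
    have hsq : ∀ z ∈ Z, z ^ 2 = 1 := by
      intro z hz
      have h1 := pow_card_eq_one' (x := (⟨z, hz⟩ : Z))
      rw [hZc] at h1
      have := congrArg Subtype.val h1
      simpa using this
    have hz₀o : orderOf z₀ = 2 := orderOf_eq_prime (hsq z₀ hz₀Z) hz₀1
    have hZeq : Z = Subgroup.zpowers z₀ := by
      symm
      apply Subgroup.eq_of_le_of_card_ge (Subgroup.zpowers_le.mpr hz₀Z)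
      rw [Nat.card_zpowers, hz₀o, hZc]
    -- `X'` is generated by `g₀`
    let φ := phi C hi hab t
    let g₀ : X := φ ⟨c, hcC⟩
    have hφz : ∀ z (hz : z ∈ Z), φ ⟨z, hZC hz⟩ = 1 := by
      intro z hz
      apply Subtype.ext
      show z * (t * z⁻¹ * t⁻¹) = 1
      rw [(Subgroup.mem_center_iff.mp (Subgroup.inv_mem _ hz) t)]
      group
    have hφd : ∀ d (hd : d ∈ C), (φ ⟨d, hd⟩ : X) ∈ Subgroup.zpowers g₀ := by
      intro d hd
      obtain ⟨i, z, hz, hdz⟩ := hform d hd
      have h1 : (⟨d, hd⟩ : C) = (⟨c, hcC⟩ : C) ^ i * ⟨z, hZC hz⟩ := Subtype.ext (by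
        rw [Subgroup.coe_mul, Subgroup.coe_zpow]
        exact hdz)
      rw [h1, map_mul, map_zpow, hφz z hz, mul_one]
      exact ⟨i, rfl⟩
    have hX'eq : commutator X = Subgroup.zpowers g₀ := by
      apply le_antisymm
      · rw [commutator_eq_range C hi hab t ht]
        rintro _ ⟨_, ⟨d, rfl⟩, rfl⟩
        exact hφd d.1 d.2
      · refine Subgroup.zpowers_le.mpr ?_
        show (phi C hi hab t ⟨c, hcC⟩ : X) ∈ _
        rw [phi_coe']
        exact Subgroup.commutator_mem_commutator (Subgroup.mem_top _) (Subgroup.mem_top _)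
    have hg₀o : orderOf g₀ = 2 ^ (n - 1) := by
      rw [← Nat.card_zpowers, ← hX'eq, hX'c]
    have hz₀g : z₀ ∈ Subgroup.zpowers g₀ := hX'eq ▸ hz₀X'
    obtain ⟨m, hm⟩ := (mem_powers_iff_mem_zpowers).mpr hz₀g
    have hm' : g₀ ^ m = z₀ := hm
    have hmeven : 2 ∣ m := by
      by_contra hodd
      have hcop : (orderOf g₀).Coprime m := by
        rw [hg₀o]
        exact Nat.Coprime.pow_left _ ((Nat.Prime.coprime_iff_not_dvd Nat.prime_two).mpr hodd)
      obtain ⟨i, hi'⟩ := exists_pow_eq_self_of_coprime (x := g₀) (n := m) hcop.symm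
      have h1 : g₀ ∈ Subgroup.zpowers z₀ := by
        rw [← hi', hm']
        exact Subgroup.npow_mem_zpowers z₀ i
      have h2 : Subgroup.zpowers g₀ ≤ Subgroup.zpowers z₀ := Subgroup.zpowers_le.mpr h1
      have h3 := Subgroup.card_le_of_le h2
      rw [Nat.card_zpowers, Nat.card_zpowers, hg₀o, hz₀o] at h3
      have h4 : 2 ^ 2 ≤ 2 ^ (n - 1) := Nat.pow_le_pow_right (by norm_num) (by omega)
      omega
    obtain ⟨v, rfl⟩ := hmeven
    have hhC : g₀ ^ v ∈ C := C.pow_mem (φ ⟨c, hcC⟩).2 v
    obtain ⟨i, z, hz, hiz⟩ := hform _ hhC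
    have hz₀c : z₀ ∈ Subgroup.zpowers c := by
      have h1 : z₀ = (g₀ ^ v) ^ 2 := by
        rw [← hm', mul_comm, pow_mul]
      rw [h1, hiz]
      have h2 : Commute (c ^ i) z := hzc z hz (c ^ i)
      rw [h2.mul_pow, hsq z hz, mul_one]
      exact Subgroup.pow_mem _ (Subgroup.zpow_mem_zpowers c i) 2
    have hZc' : Z ≤ Subgroup.zpowers c := by
      rw [hZeq]
      exact Subgroup.zpowers_le.mpr hz₀c
    have hCeq : C = Subgroup.zpowers c := by
      apply le_antisymm
      · intro d hd
        obtain ⟨i, z, hz, rfl⟩ := hform d hd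
        exact Subgroup.mul_mem _ (Subgroup.zpow_mem_zpowers c i) (hZc' hz)
      · exact Subgroup.zpowers_le.mpr hcC
    refine ⟨C, ?_, hi⟩
    rw [hCeq]
    infer_instance


/-- A 2-group of maximal class contains a cyclic subgroup of index 2. -/
theorem result {X : Type*} [Group X] [Finite X] (n : ℕ) (hn : 3 ≤ n) (hX : Nat.card X = 2 ^ n) (hc : Group.nilpotencyClass X = n - 1) : ∃ C : Subgroup X, IsCyclic C ∧ C.index = 2 := by
  exact aux n hn X hX hc

end Cfsg.Agent.S0113
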