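import Cfsg.Statements.S0114
import Cfsg.Agent.S0113
import Cfsg.Agent.Lib.Dihedral
import Cfsg.Agent.Lib.MaxClass

set_option autoImplicit false
open Cfsg

namespace Cfsg.Agent.S0114

/-- The central quotient of a 2-group of maximal class is dihedral. -/
theorem result {X : Type*} [Group X] [Finite X] (n : ℕ) (hn : 3 ≤ n) (hX : Nat.card X = 2 ^ n) (hc : Group.nilpotencyClass X = n - 1) : Nonempty (X ⧸ Subgroup.center X ≃* DihedralGroup (2 ^ (n - 2))) := by
  classical
  haveI hp2 : Fact (Nat.Prime 2) := ⟨Nat.prime_two⟩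
  obtain ⟨C, hCy, hi⟩ := Cfsg.Agent.S0113.result n hn hX hc
  have hXp : IsPGroup 2 X := IsPGroup.of_card hX
  haveI hnil : Group.IsNilpotent X := hXp.isNilpotent
  haveI hnt : Nontrivial X := by
    have h1 : 1 < Nat.card X := by
      rw [hX]
      exact Nat.one_lt_two_pow (by omega)
    exact Finite.one_lt_card_iff_nontrivial.mp h1
  have hna : ¬ ∀ a b : X, a * b = b * a := by
    intro hcomm
    have := Cfsg.Agent.Lib.MaxClass.class_eq_one_of_comm hcomm
    omega
  have hZc : Nat.card (Subgroup.center X) = 2 := Cfsg.Agent.Lib.MaxClass.card_center hn hX hc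
  obtain ⟨c₀, hc₀⟩ := IsCyclic.exists_generator (α := C)
  let c : X := c₀
  have hcC : c ∈ C := c₀.2
  have hCeq : C = Subgroup.zpowers c := by
    apply le_antisymm
    · intro d hd
      obtain ⟨k, hk⟩ := hc₀ ⟨d, hd⟩
      exact ⟨k, by simpa using congrArg Subtype.val hk⟩
    · exact Subgroup.zpowers_le.mpr hcC
  have hab : ∀ a ∈ C, ∀ b ∈ C, a * b = b * a := by
    intro a ha b hb
    rw [hCeq] at ha hb
    obtain ⟨i, rfl⟩ := ha
    obtain ⟨j, rfl⟩ := hb
    exact ((Commute.refl c).zpow_zpow i j).eq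
  let Z := Subgroup.center X
  have hZC : Z ≤ C := Cfsg.Agent.Lib.MaxClass.center_le_of_noncomm C hi hab hna
  have hCne : C ≠ ⊤ := by
    intro e
    rw [e, Subgroup.index_top] at hi
    omega
  obtain ⟨t, ht⟩ : ∃ t, t ∉ C := by
    by_contra h
    push_neg at h
    exact hCne (Subgroup.eq_top_iff' _ |>.mpr h)
  haveI hCn : C.Normal := Subgroup.normal_of_index_eq_two hi
  have ht2 : t ^ 2 ∈ Z := Cfsg.Agent.Lib.MaxClass.mem_center_of_commute C hi hab t ht
    (Cfsg.Agent.Lib.MaxClass.sq_mem C hi t) (by rw [sq]; group)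
  have hw : c * (t * c * t⁻¹) ∈ Z := by
    have htc : t * c * t⁻¹ ∈ C := hCn.conj_mem c hcC t
    refine Cfsg.Agent.Lib.MaxClass.mem_center_of_commute C hi hab t ht (C.mul_mem hcC htc) ?_
    have h1 : t * (t * c * t⁻¹) * t⁻¹ = c := by
      have e : t * (t * c * t⁻¹) * t⁻¹ = t ^ 2 * c * (t ^ 2)⁻¹ := by
        rw [sq, mul_inv_rev]; simp only [mul_assoc]
      rw [e, ← Subgroup.mem_center_iff.mp ht2 c]
      group
    have key : t * (c * (t * c * t⁻¹)) * t⁻¹ = c * (t * c * t⁻¹) := by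
      calc t * (c * (t * c * t⁻¹)) * t⁻¹ = (t * c * t⁻¹) * (t * (t * c * t⁻¹) * t⁻¹) := by group
        _ = (t * c * t⁻¹) * c := by rw [h1]
        _ = c * (t * c * t⁻¹) := hab _ htc _ hcC
    calc c * (t * c * t⁻¹) * t = (t * (c * (t * c * t⁻¹)) * t⁻¹) * t := by rw [key]
      _ = t * (c * (t * c * t⁻¹)) := by group
  let Y := X ⧸ Z
  let π : X →* Y := QuotientGroup.mk' Z
  have hπ : Function.Surjective π := QuotientGroup.mk'_surjective Z
  have hπ1 : ∀ g, g ∈ Z → π g = 1 := fun g hg => (QuotientGroup.eq_one_iff g).mpr hg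
  have hπ2 : ∀ g, π g = 1 → g ∈ Z := fun g hg => (QuotientGroup.eq_one_iff g).mp hg
  let a : Y := π c
  let s : Y := π t
  have hs : s ^ 2 = 1 := by
    show (π t) ^ 2 = 1
    rw [← map_pow]
    exact hπ1 _ ht2
  have hsa : s * a * s⁻¹ = a⁻¹ := by
    have h1 : π (c * (t * c * t⁻¹)) = 1 := hπ1 _ hw
    rw [map_mul, map_mul, map_mul, map_inv] at h1
    exact eq_inv_of_mul_eq_one_right h1
  have hsn : s ∉ Subgroup.zpowers a := by
    rintro ⟨i, hi'⟩
    have h1 : π ((c ^ i)⁻¹ * t) = 1 := by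
      rw [map_mul, map_inv, map_zpow]
      show (a ^ i)⁻¹ * s = 1
      rw [← hi']
      show (a ^ i)⁻¹ * a ^ i = 1
      group
    have h2 := hZC (hπ2 _ h1)
    apply ht
    have h3 : t = c ^ i * ((c ^ i)⁻¹ * t) := by group
    rw [h3]
    exact C.mul_mem (C.zpow_mem hcC i) h2
  have hYc : Nat.card Y = 2 ^ (n - 1) := by
    have h1 := Subgroup.card_mul_index Z
    have h2 : 2 ^ n = 2 * 2 ^ (n - 1) := by
      obtain ⟨m, rfl⟩ : ∃ m, n = m + 1 := ⟨n - 1, by omega⟩
      simp only [Nat.add_sub_cancel]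
      ring
    rw [hX, hZc, h2] at h1
    exact Nat.eq_of_mul_eq_mul_left (by norm_num) h1
  have hmap : (C.map π).index = 2 := by
    have h1 := Subgroup.index_map C π
    have hker : π.ker = Z := QuotientGroup.ker_mk' Z
    rw [hker, sup_eq_left.mpr hZC, MonoidHom.range_eq_top.mpr hπ, Subgroup.index_top, mul_one, hi] at h1
    exact h1
  have hcardmap : Nat.card (C.map π) = 2 ^ (n - 2) := by
    have h1 := Subgroup.card_mul_index (C.map π)
    have h2 : 2 ^ (n - 1) = 2 ^ (n - 2) * 2 := by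
      obtain ⟨m, rfl⟩ : ∃ m, n = m + 2 := ⟨n - 2, by omega⟩
      simp only [Nat.add_sub_cancel]
      rw [show m + 2 - 1 = m + 1 by omega, pow_succ]
    rw [hmap, hYc, h2] at h1
    exact Nat.eq_of_mul_eq_mul_right (by norm_num) h1
  have ha : orderOf a = 2 ^ (n - 2) := by
    rw [← Nat.card_zpowers, ← hcardmap, hCeq, MonoidHom.map_zpowers]
  have hcard : Nat.card Y = 2 * 2 ^ (n - 2) := by
    rw [hYc]
    obtain ⟨m, rfl⟩ : ∃ m, n = m + 2 := ⟨n - 2, by omega⟩
    simp only [Nat.add_sub_cancel]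
    rw [show m + 2 - 1 = m + 1 by omega, pow_succ, mul_comm]
  exact Cfsg.Agent.Lib.Dihedral.nonempty_mulEquiv_dihedral (2 ^ (n - 2)) a s ha hs hsa hsn hcard

end Cfsg.Agent.S0114
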