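import Cfsg.Statements.S0115
import Cfsg.Agent.S0113
import Cfsg.Agent.Lib.MaxClass
open scoped commutatorElement

set_option autoImplicit false
open Cfsg

namespace Cfsg.Agent.S0115


universe u

open Cfsg.Agent.Lib.MaxClass in
theorem forward {X : Type u} [Group X] [Finite X] (n : ℕ) (hn : 3 ≤ n) (hX : Nat.card X = 2 ^ n)
    (hc : Group.nilpotencyClass X = n - 1) : IsKleinFour (X ⧸ commutator X) := by
  classical
  haveI hp2 : Fact (Nat.Prime 2) := ⟨Nat.prime_two⟩
  obtain ⟨C, hCy, hi⟩ := Cfsg.Agent.S0113.result n hn hX hc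
  have hXp : IsPGroup 2 X := IsPGroup.of_card hX
  haveI hnil : Group.IsNilpotent X := hXp.isNilpotent
  haveI hnt : Nontrivial X := by
    have h1 : 1 < Nat.card X := by
      rw [hX]
      exact Nat.one_lt_two_pow (by omega)
    exact Finite.one_lt_card_iff_nontrivial.mp h1
  have hna : ¬ ∀ a b : X, a * b = b * a := by
    intro hcomm
    have := class_eq_one_of_comm hcomm
    omega
  have hZc : Nat.card (Subgroup.center X) = 2 := card_center hn hX hc
  have hab : ∀ a ∈ C, ∀ b ∈ C, a * b = b * a := by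
    intro a ha b hb
    obtain ⟨g, hg⟩ := IsCyclic.exists_generator (α := C)
    obtain ⟨i, hi'⟩ := hg ⟨a, ha⟩
    obtain ⟨j, hj'⟩ := hg ⟨b, hb⟩
    have h1 : (g : X) ^ i = a := congrArg Subtype.val hi'
    have h2 : (g : X) ^ j = b := congrArg Subtype.val hj'
    rw [← h1, ← h2]
    exact ((Commute.refl (g : X)).zpow_zpow i j).eq
  have hform := card_formula C hi hab hna
  rw [hX, hZc] at hform
  have hX'c : Nat.card (commutator X) = 2 ^ (n - 2) := by
    have h1 : 2 ^ n = 2 * 2 * 2 ^ (n - 2) := by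
      obtain ⟨m, rfl⟩ : ∃ m, n = m + 2 := ⟨n - 2, by omega⟩
      simp only [Nat.add_sub_cancel]
      ring
    rw [h1] at hform
    have h2 : 2 * 2 * 2 ^ (n - 2) = 2 * 2 * Nat.card (commutator X) := by
      rw [hform]; ring
    exact (Nat.eq_of_mul_eq_mul_left (by norm_num) h2).symm
  have hcard : Nat.card (X ⧸ commutator X) = 4 := by
    have h1 := Subgroup.card_mul_index (commutator X)
    rw [hX'c, hX] at h1
    have h2 : 2 ^ n = 2 ^ (n - 2) * 4 := by
      obtain ⟨m, rfl⟩ : ∃ m, n = m + 2 := ⟨n - 2, by omega⟩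
      simp only [Nat.add_sub_cancel]
      ring
    rw [h2] at h1
    exact Nat.eq_of_mul_eq_mul_left (pow_pos (by norm_num) _) h1
  have hX'1 : commutator X ≠ ⊥ := by
    intro e
    rw [e, Subgroup.card_bot] at hX'c
    have : 1 < 2 ^ (n - 2) := Nat.one_lt_two_pow (by omega)
    omega
  obtain ⟨z₀, hz₀X', hz₀1, hz₀Z⟩ :=
    Cfsg.Agent.Lib.PGroupBasic.exists_ne_one_mem_center_of_normal hXp (commutator X) hX'1
  let Z := Subgroup.center X
  have hZX' : Z ≤ commutator X := by
    have hz₀o : z₀ ^ 2 = 1 := by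
      have h1 := pow_card_eq_one' (x := (⟨z₀, hz₀Z⟩ : Subgroup.center X))
      rw [hZc] at h1
      have := congrArg Subtype.val h1
      simpa using this
    have hZeq : Z = Subgroup.zpowers z₀ := by
      symm
      apply Subgroup.eq_of_le_of_card_ge (Subgroup.zpowers_le.mpr hz₀Z)
      rw [Nat.card_zpowers, orderOf_eq_prime hz₀o hz₀1, hZc]
    rw [hZeq]
    exact Subgroup.zpowers_le.mpr hz₀X'
  have hCne : C ≠ ⊤ := by
    intro e
    rw [e, Subgroup.index_top] at hi
    omega
  obtain ⟨t, ht⟩ : ∃ t, t ∉ C := by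
    by_contra h
    push_neg at h
    exact hCne (Subgroup.eq_top_iff' _ |>.mpr h)
  haveI hCn : C.Normal := Subgroup.normal_of_index_eq_two hi
  have hsqout : ∀ g, g ∉ C → g ^ 2 ∈ Z := by
    intro g hg
    exact mem_center_of_commute C hi hab g hg (sq_mem C hi g) (by rw [sq]; group)
  have hsq : ∀ g : X, g ^ 2 ∈ commutator X := by
    intro g
    by_cases hg : g ∈ C
    · -- `g² = (g g^t) [g, t]`
      have ht2 := hsqout t ht
      have htg : t * g * t⁻¹ ∈ C := hCn.conj_mem g hg t
      have hw : g * (t * g * t⁻¹) ∈ Z := by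
        refine mem_center_of_commute C hi hab t ht (C.mul_mem hg htg) ?_
        have h1 : t * (t * g * t⁻¹) * t⁻¹ = g := by
          have e : t * (t * g * t⁻¹) * t⁻¹ = t ^ 2 * g * (t ^ 2)⁻¹ := by
            rw [sq, mul_inv_rev]; simp only [mul_assoc]
          rw [e, ← Subgroup.mem_center_iff.mp ht2 g]
          group
        have key : t * (g * (t * g * t⁻¹)) * t⁻¹ = g * (t * g * t⁻¹) := by
          calc t * (g * (t * g * t⁻¹)) * t⁻¹ = (t * g * t⁻¹) * (t * (t * g * t⁻¹) * t⁻¹) := by group
            _ = (t * g * t⁻¹) * g := by rw [h1]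
            _ = g * (t * g * t⁻¹) := hab _ htg _ hg
        calc g * (t * g * t⁻¹) * t = (t * (g * (t * g * t⁻¹)) * t⁻¹) * t := by rw [key]
          _ = t * (g * (t * g * t⁻¹)) := by group
      have h2 : ⁅g, t⁆ ∈ commutator X :=
        Subgroup.commutator_mem_commutator (Subgroup.mem_top _) (Subgroup.mem_top _)
      have h3 : g ^ 2 = (g * (t * g * t⁻¹)) * ⁅g, t⁆ := by
        rw [commutatorElement_def]
        have h4 := hab _ htg _ hg
        calc g ^ 2 = g * ((t * g * t⁻¹) * g) * (t * g * t⁻¹)⁻¹ := by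
              rw [h4, sq]; group
          _ = (g * (t * g * t⁻¹)) * (g * t * g⁻¹ * t⁻¹) := by group
      rw [h3]
      exact Subgroup.mul_mem _ (hZX' hw) h2
    · exact hZX' (hsqout g hg)
  haveI hnt4 : Nontrivial (X ⧸ commutator X) := by
    apply Finite.one_lt_card_iff_nontrivial.mp
    rw [hcard]
    norm_num
  refine ⟨hcard, ?_⟩
  rw [Monoid.exponent_eq_prime_iff Nat.prime_two]
  intro g hg
  refine orderOf_eq_prime ?_ hg
  obtain ⟨g', rfl⟩ := QuotientGroup.mk_surjective g
  rw [← QuotientGroup.mk_pow]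
  exact (QuotientGroup.eq_one_iff _).mpr (hsq g')

theorem comm_of_class_le_one {X : Type*} [Group X] [Group.IsNilpotent X] [Nontrivial X]
    (h : Group.nilpotencyClass X ≤ 1) (a b : X) : a * b = b * a := by
  have h1 := nilpotencyClass_eq_quotient_center_plus_one (G := X)
  have h2 : Group.nilpotencyClass (X ⧸ Subgroup.center X) = 0 := by omega
  have h3 := nilpotencyClass_zero_iff_subsingleton.mp h2
  have h4 : a ∈ Subgroup.center X := (QuotientGroup.eq_one_iff a).mp (Subsingleton.elim _ _)
  exact (Subgroup.mem_center_iff.mp h4 b).symm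

theorem class_quot_congr {X : Type*} [Group X] (N : Subgroup X) [N.Normal] (e : N = Subgroup.center X) :
    Group.nilpotencyClass (X ⧸ N) = Group.nilpotencyClass (X ⧸ Subgroup.center X) := by
  subst e
  rfl

open Cfsg.Agent.Lib.MaxClass in
theorem taussky (n : ℕ) (hn : 3 ≤ n) : ∀ (X : Type u) [Group X] [Finite X], Nat.card X = 2 ^ n →
    (commutator X).index = 4 → (∀ g : X, g ^ 2 ∈ commutator X) → Group.nilpotencyClass X = n - 1 := by
  classical
  haveI hp2 : Fact (Nat.Prime 2) := ⟨Nat.prime_two⟩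
  induction n, hn using Nat.le_induction with
  | base =>
    intro X _ _ hX hidx hsq
    have hXp : IsPGroup 2 X := IsPGroup.of_card hX
    haveI hnil : Group.IsNilpotent X := hXp.isNilpotent
    haveI hnt : Nontrivial X := by
      have h1 : 1 < Nat.card X := by rw [hX]; norm_num
      exact Finite.one_lt_card_iff_nontrivial.mp h1
    have hna : ¬ ∀ a b : X, a * b = b * a := by
      intro hcomm
      have h1 : commutator X = ⊥ := by
        rw [eq_bot_iff, commutator_def, Subgroup.commutator_le]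
        intro a _ b _
        rw [Subgroup.mem_bot, commutatorElement_eq_one_iff_mul_comm]
        exact hcomm a b
      rw [h1, Subgroup.index_bot, hX] at hidx
      norm_num at hidx
    have h1 := class_bound (p := 2) 3 X hX
    have h2 : ¬ Group.nilpotencyClass X ≤ 1 := fun h => hna (comm_of_class_le_one h)
    have h3 : max 3 2 = 3 := rfl
    rw [h3] at h1
    omega
  | succ n hn ih =>
    intro X _ _ hX hidx hsq
    have hXp : IsPGroup 2 X := IsPGroup.of_card hX
    haveI hnil : Group.IsNilpotent X := hXp.isNilpotent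
    haveI hnt : Nontrivial X := by
      have h1 : 1 < Nat.card X := by
        rw [hX]
        exact Nat.one_lt_two_pow (by omega)
      exact Finite.one_lt_card_iff_nontrivial.mp h1
    have hX'c : Nat.card (commutator X) = 2 ^ (n - 1) := by
      have h1 := Subgroup.card_mul_index (commutator X)
      rw [hidx, hX] at h1
      have h2 : 2 ^ (n + 1) = 2 ^ (n - 1) * 4 := by
        obtain ⟨m, rfl⟩ : ∃ m, n = m + 1 := ⟨n - 1, by omega⟩
        simp only [Nat.add_sub_cancel]
        ring
      rw [h2] at h1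
      exact Nat.eq_of_mul_eq_mul_right (by norm_num) h1
    have hX'1 : commutator X ≠ ⊥ := by
      intro e
      rw [e, Subgroup.card_bot] at hX'c
      have : 1 < 2 ^ (n - 1) := Nat.one_lt_two_pow (by omega)
      omega
    have hna : ¬ ∀ a b : X, a * b = b * a := by
      intro hcomm
      apply hX'1
      rw [eq_bot_iff, commutator_def, Subgroup.commutator_le]
      intro a _ b _
      rw [Subgroup.mem_bot, commutatorElement_eq_one_iff_mul_comm]
      exact hcomm a b
    obtain ⟨z₀, hz₀X', hz₀1, hz₀Z⟩ :=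
      Cfsg.Agent.Lib.PGroupBasic.exists_ne_one_mem_center_of_normal hXp (commutator X) hX'1
    -- an element of order two in `X' ∩ Z(X)`
    obtain ⟨k, hk⟩ := IsPGroup.iff_orderOf.mp hXp z₀
    have hk0 : k ≠ 0 := by
      rintro rfl
      rw [pow_zero] at hk
      exact hz₀1 (orderOf_eq_one_iff.mp hk)
    let z₁ := z₀ ^ (2 ^ (k - 1))
    have hz₁X' : z₁ ∈ commutator X := Subgroup.pow_mem _ hz₀X' _
    have hz₁Z : z₁ ∈ Subgroup.center X := Subgroup.pow_mem _ hz₀Z _
    have hz₁1 : z₁ ≠ 1 := by
      refine pow_ne_one_of_lt_orderOf (pow_ne_zero _ (by norm_num)) ?_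
      rw [hk]
      exact Nat.pow_lt_pow_right (by norm_num) (by omega)
    have hz₁2 : z₁ ^ 2 = 1 := by
      show (z₀ ^ (2 ^ (k - 1))) ^ 2 = 1
      rw [← pow_mul, ← pow_succ, show k - 1 + 1 = k by omega, ← hk, pow_orderOf_eq_one]
    have hz₁o : orderOf z₁ = 2 := orderOf_eq_prime hz₁2 hz₁1
    let Z₁ : Subgroup X := Subgroup.zpowers z₁
    have hZ₁Z : Z₁ ≤ Subgroup.center X := Subgroup.zpowers_le.mpr hz₁Z
    have hZ₁X' : Z₁ ≤ commutator X := Subgroup.zpowers_le.mpr hz₁X'
    have hZ₁c : Nat.card Z₁ = 2 := by rw [Nat.card_zpowers, hz₁o]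
    haveI hZ₁n : Z₁.Normal := by
      refine ⟨fun x hx g => ?_⟩
      have := Subgroup.mem_center_iff.mp (hZ₁Z hx) g
      rw [this, mul_assoc, mul_inv_cancel, mul_one]
      exact hx
    let Y := X ⧸ Z₁
    let π : X →* Y := QuotientGroup.mk' Z₁
    have hπ : Function.Surjective π := QuotientGroup.mk'_surjective Z₁
    have hker : π.ker = Z₁ := QuotientGroup.ker_mk' Z₁
    have hYc : Nat.card Y = 2 ^ n := by
      have h1 := Subgroup.card_mul_index Z₁
      rw [hX, hZ₁c, pow_succ] at h1
      have h2 : 2 * Z₁.index = 2 * 2 ^ n := by rw [h1, mul_comm]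
      exact Nat.eq_of_mul_eq_mul_left (by norm_num) h2
    have hY' : commutator Y = (commutator X).map π := by
      rw [commutator_def, commutator_def, Subgroup.map_commutator, Subgroup.map_top_of_surjective π hπ]
    have hYidx : (commutator Y).index = 4 := by
      rw [hY']
      have h1 := Subgroup.index_map (commutator X) π
      rw [hker, sup_eq_left.mpr hZ₁X', MonoidHom.range_eq_top.mpr hπ, Subgroup.index_top, mul_one, hidx] at h1
      exact h1
    have hYsq : ∀ y : Y, y ^ 2 ∈ commutator Y := by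
      intro y
      obtain ⟨g, rfl⟩ := hπ y
      rw [hY', ← map_pow]
      exact ⟨_, hsq g, rfl⟩
    have hclassY : Group.nilpotencyClass Y = n - 1 := ih Y hYc hYidx hYsq
    obtain ⟨Cb, hCy, hCi⟩ := Cfsg.Agent.S0113.result n hn hYc hclassY
    let C : Subgroup X := Cb.comap π
    have hi : C.index = 2 := by
      rw [← hCi]
      exact Subgroup.index_comap_of_surjective Cb hπ
    obtain ⟨cb, hcb⟩ := IsCyclic.exists_generator (α := Cb)
    obtain ⟨c, hcc⟩ := hπ cb
    have hform : ∀ d ∈ C, ∃ i : ℤ, ∃ z ∈ Subgroup.center X, d = c ^ i * z := by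
      intro d hd
      obtain ⟨i, hi'⟩ := hcb ⟨π d, hd⟩
      refine ⟨i, (c ^ i)⁻¹ * d, ?_, by group⟩
      have h1 : π (c ^ i) = π d := by
        rw [map_zpow, hcc]
        exact congrArg Subtype.val hi'
      apply hZ₁Z
      exact (QuotientGroup.eq_one_iff _).mp (by
        rw [QuotientGroup.mk_mul, QuotientGroup.mk_inv]
        show (π (c ^ i))⁻¹ * π d = 1
        rw [h1, inv_mul_cancel])
    have hzc : ∀ z ∈ Subgroup.center X, ∀ g : X, g * z = z * g := fun z hz g => Subgroup.mem_center_iff.mp hz g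
    have hab : ∀ a ∈ C, ∀ b ∈ C, a * b = b * a := by
      intro a ha b hb
      obtain ⟨i, z, hz, rfl⟩ := hform a ha
      obtain ⟨j, w, hw, rfl⟩ := hform b hb
      have h1 : Commute (c ^ i) (c ^ j) := (Commute.refl c).zpow_zpow i j
      calc c ^ i * z * (c ^ j * w) = c ^ i * c ^ j * (z * w) := by
            rw [mul_assoc, ← mul_assoc z, ← hzc z hz (c ^ j)]; group
        _ = c ^ j * c ^ i * (w * z) := by rw [h1.eq, hzc w hw z]
        _ = c ^ j * w * (c ^ i * z) := by
            rw [mul_assoc (c ^ j) w, ← mul_assoc w, ← hzc w hw (c ^ i)]; group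
    have hform2 := card_formula C hi hab hna
    rw [hX, hX'c] at hform2
    have hZc : Nat.card (Subgroup.center X) = 2 := by
      have h1 : 2 ^ (n + 1) = 2 * (2 ^ (n - 1) * 2) := by
        obtain ⟨m, rfl⟩ : ∃ m, n = m + 1 := ⟨n - 1, by omega⟩
        simp only [Nat.add_sub_cancel]
        ring
      rw [h1] at hform2
      have h2 := Nat.eq_of_mul_eq_mul_left (by norm_num) hform2
      exact (Nat.eq_of_mul_eq_mul_left (pow_pos (by norm_num) _) h2).symm
    have hZ₁eq : Z₁ = Subgroup.center X :=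
      Subgroup.eq_of_le_of_card_ge hZ₁Z (by rw [hZc, hZ₁c])
    have h1 := nilpotencyClass_eq_quotient_center_plus_one (G := X)
    have h2 := class_quot_congr Z₁ hZ₁eq
    have h3 : Group.nilpotencyClass (X ⧸ Z₁) = n - 1 := hclassY
    omega


/-- A 2-group of order 2^n, n ≥ 3, is of maximal class exactly when its commutator quotient is a Klein four-group. -/
theorem result {X : Type*} [Group X] [Finite X] (n : ℕ) (hn : 3 ≤ n) (hX : Nat.card X = 2 ^ n) : Group.nilpotencyClass X = n - 1 ↔ IsKleinFour (X ⧸ commutator X) := by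
  classical
  constructor
  · exact forward n hn hX
  · intro hK
    refine taussky n hn X hX ?_ ?_
    · exact hK.card_four
    · intro g
      have h1 : ((g : X ⧸ commutator X)) ^ 2 = 1 := by
        have := Monoid.pow_exponent_eq_one (g : X ⧸ commutator X)
        rwa [hK.exponent_two] at this
      rw [← QuotientGroup.mk_pow] at h1
      exact (QuotientGroup.eq_one_iff _).mp h1

end Cfsg.Agent.S0115
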