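import Cfsg.Statements.S0118
import Cfsg.Agent.Lib.QdControl
import Cfsg.Agent.Lib.ZJOmega
-- import your own Cfsg.Agent.* helpers here

set_option autoImplicit false
open Cfsg

namespace Cfsg.Agent.S0118

/-- Glauberman's ZJ-Theorem, in the case of groups with no section isomorphic to SL(2,p), p odd: conjugation of subsets of a Sylow p-subgroup P inside P is always induced from the normalizer of Z(J(P)). -/
theorem result {G : Type*} [Group G] [Finite G] {p : ℕ} [Fact p.Prime] (hp : p ≠ 2) (hfree : ¬ ∃ (H K : Subgroup G) (hK : (K.subgroupOf H).Normal), Nonempty ((H ⧸ K.subgroupOf H) ≃* Matrix.SpecialLinearGroup (Fin 2) (ZMod p))) (P : Sylow p G) (A : Set G) (hA : A ⊆ (P : Set G)) (g : G) (hAg : (fun a => g⁻¹ * a * g) '' A ⊆ (P : Set G)) : ∃ n ∈ Subgroup.normalizer (Cfsg.centerThompsonOf p (P : Subgroup G) : Set G), ∀ a ∈ A, n⁻¹ * a * n = g⁻¹ * a * g := by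
  classical
  have hqd : ¬ Cfsg.Involves ↥(Cfsg.qd p) G := by
    intro hinv
    apply hfree
    obtain ⟨K, Θ, hΘ⟩ := (Cfsg.Agent.Lib.QdSection.involves_iff).1 hinv
    obtain ⟨D⟩ := Cfsg.Agent.Lib.QdControl.qdData_qd (p := p) hp
    exact (Cfsg.Agent.Lib.QdSection.involves_iff).2 ⟨K, D.τ.comp Θ, D.hτ.comp hΘ⟩
  have hW := Cfsg.Agent.Lib.ZJFunctor.isChar_WG (p := p) (e := p) (Or.inr rfl)
  have h𝓦 : ∀ W' ∈ ({Cfsg.Agent.Lib.ZJFunctor.WG p} : Set (∀ (Q : Type _) [Group Q], Subgroup Q)),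
      IsCharPFunctor p W' := by
    rintro _ rfl
    exact hW
  have hP := Cfsg.Agent.Lib.FusionApps.sections_main h𝓦
    (fun Y _ _ hY hc => Cfsg.Agent.Lib.FusionApps.family_of_normal (Set.mem_singleton (Cfsg.Agent.Lib.ZJFunctor.WG p))
      (fun T => by
        rw [Cfsg.Agent.Lib.ZJFunctor.induced_WG, ← Cfsg.Agent.Lib.ZJApps.centerThompsonOf_eq]
        exact (Cfsg.Agent.Lib.ZJOmega.goodZ hp).nrm Y T _ (Cfsg.Agent.Lib.ZJFunctor.stronglyClosed_self _) hc
          fun B hB hBp => Cfsg.Agent.Lib.ZJApps.stabOn_of_normalizerStable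
            (Cfsg.Agent.Lib.QdControl.stable_of_sec hp hqd hY) hB hBp))
    G (Cfsg.Agent.Lib.SecFunctor.isSec_self G)
  obtain ⟨x, hx, hxa⟩ := Cfsg.Agent.Lib.QdControl.control_of_family' hW hP P A hA g⁻¹ (by
    rintro _ ⟨a, ha, rfl⟩
    have := hAg ⟨a, ha, rfl⟩
    simpa using this)
  rw [Cfsg.Agent.Lib.ZJFunctor.induced_WG, ← Cfsg.Agent.Lib.ZJApps.centerThompsonOf_eq] at hx
  refine ⟨x⁻¹, Subgroup.inv_mem _ hx, fun a ha => ?_⟩
  have := hxa a ha
  simpa using this.symm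

end Cfsg.Agent.S0118
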