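import Cfsg.Statements.S0119
import Mathlib
import Cfsg.Agent.Lib.Critical
import Cfsg.Agent.Lib.CoprimeAct
import Cfsg.Agent.Lib.H6Regular

set_option autoImplicit false
open Cfsg

namespace Cfsg.Agent.S0119

open scoped commutatorElement

variable {G : Type*} [Group G]

theorem commutes_of_fixed {A : Subgroup (MulAut G)}
    (hGA : Subgroup.closure {x : G | ∃ g : G, ∃ a ∈ A, x = g⁻¹ * a g} = ⊤) (b : G)
    (hb : ∀ a ∈ A, a b = b) (hf : ∀ a ∈ A, ∀ g : G, a ⁅b, g⁆ = ⁅b, g⁆) : b ∈ Subgroup.center G := by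
  have h1 : Subgroup.closure {x : G | ∃ g : G, ∃ a ∈ A, x = g⁻¹ * a g} ≤ Subgroup.centralizer ({b} : Set G) := by
    rw [Subgroup.closure_le]
    rintro x ⟨g, a, ha, rfl⟩
    rw [SetLike.mem_coe, Subgroup.mem_centralizer_singleton_iff]
    have h2 := hf a ha g
    rw [map_commutatorElement, hb a ha] at h2
    simp only [commutatorElement_def] at h2
    have h3 : a g * b⁻¹ * (a g)⁻¹ = g * b⁻¹ * g⁻¹ := by
      have h4 : b * (a g * b⁻¹ * (a g)⁻¹) = b * (g * b⁻¹ * g⁻¹) := by
        simpa only [mul_assoc] using h2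
      exact mul_left_cancel h4
    have h5 : g⁻¹ * a g * b⁻¹ = b⁻¹ * (g⁻¹ * a g) := by
      calc g⁻¹ * a g * b⁻¹ = g⁻¹ * (a g * b⁻¹ * (a g)⁻¹) * a g := by group
        _ = g⁻¹ * (g * b⁻¹ * g⁻¹) * a g := by rw [h3]
        _ = b⁻¹ * (g⁻¹ * a g) := by group
    exact (Commute.inv_right_iff.1 (show Commute (g⁻¹ * a g) b⁻¹ from h5)).eq
  rw [hGA] at h1
  rw [Subgroup.mem_center_iff]
  intro g
  have h2 := h1 (Subgroup.mem_top g)
  rw [Subgroup.mem_centralizer_singleton_iff] at h2
  exact h2

theorem comm_pow_left {x y : G} (h : ∀ a b : G, ⁅a, b⁆ ∈ Subgroup.center G) (m : ℕ) :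
    ⁅x ^ m, y⁆ = ⁅x, y⁆ ^ m := by
  induction m with
  | zero => simp
  | succ m ih =>
    have hcen : ∀ g : G, ⁅x, y⁆ * g = g * ⁅x, y⁆ := fun g => ((Subgroup.mem_center_iff.1 (h x y)) g).symm
    have e1 : ⁅x ^ (m + 1), y⁆ = x ^ m * ⁅x, y⁆ * (x ^ m)⁻¹ * ⁅x ^ m, y⁆ := by
      simp only [commutatorElement_def, pow_succ]
      group
    rw [e1, ← hcen (x ^ m), mul_inv_cancel_right, ih, pow_succ']

theorem comm_pow_right {x y : G} (h : ∀ a b : G, ⁅a, b⁆ ∈ Subgroup.center G) (m : ℕ) :
    ⁅x, y ^ m⁆ = ⁅x, y⁆ ^ m := by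
  have h1 := comm_pow_left (x := y) (y := x) h m
  have e1 : ∀ a b : G, ⁅a, b⁆ = ⁅b, a⁆⁻¹ := fun a b => by
    simp only [commutatorElement_def]; group
  rw [e1 x, h1, e1 y, inv_pow, inv_inv]



/-- If a p'-group A of automorphisms of a p-group G satisfies G = [G, A] and acts trivially on every characteristic abelian subgroup, then G is special with centre equal to the fixed points of A. -/
theorem result {G : Type*} [Group G] [Finite G] {p : ℕ} [Fact p.Prime] (hG : IsPGroup p G) (A : Subgroup (MulAut G)) (hA : Nat.Coprime (Nat.card A) p) (hGA : Subgroup.closure {x : G | ∃ g : G, ∃ a ∈ A, x = g⁻¹ * a g} = ⊤) (hchar : ∀ H : Subgroup G, H.Characteristic → IsMulCommutative H → ∀ a ∈ A, ∀ h ∈ H, a h = h) : Cfsg.IsSpecial p G ∧ (∀ g : G, (g ∈ Subgroup.center G ↔ ∀ a ∈ A, a g = g)) := by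
  classical
  have hchar' : ∀ (H : Subgroup G), H.Characteristic → (∀ x ∈ H, ∀ y ∈ H, x * y = y * x) → ∀ a ∈ A, ∀ h ∈ H, a h = h := by
    intro H hH hc a ha h hh
    exact hchar H hH ⟨⟨fun x y => Subtype.ext (hc x x.2 y y.2)⟩⟩ a ha h hh
  -- characteristic abelian subgroups are central
  have hcentral : ∀ (H : Subgroup G), H.Characteristic → (∀ x ∈ H, ∀ y ∈ H, x * y = y * x) → H ≤ Subgroup.center G := by
    intro H hH hc b hb
    haveI := hH
    have hle : ⁅H, (⊤ : Subgroup G)⁆ ≤ H := Subgroup.commutator_le_left _ _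
    refine commutes_of_fixed hGA b (fun a ha => hchar' H hH hc a ha b hb) ?_
    intro a ha g
    refine hchar' ⁅H, (⊤ : Subgroup G)⁆ inferInstance (fun x hx y hy => hc x (hle hx) y (hle hy)) a ha _ ?_
    exact Subgroup.commutator_mem_commutator hb trivial
  have hZfix : ∀ a ∈ A, ∀ h ∈ Subgroup.center G, a h = h :=
    hchar' _ inferInstance (fun x hx y _ => ((Subgroup.mem_center_iff.1 hx) y).symm)
  -- class two
  obtain ⟨H, hH, -, hH2, hH3⟩ := Cfsg.Agent.Lib.Critical.exists_critical hG
  haveI := hH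
  have hY : H ⊓ Subgroup.centralizer (H : Set G) ≤ Subgroup.center G := by
    refine hcentral _ inferInstance ?_
    intro x hx y hy
    exact ((Subgroup.mem_centralizer_iff.1 hx.2) y hy.1).symm
  have hcomm_central : ∀ K : Subgroup G, K ≤ Subgroup.center G → ⁅K, (⊤ : Subgroup G)⁆ = ⊥ := by
    intro K hK
    rw [Subgroup.commutator_eq_bot_iff_le_centralizer]
    intro x hx
    exact Subgroup.mem_centralizer_iff.2 (fun y _ => (Subgroup.mem_center_iff.1 (hK hx)) y)
  have hG' : commutator G ≤ Subgroup.center G := by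
    have h1 : ⁅⁅H, (⊤ : Subgroup G)⁆, (⊤ : Subgroup G)⁆ = ⊥ := hcomm_central _ (hH2.trans hY)
    have h2 : ⁅⁅(⊤ : Subgroup G), H⁆, (⊤ : Subgroup G)⁆ = ⊥ := by
      rw [Subgroup.commutator_comm (⊤ : Subgroup G) H]; exact h1
    have h3 : ⁅⁅(⊤ : Subgroup G), (⊤ : Subgroup G)⁆, H⁆ = ⊥ :=
      Subgroup.commutator_commutator_eq_bot_of_rotate h2 h1
    rw [Subgroup.commutator_eq_bot_iff_le_centralizer] at h3
    have h4 : commutator G ≤ H := h3.trans hH3
    exact (le_inf h4 h3).trans hY
  have hcc : ∀ a b : G, ⁅a, b⁆ ∈ Subgroup.center G := fun a b =>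
    hG' (by rw [commutator_def]; exact Subgroup.commutator_mem_commutator trivial trivial)
  -- fixed points are central
  have hfix : ∀ g : G, (∀ a ∈ A, a g = g) → g ∈ Subgroup.center G := by
    intro d hd
    exact commutes_of_fixed hGA d hd (fun a ha g => hZfix a ha _ (hcc d g))
  -- the centre lies in the derived subgroup
  have hZ' : Subgroup.center G ≤ commutator G := by
    intro z hz
    haveI : Fintype A := Fintype.ofFinite _
    let N : G →* Abelianization G := MonoidHom.mk' (fun g => ∏ a : A, Abelianization.of ((a : MulAut G) g)) (by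
      intro x y
      simp only [map_mul]
      exact Finset.prod_mul_distrib)
    have hN : ∀ g, N g = ∏ a : A, Abelianization.of ((a : MulAut G) g) := fun g => rfl
    have hconj : ∀ (a₀ : A) (g : G), N ((a₀ : MulAut G) g) = N g := by
      intro a₀ g
      rw [hN, hN]
      apply Fintype.prod_equiv (Equiv.mulRight a₀)
      intro a
      rfl
    have hker : Subgroup.closure {x : G | ∃ g : G, ∃ a ∈ A, x = g⁻¹ * a g} ≤ N.ker := by
      rw [Subgroup.closure_le]
      rintro x ⟨g, a, ha, rfl⟩
      change N _ = 1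
      rw [map_mul, map_inv, hconj ⟨a, ha⟩ g]
      simp
    rw [hGA] at hker
    have h1 : N z = 1 := hker (Subgroup.mem_top z)
    have h2 : N z = (Abelianization.of z) ^ Nat.card A := by
      rw [hN]
      have : ∀ a : A, Abelianization.of ((a : MulAut G) z) = Abelianization.of z := fun a => by
        rw [hZfix a a.2 z hz]
      simp only [this]
      simp [Nat.card_eq_fintype_card]
    obtain ⟨n, hn⟩ := IsPGroup.iff_card.1 hG
    have h3 : (Abelianization.of z) ^ (p ^ n) = 1 := by
      rw [← map_pow, ← hn, pow_card_eq_one', map_one]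
    have h4 : orderOf (Abelianization.of z) = 1 := by
      apply Nat.eq_one_of_dvd_coprimes (hA.pow_right n)
      · exact orderOf_dvd_of_pow_eq_one (by rw [← h2, h1])
      · exact orderOf_dvd_of_pow_eq_one h3
    have h5 : Abelianization.of z = 1 := orderOf_eq_one_iff.1 h4
    have h6 : z ∈ Abelianization.of.ker := h5
    rwa [Abelianization.ker_of] at h6
  -- the quotient by the centre is elementary abelian
  have hdesc : ∀ k : ℕ, (∀ x : G, x ^ (p ^ (k + 1)) ∈ Subgroup.center G) → ∀ x : G, x ^ p ∈ Subgroup.center G := by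
    intro k
    induction k with
    | zero =>
      intro h x
      simpa using h x
    | succ k ih =>
      intro h
      apply ih
      intro x
      let S : Set G := {w | ∃ y : G, w = y ^ (p ^ (k + 1))}
      have hS : Subgroup.closure S ≤ Subgroup.center G := by
        refine hcentral _ ?_ ?_
        · rw [Subgroup.characteristic_iff_le_comap]
          intro φ
          rw [Subgroup.closure_le]
          rintro w ⟨y, rfl⟩
          rw [SetLike.mem_coe, Subgroup.mem_comap]
          apply Subgroup.subset_closure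
          exact ⟨φ y, by simp⟩
        · have hSc : ∀ u ∈ S, ∀ v ∈ S, u * v = v * u := by
            rintro u ⟨y, rfl⟩ v ⟨w, rfl⟩
            have h1 : ⁅y ^ (p ^ (k + 1)), w ^ (p ^ (k + 1))⁆ = 1 := by
              rw [comm_pow_right hcc, comm_pow_left hcc, ← pow_mul]
              rw [← comm_pow_left hcc]
              have h2 : p ^ (k + 1) * p ^ (k + 1) = p ^ (k + 1 + 1) * p ^ k := by ring
              rw [h2, pow_mul]
              have h3 : (y ^ (p ^ (k + 1 + 1))) ^ (p ^ k) ∈ Subgroup.center G :=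
                Subgroup.pow_mem _ (h y) _
              rw [commutatorElement_eq_one_iff_mul_comm]
              exact ((Subgroup.mem_center_iff.1 h3) w).symm
            exact commutatorElement_eq_one_iff_mul_comm.1 h1
          have hle1 : Subgroup.closure S ≤ Subgroup.centralizer S := by
            rw [Subgroup.closure_le]
            intro u hu
            rw [SetLike.mem_coe, Subgroup.mem_centralizer_iff]
            intro v hv
            exact hSc v hv u hu
          intro u hu v hv
          have hs : S ⊆ Subgroup.centralizer ({u} : Set G) := by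
            intro w hw
            rw [SetLike.mem_coe, Subgroup.mem_centralizer_singleton_iff]
            exact (Subgroup.mem_centralizer_iff.1 (hle1 hu)) w hw
          have h5 := (Subgroup.closure_le _).2 hs hv
          rw [Subgroup.mem_centralizer_singleton_iff] at h5
          exact h5.symm
      exact hS (Subgroup.subset_closure ⟨x, rfl⟩)
  have hpow : ∀ x : G, x ^ p ∈ Subgroup.center G := by
    obtain ⟨n, hn⟩ := IsPGroup.iff_card.1 hG
    refine hdesc n ?_
    intro x
    have h1 : x ^ (p ^ (n + 1)) = (x ^ (p ^ n)) ^ p := by rw [pow_succ, pow_mul]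
    rw [h1, ← hn, pow_card_eq_one', one_pow]
    exact Subgroup.one_mem _
  have hfr : frattini G = Subgroup.center G := by
    apply le_antisymm
    · apply Cfsg.Agent.Lib.CoprimeAct.frattini_le_of_elementary (p := p)
      · intro a b
        have := hcc a b
        rwa [commutatorElement_def] at this
      · exact hpow
    · exact hZ'.trans (Cfsg.Agent.Lib.H6Regular.commutator_le_frattini hG)
  refine ⟨⟨hG, hfr, le_antisymm hG' hZ'⟩, fun g => ⟨fun hg a ha => hZfix a ha g hg, hfix g⟩⟩

end Cfsg.Agent.S0119
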