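import Cfsg.Statements.S0120
import Cfsg.Agent.Lib.PNilpB

set_option autoImplicit false
open Cfsg

namespace Cfsg.Agent.S0120

/-- For odd p, a p'-automorphism of a p-group acting trivially on the elements of order dividing p is trivial. -/
theorem result {G : Type*} [Group G] [Finite G] {p : ℕ} [Fact p.Prime] (hp : p ≠ 2) (hG : IsPGroup p G) (a : MulAut G) (ha : Nat.Coprime (orderOf a) p) (h : ∀ x : G, x ^ p = 1 → a x = x) : a = 1 := by
  classical
  let X := SemidirectProduct G (MulAut G) (MonoidHom.id _)
  let inl : G →* X := SemidirectProduct.inl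
  let inr : MulAut G →* X := SemidirectProduct.inr
  have hinl : Function.Injective inl := SemidirectProduct.inl_injective
  have hinr : Function.Injective inr := SemidirectProduct.inr_injective
  have hconj : ∀ g : G, inr a * inl g * (inr a)⁻¹ = inl (a g) := by
    intro g
    have := SemidirectProduct.inl_aut (φ := MonoidHom.id (MulAut G)) a g
    rw [← map_inv inr a]
    exact this.symm
  haveI : Finite (MulAut G) := by
    have : Function.Injective (fun a : MulAut G => (a : G → G)) := fun a b h => MulEquiv.ext (congrFun h)
    exact Finite.of_injective _ this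
  haveI : Finite X := Finite.of_equiv _ (SemidirectProduct.equivProd (N := G) (G := MulAut G) (φ := MonoidHom.id _)).symm
  have hord : (orderOf (inr a)).Coprime p := by
    rw [orderOf_injective inr hinr a]; exact ha
  have hQp : IsPGroup p inl.range := hG.of_surjective inl.rangeRestrict inl.rangeRestrict_surjective
  have key := Cfsg.Agent.Lib.PNilpB.ito_lemma hord _ inl.range rfl hQp
    (by
      rintro _ ⟨g, rfl⟩
      rw [hconj]
      exact ⟨_, rfl⟩)
    (by
      intro E hEQ _ hexp e he
      obtain ⟨g, rfl⟩ := hEQ he
      rw [hconj]
      rcases hexp _ he with h1 | ⟨h2, -⟩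
      · rw [← map_pow] at h1
        have h3 : g ^ p = 1 := hinl (by rw [h1, map_one])
        rw [h g h3]
      · exact absurd h2 hp)
  apply MulEquiv.ext
  intro g
  have h1 := key (inl g) ⟨g, rfl⟩
  rw [hconj] at h1
  exact hinl h1

end Cfsg.Agent.S0120
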