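import Cfsg.Statements.S0125
import Cfsg.Agent.Lib.PNilpB
import Cfsg.Agent.Lib.SchurZ2
import Cfsg.Agent.Lib.Commutators
import Cfsg.Agent.Lib.PIrreducible

set_option autoImplicit false
open Cfsg

namespace Cfsg.Agent.S0125

/-- The centralizer of a self-centralizing normal subgroup A of a Sylow p-subgroup is the direct product of A with a normal p'-subgroup. -/
theorem result {G : Type*} [Group G] [Finite G] {p : ℕ} [Fact p.Prime] (R : Sylow p G) (A : Subgroup G) (hAR : A ≤ (R : Subgroup G)) (hAn : (R : Subgroup G) ≤ Subgroup.normalizer (A : Set G)) (hC : (R : Subgroup G) ⊓ Subgroup.centralizer (A : Set G) = A) : ∃ H : Subgroup G, H ≤ Subgroup.centralizer (A : Set G) ∧ Nat.Coprime (Nat.card H) p ∧ Subgroup.centralizer (A : Set G) ≤ Subgroup.normalizer (H : Set G) ∧ H ⊓ A = ⊥ ∧ H ⊔ A = Subgroup.centralizer (A : Set G) := by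
  classical
  have hp : p.Prime := Fact.out
  let C : Subgroup G := Subgroup.centralizer (A : Set G)
  have hAC : A ≤ C := by
    have : (R : Subgroup G) ⊓ Subgroup.centralizer (A : Set G) ≤ C := inf_le_right
    rwa [hC] at this
  have hAp : IsPGroup p A := R.isPGroup'.to_le hAR
  have hcent : ∀ d ∈ A, ∀ c ∈ C, c * d = d * c := fun d hd c hc =>
    (Subgroup.mem_centralizer_iff.mp hc d hd).symm
  have hRC : (R : Subgroup G) ≤ Subgroup.normalizer (C : Set G) := by
    intro r hr
    have hrN := hAn hr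
    apply Cfsg.Agent.Lib.Commutators.mem_normalizer_of_conj_mem
    · intro c hc
      refine Subgroup.mem_centralizer_iff.mpr (fun a ha => ?_)
      have h1 := Cfsg.Agent.Lib.Commutators.conj_inv_mem_of_mem_normalizer hrN ha
      have h2 := Subgroup.mem_centralizer_iff.mp hc _ h1
      calc a * (r * c * r⁻¹) = r * ((r⁻¹ * a * r) * c) * r⁻¹ := by group
        _ = r * (c * (r⁻¹ * a * r)) * r⁻¹ := by rw [h2]
        _ = (r * c * r⁻¹) * a := by group
    · intro c hc
      refine Subgroup.mem_centralizer_iff.mpr (fun a ha => ?_)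
      have h1 := Cfsg.Agent.Lib.Commutators.conj_mem_of_mem_normalizer hrN ha
      have h2 := Subgroup.mem_centralizer_iff.mp hc _ h1
      calc a * (r⁻¹ * c * r) = r⁻¹ * ((r * a * r⁻¹) * c) * r := by group
        _ = r⁻¹ * (c * (r * a * r⁻¹)) * r := by rw [h2]
        _ = (r⁻¹ * c * r) * a := by group
  have hidx : ¬ p ∣ A.relIndex C := by
    intro hd
    let T : Subgroup G := C ⊔ (R : Subgroup G)
    have h1 := Cfsg.Agent.Lib.SchurZ2.card_sup_mul_card_inf C (R : Subgroup G) hRC
    have h2 : C ⊓ (R : Subgroup G) = A := by rw [inf_comm]; exact hC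
    rw [h2] at h1
    have hRT : (R : Subgroup G) ≤ T := le_sup_right
    have h3 : (R : Subgroup G).relIndex T * Nat.card (R : Subgroup G) = Nat.card T := by
      have := ((R : Subgroup G).subgroupOf T).index_mul_card
      rwa [Nat.card_congr (Subgroup.subgroupOfEquivOfLe hRT).toEquiv] at this
    have h4 : A.relIndex C * Nat.card A = Nat.card C := by
      have := (A.subgroupOf C).index_mul_card
      rwa [Nat.card_congr (Subgroup.subgroupOfEquivOfLe hAC).toEquiv] at this
    have h5 : A.relIndex C = (R : Subgroup G).relIndex T := by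
      have hposA : 0 < Nat.card A := Nat.card_pos
      have hposR : 0 < Nat.card (R : Subgroup G) := Nat.card_pos
      apply Nat.eq_of_mul_eq_mul_right (Nat.mul_pos hposA hposR)
      calc A.relIndex C * (Nat.card A * Nat.card (R : Subgroup G))
          = (A.relIndex C * Nat.card A) * Nat.card (R : Subgroup G) := by ring
        _ = Nat.card C * Nat.card (R : Subgroup G) := by rw [h4]
        _ = Nat.card T * Nat.card A := h1.symm
        _ = ((R : Subgroup G).relIndex T * Nat.card (R : Subgroup G)) * Nat.card A := by rw [h3]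
        _ = _ := by ring
    rw [h5] at hd
    have h6 := Subgroup.relIndex_mul_index hRT
    exact R.not_dvd_index (h6 ▸ hd.mul_right _)
  let A' : Subgroup C := A.subgroupOf C
  have hA'p : IsPGroup p A' := Cfsg.Agent.Lib.PIrreducible.isPGroup_subgroupOf hAp C
  haveI hA'n : A'.Normal := by
    refine ⟨fun a ha c => ?_⟩
    have h1 : (c : G) * a * (c : G)⁻¹ = a := by
      rw [hcent _ (Subgroup.mem_subgroupOf.mp ha) _ c.2]; group
    apply Subgroup.mem_subgroupOf.mpr
    show (c : G) * a * (c : G)⁻¹ ∈ A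
    rw [h1]
    exact Subgroup.mem_subgroupOf.mp ha
  let S : Sylow p C := hA'p.toSylow hidx
  have hSn : (S : Subgroup C).Normal := hA'n
  have hpc := Cfsg.Agent.Lib.PNilpB.npc_in_of_central hAC hAp hidx hcent
  obtain ⟨P, N, hN, hc⟩ := hpc
  have hPS : P = S := by
    letI := Sylow.unique_of_normal S hSn
    exact Subsingleton.elim _ _
  have hPA : (P : Subgroup C) = A' := by rw [hPS]; rfl
  rw [hPA] at hc
  haveI := hN
  refine ⟨N.map C.subtype, ?_, ?_, ?_, ?_, ?_⟩
  · rintro _ ⟨n, -, rfl⟩
    exact n.2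
  · rw [Subgroup.card_map_of_injective C.subtype_injective, ← hc.index_eq_card]
    exact ((Nat.Prime.coprime_iff_not_dvd hp).mpr hidx).symm
  · intro c hc'
    apply Cfsg.Agent.Lib.Commutators.mem_normalizer_of_conj_mem
    · rintro _ ⟨n, hn, rfl⟩
      exact ⟨(⟨c, hc'⟩ : C) * n * (⟨c, hc'⟩ : C)⁻¹, hN.conj_mem n hn _, rfl⟩
    · rintro _ ⟨n, hn, rfl⟩
      refine ⟨(⟨c, hc'⟩ : C)⁻¹ * n * (⟨c, hc'⟩ : C), ?_, rfl⟩
      simpa using hN.conj_mem n hn (⟨c, hc'⟩ : C)⁻¹
  · rw [eq_bot_iff]
    rintro _ ⟨⟨n, hn, rfl⟩, hA⟩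
    have h1 : n ∈ N ⊓ A' := ⟨hn, Subgroup.mem_subgroupOf.mpr hA⟩
    rw [hc.disjoint.eq_bot, Subgroup.mem_bot] at h1
    rw [h1]
    exact Subgroup.one_mem _
  · have h1 := congrArg (Subgroup.map C.subtype) hc.sup_eq_top
    rw [Subgroup.map_sup, ← MonoidHom.range_eq_map, Subgroup.range_subtype] at h1
    have h2 : A'.map C.subtype = A := by
      show (A.subgroupOf C).map C.subtype = A
      rw [Subgroup.map_subgroupOf_eq_of_le hAC]
    rw [h2] at h1
    exact h1

end Cfsg.Agent.S0125
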