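import Cfsg.Statements.S0126
import Cfsg.Agent.S0127
import Cfsg.Agent.Lib.PNormal
import Cfsg.Agent.Lib.CoprimeGen4

set_option autoImplicit false
open Cfsg

namespace Cfsg.Agent.S0126


theorem noncyclic_case {R : Type*} [Group R] [Finite R] {p : ℕ} [hpf : Fact p.Prime]
    (hR : IsPGroup p R) (A : Subgroup R) [hAn : A.Normal] (hAc : ∀ a ∈ A, ∀ b ∈ A, a * b = b * a)
    (hnc : ¬ IsCyclic A) : ∃ D : Subgroup R, D.Normal ∧ Cfsg.IsElementaryAbelian p D ∧ Nat.card D = p ^ 2 := by
  classical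
  have hp : p.Prime := Fact.out
  obtain ⟨s, x, y, hs, hx, hy, hy1, hxY⟩ := Cfsg.Agent.Lib.CoprimeGen4.exists_rank_two
    (A := A) (fun a b => Subtype.ext (hAc a a.2 b b.2)) hnc
  haveI hsf : Fact s.Prime := ⟨hs⟩
  have hsp : s = p := by
    obtain ⟨k, hk⟩ := IsPGroup.iff_orderOf.mp (hR.to_subgroup A) y
    have h1 : orderOf y = s := orderOf_eq_prime hy hy1
    rw [h1] at hk
    have h2 : s ∣ p := hs.dvd_of_dvd_pow (n := k) ⟨1, by rw [mul_one]; exact hk.symm⟩
    exact (Nat.prime_dvd_prime_iff_eq hs hp).mp h2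
  subst hsp
  have hmulp : ∀ a ∈ A, ∀ b ∈ A, (a * b) ^ s = a ^ s * b ^ s := by
    intro a ha b hb
    exact (show Commute a b from hAc a ha b hb).mul_pow s
  let Ω : Subgroup R :=
    { carrier := {z | z ∈ A ∧ z ^ s = 1}
      mul_mem' := by
        rintro a b ⟨ha, ha'⟩ ⟨hb, hb'⟩
        refine ⟨A.mul_mem ha hb, ?_⟩
        rw [hmulp a ha b hb, ha', hb', one_mul]
      one_mem' := ⟨A.one_mem, one_pow _⟩
      inv_mem' := by
        rintro a ⟨ha, ha'⟩
        exact ⟨A.inv_mem ha, by rw [inv_pow, ha', inv_one]⟩ }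
  have hΩmem : ∀ z, z ∈ Ω ↔ z ∈ A ∧ z ^ s = 1 := fun z => Iff.rfl
  haveI hΩn : Ω.Normal := by
    refine ⟨fun n hn g => ?_⟩
    rw [hΩmem] at hn ⊢
    refine ⟨hAn.conj_mem n hn.1 g, ?_⟩
    rw [conj_pow, hn.2]
    group
  have hyΩ : (y : R) ∈ Ω := ⟨y.2, by exact_mod_cast congrArg Subtype.val hy⟩
  have hxΩ : (x : R) ∈ Ω := ⟨x.2, by exact_mod_cast congrArg Subtype.val hx⟩
  obtain ⟨b, hb⟩ := IsPGroup.iff_card.mp (hR.to_subgroup Ω)
  have hb2 : 2 ≤ b := by
    by_contra hlt
    have hle : Nat.card Ω ≤ s := by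
      rw [hb]
      calc s ^ b ≤ s ^ 1 := Nat.pow_le_pow_right hp.pos (by omega)
        _ = s := pow_one s
    have hyo : orderOf (y : R) = s := by
      rw [Subgroup.orderOf_coe]
      exact orderOf_eq_prime hy hy1
    have hZ : Subgroup.zpowers (y : R) = Ω := by
      apply Subgroup.eq_of_le_of_card_ge (Subgroup.zpowers_le.mpr hyΩ)
      rw [Nat.card_zpowers, hyo]
      exact hle
    have h1 : (x : R) ∈ Subgroup.zpowers (y : R) := by rw [hZ]; exact hxΩ
    obtain ⟨k, hk⟩ := h1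
    exact hxY ⟨k, Subtype.ext (by simpa using hk)⟩
  obtain ⟨D, hDn, hDΩ, hDc⟩ := Cfsg.Agent.Lib.PNormal.exists_normal_card hR b Ω hΩn hb 2 hb2
  refine ⟨D, hDn, ⟨⟨⟨fun a b => ?_⟩⟩, ?_⟩, hDc⟩
  · exact Subtype.ext (hAc a (hDΩ a.2).1 b (hDΩ b.2).1)
  · intro a ha
    exact (hDΩ ha).2

theorem cyclic_case {R : Type*} [Group R] [Finite R] {p : ℕ} [hpf : Fact p.Prime] (hp2 : p ≠ 2)
    (hR : IsPGroup p R) (A : Subgroup R) [hAn : A.Normal] (hAc : IsCyclic A) (hAne : A ≠ ⊤)
    (hmax : ∀ B : Subgroup R, B.Normal → IsMulCommutative B → A ≤ B → B = A) :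
    ∃ D : Subgroup R, D.Normal ∧ Cfsg.IsElementaryAbelian p D ∧ Nat.card D = p ^ 2 := by
  classical
  have hp : p.Prime := Fact.out
  let Q := R ⧸ A
  let π : R →* Q := QuotientGroup.mk' A
  have hπ : Function.Surjective π := QuotientGroup.mk'_surjective A
  have hQ : IsPGroup p Q := hR.of_surjective π hπ
  obtain ⟨q, hq⟩ := IsPGroup.iff_card.mp hQ
  have hq0 : q ≠ 0 := by
    rintro rfl
    apply hAne
    have h1 : A.index = 1 := by
      rw [Subgroup.index]
      simpa using hq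
    exact Subgroup.index_eq_one.mp h1
  haveI hTn : (⊤ : Subgroup Q).Normal := inferInstance
  obtain ⟨W, hWn, -, hWc⟩ := Cfsg.Agent.Lib.PNormal.exists_normal_card hQ q ⊤ hTn
    (by rw [Subgroup.card_top, hq]) 1 (by omega)
  rw [pow_one] at hWc
  haveI := hWn
  let D : Subgroup R := W.comap π
  haveI hDn : D.Normal := Subgroup.Normal.comap hWn π
  have hAD : A ≤ D := by
    intro a ha
    show π a ∈ W
    rw [show π a = 1 from (QuotientGroup.eq_one_iff a).mpr ha]
    exact W.one_mem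
  have hDne : D ≠ A := by
    intro e
    have h1 : W = ⊥ := by
      rw [eq_bot_iff]
      intro w hw
      obtain ⟨r, rfl⟩ := hπ w
      have : r ∈ D := hw
      rw [e] at this
      exact Subgroup.mem_bot.mpr ((QuotientGroup.eq_one_iff r).mpr this)
    rw [h1, Subgroup.card_bot] at hWc
    exact hp.ne_one hWc.symm
  have hDnc : ¬ IsCyclic D := by
    intro hc
    apply hDne
    apply hmax D hDn _ hAD
    refine ⟨⟨fun a b => ?_⟩⟩
    obtain ⟨g, hg⟩ := IsCyclic.exists_generator (α := D)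
    obtain ⟨i, rfl⟩ := hg a
    obtain ⟨j, rfl⟩ := hg b
    exact ((Commute.refl g).zpow_zpow i j).eq
  let C : Subgroup D := A.subgroupOf D
  have hCc : IsCyclic C := by
    have e : A ≃* C := (Subgroup.subgroupOfEquivOfLe hAD).symm
    exact isCyclic_of_surjective _ e.surjective
  have hCi : C.index = p := by
    have h1 : D.index = W.index := Subgroup.index_comap_of_surjective W hπ
    have h2 := Subgroup.relIndex_mul_index hAD
    have h3 := Subgroup.card_mul_index W
    rw [hWc, ← h1] at h3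
    have h4 : Nat.card Q = A.index := rfl
    rw [h4] at h3
    rw [← h3, mul_comm p] at h2
    have h5 : 0 < D.index := Nat.pos_of_ne_zero Subgroup.index_ne_zero_of_finite
    have h6 : A.relIndex D * D.index = p * D.index := by
      rw [h2]; ring
    exact Nat.eq_of_mul_eq_mul_right h5 h6
  obtain ⟨hE1, hE2⟩ := Cfsg.Agent.S0127.result hp2 (hR.to_subgroup D) hDnc C hCc hCi
  set T : Set D := {x : D | x ^ p = 1} with hT
  let S : Set R := {y | y ∈ D ∧ y ^ p = 1}
  have hST : D.subtype '' T = S := by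
    ext y
    constructor
    · rintro ⟨t, ht, rfl⟩
      refine ⟨t.2, ?_⟩
      have h := congrArg Subtype.val (show t ^ p = 1 from ht)
      simpa using h
    · rintro ⟨hy, hyp⟩
      refine ⟨⟨y, hy⟩, ?_, rfl⟩
      exact Subtype.ext (by simpa using hyp)
  let E : Subgroup R := (Subgroup.closure T).map D.subtype
  have hEcl : E = Subgroup.closure S := by
    show (Subgroup.closure T).map D.subtype = _
    rw [MonoidHom.map_closure, hST]
  have hEn : E.Normal := by
    rw [hEcl]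
    refine ⟨fun n hn g => ?_⟩
    induction hn using Subgroup.closure_induction with
    | mem x hx =>
      apply Subgroup.subset_closure
      refine ⟨hDn.conj_mem x hx.1 g, ?_⟩
      rw [conj_pow, hx.2]
      group
    | one => simp
    | mul a b _ _ ha hb =>
      have : g * (a * b) * g⁻¹ = (g * a * g⁻¹) * (g * b * g⁻¹) := by group
      rw [this]
      exact Subgroup.mul_mem _ ha hb
    | inv a _ ha =>
      have : g * a⁻¹ * g⁻¹ = (g * a * g⁻¹)⁻¹ := by group
      rw [this]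
      exact Subgroup.inv_mem _ ha
  refine ⟨E, hEn, ⟨⟨⟨fun a b => ?_⟩⟩, ?_⟩, ?_⟩
  · obtain ⟨a', ha', hae⟩ := a.2
    obtain ⟨b', hb', hbe⟩ := b.2
    have := hE1.1.is_comm.comm ⟨a', ha'⟩ ⟨b', hb'⟩
    apply Subtype.ext
    have h2 := congrArg (fun z => ((z : Subgroup.closure T) : D)) this
    have h3 := congrArg Subtype.val h2
    simp only [Subgroup.coe_mul] at h3
    rw [Subgroup.coe_mul, Subgroup.coe_mul, ← hae, ← hbe]
    exact h3
  · rintro _ ⟨a', ha', rfl⟩
    have := congrArg Subtype.val (hE1.2 a' ha')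
    simpa using this
  · show Nat.card ((Subgroup.closure T).map D.subtype) = p ^ 2
    rw [Subgroup.card_map_of_injective D.subtype_injective]
    exact hE2


/-- For odd p, every non-cyclic p-group contains a normal elementary abelian subgroup of order p^2. -/
theorem result {R : Type*} [Group R] [Finite R] {p : ℕ} [Fact p.Prime] (hp : p ≠ 2) (hR : IsPGroup p R) (hnc : ¬ IsCyclic R) : ∃ A : Subgroup R, A.Normal ∧ Cfsg.IsElementaryAbelian p A ∧ Nat.card A = p ^ 2 := by
  classical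
  haveI hnil : Group.IsNilpotent R := hR.isNilpotent
  let F : Set (Subgroup R) := {N | N.Normal ∧ IsMulCommutative N}
  have hbot : (⊥ : Subgroup R) ∈ F := ⟨inferInstance, ⟨⟨fun a b => by
    apply Subtype.ext
    have ha := Subgroup.mem_bot.mp a.2
    have hb := Subgroup.mem_bot.mp b.2
    show (a : R) * b = b * a
    rw [ha, hb]⟩⟩⟩
  obtain ⟨A, -, hAmax⟩ := (Set.toFinite F).exists_le_maximal hbot
  obtain ⟨hAn, hAc⟩ := hAmax.prop
  haveI := hAn
  haveI := hAc
  have hmax : ∀ B : Subgroup R, B.Normal → IsMulCommutative B → A ≤ B → B = A := by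
    intro B hB hBc hAB
    exact le_antisymm (hAmax.le_of_ge ⟨hB, hBc⟩ hAB) hAB
  by_cases hcy : IsCyclic A
  · refine cyclic_case hp hR A hcy ?_ hmax
    intro e
    apply hnc
    rw [e] at hcy
    exact isCyclic_of_surjective _ (Subgroup.topEquiv (G := R)).surjective
  · exact noncyclic_case hR A (fun a ha b hb =>
      congrArg Subtype.val (hAc.is_comm.comm ⟨a, ha⟩ ⟨b, hb⟩)) hcy

end Cfsg.Agent.S0126
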