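import Cfsg.Statements.S0129
import Cfsg.Agent.Lib.PNormal
import Cfsg.Agent.S0015

set_option autoImplicit false
open Cfsg

namespace Cfsg.Agent.S0129

/-- The order of a p-group is bounded by p^(a(a+1)/2) when it has a maximal normal abelian subgroup of order p^a. -/
theorem result {G : Type*} [Group G] [Finite G] {p : ℕ} [Fact p.Prime] (hG : IsPGroup p G) (A : Subgroup G) [A.Normal] (hA : IsMulCommutative A) (hmax : ∀ B : Subgroup G, B.Normal → IsMulCommutative B → A ≤ B → B = A) (a : ℕ) (ha : Nat.card A = p ^ a) : Nat.card G ≤ p ^ (a * (a + 1) / 2) := by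
  classical
  haveI hnil : Group.IsNilpotent G := hG.isNilpotent
  haveI := hA
  have h1 : Subgroup.centralizer (A : Set G) = A :=
    Cfsg.Agent.S0015.result A hmax
  have h2 := Cfsg.Agent.Lib.PNormal.index_centralizer_le hG a A inferInstance ha
  rw [h1] at h2
  rw [← Subgroup.card_mul_index A, ha]
  calc p ^ a * A.index ≤ p ^ a * p ^ (a * (a - 1) / 2) := Nat.mul_le_mul_left _ h2
    _ = p ^ (a + a * (a - 1) / 2) := by rw [pow_add]
    _ = p ^ (a * (a + 1) / 2) := by
      congr 1
      rcases a with _ | a
      · rfl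
      · have : (a + 1) * (a + 1 + 1) = 2 * (a + 1) + (a + 1) * (a + 1 - 1) := by
          simp only [Nat.add_sub_cancel]
          ring
        rw [this, Nat.add_div_of_dvd_right (by exact dvd_mul_right _ _)]
        simp

end Cfsg.Agent.S0129
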