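import Cfsg.Statements.S0131
import Cfsg.Agent.Lib.FocalGen
import Cfsg.Agent.Lib.H7PGroup
open scoped commutatorElement IsMulCommutative

set_option autoImplicit false
open Cfsg

namespace Cfsg.Agent.S0131

/-- P/P' has a normal complement in G exactly when the focal subgroup G' ∩ P is as small as possible, namely P'. -/
theorem result {G : Type*} [Group G] [Finite G] {p : ℕ} [Fact p.Prime] (P : Sylow p G) : (∃ N : Subgroup G, N.Normal ∧ N ⊓ (P : Subgroup G) = ⁅(P : Subgroup G), (P : Subgroup G)⁆ ∧ N ⊔ (P : Subgroup G) = ⊤) ↔ commutator G ⊓ (P : Subgroup G) = ⁅(P : Subgroup G), (P : Subgroup G)⁆ := by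
  classical
  constructor
  · rintro ⟨N, hN, hNP, hsup⟩
    haveI := hN
    have hgen : Subgroup.closure ((N : Set G) ∪ ((P : Subgroup G) : Set G)) = ⊤ := by
      rw [Subgroup.closure_union, Subgroup.closure_eq, Subgroup.closure_eq, hsup]
    have hG' : commutator G ≤ N := by
      refine Cfsg.Agent.Lib.H7PGroup.commutator_le_of_closure _ hgen N ?_
      rintro a (ha | ha) b (hb | hb)
      · exact (Subgroup.commutator_le_left N ⊤) (Subgroup.commutator_mem_commutator ha (Subgroup.mem_top b))
      · exact (Subgroup.commutator_le_left N ⊤) (Subgroup.commutator_mem_commutator ha (Subgroup.mem_top b))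
      · exact (Subgroup.commutator_le_right ⊤ N) (Subgroup.commutator_mem_commutator (Subgroup.mem_top a) hb)
      · have h1 : ⁅a, b⁆ ∈ ⁅(P : Subgroup G), (P : Subgroup G)⁆ := Subgroup.commutator_mem_commutator ha hb
        rw [← hNP] at h1
        exact h1.1
    apply le_antisymm
    · rw [← hNP]
      exact inf_le_inf_right _ hG'
    · refine le_inf (Subgroup.commutator_mono le_top le_top) (Subgroup.commutator_le.mpr fun a ha b hb => ?_)
      rw [commutatorElement_def]
      exact (P : Subgroup G).mul_mem ((P : Subgroup G).mul_mem ((P : Subgroup G).mul_mem ha hb)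
        ((P : Subgroup G).inv_mem ha)) ((P : Subgroup G).inv_mem hb)
  · intro h
    have hcop := Cfsg.Agent.Lib.FocalGen.coprime_of_sylow P
    refine ⟨(P : Subgroup G).transferFocal.ker, inferInstance, ?_, Cfsg.Agent.Lib.FocalGen.ker_sup _ hcop⟩
    rw [Cfsg.Agent.Lib.FocalGen.ker_inf _ hcop, Cfsg.Agent.Lib.FocalGen.focal_eq_inf _ hcop, h]

end Cfsg.Agent.S0131
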