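import Cfsg.Statements.S0134
import Cfsg.Agent.Lib.CharOps

set_option autoImplicit false
open Cfsg

namespace Cfsg.Agent.S0134

/-- The sum of the squares of the degrees of the irreducible complex characters of a finite group is the order of the group. -/
theorem result {G : Type*} [Group G] [Finite G] : ∑ᶠ χ : Cfsg.IrrCharacter G, (χ : G → ℂ) 1 ^ 2 = (Nat.card G : ℂ) := by
  classical
  cases nonempty_fintype G
  rw [finsum_eq_sum_of_fintype]
  have h := Cfsg.Agent.Lib.CharIrr.column_orthogonality (1 : G) 1
  rw [if_pos (IsConj.refl _)] at h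
  have h2 : Nat.card (Subgroup.centralizer ({(1 : G)} : Set G)) = Nat.card G := by
    have : Subgroup.centralizer ({(1 : G)} : Set G) = ⊤ := by
      ext x
      simp [Subgroup.mem_centralizer_iff]
    rw [this, Subgroup.card_top]
  rw [h2] at h
  rw [← h]
  refine Finset.sum_congr rfl fun χ _ => ?_
  obtain ⟨n, hn⟩ := Cfsg.Agent.Lib.CharOps.exists_degree (Cfsg.Agent.Lib.CharOps.IsIrrCharacter.isCharacter' χ.2)
  rw [hn, pow_two]
  simp

end Cfsg.Agent.S0134
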