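import Cfsg.Statements.S0145
import Cfsg.Agent.Lib.CharIrr

set_option autoImplicit false
open scoped ComplexConjugate
open Cfsg

namespace Cfsg.Agent.S0145

/-- Column orthogonality: the sum over the irreducible characters χ of χ g * conj (χ h) is the order of the centralizer of g if g and h are conjugate, and is 0 otherwise. -/
theorem result {G : Type*} [Group G] [Finite G] (g h : G) : (IsConj g h → ∑ᶠ χ : Cfsg.IrrCharacter G, (χ : G → ℂ) g * conj ((χ : G → ℂ) h) = (Nat.card (Subgroup.centralizer ({g} : Set G)) : ℂ)) ∧ (¬ IsConj g h → ∑ᶠ χ : Cfsg.IrrCharacter G, (χ : G → ℂ) g * conj ((χ : G → ℂ) h) = 0) := by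
  classical
  cases nonempty_fintype G
  have hsum := Cfsg.Agent.Lib.CharIrr.column_orthogonality g h
  rw [finsum_eq_sum_of_fintype]
  constructor
  · intro hc
    rw [hsum, if_pos hc]
    -- centralisers of conjugate elements have the same order
    have h1 := Cfsg.Agent.Lib.CharIrr.card_class_mul_card_centralizer h
    have h2 := Cfsg.Agent.Lib.CharIrr.card_class_mul_card_centralizer g
    have h3 : Nat.card {x : G // IsConj x h} = Nat.card {x : G // IsConj x g} := by
      apply Nat.card_congr
      exact Equiv.subtypeEquivRight fun x => ⟨fun hx => hx.trans hc.symm, fun hx => hx.trans hc⟩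
    have h4 : Nat.card (Subgroup.centralizer ({h} : Set G)) = Nat.card (Subgroup.centralizer ({g} : Set G)) := by
      have h5 : 0 < Nat.card {x : G // IsConj x g} := by
        apply Nat.card_pos_iff.mpr
        exact ⟨⟨⟨g, IsConj.refl g⟩⟩, inferInstance⟩
      rw [h3] at h1
      exact Nat.eq_of_mul_eq_mul_left h5 (h1.trans h2.symm)
    rw [h4]
  · intro hc
    rw [hsum, if_neg hc]

end Cfsg.Agent.S0145
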