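import Cfsg.Statements.S0149
import Cfsg.Agent.Lib.CharOps

set_option autoImplicit false
open Cfsg

namespace Cfsg.Agent.S0149

/-- Let T be a subset of G meeting each of its conjugates by elements outside its normalizer N only in the identity, and let ψ be a class function of N vanishing on N away from T. Then the function induced from ψ agrees with ψ at every non-identity element of T. -/
theorem result {G : Type*} [Group G] [Fintype G] (T : Set G) (hTI : ∀ g : G, g ∉ Subgroup.normalizer T → ∀ t ∈ T, g * t * g⁻¹ ∈ T → t = 1) (hTN : T ⊆ Subgroup.normalizer T) (ψ : Subgroup.normalizer T → ℂ) (hψ : Cfsg.IsClassFunction (Subgroup.normalizer T) ψ) (hψT : ∀ x : Subgroup.normalizer T, (x : G) ∉ T → ψ x = 0) (t : Subgroup.normalizer T) (htT : (t : G) ∈ T) (ht1 : t ≠ 1) : Cfsg.indFun (Subgroup.normalizer T) ψ t = ψ t := by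
  classical
  open Cfsg.Agent.Lib.CharOps in
  rw [indFun_apply]
  have hN : (Nat.card (Subgroup.normalizer T) : ℂ) ≠ 0 := by exact_mod_cast Nat.card_pos.ne'
  have hval : ∀ x : G, Cfsg.extendByZero (Subgroup.normalizer T) ψ (x⁻¹ * (t : G) * x) =
      if x ∈ Subgroup.normalizer T then ψ t else 0 := by
    intro x
    split_ifs with hx
    · have hm : x⁻¹ * (t : G) * x = ((⟨x, hx⟩ : Subgroup.normalizer T)⁻¹ * t * ⟨x, hx⟩ : Subgroup.normalizer T) := by
        simp
      rw [hm, Cfsg.Agent.Lib.CharOps.extendByZero_coe]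
      have := hψ t (⟨x, hx⟩ : Subgroup.normalizer T)⁻¹
      simpa using this
    · by_cases hm : x⁻¹ * (t : G) * x ∈ Subgroup.normalizer T
      · rw [Cfsg.Agent.Lib.CharOps.extendByZero_of_mem _ _ hm]
        apply hψT
        intro ht
        have hxinv : x⁻¹ ∉ Subgroup.normalizer T := fun h => hx (by simpa using (Subgroup.normalizer T).inv_mem h)
        have h1 := hTI x⁻¹ hxinv t htT (by simpa using ht)
        exact ht1 (Subtype.ext h1)
      · exact Cfsg.Agent.Lib.CharOps.extendByZero_of_not_mem _ _ hm
  simp only [hval]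
  rw [Cfsg.Agent.Lib.CharOps.sum_ite_subgroup]
  field_simp

end Cfsg.Agent.S0149
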