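import Cfsg.Statements.S0156
import Cfsg.Agent.Lib.CharOps

set_option autoImplicit false
open Cfsg

namespace Cfsg.Agent.S0156

/-- The character of the left regular representation is the sum over the irreducible characters χ of χ 1 • χ. -/
theorem result {G : Type*} [Group G] [Fintype G] : (Representation.leftRegular ℂ G).character = ∑ᶠ χ : Cfsg.IrrCharacter G, (χ : G → ℂ) 1 • (χ : G → ℂ) := by
  classical
  rw [finsum_eq_sum_of_fintype]
  have hreg : (Representation.leftRegular ℂ G).character = fun g => if g = 1 then (Nat.card G : ℂ) else 0 :=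
    funext fun g => Cfsg.Agent.Lib.CharClass.character_leftRegular g
  have hcf : Cfsg.IsClassFunction G (Representation.leftRegular ℂ G).character := by
    intro g h
    exact Representation.char_conj _ g h
  rw [Cfsg.Agent.Lib.CharIrr.classFunction_expand hcf]
  refine Finset.sum_congr rfl fun χ _ => ?_
  congr 1
  rw [hreg, Cfsg.classInner, Finset.sum_eq_single (1 : G)]
  · obtain ⟨n, hn⟩ := Cfsg.Agent.Lib.CharOps.exists_degree (Cfsg.Agent.Lib.CharOps.IsIrrCharacter.isCharacter' χ.2)
    rw [if_pos rfl, hn]
    have hG : (Nat.card G : ℂ) ≠ 0 := by exact_mod_cast Nat.card_pos.ne'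
    simp
  · intro g _ hg
    rw [if_neg hg, zero_mul]
  · intro h
    exact absurd (Finset.mem_univ _) h

end Cfsg.Agent.S0156
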