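import Cfsg.Statements.S0157
import Cfsg.Agent.Lib.CharNormal

set_option autoImplicit false
set_option linter.style.haveILetI false
set_option linter.unusedVariables false
open scoped ComplexConjugate
open Cfsg

namespace Cfsg.Agent.S0157

/-- For a transitive action of a finite group on a finite set with at least two points: the action is 2-transitive if and only if the function sending g to (number of fixed points of g) − 1 is an irreducible character. -/
theorem result {G : Type*} [Group G] [Finite G] (X : Type*) [MulAction G X] [Finite X] [MulAction.IsPretransitive G X] (hX : 2 ≤ Nat.card X) : Cfsg.IsIrrCharacter G (fun g => (Nat.card (MulAction.fixedBy X g) : ℂ) - 1) ↔ MulAction.IsMultiplyPretransitive G X 2 := by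
  classical
  cases nonempty_fintype G
  cases nonempty_fintype X
  open Cfsg.Agent.Lib.CharOps Cfsg.Agent.Lib.CharAb Cfsg.Agent.Lib.CharIrr in
  let π : G → ℂ := fun g => (Nat.card (MulAction.fixedBy X g) : ℂ)
  have hπ : Cfsg.IsCharacter G π := by
    have h := Cfsg.Agent.Lib.CharBasic.isCharacter_character (Representation.ofMulAction ℂ G X)
    convert h using 1
    funext g
    exact (Cfsg.Agent.Lib.CharClass.character_ofMulAction g).symm
  have hG0 : (Nat.card G : ℂ) ≠ 0 := by exact_mod_cast Nat.card_pos.ne'
  -- orbit counting: a general Burnside lemma over ℂ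
  have hburn : ∀ (Y : Type _) [MulAction G Y] [Fintype Y],
      ∑ g : G, (Nat.card (MulAction.fixedBy Y g) : ℂ) = (Nat.card (MulAction.orbitRel.Quotient G Y) : ℂ) * (Nat.card G : ℂ) := by
    intro Y _ _
    have h1 := MulAction.sum_card_fixedBy_eq_card_orbits_mul_card_group G Y
    simp only [Nat.card_eq_fintype_card]
    exact_mod_cast h1
  -- one orbit on X
  have horb : Nat.card (MulAction.orbitRel.Quotient G X) = 1 := by
    rw [Nat.card_eq_one_iff_unique]
    refine ⟨⟨?_⟩, ?_⟩
    · intro a b
      induction a using Quotient.inductionOn' with | _ a => ?_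
      induction b using Quotient.inductionOn' with | _ b => ?_
      apply Quotient.sound'
      exact MulAction.exists_smul_eq G b a
    · obtain ⟨x⟩ : Nonempty X := by
        apply Nat.card_pos_iff.mp _ |>.1
        omega
      exact ⟨Quotient.mk'' x⟩
  have hπ1 : Cfsg.classInner π (fun _ => 1) = 1 := by
    rw [Cfsg.classInner]
    simp only [map_one, mul_one]
    rw [hburn X, horb]
    field_simp
    simp
  have h1π : Cfsg.classInner (fun _ => (1 : ℂ)) π = 1 := by
    rw [← classInner_conj, hπ1]
    simp
  have h11 : Cfsg.classInner (fun _ : G => (1 : ℂ)) (fun _ => 1) = 1 := by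
    rw [Cfsg.classInner]
    simp only [map_one, mul_one, Finset.sum_const, Finset.card_univ, ← Nat.card_eq_fintype_card, nsmul_eq_mul]
    field_simp
  -- the pairs
  let r := Nat.card (MulAction.orbitRel.Quotient G (X × X))
  have hππ : Cfsg.classInner π π = (r : ℂ) := by
    rw [Cfsg.classInner]
    have h2 : ∀ g : G, π g * conj (π g) = (Nat.card (MulAction.fixedBy (X × X) g) : ℂ) := by
      intro g
      simp only [π, Complex.conj_natCast]
      rw [← Nat.cast_mul, ← Nat.card_prod]
      congr 1
      apply Nat.card_congr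
      refine ⟨fun p => ⟨(p.1.1, p.2.1), ?_⟩, fun q => (⟨q.1.1, ?_⟩, ⟨q.1.2, ?_⟩), fun p => rfl, fun q => rfl⟩
      · have h3 : g • p.1.1 = p.1.1 := p.1.2
        have h4 : g • p.2.1 = p.2.1 := p.2.2
        show g • ((p.1.1, p.2.1) : X × X) = (p.1.1, p.2.1)
        rw [Prod.smul_mk, h3, h4]
      · have h3 : g • q.1 = q.1 := q.2
        exact congrArg Prod.fst h3
      · have h3 : g • q.1 = q.1 := q.2
        exact congrArg Prod.snd h3
    simp only [h2]
    rw [hburn (X × X)]
    field_simp
    rfl
  -- theta
  let θ : G → ℂ := fun g => π g - 1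
  have hθeq : θ = π - ((1 : ℕ) : ℂ) • (fun _ => (1 : ℂ)) := by
    funext g
    simp [θ]
  have hθchar : Cfsg.IsCharacter G θ := by
    rw [hθeq]
    apply sub_isCharacter hπ Cfsg.Agent.Lib.CharBurnside.isIrrCharacter_one 1
    rw [hπ1]
    simp
  have hθθ : Cfsg.classInner θ θ = (r : ℂ) - 1 := by
    have h3 : ∀ a b : G → ℂ, Cfsg.classInner (a - b) (a - b) = Cfsg.classInner a a - Cfsg.classInner a b - Cfsg.classInner b a + Cfsg.classInner b b := by
      intro a b
      simp only [Cfsg.classInner, Pi.sub_apply, map_sub, sub_mul, mul_sub, Finset.sum_sub_distrib]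
      ring
    have h4 : θ = π - (fun _ => (1 : ℂ)) := by
      funext g
      rfl
    rw [h4, h3, hππ, hπ1, h1π, h11]
    ring
  -- irreducibility iff r = 2
  have hirr : Cfsg.IsIrrCharacter G θ ↔ r = 2 := by
    rw [Cfsg.Agent.Lib.CharDecomp.isIrr_iff, hθθ]
    constructor
    · rintro ⟨_, h⟩
      have : (r : ℂ) = 2 := by linear_combination h
      exact_mod_cast this
    · intro h
      refine ⟨hθchar, ?_⟩
      rw [h]
      norm_num
  show Cfsg.IsIrrCharacter G θ ↔ _
  rw [hirr, MulAction.is_two_pretransitive_iff]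
  -- points
  obtain ⟨x₀, x₁, hne⟩ : ∃ a b : X, a ≠ b := by
    have : Nontrivial X := Finite.one_lt_card_iff_nontrivial.mp (by omega)
    exact exists_pair_ne X
  let δ : MulAction.orbitRel.Quotient G (X × X) := Quotient.mk'' (x₀, x₀)
  have hδ : ∀ a b : X, a ≠ b → (Quotient.mk'' (a, b) : MulAction.orbitRel.Quotient G (X × X)) ≠ δ := by
    intro a b hab h
    obtain ⟨g, hg⟩ := Quotient.exact' h
    have h1 : g • x₀ = a := congrArg Prod.fst hg
    have h2 : g • x₀ = b := congrArg Prod.snd hg
    exact hab (h1.symm.trans h2)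
  have hδ' : ∀ a : X, (Quotient.mk'' (a, a) : MulAction.orbitRel.Quotient G (X × X)) = δ := by
    intro a
    apply Quotient.sound'
    obtain ⟨g, hg⟩ := MulAction.exists_smul_eq G x₀ a
    exact ⟨g, by simp [hg]⟩
  constructor
  · intro hr a b c d hab hcd
    obtain ⟨y, hy, huniq⟩ := (Nat.card_eq_two_iff' δ).mp hr
    have h1 := huniq _ (hδ a b hab)
    have h2 := huniq _ (hδ c d hcd)
    have h3 : (Quotient.mk'' (c, d) : MulAction.orbitRel.Quotient G (X × X)) = Quotient.mk'' (a, b) := h2.trans h1.symm
    obtain ⟨g, hg⟩ := Quotient.exact' h3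
    exact ⟨g, congrArg Prod.fst hg, congrArg Prod.snd hg⟩
  · intro h2t
    apply (Nat.card_eq_two_iff' δ).mpr
    refine ⟨Quotient.mk'' (x₀, x₁), hδ x₀ x₁ hne, ?_⟩
    intro y hy
    induction y using Quotient.inductionOn' with | _ p => ?_
    obtain ⟨a, b⟩ := p
    have hab : a ≠ b := by
      rintro rfl
      exact hy (hδ' a)
    obtain ⟨g, h1, h2⟩ := h2t hne hab
    apply Quotient.sound'
    exact ⟨g, by simp [h1, h2]⟩

end Cfsg.Agent.S0157
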