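import Cfsg.Statements.S0158
import Cfsg.Agent.Lib.CharFS
import Cfsg.Agent.Lib.CharBasic

set_option autoImplicit false
set_option linter.style.haveILetI false
set_option linter.unusedVariables false
open scoped ComplexConjugate
open Cfsg

namespace Cfsg.Agent.S0158

/-- The Frobenius–Schur indicator of an irreducible complex representation of a finite group — the average over s of the character at s * s — is 0, 1 or −1, and it vanishes exactly when some character value is not real. -/
theorem result {G : Type*} [Group G] [Fintype G] {V : Type*} [AddCommGroup V] [Module ℂ V] [FiniteDimensional ℂ V] (ρ : Representation ℂ G V) [ρ.IsIrreducible] : ((Nat.card G : ℂ)⁻¹ * ∑ s : G, ρ.character (s * s) = 0 ∨ (Nat.card G : ℂ)⁻¹ * ∑ s : G, ρ.character (s * s) = 1 ∨ (Nat.card G : ℂ)⁻¹ * ∑ s : G, ρ.character (s * s) = -1) ∧ ((Nat.card G : ℂ)⁻¹ * ∑ s : G, ρ.character (s * s) = 0 ↔ ∃ s : G, (ρ.character s).im ≠ 0) := by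
  classical
  let b := Module.finBasis ℂ V
  let A : G → Matrix (Fin (Module.finrank ℂ V)) (Fin (Module.finrank ℂ V)) ℂ :=
    fun s => LinearMap.toMatrix b b (ρ s)
  have hmul : ∀ s t, A (s * t) = A s * A t := by
    intro s t
    simp only [A, map_mul]
    exact LinearMap.toMatrix_mul b _ _
  have htr : ∀ s, ρ.character s = (A s).trace := fun s =>
    LinearMap.trace_eq_matrix_trace ℂ b (ρ s)
  have htr2 : ∀ s, ρ.character (s * s) = (A s * A s).trace := fun s => by
    rw [htr, hmul]
  have hirr : Cfsg.IsIrrCharacter G ρ.character := Cfsg.Agent.Lib.CharBasic.isIrrCharacter_character ρ ‹_›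
  have hconj := Cfsg.Agent.Lib.CharOps.isIrr_conj hirr
  have hfin := Cfsg.Agent.Lib.CharFS.finrank_invMat A hmul
  have hinner : Cfsg.classInner ρ.character (fun g => conj (ρ.character g)) =
      (Nat.card G : ℂ)⁻¹ * ∑ s, (A s).trace ^ 2 := by
    rw [Cfsg.classInner]
    congr 1
    refine Finset.sum_congr rfl fun s _ => ?_
    rw [Complex.conj_conj, htr, sq]
  rw [← hinner, Cfsg.Agent.Lib.CharIrr.classInner_irr hirr hconj] at hfin
  simp only [htr2]
  by_cases hreal : ρ.character = fun g => conj (ρ.character g)
  · rw [if_pos hreal] at hfin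
    have h1 : Module.finrank ℂ (Cfsg.Agent.Lib.CharFS.invMat A) = 1 := by exact_mod_cast hfin
    have h2 := Cfsg.Agent.Lib.CharFS.fs_value A hmul h1
    constructor
    · right; exact h2
    · constructor
      · intro h0
        rw [h0] at h2
        norm_num at h2
      · rintro ⟨s, hs⟩
        exfalso
        apply hs
        have := congrFun hreal s
        exact Complex.conj_eq_iff_im.mp this.symm
  · rw [if_neg hreal] at hfin
    have h1 : Module.finrank ℂ (Cfsg.Agent.Lib.CharFS.invMat A) = 0 := by exact_mod_cast hfin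
    have h2 := Cfsg.Agent.Lib.CharFS.fs_zero A hmul h1
    refine ⟨Or.inl h2, fun _ => ?_, fun _ => h2⟩
    by_contra hno
    push Not at hno
    apply hreal
    funext g
    exact (Complex.conj_eq_iff_im.mpr (hno g)).symm

end Cfsg.Agent.S0158
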