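import Cfsg.Statements.S0159
import Cfsg.Agent.Lib.CharPerm

set_option autoImplicit false
open scoped ComplexConjugate
open Cfsg

namespace Cfsg.Agent.S0159

/-- The number of solutions of s * s = 1 in a finite group equals the sum, over the irreducible characters χ, of (the average over s of χ (s * s)) times χ 1. -/
theorem result {G : Type*} [Group G] [Fintype G] : (Nat.card {s : G // s * s = 1} : ℂ) = ∑ᶠ χ : Cfsg.IrrCharacter G, ((Nat.card G : ℂ)⁻¹ * ∑ s : G, (χ : G → ℂ) (s * s)) * (χ : G → ℂ) 1 := by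
  classical
  open Cfsg.Agent.Lib.CharAb Cfsg.Agent.Lib.CharOps Cfsg.Agent.Lib.CharIrr in
  rw [finsum_eq_sum_of_fintype]
  -- the root counting function
  let θ : G → ℂ := fun g => (Nat.card {s : G // s * s = g} : ℂ)
  have hsum : ∀ F : G → ℂ, ∑ g, θ g * F g = ∑ s, F (s * s) := by
    intro F
    rw [← Finset.sum_fiberwise (s := Finset.univ) (g := fun s : G => s * s) (f := fun s => F (s * s))]
    refine Finset.sum_congr rfl fun g _ => ?_
    have h1 : ∀ s ∈ Finset.univ.filter (fun s : G => s * s = g), F (s * s) = F g := by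
      intro s hs
      rw [(Finset.mem_filter.mp hs).2]
    rw [Finset.sum_congr rfl h1, Finset.sum_const, nsmul_eq_mul]
    congr 1
    show (Nat.card {s : G // s * s = g} : ℂ) = _
    rw [Nat.card_eq_fintype_card, Fintype.card_subtype]
  have hcf : Cfsg.IsClassFunction G θ := by
    intro g y
    show (Nat.card {s : G // s * s = y * g * y⁻¹} : ℂ) = (Nat.card {s : G // s * s = g} : ℂ)
    congr 1
    apply Nat.card_congr
    refine Equiv.subtypeEquiv (MulAut.conj y⁻¹).toEquiv fun s => ?_
    simp only [MulEquiv.toEquiv_eq_coe, EquivLike.coe_coe, MulAut.conj_apply, inv_inv]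
    constructor
    · intro h
      rw [show y⁻¹ * s * y * (y⁻¹ * s * y) = y⁻¹ * (s * s) * y by group, h]
      group
    · intro h
      have : s * s = y * (y⁻¹ * s * y * (y⁻¹ * s * y)) * y⁻¹ := by group
      rw [this, h]
  have hexp := congrFun (classFunction_expand hcf) 1
  have h1 : θ 1 = (Nat.card {s : G // s * s = 1} : ℂ) := rfl
  rw [← h1, hexp]
  simp only [Finset.sum_apply, Pi.smul_apply, smul_eq_mul]
  let cj : Cfsg.IrrCharacter G → Cfsg.IrrCharacter G := fun χ => ⟨fun g => conj ((χ : G → ℂ) g), isIrr_conj χ.2⟩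
  have hcj : Function.Involutive cj := by
    intro χ
    apply Subtype.ext
    funext g
    simp [cj]
  rw [← Equiv.sum_comp hcj.toPerm]
  refine Finset.sum_congr rfl fun χ _ => ?_
  show Cfsg.classInner θ (fun g => conj ((χ : G → ℂ) g)) * (conj ((χ : G → ℂ) 1)) = _
  rw [Cfsg.classInner]
  simp only [Complex.conj_conj]
  rw [hsum]
  congr 1
  rw [apply_one_eq_deg]
  simp

end Cfsg.Agent.S0159
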