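import Cfsg.Statements.S0162
import Cfsg.Agent.Lib.CharPerm

set_option autoImplicit false
open scoped ComplexConjugate
open Cfsg

namespace Cfsg.Agent.S0162

/-- If a finite group has odd order, its order is congruent to its number of conjugacy classes modulo 16. -/
theorem result {G : Type*} [Group G] [Finite G] (hodd : Odd (Nat.card G)) : Nat.card G ≡ Nat.card (ConjClasses G) [MOD 16] := by
  classical
  cases nonempty_fintype G
  open Cfsg.Agent.Lib.CharAb Cfsg.Agent.Lib.CharOps Cfsg.Agent.Lib.CharPerm in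
  -- degrees are odd
  have hdodd : ∀ χ : Cfsg.IrrCharacter G, Odd (deg χ) := by
    intro χ
    obtain ⟨n, ρ, hρ, hχ⟩ := χ.2
    have h1 := Cfsg.Agent.Lib.CharInt.finrank_dvd_card ρ hρ
    have h2 : (Module.finrank ℂ (Fin n → ℂ) : ℂ) = (deg χ : ℂ) := by
      rw [← apply_one_eq_deg, ← hχ, Representation.char_one]
    have h3 : Module.finrank ℂ (Fin n → ℂ) = deg χ := by exact_mod_cast h2
    rw [h3] at h1
    exact hodd.of_dvd_nat h1
  have h8 : ∀ d : ℕ, Odd d → ∃ t : ℕ, d ^ 2 = 8 * t + 1 := by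
    rintro d ⟨k, rfl⟩
    obtain ⟨j, hj⟩ := Nat.even_mul_succ_self k
    refine ⟨j, ?_⟩
    have : k * (k + 1) = j + j := hj
    nlinarith
  choose t ht using fun χ : Cfsg.IrrCharacter G => h8 (deg χ) (hdodd χ)
  -- the conjugation involution
  let cj : Cfsg.IrrCharacter G → Cfsg.IrrCharacter G := fun χ => ⟨fun g => conj ((χ : G → ℂ) g), isIrr_conj χ.2⟩
  have hcj : ∀ χ, cj (cj χ) = χ := by
    intro χ
    apply Subtype.ext
    funext g
    simp [cj]
  have hdeg : ∀ χ, deg (cj χ) = deg χ := by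
    intro χ
    have : (deg (cj χ) : ℂ) = deg χ := by
      rw [← apply_one_eq_deg, ← apply_one_eq_deg]
      show conj ((χ : G → ℂ) 1) = _
      rw [apply_one_eq_deg]
      simp
    exact_mod_cast this
  have htc : ∀ χ, t (cj χ) = t χ := by
    intro χ
    have h1 := ht χ
    have h2 := ht (cj χ)
    rw [hdeg] at h2
    omega
  have hfix : ∀ χ, cj χ = χ → t χ = 0 := by
    intro χ hχ
    have hreal : ∀ g : G, ((χ : G → ℂ) g).im = 0 := by
      intro g
      have := congrFun (congrArg Subtype.val hχ) g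
      exact Complex.conj_eq_iff_im.mp this
    have h1 := real_trivial hodd χ hreal
    have h2 : (deg χ : ℂ) = 1 := by
      rw [← apply_one_eq_deg, h1]
    have h3 : deg χ = 1 := by exact_mod_cast h2
    have h4 := ht χ
    rw [h3] at h4
    omega
  have hsum2 : (∑ χ : Cfsg.IrrCharacter G, ((t χ : ℕ) : ZMod 2)) = 0 := by
    refine Finset.sum_involution (fun χ _ => cj χ) ?_ ?_ (fun _ _ => Finset.mem_univ _) (fun χ _ => hcj χ)
    · intro χ _
      rw [htc]
      exact CharTwo.add_self_eq_zero _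
    · intro χ _ h0 h1
      apply h0
      rw [hfix χ h1]
      simp
  have hev : 2 ∣ ∑ χ : Cfsg.IrrCharacter G, t χ := by
    rw [← ZMod.natCast_eq_zero_iff]
    push_cast
    exact hsum2
  obtain ⟨m, hm⟩ := hev
  have hcard : Nat.card G = 16 * m + Nat.card (ConjClasses G) := by
    rw [← sum_deg_sq, ← Cfsg.Agent.Lib.CharIrr.card_irr]
    simp only [ht]
    rw [Finset.sum_add_distrib, ← Finset.mul_sum, hm, Nat.card_eq_fintype_card, Fintype.card_eq_sum_ones]
    ring
  rw [hcard]
  simp [Nat.ModEq]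

end Cfsg.Agent.S0162
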