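import Cfsg.Statements.S0165
import Cfsg.Agent.Lib.CharBlockVan
import Cfsg.Agent.Lib.CharBasic

set_option autoImplicit false
set_option linter.style.haveILetI false
set_option linter.unusedVariables false
open Cfsg

namespace Cfsg.Agent.S0165

/-- If p ^ n is the exact power of the prime p dividing the order of a finite group and p ^ n divides the degree of an irreducible complex representation, then its character vanishes at every element of order divisible by p. -/
theorem result {G : Type*} [Group G] [Finite G] {V : Type*} [AddCommGroup V] [Module ℂ V] [FiniteDimensional ℂ V] (ρ : Representation ℂ G V) [ρ.IsIrreducible] (p n : ℕ) (hp : p.Prime) (hn : p ^ n ∣ Nat.card G) (hn' : ¬ p ^ (n + 1) ∣ Nat.card G) (hdeg : p ^ n ∣ Module.finrank ℂ V) (x : G) (hx : p ∣ orderOf x) : ρ.character x = 0 := by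
  classical
  cases nonempty_fintype G
  obtain ⟨M, hM⟩ := Cfsg.Agent.Lib.CharBlockVan.exists_isPModular hp
  have hchar : Cfsg.IsIrrCharacter G ρ.character := Cfsg.Agent.Lib.CharBasic.isIrrCharacter_character ρ ‹_›
  let χ : Cfsg.IrrCharacter G := ⟨ρ.character, hchar⟩
  have hcd : ∀ m : ℕ, (m : ℂ) = (χ : G → ℂ) 1 → m = Module.finrank ℂ V := by
    intro m hm
    have h2 : (χ : G → ℂ) 1 = (Module.finrank ℂ V : ℂ) := by
      show ρ.character 1 = _
      simp [Representation.character]
    rw [h2] at hm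
    exact_mod_cast hm
  have hdeg' : Cfsg.charDegree (χ : G → ℂ) = Module.finrank ℂ V :=
    hcd _ (Cfsg.Agent.Lib.CharBlockDefect.charDegree_cast (Cfsg.Agent.Lib.CharOps.IsIrrCharacter.isCharacter' hchar))
  have hdvd := Cfsg.Agent.Lib.CharBlockDefect.charDegree_dvd_card χ.2
  have hnd : ¬ p ∣ Nat.card G / Cfsg.charDegree (χ : G → ℂ) := by
    rintro ⟨c, hc⟩
    apply hn'
    obtain ⟨e, he⟩ := hdvd
    rw [he, Nat.mul_div_cancel_left _ (Nat.pos_of_ne_zero (Cfsg.Agent.Lib.CharBlockDefect.charDegree_ne_zero χ.2))] at hc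
    rw [he, hc, pow_succ, ← mul_assoc]
    rw [hdeg']
    exact Dvd.dvd.mul_right (mul_dvd_mul_right hdeg p) c
  have hsing := (Cfsg.Agent.Lib.CharBlockMinMax.defect_zero_iff hM χ).1 hnd
  have hB : Cfsg.IsPBlock M (Cfsg.blockOf M (χ : G → ℂ)) := ⟨χ, rfl⟩
  have hA := Cfsg.Agent.Lib.CharBlockConv.blockClosed_of_isPBlock hM hB
  have h0 := Cfsg.Agent.Lib.CharBlockDefect.blockCoeff_singular hM hA hx
  rw [hsing] at h0
  unfold Cfsg.blockCoeff at h0
  rw [finsum_mem_singleton] at h0
  have hG : (Nat.card G : ℂ)⁻¹ ≠ 0 := inv_ne_zero (by exact_mod_cast Nat.card_pos.ne')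
  have h1 := (mul_eq_zero.1 h0).resolve_left hG
  have h2 := (mul_eq_zero.1 h1).resolve_left (Cfsg.Agent.Lib.CharOps.degree_ne_zero χ.2)
  simpa [χ] using h2

end Cfsg.Agent.S0165
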