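import Cfsg.Statements.S0167
import Cfsg.Agent.Lib.CharPerm

set_option autoImplicit false
set_option linter.style.haveILetI false
set_option linter.unusedVariables false
open scoped ComplexConjugate
open Cfsg

namespace Cfsg.Agent.S0167

/-- An element g of a finite group is a commutator if and only if the sum over the irreducible characters χ of χ g / χ 1 is nonzero. -/
theorem result {G : Type*} [Group G] [Finite G] (g : G) : (∃ a b : G, g = a * b * a⁻¹ * b⁻¹) ↔ ∑ᶠ χ : Cfsg.IrrCharacter G, (χ : G → ℂ) g / (χ : G → ℂ) 1 ≠ 0 := by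
  classical
  cases nonempty_fintype G
  open Cfsg.Agent.Lib.CharAb Cfsg.Agent.Lib.CharOps Cfsg.Agent.Lib.CharIrr Cfsg.Agent.Lib.CharCore Cfsg.Agent.Lib.CharBasic in
  rw [finsum_eq_sum_of_fintype]
  have hG0 : (Nat.card G : ℂ) ≠ 0 := by exact_mod_cast Nat.card_pos.ne'
  -- scalar lemma
  have hscal : ∀ (n : ℕ) (ρ : Representation ℂ G (Fin n → ℂ)), ρ.IsIrreducible → ∀ c : G,
      (∑ b : G, ρ (b * c * b⁻¹)) = ((Nat.card G : ℂ) * ρ.character c / (n : ℂ)) • (LinearMap.id : (Fin n → ℂ) →ₗ[ℂ] (Fin n → ℂ)) := by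
    intro n ρ hρ c
    have hn : (n : ℂ) ≠ 0 := by
      have := finrank_pos_of_irreducible ρ hρ
      simp only [Module.finrank_fin_fun] at this
      exact_mod_cast this.ne'
    haveI := hρ
    obtain ⟨C, hC⟩ := Cfsg.Agent.Lib.CharClass.schur_scalar ρ (∑ b : G, ρ (b * c * b⁻¹)) (by
      intro g
      refine LinearMap.ext fun v => ?_
      simp only [LinearMap.comp_apply, LinearMap.sum_apply, map_sum]
      refine Fintype.sum_equiv (Equiv.mulLeft g⁻¹) _ _ fun b => ?_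
      simp only [Equiv.coe_mulLeft]
      rw [← Module.End.mul_apply, ← Module.End.mul_apply, ← map_mul, ← map_mul]
      congr 2
      group)
    have htr := congrArg (LinearMap.trace ℂ _) hC
    rw [map_sum, map_smul, LinearMap.trace_id] at htr
    have h1 : ∀ b : G, LinearMap.trace ℂ _ (ρ (b * c * b⁻¹)) = ρ.character c := fun b =>
      Representation.char_conj ρ c b
    simp only [h1, Finset.sum_const, Finset.card_univ, ← Nat.card_eq_fintype_card, nsmul_eq_mul, Module.finrank_fin_fun, smul_eq_mul] at htr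
    rw [hC]
    congr 1
    field_simp
    linear_combination (-1 : ℂ) * htr
  -- the commutator sum
  have hcomm : ∀ χ : Cfsg.IrrCharacter G, ∑ a : G, ∑ b : G, (χ : G → ℂ) (a * b * a⁻¹ * b⁻¹) =
      (Nat.card G : ℂ) ^ 2 / (χ : G → ℂ) 1 := by
    intro χ
    obtain ⟨n, ρ, hρ, hχ⟩ := χ.2
    have hn : (n : ℂ) ≠ 0 := by
      have := finrank_pos_of_irreducible ρ hρ
      simp only [Module.finrank_fin_fun] at this
      exact_mod_cast this.ne'
    have h1 : (χ : G → ℂ) 1 = n := by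
      rw [← hχ, Representation.char_one]
      simp
    rw [h1, ← hχ]
    have h2 : ∀ a : G, ∑ b : G, ρ.character (a * b * a⁻¹ * b⁻¹) =
        (Nat.card G : ℂ) * ρ.character a⁻¹ / (n : ℂ) * ρ.character a := by
      intro a
      have h3 : ∀ b : G, ρ.character (a * b * a⁻¹ * b⁻¹) = LinearMap.trace ℂ _ (ρ a ∘ₗ ρ (b * a⁻¹ * b⁻¹)) := by
        intro b
        rw [← Module.End.mul_eq_comp, ← map_mul, Representation.character]
        congr 2
        group
      simp only [h3]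
      have h3' : ∑ b : G, ρ a ∘ₗ ρ (b * a⁻¹ * b⁻¹) = ρ a ∘ₗ ∑ b : G, ρ (b * a⁻¹ * b⁻¹) := by
        refine LinearMap.ext fun v => ?_
        simp only [LinearMap.comp_apply, LinearMap.sum_apply, map_sum]
      rw [← map_sum, h3', hscal n ρ hρ a⁻¹, LinearMap.comp_smul, map_smul,
        LinearMap.comp_id]
      rfl
    simp only [h2]
    have h4 : ∑ a : G, ρ.character a⁻¹ * ρ.character a = (Nat.card G : ℂ) := by
      have h5 := classInner_irr (G := G) χ.2 χ.2
      rw [if_pos rfl, Cfsg.classInner] at h5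
      field_simp at h5
      rw [← h5, ← hχ]
      refine Finset.sum_congr rfl fun a _ => ?_
      rw [character_inv, mul_comm]
    have h6 : ∑ a : G, (Nat.card G : ℂ) * ρ.character a⁻¹ / (n : ℂ) * ρ.character a =
        (Nat.card G : ℂ) / n * ∑ a : G, ρ.character a⁻¹ * ρ.character a := by
      rw [Finset.mul_sum]
      refine Finset.sum_congr rfl fun a _ => ?_
      ring
    rw [h6, h4]
    ring
  -- the counting function
  let N : G → ℂ := fun g => (Nat.card {p : G × G // p.1 * p.2 * p.1⁻¹ * p.2⁻¹ = g} : ℂ)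
  have hsum : ∀ F : G → ℂ, ∑ g, N g * F g = ∑ a : G, ∑ b : G, F (a * b * a⁻¹ * b⁻¹) := by
    intro F
    rw [← Finset.sum_product', ← Finset.sum_fiberwise (s := Finset.univ ×ˢ Finset.univ) (g := fun p : G × G => p.1 * p.2 * p.1⁻¹ * p.2⁻¹) (f := fun p => F (p.1 * p.2 * p.1⁻¹ * p.2⁻¹))]
    refine Finset.sum_congr rfl fun g _ => ?_
    have h1 : ∀ p ∈ (Finset.univ ×ˢ Finset.univ : Finset (G × G)).filter (fun p : G × G => p.1 * p.2 * p.1⁻¹ * p.2⁻¹ = g), F (p.1 * p.2 * p.1⁻¹ * p.2⁻¹) = F g := by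
      intro p hp
      rw [(Finset.mem_filter.mp hp).2]
    rw [Finset.sum_congr rfl h1, Finset.sum_const, nsmul_eq_mul]
    congr 1
    show (Nat.card {p : G × G // p.1 * p.2 * p.1⁻¹ * p.2⁻¹ = g} : ℂ) = _
    rw [Nat.card_eq_fintype_card, Fintype.card_subtype]
    simp
  have hcf : Cfsg.IsClassFunction G N := by
    intro g y
    show (Nat.card {p : G × G // p.1 * p.2 * p.1⁻¹ * p.2⁻¹ = y * g * y⁻¹} : ℂ) = (Nat.card {p : G × G // p.1 * p.2 * p.1⁻¹ * p.2⁻¹ = g} : ℂ)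
    congr 1
    apply Nat.card_congr
    refine Equiv.subtypeEquiv (Equiv.prodCongr (MulAut.conj y⁻¹).toEquiv (MulAut.conj y⁻¹).toEquiv) fun p => ?_
    simp only [Equiv.prodCongr_apply, Prod.map, MulEquiv.toEquiv_eq_coe, EquivLike.coe_coe, MulAut.conj_apply, inv_inv]
    constructor
    · intro h
      have : y⁻¹ * p.1 * y * (y⁻¹ * p.2 * y) * (y⁻¹ * p.1 * y)⁻¹ * (y⁻¹ * p.2 * y)⁻¹ = y⁻¹ * (p.1 * p.2 * p.1⁻¹ * p.2⁻¹) * y := by group
      rw [this, h]
      group
    · intro h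
      have : p.1 * p.2 * p.1⁻¹ * p.2⁻¹ = y * (y⁻¹ * p.1 * y * (y⁻¹ * p.2 * y) * (y⁻¹ * p.1 * y)⁻¹ * (y⁻¹ * p.2 * y)⁻¹) * y⁻¹ := by group
      rw [this, h]
  have hexp := congrFun (classFunction_expand hcf) g
  simp only [Finset.sum_apply, Pi.smul_apply, smul_eq_mul] at hexp
  have hinner : ∀ χ : Cfsg.IrrCharacter G, Cfsg.classInner N (χ : G → ℂ) = (Nat.card G : ℂ) / (χ : G → ℂ) 1 := by
    intro χ
    rw [Cfsg.classInner, hsum]
    have h1 : ∑ a : G, ∑ b : G, conj ((χ : G → ℂ) (a * b * a⁻¹ * b⁻¹)) = conj ((Nat.card G : ℂ) ^ 2 / (χ : G → ℂ) 1) := by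
      rw [← hcomm χ, map_sum]
      simp only [map_sum]
    rw [h1, apply_one_eq_deg]
    simp only [map_div₀, map_pow, Complex.conj_natCast]
    field_simp
  simp only [hinner] at hexp
  have hfinal : N g = (Nat.card G : ℂ) * ∑ χ : Cfsg.IrrCharacter G, (χ : G → ℂ) g / (χ : G → ℂ) 1 := by
    rw [hexp, Finset.mul_sum]
    refine Finset.sum_congr rfl fun χ _ => ?_
    ring
  constructor
  · rintro ⟨a, b, hab⟩ h0
    rw [h0, mul_zero] at hfinal
    have h2' : (Nat.card {p : G × G // p.1 * p.2 * p.1⁻¹ * p.2⁻¹ = g} : ℂ) = 0 := hfinal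
    have h2 : Nat.card {p : G × G // p.1 * p.2 * p.1⁻¹ * p.2⁻¹ = g} = 0 := by exact_mod_cast h2'
    have : Nonempty {p : G × G // p.1 * p.2 * p.1⁻¹ * p.2⁻¹ = g} := ⟨⟨(a, b), hab.symm⟩⟩
    have h3 : 0 < Nat.card {p : G × G // p.1 * p.2 * p.1⁻¹ * p.2⁻¹ = g} := Nat.card_pos
    omega
  · intro h0
    have hN : N g ≠ 0 := by
      rw [hfinal]
      exact mul_ne_zero hG0 h0
    have hne : Nat.card {p : G × G // p.1 * p.2 * p.1⁻¹ * p.2⁻¹ = g} ≠ 0 := by
      intro h
      apply hN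
      show (Nat.card {p : G × G // p.1 * p.2 * p.1⁻¹ * p.2⁻¹ = g} : ℂ) = 0
      rw [h]
      simp
    obtain ⟨⟨p, hp⟩⟩ := (Nat.card_ne_zero.mp hne).1
    exact ⟨p.1, p.2, hp.symm⟩

end Cfsg.Agent.S0167
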