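import Cfsg.Statements.S0168
import Cfsg.Agent.Lib.CharPerm

set_option autoImplicit false
set_option linter.style.haveILetI false
set_option linter.unusedVariables false
open scoped ComplexConjugate
open Cfsg

namespace Cfsg.Agent.S0168

/-- The Burnside–Brauer Theorem. Let χ be the character of a faithful complex representation of a finite group, taking m distinct values. Then every irreducible character has nonzero inner product with χ ^ i for some i < m. -/
theorem result {G : Type*} [Group G] [Fintype G] {V : Type*} [AddCommGroup V] [Module ℂ V] [FiniteDimensional ℂ V] (ρ : Representation ℂ G V) (hfaithful : Function.Injective ρ) (ψ : G → ℂ) (hψ : Cfsg.IsIrrCharacter G ψ) : ∃ i : ℕ, i < Nat.card (Set.range ρ.character) ∧ Cfsg.classInner (fun g => ρ.character g ^ i) ψ ≠ 0 := by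
  classical
  by_contra hcon
  push Not at hcon
  set χ := ρ.character with hχ
  -- the finite value set
  let A : Finset ℂ := Finset.univ.image χ
  have hcard : Nat.card (Set.range χ) = A.card := by
    have : (Set.range χ) = (A : Set ℂ) := by
      ext z
      simp [A]
    rw [this, Nat.card_coe_set_eq, Set.ncard_coe_finset]
  let e : Fin A.card ≃ A := A.equivFin.symm
  let f : Fin A.card → ℂ := fun j => (e j : ℂ)
  have hf : Function.Injective f := fun a b h => e.injective (Subtype.ext h)
  let v : Fin A.card → ℂ := fun j => ∑ g ∈ Finset.univ.filter (fun g => χ g = f j), conj (ψ g)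
  have hG0 : (Nat.card G : ℂ) ≠ 0 := by exact_mod_cast Nat.card_pos.ne'
  have hv : ∀ i : Fin A.card, ∑ j, v j * f j ^ (i : ℕ) = 0 := by
    intro i
    have h1 := hcon i (by rw [hcard]; exact i.2)
    rw [Cfsg.classInner] at h1
    have h2 : ∑ g : G, χ g ^ (i : ℕ) * conj (ψ g) = 0 := by
      rcases mul_eq_zero.mp h1 with h | h
      · exact absurd h (inv_ne_zero hG0)
      · exact h
    rw [← h2]
    have hmem : ∀ g : G, χ g ∈ A := fun g => Finset.mem_image_of_mem _ (Finset.mem_univ _)
    have hfib := Finset.sum_fiberwise (s := Finset.univ) (g := fun g : G => (e.symm ⟨χ g, hmem g⟩ : Fin A.card)) (f := fun g => χ g ^ (i : ℕ) * conj (ψ g))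
    rw [← hfib]
    refine Finset.sum_congr rfl fun j _ => ?_
    simp only [v]
    rw [Finset.sum_mul]
    have hset : Finset.univ.filter (fun g => χ g = f j) = Finset.univ.filter (fun g : G => (e.symm ⟨χ g, hmem g⟩ : Fin A.card) = j) := by
      ext g
      simp only [Finset.mem_filter, Finset.mem_univ, true_and]
      constructor
      · intro h
        rw [Equiv.symm_apply_eq]
        exact Subtype.ext h
      · intro h
        have := (Equiv.symm_apply_eq e).mp h
        exact congrArg Subtype.val this
    rw [hset]
    refine Finset.sum_congr rfl fun g hg => ?_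
    have h3 := (Finset.mem_filter.mp hg).2
    have h4 : χ g = f j := by
      have := (Equiv.symm_apply_eq e).mp h3
      exact congrArg Subtype.val this
    rw [h4]
    ring
  have hv0 := Matrix.eq_zero_of_forall_pow_sum_mul_pow_eq_zero hf hv
  -- at the value χ 1
  have hmem1 : χ 1 ∈ A := Finset.mem_image_of_mem _ (Finset.mem_univ _)
  let j₀ := e.symm ⟨χ 1, hmem1⟩
  have hj₀ : f j₀ = χ 1 := by simp [f, j₀]
  have hv1 : v j₀ = conj (ψ 1) := by
    simp only [v, hj₀]
    have hset : Finset.univ.filter (fun g => χ g = χ 1) = {1} := by
      ext g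
      simp only [Finset.mem_filter, Finset.mem_univ, true_and, Finset.mem_singleton]
      constructor
      · intro h
        rw [hχ, Representation.char_one, Cfsg.Agent.Lib.CharCore.character_eq_finrank_iff] at h
        apply hfaithful
        rw [map_one]
        exact h
      · rintro rfl
        rfl
    rw [hset, Finset.sum_singleton]
  have h0 := congrFun hv0 j₀
  rw [hv1] at h0
  have hψ0 := Cfsg.Agent.Lib.CharOps.degree_ne_zero hψ
  apply hψ0
  simpa using h0

end Cfsg.Agent.S0168
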