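import Cfsg.Statements.S0170
import Cfsg.Agent.Lib.CharIso
import Cfsg.Agent.S0150

set_option autoImplicit false
set_option linter.style.haveILetI false
set_option linter.unusedVariables false
open Cfsg

namespace Cfsg.Agent.S0170

/-- Exceptional characters. Let S be a subset of a finite group contained in its normalizer N and meeting its conjugates by elements outside N only in the identity. Given n ≥ 2 distinct irreducible characters of N of equal degree that vanish on N away from S, there exist a sign ε and n distinct irreducible characters θ_i of G such that inducing χ_i − χ_j to G gives ε (θ_i − θ_j) for all i, j. -/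
theorem result {G : Type*} [Group G] [Fintype G] (S : Set G) (hSN : S ⊆ Subgroup.normalizer S) (hTI : ∀ g : G, g ∉ Subgroup.normalizer S → ∀ s ∈ S, g * s * g⁻¹ ∈ S → s = 1) (n : ℕ) (hn : 2 ≤ n) (χ : Fin n → (Subgroup.normalizer S → ℂ)) (hirr : ∀ i, Cfsg.IsIrrCharacter (Subgroup.normalizer S) (χ i)) (hinj : Function.Injective χ) (hvan : ∀ i, ∀ x : Subgroup.normalizer S, (x : G) ∉ S → χ i x = 0) (hdeg : ∀ i j, χ i 1 = χ j 1) : ∃ ε : ℂ, (ε = 1 ∨ ε = -1) ∧ ∃ θ : Fin n → (G → ℂ), (∀ i, Cfsg.IsIrrCharacter G (θ i)) ∧ Function.Injective θ ∧ ∀ i j, Cfsg.indFun (Subgroup.normalizer S) (χ i) - Cfsg.indFun (Subgroup.normalizer S) (χ j) = ε • (θ i - θ j) := by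
  classical
  letI : Fintype (Subgroup.normalizer S) := Fintype.ofFinite _
  let i₀ : Fin n := ⟨0, by omega⟩
  let τ : Fin n → (G → ℂ) := fun i => Cfsg.indFun (Subgroup.normalizer S) (χ i - χ i₀)
  have hclass : ∀ i, Cfsg.IsClassFunction (Subgroup.normalizer S) (χ i) := fun i =>
    Cfsg.Agent.Lib.CharIrr.irr_isClassFunction (Cfsg.Agent.Lib.CharOps.IsIrrCharacter.isCharacter' (hirr i))
  have hclass' : ∀ i j, Cfsg.IsClassFunction (Subgroup.normalizer S) (χ i - χ j) := by
    intro i j g h
    simp only [Pi.sub_apply]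
    rw [hclass i g h, hclass j g h]
  have hv : ∀ i j, ∀ x : Subgroup.normalizer S, (x : G) ∉ S → (χ i - χ j) x = 0 := by
    intro i j x hx
    simp [hvan i x hx, hvan j x hx]
  have h0' : ∀ i j, (χ i - χ j) 1 = 0 := by
    intro i j
    simp [hdeg i j]
  have hgen : ∀ i, Cfsg.IsGeneralizedCharacter G (τ i) := by
    intro i
    apply Cfsg.Agent.Lib.CharGen.isGen_indFun
    exact ⟨χ i, χ i₀, Cfsg.Agent.Lib.CharOps.IsIrrCharacter.isCharacter' (hirr i),
      Cfsg.Agent.Lib.CharOps.IsIrrCharacter.isCharacter' (hirr i₀), rfl⟩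
  have hzero : τ i₀ = 0 := by
    simp only [τ, sub_self]
    exact Cfsg.Agent.Lib.CharGen.indFun_zero _
  have hone : ∀ i, τ i 1 = 0 := by
    intro i
    simp only [τ]
    rw [Cfsg.Agent.Lib.CharOps.indFun_one, h0']
    simp
  have hgram : ∀ i j, i ≠ i₀ → j ≠ i₀ → Cfsg.classInner (τ i) (τ j) = if i = j then 2 else 1 := by
    intro i j hi hj
    simp only [τ]
    rw [Cfsg.Agent.S0150.result S hTI hSN _ _ (hclass' i i₀) (hclass' j i₀) (hv i i₀) (hv j i₀) (h0' i i₀)]
    have hexp : ∀ a b c d : Subgroup.normalizer S → ℂ, Cfsg.classInner (a - b) (c - d) =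
        Cfsg.classInner a c - Cfsg.classInner a d - Cfsg.classInner b c + Cfsg.classInner b d := by
      intro a b c d
      rw [sub_eq_add_neg a, sub_eq_add_neg c, Cfsg.Agent.Lib.CharIrr.classInner_add_left,
        Cfsg.Agent.Lib.CharIrr.classInner_add_right, Cfsg.Agent.Lib.CharIrr.classInner_add_right]
      have e1 : ∀ x y : Subgroup.normalizer S → ℂ, Cfsg.classInner x (-y) = - Cfsg.classInner x y := by
        intro x y
        have := Cfsg.Agent.Lib.CharIrr.classInner_smul_right (-1) x y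
        simpa using this
      have e2 : ∀ x y : Subgroup.normalizer S → ℂ, Cfsg.classInner (-x) y = - Cfsg.classInner x y := by
        intro x y
        have := Cfsg.Agent.Lib.CharIrr.classInner_smul_left (-1) x y
        simpa using this
      rw [e1, e2, e2, e1]
      ring
    rw [hexp, Cfsg.Agent.Lib.CharIrr.classInner_irr (hirr i) (hirr j),
      Cfsg.Agent.Lib.CharIrr.classInner_irr (hirr i) (hirr i₀),
      Cfsg.Agent.Lib.CharIrr.classInner_irr (hirr i₀) (hirr j),
      Cfsg.Agent.Lib.CharIrr.classInner_irr (hirr i₀) (hirr i₀), if_pos rfl,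
      if_neg (fun h => hi (hinj h)), if_neg (fun h => hj (hinj h).symm)]
    by_cases hij : i = j
    · rw [if_pos (congrArg χ hij), if_pos hij]; norm_num
    · rw [if_neg (fun h => hij (hinj h)), if_neg hij]; norm_num
  obtain ⟨ε, hε, μ, hμ, hinjμ, hτ⟩ :=
    Cfsg.Agent.Lib.CharIso.isometry_lemma n i₀ τ hzero hgen hone hgram
  refine ⟨ε, hε, μ, hμ, hinjμ, ?_⟩
  intro i j
  have hi : Cfsg.indFun (Subgroup.normalizer S) (χ i - χ i₀) = ε • (μ i - μ i₀) := hτ i
  have hj : Cfsg.indFun (Subgroup.normalizer S) (χ j - χ i₀) = ε • (μ j - μ i₀) := hτ j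
  rw [Cfsg.Agent.Lib.CharGen.indFun_sub] at hi hj
  calc _ = (Cfsg.indFun (Subgroup.normalizer S) (χ i) - Cfsg.indFun (Subgroup.normalizer S) (χ i₀)) -
        (Cfsg.indFun (Subgroup.normalizer S) (χ j) - Cfsg.indFun (Subgroup.normalizer S) (χ i₀)) := by abel
    _ = _ := by
      rw [hi, hj, ← smul_sub]
      congr 1
      abel

end Cfsg.Agent.S0170
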