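import Cfsg.Statements.S0171
import Cfsg.Agent.Lib.CharFrob

set_option autoImplicit false
set_option linter.style.haveILetI false
set_option linter.unusedVariables false
open scoped ComplexConjugate
open Cfsg

namespace Cfsg.Agent.S0171

/-- Let G = K H with K normal, K ⊓ H trivial, and no non-identity element of H commuting with a non-identity element of K (a Frobenius group with kernel K and complement H). Then every non-principal irreducible character of K induces to an irreducible character of G. -/
theorem result {G : Type*} [Group G] [Fintype G] (K H : Subgroup G) [K.Normal] (hKH : K ⊓ H = ⊥) (hKH' : K ⊔ H = ⊤) (hfpf : ∀ h ∈ H, h ≠ 1 → ∀ k ∈ K, h * k = k * h → k = 1) (τ : K → ℂ) (hτ : Cfsg.IsIrrCharacter K τ) (hτ1 : τ ≠ fun _ => 1) : Cfsg.IsIrrCharacter G (Cfsg.indFun K τ) := by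
  classical
  letI : Fintype K := Fintype.ofFinite _
  open Cfsg.Agent.Lib.CharOps Cfsg.Agent.Lib.CharNormal Cfsg.Agent.Lib.CharFrob Cfsg.Agent.Lib.CharPerm Cfsg.Agent.Lib.CharIrr in
  have hKN : K.Normal := ‹_›
  have hτc := IsCharacter.isClassFunction' (IsIrrCharacter.isCharacter' hτ)
  apply isIrr_of_norm_one (isCharacter_indFun K (IsIrrCharacter.isCharacter' hτ))
  have hcount := card_mul_norm_ind K hτ
  have hK0 : (Nat.card K : ℂ) ≠ 0 := by exact_mod_cast Nat.card_pos.ne'
  -- the stabilizer is K
  have hstab : ∀ g : G, (∀ n : K, τ ⟨g * n * g⁻¹, hKN.conj_mem n n.2 g⟩ = τ n) ↔ g ∈ K := by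
    intro g
    constructor
    · intro hg
      obtain ⟨y, hy, h, hh, rfl⟩ := exists_factor K H hKH' g
      by_cases h1 : h = 1
      · simpa [h1] using hy
      exfalso
      -- the automorphism of K induced by h
      let α : K ≃* K := MulAut.conjNormal h
      have hαapp : ∀ n : K, ((α n : K) : G) = h * n * h⁻¹ := fun n => MulAut.conjNormal_apply h n
      have hτα : τ ∘ α = τ := by
        funext n
        have h2 := hg n
        have h3 := hτc (α n) ⟨y, hy⟩
        rw [← h2, Function.comp_apply, ← h3]
        congr 1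
        apply Subtype.ext
        show y * ((α n : K) : G) * y⁻¹ = y * h * (n : G) * (y * h)⁻¹
        rw [hαapp]
        group
      have hcard := card_fixed_aut α
      have h4 : Nat.card {C : ConjClasses K // ConjClasses.map α.toMonoidHom C = C} = 1 := by
        rw [Nat.card_eq_one_iff_unique]
        refine ⟨⟨?_⟩, ⟨⟨ConjClasses.mk 1, ?_⟩⟩⟩
        · have hone : ∀ C : {C : ConjClasses K // ConjClasses.map α.toMonoidHom C = C}, C.1 = ConjClasses.mk 1 := by
            rintro ⟨C, hC⟩
            obtain ⟨k, rfl⟩ := ConjClasses.exists_rep C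
            have h5 : IsConj (α k) k := ConjClasses.mk_eq_mk_iff_isConj.mp hC
            obtain ⟨c, hc⟩ := isConj_iff.mp h5
            have h6 : h * (k : G) * h⁻¹ = (c : G)⁻¹ * k * ((c : G)⁻¹)⁻¹ := by
              rw [← hαapp]
              have h7 : (c : G) * (α k : K) * (c : G)⁻¹ = k := congrArg Subtype.val hc
              rw [← h7]
              group
            have h8 := frob_fixed_class K (hfpf h hh h1) k.2 (K.inv_mem c.2) h6
            have h9 : k = 1 := Subtype.ext h8
            show ConjClasses.mk k = ConjClasses.mk 1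
            rw [h9]
          intro a b
          apply Subtype.ext
          rw [hone a, hone b]
        · show ConjClasses.mk (α 1) = _
          rw [map_one]
      rw [h4] at hcard
      have h5 := (Nat.card_eq_one_iff_unique.mp hcard.symm).1
      let one : Cfsg.IrrCharacter K := ⟨fun _ => 1, Cfsg.Agent.Lib.CharBurnside.isIrrCharacter_one⟩
      have := h5.elim ⟨⟨τ, hτ⟩, hτα⟩ ⟨one, rfl⟩
      exact hτ1 (congrArg (fun z => (z.1 : K → ℂ)) this)
    · intro hg n
      have := hτc n ⟨g, hg⟩
      exact this
  have hcard : Nat.card {g : G // ∀ n : K, τ ⟨g * n * g⁻¹, hKN.conj_mem n n.2 g⟩ = τ n} = Nat.card K := by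
    apply Nat.card_congr
    exact Equiv.subtypeEquivRight hstab
  rw [hcard] at hcount
  exact mul_left_cancel₀ hK0 (by rw [hcount, mul_one])

end Cfsg.Agent.S0171
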