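import Cfsg.Statements.S0172
import Cfsg.Agent.Lib.CharFrob

set_option autoImplicit false
set_option linter.style.haveILetI false
set_option linter.unusedVariables false
open scoped ComplexConjugate
open Cfsg

namespace Cfsg.Agent.S0172

/-- Class number of a Frobenius group: if G = K H with K normal, K ⊓ H trivial and no non-identity element of H commuting with a non-identity element of K, then |H| * k(G) + 1 = |H| * k(H) + k(K), where k denotes the number of conjugacy classes. -/
theorem result {G : Type*} [Group G] [Finite G] (K H : Subgroup G) [K.Normal] (hKH : K ⊓ H = ⊥) (hKH' : K ⊔ H = ⊤) (hfpf : ∀ h ∈ H, h ≠ 1 → ∀ k ∈ K, h * k = k * h → k = 1) : Nat.card H * Nat.card (ConjClasses G) + 1 = Nat.card H * Nat.card (ConjClasses H) + Nat.card (ConjClasses K) := by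
  classical
  cases nonempty_fintype G
  letI : Fintype K := Fintype.ofFinite _
  letI : Fintype H := Fintype.ofFinite _
  open Cfsg.Agent.Lib.CharFrob in
  -- class number as a sum of centralizer orders
  have hsumc : ∀ (L : Type _) [Group L] [Fintype L], ∑ g : L, Nat.card (Subgroup.centralizer ({g} : Set L)) =
      Nat.card (ConjClasses L) * Nat.card L := by
    intro L _ _
    rw [← card_comm_eq_card_conjClasses_mul_card]
    have e : {p : L × L // Commute p.1 p.2} ≃ Σ g : L, Subgroup.centralizer ({g} : Set L) :=
      { toFun := fun p => ⟨p.1.1, ⟨p.1.2, by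
          rw [Subgroup.mem_centralizer_iff]
          intro y hy
          rw [Set.mem_singleton_iff.mp hy]
          exact p.2⟩⟩
        invFun := fun q => ⟨(q.1, q.2.1), by
          have := Subgroup.mem_centralizer_iff.mp q.2.2 q.1 (Set.mem_singleton _)
          exact this⟩
        left_inv := fun p => rfl
        right_inv := fun q => rfl }
    rw [Nat.card_congr e, Nat.card_sigma]
  have hmemC : ∀ (L : Type _) [Group L] (a b : L), b ∈ Subgroup.centralizer ({a} : Set L) ↔ a * b = b * a := by
    intro L _ a b
    rw [Subgroup.mem_centralizer_iff]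
    constructor
    · intro h
      exact h a (Set.mem_singleton a)
    · intro h y hy
      rw [Set.mem_singleton_iff.mp hy]
      exact h
  let F : G → ℕ := fun g => Nat.card (Subgroup.centralizer ({g} : Set G))
  have hFconj : ∀ g x : G, F (x * g * x⁻¹) = F g := by
    intro g x
    apply Nat.card_congr
    refine Equiv.subtypeEquiv (MulAut.conj x⁻¹).toEquiv fun y => ?_
    simp only [MulEquiv.toEquiv_eq_coe, EquivLike.coe_coe, MulAut.conj_apply, inv_inv]
    rw [hmemC, hmemC]
    constructor
    · intro h
      calc g * (x⁻¹ * y * x) = x⁻¹ * (x * g * x⁻¹ * y) * x := by group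
        _ = x⁻¹ * (y * (x * g * x⁻¹)) * x := by rw [h]
        _ = x⁻¹ * y * x * g := by group
    · intro h
      calc x * g * x⁻¹ * y = x * (g * (x⁻¹ * y * x)) * x⁻¹ := by group
        _ = x * (x⁻¹ * y * x * g) * x⁻¹ := by rw [h]
        _ = y * (x * g * x⁻¹) := by group
  -- on K \ 1
  have hFK : ∀ k : K, k ≠ 1 → F k = Nat.card (Subgroup.centralizer ({k} : Set K)) := by
    intro k hk
    have hk' : (k : G) ≠ 1 := fun h => hk (Subtype.ext h)
    symm
    apply Nat.card_congr
    refine ⟨fun y => ⟨(y.1 : G), ?_⟩, fun y => ⟨⟨y.1, ?_⟩, ?_⟩, fun y => rfl, fun y => rfl⟩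
    · have := (hmemC K k y.1).mp y.2
      exact (hmemC G _ _).mpr (congrArg Subtype.val this)
    · have := (hmemC G _ _).mp y.2
      exact centralizer_le_kernel K H hKH' hfpf k.2 hk' this.symm
    · apply (hmemC K _ _).mpr
      apply Subtype.ext
      exact (hmemC G _ _).mp y.2
  -- on H \ 1
  have hFH : ∀ h : H, h ≠ 1 → F h = Nat.card (Subgroup.centralizer ({h} : Set H)) := by
    intro h hh
    have hh' : (h : G) ≠ 1 := fun e => hh (Subtype.ext e)
    symm
    apply Nat.card_congr
    refine ⟨fun y => ⟨(y.1 : G), ?_⟩, fun y => ⟨⟨y.1, ?_⟩, ?_⟩, fun y => rfl, fun y => rfl⟩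
    · have := (hmemC H h y.1).mp y.2
      exact (hmemC G _ _).mpr (congrArg Subtype.val this)
    · have := (hmemC G _ _).mp y.2
      exact centralizer_le_complement K H hKH hKH' hfpf h.2 hh' this.symm
    · apply (hmemC H _ _).mpr
      apply Subtype.ext
      exact (hmemC G _ _).mp y.2
  have hF1 : F 1 = Nat.card G := by
    have : Subgroup.centralizer ({(1 : G)} : Set G) = ⊤ := by
      ext x
      rw [hmemC]
      simp
    show Nat.card (Subgroup.centralizer ({(1 : G)} : Set G)) = _
    rw [this, Subgroup.card_top]
  have hcentop : ∀ (L : Type _) [Group L] [Fintype L], Nat.card (Subgroup.centralizer ({(1 : L)} : Set L)) = Nat.card L := by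
    intro L _ _
    have : Subgroup.centralizer ({(1 : L)} : Set L) = ⊤ := by
      ext x
      rw [hmemC]
      simp
    rw [this, Subgroup.card_top]
  -- on cosets
  have hFcoset : ∀ (k : K) (h : H), h ≠ 1 → F ((k : G) * h) = F h := by
    intro k h hh
    have hh' : (h : G) ≠ 1 := fun e => hh (Subtype.ext e)
    obtain ⟨z, hz, hzc⟩ := frob_conj K (h := (h : G)) (fun y hy hc => hfpf h h.2 hh' y hy hc) k.2
    rw [hzc, hFconj]
  -- assemble
  let A := ∑ k ∈ Finset.univ.erase (1 : K), Nat.card (Subgroup.centralizer ({k} : Set K))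
  let B := ∑ h ∈ Finset.univ.erase (1 : H), Nat.card (Subgroup.centralizer ({h} : Set H))
  have hA : Nat.card (ConjClasses K) * Nat.card K = Nat.card K + A := by
    rw [← hsumc K, ← Finset.add_sum_erase _ _ (Finset.mem_univ (1 : K)), hcentop K]
  have hB : Nat.card (ConjClasses H) * Nat.card H = Nat.card H + B := by
    rw [← hsumc H, ← Finset.add_sum_erase _ _ (Finset.mem_univ (1 : H)), hcentop H]
  have hG : Nat.card (ConjClasses G) * Nat.card G = Nat.card G + A + Nat.card K * B := by
    rw [← hsumc G, ← Equiv.sum_comp (prodEquiv K H hKH hKH')]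
    simp only [prodEquiv_apply]
    rw [Fintype.sum_prod_type_right]
    rw [← Finset.add_sum_erase _ _ (Finset.mem_univ (1 : H))]
    have h1 : ∑ k : K, Nat.card (Subgroup.centralizer ({(k : G) * ((1 : H) : G)} : Set G)) = Nat.card G + A := by
      rw [← Finset.add_sum_erase _ _ (Finset.mem_univ (1 : K))]
      simp only [OneMemClass.coe_one, mul_one]
      rw [hcentop G]
      congr 1
      refine Finset.sum_congr rfl fun k hk => hFK k (Finset.mem_erase.mp hk).1
    have h2 : ∑ h ∈ Finset.univ.erase (1 : H), ∑ k : K, Nat.card (Subgroup.centralizer ({(k : G) * (h : G)} : Set G)) = Nat.card K * B := by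
      simp only [B]
      rw [Finset.mul_sum]
      refine Finset.sum_congr rfl fun h hh => ?_
      have hh1 := (Finset.mem_erase.mp hh).1
      have : ∀ k : K, Nat.card (Subgroup.centralizer ({(k : G) * (h : G)} : Set G)) = Nat.card (Subgroup.centralizer ({h} : Set H)) := by
        intro k
        rw [← hFH h hh1]
        exact hFcoset k h hh1
      simp only [this, Finset.sum_const, Finset.card_univ, ← Nat.card_eq_fintype_card, smul_eq_mul]
    rw [h1, h2]
  have hcard : Nat.card G = Nat.card K * Nat.card H := by
    rw [Nat.card_congr (prodEquiv K H hKH hKH').symm, Nat.card_prod]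
  have hK0 : 0 < Nat.card K := Nat.card_pos
  apply Nat.eq_of_mul_eq_mul_left hK0
  rw [hcard] at hG
  nlinarith

end Cfsg.Agent.S0172
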