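import Cfsg.Statements.S0175
import Cfsg.Agent.S0136
import Cfsg.Agent.Lib.CharNormal

set_option autoImplicit false
set_option linter.style.haveILetI false
set_option linter.unusedVariables false
open scoped ComplexConjugate
open Cfsg

namespace Cfsg.Agent.S0175

/-- Taketa's Theorem on M-groups: if every irreducible complex character of a finite group is induced from a linear character (a homomorphism to ℂˣ) of some subgroup, the group is solvable. -/
theorem result {G : Type*} [Group G] [Fintype G] (hM : ∀ χ : G → ℂ, Cfsg.IsIrrCharacter G χ → ∃ (H : Subgroup G) (lam : H →* ℂˣ), χ = Cfsg.indFun H (fun h => (lam h : ℂ))) : Group.IsSolvable G := by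
  classical
  open Cfsg.Agent.Lib.CharOps Cfsg.Agent.Lib.CharAb Cfsg.Agent.Lib.CharIrr in
  have key : ∀ d : ℕ, ∀ χ : G → ℂ, Cfsg.IsIrrCharacter G χ → χ 1 = (d : ℂ) →
      ∀ x ∈ derivedSeries G d, χ x = χ 1 := by
    intro d
    induction d using Nat.strong_induction_on with
    | _ d ih =>
      intro χ hχ hd x hx
      have hχc := IsIrrCharacter.isCharacter' hχ
      by_cases hd1 : d ≤ 1
      · -- linear case
        have hd0 : d ≠ 0 := by
          rintro rfl
          exact degree_ne_zero hχ (by simpa using hd)
        have hd2 : d = 1 := by omega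
        subst hd2
        have h1 : χ 1 = 1 := by simpa using hd
        rw [derivedSeries_one] at hx
        have hk := Abelianization.commutator_subset_ker (homOfDegreeOne hχc h1) hx
        have hk2 : homOfDegreeOne hχc h1 x = 1 := hk
        have := congrArg (fun u : ℂˣ => (u : ℂ)) hk2
        simp only [homOfDegreeOne_apply, Units.val_one] at this
        rw [this, h1]
      · obtain ⟨k, rfl⟩ : ∃ k, d = k + 1 := ⟨d - 1, by omega⟩
        have hk1 : 1 ≤ k := by omega
        obtain ⟨H, l, hl⟩ := hM χ hχ
        letI : Fintype H := Fintype.ofFinite _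
        have hl1 : ((l 1 : ℂˣ) : ℂ) = 1 := by simp
        have hindex : (H.index : ℂ) = ((k + 1 : ℕ) : ℂ) := by
          rw [← hd, hl, indFun_one, hl1, mul_one]
        have hindex' : H.index = k + 1 := by exact_mod_cast hindex
        -- the permutation character
        let π : G → ℂ := Cfsg.indFun H (fun _ => 1)
        have hπ : Cfsg.IsCharacter G π := isCharacter_indFun H isCharacter_one
        have hπ1 : π 1 = ((k + 1 : ℕ) : ℂ) := by
          show Cfsg.indFun H (fun _ => (1 : ℂ)) 1 = _
          rw [indFun_one, mul_one, hindex]
        have hπone : Cfsg.classInner π (fun _ => (1 : ℂ)) = ((1 : ℕ) : ℂ) := by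
          show Cfsg.classInner (Cfsg.indFun H (fun _ => (1 : ℂ))) (fun _ => (1 : ℂ)) = _
          rw [frobenius_reciprocity H _ (IsCharacter.isClassFunction' isCharacter_one), Cfsg.classInner]
          simp only [map_one, mul_one, Finset.sum_const, Finset.card_univ, ← Nat.card_eq_fintype_card, nsmul_eq_mul]
          have : (Nat.card H : ℂ) ≠ 0 := by exact_mod_cast Nat.card_pos.ne'
          field_simp
          simp
        have hπ' := sub_isCharacter hπ Cfsg.Agent.Lib.CharBurnside.isIrrCharacter_one 1 hπone
        set π' := π - ((1 : ℕ) : ℂ) • (fun _ : G => (1 : ℂ)) with hπ'def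
        have hπ'1 : π' 1 = (k : ℂ) := by
          simp only [hπ'def, Pi.sub_apply, Pi.smul_apply, hπ1]
          push_cast
          simp
        have hDk : ∀ y ∈ derivedSeries G k, π y = π 1 := by
          intro y hy
          have hexp := classFunction_expand (IsCharacter.isClassFunction' hπ)
          have hval : ∀ z, π z = ∑ ξ : Cfsg.IrrCharacter G, Cfsg.classInner π ξ * (ξ : G → ℂ) z := by
            intro z
            conv_lhs => rw [hexp]
            simp
          rw [hval y, hval 1]
          refine Finset.sum_congr rfl fun ξ _ => ?_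
          by_cases h0 : Cfsg.classInner π ξ = 0
          · rw [h0, zero_mul, zero_mul]
          congr 1
          -- degree of ξ at most k
          have hξdeg : deg ξ ≤ k := by
            by_cases hξ1 : (ξ : G → ℂ) = fun _ => 1
            · have : (deg ξ : ℂ) = 1 := by
                rw [← apply_one_eq_deg, hξ1]
              have h2 : deg ξ = 1 := by exact_mod_cast this
              omega
            · have h3 : Cfsg.classInner π' (ξ : G → ℂ) ≠ 0 := by
                have h4 : Cfsg.classInner π' (ξ : G → ℂ) = Cfsg.classInner π ξ - Cfsg.classInner (fun _ => (1 : ℂ)) (ξ : G → ℂ) := by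
                  rw [hπ'def, sub_eq_add_neg, classInner_add_left, ← neg_smul, classInner_smul_left]
                  push_cast
                  ring
                rw [h4, classInner_irr Cfsg.Agent.Lib.CharBurnside.isIrrCharacter_one ξ.2, if_neg (fun h => hξ1 h.symm), sub_zero]
                exact h0
              exact degree_le_of_inner hπ' ξ.2 h3 k (deg ξ) hπ'1 (apply_one_eq_deg ξ)
          have hmem : y ∈ derivedSeries G (deg ξ) := derivedSeries_antitone G hξdeg hy
          exact ih (deg ξ) (by omega) ξ ξ.2 (apply_one_eq_deg ξ) y hmem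
        -- so D_k ≤ H
        have hle : derivedSeries G k ≤ H := by
          intro y hy
          have h1 := hDk y hy
          have hG0 : (Nat.card H : ℂ) ≠ 0 := by exact_mod_cast Nat.card_pos.ne'
          have hcG : Nat.card H * H.index = Nat.card G := Subgroup.card_mul_index H
          rw [hπ1] at h1
          have h2 : (∑ z : G, Cfsg.extendByZero H (fun _ => (1 : ℂ)) (z⁻¹ * y * z)) = (Nat.card G : ℂ) := by
            have h3 : π y = (Nat.card H : ℂ)⁻¹ * ∑ z : G, Cfsg.extendByZero H (fun _ => (1 : ℂ)) (z⁻¹ * y * z) := rfl
            rw [h3, ← hindex] at h1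
            field_simp at h1
            rw [h1, ← hcG]
            push_cast
            ring
          have h4 : ∀ z : G, Cfsg.extendByZero H (fun _ => (1 : ℂ)) (z⁻¹ * y * z) = if z⁻¹ * y * z ∈ H then 1 else 0 := by
            intro z
            split_ifs with hz
            · rw [extendByZero_of_mem _ _ hz]
            · rw [extendByZero_of_not_mem _ _ hz]
          simp only [h4] at h2
          rw [Finset.sum_boole] at h2
          have h5 : (Finset.univ.filter (fun z : G => z⁻¹ * y * z ∈ H)).card = (Finset.univ : Finset G).card := by
            rw [Finset.card_univ, ← Nat.card_eq_fintype_card]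
            exact_mod_cast h2
          have h6 := Finset.filter_card_eq h5 (1 : G) (Finset.mem_univ _)
          simpa using h6
        -- the value at x
        have hcomm : derivedSeries G (k + 1) ≤ (l.ker).map H.subtype := by
          rw [derivedSeries_succ, Subgroup.commutator_le]
          intro a ha b hb
          refine ⟨(⟨a, hle ha⟩ : H) * (⟨b, hle hb⟩ : H) * (⟨a, hle ha⟩ : H)⁻¹ * (⟨b, hle hb⟩ : H)⁻¹, ?_, rfl⟩
          rw [SetLike.mem_coe, MonoidHom.mem_ker, map_mul, map_mul, map_mul, map_inv, map_inv,
            mul_comm (l ⟨a, hle ha⟩)]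
          group
        have hnorm := derivedSeries_normal G (k + 1)
        have hval : ∀ z : G, Cfsg.extendByZero H (fun h => ((l h : ℂˣ) : ℂ)) (z⁻¹ * x * z) = 1 := by
          intro z
          have hz : z⁻¹ * x * z ∈ derivedSeries G (k + 1) := by
            have := hnorm.conj_mem x hx z⁻¹
            simpa using this
          obtain ⟨u, hu, hue⟩ := hcomm hz
          have hu1 : l u = 1 := hu
          have hum : z⁻¹ * x * z ∈ H := by
            rw [← hue]
            exact u.2
          rw [extendByZero_of_mem _ _ hum]
          have : (⟨z⁻¹ * x * z, hum⟩ : H) = u := Subtype.ext hue.symm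
          rw [this, hu1]
          simp
        rw [hd, hl, indFun_apply]
        simp only [hval, Finset.sum_const, Finset.card_univ, ← Nat.card_eq_fintype_card, nsmul_eq_mul, mul_one]
        have hG0 : (Nat.card H : ℂ) ≠ 0 := by exact_mod_cast Nat.card_pos.ne'
        have hcG : Nat.card H * H.index = Nat.card G := Subgroup.card_mul_index H
        rw [← hcG, hindex']
        push_cast
        field_simp
  refine ⟨⟨Nat.card G, ?_⟩⟩
  rw [eq_bot_iff]
  intro x hx
  rw [Subgroup.mem_bot]
  have hconj : IsConj x 1 := by
    rw [Cfsg.Agent.S0136.result]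
    intro χ
    have hle : deg χ ≤ Nat.card G := by
      have h1 := Finset.single_le_sum (f := fun ψ => deg ψ ^ 2) (fun _ _ => Nat.zero_le _) (Finset.mem_univ χ)
      rw [sum_deg_sq] at h1
      exact le_trans (Nat.le_self_pow (by norm_num) _) h1
    exact key (deg χ) χ χ.2 (apply_one_eq_deg χ) x (derivedSeries_antitone G hle hx)
  exact isConj_one_right.mp hconj.symm

end Cfsg.Agent.S0175
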