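import Cfsg.Statements.S0177
import Cfsg.Agent.Lib.CharGen

set_option autoImplicit false
set_option linter.style.haveILetI false
set_option linter.unusedVariables false
open Cfsg

namespace Cfsg.Agent.S0177

/-- The Artin induction Theorem: for a character χ of a finite group, |G| • χ is a ℤ-linear combination of functions induced from homomorphisms of cyclic subgroups into ℂˣ. -/
theorem result {G : Type*} [Group G] [Fintype G] (χ : G → ℂ) (hχ : Cfsg.IsCharacter G χ) : ∃ l : List ((A : Subgroup G) × ((A →* ℂˣ) × ℤ)), (∀ t ∈ l, IsCyclic t.1) ∧ (Nat.card G : ℂ) • χ = (l.map fun t => (t.2.2 : ℂ) • Cfsg.indFun t.1 (fun a => (t.2.1 a : ℂ))).sum := by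
  classical
  letI : Fintype (Subgroup G) := Fintype.ofFinite _
  open Cfsg.Agent.Lib.CharOps Cfsg.Agent.Lib.CharAb Cfsg.Agent.Lib.CharGen in
  let P : (G → ℂ) → Prop := fun f => ∃ l : List ((A : Subgroup G) × ((A →* ℂˣ) × ℤ)),
    (∀ t ∈ l, IsCyclic t.1) ∧ f = (l.map fun t => (t.2.2 : ℂ) • Cfsg.indFun t.1 (fun a => (t.2.1 a : ℂ))).sum
  have hP0 : P 0 := ⟨[], by simp, by simp⟩
  have hPadd : ∀ f g, P f → P g → P (f + g) := by
    rintro f g ⟨l₁, h₁, rfl⟩ ⟨l₂, h₂, rfl⟩
    refine ⟨l₁ ++ l₂, ?_, by simp⟩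
    intro t ht
    rcases List.mem_append.mp ht with h | h
    · exact h₁ t h
    · exact h₂ t h
  have hPsum : ∀ {ι : Type _} (s : Finset ι) (f : ι → G → ℂ), (∀ i ∈ s, P (f i)) → P (∑ i ∈ s, f i) := by
    intro ι s f hf
    classical
    induction s using Finset.induction_on with
    | empty => simpa using hP0
    | insert a s ha ih =>
      rw [Finset.sum_insert ha]
      exact hPadd _ _ (hf a (Finset.mem_insert_self _ _)) (ih fun i hi => hf i (Finset.mem_insert_of_mem hi))
  have hPz : ∀ (A : Subgroup G) (_ : IsCyclic A) (l : A →* ℂˣ) (z : ℤ),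
      P ((z : ℂ) • Cfsg.indFun A (fun a => (l a : ℂ))) := by
    intro A hA l z
    exact ⟨[⟨A, l, z⟩], by simpa using hA, by simp⟩
  have hPgen : ∀ (A : Subgroup G) (_ : IsCyclic A) (γ : A → ℂ), Cfsg.IsGeneralizedCharacter A γ →
      P (Cfsg.indFun A γ) := by
    intro A hA γ hγ
    letI : Fintype A := Fintype.ofFinite _
    obtain ⟨n, rfl⟩ := gen_expand hγ
    rw [indFun_sum]
    apply hPsum
    intro ψ _
    rw [indFun_smul]
    have hcomm : ∀ a b : A, a * b = b * a := fun a b => (IsCyclic.isMulCommutative (α := A)).is_comm.comm a b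
    have hψ1 : (ψ : A → ℂ) 1 = 1 := commutative_iff_apply_one.mp hcomm ψ
    exact hPz A hA (homOfDegreeOne (IsIrrCharacter.isCharacter' ψ.2) hψ1) (n ψ)
  have hχc := IsCharacter.isClassFunction' hχ
  have hmain : (Nat.card G : ℂ) • χ = ∑ A : Subgroup G, Cfsg.indFun A (fun a => artinFun A a * χ a) := by
    funext g
    simp only [Pi.smul_apply, smul_eq_mul, Finset.sum_apply]
    simp only [indFun_mul_restrict _ _ hχc]
    rw [← Finset.sum_mul, sum_ind_artinFun]
  rw [hmain]
  apply hPsum
  intro A _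
  by_cases hA : IsCyclic A
  · apply hPgen A hA
    letI : Fintype A := Fintype.ofFinite _
    exact isGen_mul (isGen_artinFun _ A rfl) (isGen_restrict A (isGen_of_char hχ))
  · have h0 : (fun a : A => artinFun A a * χ a) = 0 := by
      funext a
      have : artinFun A a = 0 := by
        rw [artinFun, if_neg]
        intro h
        apply hA
        refine ⟨⟨a, fun x => ?_⟩⟩
        have hx : x ∈ Subgroup.zpowers a := by
          rw [h]
          trivial
        exact Subgroup.mem_zpowers_iff.mp hx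
      simp [this]
    rw [h0, indFun_zero]
    exact hP0

end Cfsg.Agent.S0177
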