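import Cfsg.Statements.S0178
import Cfsg.Agent.Lib.CharAb

set_option autoImplicit false
open Cfsg

namespace Cfsg.Agent.S0178

/-- The degree of an irreducible complex representation of a finite group is at most the index of any abelian subgroup. -/
theorem result {G : Type*} [Group G] [Finite G] {V : Type*} [AddCommGroup V] [Module ℂ V] [FiniteDimensional ℂ V] (ρ : Representation ℂ G V) [ρ.IsIrreducible] (A : Subgroup G) (hA : ∀ a ∈ A, ∀ b ∈ A, a * b = b * a) : Module.finrank ℂ V ≤ A.index := by
  classical
  cases nonempty_fintype G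
  letI : Fintype A := Fintype.ofFinite _
  open Cfsg.Agent.Lib.CharOps Cfsg.Agent.Lib.CharAb in
  have hd : (ρ.character 1) = (Module.finrank ℂ V : ℂ) := Representation.char_one ρ
  have hχ := Cfsg.Agent.Lib.CharBasic.isIrrCharacter_character ρ ‹_›
  have hpos : 0 < Module.finrank ℂ V := Cfsg.Agent.Lib.CharBasic.finrank_pos_of_irreducible ρ ‹_›
  have hres := isCharacter_restrict A (IsIrrCharacter.isCharacter' hχ)
  have hne : (fun x : A => ρ.character x) 1 ≠ 0 := by
    simp only [OneMemClass.coe_one]
    rw [hd]
    exact_mod_cast hpos.ne'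
  obtain ⟨lam, hlam, hin⟩ := exists_constituent hres hne
  have habel : ∀ a b : A, a * b = b * a := fun a b => Subtype.ext (hA a a.2 b b.2)
  have hdeg1 : lam 1 = 1 := (commutative_iff_apply_one.mp habel) ⟨lam, hlam⟩
  -- inner product with the induced character
  have hind := isCharacter_indFun A (IsIrrCharacter.isCharacter' hlam)
  have hin2 : Cfsg.classInner (Cfsg.indFun A lam) ρ.character ≠ 0 := by
    rw [frobenius_reciprocity A lam (IsCharacter.isClassFunction' (IsIrrCharacter.isCharacter' hχ))]
    intro h0
    apply hin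
    rw [← Cfsg.Agent.Lib.CharIrr.classInner_conj, h0]
    simp
  exact degree_le_of_inner hind hχ hin2 _ _ (by rw [indFun_one, hdeg1, mul_one]) hd

end Cfsg.Agent.S0178
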