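import Cfsg.Statements.S0180
import Cfsg.Agent.Lib.CharGalois
import Cfsg.Agent.S0136

set_option autoImplicit false
set_option linter.style.haveILetI false
set_option linter.unusedVariables false
open Cfsg

namespace Cfsg.Agent.S0180

/-- Every irreducible complex character of a finite group takes only rational values if and only if g is conjugate to g ^ m for every element g and every m coprime to the group order. -/
theorem result {G : Type*} [Group G] [Finite G] : (∀ χ : Cfsg.IrrCharacter G, ∀ g : G, ∃ q : ℚ, (χ : G → ℂ) g = (q : ℂ)) ↔ ∀ m : ℕ, m.Coprime (Nat.card G) → ∀ g : G, IsConj g (g ^ m) := by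
  classical
  cases nonempty_fintype G
  have hn : Nat.card G ≠ 0 := Nat.card_pos.ne'
  constructor
  · intro hrat m hm g
    obtain ⟨σ, hσ⟩ := Cfsg.Agent.Lib.CharGalois.exists_algHom hn hm
    rw [Cfsg.Agent.S0136.result]
    rintro ⟨χ, n, ρ, hρ, rfl⟩
    obtain ⟨q, hq⟩ := hrat ⟨ρ.character, n, ρ, hρ, rfl⟩ g
    change ρ.character g = ρ.character (g ^ m)
    rw [← Cfsg.Agent.Lib.CharGalois.algHom_character ρ g m σ hσ]
    change ρ.character g = q at hq
    have h2 : (⟨ρ.character g, Cfsg.Agent.Lib.CharGalois.character_mem ρ g⟩ :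
        Cfsg.Agent.Lib.CharGalois.cyc (Nat.card G)) = algebraMap ℚ _ q := by
      apply Subtype.ext
      simpa using hq
    rw [h2, AlgHom.commutes, hq]
    rfl
  · rintro h ⟨χ, n, ρ, hρ, rfl⟩ g
    change ∃ q : ℚ, ρ.character g = q
    apply Cfsg.Agent.Lib.CharGalois.exists_rat_of_fixed hn
      ⟨ρ.character g, Cfsg.Agent.Lib.CharGalois.character_mem ρ g⟩
    intro σ
    obtain ⟨m, hm, hσ⟩ := Cfsg.Agent.Lib.CharGalois.exists_coprime hn σ
    rw [Cfsg.Agent.Lib.CharGalois.algHom_character ρ g m σ hσ]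
    exact ((Cfsg.Agent.S0136.result g (g ^ m)).mp (h m hm g) ⟨ρ.character, n, ρ, hρ, rfl⟩).symm

end Cfsg.Agent.S0180
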