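import Cfsg.Statements.S0181
import Cfsg.Agent.Lib.CharPerm

set_option autoImplicit false
set_option linter.style.haveILetI false
set_option linter.unusedVariables false
open scoped ComplexConjugate
open Cfsg

namespace Cfsg.Agent.S0181

/-- Let H be a normal subgroup of a finite group G and ρ an irreducible complex representation whose kernel does not contain H. If g commutes with no non-identity element of H, then the character of ρ vanishes at g. -/
theorem result {G : Type*} [Group G] [Finite G] {V : Type*} [AddCommGroup V] [Module ℂ V] [FiniteDimensional ℂ V] (ρ : Representation ℂ G V) [ρ.IsIrreducible] (H : Subgroup G) [H.Normal] (hker : ∃ h ∈ H, ρ h ≠ LinearMap.id) (g : G) (hg : ∀ h ∈ H, h * g = g * h → h = 1) : ρ.character g = 0 := by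
  classical
  cases nonempty_fintype G
  letI : Fintype H := Fintype.ofFinite _
  -- the fixed space
  let S : Subrepresentation ρ :=
    { toSubmodule :=
        { carrier := {v | ∀ h ∈ H, ρ h v = v}
          add_mem' := fun {a b} ha hb h hh => by rw [map_add, ha h hh, hb h hh]
          zero_mem' := fun h _ => map_zero _
          smul_mem' := fun c v hv h hh => by rw [map_smul, hv h hh] }
      apply_mem_toSubmodule := by
        intro g v hv h hh
        have h1 : g⁻¹ * h * g ∈ H := by
          have := ‹H.Normal›.conj_mem h hh g⁻¹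
          simpa using this
        have h2 := hv _ h1
        have h3 : h * g = g * (g⁻¹ * h * g) := by group
        show ρ h (ρ g v) = ρ g v
        rw [← Module.End.mul_apply, ← map_mul, h3, map_mul, Module.End.mul_apply, h2] }
  have hS : S = ⊥ := by
    refine (IsSimpleOrder.eq_bot_or_eq_top S).resolve_right ?_
    intro htop
    obtain ⟨h, hh, hne⟩ := hker
    apply hne
    refine LinearMap.ext fun v => ?_
    have : v ∈ S.toSubmodule := by rw [htop]; exact Submodule.mem_top
    exact this h hh
  -- the average operator vanishes
  have hP : ∀ v, ∑ h : H, ρ (h : G) v = 0 := by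
    intro v
    have : ∑ h : H, ρ (h : G) v ∈ S.toSubmodule := by
      intro k hk
      rw [map_sum]
      refine Fintype.sum_equiv (Equiv.mulLeft (⟨k, hk⟩ : H)) _ _ fun h => ?_
      rw [← Module.End.mul_apply, ← map_mul]
      rfl
    rw [hS] at this
    exact this
  -- all elements of the coset are conjugate to g
  have hconj : ∀ h : H, ρ.character ((h : G) * g) = ρ.character g := by
    intro h
    let φ : H → H := fun x => ⟨x⁻¹ * (g * (x : G) * g⁻¹), by
      apply H.mul_mem (H.inv_mem x.2)
      exact ‹H.Normal›.conj_mem x x.2 g⟩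
    have hinj : Function.Injective φ := by
      intro x y hxy
      have h1 : (x : G)⁻¹ * (g * x * g⁻¹) = (y : G)⁻¹ * (g * y * g⁻¹) := congrArg Subtype.val hxy
      have h2 : (x : G) * (y : G)⁻¹ * g = g * ((x : G) * (y : G)⁻¹) := by
        have h3 : g * x * g⁻¹ = x * ((y : G)⁻¹ * (g * y * g⁻¹)) := by
          rw [← h1]
          group
        have h4 : g * ((x : G) * (y : G)⁻¹) * g⁻¹ = (g * x * g⁻¹) * (g * y * g⁻¹)⁻¹ := by group
        have h5 : g * ((x : G) * (y : G)⁻¹) * g⁻¹ = (x : G) * (y : G)⁻¹ := by
          rw [h4, h3]
          group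
        calc (x : G) * (y : G)⁻¹ * g = g * ((x : G) * (y : G)⁻¹) * g⁻¹ * g := by rw [h5]
          _ = g * ((x : G) * (y : G)⁻¹) := by group
      have h6 := hg ((x : G) * (y : G)⁻¹) (H.mul_mem x.2 (H.inv_mem y.2)) h2
      apply Subtype.ext
      exact mul_inv_eq_one.mp h6
    have hsurj : Function.Surjective φ := Finite.surjective_of_injective hinj
    obtain ⟨x, hx⟩ := hsurj h
    have h1 : (h : G) = (x : G)⁻¹ * (g * x * g⁻¹) := by
      rw [← hx]
      rfl
    have h2 : (h : G) * g = (x : G)⁻¹ * g * x := by
      rw [h1]
      group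
    rw [h2]
    have := Representation.char_conj ρ g (x : G)⁻¹
    simpa using this
  -- trace
  have htr : ∑ h : H, ρ.character ((h : G) * g) = 0 := by
    have h1 : ∑ h : H, ρ (h : G) ∘ₗ ρ g = 0 := by
      refine LinearMap.ext fun v => ?_
      rw [LinearMap.sum_apply]
      simpa using hP (ρ g v)
    have h2 := congrArg (LinearMap.trace ℂ V) h1
    rw [map_sum, map_zero] at h2
    rw [← h2]
    refine Finset.sum_congr rfl fun h _ => ?_
    rw [Representation.character, map_mul, Module.End.mul_eq_comp]
  simp only [hconj, Finset.sum_const, Finset.card_univ, ← Nat.card_eq_fintype_card, nsmul_eq_mul] at htr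
  rcases mul_eq_zero.mp htr with h0 | h0
  · exfalso
    have : 0 < Nat.card H := Nat.card_pos
    have h1 : Nat.card H = 0 := by exact_mod_cast h0
    omega
  · exact h0

end Cfsg.Agent.S0181
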