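import Cfsg.Statements.S0184
import Cfsg.Agent.Lib.CharCliff
import Cfsg.Agent.Lib.PGroupBasic

set_option autoImplicit false
set_option linter.style.haveILetI false
set_option linter.unusedVariables false
open scoped ComplexConjugate
open Cfsg

namespace Cfsg.Agent.S0184

/-- A finite p-group admits a faithful irreducible complex representation if and only if its centre is cyclic. -/
theorem result {G : Type*} [Group G] [Finite G] (p : ℕ) [Fact p.Prime] (hG : IsPGroup p G) : (∃ (n : ℕ) (ρ : Representation ℂ G (Fin n → ℂ)), ρ.IsIrreducible ∧ Function.Injective ρ) ↔ IsCyclic (Subgroup.center G) := by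
  classical
  cases nonempty_fintype G
  open Cfsg.Agent.Lib.CharOps Cfsg.Agent.Lib.CharAb Cfsg.Agent.Lib.CharBasic Cfsg.Agent.Lib.CharCliff Cfsg.Agent.Lib.CharDeg Cfsg.Agent.Lib.CharCore Cfsg.Agent.Lib.CharNormal in
  constructor
  · rintro ⟨n, ρ, hρ, hinj⟩
    have hV : Nontrivial (Fin n → ℂ) := Module.finrank_pos_iff.mp (finrank_pos_of_irreducible ρ hρ)
    obtain ⟨v, hv⟩ := exists_ne (0 : Fin n → ℂ)
    have hsc : ∀ z : Subgroup.center G, ∃ c : ℂ, ρ z = c • LinearMap.id := fun z =>
      center_acts_scalar ρ hρ z.2
    choose c hc using hsc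
    have hmul : ∀ a b, c (a * b) = c a * c b := by
      intro a b
      have h1 : ρ ((a * b : Subgroup.center G) : G) = ρ (a : G) * ρ (b : G) := by
        rw [Subgroup.coe_mul, map_mul]
      rw [hc, hc, hc] at h1
      have h2 := LinearMap.congr_fun h1 v
      simp only [LinearMap.smul_apply, Module.End.mul_apply, LinearMap.id_apply, smul_smul] at h2
      have h3 : (c (a * b) - c a * c b) • v = 0 := by rw [sub_smul, h2, sub_self]
      exact sub_eq_zero.mp ((smul_eq_zero.mp h3).resolve_right hv)
    have hone : c 1 = 1 := by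
      have h1 : ρ ((1 : Subgroup.center G) : G) = 1 := by simp
      rw [hc] at h1
      have h2 := LinearMap.congr_fun h1 v
      simp only [LinearMap.smul_apply, LinearMap.id_apply, Module.End.one_apply] at h2
      have h3 : (c 1 - 1) • v = 0 := by rw [sub_smul, h2, one_smul, sub_self]
      exact sub_eq_zero.mp ((smul_eq_zero.mp h3).resolve_right hv)
    let f : Subgroup.center G →* ℂ := { toFun := c, map_one' := hone, map_mul' := hmul }
    have hfinj : Function.Injective f := by
      intro a b hab
      apply Subtype.ext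
      apply hinj
      rw [hc, hc]
      have : c a = c b := hab
      rw [this]
    exact isCyclic_of_subgroup_isDomain f hfinj
  · intro hcyc
    -- an injective hom from the center
    let Z := Subgroup.center G
    haveI : NeZero (Nat.card Z) := ⟨Nat.card_pos.ne'⟩
    have hcard : Nat.card (rootsOfUnity (Nat.card Z) ℂ) = Nat.card Z := by
      rw [Complex.card_rootsOfUnity]
    let e : Z ≃* rootsOfUnity (Nat.card Z) ℂ := mulEquivOfCyclicCardEq hcard.symm
    let l : Z →* ℂˣ := (rootsOfUnity (Nat.card Z) ℂ).subtype.comp e.toMonoidHom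
    have hlinj : Function.Injective l := by
      intro a b hab
      apply e.injective
      exact Subtype.ext hab
    letI : Fintype Z := Fintype.ofFinite _
    have hl := isIrrCharacter_of_hom l
    have hind := isCharacter_indFun Z (IsIrrCharacter.isCharacter' hl)
    have hne : Cfsg.indFun Z (fun z => (l z : ℂ)) 1 ≠ 0 := by
      rw [indFun_one]
      simp only [map_one, Units.val_one, mul_one]
      have : 0 < Z.index := Nat.pos_of_ne_zero Subgroup.index_ne_zero_of_finite
      exact_mod_cast this.ne'
    obtain ⟨χ, hχ, hin⟩ := exists_constituent hind hne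
    have hχc := IsIrrCharacter.isCharacter' hχ
    have hin2 : Cfsg.classInner (fun z : Z => χ z) (fun z => (l z : ℂ)) ≠ 0 := by
      rw [frobenius_reciprocity Z _ (IsCharacter.isClassFunction' hχc), ← Cfsg.Agent.Lib.CharIrr.classInner_conj] at hin
      intro h0
      rw [h0] at hin
      simp at hin
    have hN : Z.Normal := inferInstance
    have hcl := clifford Z hN hχ hl hin2
    have hset : {ψ : Z → ℂ | ∃ g : G, ψ = fun n : Z => (l ⟨g * n * g⁻¹, hN.conj_mem n n.2 g⟩ : ℂ)} = {fun z => (l z : ℂ)} := by
      ext ψ
      simp only [Set.mem_ofPred_eq, Set.mem_singleton_iff]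
      have hcentral : ∀ (g : G) (n : Z), (⟨g * n * g⁻¹, hN.conj_mem n n.2 g⟩ : Z) = n := by
        intro g n
        apply Subtype.ext
        show g * (n : G) * g⁻¹ = n
        rw [Subgroup.mem_center_iff.mp n.2 g]
        group
      constructor
      · rintro ⟨g, rfl⟩
        funext n
        rw [hcentral]
      · rintro rfl
        refine ⟨1, ?_⟩
        funext n
        rw [hcentral]
    rw [hset, finsum_mem_singleton] at hcl
    obtain ⟨n, ρ, hρ, rfl⟩ := hχ
    refine ⟨n, ρ, hρ, ?_⟩
    -- faithful
    rw [← MonoidHom.ker_eq_bot_iff]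
    by_contra hker
    obtain ⟨z, hzk, hz1, hzc⟩ := Cfsg.Agent.Lib.PGroupBasic.exists_ne_one_mem_center_of_normal hG (MonoidHom.ker ρ) hker
    have hρz : ρ z = LinearMap.id := (MonoidHom.mem_ker).mp hzk
    set e' := Cfsg.classInner (fun z : Z => ρ.character z) (fun z => (l z : ℂ)) with he'
    have h1 := congrFun hcl ⟨z, hzc⟩
    have h2 := congrFun hcl 1
    simp only [Pi.smul_apply, smul_eq_mul, map_one, Units.val_one, mul_one, OneMemClass.coe_one] at h1 h2
    have h3 : ρ.character z = ρ.character 1 := by
      rw [Representation.character, hρz, Representation.char_one, LinearMap.trace_id]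
    rw [h3, h2] at h1
    have he0 : e' ≠ 0 := hin2
    have h4 : ((l ⟨z, hzc⟩ : ℂˣ) : ℂ) = 1 := by
      exact mul_left_cancel₀ he0 (h1.symm.trans (mul_one e').symm)
    have h5 : l ⟨z, hzc⟩ = 1 := Units.ext h4
    have h6 : (⟨z, hzc⟩ : Z) = 1 := hlinj (by rw [h5, map_one])
    exact hz1 (congrArg Subtype.val h6)

end Cfsg.Agent.S0184
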