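import Cfsg.Statements.S0185
import Cfsg.Agent.Lib.CharPerm
import Cfsg.Agent.Lib.CharEquiv

set_option autoImplicit false
set_option linter.style.haveILetI false
set_option linter.unusedVariables false
open Cfsg

namespace Cfsg.Agent.S0185

/-- If a finite group has a faithful complex representation of degree less than the smallest prime dividing its order, the group is abelian. -/
theorem result {G : Type*} [Group G] [Finite G] {V : Type*} [AddCommGroup V] [Module ℂ V] [FiniteDimensional ℂ V] (ρ : Representation ℂ G V) (hfaithful : Function.Injective ρ) (hdeg : ∀ p : ℕ, p.Prime → p ∣ Nat.card G → Module.finrank ℂ V < p) (a b : G) : a * b = b * a := by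
  classical
  cases nonempty_fintype G
  -- the statement for all representations in the universe of V
  let P : ∀ (W : Type _) [AddCommGroup W] [Module ℂ W] [FiniteDimensional ℂ W], Representation ℂ G W → Prop :=
    fun W _ _ _ σ => (∀ p : ℕ, p.Prime → p ∣ Nat.card G → Module.finrank ℂ W < p) → σ (a * b) = σ (b * a)
  have key : P V ρ := by
    refine Cfsg.Agent.Lib.CharBasic.rep_induction (G := G) P ?_ ?_ ?_ V ρ
    · intro W _ _ _ σ hs _
      exact LinearMap.ext fun v => Subsingleton.elim _ _
    · intro W _ _ _ σ hσ hdeg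
      have hdvd := Cfsg.Agent.Lib.CharInt.finrank_dvd_card σ hσ
      have hpos := Cfsg.Agent.Lib.CharBasic.finrank_pos_of_irreducible σ hσ
      have hone : Module.finrank ℂ W = 1 := by
        by_contra hne
        obtain ⟨p, hp, hpd⟩ := Nat.exists_prime_and_dvd hne
        have := hdeg p hp (hpd.trans hdvd)
        have := Nat.le_of_dvd hpos hpd
        omega
      obtain ⟨v, hv, hspan⟩ := (finrank_eq_one_iff' (K := ℂ) (V := W)).mp hone
      have hsc : ∀ g : G, ∃ c : ℂ, σ g = c • LinearMap.id := by
        intro g
        obtain ⟨c, hc⟩ := hspan (σ g v)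
        refine ⟨c, LinearMap.ext fun w => ?_⟩
        obtain ⟨d, rfl⟩ := hspan w
        simp only [map_smul, ← hc, LinearMap.smul_apply, LinearMap.id_apply]
      obtain ⟨c, hc⟩ := hsc a
      obtain ⟨d, hd⟩ := hsc b
      rw [map_mul, map_mul, hc, hd]
      refine LinearMap.ext fun w => ?_
      simp [smul_smul, mul_comm]
    · intro W _ _ _ σ S S' hcompl hS hS' hdeg
      have hcompl' := Cfsg.Agent.Lib.CharEquiv.isCompl_toSubmodule hcompl
      have h1 : ∀ p : ℕ, p.Prime → p ∣ Nat.card G → Module.finrank ℂ S.toSubmodule < p := fun p hp hd =>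
        lt_of_le_of_lt (Submodule.finrank_le _) (hdeg p hp hd)
      have h2 : ∀ p : ℕ, p.Prime → p ∣ Nat.card G → Module.finrank ℂ S'.toSubmodule < p := fun p hp hd =>
        lt_of_le_of_lt (Submodule.finrank_le _) (hdeg p hp hd)
      have h3 := hS h1
      have h4 := hS' h2
      refine LinearMap.ext fun v => ?_
      obtain ⟨x, y, rfl, _⟩ : ∃ (x : S.toSubmodule) (y : S'.toSubmodule), v = x + y ∧ True := by
        have htop := hcompl'.sup_eq_top
        have hv : v ∈ S.toSubmodule ⊔ S'.toSubmodule := by rw [htop]; exact Submodule.mem_top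
        obtain ⟨x, hx, y, hy, hxy⟩ := Submodule.mem_sup.mp hv
        exact ⟨⟨x, hx⟩, ⟨y, hy⟩, hxy.symm, trivial⟩
      rw [map_add, map_add]
      congr 1
      · exact congrArg Subtype.val (LinearMap.congr_fun h3 x)
      · exact congrArg Subtype.val (LinearMap.congr_fun h4 y)
  apply hfaithful
  exact key hdeg

end Cfsg.Agent.S0185
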