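import Cfsg.Statements.S0186
import Cfsg.Agent.S0185
import Cfsg.Agent.Lib.CharEquiv

set_option autoImplicit false
set_option linter.style.haveILetI false
set_option linter.unusedVariables false
open Cfsg

namespace Cfsg.Agent.S0186

/-- Let G be a finite simple group of order n and p a prime dividing n. If G has more than n / p^2 conjugacy classes, then every Sylow p-subgroup of G is abelian. -/
theorem result {G : Type*} [Group G] [Finite G] [IsSimpleGroup G] (p : ℕ) [Fact p.Prime] (hp : p ∣ Nat.card G) (hmany : Nat.card G < p ^ 2 * Nat.card (ConjClasses G)) (P : Sylow p G) (a b : G) (ha : a ∈ P) (hb : b ∈ P) : a * b = b * a := by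
  classical
  cases nonempty_fintype G
  open Cfsg.Agent.Lib.CharAb Cfsg.Agent.Lib.CharOps Cfsg.Agent.Lib.CharIrr Cfsg.Agent.Lib.CharCore Cfsg.Agent.Lib.CharBasic in
  have hp0 : p.Prime := Fact.out
  by_cases hsq : p ^ 2 ∣ Nat.card G
  · -- find a nonprincipal irreducible of degree smaller than p
    have hex : ∃ χ : Cfsg.IrrCharacter G, (χ : G → ℂ) ≠ (fun _ => 1) ∧ deg χ < p := by
      by_contra hcon
      push Not at hcon
      let one : Cfsg.IrrCharacter G := ⟨fun _ => 1, Cfsg.Agent.Lib.CharBurnside.isIrrCharacter_one⟩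
      have hone : deg one = 1 := by
        have : (deg one : ℂ) = 1 := by rw [← apply_one_eq_deg]
        exact_mod_cast this
      have hsum := sum_deg_sq (G := G)
      rw [← Finset.add_sum_erase _ _ (Finset.mem_univ one), hone] at hsum
      -- write the degrees
      have hge : ∀ χ ∈ Finset.univ.erase one, p ^ 2 ≤ deg χ ^ 2 := by
        intro χ hχ
        apply Nat.pow_le_pow_left
        apply hcon
        intro h
        exact (Finset.mem_erase.mp hχ).1 (Subtype.ext h)
      obtain ⟨E, hE⟩ : ∃ E : ℕ, ∑ χ ∈ Finset.univ.erase one, deg χ ^ 2 = (Finset.univ.erase one).card * p ^ 2 + E := by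
        have := Finset.card_nsmul_le_sum _ _ _ hge
        exact ⟨_, (Nat.add_sub_of_le this).symm⟩
      have hk : (Finset.univ.erase one).card = Nat.card (ConjClasses G) - 1 := by
        rw [Finset.card_erase_of_mem (Finset.mem_univ _), Finset.card_univ, ← Nat.card_eq_fintype_card,
          card_irr]
      have hkpos : 0 < Nat.card (ConjClasses G) := Nat.card_pos
      obtain ⟨k, hk2⟩ : ∃ k, Nat.card (ConjClasses G) = k + 1 := ⟨Nat.card (ConjClasses G) - 1, by omega⟩
      rw [hk2] at hk hmany
      simp only [Nat.add_sub_cancel] at hk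
      rw [hE, hk] at hsum
      -- `|G| = 1 + k p^2 + E < p^2 (k+1)`
      have hlt : 1 + E < p ^ 2 := by
        nlinarith
      have hdvd : p ^ 2 ∣ 1 + E := by
        have h1 : p ^ 2 ∣ 1 ^ 2 + (k * p ^ 2 + E) := by
          rw [hsum]
          exact hsq
        have h2 : 1 ^ 2 + (k * p ^ 2 + E) = (1 + E) + k * p ^ 2 := by ring
        rw [h2] at h1
        exact (Nat.dvd_add_left (Dvd.intro_left k rfl)).mp h1
      have := Nat.le_of_dvd (by omega) hdvd
      omega
    obtain ⟨χ, hχ1, hχd⟩ := hex
    obtain ⟨n, ρ, hρ, hχρ⟩ := χ.2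
    -- faithful
    have hker : MonoidHom.ker ρ = ⊥ := by
      refine ((MonoidHom.normal_ker ρ).eq_bot_or_eq_top).resolve_right ?_
      intro htop
      apply hχ1
      have htriv : ∀ x, ρ x = LinearMap.id := by
        intro x
        have : x ∈ MonoidHom.ker ρ := htop ▸ Subgroup.mem_top x
        exact (MonoidHom.mem_ker).mp this
      have h1 := Cfsg.Agent.Lib.CharBurnside.finrank_eq_one_of_trivial ρ hρ htriv
      rw [← hχρ]
      funext x
      rw [Representation.character, htriv x, LinearMap.trace_id, h1]
      simp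
    have hinj : Function.Injective ρ := (MonoidHom.ker_eq_bot_iff ρ).mp hker
    have hfr : Module.finrank ℂ (Fin n → ℂ) = deg χ := by
      have h2 : (Module.finrank ℂ (Fin n → ℂ) : ℂ) = (deg χ : ℂ) := by
        rw [← apply_one_eq_deg, ← hχρ, Representation.char_one]
      exact_mod_cast h2
    -- restrict to P
    have hres : ∀ x y : (P : Subgroup G), x * y = y * x := by
      apply Cfsg.Agent.S0185.result (ρ.comp (P : Subgroup G).subtype)
      · intro x y hxy
        apply Subtype.ext
        exact hinj hxy
      · intro q hq hqd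
        have hpg : IsPGroup p (P : Subgroup G) := P.isPGroup'
        obtain ⟨m, hm⟩ := (IsPGroup.iff_card.mp hpg)
        rw [hm] at hqd
        have hqp : q = p := (Nat.prime_dvd_prime_iff_eq hq hp0).mp (hq.dvd_of_dvd_pow hqd)
        rw [hqp, hfr]
        exact hχd
    exact congrArg Subtype.val (hres ⟨a, ha⟩ ⟨b, hb⟩)
  · -- Sylow of order dividing p: cyclic
    have hcard : Nat.card (P : Subgroup G) ∣ p := by
      obtain ⟨m, hm⟩ := (IsPGroup.iff_card.mp P.isPGroup')
      have hd : Nat.card (P : Subgroup G) ∣ Nat.card G := Subgroup.card_subgroup_dvd_card _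
      rw [hm] at hd ⊢
      have hle : m ≤ 1 := by
        by_contra h
        push Not at h
        exact hsq ((pow_dvd_pow p (by omega : 2 ≤ m)).trans hd)
      simpa using (pow_dvd_pow p hle)
    have hcomm : ∀ x y : (P : Subgroup G), x * y = y * x := by
      rcases (Nat.dvd_prime hp0).mp hcard with h1 | h1
      · intro x y
        have : Subsingleton (P : Subgroup G) := (Nat.card_eq_one_iff_unique.mp h1).1
        exact Subsingleton.elim _ _
      · have : IsCyclic (P : Subgroup G) := isCyclic_of_prime_card h1
        exact fun x y => (IsCyclic.isMulCommutative (α := (P : Subgroup G))).is_comm.comm x y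
    exact congrArg Subtype.val (hcomm ⟨a, ha⟩ ⟨b, hb⟩)

end Cfsg.Agent.S0186
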