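import Cfsg.Statements.S0188
import Cfsg.Agent.Lib.CharPerm

set_option autoImplicit false
set_option linter.style.haveILetI false
set_option linter.unusedVariables false
open scoped ComplexConjugate
open Cfsg

namespace Cfsg.Agent.S0188

/-- The irreducible complex characters of G × H are precisely the functions (g, h) ↦ φ g * ψ h with φ, ψ irreducible characters of G and H. -/
theorem result {G : Type*} [Group G] [Finite G] {H : Type*} [Group H] [Finite H] (θ : G × H → ℂ) : Cfsg.IsIrrCharacter (G × H) θ ↔ ∃ (φ : G → ℂ) (ψ : H → ℂ), Cfsg.IsIrrCharacter G φ ∧ Cfsg.IsIrrCharacter H ψ ∧ θ = fun x => φ x.1 * ψ x.2 := by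
  classical
  cases nonempty_fintype G
  cases nonempty_fintype H
  open Cfsg.Agent.Lib.CharAb Cfsg.Agent.Lib.CharOps Cfsg.Agent.Lib.CharIrr in
  -- products of characters
  have hinner : ∀ (a c : G → ℂ) (b d : H → ℂ), Cfsg.classInner (fun x : G × H => a x.1 * b x.2) (fun x : G × H => c x.1 * d x.2) =
      Cfsg.classInner a c * Cfsg.classInner b d := by
    intro a c b d
    simp only [Cfsg.classInner, Nat.card_prod]
    rw [Fintype.sum_prod_type]
    have : ∀ x : G, ∑ y : H, a x * b y * conj (c x * d y) = a x * conj (c x) * ∑ y : H, b y * conj (d y) := by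
      intro x
      rw [Finset.mul_sum]
      refine Finset.sum_congr rfl fun y _ => ?_
      rw [map_mul]
      ring
    simp only [this]
    rw [← Finset.sum_mul]
    push_cast
    rw [mul_inv]
    ring
  have hchar : ∀ (a : G → ℂ) (b : H → ℂ), Cfsg.IsCharacter G a → Cfsg.IsCharacter H b →
      Cfsg.IsCharacter (G × H) (fun x => a x.1 * b x.2) := fun a b ha hb =>
    isCharacter_mul (isCharacter_comp (MonoidHom.fst G H) ha) (isCharacter_comp (MonoidHom.snd G H) hb)
  have hirr : ∀ (a : Cfsg.IrrCharacter G) (b : Cfsg.IrrCharacter H),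
      Cfsg.IsIrrCharacter (G × H) (fun x => (a : G → ℂ) x.1 * (b : H → ℂ) x.2) := by
    intro a b
    apply isIrr_of_norm_one (hchar _ _ (IsIrrCharacter.isCharacter' a.2) (IsIrrCharacter.isCharacter' b.2))
    rw [hinner, classInner_irr a.2 a.2, classInner_irr b.2 b.2]
    simp
  let F : Cfsg.IrrCharacter G × Cfsg.IrrCharacter H → Cfsg.IrrCharacter (G × H) :=
    fun p => ⟨fun x => (p.1 : G → ℂ) x.1 * (p.2 : H → ℂ) x.2, hirr p.1 p.2⟩
  have hFinj : Function.Injective F := by
    rintro ⟨a, b⟩ ⟨c, d⟩ h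
    have h1 := hinner (a : G → ℂ) (c : G → ℂ) (b : H → ℂ) (d : H → ℂ)
    have h2 : (fun x : G × H => (a : G → ℂ) x.1 * (b : H → ℂ) x.2) = (fun x : G × H => (c : G → ℂ) x.1 * (d : H → ℂ) x.2) :=
      congrArg Subtype.val h
    rw [← h2] at h1
    have h3 := hinner (a : G → ℂ) (a : G → ℂ) (b : H → ℂ) (b : H → ℂ)
    rw [h3, classInner_irr a.2 a.2, classInner_irr b.2 b.2, classInner_irr a.2 c.2, classInner_irr b.2 d.2] at h1
    simp only [if_true, mul_one] at h1
    by_cases hac : (a : G → ℂ) = c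
    · by_cases hbd : (b : H → ℂ) = d
      · rw [Prod.mk.injEq]
        exact ⟨Subtype.ext hac, Subtype.ext hbd⟩
      · rw [if_neg hbd] at h1
        simp at h1
    · rw [if_neg hac] at h1
      simp at h1
  have hdeg : ∀ p, deg (F p) = deg p.1 * deg p.2 := by
    intro p
    have : (deg (F p) : ℂ) = deg p.1 * deg p.2 := by
      rw [← apply_one_eq_deg, ← apply_one_eq_deg, ← apply_one_eq_deg]
      rfl
    exact_mod_cast this
  have hsurj : Function.Surjective F := by
    intro θ
    by_contra hcon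
    push Not at hcon
    have hθ : θ ∉ Finset.univ.image F := by
      simp only [Finset.mem_image, Finset.mem_univ, true_and, not_exists]
      exact hcon
    have hle := Finset.sum_le_univ_sum_of_nonneg (s := insert θ (Finset.univ.image F)) (f := fun θ => deg θ ^ 2) (fun _ => Nat.zero_le _)
    rw [Finset.sum_insert hθ, Finset.sum_image (fun a _ b _ h => hFinj h), sum_deg_sq] at hle
    have h1 : ∑ p : Cfsg.IrrCharacter G × Cfsg.IrrCharacter H, deg (F p) ^ 2 = Nat.card G * Nat.card H := by
      simp only [hdeg, mul_pow]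
      rw [Fintype.sum_prod_type]
      simp only [← Finset.mul_sum]
      rw [← Finset.sum_mul, sum_deg_sq, sum_deg_sq]
    rw [h1, Nat.card_prod] at hle
    have := deg_pos θ
    have h2 : 0 < deg θ ^ 2 := pow_pos this 2
    omega
  constructor
  · intro hθ
    obtain ⟨⟨a, b⟩, hp⟩ := hsurj ⟨θ, hθ⟩
    exact ⟨a, b, a.2, b.2, (congrArg Subtype.val hp).symm⟩
  · rintro ⟨a, b, ha, hb, rfl⟩
    exact hirr ⟨a, ha⟩ ⟨b, hb⟩

end Cfsg.Agent.S0188
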