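import Cfsg.Statements.S0189
import Cfsg.Agent.Lib.CharAb

set_option autoImplicit false
open Cfsg

namespace Cfsg.Agent.S0189

/-- If a complex character of a finite group vanishes at every non-identity element of a Sylow p-subgroup P, then |P| divides its degree. -/
theorem result {G : Type*} [Group G] [Finite G] (p : ℕ) [Fact p.Prime] (P : Sylow p G) (χ : G → ℂ) (hχ : Cfsg.IsCharacter G χ) (hvan : ∀ g : G, g ∈ P → g ≠ 1 → χ g = 0) : ∃ k : ℕ, χ 1 = (Nat.card P : ℂ) * k := by
  classical
  cases nonempty_fintype G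
  letI : Fintype (P : Subgroup G) := Fintype.ofFinite _
  open Cfsg.Agent.Lib.CharOps in
  have hres := isCharacter_restrict (P : Subgroup G) hχ
  obtain ⟨k, hk⟩ := exists_nat_classInner hres (isCharacter_one (G := (P : Subgroup G)))
  refine ⟨k, ?_⟩
  rw [← hk, Cfsg.classInner]
  rw [Finset.sum_eq_single (1 : (P : Subgroup G))]
  · have hP : (Nat.card (P : Subgroup G) : ℂ) ≠ 0 := by exact_mod_cast Nat.card_pos.ne'
    simp only [OneMemClass.coe_one, map_one, mul_one]
    field_simp
  · intro x _ hx
    rw [hvan x x.2 (fun h => hx (Subtype.ext h)), zero_mul]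
  · intro h
    exact absurd (Finset.mem_univ _) h

end Cfsg.Agent.S0189
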