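import Cfsg.Statements.S0190
import Cfsg.Agent.Lib.CharOps

set_option autoImplicit false
open Cfsg

namespace Cfsg.Agent.S0190

/-- For a transitive action of a finite group on X, the permutation character g ↦ (number of fixed points of g) is the function induced from the principal character of the stabilizer of any point. -/
theorem result {G : Type*} [Group G] [Fintype G] (X : Type*) [MulAction G X] [Finite X] [MulAction.IsPretransitive G X] (x : X) : (fun g : G => (Nat.card (MulAction.fixedBy X g) : ℂ)) = Cfsg.indFun (MulAction.stabilizer G x) (fun _ => 1) := by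
  classical
  cases nonempty_fintype X
  funext g
  rw [Cfsg.Agent.Lib.CharOps.indFun_apply]
  set S := MulAction.stabilizer G x with hS
  have hval : ∀ y : G, Cfsg.extendByZero S (fun _ => (1 : ℂ)) (y⁻¹ * g * y) =
      if g • (y • x) = y • x then 1 else 0 := by
    intro y
    have hiff : y⁻¹ * g * y ∈ S ↔ g • (y • x) = y • x := by
      rw [hS, MulAction.mem_stabilizer_iff, mul_smul, mul_smul, inv_smul_eq_iff]
    split_ifs with h
    · rw [Cfsg.Agent.Lib.CharOps.extendByZero_of_mem _ _ (hiff.mpr h)]
    · rw [Cfsg.Agent.Lib.CharOps.extendByZero_of_not_mem _ _ (fun hm => h (hiff.mp hm))]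
  simp only [hval]
  -- count by fibres over `X`
  have hfib : ∀ z : X, ∑ y ∈ Finset.univ.filter (fun y : G => y • x = z), (if g • (y • x) = y • x then (1 : ℂ) else 0) =
      (Nat.card S : ℂ) * (if g • z = z then 1 else 0) := by
    intro z
    obtain ⟨y₀, rfl⟩ := MulAction.exists_smul_eq G x z
    have h1 : ∀ y ∈ Finset.univ.filter (fun y : G => y • x = y₀ • x), (if g • (y • x) = y • x then (1 : ℂ) else 0) =
        (if g • (y₀ • x) = y₀ • x then 1 else 0) := by
      intro y hy
      rw [(Finset.mem_filter.mp hy).2]
    rw [Finset.sum_congr rfl h1, Finset.sum_const, nsmul_eq_mul]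
    congr 2
    rw [Nat.card_eq_fintype_card, ← Finset.card_univ]
    refine (Finset.card_bij (fun (h : S) _ => y₀ * (h : G)) ?_ ?_ ?_).symm
    · intro h _
      simp only [Finset.mem_filter, Finset.mem_univ, true_and, mul_smul]
      rw [MulAction.mem_stabilizer_iff.mp h.2]
    · intro a _ b _ hab
      exact Subtype.ext (mul_left_cancel hab)
    · intro y hy
      have hy' := (Finset.mem_filter.mp hy).2
      refine ⟨⟨y₀⁻¹ * y, ?_⟩, Finset.mem_univ _, by simp⟩
      rw [hS, MulAction.mem_stabilizer_iff, mul_smul, hy', inv_smul_smul]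
  have hsum := Finset.sum_fiberwise (s := Finset.univ) (g := fun y : G => y • x) (f := fun y => if g • (y • x) = y • x then (1 : ℂ) else 0)
  rw [← hsum]
  simp only [hfib]
  rw [← Finset.mul_sum]
  have hS0 : (Nat.card S : ℂ) ≠ 0 := by exact_mod_cast Nat.card_pos.ne'
  rw [← mul_assoc, inv_mul_cancel₀ hS0, one_mul]
  rw [Finset.sum_boole]
  congr 1
  rw [Nat.card_eq_fintype_card, Fintype.card_subtype]
  rfl

end Cfsg.Agent.S0190
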