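import Cfsg.Statements.S0191
import Cfsg.Agent.Lib.CharGalois
import Cfsg.Agent.Lib.CharInt

set_option autoImplicit false
set_option linter.style.haveILetI false
set_option linter.unusedVariables false
open Cfsg

namespace Cfsg.Agent.S0191

/-- An irreducible complex representation of a finite group of degree greater than 1 has a character that vanishes somewhere. -/
theorem result {G : Type*} [Group G] [Finite G] {V : Type*} [AddCommGroup V] [Module ℂ V] [FiniteDimensional ℂ V] (ρ : Representation ℂ G V) [ρ.IsIrreducible] (hdeg : 1 < Module.finrank ℂ V) : ∃ g : G, ρ.character g = 0 := by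
  classical
  cases nonempty_fintype G
  by_contra hne
  push Not at hne
  have hn : Nat.card G ≠ 0 := Nat.card_pos.ne'
  let χ := ρ.character
  let f : G → ℂ := fun g => if g = 1 then 1 else χ g
  have hf0 : ∀ g, f g ≠ 0 := by
    intro g
    by_cases hg : g = 1
    · simp [f, hg]
    · simpa [f, hg] using hne g
  have hfmem : ∀ g, f g ∈ Cfsg.Agent.Lib.CharGalois.cyc (Nat.card G) := by
    intro g
    by_cases hg : g = 1
    · simpa [f, hg] using one_mem _
    · simpa [f, hg] using Cfsg.Agent.Lib.CharGalois.character_mem ρ g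
  have hfint : ∀ g, IsIntegral ℤ (f g) := by
    intro g
    by_cases hg : g = 1
    · simpa [f, hg] using isIntegral_one
    · simpa [f, hg] using Cfsg.Agent.Lib.CharCore.isIntegral_character ρ g
  let x : Cfsg.Agent.Lib.CharGalois.cyc (Nat.card G) := ∏ g, ⟨f g, hfmem g⟩
  have hxval : (x : ℂ) = ∏ g, f g := by simp [x]
  have hfix : ∀ σ : Cfsg.Agent.Lib.CharGalois.cyc (Nat.card G) →ₐ[ℚ] ℂ, σ x = x.1 := by
    intro σ
    obtain ⟨m, hm, hσ⟩ := Cfsg.Agent.Lib.CharGalois.exists_coprime hn σ
    have hm' : (Nat.card G).Coprime m := hm.symm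
    have h1 : ∀ g, σ ⟨f g, hfmem g⟩ = f (g ^ m) := by
      intro g
      by_cases hg : g = 1
      · subst hg
        have : (⟨f 1, hfmem 1⟩ : Cfsg.Agent.Lib.CharGalois.cyc (Nat.card G)) = 1 := by
          apply Subtype.ext; simp [f]
        rw [this, map_one]; simp [f]
      · have hgm : g ^ m ≠ 1 := by
          intro h
          apply hg
          apply (powCoprime hm').injective
          rw [powCoprime_apply, powCoprime_apply, h, one_pow]
        have : (⟨f g, hfmem g⟩ : Cfsg.Agent.Lib.CharGalois.cyc (Nat.card G)) =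
            ⟨χ g, Cfsg.Agent.Lib.CharGalois.character_mem ρ g⟩ := by
          apply Subtype.ext; simp [f, hg]
        rw [this]
        simp only [f, if_neg hgm]
        exact Cfsg.Agent.Lib.CharGalois.algHom_character ρ g m σ hσ
    rw [hxval, map_prod, Finset.prod_congr rfl (fun g _ => h1 g)]
    exact (powCoprime hm').prod_comp (fun g => f g)
  have hx0 : x.1 ≠ 0 := by
    rw [hxval]
    exact Finset.prod_ne_zero_iff.mpr fun g _ => hf0 g
  have hxint : IsIntegral ℤ x.1 := by
    rw [hxval]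
    exact IsIntegral.prod _ fun g _ => hfint g
  have hge := Cfsg.Agent.Lib.CharGalois.one_le_norm_of_fixed hn x hx0 hxint hfix
  rw [hxval, norm_prod] at hge
  -- orthogonality
  have hirr : Cfsg.classInner ρ.character ρ.character = 1 := by
    rw [Cfsg.Agent.Lib.CharBasic.classInner_irreducible ρ ρ ‹_› ‹_›, if_pos]
    exact ⟨Representation.Equiv.refl ρ⟩
  have hcardC : (Nat.card G : ℂ) ≠ 0 := by exact_mod_cast hn
  have hsum : ∑ g, ‖χ g‖ ^ 2 = (Nat.card G : ℝ) := by
    have h1 : (Nat.card G : ℂ)⁻¹ * ∑ g, χ g * (starRingEnd ℂ) (χ g) = 1 := hirr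
    have h2 : ∑ g, χ g * (starRingEnd ℂ) (χ g) = (Nat.card G : ℂ) := by
      field_simp at h1
      exact h1
    have h3 : ((∑ g, ‖χ g‖ ^ 2 : ℝ) : ℂ) = (Nat.card G : ℂ) := by
      rw [← h2]
      push_cast
      exact Finset.sum_congr rfl fun g _ => (Complex.mul_conj' _).symm
    exact_mod_cast h3
  have hone : ‖χ 1‖ = (Module.finrank ℂ V : ℝ) := by
    have : χ 1 = (Module.finrank ℂ V : ℂ) := Representation.char_one ρ
    rw [this, Complex.norm_natCast]
  have hsumf : ∑ g, ‖f g‖ ^ 2 = (Nat.card G : ℝ) - ((Module.finrank ℂ V : ℝ) ^ 2 - 1) := by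
    have : ∀ g, ‖f g‖ ^ 2 = ‖χ g‖ ^ 2 - (if g = 1 then ((Module.finrank ℂ V : ℝ) ^ 2 - 1) else 0) := by
      intro g
      by_cases hg : g = 1
      · subst hg
        simp [f, hone]
      · simp [f, hg]
    rw [Finset.sum_congr rfl (fun g _ => this g), Finset.sum_sub_distrib, hsum]
    simp
  have hsq : (1 : ℝ) ≤ ∏ g, ‖f g‖ ^ 2 := by
    rw [Finset.prod_pow]
    exact one_le_pow₀ hge
  have hle : ∏ g, ‖f g‖ ^ 2 ≤ ∏ g, Real.exp (‖f g‖ ^ 2 - 1) := by
    refine Finset.prod_le_prod (fun g _ => by positivity) fun g _ => ?_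
    have := Real.add_one_le_exp (‖f g‖ ^ 2 - 1)
    linarith
  rw [← Real.exp_sum, Finset.sum_sub_distrib, hsumf] at hle
  have hcard2 : ∑ g : G, (1 : ℝ) = (Nat.card G : ℝ) := by
    simp [Nat.card_eq_fintype_card]
  rw [hcard2] at hle
  have hd : (1 : ℝ) < (Module.finrank ℂ V : ℝ) := by exact_mod_cast hdeg
  have hneg : (Nat.card G : ℝ) - ((Module.finrank ℂ V : ℝ) ^ 2 - 1) - (Nat.card G : ℝ) < 0 := by
    nlinarith
  have := Real.exp_lt_exp.mpr hneg
  rw [Real.exp_zero] at this
  linarith

end Cfsg.Agent.S0191
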