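import Cfsg.Statements.S0192
import Cfsg.Agent.Lib.CharPerm

set_option autoImplicit false
set_option linter.style.haveILetI false
set_option linter.unusedVariables false
open Cfsg

namespace Cfsg.Agent.S0192

/-- Brauer's generation criterion. Let G be a finite simple group, H₁ and H₂ subgroups, and χ a non-principal irreducible character. If the multiplicity of the principal character in χ restricted to H₁ ⊓ H₂ is less than the sum of the corresponding multiplicities for H₁ and H₂, then H₁ and H₂ do not generate G. -/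
theorem result {G : Type*} [Group G] [Fintype G] [IsSimpleGroup G] (H₁ H₂ : Subgroup G) [Fintype H₁] [Fintype H₂] [Fintype ↥(H₁ ⊓ H₂)] (χ : G → ℂ) (hχ : Cfsg.IsIrrCharacter G χ) (hχ1 : χ ≠ fun _ => 1) (hlt : (Cfsg.classInner (fun x : ↥(H₁ ⊓ H₂) => χ x) (fun _ => 1)).re < (Cfsg.classInner (fun x : H₁ => χ x) (fun _ => 1)).re + (Cfsg.classInner (fun x : H₂ => χ x) (fun _ => 1)).re) : H₁ ⊔ H₂ ≠ ⊤ := by
  classical
  intro htop
  -- χ comes from a representation
  obtain ⟨n, ρ, hρ, rfl⟩ := hχ
  -- the fixed space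
  let Fix : Subgroup G → Submodule ℂ (Fin n → ℂ) := fun K =>
    { carrier := {v | ∀ h ∈ K, ρ h v = v}
      add_mem' := fun {a b} ha hb h hh => by rw [map_add, ha h hh, hb h hh]
      zero_mem' := fun h _ => map_zero _
      smul_mem' := fun c v hv h hh => by rw [map_smul, hv h hh] }
  have hmemFix : ∀ K v, v ∈ Fix K ↔ ∀ h ∈ K, ρ h v = v := fun _ _ => Iff.rfl
  -- inner product with the trivial character is the dimension of the fixed space
  have hdim : ∀ (K : Subgroup G) [Fintype K], Cfsg.classInner (fun x : K => ρ.character x) (fun _ => 1) =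
      (Module.finrank ℂ (Fix K) : ℂ) := by
    intro K _
    have hK : (Nat.card K : ℂ) ≠ 0 := by exact_mod_cast Nat.card_pos.ne'
    let P : (Fin n → ℂ) →ₗ[ℂ] (Fin n → ℂ) := (Nat.card K : ℂ)⁻¹ • ∑ h : K, ρ (h : G)
    have hPapp : ∀ v, P v = (Nat.card K : ℂ)⁻¹ • ∑ h : K, ρ (h : G) v := by
      intro v
      simp only [P, LinearMap.smul_apply, LinearMap.sum_apply]
    have hproj : LinearMap.IsProj (Fix K) P := by
      constructor
      · intro v k hk
        rw [hPapp, map_smul, map_sum]
        congr 1
        refine Fintype.sum_equiv (Equiv.mulLeft (⟨k, hk⟩ : K)) _ _ fun h => ?_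
        rw [← Module.End.mul_apply, ← map_mul]
        rfl
      · intro v hv
        rw [hPapp]
        have : ∀ h : K, ρ (h : G) v = v := fun h => hv h h.2
        simp only [this, Finset.sum_const, Finset.card_univ, ← Nat.card_eq_fintype_card]
        rw [← Nat.cast_smul_eq_nsmul ℂ, smul_smul, inv_mul_cancel₀ hK, one_smul]
    have htr := hproj.trace
    rw [← htr, Cfsg.classInner]
    simp only [P, map_smul, map_sum, smul_eq_mul, map_one, mul_one]
    rfl
  -- key inequality
  have h1 := hdim H₁
  have h2 := hdim H₂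
  have h3 := hdim (H₁ ⊓ H₂)
  rw [h1, h2, h3] at hlt
  simp only [Complex.natCast_re] at hlt
  have hlt' : Module.finrank ℂ (Fix (H₁ ⊓ H₂)) < Module.finrank ℂ (Fix H₁) + Module.finrank ℂ (Fix H₂) := by
    exact_mod_cast hlt
  have hsup : Fix H₁ ⊔ Fix H₂ ≤ Fix (H₁ ⊓ H₂) := by
    apply sup_le
    · intro v hv h hh
      exact hv h hh.1
    · intro v hv h hh
      exact hv h hh.2
  have hfr := Submodule.finrank_sup_add_finrank_inf_eq (Fix H₁) (Fix H₂)
  have hfle := Submodule.finrank_mono hsup
  have hpos : 0 < Module.finrank ℂ ↥(Fix H₁ ⊓ Fix H₂) := by omega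
  have hnt : Nontrivial ↥(Fix H₁ ⊓ Fix H₂) := Module.nontrivial_of_finrank_pos (R := ℂ) hpos
  obtain ⟨⟨v, hv⟩, hv0⟩ := exists_ne (0 : ↥(Fix H₁ ⊓ Fix H₂))
  have hv0' : v ≠ 0 := fun h => hv0 (Subtype.ext h)
  -- v is fixed by everything
  have hfixall : ∀ g : G, ρ g v = v := by
    intro g
    have hg : g ∈ H₁ ⊔ H₂ := htop ▸ Subgroup.mem_top g
    refine Subgroup.closure_induction (p := fun g _ => ρ g v = v) ?_ ?_ ?_ ?_ (by
      rw [Subgroup.sup_eq_closure] at hg
      exact hg)
    · rintro x (hx | hx)
      · exact hv.1 x hx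
      · exact hv.2 x hx
    · simp
    · intro x y _ _ hx hy
      rw [map_mul, Module.End.mul_apply, hy, hx]
    · intro x _ hx
      have : ρ x⁻¹ (ρ x v) = v := by
        rw [← Module.End.mul_apply, ← map_mul]
        simp
      rw [hx] at this
      exact this
  -- hence trivial
  let S : Subrepresentation ρ :=
    { toSubmodule := Submodule.span ℂ {v}
      apply_mem_toSubmodule := by
        intro g w hw
        obtain ⟨c, rfl⟩ := Submodule.mem_span_singleton.mp hw
        rw [map_smul, hfixall g]
        exact Submodule.smul_mem _ _ (Submodule.mem_span_singleton_self v) }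
  have hS : S = ⊤ := by
    refine (IsSimpleOrder.eq_bot_or_eq_top S).resolve_left ?_
    intro hb
    have h4 : v ∈ S.toSubmodule := Submodule.mem_span_singleton_self v
    rw [hb] at h4
    exact hv0' h4
  have htriv : ∀ g, ρ g = LinearMap.id := by
    intro g
    refine LinearMap.ext fun w => ?_
    have h4 : w ∈ S.toSubmodule := by rw [hS]; exact Submodule.mem_top
    obtain ⟨c, rfl⟩ := Submodule.mem_span_singleton.mp h4
    rw [map_smul, hfixall g]
    rfl
  have h5 := Cfsg.Agent.Lib.CharBurnside.finrank_eq_one_of_trivial ρ hρ htriv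
  apply hχ1
  funext x
  rw [Representation.character, htriv x, LinearMap.trace_id, h5]
  simp

end Cfsg.Agent.S0192
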