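import Cfsg.Statements.S0196
import Mathlib

set_option autoImplicit false
open Cfsg

namespace Cfsg.Agent.S0196

/-- Let A be a subgroup of a finite group G that equals the centralizer of each of its non-identity elements, and let N be its normalizer. Then the index of A in N divides |A| − 1 (N/A permutes the non-identity elements of A in orbits of full length). -/
theorem result {G : Type*} [Group G] [Finite G] (A : Subgroup G) (hA : ∀ x ∈ A, x ≠ 1 → Subgroup.centralizer ({x} : Set G) = A) : (A.subgroupOf (Subgroup.normalizer (A : Set G))).index ∣ Nat.card A - 1 := by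
  classical
  set N := Subgroup.normalizer (A : Set G) with hN
  let Y := {x : A // x ≠ 1}
  have hcardY : Nat.card Y = Nat.card A - 1 := by
    have hF := Fintype.ofFinite A
    rw [Nat.card_eq_fintype_card, Nat.card_eq_fintype_card, Fintype.card_subtype_compl]
    simp
  have hconj : ∀ (n : N) (x : A), (n : G) * (x : G) * (n : G)⁻¹ ∈ A := by
    intro n x
    have := (Subgroup.mem_normalizer_iff.mp n.2 (x : G)).mp x.2
    exact this
  let inst : MulAction N Y :=
    { smul := fun n x => ⟨⟨(n : G) * (x.1 : G) * (n : G)⁻¹, hconj n x.1⟩, by
        intro h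
        apply x.2
        have h1 : (n : G) * (x.1 : G) * (n : G)⁻¹ = 1 := congrArg Subtype.val h
        have h2 : (x.1 : G) = 1 := by
          have := conj_eq_one_iff.mp h1
          exact this
        exact Subtype.ext h2⟩
      one_smul := by
        intro x
        apply Subtype.ext
        apply Subtype.ext
        show ((1 : N) : G) * (x.1 : G) * ((1 : N) : G)⁻¹ = x.1
        simp
      mul_smul := by
        intro a b x
        apply Subtype.ext
        apply Subtype.ext
        show ((a * b : N) : G) * (x.1 : G) * ((a * b : N) : G)⁻¹ =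
          (a : G) * ((b : G) * (x.1 : G) * (b : G)⁻¹) * (a : G)⁻¹
        simp only [Subgroup.coe_mul, mul_inv_rev]
        simp only [mul_assoc] }
  have hsmul : ∀ (n : N) (x : Y), (((n • x : Y).1 : A) : G) = (n : G) * (x.1 : G) * (n : G)⁻¹ := fun _ _ => rfl
  have hstab : ∀ x : Y, MulAction.stabilizer N x = A.subgroupOf N := by
    intro x
    ext n
    rw [MulAction.mem_stabilizer_iff, Subgroup.mem_subgroupOf, ← hA x.1 x.1.2 (fun h => x.2 (Subtype.ext h)),
      Subgroup.mem_centralizer_iff]
    constructor
    · intro h y hy
      rw [Set.mem_singleton_iff.mp hy]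
      have h1 : (n : G) * (x.1 : G) * (n : G)⁻¹ = x.1 := by
        rw [← hsmul, h]
      calc (x.1 : G) * (n : G) = ((n : G) * (x.1 : G) * (n : G)⁻¹) * (n : G) := by rw [h1]
        _ = (n : G) * (x.1 : G) := by group
    · intro h
      apply Subtype.ext
      apply Subtype.ext
      rw [hsmul]
      have := h (x.1 : G) (Set.mem_singleton _)
      rw [← this]
      group
  have hfinY : Finite Y := Subtype.finite
  letI hF : Fintype (MulAction.orbitRel.Quotient N Y) := Fintype.ofFinite _
  have hcard : Nat.card Y = ∑ ω : MulAction.orbitRel.Quotient N Y, Nat.card (MulAction.orbit N (Quotient.out ω)) := by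
    rw [Nat.card_congr (MulAction.selfEquivSigmaOrbits N Y), Nat.card_sigma]
  rw [← hcardY, hcard]
  apply Finset.dvd_sum
  intro ω _
  have h1 := MulAction.index_stabilizer (G := N) (Quotient.out ω)
  rw [hstab] at h1
  rw [h1]
  rfl

end Cfsg.Agent.S0196
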