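import Mathlib
import Cfsg.Prelude
import Cfsg.Agent.Lib.BaerSuzuki
import Cfsg.Agent.Lib.PCore
import Cfsg.Statements.S0199
-- import your own Cfsg.Agent.* helpers here

set_option autoImplicit false
open Cfsg

namespace Cfsg.Agent.S0199

/-- Baer–Suzuki Theorem: a p-subgroup X of a finite group such that X and any of its conjugates generate a p-group is contained in a normal p-subgroup. -/
theorem result {G : Type*} [Group G] [Finite G] {p : ℕ} [Fact p.Prime] (X : Subgroup G) (hX : IsPGroup p X) (h : ∀ g : G, IsPGroup p ↥(X ⊔ X.map (MulAut.conj g).toMonoidHom)) : ∃ N : Subgroup G, N.Normal ∧ IsPGroup p N ∧ X ≤ N := by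
  have h1 := Cfsg.Agent.Lib.BaerSuzuki.le_pCore_of_conj X hX h
  refine ⟨Cfsg.pCore p G, Cfsg.Agent.Lib.PCore.pCore_normal p G, Cfsg.Agent.Lib.PCore.isPGroup_pCore p G, h1⟩

end Cfsg.Agent.S0199
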