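import Mathlib
import Cfsg.Agent.Lib.KleinSylow
import Cfsg.Statements.S0203
-- import your own Cfsg.Agent.* helpers here

set_option autoImplicit false
open Cfsg

namespace Cfsg.Agent.S0203

/-- If a Sylow 2-subgroup P of a finite group G is a Klein four-group, then G has three classes of involutions if and only if P has a normal complement in G. -/
theorem result {G : Type*} [Group G] [Finite G] (P : Sylow 2 G) (hP : IsKleinFour (P : Subgroup G)) : Nat.card {C : ConjClasses G // ∃ t : G, orderOf t = 2 ∧ ConjClasses.mk t = C} = 3 ↔ ∃ N : Subgroup G, N.Normal ∧ Subgroup.IsComplement' N (P : Subgroup G) := by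
  classical
  haveI := hP
  haveI : Fact (Nat.Prime 2) := ⟨Nat.prime_two⟩
  obtain ⟨x, y, hx, hy, hxy⟩ := Cfsg.Agent.Lib.KleinSylow.exists_pair P
  have hforms : ∀ u : (P : Subgroup G), u ≠ 1 → u = x ∨ u = y ∨ u = x * y := by
    intro u hu
    by_cases h1 : u = x
    · exact Or.inl h1
    by_cases h2 : u = y
    · exact Or.inr (Or.inl h2)
    · exact Or.inr (Or.inr (IsKleinFour.eq_mul_of_ne_all hx hy hxy hu h1 h2))
  have hxx : x * x = 1 := IsKleinFour.mul_self x
  have hw : x * y ≠ 1 := by
    intro h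
    apply hxy
    exact mul_left_cancel (hxx.trans h.symm)
  have hxw : x ≠ x * y := by
    intro h
    apply hy
    have : x * 1 = x * y := by rw [mul_one]; exact h
    exact (mul_left_cancel this).symm
  have hyw : y ≠ x * y := by
    intro h
    apply hx
    have : 1 * y = x * y := by rw [one_mul]; exact h
    exact (mul_right_cancel this).symm
  constructor
  · intro h3
    rcases Cfsg.Agent.Lib.KleinSylow.card_cases P hx hy hxy with ⟨h1, h2, h4, -⟩ | h
    · have hinj : ∀ a b : (P : Subgroup G), a ≠ 1 → b ≠ 1 → IsConj a.1 b.1 → a = b := by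
        intro a b ha hb hc
        have hmk : ConjClasses.mk a.1 = ConjClasses.mk b.1 := ConjClasses.mk_eq_mk_iff_isConj.2 hc
        rcases hforms a ha with rfl | rfl | rfl <;> rcases hforms b hb with rfl | rfl | rfl
        · rfl
        · exact absurd hmk h1
        · exact absurd hmk h2
        · exact absurd hmk.symm h1
        · rfl
        · exact absurd hmk h4
        · exact absurd hmk.symm h2
        · exact absurd hmk.symm h4
        · rfl
      have hN : Subgroup.normalizer ((P : Subgroup G) : Set G) ≤ Subgroup.centralizer ((P : Subgroup G) : Set G) := by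
        intro n hn
        rw [Subgroup.mem_centralizer_iff]
        intro u hu
        by_cases hu1 : u = 1
        · rw [hu1, mul_one, one_mul]
        have h5 : n * u * n⁻¹ ∈ (P : Subgroup G) := (Subgroup.mem_normalizer_iff.1 hn u).1 hu
        have hu1' : (⟨u, hu⟩ : (P : Subgroup G)) ≠ 1 := fun h => hu1 (congrArg Subtype.val h)
        have hv1' : (⟨n * u * n⁻¹, h5⟩ : (P : Subgroup G)) ≠ 1 := by
          intro h
          have h6 : n * u * n⁻¹ = 1 := congrArg Subtype.val h
          apply hu1
          have : u = n⁻¹ * (n * u * n⁻¹) * n := by group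
          rw [this, h6]
          group
        have h7 := hinj _ _ hu1' hv1' (isConj_iff.2 ⟨n, rfl⟩)
        have h8 : u = n * u * n⁻¹ := congrArg Subtype.val h7
        exact (mul_inv_eq_iff_eq_mul.1 h8.symm).symm
      exact ⟨(MonoidHom.transferSylow P hN).ker, MonoidHom.normal_ker _,
        MonoidHom.ker_transferSylow_isComplement' P hN⟩
    · omega
  · rintro ⟨N, hN, hc⟩
    haveI := hN
    have hinj : ∀ a b : (P : Subgroup G), IsConj a.1 b.1 → a = b := by
      intro a b hab
      obtain ⟨g, hg⟩ := isConj_iff.1 hab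
      have hgm : g ∈ ((N ⊔ (P : Subgroup G) : Subgroup G) : Set G) := by
        rw [hc.sup_eq_top]; trivial
      rw [Subgroup.normal_mul] at hgm
      obtain ⟨n, hn, p, hp, rfl⟩ := Set.mem_mul.1 hgm
      have hpa : p * a.1 = a.1 * p := congrArg Subtype.val (Cfsg.Agent.Lib.KleinSylow.comm' P ⟨p, hp⟩ a)
      have hb : b.1 = n * a.1 * n⁻¹ := by
        rw [← hg]
        calc n * p * a.1 * (n * p)⁻¹ = n * (p * a.1) * p⁻¹ * n⁻¹ := by group
          _ = n * (a.1 * p) * p⁻¹ * n⁻¹ := by rw [hpa]
          _ = n * a.1 * n⁻¹ := by group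
      have h1 : b.1 * a.1⁻¹ ∈ N := by
        rw [hb]
        have : n * a.1 * n⁻¹ * a.1⁻¹ = n * (a.1 * n⁻¹ * a.1⁻¹) := by group
        rw [this]
        exact mul_mem hn (hN.conj_mem _ (inv_mem hn) _)
      have h2 : b.1 * a.1⁻¹ ∈ (P : Subgroup G) := mul_mem b.2 (inv_mem a.2)
      have h3 : b.1 * a.1⁻¹ ∈ N ⊓ (P : Subgroup G) := ⟨h1, h2⟩
      rw [hc.disjoint.eq_bot, Subgroup.mem_bot] at h3
      exact (Subtype.ext (mul_inv_eq_one.1 h3)).symm
    rcases Cfsg.Agent.Lib.KleinSylow.card_cases P hx hy hxy with ⟨-, -, -, h⟩ | h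
    · exact h
    · exfalso
      have hcl := Cfsg.Agent.Lib.KleinSylow.classes_eq P hx hy hxy
      have h1 : ConjClasses.mk x.1 ≠ ConjClasses.mk y.1 := fun e =>
        hxy (hinj _ _ (ConjClasses.mk_eq_mk_iff_isConj.1 e))
      have hm1 : ConjClasses.mk x.1 ∈ {C : ConjClasses G | ∃ t : G, orderOf t = 2 ∧ ConjClasses.mk t = C} := by
        rw [hcl]; simp
      have hm2 : ConjClasses.mk y.1 ∈ {C : ConjClasses G | ∃ t : G, orderOf t = 2 ∧ ConjClasses.mk t = C} := by
        rw [hcl]; simp
      obtain ⟨hs, -⟩ := Nat.card_eq_one_iff_unique.1 h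
      have := hs.elim ⟨_, hm1⟩ ⟨_, hm2⟩
      exact h1 (congrArg Subtype.val this)

end Cfsg.Agent.S0203
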