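import Mathlib
import Cfsg.Agent.Lib.InvPair
import Cfsg.Agent.Lib.Dihedral
import Cfsg.Statements.S0206
-- import your own Cfsg.Agent.* helpers here

set_option autoImplicit false
open Cfsg

namespace Cfsg.Agent.S0206

/-- Two distinct involutions x, y of a finite group generate a subgroup isomorphic to the dihedral group of order 2·|xy|. -/
theorem result {G : Type*} [Group G] [Finite G] (x y : G) (hx : orderOf x = 2) (hy : orderOf y = 2) (hxy : x ≠ y) : Nonempty (↥(Subgroup.closure ({x, y} : Set G)) ≃* DihedralGroup (orderOf (x * y))) := by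
  have hx2 := Cfsg.Agent.Lib.InvPair.mul_self_of_order hx
  have hy2 := Cfsg.Agent.Lib.InvPair.mul_self_of_order hy
  have hxi := Cfsg.Agent.Lib.InvPair.inv_of_order hx
  have hyi := Cfsg.Agent.Lib.InvPair.inv_of_order hy
  set D := Subgroup.closure ({x, y} : Set G) with hD
  set a : G := x * y with ha
  have haD : a ∈ D := Cfsg.Agent.Lib.InvPair.mul_mem_closure x y
  have hxD : x ∈ D := Cfsg.Agent.Lib.InvPair.x_mem_closure x y
  let a' : D := ⟨a, haD⟩
  let x' : D := ⟨x, hxD⟩
  have hn : orderOf a = orderOf a' := (Subgroup.orderOf_mk a haD).symm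
  haveI hne : NeZero (orderOf a) := ⟨(orderOf_pos a).ne'⟩
  have ha1 : a ≠ 1 := by
    intro h
    apply hxy
    have : y = x⁻¹ * (x * y) := by group
    rw [this, ← ha, h, mul_one, hxi]
  have hconj : x * a * x⁻¹ = a⁻¹ := by
    rw [ha, mul_inv_rev, hxi, hyi, ← mul_assoc, hx2, one_mul]
  have hxn : x' ∉ Subgroup.zpowers a' := by
    rintro ⟨k, hk⟩
    have hk' : a ^ k = x := by simpa [a', x'] using congrArg Subtype.val hk
    have hc : x * a * x⁻¹ = a := by
      rw [← hk']
      have : Commute (a ^ k) a := (Commute.refl a).zpow_left k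
      rw [this.eq, mul_inv_cancel_right]
    have h2 : a * a = 1 := by
      rw [hconj] at hc
      have := congrArg (· * a) hc
      simpa using this.symm
    have hcases : k % 2 = 0 ∨ k % 2 = 1 := by omega
    have h3 : a ^ (2 : ℤ) = 1 := by rw [zpow_two]; exact h2
    have h4 : a ^ k = a ^ (k % 2) := by
      conv_lhs => rw [← Int.mul_ediv_add_emod k 2, zpow_add, zpow_mul, h3, one_zpow, one_mul]
    rcases hcases with h | h
    · rw [h4, h, zpow_zero] at hk'
      rw [← hk', orderOf_one] at hx
      omega
    · rw [h4, h, zpow_one] at hk'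
      apply (orderOf_pos y).ne'
      have hy1 : y = 1 := by
        have : x * y = x * 1 := by rw [mul_one, ← ha, hk']
        exact mul_left_cancel this
      rw [hy1, orderOf_one] at hy
      omega
  have hidx : (Subgroup.zpowers a').index = 2 := by
    rw [Subgroup.index_eq_two_iff]
    refine ⟨x', fun b => ?_⟩
    by_cases hb : b ∈ Subgroup.zpowers a'
    · right
      refine ⟨hb, fun h => hxn ?_⟩
      have := mul_mem (inv_mem hb) h
      rwa [inv_mul_cancel_left] at this
    · left
      refine ⟨?_, hb⟩
      rcases Cfsg.Agent.Lib.InvPair.closure_cases hx2 hy2 b.2 with ⟨k, hk⟩ | ⟨k, hk⟩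
      · exfalso
        apply hb
        exact ⟨k, Subtype.ext (by simpa [a'] using hk.symm)⟩
      · refine ⟨k, Subtype.ext ?_⟩
        simp only [a', x', Subgroup.coe_zpow, Subgroup.coe_mul]
        change a ^ k = (b : G) * x
        rw [hk, mul_assoc, hx2, mul_one]
  have hcard : Nat.card D = 2 * orderOf a := by
    rw [← Subgroup.index_mul_card (Subgroup.zpowers a'), hidx, Nat.card_zpowers, hn]
  refine Cfsg.Agent.Lib.Dihedral.nonempty_mulEquiv_dihedral (orderOf a) a' x' hn.symm ?_ ?_ hxn hcard
  · apply Subtype.ext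
    simpa [x', pow_two] using hx2
  · apply Subtype.ext
    simpa [a', x'] using hconj

end Cfsg.Agent.S0206
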