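import Mathlib
import Cfsg.Agent.Lib.InvPair
import Cfsg.Statements.S0207
-- import your own Cfsg.Agent.* helpers here

set_option autoImplicit false
open Cfsg

namespace Cfsg.Agent.S0207

/-- If x, y are distinct involutions, every element of the subgroup they generate that lies outside the cyclic subgroup generated by xy is an involution. -/
theorem result {G : Type*} [Group G] [Finite G] (x y : G) (hx : orderOf x = 2) (hy : orderOf y = 2) (hxy : x ≠ y) (d : G) (hd : d ∈ Subgroup.closure ({x, y} : Set G)) (hd' : d ∉ Subgroup.zpowers (x * y)) : orderOf d = 2 := by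
  have hx2 := Cfsg.Agent.Lib.InvPair.mul_self_of_order hx
  have hy2 := Cfsg.Agent.Lib.InvPair.mul_self_of_order hy
  rcases Cfsg.Agent.Lib.InvPair.closure_cases hx2 hy2 hd with ⟨k, rfl⟩ | ⟨k, rfl⟩
  · exact absurd ⟨k, rfl⟩ hd'
  · apply orderOf_eq_prime
    · rw [pow_two]
      calc (x * y) ^ k * x * ((x * y) ^ k * x) = (x * y) ^ k * (x * (x * y) ^ k) * x := by group
        _ = (x * y) ^ k * ((x * y) ^ (-k) * x) * x := by rw [Cfsg.Agent.Lib.InvPair.x_mul_zpow hx2 hy2 k]
        _ = (x * y) ^ k * (x * y) ^ (-k) * (x * x) := by group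
        _ = 1 := by rw [hx2, mul_one, ← zpow_add]; simp
    · intro h
      apply hd'
      rw [h]
      exact one_mem _

end Cfsg.Agent.S0207
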