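import Mathlib
import Cfsg.Agent.Lib.InvPair
import Cfsg.Statements.S0208
-- import your own Cfsg.Agent.* helpers here

set_option autoImplicit false
open Cfsg

namespace Cfsg.Agent.S0208

/-- If x, y are involutions and xy has odd order, then some element of the subgroup generated by x and y conjugates x to y. -/
theorem result {G : Type*} [Group G] [Finite G] (x y : G) (hx : orderOf x = 2) (hy : orderOf y = 2) (hodd : Odd (orderOf (x * y))) : ∃ d ∈ Subgroup.closure ({x, y} : Set G), d * x * d⁻¹ = y := by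
  have hx2 := Cfsg.Agent.Lib.InvPair.mul_self_of_order hx
  have hy2 := Cfsg.Agent.Lib.InvPair.mul_self_of_order hy
  obtain ⟨r, hr⟩ := hodd
  refine ⟨(x * y) ^ (r : ℤ), zpow_mem (Cfsg.Agent.Lib.InvPair.mul_mem_closure x y) _, ?_⟩
  have h1 := Cfsg.Agent.Lib.InvPair.conj_zpow_form hx2 hy2 (r : ℤ)
  have h3 : (x * y) ^ (2 * (r : ℤ)) = (x * y) ^ (-1 : ℤ) := by
    have h4 : (x * y) ^ (2 * (r : ℤ) + 1) = 1 := by
      have := pow_orderOf_eq_one (x * y)
      rw [hr] at this
      exact_mod_cast this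
    rw [zpow_add_one] at h4
    rw [zpow_neg_one]
    exact eq_inv_of_mul_eq_one_left h4
  rw [h1, h3]
  exact (Cfsg.Agent.Lib.InvPair.y_eq hx2 hy2).symm

end Cfsg.Agent.S0208
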