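import Mathlib
import Cfsg.Agent.Lib.InvPair
import Cfsg.Statements.S0209
-- import your own Cfsg.Agent.* helpers here

set_option autoImplicit false
open Cfsg

namespace Cfsg.Agent.S0209

/-- If x, y are involutions whose product has even order n, the element (xy)^(n/2) is an involution that commutes with x and with y. -/
theorem result {G : Type*} [Group G] [Finite G] (x y : G) (hx : orderOf x = 2) (hy : orderOf y = 2) (heven : Even (orderOf (x * y))) : orderOf ((x * y) ^ (orderOf (x * y) / 2)) = 2 ∧ Commute ((x * y) ^ (orderOf (x * y) / 2)) x ∧ Commute ((x * y) ^ (orderOf (x * y) / 2)) y := by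
  have hx2 := Cfsg.Agent.Lib.InvPair.mul_self_of_order hx
  have hy2 := Cfsg.Agent.Lib.InvPair.mul_self_of_order hy
  have hxi := Cfsg.Agent.Lib.InvPair.inv_of_order hx
  have hn : orderOf (x * y) ≠ 0 := (orderOf_pos _).ne'
  have h2 : 2 ∣ orderOf (x * y) := heven.two_dvd
  have hz : orderOf ((x * y) ^ (orderOf (x * y) / 2)) = 2 := orderOf_pow_orderOf_div hn h2
  refine ⟨hz, ?_, ?_⟩
  · have hzi := Cfsg.Agent.Lib.InvPair.inv_of_order hz
    have h3 := Cfsg.Agent.Lib.InvPair.x_mul_zpow hx2 hy2 ((orderOf (x * y) / 2 : ℕ) : ℤ)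
    rw [zpow_natCast, zpow_neg, zpow_natCast, hzi] at h3
    exact h3.symm
  · have hzi := Cfsg.Agent.Lib.InvPair.inv_of_order hz
    have h3 := Cfsg.Agent.Lib.InvPair.x_mul_zpow hx2 hy2 ((orderOf (x * y) / 2 : ℕ) : ℤ)
    rw [zpow_natCast, zpow_neg, zpow_natCast, hzi] at h3
    have h5 : Commute ((x * y) ^ (orderOf (x * y) / 2)) (x * y) := (Commute.refl _).pow_left _
    have h6 : Commute ((x * y) ^ (orderOf (x * y) / 2)) x := h3.symm
    have h7 : Commute ((x * y) ^ (orderOf (x * y) / 2)) (x⁻¹ * (x * y)) :=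
      (h6.inv_right).mul_right h5
    rwa [inv_mul_cancel_left] at h7

end Cfsg.Agent.S0209
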