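import Mathlib
import Cfsg.Agent.Lib.InvPair
import Cfsg.Statements.S0210
-- import your own Cfsg.Agent.* helpers here

set_option autoImplicit false
open Cfsg

namespace Cfsg.Agent.S0210

/-- If x, y are involutions whose product has even order, no element of the subgroup generated by x and y conjugates x to y. -/
theorem result {G : Type*} [Group G] [Finite G] (x y : G) (hx : orderOf x = 2) (hy : orderOf y = 2) (heven : Even (orderOf (x * y))) (d : G) (hd : d ∈ Subgroup.closure ({x, y} : Set G)) : d * x * d⁻¹ ≠ y := by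
  have hx2 := Cfsg.Agent.Lib.InvPair.mul_self_of_order hx
  have hy2 := Cfsg.Agent.Lib.InvPair.mul_self_of_order hy
  intro h
  obtain ⟨k, hk⟩ := Cfsg.Agent.Lib.InvPair.conj_form hx2 hy2 hd
  rw [hk] at h
  have h1 := Cfsg.Agent.Lib.InvPair.y_eq hx2 hy2
  have h2 : (x * y) ^ (2 * k) = (x * y) ^ (-1 : ℤ) := mul_right_cancel (h.trans h1)
  have h3 : (x * y) ^ (2 * k + 1) = 1 := by
    rw [zpow_add_one, h2, zpow_neg_one, inv_mul_cancel]
  have h4 := orderOf_dvd_iff_zpow_eq_one.2 h3
  obtain ⟨r, hr⟩ := heven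
  have h5 : (2 : ℤ) ∣ (orderOf (x * y) : ℤ) := ⟨r, by rw [hr]; push_cast; ring⟩
  have h6 := h5.trans h4
  omega

end Cfsg.Agent.S0210
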