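import Mathlib
import Cfsg.Agent.Lib.InvPair
import Cfsg.Statements.S0211
-- import your own Cfsg.Agent.* helpers here

set_option autoImplicit false
open Cfsg

namespace Cfsg.Agent.S0211

/-- Let x, y be involutions with xy of even order n and z = (xy)^(n/2). Then xz is conjugate to x by an element of the subgroup generated by x, y if and only if 4 divides n. -/
theorem result {G : Type*} [Group G] [Finite G] (x y : G) (hx : orderOf x = 2) (hy : orderOf y = 2) (heven : Even (orderOf (x * y))) : (∃ d ∈ Subgroup.closure ({x, y} : Set G), d * x * d⁻¹ = x * (x * y) ^ (orderOf (x * y) / 2)) ↔ 4 ∣ orderOf (x * y) := by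
  have hx2 := Cfsg.Agent.Lib.InvPair.mul_self_of_order hx
  have hy2 := Cfsg.Agent.Lib.InvPair.mul_self_of_order hy
  obtain ⟨m, hm⟩ := heven
  have hm2 : orderOf (x * y) / 2 = m := by omega
  rw [hm2]
  have hxz := Cfsg.Agent.Lib.InvPair.x_mul_zpow hx2 hy2 (m : ℤ)
  rw [zpow_natCast] at hxz
  constructor
  · rintro ⟨d, hd, e⟩
    obtain ⟨k, hk⟩ := Cfsg.Agent.Lib.InvPair.conj_form hx2 hy2 hd
    rw [hk, hxz] at e
    have h2 := mul_right_cancel e
    have h3 : (x * y) ^ (2 * k + (m : ℤ)) = 1 := by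
      rw [zpow_add, h2, zpow_neg, zpow_natCast, inv_mul_cancel]
    have h4 := orderOf_dvd_iff_zpow_eq_one.2 h3
    have h5 : (2 : ℤ) ∣ (orderOf (x * y) : ℤ) := ⟨m, by rw [hm]; push_cast; ring⟩
    have h6 := h5.trans h4
    have h7 : 2 ∣ m := by omega
    obtain ⟨q, rfl⟩ := h7
    exact ⟨q, by rw [hm]; ring⟩
  · rintro ⟨q, hq⟩
    have hmq : m = 2 * q := by omega
    refine ⟨(x * y) ^ (-(q : ℤ)), zpow_mem (Cfsg.Agent.Lib.InvPair.mul_mem_closure x y) _, ?_⟩
    rw [Cfsg.Agent.Lib.InvPair.conj_zpow_form hx2 hy2, hxz]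
    congr 2
    rw [hmq]
    push_cast
    ring

end Cfsg.Agent.S0211
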