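import Mathlib
import Cfsg.Agent.Lib.InvCount
import Cfsg.Agent.Lib.SylowCount
import Cfsg.Statements.S0212
-- import your own Cfsg.Agent.* helpers here

set_option autoImplicit false
open Cfsg

namespace Cfsg.Agent.S0212

/-- The Brauer–Fowler bound: if G is a finite simple group and t an involution of G whose centralizer has order n, then |G| ≤ (2n^2)!. -/
theorem result {G : Type*} [Group G] [Finite G] [IsSimpleGroup G] (t : G) (ht : orderOf t = 2) : Nat.card G ≤ Nat.factorial (2 * (Nat.card (Subgroup.centralizer ({t} : Set G))) ^ 2) := by
  classical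
  haveI : Fact (Nat.Prime 2) := ⟨Nat.prime_two⟩
  set k := Nat.card (Subgroup.centralizer ({t} : Set G)) with hk
  have hkpos : 0 < k := Nat.card_pos
  have hsmall : Nat.card G ≤ 2 * k ^ 2 → Nat.card G ≤ Nat.factorial (2 * k ^ 2) := fun h =>
    h.trans (Nat.self_le_factorial _)
  by_cases hno : ∀ H : Subgroup G, H.index ≠ 2
  · rcases IsSimpleGroup.eq_bot_or_eq_top_of_normal (Subgroup.center G) inferInstance with hZ | hZ
    · have hZodd : Odd (Nat.card (Subgroup.center G)) := by
        rw [hZ, Subgroup.card_bot]
        exact odd_one
      have heven : Even (Nat.card G) := by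
        have := orderOf_dvd_natCard t
        rw [ht] at this
        exact even_iff_two_dvd.2 this
      obtain ⟨H, hH, hmax, hkey⟩ := Cfsg.Agent.Lib.InvCount.exists_large_subgroup heven hZodd hno
      have hCne : Subgroup.centralizer ({t} : Set G) ≠ ⊤ := by
        intro h
        have hmem : t ∈ Subgroup.center G := by
          rw [Subgroup.mem_center_iff]
          intro g
          have : g ∈ Subgroup.centralizer ({t} : Set G) := by rw [h]; trivial
          exact Subgroup.mem_centralizer_singleton_iff.1 this
        rw [hZ, Subgroup.mem_bot] at hmem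
        rw [hmem, orderOf_one] at ht
        omega
      set n := Cfsg.Agent.Lib.InvCount.inv G with hn
      set m := Nat.card H with hm
      have hmpos : 0 < m := Nat.card_pos
      have hcl : (Subgroup.centralizer ({t} : Set G)).index ≤ n := by
        rw [← Cfsg.Agent.Lib.H6Basic.card_class_eq_index t, hn, Cfsg.Agent.Lib.InvCount.inv]
        refine Nat.card_le_card_of_injective
          (fun y => ⟨y.1, ?_⟩) ?_
        · obtain ⟨g, hg⟩ := isConj_iff.1 y.2
          rw [← hg, Cfsg.Agent.Lib.InvPair.orderOf_conj_eq, ht]
        · intro a b h
          have := congrArg (fun w : {t : G // orderOf t = 2} => w.1) h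
          exact Subtype.ext this
      have hNnk : Nat.card G ≤ n * k := by
        rw [← Subgroup.index_mul_card (Subgroup.centralizer ({t} : Set G))]
        exact Nat.mul_le_mul_right _ hcl
      have hi : H.index * m = Nat.card G := Subgroup.index_mul_card H
      have hnpos : 0 < n := by
        by_contra h0
        have h00 : n = 0 := by omega
        rw [h00] at hNnk
        have := Nat.card_pos (α := G)
        omega
      have h1 : 2 * n ^ 2 < (Nat.card G + n) * m := by omega
      have hip : 0 < H.index := Nat.pos_of_ne_zero Subgroup.index_ne_zero_of_finite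
      have h2 : 2 * H.index * n ^ 2 < Nat.card G * (Nat.card G + n) := by
        calc 2 * H.index * n ^ 2 = H.index * (2 * n ^ 2) := by ring
          _ < H.index * ((Nat.card G + n) * m) := Nat.mul_lt_mul_of_pos_left h1 hip
          _ = (H.index * m) * (Nat.card G + n) := by ring
          _ = Nat.card G * (Nat.card G + n) := by rw [hi]
      have h3 : Nat.card G * (Nat.card G + n) ≤ (n * k) * (n * k + n) :=
        Nat.mul_le_mul hNnk (by omega)
      have h4 : 2 * H.index * n ^ 2 < (k * (k + 1)) * n ^ 2 := by
        calc 2 * H.index * n ^ 2 < (n * k) * (n * k + n) := lt_of_lt_of_le h2 h3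
          _ = (k * (k + 1)) * n ^ 2 := by ring
      have h5 : 2 * H.index < k * (k + 1) :=
        Nat.lt_of_mul_lt_mul_right h4
      have h6 : H.index ≤ 2 * k ^ 2 := by nlinarith
      have hnc : ¬ IsMulCommutative G := by
        intro hc
        have hmem : t ∈ Subgroup.center G := by
          rw [Subgroup.mem_center_iff]
          intro g
          exact hc.is_comm.comm g t
        rw [hZ, Subgroup.mem_bot] at hmem
        rw [hmem, orderOf_one] at ht
        omega
      have h7 : Nat.card G ∣ H.index.factorial :=
        (Dvd.intro_left 2 rfl).trans (Cfsg.Agent.Lib.SylowCount.two_mul_card_dvd_factorial hnc H hH)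
      exact (Nat.le_of_dvd (Nat.factorial_pos _) h7).trans (Nat.factorial_le h6)
    · apply hsmall
      have htc : Subgroup.centralizer ({t} : Set G) = ⊤ := by
        rw [eq_top_iff]
        intro g _
        rw [Subgroup.mem_centralizer_singleton_iff]
        have : t ∈ Subgroup.center G := by rw [hZ]; trivial
        exact (Subgroup.mem_center_iff.1 this g)
      rw [hk, htc, Subgroup.card_top]
      nlinarith [Nat.card_pos (α := G)]
  · push Not at hno
    obtain ⟨H, hH⟩ := hno
    apply hsmall
    haveI : H.Normal := Subgroup.normal_of_index_eq_two hH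
    rcases IsSimpleGroup.eq_bot_or_eq_top_of_normal H inferInstance with h | h
    · rw [h, Subgroup.index_bot] at hH
      rw [hH]
      nlinarith
    · rw [h, Subgroup.index_top] at hH
      omega

end Cfsg.Agent.S0212
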