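import Mathlib
import Cfsg.Agent.Lib.InvPair
import Cfsg.Agent.Lib.SylowCount
import Cfsg.Agent.S0208
import Cfsg.Statements.S0213
-- import your own Cfsg.Agent.* helpers here

set_option autoImplicit false
open Cfsg

namespace Cfsg.Agent.S0213

/-- Thompson Order Formula, two-class case: if every involution of the finite group G is conjugate to exactly one of the non-conjugate involutions x₁, x₂, and nᵢ is the number of pairs (u, v) with u conjugate to x₁, v conjugate to x₂ and xᵢ in the cyclic group generated by uv, then |G| = |C(x₂)| n₁ + |C(x₁)| n₂. -/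
theorem result {G : Type*} [Group G] [Finite G] (x₁ x₂ : G) (h₁ : orderOf x₁ = 2) (h₂ : orderOf x₂ = 2) (hnc : ¬ IsConj x₁ x₂) (hall : ∀ t : G, orderOf t = 2 → IsConj x₁ t ∨ IsConj x₂ t) : Nat.card G = Nat.card (Subgroup.centralizer ({x₂} : Set G)) * Nat.card {p : G × G // IsConj x₁ p.1 ∧ IsConj x₂ p.2 ∧ x₁ ∈ Subgroup.zpowers (p.1 * p.2)} + Nat.card (Subgroup.centralizer ({x₁} : Set G)) * Nat.card {p : G × G // IsConj x₁ p.1 ∧ IsConj x₂ p.2 ∧ x₂ ∈ Subgroup.zpowers (p.1 * p.2)} := by
  classical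
  haveI := Fintype.ofFinite G
  -- the two classes
  let C₁ : Finset G := Finset.univ.filter (fun v => IsConj x₁ v)
  let C₂ : Finset G := Finset.univ.filter (fun v => IsConj x₂ v)
  let X : Finset (G × G) := C₁ ×ˢ C₂
  let N : G → ℕ := fun t => (X.filter (fun p => t ∈ Subgroup.zpowers (p.1 * p.2))).card
  have hXmem : ∀ p : G × G, p ∈ X ↔ IsConj x₁ p.1 ∧ IsConj x₂ p.2 := by
    intro p
    simp [X, C₁, C₂]
  have hn : ∀ t : G, Nat.card {p : G × G // IsConj x₁ p.1 ∧ IsConj x₂ p.2 ∧ t ∈ Subgroup.zpowers (p.1 * p.2)} = N t := by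
    intro t
    rw [Nat.card_eq_fintype_card, Fintype.card_subtype]
    congr 1
    ext p
    simp [X, C₁, C₂, and_assoc]
  rw [hn, hn]
  -- conjugation invariance
  have hNconj : ∀ (g t : G), N (g * t * g⁻¹) = N t := by
    intro g t
    have hcj : ∀ (g a b : G), (g * a * g⁻¹) * (g * b * g⁻¹) = g * (a * b) * g⁻¹ := by
      intro g a b; group
    apply Finset.card_bij (fun p _ => (g⁻¹ * p.1 * g, g⁻¹ * p.2 * g))
    · intro p hp
      rw [Finset.mem_filter, hXmem] at hp ⊢
      obtain ⟨⟨h1, h2⟩, h3⟩ := hp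
      refine ⟨⟨?_, ?_⟩, ?_⟩
      · exact h1.trans (isConj_iff.2 ⟨g⁻¹, by group⟩)
      · exact h2.trans (isConj_iff.2 ⟨g⁻¹, by group⟩)
      · obtain ⟨k, hk⟩ := h3
        refine ⟨k, ?_⟩
        simp only at hk ⊢
        have e : g⁻¹ * p.1 * g * (g⁻¹ * p.2 * g) = g⁻¹ * (p.1 * p.2) * g := by group
        rw [e]
        have e2 : (g⁻¹ * (p.1 * p.2) * g) ^ k = g⁻¹ * (p.1 * p.2) ^ k * g := by
          have := conj_zpow (a := g⁻¹) (b := p.1 * p.2) (i := k)
          rwa [inv_inv] at this
        rw [e2, hk]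
        group
    · intro p _ q _ h
      simp only [Prod.mk.injEq] at h
      apply Prod.ext
      · have := h.1
        simpa using this
      · have := h.2
        simpa using this
    · intro q hq
      rw [Finset.mem_filter, hXmem] at hq
      obtain ⟨⟨h1, h2⟩, h3⟩ := hq
      refine ⟨(g * q.1 * g⁻¹, g * q.2 * g⁻¹), ?_, ?_⟩
      · rw [Finset.mem_filter, hXmem]
        refine ⟨⟨?_, ?_⟩, ?_⟩
        · exact h1.trans (isConj_iff.2 ⟨g, rfl⟩)
        · exact h2.trans (isConj_iff.2 ⟨g, rfl⟩)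
        · obtain ⟨k, hk⟩ := h3
          refine ⟨k, ?_⟩
          simp only at hk ⊢
          rw [hcj, conj_zpow, hk]
      · apply Prod.ext <;> simp <;> group
  have hN1 : ∀ t ∈ C₁, N t = N x₁ := by
    intro t ht
    obtain ⟨g, hg⟩ := isConj_iff.1 (Finset.mem_filter.1 ht).2
    rw [← hg, hNconj]
  have hN2 : ∀ t ∈ C₂, N t = N x₂ := by
    intro t ht
    obtain ⟨g, hg⟩ := isConj_iff.1 (Finset.mem_filter.1 ht).2
    rw [← hg, hNconj]
  have hdisj : Disjoint C₁ C₂ := by
    rw [Finset.disjoint_left]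
    intro t h1 h2
    exact hnc ((Finset.mem_filter.1 h1).2.trans (Finset.mem_filter.1 h2).2.symm)
  -- the involution attached to a pair
  let z : G × G → G := fun p => (p.1 * p.2) ^ (orderOf (p.1 * p.2) / 2)
  have hzprops : ∀ p ∈ X, z p ∈ C₁ ∪ C₂ ∧ ∀ t : G, orderOf t = 2 →
      (t ∈ Subgroup.zpowers (p.1 * p.2) ↔ z p = t) := by
    intro p hp
    obtain ⟨h1, h2⟩ := (hXmem p).1 hp
    have hu : orderOf p.1 = 2 := by
      obtain ⟨g, hg⟩ := isConj_iff.1 h1
      rw [← hg, Cfsg.Agent.Lib.InvPair.orderOf_conj_eq, h₁]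
    have hv : orderOf p.2 = 2 := by
      obtain ⟨g, hg⟩ := isConj_iff.1 h2
      rw [← hg, Cfsg.Agent.Lib.InvPair.orderOf_conj_eq, h₂]
    have heven : Even (orderOf (p.1 * p.2)) := by
      by_contra hodd
      rw [Nat.not_even_iff_odd] at hodd
      obtain ⟨d, -, hd⟩ := Cfsg.Agent.S0208.result p.1 p.2 hu hv hodd
      exact hnc ((h1.trans (isConj_iff.2 ⟨d, hd⟩)).trans h2.symm)
    obtain ⟨m, hm⟩ := heven
    have hm2 : orderOf (p.1 * p.2) / 2 = m := by omega
    have hz : orderOf (z p) = 2 := by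
      have hn0 : orderOf (p.1 * p.2) ≠ 0 := (orderOf_pos _).ne'
      exact orderOf_pow_orderOf_div hn0 (by omega)
    refine ⟨?_, ?_⟩
    · rcases hall (z p) hz with h | h
      · exact Finset.mem_union_left _ (Finset.mem_filter.2 ⟨Finset.mem_univ _, h⟩)
      · exact Finset.mem_union_right _ (Finset.mem_filter.2 ⟨Finset.mem_univ _, h⟩)
    · intro t ht
      constructor
      · rintro ⟨k, hk⟩
        simp only at hk
        have h3 : (p.1 * p.2) ^ (2 * k) = 1 := by
          rw [mul_comm, zpow_mul, hk, zpow_two, Cfsg.Agent.Lib.InvPair.mul_self_of_order ht]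
        have h4 := orderOf_dvd_iff_zpow_eq_one.2 h3
        rw [hm] at h4
        obtain ⟨c, hc⟩ := h4
        have hk2 : k = (m : ℤ) * c := by
          push_cast at hc
          have : (2 : ℤ) * k = 2 * ((m : ℤ) * c) := by linarith
          exact mul_left_cancel₀ (by norm_num) this
        have hzz : (z p) * (z p) = 1 := Cfsg.Agent.Lib.InvPair.mul_self_of_order hz
        have hzdef : z p = (p.1 * p.2) ^ m := by
          simp only [z]
          rw [hm2]
        have ht2 : t = (z p) ^ c := by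
          rw [← hk, hk2, zpow_mul, zpow_natCast, hzdef]
        rcases Int.emod_two_eq_zero_or_one c with hc0 | hc1
        · exfalso
          obtain ⟨d, rfl⟩ : ∃ d, c = 2 * d := ⟨c / 2, by omega⟩
          rw [zpow_mul, zpow_two, hzz, one_zpow] at ht2
          rw [ht2, orderOf_one] at ht
          omega
        · obtain ⟨d, rfl⟩ : ∃ d, c = 2 * d + 1 := ⟨c / 2, by omega⟩
          rw [zpow_add, zpow_mul, zpow_two, hzz, one_zpow, one_mul, zpow_one] at ht2
          exact ht2.symm
      · rintro rfl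
        exact ⟨((orderOf (p.1 * p.2) / 2 : ℕ) : ℤ), zpow_natCast _ _⟩
  -- counting
  have hcount : X.card = C₁.card * N x₁ + C₂.card * N x₂ := by
    have hmaps : ∀ p ∈ X, z p ∈ C₁ ∪ C₂ := fun p hp => (hzprops p hp).1
    rw [Finset.card_eq_sum_card_fiberwise (f := z) (t := C₁ ∪ C₂) (fun p hp => hmaps p hp),
      Finset.sum_union hdisj]
    have hfib : ∀ t ∈ C₁ ∪ C₂, (X.filter (fun p => z p = t)).card = N t := by
      intro t ht
      have hto : orderOf t = 2 := by
        rcases Finset.mem_union.1 ht with h | h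
        · obtain ⟨g, hg⟩ := isConj_iff.1 (Finset.mem_filter.1 h).2
          rw [← hg, Cfsg.Agent.Lib.InvPair.orderOf_conj_eq, h₁]
        · obtain ⟨g, hg⟩ := isConj_iff.1 (Finset.mem_filter.1 h).2
          rw [← hg, Cfsg.Agent.Lib.InvPair.orderOf_conj_eq, h₂]
      simp only [N]
      congr 1
      apply Finset.filter_congr
      intro p hp
      exact ((hzprops p hp).2 t hto).symm
    rw [Finset.sum_congr rfl (fun t ht => (hfib t (Finset.mem_union_left _ ht)).trans (hN1 t ht)),
      Finset.sum_congr rfl (fun t ht => (hfib t (Finset.mem_union_right _ ht)).trans (hN2 t ht)),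
      Finset.sum_const, Finset.sum_const, smul_eq_mul, smul_eq_mul]
  have hX : X.card = C₁.card * C₂.card := Finset.card_product _ _
  have hc1 : C₁.card * Nat.card (Subgroup.centralizer ({x₁} : Set G)) = Nat.card G := by
    have h := Cfsg.Agent.Lib.SylowCount.card_class_mul_centralizer x₁
    rwa [Nat.card_eq_fintype_card (α := {g : G // IsConj x₁ g}), Fintype.card_subtype] at h
  have hc2 : C₂.card * Nat.card (Subgroup.centralizer ({x₂} : Set G)) = Nat.card G := by
    have h := Cfsg.Agent.Lib.SylowCount.card_class_mul_centralizer x₂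
    rwa [Nat.card_eq_fintype_card (α := {g : G // IsConj x₂ g}), Fintype.card_subtype] at h
  set a := Nat.card (Subgroup.centralizer ({x₁} : Set G))
  set b := Nat.card (Subgroup.centralizer ({x₂} : Set G))
  set c₁ := C₁.card
  set c₂ := C₂.card
  set n₁ := N x₁
  set n₂ := N x₂
  set g := Nat.card G
  have hgpos : 0 < g := Nat.card_pos
  have key : g * g = g * (b * n₁ + a * n₂) := by
    calc g * g = (c₁ * a) * (c₂ * b) := by rw [hc1, hc2]
      _ = (c₁ * c₂) * (a * b) := by ring
      _ = (c₁ * n₁ + c₂ * n₂) * (a * b) := by rw [← hX, hcount]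
      _ = (c₁ * a) * (b * n₁) + (c₂ * b) * (a * n₂) := by ring
      _ = g * (b * n₁ + a * n₂) := by rw [hc1, hc2]; ring
  exact Nat.eq_of_mul_eq_mul_left hgpos key

end Cfsg.Agent.S0213
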