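import Mathlib
import Cfsg.Agent.Lib.InvPair
import Cfsg.Statements.S0216
-- import your own Cfsg.Agent.* helpers here

set_option autoImplicit false
open Cfsg

namespace Cfsg.Agent.S0216

/-- For an involution u in a Sylow 2-subgroup P of a finite group G, the following are equivalent: no G-conjugate of u other than u lies in P; every commutator of u with an element of G has odd order. -/
theorem result {G : Type*} [Group G] [Finite G] (P : Sylow 2 G) (u : G) (hu : orderOf u = 2) (huP : u ∈ P) : (∀ g : G, g * u * g⁻¹ ∈ P → g * u * g⁻¹ = u) ↔ (∀ g : G, Odd (orderOf (u * g * u⁻¹ * g⁻¹))) := by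
  classical
  have hu2 := Cfsg.Agent.Lib.InvPair.mul_self_of_order hu
  have hui := Cfsg.Agent.Lib.InvPair.inv_of_order hu
  constructor
  · intro hiso g
    set v := g * u * g⁻¹ with hv
    have hov : orderOf v = 2 := by
      rw [hv, Cfsg.Agent.Lib.InvPair.orderOf_conj_eq, hu]
    have hv2 := Cfsg.Agent.Lib.InvPair.mul_self_of_order hov
    have hvi := Cfsg.Agent.Lib.InvPair.inv_of_order hov
    have e : u * g * u⁻¹ * g⁻¹ = u * v := by
      rw [hv, hui]; group
    rw [e]
    by_contra hodd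
    rw [Nat.not_odd_iff_even] at hodd
    have hn : orderOf (u * v) ≠ 0 := (orderOf_pos _).ne'
    have h2 : 2 ∣ orderOf (u * v) := hodd.two_dvd
    obtain ⟨m, hm⟩ := h2
    have hm2 : orderOf (u * v) / 2 = m := by omega
    have hz : orderOf ((u * v) ^ m) = 2 := by
      rw [← hm2]
      exact orderOf_pow_orderOf_div hn (by omega)
    have hzi := Cfsg.Agent.Lib.InvPair.inv_of_order hz
    have h3 := Cfsg.Agent.Lib.InvPair.x_mul_zpow hu2 hv2 (m : ℤ)
    rw [zpow_natCast, zpow_neg, zpow_natCast, hzi] at h3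
    have hcomm : Commute u ((u * v) ^ m) := h3
    -- `u z` is conjugate to `u`
    have hconj : ∃ c : G, c * u * c⁻¹ = u * (u * v) ^ m := by
      rw [h3]
      have h4 : (u * v) ^ m = (u * v) ^ (-(m : ℤ)) := by
        rw [zpow_neg, zpow_natCast, hzi]
      rcases Nat.even_or_odd' m with ⟨q, rfl | rfl⟩
      · refine ⟨(u * v) ^ (-(q : ℤ)), ?_⟩
        rw [Cfsg.Agent.Lib.InvPair.conj_zpow_form hu2 hv2, h4]
        congr 2
        push_cast
        ring
      · refine ⟨(u * v) ^ (-(q : ℤ)) * g, ?_⟩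
        have h5 : ((u * v) ^ (-(q : ℤ)) * g) * u * ((u * v) ^ (-(q : ℤ)) * g)⁻¹ =
            (u * v) ^ (-(q : ℤ)) * v * ((u * v) ^ (-(q : ℤ)))⁻¹ := by
          rw [hv]; group
        rw [h5]
        have h6 := Cfsg.Agent.Lib.InvPair.y_eq hu2 hv2
        nth_rewrite 2 [h6]
        have h7 : ∀ k : ℤ, (u * v) ^ k * ((u * v) ^ (-1 : ℤ) * u) * ((u * v) ^ k)⁻¹ =
            (u * v) ^ (-1 : ℤ) * ((u * v) ^ k * u * ((u * v) ^ k)⁻¹) := by
          intro k
          have : Commute ((u * v) ^ k) ((u * v) ^ (-1 : ℤ)) := (Commute.refl _).zpow_zpow _ _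
          rw [← mul_assoc ((u * v) ^ k), this.eq, mul_assoc ((u * v) ^ (-1 : ℤ)), mul_assoc ((u * v) ^ (-1 : ℤ))]
        rw [h7, Cfsg.Agent.Lib.InvPair.conj_zpow_form hu2 hv2, ← mul_assoc, ← zpow_add, h4]
        congr 2
        push_cast
        ring
    obtain ⟨c, hc⟩ := hconj
    exact Cfsg.Agent.Lib.InvPair.isolated_conj_eq P hu huP hiso hz hcomm hc
  · intro hodd g hg
    set v := g * u * g⁻¹ with hv
    have hov : orderOf v = 2 := by
      rw [hv, Cfsg.Agent.Lib.InvPair.orderOf_conj_eq, hu]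
    have hvi := Cfsg.Agent.Lib.InvPair.inv_of_order hov
    have e : u * g * u⁻¹ * g⁻¹ = u * v := by
      rw [hv, hui]; group
    have h1 := hodd g
    rw [e] at h1
    haveI : Fact (Nat.Prime 2) := ⟨Nat.prime_two⟩
    have h2 : u * v ∈ (P : Subgroup G) := mul_mem huP hg
    obtain ⟨k, hk⟩ := (IsPGroup.iff_orderOf.1 P.2) ⟨u * v, h2⟩
    rw [Subgroup.orderOf_mk] at hk
    rw [hk] at h1
    have hk0 : k = 0 := by
      by_contra hne
      obtain ⟨j, rfl⟩ := Nat.exists_eq_succ_of_ne_zero hne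
      rw [pow_succ] at h1
      exact (Nat.not_even_iff_odd.2 h1) ⟨2 ^ j, by ring⟩
    rw [hk0, pow_zero] at hk
    have h3 : u * v = 1 := orderOf_eq_one_iff.1 hk
    have h4 : v = u⁻¹ := eq_inv_of_mul_eq_one_right h3
    rw [h4, hui]

end Cfsg.Agent.S0216
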