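import Mathlib
import Cfsg.Agent.Lib.Quaternion
import Cfsg.Statements.S0218
-- import your own Cfsg.Agent.* helpers here

set_option autoImplicit false
open Cfsg

namespace Cfsg.Agent.S0218

/-- The generalized quaternion group of order 2^(n+3) contains exactly one element of order 2. -/
theorem result (n : ℕ) : Nat.card {x : QuaternionGroup (2 ^ (n + 1)) // orderOf x = 2} = 1 := by
  classical
  haveI : NeZero (2 ^ (n + 1)) := ⟨pow_ne_zero _ (by norm_num)⟩
  have h1 : ∀ g : QuaternionGroup (2 ^ (n + 1)), orderOf g = 2 →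
      g = QuaternionGroup.a ((2 ^ (n + 1) : ℕ) : ZMod (2 * 2 ^ (n + 1))) := by
    intro g hg
    apply Cfsg.Agent.Lib.Quaternion.q_invol
    · have h3 : g ^ orderOf g = 1 := pow_orderOf_eq_one g
      rw [hg, pow_two] at h3
      exact h3
    · rintro rfl
      rw [orderOf_one] at hg
      omega
  have h2 : orderOf (QuaternionGroup.a ((2 ^ (n + 1) : ℕ) : ZMod (2 * 2 ^ (n + 1)))) = 2 := by
    apply orderOf_eq_prime
    · rw [pow_two, QuaternionGroup.a_mul_a, ← Nat.cast_add, ← two_mul, ZMod.natCast_self]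
      rfl
    · intro h
      rw [QuaternionGroup.one_def, QuaternionGroup.a.injEq] at h
      exact Cfsg.Agent.Lib.Quaternion.natCast_ne_zero_zmod _ h
  rw [Nat.card_eq_one_iff_unique]
  refine ⟨⟨fun a b => Subtype.ext ((h1 a.1 a.2).trans (h1 b.1 b.2).symm)⟩, ⟨⟨_, h2⟩⟩⟩

end Cfsg.Agent.S0218
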