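import Mathlib
import Cfsg.Statements.S0219
-- import your own Cfsg.Agent.* helpers here

set_option autoImplicit false
open Cfsg

namespace Cfsg.Agent.S0219

/-- If a finite group has even order and a cyclic Sylow 2-subgroup, then it has a subgroup of index 2 (consider the parity of permutations in the regular representation). -/
theorem result {G : Type*} [Group G] [Finite G] (heven : Even (Nat.card G)) (T : Sylow 2 G) (hT : IsCyclic (T : Subgroup G)) : ∃ H : Subgroup G, H.index = 2 := by
  classical
  have h2 : 2 ∣ Nat.card G := heven.two_dvd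
  have hmin : (Nat.card G).minFac = 2 := (Nat.minFac_eq_two_iff _).2 h2
  have hc := IsCyclic.isComplement' hmin hT
  set f := MonoidHom.transferSylow T (IsCyclic.normalizer_le_centralizer hmin hT) with hf
  have hidx : f.ker.index = Nat.card T := hc.symm.index_eq_card
  have hsurj : Function.Surjective f := by
    rw [← MonoidHom.range_eq_top]
    apply Subgroup.eq_top_of_card_eq
    rw [← Subgroup.index_ker, hidx]
  obtain ⟨⟨g, hg⟩⟩ := hT
  have h2T : 2 ∣ Nat.card T := by
    have h3 := T.not_dvd_index
    have h4 : Nat.card G = (T : Subgroup G).index * Nat.card T :=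
      (Subgroup.index_mul_card _).symm
    rw [h4] at h2
    exact (Nat.prime_two.dvd_mul.1 h2).resolve_left h3
  have hog : orderOf g = Nat.card T := orderOf_eq_card_of_forall_mem_zpowers hg
  let T₀ : Subgroup T := Subgroup.zpowers (g ^ 2)
  have hT₀ : T₀.index = 2 := by
    have h5 : Nat.card T₀ * 2 = Nat.card T := by
      rw [Nat.card_zpowers, orderOf_pow, hog, Nat.gcd_eq_right h2T]
      exact Nat.div_mul_cancel h2T
    have h6 := Subgroup.card_mul_index T₀
    rw [← h5] at h6
    exact Nat.eq_of_mul_eq_mul_left (Nat.pos_of_ne_zero (by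
      intro h0
      rw [h0, zero_mul] at h5
      exact Nat.card_pos.ne' h5.symm)) h6
  refine ⟨T₀.comap f, ?_⟩
  rw [Subgroup.index_comap_of_surjective _ hsurj, hT₀]

end Cfsg.Agent.S0219
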