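import Mathlib
import Cfsg.Agent.Lib.InvPair
import Cfsg.Agent.Lib.H5Basic
import Cfsg.Agent.S0219
import Cfsg.Statements.S0220
-- import your own Cfsg.Agent.* helpers here

set_option autoImplicit false
open Cfsg

namespace Cfsg.Agent.S0220

theorem aux {G : Type*} [Group G] [Finite G] (x : G) (hx : orderOf x = 2) (C : Subgroup G)
    (hC : C = Subgroup.centralizer ({x} : Set G)) (S : Sylow 2 C) (hS : IsCyclic (S : Subgroup C)) :
    ∃ H : Subgroup G, H.index = 2 := by
  classical
  haveI : Fact (Nat.Prime 2) := ⟨Nat.prime_two⟩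
  have hxC : x ∈ C := by
    rw [hC]
    exact Subgroup.mem_centralizer_singleton_iff.2 rfl
  let x' : C := ⟨x, hxC⟩
  have hx'o : orderOf x' = 2 := by rw [Subgroup.orderOf_mk, hx]
  have hx'c : ∀ c : C, c * x' = x' * c := by
    intro c
    apply Subtype.ext
    have hc2 : c.1 ∈ Subgroup.centralizer ({x} : Set G) := hC.le c.2
    exact (Subgroup.mem_centralizer_singleton_iff.1 hc2)
  have hzp : IsPGroup 2 (Subgroup.zpowers x') := by
    apply IsPGroup.of_card (n := 1)
    rw [Nat.card_zpowers, hx'o, pow_one]
  haveI hzn : (Subgroup.zpowers x').Normal := by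
    refine ⟨fun n hn g => ?_⟩
    obtain ⟨k, rfl⟩ := hn
    have h2 : Commute g (x' ^ k) := (show Commute g x' from hx'c g).zpow_right k
    simp only
    rw [h2.eq, mul_inv_cancel_right]
    exact Subgroup.zpow_mem_zpowers _ _
  have hmax : (S : Subgroup C) ⊔ Subgroup.zpowers x' = S :=
    S.is_maximal' (IsPGroup.to_sup_of_normal_right S.2 hzp) le_sup_left
  have hx'S : x' ∈ (S : Subgroup C) := by
    rw [← hmax]
    exact (le_sup_right : Subgroup.zpowers x' ≤ _) (Subgroup.mem_zpowers x')
  let S' : Subgroup G := (S : Subgroup C).map C.subtype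
  have hS'p : IsPGroup 2 S' := S.2.map _
  have hxS' : x ∈ S' := ⟨x', hx'S, rfl⟩
  have hmem : ∀ c : C, c.1 ∈ S' ↔ c ∈ (S : Subgroup C) := by
    intro c
    constructor
    · rintro ⟨d, hd, e⟩
      have : d = c := Subtype.ext e
      rwa [← this]
    · intro h
      exact ⟨c, h, rfl⟩
  have hcyc' : IsCyclic S' := by
    haveI := hS
    exact isCyclic_of_surjective (C.subtype.subgroupMap (S : Subgroup C))
      (C.subtype.subgroupMap_surjective _)
  have huniq : ∀ a ∈ S', orderOf a = 2 → a = x := by
    intro a ha hao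
    by_contra hne
    haveI := Fintype.ofFinite S'
    have h1 := IsCyclic.card_pow_eq_one_le (α := S') (n := 2) (by norm_num)
    let A : S' := ⟨a, ha⟩
    let X : S' := ⟨x, hxS'⟩
    have hA : A ^ 2 = 1 := Subtype.ext (by
      change a ^ 2 = 1
      rw [← hao]; exact pow_orderOf_eq_one a)
    have hX : X ^ 2 = 1 := Subtype.ext (by
      change x ^ 2 = 1
      rw [← hx]; exact pow_orderOf_eq_one x)
    have hA1 : A ≠ 1 := fun h => by
      have : a = 1 := congrArg Subtype.val h
      rw [this, orderOf_one] at hao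
      omega
    have hX1 : X ≠ 1 := fun h => by
      have : x = 1 := congrArg Subtype.val h
      rw [this, orderOf_one] at hx
      omega
    have hAX : A ≠ X := fun h => hne (congrArg Subtype.val h)
    have hsub : ({1, A, X} : Finset S') ⊆ Finset.univ.filter (fun y : S' => y ^ 2 = 1) := by
      intro y hy
      simp only [Finset.mem_insert, Finset.mem_singleton] at hy
      rw [Finset.mem_filter]
      refine ⟨Finset.mem_univ _, ?_⟩
      rcases hy with rfl | rfl | rfl
      · simp
      · exact hA
      · exact hX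
    have h2 := Finset.card_le_card hsub
    have h3 : ({1, A, X} : Finset S').card = 3 := by
      rw [Finset.card_insert_of_notMem, Finset.card_insert_of_notMem, Finset.card_singleton]
      · simpa using hAX
      · simp only [Finset.mem_insert, Finset.mem_singleton, not_or]
        exact ⟨hA1.symm, hX1.symm⟩
    omega
  obtain ⟨T, hT⟩ := hS'p.exists_le_sylow
  have heq : S' = T := by
    by_contra hne
    obtain ⟨u, huT, huS, hun⟩ :=
      Cfsg.Agent.Lib.H5Basic.exists_mem_normalizer_of_lt T.2 hT hne
    have h1 : u * x * u⁻¹ ∈ S' := (Subgroup.mem_normalizer_iff.1 hun x).1 hxS'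
    have h2 : orderOf (u * x * u⁻¹) = 2 := by rw [Cfsg.Agent.Lib.InvPair.orderOf_conj_eq, hx]
    have h3 := huniq _ h1 h2
    have huC : u ∈ C := by
      rw [hC]
      exact Subgroup.mem_centralizer_singleton_iff.2 (mul_inv_eq_iff_eq_mul.1 h3)
    let u' : C := ⟨u, huC⟩
    have hu'p : IsPGroup 2 (Subgroup.zpowers u') := by
      obtain ⟨k, hk⟩ := (IsPGroup.iff_orderOf.1 T.2) ⟨u, huT⟩
      rw [Subgroup.orderOf_mk] at hk
      apply IsPGroup.of_card (n := k)
      rw [Nat.card_zpowers, Subgroup.orderOf_mk, hk]
    have hnorm : Subgroup.zpowers u' ≤ Subgroup.normalizer ((S : Subgroup C) : Set C) := by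
      rw [Subgroup.zpowers_le, Subgroup.mem_normalizer_iff]
      intro c
      rw [← hmem c]
      have h5 : (u' * c * u'⁻¹ : C) ∈ (S : Subgroup C) ↔ u * c.1 * u⁻¹ ∈ S' := by
        rw [← hmem]
        rfl
      rw [h5]
      exact Subgroup.mem_normalizer_iff.1 hun c.1
    have hmax2 : (S : Subgroup C) ⊔ Subgroup.zpowers u' = S :=
      S.is_maximal' (IsPGroup.to_sup_of_normal_left' S.2 hu'p hnorm) le_sup_left
    have hu'S : u' ∈ (S : Subgroup C) := by
      rw [← hmax2]
      exact (le_sup_right : Subgroup.zpowers u' ≤ _) (Subgroup.mem_zpowers u')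
    exact huS ((hmem u').2 hu'S)
  have hcycT : IsCyclic (T : Subgroup G) := by
    rw [← heq]
    exact hcyc'
  have heven : Even (Nat.card G) := by
    have := orderOf_dvd_natCard x
    rw [hx] at this
    exact even_iff_two_dvd.2 this
  exact Cfsg.Agent.S0219.result heven T hcycT


/-- If x is an involution of a finite group G and a Sylow 2-subgroup of the centralizer of x is cyclic, then G has a subgroup of index 2; in particular G is not simple unless it has order 2. -/
theorem result {G : Type*} [Group G] [Finite G] (x : G) (hx : orderOf x = 2) (S : Sylow 2 ↥(Subgroup.centralizer ({x} : Set G))) (hS : IsCyclic (S : Subgroup ↥(Subgroup.centralizer ({x} : Set G)))) : ∃ H : Subgroup G, H.index = 2 := by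
  exact aux x hx _ rfl S hS

end Cfsg.Agent.S0220
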