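import Cfsg.Statements.S0221
import Mathlib
import Cfsg.Agent.Lib.NormalE
import Cfsg.Agent.Lib.SylowCount
import Cfsg.Agent.Lib.SylowIn
import Cfsg.Agent.Lib.ThompsonBasic

set_option autoImplicit false
open Cfsg

namespace Cfsg.Agent.S0221

open Subgroup Cfsg.Agent.Lib

theorem comm_of_sq' {H : Type*} [Group H] {a b : H} (ha : a ^ 2 = 1) (hb : b ^ 2 = 1) (hab : (a * b) ^ 2 = 1) :
    a * b = b * a := by
  have h1 : a⁻¹ = a := inv_eq_of_mul_eq_one_left (by rw [← sq]; exact ha)
  have h2 : b⁻¹ = b := inv_eq_of_mul_eq_one_left (by rw [← sq]; exact hb)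
  have h3 : (a * b)⁻¹ = a * b := inv_eq_of_mul_eq_one_left (by rw [← sq]; exact hab)
  rw [mul_inv_rev, h1, h2] at h3
  exact h3.symm

theorem conj_mem_of_index {G : Type*} [Group G] [Finite G] (hno : ∀ H : Subgroup G, H.index ≠ 2)
    (M : Subgroup G) (hM : M.index % 4 = 2) (x : G) (hx : x ^ 2 = 1) :
    ∃ g : G, g⁻¹ * x * g ∈ M := by
  classical
  by_contra hcon
  push Not at hcon
  haveI : Fintype (G ⧸ M) := Fintype.ofFinite _
  obtain ⟨-, hs⟩ := SylowCount.sign_toPerm_of_sq_one (Ω := G ⧸ M) x hx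
  have hfix : Nat.card (MulAction.fixedBy (G ⧸ M) x) = 0 := by
    have : IsEmpty (MulAction.fixedBy (G ⧸ M) x) := by
      constructor
      rintro ⟨q, hq⟩
      induction q using QuotientGroup.induction_on with
      | H g =>
        have hq' : ((x * g : G) : G ⧸ M) = (g : G ⧸ M) := hq
        have h1 := QuotientGroup.eq.1 hq'
        apply hcon g
        have h2 := M.inv_mem h1
        have h3 : ((x * g)⁻¹ * g)⁻¹ = g⁻¹ * x * g := by group
        rwa [h3] at h2
    exact Nat.card_of_isEmpty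
  have hcard : Nat.card (G ⧸ M) = M.index := rfl
  rw [hfix, hcard, Nat.sub_zero] at hs
  have hodd : Odd (M.index / 2) := by
    rw [Nat.odd_iff]; omega
  rw [hodd.neg_one_pow] at hs
  let f : G →* ℤˣ := (Equiv.Perm.sign).comp (MulAction.toPermHom G (G ⧸ M))
  have hfx : f x = -1 := hs
  have hr : f.range = ⊤ := by
    rw [eq_top_iff]
    rintro u -
    rcases Int.units_eq_one_or u with rfl | rfl
    · exact one_mem _
    · exact ⟨x, hfx⟩
  have : f.ker.index = 2 := by
    rw [Subgroup.index_ker, hr, Subgroup.card_top, Nat.card_eq_fintype_card]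
    rfl
  exact hno _ this

theorem index_centralizer_four {P : Type*} [Group P] [Finite P] (hP : IsPGroup 2 P) (U : Subgroup P) [hU : U.Normal]
    (hUc : ∀ a ∈ U, ∀ b ∈ U, a * b = b * a) (hUe : ∀ a ∈ U, a ^ 2 = 1) (hU4 : Nat.card U = 4) :
    Subgroup.centralizer (U : Set P) = ⊤ ∨ (Subgroup.centralizer (U : Set P)).index = 2 := by
  classical
  have hUne : U ≠ ⊥ := by
    rintro rfl
    simp at hU4
  haveI : Fact (Nat.Prime 2) := ⟨Nat.prime_two⟩
  obtain ⟨z, hzU, hz1, hzc⟩ := PGroupBasic.exists_ne_one_mem_center_of_normal hP U hUne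
  have hzz : z * z = 1 := by rw [← sq]; exact hUe z hzU
  have hZ2 : Nat.card (zpowers z) = 2 := by
    rw [Nat.card_zpowers]; exact orderOf_eq_prime (hUe z hzU) hz1
  obtain ⟨u, huU, huZ⟩ : ∃ u ∈ U, u ∉ zpowers z := by
    by_contra h
    push Not at h
    have := Subgroup.card_le_of_le (show U ≤ zpowers z from h)
    omega
  have huu : u * u = 1 := by rw [← sq]; exact hUe u huU
  have hc : u * z = z * u := hUc u huU z hzU
  have hFU : NormalE.fourOf z u hzz huu hc ≤ U := by
    intro a ha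
    rcases NormalE.mem_fourOf.1 ha with rfl | rfl | rfl | rfl
    · exact U.one_mem
    · exact hzU
    · exact huU
    · exact U.mul_mem hzU huU
  have hlt : zpowers z < NormalE.fourOf z u hzz huu hc := by
    refine lt_of_le_of_ne ?_ ?_
    · rw [Subgroup.zpowers_le]
      exact NormalE.mem_fourOf.2 (Or.inr (Or.inl rfl))
    · intro h
      apply huZ
      rw [h]
      exact NormalE.mem_fourOf.2 (Or.inr (Or.inr (Or.inl rfl)))
  have hF4 : Nat.card U ≤ Nat.card (NormalE.fourOf z u hzz huu hc) := by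
    have h1 := Subgroup.card_dvd_of_le hFU
    rw [hU4] at h1 ⊢
    have h2 := NormalE.card_lt_of_lt' hlt
    rw [hZ2] at h2
    have h3 := Nat.le_of_dvd (by norm_num) h1
    generalize Nat.card (NormalE.fourOf z u hzz huu hc) = m at h1 h2 h3 ⊢
    interval_cases m
    · norm_num at h1
    · omega
  have hEq : NormalE.fourOf z u hzz huu hc = U := Subgroup.eq_of_le_of_card_ge hFU hF4
  have hall : ∀ w ∈ U, w = 1 ∨ w = z ∨ w = u ∨ w = z * u := by
    intro w hw
    rw [← hEq] at hw
    exact NormalE.mem_fourOf.1 hw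
  have hzcomm : ∀ b : P, b * z = z * b := fun b => Subgroup.mem_center_iff.1 hzc b
  have hconj : ∀ s : P, s * u * s⁻¹ = u ∨ s * u * s⁻¹ = z * u := by
    intro s
    have h1 := hU.conj_mem u huU s
    rcases hall _ h1 with h | h | h | h
    · exfalso
      apply huZ
      have : u = 1 := by
        have h2 : s * u = s := by rwa [mul_inv_eq_one] at h
        simpa using h2
      rw [this]
      exact one_mem _
    · exfalso
      apply huZ
      have : u = z := by
        have h2 : s * u = z * s := by rwa [mul_inv_eq_iff_eq_mul] at h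
        rw [← hzcomm s] at h2
        exact mul_left_cancel h2
      rw [this]
      exact mem_zpowers z
    · exact Or.inl h
    · exact Or.inr h
  have hmem : ∀ s : P, s ∈ Subgroup.centralizer (U : Set P) ↔ s * u * s⁻¹ = u := by
    intro s
    constructor
    · intro hs
      have h1 := Subgroup.mem_centralizer_iff.1 hs u huU
      rw [← h1]
      group
    · intro hs
      have hus : u * s = s * u := by
        have : s * u = u * s := by rwa [mul_inv_eq_iff_eq_mul] at hs
        exact this.symm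
      refine Subgroup.mem_centralizer_iff.2 ?_
      intro w hw
      rcases hall w hw with rfl | rfl | rfl | rfl
      · simp
      · exact (hzcomm s).symm
      · exact hus
      · rw [mul_assoc, hus, ← mul_assoc, ← mul_assoc, hzcomm s]
  by_cases htop : Subgroup.centralizer (U : Set P) = ⊤
  · exact Or.inl htop
  · right
    obtain ⟨s₀, hs₀⟩ : ∃ s₀, s₀ ∉ Subgroup.centralizer (U : Set P) := by
      by_contra h
      push Not at h
      exact htop (eq_top_iff.2 (fun s _ => h s))
    have hs₀' : s₀ * u * s₀⁻¹ = z * u := (hconj s₀).resolve_left (fun h => hs₀ ((hmem s₀).2 h))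
    rw [Subgroup.index_eq_two_iff]
    refine ⟨s₀, fun b => ?_⟩
    by_cases hb : b ∈ Subgroup.centralizer (U : Set P)
    · right
      refine ⟨hb, fun h => hs₀ ?_⟩
      have := Subgroup.mul_mem _ (Subgroup.inv_mem _ hb) h
      simpa using this
    · left
      refine ⟨?_, hb⟩
      have hb' : b * u * b⁻¹ = z * u := (hconj b).resolve_left (fun h => hb ((hmem b).2 h))
      rw [hmem]
      calc b * s₀ * u * (b * s₀)⁻¹ = b * (s₀ * u * s₀⁻¹) * b⁻¹ := by group
        _ = b * (z * u) * b⁻¹ := by rw [hs₀']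
        _ = (b * z) * u * b⁻¹ := by group
        _ = z * (b * u * b⁻¹) := by rw [hzcomm b]; group
        _ = z * (z * u) := by rw [hb']
        _ = u := by rw [← mul_assoc, hzz, one_mul]

theorem key_p {P : Type*} [Group P] [Finite P] (hP : IsPGroup 2 P) (E' : Subgroup P)
    (hEe : ∀ e ∈ E', e ^ 2 = 1) (hE8 : Nat.card E' = 8) :
    ∃ C : Subgroup P, (C = ⊤ ∨ C.index = 2) ∧ ∀ y ∈ C, y ^ 2 = 1 → y ≠ 1 →
      ∃ A : Subgroup P, Nat.card A = 8 ∧ (∀ a ∈ A, a ^ 2 = 1) ∧ ∀ a ∈ A, a * y = y * a := by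
  classical
  haveI : Fact (Nat.Prime 2) := ⟨Nat.prime_two⟩
  have hEc : ∀ a ∈ E', ∀ b ∈ E', a * b = b * a :=
    fun a ha b hb => comm_of_sq' (hEe a ha) (hEe b hb) (hEe _ (E'.mul_mem ha hb))
  obtain ⟨U, hUn, hUc, hUe, hU4⟩ := NormalE.exists_normal_elemAb (p := 2) hP hEc hEe (by rw [hE8]; norm_num)
  haveI := hUn
  have hU4' : Nat.card U = 4 := by rw [hU4]; norm_num
  have hCi := index_centralizer_four hP U hUc hUe hU4'
  refine ⟨Subgroup.centralizer (U : Set P), hCi, ?_⟩
  intro y hyC hy2 hy1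
  have hw : ∃ w ∈ Subgroup.centralizer (U : Set P), w ^ 2 = 1 ∧ w ∉ U ∧ (y ∈ U ∨ y = w) := by
    by_cases hyU : y ∈ U
    · haveI hCn : (Subgroup.centralizer (U : Set P)).Normal := Subgroup.normal_centralizer
      have h1 : (Subgroup.centralizer (U : Set P)).relIndex E' ∣ (Subgroup.centralizer (U : Set P)).index :=
        Subgroup.relIndex_dvd_index_of_normal _ E'
      have h1' : (Subgroup.centralizer (U : Set P)).relIndex E' ≤ 2 := by
        rcases hCi with h | h
        · have h' : (Subgroup.centralizer (U : Set P)).index = 1 := by rw [h]; exact Subgroup.index_top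
          rw [h'] at h1
          have := Nat.le_of_dvd (by norm_num) h1
          omega
        · rw [h] at h1
          exact Nat.le_of_dvd (by norm_num) h1
      have h2 := Subgroup.card_mul_index ((Subgroup.centralizer (U : Set P)).subgroupOf E')
      rw [← Subgroup.inf_subgroupOf_right, ThompsonBasic.card_subgroupOf_of_le inf_le_right, Subgroup.inf_subgroupOf_right,
        hE8] at h2
      have h2' : Nat.card ((Subgroup.centralizer (U : Set P)) ⊓ E' : Subgroup P) * (Subgroup.centralizer (U : Set P)).relIndex E' = 8 := h2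
      have h3 : 4 ≤ Nat.card ((Subgroup.centralizer (U : Set P)) ⊓ E' : Subgroup P) := by
        generalize (Subgroup.centralizer (U : Set P)).relIndex E' = r at h2' h1'
        interval_cases r <;> omega
      by_contra hcon
      push Not at hcon
      have hle : (Subgroup.centralizer (U : Set P)) ⊓ E' ≤ U := by
        intro b hb
        by_contra hbU
        have hb2 : b ^ 2 = 1 := hEe b hb.2
        exact (hcon b hb.1 hb2 hbU).1 hyU
      have h4 : (Subgroup.centralizer (U : Set P)) ⊓ E' = U :=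
        Subgroup.eq_of_le_of_card_ge hle (by omega)
      have hUE : U ≤ E' := by rw [← h4]; exact inf_le_right
      have hEC : E' ≤ Subgroup.centralizer (U : Set P) := by
        intro e he
        refine Subgroup.mem_centralizer_iff.2 ?_
        intro u hu
        exact hEc u (hUE hu) e he
      have h5 : (Subgroup.centralizer (U : Set P)) ⊓ E' = E' := inf_eq_right.2 hEC
      rw [h4] at h5
      rw [h5] at hU4'
      omega
    · exact ⟨y, hyC, hy2, hyU, Or.inr rfl⟩
  obtain ⟨w, hwC, hw2, hwU, hyw⟩ := hw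
  have hw1 : w ≠ 1 := fun h => hwU (h ▸ U.one_mem)
  have hAB : ∀ a ∈ U, ∀ b ∈ zpowers w, a * b = b * a := by
    intro a ha b hb
    obtain ⟨k, rfl⟩ := Subgroup.mem_zpowers_iff.1 hb
    have h1 : Commute a w := Subgroup.mem_centralizer_iff.1 hwC a ha
    exact h1.zpow_right k
  have hBc : ∀ a ∈ zpowers w, ∀ b ∈ zpowers w, a * b = b * a := by
    intro a ha b hb
    obtain ⟨k, rfl⟩ := Subgroup.mem_zpowers_iff.1 ha
    obtain ⟨l, rfl⟩ := Subgroup.mem_zpowers_iff.1 hb
    exact Commute.zpow_zpow_self w k l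
  have hBe : ∀ a ∈ zpowers w, a ^ 2 = 1 := by
    intro a ha
    obtain ⟨k, rfl⟩ := Subgroup.mem_zpowers_iff.1 ha
    rw [← zpow_natCast, ← zpow_mul, mul_comm, zpow_mul, zpow_natCast, hw2, one_zpow]
  obtain ⟨hAc, hAe⟩ := NormalE.sup_comm_exp (p := 2) hUc hBc hAB hUe hBe
  have hcases : ∀ k : ℤ, w ^ k = 1 ∨ w ^ k = w := by
    intro k
    rcases Int.even_or_odd' k with ⟨m, rfl | rfl⟩
    · left
      rw [zpow_mul]
      have : w ^ (2 : ℤ) = 1 := by exact_mod_cast hw2
      rw [this, one_zpow]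
    · right
      rw [zpow_add, zpow_mul]
      have : w ^ (2 : ℤ) = 1 := by exact_mod_cast hw2
      rw [this, one_zpow, one_mul, zpow_one]
  have hinf : U ⊓ zpowers w = ⊥ := by
    rw [Subgroup.eq_bot_iff_forall]
    rintro a ⟨haU, haw⟩
    obtain ⟨k, rfl⟩ := Subgroup.mem_zpowers_iff.1 haw
    rcases hcases k with h | h
    · exact h
    · exact absurd (h ▸ haU) hwU
  have hcardA := ThompsonBasic.card_sup_mul_card_inf U (zpowers w)
    (by rw [Subgroup.normalizer_eq_top_iff.2 hUn]; exact le_top)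
  rw [hinf, Subgroup.card_bot, mul_one, hU4', Nat.card_zpowers, orderOf_eq_prime hw2 hw1] at hcardA
  refine ⟨U ⊔ zpowers w, hcardA, hAe, ?_⟩
  intro a ha
  have hyA : y ∈ U ⊔ zpowers w := by
    rcases hyw with h | h
    · exact Subgroup.mem_sup_left h
    · rw [h]
      exact Subgroup.mem_sup_right (mem_zpowers w)
  exact hAc a ha y hyA

/-- Let G be a finite group with no subgroup of index 2 whose 2-rank is at least 3 (it contains an elementary abelian subgroup of order 8). Then the centralizer of every involution of G also contains an elementary abelian subgroup of order 8. -/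
theorem result {G : Type*} [Group G] [Finite G] (hno : ∀ H : Subgroup G, H.index ≠ 2) (hrank : ∃ E : Subgroup G, Nat.card E = 8 ∧ ∀ e ∈ E, e ^ 2 = 1) (x : G) (hx : orderOf x = 2) : ∃ E : Subgroup G, E ≤ Subgroup.centralizer ({x} : Set G) ∧ Nat.card E = 8 ∧ ∀ e ∈ E, e ^ 2 = 1 := by
  classical
  haveI : Fact (Nat.Prime 2) := ⟨Nat.prime_two⟩
  obtain ⟨E, hE8, hEe⟩ := hrank
  have hE2 : IsPGroup 2 E := IsPGroup.of_card (n := 3) (by rw [hE8]; norm_num)
  obtain ⟨S, hES⟩ := hE2.exists_le_sylow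
  have hP : IsPGroup 2 ↥(S : Subgroup G) := S.isPGroup'
  obtain ⟨C, hC, hA⟩ := key_p hP (E.subgroupOf S) (by
      intro e he
      apply Subtype.ext
      simpa using hEe e.1 (Subgroup.mem_subgroupOf.1 he)) (by rw [ThompsonBasic.card_subgroupOf_of_le hES, hE8])
  have hx2 : x ^ 2 = 1 := by rw [← hx]; exact pow_orderOf_eq_one x
  have hx1 : x ≠ 1 := by
    rintro rfl
    simp at hx
  have hconj : ∃ g : G, ∃ h : g * x * g⁻¹ ∈ (S : Subgroup G), (⟨_, h⟩ : ↥(S : Subgroup G)) ∈ C := by
    rcases hC with rfl | hC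
    · obtain ⟨g, hg⟩ := SylowIn.exists_conj_mem_sylow S (T := zpowers x)
        (IsPGroup.of_card (n := 1) (by rw [Nat.card_zpowers, hx]; norm_num))
      exact ⟨g, hg x (mem_zpowers x), mem_top _⟩
    · have hind : (C.map (S : Subgroup G).subtype).index % 4 = 2 := by
        rw [Subgroup.index_map_subtype, hC]
        have := S.not_dvd_index
        omega
      obtain ⟨g, hg⟩ := conj_mem_of_index hno _ hind x hx2
      obtain ⟨⟨y, hyS⟩, hyC, hy⟩ := hg
      have hy' : y = g⁻¹ * x * g := hy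
      have h1 : g⁻¹ * x * g⁻¹⁻¹ = y := by rw [inv_inv, hy']
      have hmem : g⁻¹ * x * g⁻¹⁻¹ ∈ (S : Subgroup G) := h1 ▸ hyS
      refine ⟨g⁻¹, hmem, ?_⟩
      have heq : (⟨g⁻¹ * x * g⁻¹⁻¹, hmem⟩ : ↥(S : Subgroup G)) = ⟨y, hyS⟩ := Subtype.ext h1
      rw [heq]
      exact hyC
  obtain ⟨g, hgS, hgC⟩ := hconj
  have hy2 : (⟨_, hgS⟩ : ↥(S : Subgroup G)) ^ 2 = 1 := by
    apply Subtype.ext
    show (g * x * g⁻¹) ^ 2 = 1
    rw [conj_pow, hx2]
    simp
  have hy1 : (⟨_, hgS⟩ : ↥(S : Subgroup G)) ≠ 1 := by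
    intro h
    have h1 : g * x * g⁻¹ = 1 := congrArg Subtype.val h
    apply hx1
    have h2 : g * x = g := by rwa [mul_inv_eq_one] at h1
    simpa using h2
  obtain ⟨A, hA8, hAe, hAc⟩ := hA _ hgC hy2 hy1
  refine ⟨(A.map (S : Subgroup G).subtype).map (MulAut.conj g⁻¹).toMonoidHom, ?_, ?_, ?_⟩
  · rintro _ ⟨_, ⟨a, ha, rfl⟩, rfl⟩
    rw [Subgroup.mem_centralizer_singleton_iff]
    have h := congrArg Subtype.val (hAc a ha)
    have h' : (a : G) * (g * x * g⁻¹) = (g * x * g⁻¹) * (a : G) := h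
    show g⁻¹ * (a : G) * g⁻¹⁻¹ * x = x * (g⁻¹ * (a : G) * g⁻¹⁻¹)
    rw [inv_inv]
    have e1 : g⁻¹ * (a : G) * g * x = g⁻¹ * ((a : G) * (g * x * g⁻¹)) * g := by group
    have e2 : x * (g⁻¹ * (a : G) * g) = g⁻¹ * ((g * x * g⁻¹) * (a : G)) * g := by group
    rw [e1, e2, h']
  · rw [Subgroup.card_map_of_injective (MulEquiv.injective _), Subgroup.card_map_of_injective (Subgroup.subtype_injective _)]
    exact hA8
  · rintro _ ⟨_, ⟨a, ha, rfl⟩, rfl⟩
    have h := congrArg Subtype.val (hAe a ha)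
    have h' : (a : G) ^ 2 = 1 := h
    show (g⁻¹ * (a : G) * g⁻¹⁻¹) ^ 2 = 1
    rw [conj_pow, h']
    simp

end Cfsg.Agent.S0221
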