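import Mathlib
import Cfsg.Agent.Lib.InvPair
import Cfsg.Statements.S0226
-- import your own Cfsg.Agent.* helpers here

set_option autoImplicit false
open Cfsg

namespace Cfsg.Agent.S0226

/-- A finite group of even order has an odd number of involutions. -/
theorem result {G : Type*} [Group G] [Finite G] (heven : Even (Nat.card G)) : Odd (Nat.card {t : G // orderOf t = 2}) := by
  classical
  haveI := Fintype.ofFinite G
  haveI : Fact (Nat.Prime 2) := ⟨Nat.prime_two⟩
  let f : Function.End G := fun x => x⁻¹
  have hf : f ^ 2 ^ 1 = 1 := by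
    have h : f ^ 2 ^ 1 = f * f := by rw [pow_one, pow_two]
    rw [h]
    funext x
    exact inv_inv x
  have h1 := Equiv.Perm.card_fixedPoints_modEq (p := 2) (n := 1) hf
  have hQ : (1 : G)⁻¹ = 1 := inv_one
  have h0 := Cfsg.Agent.Lib.InvPair.card_subtype_succ (Q := fun t : G => t⁻¹ = t) hQ
  have h2 : Fintype.card f.fixedPoints = Nat.card {t : G // t⁻¹ = t} := by
    rw [← Nat.card_eq_fintype_card]
    rfl
  have h3 : Nat.card {t : G // t⁻¹ = t ∧ t ≠ 1} = Nat.card {t : G // orderOf t = 2} := by
    refine Nat.card_congr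
      { toFun := fun t => ⟨t.1, ?_⟩
        invFun := fun t => ⟨t.1, Cfsg.Agent.Lib.InvPair.inv_of_order t.2, fun h => ?_⟩
        left_inv := fun t => rfl
        right_inv := fun t => rfl }
    · apply orderOf_eq_prime
      · rw [pow_two]
        nth_rewrite 1 [← t.2.1]
        simp
      · exact t.2.2
    · have h3 := t.2
      rw [h, orderOf_one] at h3
      omega
  rw [h3] at h0
  rw [h2, ← h0] at h1
  have h4 : Fintype.card G % 2 = 0 := by
    rw [← Nat.card_eq_fintype_card]
    exact Nat.even_iff.1 heven
  have h5 := h1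
  unfold Nat.ModEq at h5
  rw [Nat.odd_iff]
  omega

end Cfsg.Agent.S0226
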