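import Mathlib
import Cfsg.Agent.Lib.InvPair
import Cfsg.Agent.S0208
import Cfsg.Agent.S0209
import Cfsg.Agent.S0211
import Cfsg.Statements.S0229
-- import your own Cfsg.Agent.* helpers here

set_option autoImplicit false
open Cfsg

namespace Cfsg.Agent.S0229

/-- Let t be an involution of a Sylow 2-subgroup S of a finite group G, conjugate in G to no other element of S, and let s be an involution of G not conjugate to t. Then the order of st is twice an odd number. -/
theorem result {G : Type*} [Group G] [Finite G] (S : Sylow 2 G) (t : G) (ht : orderOf t = 2) (htS : t ∈ S) (hiso : ∀ g : G, g * t * g⁻¹ ∈ S → g * t * g⁻¹ = t) (s : G) (hs : orderOf s = 2) (hns : ¬ IsConj s t) : orderOf (s * t) % 4 = 2 := by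
  classical
  have hs2 := Cfsg.Agent.Lib.InvPair.mul_self_of_order hs
  have ht2 := Cfsg.Agent.Lib.InvPair.mul_self_of_order ht
  have h1 : orderOf (s * t) = orderOf (t * s) := by
    rw [← orderOf_inv, mul_inv_rev, Cfsg.Agent.Lib.InvPair.inv_of_order hs, Cfsg.Agent.Lib.InvPair.inv_of_order ht]
  rw [h1]
  by_cases hodd : Odd (orderOf (t * s))
  · exfalso
    obtain ⟨d, -, hd⟩ := Cfsg.Agent.S0208.result t s ht hs hodd
    apply hns
    refine isConj_iff.2 ⟨d⁻¹, ?_⟩
    rw [← hd]
    group
  · rw [Nat.not_odd_iff_even] at hodd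
    by_cases h4 : 4 ∣ orderOf (t * s)
    · exfalso
      obtain ⟨d, -, hd⟩ := (Cfsg.Agent.S0211.result t s ht hs hodd).2 h4
      obtain ⟨hz, hc1, -⟩ := Cfsg.Agent.S0209.result t s ht hs hodd
      exact Cfsg.Agent.Lib.InvPair.isolated_conj_eq S ht htS hiso hz hc1.symm hd
    · obtain ⟨r, hr⟩ := hodd
      omega

end Cfsg.Agent.S0229
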