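import Mathlib
import Cfsg.Agent.Lib.InvPair
import Cfsg.Agent.Lib.H6Basic
import Cfsg.Agent.S0208
import Cfsg.Agent.S0209
import Cfsg.Statements.S0230
-- import your own Cfsg.Agent.* helpers here

set_option autoImplicit false
open Cfsg

namespace Cfsg.Agent.S0230

/-- Let G be a finite group with two non-conjugate involutions, and let t be an involution whose centralizer has maximal order among centralizers of involutions. Then |G| < |C_G(t)|^3. -/
theorem result {G : Type*} [Group G] [Finite G] (s t : G) (hs : orderOf s = 2) (ht : orderOf t = 2) (hnc : ¬ IsConj s t) (hmax : ∀ u : G, orderOf u = 2 → Nat.card (Subgroup.centralizer ({u} : Set G)) ≤ Nat.card (Subgroup.centralizer ({t} : Set G))) : Nat.card G < Nat.card (Subgroup.centralizer ({t} : Set G)) ^ 3 := by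
  classical
  haveI := Fintype.ofFinite G
  set k := Nat.card (Subgroup.centralizer ({t} : Set G)) with hk
  have hkpos : 0 < k := Nat.card_pos
  have hcomm : ∀ z : G, Nat.card (Subgroup.centralizer ({z} : Set G)) =
      (Finset.univ.filter (fun v : G => Commute v z)).card := by
    intro z
    rw [Nat.card_eq_fintype_card, Fintype.card_subtype]
    congr 1
    ext v
    simp only [Finset.mem_filter, Finset.mem_univ, true_and]
    rw [Subgroup.mem_centralizer_singleton_iff]
    rfl
  let I : Finset G := Finset.univ.filter (fun z => orderOf z = 2 ∧ Commute z s)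
  have hIcard : I.card + 1 ≤ k := by
    have h1 : insert (1 : G) I ⊆ Finset.univ.filter (fun v : G => Commute v s) := by
      intro v hv
      rcases Finset.mem_insert.1 hv with rfl | hv
      · simp [Commute.one_left]
      · exact Finset.mem_filter.2 ⟨Finset.mem_univ _, (Finset.mem_filter.1 hv).2.2⟩
    have h2 := Finset.card_le_card h1
    rw [Finset.card_insert_of_notMem, ← hcomm] at h2
    · exact h2.trans (hmax s hs)
    · intro h
      have := (Finset.mem_filter.1 h).2.1
      rw [orderOf_one] at this
      omega
  let Cl : Finset G := Finset.univ.filter (fun v => IsConj t v)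
  have hCl : Cl.card = (Subgroup.centralizer ({t} : Set G)).index := by
    rw [← Cfsg.Agent.Lib.H6Basic.card_class_eq_index t, Nat.card_eq_fintype_card, Fintype.card_subtype]
  have hsub : Cl ⊆ I.biUnion (fun z => Finset.univ.filter (fun v : G => Commute v z)) := by
    intro v hv
    have hv' : IsConj t v := (Finset.mem_filter.1 hv).2
    have hvo : orderOf v = 2 := by
      obtain ⟨g, hg⟩ := isConj_iff.1 hv'
      rw [← hg, Cfsg.Agent.Lib.InvPair.orderOf_conj_eq, ht]
    have heven : Even (orderOf (s * v)) := by
      by_contra hodd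
      rw [Nat.not_even_iff_odd] at hodd
      obtain ⟨d, -, hd⟩ := Cfsg.Agent.S0208.result s v hs hvo hodd
      exact hnc ((isConj_iff.2 ⟨d, hd⟩).trans hv'.symm)
    obtain ⟨hz, hc1, hc2⟩ := Cfsg.Agent.S0209.result s v hs hvo heven
    refine Finset.mem_biUnion.2 ⟨(s * v) ^ (orderOf (s * v) / 2), ?_, ?_⟩
    · exact Finset.mem_filter.2 ⟨Finset.mem_univ _, hz, hc1⟩
    · exact Finset.mem_filter.2 ⟨Finset.mem_univ _, hc2.symm⟩
  have hbound : Cl.card ≤ I.card * k := by
    refine (Finset.card_le_card hsub).trans (Finset.card_biUnion_le_card_mul _ _ _ ?_)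
    intro z hz
    rw [← hcomm]
    exact hmax z (Finset.mem_filter.1 hz).2.1
  have hG : Nat.card G = Cl.card * k := by
    rw [hCl, hk, Subgroup.index_mul_card]
  rw [hG]
  have h3 : Cl.card * k ≤ (I.card * k) * k := Nat.mul_le_mul_right _ hbound
  have h4 : (I.card * k) * k < k ^ 3 := by
    have h5 : I.card < k := by omega
    calc (I.card * k) * k < (k * k) * k := by
          apply Nat.mul_lt_mul_of_pos_right _ hkpos
          exact Nat.mul_lt_mul_of_pos_right h5 hkpos
      _ = k ^ 3 := by ring
  omega

end Cfsg.Agent.S0230
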