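import Mathlib
import Cfsg.Agent.Lib.InvPair
import Cfsg.Agent.S0208
import Cfsg.Agent.S0209
import Cfsg.Statements.S0231
-- import your own Cfsg.Agent.* helpers here

set_option autoImplicit false
open scoped Pointwise
open Cfsg

namespace Cfsg.Agent.S0231

/-- Let T be a Sylow 2-subgroup of the finite group G which is not normal and which intersects every other Sylow 2-subgroup trivially. Then G has a single conjugacy class of involutions. -/
theorem result {G : Type*} [Group G] [Finite G] (T : Sylow 2 G) (hnn : ¬ (T : Subgroup G).Normal) (hTI : ∀ g : G, MulAut.conj g • (T : Subgroup G) ≠ T → MulAut.conj g • (T : Subgroup G) ⊓ T = ⊥) (s t : G) (hs : orderOf s = 2) (ht : orderOf t = 2) : IsConj s t := by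
  classical
  haveI : Fact (Nat.Prime 2) := ⟨Nat.prime_two⟩
  have hmem : ∀ (h y : G), y ∈ (h • T : Sylow 2 G) ↔ h⁻¹ * y * h ∈ T := by
    intro h y
    have h5 : y ∈ (h • T : Sylow 2 G) ↔ y ∈ MulAut.conj h • (T : Subgroup G) := by
      rw [Sylow.smul_def]
      exact Iff.rfl
    rw [h5, Subgroup.mem_pointwise_smul_iff_inv_smul_mem, MulAut.smul_def, ← map_inv,
      MulAut.conj_apply, inv_inv]
    exact Iff.rfl
  have hTI2 : ∀ Q Q' : Sylow 2 G, Q ≠ Q' → ∀ x : G, x ∈ Q → x ∈ Q' → x = 1 := by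
    intro Q Q' hne x hx hx'
    obtain ⟨a, rfl⟩ := MulAction.exists_smul_eq G T Q
    obtain ⟨b, rfl⟩ := MulAction.exists_smul_eq G T Q'
    have h1 := (hmem a x).1 hx
    have h2 := (hmem b x).1 hx'
    have hne2 : MulAut.conj (a⁻¹ * b) • (T : Subgroup G) ≠ T := by
      intro h
      apply hne
      have h3 : ((a⁻¹ * b) • T : Sylow 2 G) = T := by
        apply Sylow.ext
        rw [Sylow.smul_def]
        exact h
      rw [mul_smul] at h3
      have h33 := congrArg (fun R : Sylow 2 G => a • R) h3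
      simp only [smul_inv_smul] at h33
      exact h33.symm
    have h4 := hTI (a⁻¹ * b) hne2
    have h5 : a⁻¹ * x * a ∈ MulAut.conj (a⁻¹ * b) • (T : Subgroup G) ⊓ (T : Subgroup G) := by
      refine ⟨(?_ : a⁻¹ * x * a ∈ MulAut.conj (a⁻¹ * b) • (T : Subgroup G)), h1⟩
      rw [Subgroup.mem_pointwise_smul_iff_inv_smul_mem, MulAut.smul_def, ← map_inv, MulAut.conj_apply]
      have e : (a⁻¹ * b)⁻¹ * (a⁻¹ * x * a) * (a⁻¹ * b)⁻¹⁻¹ = b⁻¹ * x * b := by group
      rw [e]
      exact h2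
    rw [h4, Subgroup.mem_bot] at h5
    have : x = a * (a⁻¹ * x * a) * a⁻¹ := by group
    rw [this, h5]
    group
  -- an involution of `T` is conjugate to every involution of another Sylow subgroup
  have hkey : ∀ (Q Q' : Sylow 2 G), Q ≠ Q' → ∀ x u : G, x ∈ Q → u ∈ Q' → orderOf x = 2 → orderOf u = 2 →
      IsConj x u := by
    intro Q Q' hne x u hx hu hxo huo
    by_cases hodd : Odd (orderOf (x * u))
    · obtain ⟨d, -, hd⟩ := Cfsg.Agent.S0208.result x u hxo huo hodd
      exact isConj_iff.2 ⟨d, hd⟩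
    · rw [Nat.not_odd_iff_even] at hodd
      exfalso
      obtain ⟨hz, hc1, hc2⟩ := Cfsg.Agent.S0209.result x u hxo huo hodd
      set z := (x * u) ^ (orderOf (x * u) / 2) with hzdef
      obtain ⟨R, hR1, hR2⟩ := Cfsg.Agent.Lib.InvPair.exists_sylow_of_commute hxo hz hc1.symm
      obtain ⟨R', hR1', hR2'⟩ := Cfsg.Agent.Lib.InvPair.exists_sylow_of_commute huo hz hc2.symm
      have hne1 : x ≠ 1 := fun h => by rw [h, orderOf_one] at hxo; omega
      have hne2 : u ≠ 1 := fun h => by rw [h, orderOf_one] at huo; omega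
      have hRQ : R = Q := by
        by_contra h
        exact hne1 (hTI2 R Q h x hR1 hx)
      have hRQ' : R' = Q' := by
        by_contra h
        exact hne2 (hTI2 R' Q' h u hR1' hu)
      subst hRQ hRQ'
      have hz1 := hTI2 R R' hne z hR2 hR2'
      rw [hz1, orderOf_one] at hz
      omega
  obtain ⟨g, hg⟩ : ∃ g : G, (g • T : Sylow 2 G) ≠ T := by
    by_contra hcon
    push Not at hcon
    apply hnn
    refine ⟨fun n hn c => ?_⟩
    have h1 := hcon c⁻¹
    have h2 : n ∈ (c⁻¹ • T : Sylow 2 G) := by rw [h1]; exact hn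
    have h3 := (hmem c⁻¹ n).1 h2
    rwa [inv_inv] at h3
  have hinto : ∀ w : G, orderOf w = 2 → ∃ h : G, IsConj w (h⁻¹ * w * h) ∧ h⁻¹ * w * h ∈ T ∧ orderOf (h⁻¹ * w * h) = 2 := by
    intro w hw
    obtain ⟨Q, hQ, -⟩ := Cfsg.Agent.Lib.InvPair.exists_sylow_of_commute hw hw (Commute.refl w)
    obtain ⟨h, rfl⟩ := MulAction.exists_smul_eq G T Q
    refine ⟨h, isConj_iff.2 ⟨h⁻¹, by group⟩, (hmem h w).1 hQ, ?_⟩
    have := Cfsg.Agent.Lib.InvPair.orderOf_conj_eq h⁻¹ w
    rw [inv_inv] at this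
    rw [this, hw]
  obtain ⟨a, ha1, ha2, ha3⟩ := hinto s hs
  obtain ⟨b, hb1, hb2, hb3⟩ := hinto t ht
  have hu : g * (a⁻¹ * s * a) * g⁻¹ ∈ (g • T : Sylow 2 G) := by
    rw [hmem]
    have e : g⁻¹ * (g * (a⁻¹ * s * a) * g⁻¹) * g = a⁻¹ * s * a := by group
    rw [e]
    exact ha2
  have huo : orderOf (g * (a⁻¹ * s * a) * g⁻¹) = 2 := by
    rw [Cfsg.Agent.Lib.InvPair.orderOf_conj_eq, ha3]
  have h1 := hkey T (g • T) hg.symm _ _ ha2 hu ha3 huo
  have h2 := hkey T (g • T) hg.symm _ _ hb2 hu hb3 huo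
  exact (ha1.trans h1).trans ((hb1.trans h2).symm)

end Cfsg.Agent.S0231
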