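import Mathlib
import Cfsg.Agent.Lib.InvCount
import Cfsg.Agent.S0219
import Cfsg.Statements.S0232
-- import your own Cfsg.Agent.* helpers here

set_option autoImplicit false
open Cfsg

namespace Cfsg.Agent.S0232

universe u

open Cfsg.Agent.Lib.InvCount Cfsg.Agent.Lib.InvPair in
theorem aux : ∀ (N : ℕ) (G : Type u) [Group G] [Finite G], Nat.card G = N → Even N → 2 < N →
    ∃ H : Subgroup G, H ≠ ⊤ ∧ N < (Nat.card H) ^ 3 := by
  intro N
  induction N using Nat.strong_induction_on with
  | _ N ih =>
    intro G _ _ hcard heven hgt
    classical
    haveI : Fact (Nat.Prime 2) := ⟨Nat.prime_two⟩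
    by_cases hno : ∀ H : Subgroup G, H.index ≠ 2
    · by_cases hZ : Odd (Nat.card (Subgroup.center G))
      · obtain ⟨H, hH, hmax, hk⟩ := exists_large_subgroup (hcard ▸ heven) hZ hno
        refine ⟨H, hH, ?_⟩
        rw [hcard] at hk
        set n := inv G with hn
        set m := Nat.card H with hm
        have hmpos : 0 < m := Nat.card_pos
        obtain ⟨t, ht⟩ := exists_prime_orderOf_dvd_card' (G := G) 2 (hcard ▸ heven.two_dvd)
        have hCne : Subgroup.centralizer ({t} : Set G) ≠ ⊤ := by
          intro h
          have hmem : t ∈ Subgroup.center G := by
            rw [Subgroup.mem_center_iff]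
            intro g
            have : g ∈ Subgroup.centralizer ({t} : Set G) := by rw [h]; trivial
            exact Subgroup.mem_centralizer_singleton_iff.1 this
          have h2 := orderOf_dvd_natCard (⟨t, hmem⟩ : Subgroup.center G)
          rw [Subgroup.orderOf_mk, ht] at h2
          exact (Nat.not_even_iff_odd.2 hZ) (even_iff_two_dvd.2 h2)
        have hCm := hmax _ hCne
        have hcl : (Subgroup.centralizer ({t} : Set G)).index ≤ n := by
          rw [← Cfsg.Agent.Lib.H6Basic.card_class_eq_index t, hn, inv]
          refine Nat.card_le_card_of_injective
            (fun y => ⟨y.1, ?_⟩) ?_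
          · obtain ⟨g, hg⟩ := isConj_iff.1 y.2
            rw [← hg, orderOf_conj_eq, ht]
          · intro a b h
            have := congrArg (fun w : {t : G // orderOf t = 2} => w.1) h
            exact Subtype.ext this
        have hNnm : N ≤ n * m := by
          rw [← hcard, ← Subgroup.index_mul_card (Subgroup.centralizer ({t} : Set G))]
          exact Nat.mul_le_mul hcl hCm
        have hnN : n < N := by
          rw [← hcard, hn, inv]
          have h5 : Nat.card {t : G // orderOf t = 2} ≤ Nat.card {g : G // True ∧ g ≠ 1} := by
            refine Nat.card_le_card_of_injective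
              (fun t => ⟨t.1, trivial, fun h => ?_⟩) ?_
            · have := t.2
              rw [h, orderOf_one] at this
              omega
            · intro a b h
              have := congrArg (fun w : {g : G // True ∧ g ≠ 1} => w.1) h
              exact Subtype.ext this
          have h6 := card_subtype_succ (Q := fun _ : G => True) (a := 1) trivial
          have h7 : Nat.card {g : G // True} = Nat.card G :=
            Nat.card_congr (Equiv.subtypeUnivEquiv (fun _ => trivial))
          omega
        have h1 : 2 * n ^ 2 < (N + n) * m := by omega
        have h2 : (N + n) * m ≤ 2 * N * m := Nat.mul_le_mul_right _ (by omega)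
        have h3 : n ^ 2 < N * m := by nlinarith
        have h4 : N ^ 2 ≤ (n * m) ^ 2 := Nat.pow_le_pow_left hNnm 2
        have h5 : N ^ 2 < N * m ^ 3 := by
          calc N ^ 2 ≤ n ^ 2 * m ^ 2 := by rw [← mul_pow]; exact h4
            _ < (N * m) * m ^ 2 := Nat.mul_lt_mul_of_pos_right h3 (by positivity)
            _ = N * m ^ 3 := by ring
        have hN0 : 0 < N := by omega
        rw [pow_two] at h5
        exact Nat.lt_of_mul_lt_mul_left h5
      · -- even centre
        rw [Nat.not_odd_iff_even] at hZ
        obtain ⟨z, hz⟩ := exists_prime_orderOf_dvd_card' (G := Subgroup.center G) 2 hZ.two_dvd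
        set z' : G := z.1 with hz'
        have hzo : orderOf z' = 2 := by rwa [hz', Subgroup.orderOf_coe]
        haveI hnorm : (Subgroup.zpowers z').Normal := by
          refine ⟨fun n hn g => ?_⟩
          obtain ⟨k, rfl⟩ := hn
          have h1 : z' ^ k ∈ Subgroup.center G := zpow_mem z.2 k
          have h2 := (Subgroup.mem_center_iff.1 h1) g
          rw [h2, mul_inv_cancel_right]
          exact Subgroup.zpow_mem_zpowers z' k
        have hQc : Nat.card (G ⧸ Subgroup.zpowers z') * 2 = N := by
          have := Subgroup.index_mul_card (Subgroup.zpowers z')
          rw [Nat.card_zpowers, hzo, hcard] at this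
          rwa [Subgroup.index_eq_card] at this
        by_cases hQe : Even (Nat.card (G ⧸ Subgroup.zpowers z'))
        · by_cases hQ2 : Nat.card (G ⧸ Subgroup.zpowers z') = 2
          · exfalso
            apply hno (Subgroup.zpowers z')
            rw [Subgroup.index_eq_card]
            exact hQ2
          · have hQpos : 0 < Nat.card (G ⧸ Subgroup.zpowers z') := Nat.card_pos
            have hQ4 : 2 < Nat.card (G ⧸ Subgroup.zpowers z') := by
              obtain ⟨r, hr⟩ := hQe
              omega
            obtain ⟨Hb, hHb, hlt⟩ := ih _ (by omega) (G ⧸ Subgroup.zpowers z') rfl hQe hQ4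
            let H : Subgroup G := Hb.comap (QuotientGroup.mk' (Subgroup.zpowers z'))
            have hsurj := QuotientGroup.mk'_surjective (Subgroup.zpowers z')
            have hidx : H.index = Hb.index := Subgroup.index_comap_of_surjective Hb hsurj
            have hH1 := Subgroup.index_mul_card H
            have hH2 := Subgroup.index_mul_card Hb
            refine ⟨H, ?_, ?_⟩
            · intro h
              apply hHb
              rw [eq_top_iff]
              intro x _
              obtain ⟨g, rfl⟩ := hsurj x
              have : g ∈ H := by rw [h]; trivial
              exact this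
            · have hip : 0 < Hb.index := Nat.pos_of_ne_zero Subgroup.index_ne_zero_of_finite
              have h3 : Nat.card H = 2 * Nat.card Hb := by
                rw [hidx, hcard, ← hQc, ← hH2] at hH1
                apply Nat.eq_of_mul_eq_mul_left hip
                rw [hH1]
                ring
              rw [h3, mul_pow, ← hQc]
              have h4 : 0 < Nat.card Hb ^ 3 := pow_pos Nat.card_pos 3
              nlinarith
        · exfalso
          rw [Nat.not_even_iff_odd] at hQe
          obtain ⟨T⟩ : Nonempty (Sylow 2 G) := inferInstance
          have h1 := T.not_dvd_index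
          obtain ⟨k, hk⟩ := IsPGroup.iff_card.1 T.2
          have h2 := Subgroup.index_mul_card (T : Subgroup G)
          rw [hk, hcard, ← hQc] at h2
          have hk1 : k = 1 := by
            rcases k with _ | _ | k
            · exfalso
              rw [pow_zero, mul_one] at h2
              rw [h2] at h1
              exact h1 (Dvd.intro_left _ rfl)
            · rfl
            · exfalso
              obtain ⟨r, hr⟩ := hQe
              have h3 : (T : Subgroup G).index * 2 ^ k * 4 = (2 * r + 1) * 2 := by
                rw [← hr, ← h2]
                ring
              omega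
          rw [hk1, pow_one] at hk
          haveI : Fact (Nat.card (T : Subgroup G)).Prime := ⟨by rw [hk]; exact Nat.prime_two⟩
          have hcyc : IsCyclic (T : Subgroup G) := isCyclic_of_prime_card rfl
          obtain ⟨H, hH⟩ := Cfsg.Agent.S0219.result (by rwa [hcard]) T hcyc
          exact hno H hH
    · push Not at hno
      obtain ⟨H, hH⟩ := hno
      refine ⟨H, ?_, ?_⟩
      · intro h
        rw [h, Subgroup.index_top] at hH
        omega
      · have h1 := Subgroup.index_mul_card H
        rw [hH, hcard] at h1
        have h2 : 2 ≤ Nat.card H := by omega
        nlinarith [sq_nonneg (Nat.card H)]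


/-- A finite group G of even order greater than 2 has a proper subgroup H with |G| < |H|^3. -/
theorem result {G : Type*} [Group G] [Finite G] (heven : Even (Nat.card G)) (hgt : 2 < Nat.card G) : ∃ H : Subgroup G, H ≠ ⊤ ∧ Nat.card G < (Nat.card H) ^ 3 := by
  exact aux _ G rfl heven hgt

end Cfsg.Agent.S0232
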