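import Mathlib
import Cfsg.Agent.Lib.InvCount
import Cfsg.Statements.S0233
-- import your own Cfsg.Agent.* helpers here

set_option autoImplicit false
open Cfsg

namespace Cfsg.Agent.S0233

/-- Let G be a finite group of even order with exactly n involutions whose centre has odd order, and put a = |G|/n. Then G has a proper subgroup H with |G : H| = 2 or |G : H| < a(a+1)/2; over ℕ the latter reads 2·|G:H|·n² < |G|·(|G| + n). -/
theorem result {G : Type*} [Group G] [Finite G] (heven : Even (Nat.card G)) (hZ : Odd (Nat.card (Subgroup.center G))) : ∃ H : Subgroup G, H ≠ ⊤ ∧ (H.index = 2 ∨ 2 * H.index * (Nat.card {t : G // orderOf t = 2}) ^ 2 < Nat.card G * (Nat.card G + Nat.card {t : G // orderOf t = 2})) := by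
  classical
  by_cases hno : ∀ H : Subgroup G, H.index ≠ 2
  · obtain ⟨H, hH, hmax, hk⟩ := Cfsg.Agent.Lib.InvCount.exists_large_subgroup heven hZ hno
    refine ⟨H, hH, Or.inr ?_⟩
    change 2 * H.index * Cfsg.Agent.Lib.InvCount.inv G ^ 2 < Nat.card G * (Nat.card G + Cfsg.Agent.Lib.InvCount.inv G)
    set n := Cfsg.Agent.Lib.InvCount.inv G
    have hi : H.index * Nat.card H = Nat.card G := Subgroup.index_mul_card H
    have hm : 0 < Nat.card H := Nat.card_pos
    have hip : 0 < H.index := Nat.pos_of_ne_zero Subgroup.index_ne_zero_of_finite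
    have h1 : 2 * n ^ 2 < (Nat.card G + n) * Nat.card H := by omega
    calc 2 * H.index * n ^ 2 = H.index * (2 * n ^ 2) := by ring
      _ < H.index * ((Nat.card G + n) * Nat.card H) := Nat.mul_lt_mul_of_pos_left h1 hip
      _ = (H.index * Nat.card H) * (Nat.card G + n) := by ring
      _ = Nat.card G * (Nat.card G + n) := by rw [hi]
  · push Not at hno
    obtain ⟨H, hH⟩ := hno
    refine ⟨H, ?_, Or.inl hH⟩
    intro h
    rw [h, Subgroup.index_top] at hH
    omega

end Cfsg.Agent.S0233
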