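import Mathlib
import Cfsg.Agent.Lib.InvCount
import Cfsg.Agent.Lib.SylowCount
import Cfsg.Agent.Lib.CharBurnside
import Cfsg.Statements.S0234
-- import your own Cfsg.Agent.* helpers here

set_option autoImplicit false
open Cfsg

namespace Cfsg.Agent.S0234

/-- In a finite simple group G of even order greater than 2, the number n of involutions satisfies 3n < |G|. -/
theorem result {G : Type*} [Group G] [Finite G] [IsSimpleGroup G] (heven : Even (Nat.card G)) (hgt : 2 < Nat.card G) : 3 * Nat.card {t : G // orderOf t = 2} < Nat.card G := by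
  classical
  haveI : Fact (Nat.Prime 2) := ⟨Nat.prime_two⟩
  by_contra hcon
  have hle : Nat.card G ≤ 3 * Cfsg.Agent.Lib.InvCount.inv G := by
    rw [Cfsg.Agent.Lib.InvCount.inv]
    omega
  have hnc : ¬ IsMulCommutative G := by
    intro hc
    have h1 : (Nat.card G).Prime := Group.is_simple_iff_prime_card.1 inferInstance
    have h2 := heven.two_dvd
    have h3 := (Nat.prime_dvd_prime_iff_eq Nat.prime_two h1).1 h2
    omega
  have hZ : Subgroup.center G = ⊥ := by
    rcases IsSimpleGroup.eq_bot_or_eq_top_of_normal (Subgroup.center G) inferInstance with hZ | hZ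
    · exact hZ
    · exfalso
      apply hnc
      refine ⟨⟨fun a b => ?_⟩⟩
      have : a ∈ Subgroup.center G := by rw [hZ]; trivial
      exact (Subgroup.mem_center_iff.1 this b).symm
  have hZodd : Odd (Nat.card (Subgroup.center G)) := by
    rw [hZ, Subgroup.card_bot]
    exact odd_one
  have hno : ∀ H : Subgroup G, H.index ≠ 2 := by
    intro H hH
    haveI : H.Normal := Subgroup.normal_of_index_eq_two hH
    rcases IsSimpleGroup.eq_bot_or_eq_top_of_normal H inferInstance with h | h
    · rw [h, Subgroup.index_bot] at hH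
      omega
    · rw [h, Subgroup.index_top] at hH
      omega
  obtain ⟨H, hH, hmax, hkey⟩ := Cfsg.Agent.Lib.InvCount.exists_large_subgroup heven hZodd hno
  set n := Cfsg.Agent.Lib.InvCount.inv G with hn
  set m := Nat.card H with hm
  have hmpos : 0 < m := Nat.card_pos
  have hi : H.index * m = Nat.card G := Subgroup.index_mul_card H
  have hnpos : 0 < n := by omega
  have h1 : 2 * n ^ 2 < (Nat.card G + n) * m := by omega
  have h2 : (Nat.card G + n) * m ≤ (4 * n) * m := Nat.mul_le_mul_right _ (by omega)
  have h3 : n < 2 * m := by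
    by_contra h
    push Not at h
    have : (4 * n) * m ≤ 2 * n ^ 2 := by nlinarith
    omega
  have h4 : H.index < 6 := by
    have h5 : H.index * m < 6 * m := by omega
    exact Nat.lt_of_mul_lt_mul_right h5
  have h6 : 2 * Nat.card G ∣ H.index.factorial :=
    Cfsg.Agent.Lib.SylowCount.two_mul_card_dvd_factorial hnc H hH
  have h7 : H.index.factorial ∣ 120 := by
    have : H.index.factorial ∣ Nat.factorial 5 := Nat.factorial_dvd_factorial (by omega)
    simpa [Nat.factorial] using this
  have h8 : Nat.card G ∣ 60 := by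
    have := h6.trans h7
    have e : (120 : ℕ) = 2 * 60 := by norm_num
    rw [e] at this
    exact Nat.dvd_of_mul_dvd_mul_left (by norm_num) this
  have hsolv : ¬ Group.IsSolvable G := by
    intro hs
    apply hnc
    exact ⟨⟨fun a b => IsSimpleGroup.comm_iff_isSolvable.2 hs a b⟩⟩
  have hcases : Nat.card G = 60 := by
    have h9 : Nat.card G ∈ Nat.divisors 60 := Nat.mem_divisors.2 ⟨h8, by norm_num⟩
    have h10 : Nat.divisors 60 = {1, 2, 3, 4, 5, 6, 10, 12, 15, 20, 30, 60} := by decide
    rw [h10] at h9
    simp only [Finset.mem_insert, Finset.mem_singleton] at h9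
    obtain ⟨r, hr⟩ := heven
    have S := Cfsg.Agent.Lib.CharBurnside.solvable_two_prime
    rcases h9 with h | h | h | h | h | h | h | h | h | h | h | h
    · omega
    · omega
    · omega
    · exact absurd (S 2 3 Nat.prime_two Nat.prime_three _ G 2 0 rfl (by rw [h]; norm_num)) hsolv
    · omega
    · exact absurd (S 2 3 Nat.prime_two Nat.prime_three _ G 1 1 rfl (by rw [h]; norm_num)) hsolv
    · exact absurd (S 2 5 Nat.prime_two Nat.prime_five _ G 1 1 rfl (by rw [h]; norm_num)) hsolv
    · exact absurd (S 2 3 Nat.prime_two Nat.prime_three _ G 2 1 rfl (by rw [h]; norm_num)) hsolv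
    · omega
    · exact absurd (S 2 5 Nat.prime_two Nat.prime_five _ G 2 1 rfl (by rw [h]; norm_num)) hsolv
    · exfalso
      have hsf : Squarefree (Nat.card G) := by
        rw [h]
        have e30 : (30 : ℕ) = 2 * (3 * 5) := by norm_num
        rw [e30, Nat.squarefree_mul (by norm_num), Nat.squarefree_mul (by norm_num)]
        exact ⟨Nat.prime_two.prime.squarefree, Nat.prime_three.prime.squarefree,
          Nat.prime_five.prime.squarefree⟩
      haveI := IsZGroup.of_squarefree hsf
      exact hsolv inferInstance
    · exact h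
  have hi5 : H.index = 5 := by
    rw [hcases] at h6
    have hil : H.index ≤ 5 := by omega
    interval_cases hh : H.index
    all_goals first | rfl | (exfalso; revert h6; decide)
  obtain ⟨f, hf⟩ := Cfsg.Agent.Lib.SylowCount.exists_injective_alternating hnc H hH
  have hcount : ∀ i : ℕ, i = 5 → ∀ f : G →* ↥(alternatingGroup (Fin i)), Function.Injective f → n ≤ 15 := by
    intro i hi f hf
    subst hi
    have hc15 : Fintype.card {σ : Equiv.Perm (Fin 5) // σ * σ = 1 ∧ σ ≠ 1 ∧ Equiv.Perm.sign σ = 1} = 15 := by
      decide +kernel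
    rw [← hc15, ← Nat.card_eq_fintype_card, hn, Cfsg.Agent.Lib.InvCount.inv]
    refine Nat.card_le_card_of_injective
      (fun t => ⟨(f t.1).1, ?_, ?_, Equiv.Perm.mem_alternatingGroup.1 (f t.1).2⟩) ?_
    · have h11 : t.1 * t.1 = 1 := Cfsg.Agent.Lib.InvPair.mul_self_of_order t.2
      have h12 : f t.1 * f t.1 = 1 := by rw [← map_mul, h11, map_one]
      exact congrArg Subtype.val h12
    · intro h
      have h13 : f t.1 = 1 := Subtype.ext h
      have h14 : t.1 = 1 := hf (by rw [h13, map_one])
      have h15 := t.2
      rw [h14, orderOf_one] at h15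
      omega
    · intro a b h
      have h16 := congrArg (fun w : {σ : Equiv.Perm (Fin 5) // σ * σ = 1 ∧ σ ≠ 1 ∧ Equiv.Perm.sign σ = 1} => w.1) h
      exact Subtype.ext (hf (Subtype.ext h16))
  have := hcount _ hi5 f hf
  omega

end Cfsg.Agent.S0234
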