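import Mathlib
import Cfsg.Agent.Lib.InvPair
import Cfsg.Statements.S0235
-- import your own Cfsg.Agent.* helpers here

set_option autoImplicit false
open Cfsg

namespace Cfsg.Agent.S0235

/-- If x² ≠ 1, the ordered pairs (u, v) of involutions with uv = x correspond bijectively to the involutions t with t x t⁻¹ = x⁻¹ (via (u, v) ↦ u), so the two counts agree. -/
theorem result {G : Type*} [Group G] [Finite G] (x : G) (hx : x ^ 2 ≠ 1) : Nat.card {p : G × G // orderOf p.1 = 2 ∧ orderOf p.2 = 2 ∧ p.1 * p.2 = x} = Nat.card {t : G // orderOf t = 2 ∧ t * x * t⁻¹ = x⁻¹} := by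
  classical
  refine Nat.card_congr
    { toFun := fun p => ⟨p.1.1, p.2.1, ?_⟩
      invFun := fun t => ⟨(t.1, t.1 * x), t.2.1, ?_, ?_⟩
      left_inv := ?_
      right_inv := ?_ }
  · obtain ⟨⟨u, v⟩, hu, hv, e⟩ := p
    simp only at hu hv e ⊢
    have hu2 := Cfsg.Agent.Lib.InvPair.mul_self_of_order hu
    have hv2 := Cfsg.Agent.Lib.InvPair.mul_self_of_order hv
    rw [← e, Cfsg.Agent.Lib.InvPair.inv_of_order hu, mul_inv_rev, Cfsg.Agent.Lib.InvPair.inv_of_order hu, Cfsg.Agent.Lib.InvPair.inv_of_order hv]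
    calc u * (u * v) * u = (u * u) * v * u := by group
      _ = v * u := by rw [hu2, one_mul]
  · obtain ⟨t, ht, e⟩ := t
    simp only
    have ht2 := Cfsg.Agent.Lib.InvPair.mul_self_of_order ht
    apply orderOf_eq_prime
    · rw [pow_two]
      rw [Cfsg.Agent.Lib.InvPair.inv_of_order ht] at e
      calc t * x * (t * x) = (t * x * t) * x := by group
        _ = 1 := by rw [e, inv_mul_cancel]
    · intro h
      apply hx
      have : x = t := by
        have h3 : t * x = t * t := by rw [h, ht2]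
        exact mul_left_cancel h3
      rw [this, pow_two, ht2]
  · obtain ⟨t, ht, e⟩ := t
    simp only
    have ht2 := Cfsg.Agent.Lib.InvPair.mul_self_of_order ht
    rw [← mul_assoc, ht2, one_mul]
  · rintro ⟨⟨u, v⟩, hu, hv, e⟩
    simp only at hu hv e ⊢
    have hu2 := Cfsg.Agent.Lib.InvPair.mul_self_of_order hu
    apply Subtype.ext
    simp only [Prod.mk.injEq, true_and]
    rw [← e, ← mul_assoc, hu2, one_mul]
  · rintro ⟨t, ht, e⟩
    rfl

end Cfsg.Agent.S0235
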