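import Mathlib
import Cfsg.Statements.S0239
-- import your own Cfsg.Agent.* helpers here

set_option autoImplicit false
open Cfsg

namespace Cfsg.Agent.S0239

/-- If some nontrivial element x of a finite group G is conjugate to x⁻¹, then |G| is even. -/
theorem result {G : Type*} [Group G] [Finite G] (x : G) (hx : x ≠ 1) (hreal : IsConj x x⁻¹) : Even (Nat.card G) := by
  classical
  obtain ⟨c, hc⟩ := isConj_iff.1 hreal
  by_contra hodd
  rw [Nat.not_even_iff_odd] at hodd
  have h1 : Odd (orderOf c) := hodd.of_dvd_nat (orderOf_dvd_natCard c)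
  obtain ⟨r, hr⟩ := h1
  have hcc : Commute (c * c) x := by
    have h2 : c * x⁻¹ * c⁻¹ = x := by
      calc c * x⁻¹ * c⁻¹ = (c * x * c⁻¹)⁻¹ := by group
        _ = x := by rw [hc, inv_inv]
    have h3 : c * c * x * (c * c)⁻¹ = x := by
      calc c * c * x * (c * c)⁻¹ = c * (c * x * c⁻¹) * c⁻¹ := by group
        _ = x := by rw [hc, h2]
    exact mul_inv_eq_iff_eq_mul.1 h3
  have hpow : (c * c) ^ (r + 1) = c := by
    have h4 : c ^ (2 * r + 1) = 1 := by rw [← hr]; exact pow_orderOf_eq_one c
    calc (c * c) ^ (r + 1) = c ^ (2 * r + 1) * c := by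
          rw [← pow_two, ← pow_mul, ← pow_succ]
          congr 1
      _ = c := by rw [h4, one_mul]
  have hcx : Commute c x := by
    have := hcc.pow_left (r + 1)
    rwa [hpow] at this
  have h5 : x⁻¹ = x := by
    rw [← hc, hcx.eq, mul_inv_cancel_right]
  have h6 : x ^ 2 = 1 := by
    rw [pow_two]
    nth_rewrite 1 [← h5]
    simp
  have h7 : orderOf x = 2 := orderOf_eq_prime h6 hx
  have h8 := orderOf_dvd_natCard x
  rw [h7] at h8
  exact (Nat.not_even_iff_odd.2 hodd) (even_iff_two_dvd.2 h8)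

end Cfsg.Agent.S0239
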