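import Mathlib
import Cfsg.Agent.Lib.InvPair
import Cfsg.Statements.S0240
-- import your own Cfsg.Agent.* helpers here

set_option autoImplicit false
open Cfsg

namespace Cfsg.Agent.S0240

/-- Let G be a finite group with n involutions and H a subgroup with |H|·(n+1) > |G|. Then some nontrivial h ∈ H is strongly real in G: an involution t of G satisfies t h t⁻¹ = h⁻¹. -/
theorem result {G : Type*} [Group G] [Finite G] (H : Subgroup G) (hH : Nat.card G < Nat.card H * (Nat.card {t : G // orderOf t = 2} + 1)) : ∃ h : G, h ∈ H ∧ h ≠ 1 ∧ ∃ t : G, orderOf t = 2 ∧ t * h * t⁻¹ = h⁻¹ := by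
  classical
  have hQ : (1 : G) = 1 ∨ orderOf (1 : G) = 2 := Or.inl rfl
  have h1 := Cfsg.Agent.Lib.InvPair.card_subtype_succ (Q := fun t : G => t = 1 ∨ orderOf t = 2) hQ
  have h2 : Nat.card {t : G // (t = 1 ∨ orderOf t = 2) ∧ t ≠ 1} = Nat.card {t : G // orderOf t = 2} := by
    refine Nat.card_congr
      { toFun := fun t => ⟨t.1, t.2.1.resolve_left t.2.2⟩
        invFun := fun t => ⟨t.1, Or.inr t.2, fun h => ?_⟩
        left_inv := fun t => rfl
        right_inv := fun t => rfl }
    have h3 := t.2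
    rw [h, orderOf_one] at h3
    omega
  rw [h2] at h1
  have h3 : Nat.card G < Nat.card ({t : G // t = 1 ∨ orderOf t = 2} × H) := by
    rw [Nat.card_prod, ← h1, mul_comm]
    exact hH
  let f : {t : G // t = 1 ∨ orderOf t = 2} × H → G := fun p => p.1.1 * p.2.1
  have hni : ¬ Function.Injective f := fun hinj =>
    absurd (Nat.card_le_card_of_injective f hinj) (by omega)
  obtain ⟨p, q, hf, hne⟩ := Function.not_injective_iff.1 hni
  obtain ⟨⟨i, hi⟩, ⟨h₁, hh₁⟩⟩ := p
  obtain ⟨⟨j, hj⟩, ⟨h₂, hh₂⟩⟩ := q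
  simp only [f] at hf
  have hij : j⁻¹ * i = h₂ * h₁⁻¹ := by
    rw [inv_mul_eq_iff_eq_mul, ← mul_assoc, ← hf]
    simp
  refine ⟨h₂ * h₁⁻¹, mul_mem hh₂ (inv_mem hh₁), ?_, ?_⟩
  · intro h
    rw [h] at hij
    have hi2 : i = j := by
      rw [inv_mul_eq_one] at hij
      exact hij.symm
    subst hi2
    have hh2 : h₁ = h₂ := mul_left_cancel hf
    subst hh2
    exact hne rfl
  · rw [← hij]
    rcases hj with rfl | hj
    · rcases hi with rfl | hi
      · exfalso
        apply hne
        have hh2 : h₁ = h₂ := by simpa using hf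
        subst hh2
        rfl
      · refine ⟨i, hi, ?_⟩
        rw [inv_one, one_mul, Cfsg.Agent.Lib.InvPair.inv_of_order hi, mul_assoc, Cfsg.Agent.Lib.InvPair.mul_self_of_order hi, mul_one]
    · refine ⟨j, hj, ?_⟩
      have hj2 := Cfsg.Agent.Lib.InvPair.mul_self_of_order hj
      rw [mul_inv_rev, inv_inv]
      calc j * (j⁻¹ * i) * j⁻¹ = i * j⁻¹ := by group
        _ = _ := by
          rcases hi with rfl | hi
          · simp [Cfsg.Agent.Lib.InvPair.inv_of_order hj]
          · rw [Cfsg.Agent.Lib.InvPair.inv_of_order hi, Cfsg.Agent.Lib.InvPair.inv_of_order hj]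

end Cfsg.Agent.S0240
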