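import Mathlib
import Cfsg.Agent.Lib.InvPair
import Cfsg.Statements.S0241
-- import your own Cfsg.Agent.* helpers here

set_option autoImplicit false
open Cfsg

namespace Cfsg.Agent.S0241

/-- If x ≠ 1 is conjugate to x⁻¹ in a finite group G and |C_G(x)| is odd, then some involution t satisfies t x t⁻¹ = x⁻¹. -/
theorem result {G : Type*} [Group G] [Finite G] (x : G) (hx : x ≠ 1) (hreal : IsConj x x⁻¹) (hodd : Odd (Nat.card (Subgroup.centralizer ({x} : Set G)))) : ∃ t : G, orderOf t = 2 ∧ t * x * t⁻¹ = x⁻¹ := by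
  classical
  obtain ⟨c, hc⟩ := isConj_iff.1 hreal
  have hinv : ∀ m : ℕ, Odd m → c ^ m * x * (c ^ m)⁻¹ = x⁻¹ := by
    have h2 : c * x⁻¹ * c⁻¹ = x := by
      calc c * x⁻¹ * c⁻¹ = (c * x * c⁻¹)⁻¹ := by group
        _ = x := by rw [hc, inv_inv]
    have h3 : c * c * x * (c * c)⁻¹ = x := by
      calc c * c * x * (c * c)⁻¹ = c * (c * x * c⁻¹) * c⁻¹ := by group
        _ = x := by rw [hc, h2]
    have hcc : Commute (c * c) x := mul_inv_eq_iff_eq_mul.1 h3
    rintro m ⟨r, rfl⟩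
    have h4 : c ^ (2 * r + 1) = (c * c) ^ r * c := by
      rw [pow_succ, pow_mul, pow_two]
    rw [h4, mul_inv_rev]
    have h5 := hcc.pow_left r
    calc (c * c) ^ r * c * x * (c⁻¹ * ((c * c) ^ r)⁻¹)
        = (c * c) ^ r * (c * x * c⁻¹) * ((c * c) ^ r)⁻¹ := by group
      _ = (c * c) ^ r * x⁻¹ * ((c * c) ^ r)⁻¹ := by rw [hc]
      _ = x⁻¹ := by rw [h5.inv_right.eq, mul_inv_cancel_right]
  obtain ⟨a, m, hm, hcm⟩ := Nat.exists_eq_two_pow_mul_odd (orderOf_pos c).ne'
  set t : G := c ^ m with ht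
  have hti : t * x * t⁻¹ = x⁻¹ := hinv m hm
  have hcen : t * t ∈ Subgroup.centralizer ({x} : Set G) := by
    rw [Subgroup.mem_centralizer_singleton_iff]
    have h2 : t * x⁻¹ * t⁻¹ = x := by
      calc t * x⁻¹ * t⁻¹ = (t * x * t⁻¹)⁻¹ := by group
        _ = x := by rw [hti, inv_inv]
    have h3 : t * t * x * (t * t)⁻¹ = x := by
      calc t * t * x * (t * t)⁻¹ = t * (t * x * t⁻¹) * t⁻¹ := by group
        _ = x := by rw [hti, h2]
    exact mul_inv_eq_iff_eq_mul.1 h3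
  have hdvd1 : orderOf (t * t) ∣ Nat.card (Subgroup.centralizer ({x} : Set G)) := by
    have := orderOf_dvd_natCard (⟨t * t, hcen⟩ : Subgroup.centralizer ({x} : Set G))
    rwa [Subgroup.orderOf_mk] at this
  have hdvd2 : orderOf (t * t) ∣ 2 ^ a := by
    rw [orderOf_dvd_iff_pow_eq_one, ← pow_two, ht, ← pow_mul, ← pow_mul]
    have : m * (2 * 2 ^ a) = 2 * (2 ^ a * m) := by ring
    rw [this, ← hcm, pow_mul', pow_orderOf_eq_one, one_pow]
  have hcop : Nat.Coprime (2 ^ a) (Nat.card (Subgroup.centralizer ({x} : Set G))) :=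
    Nat.Coprime.pow_left _ (Nat.coprime_two_left.2 hodd)
  have h1 : orderOf (t * t) = 1 := Nat.eq_one_of_dvd_coprimes hcop hdvd2 hdvd1
  have htt : t ^ 2 = 1 := by
    rw [pow_two]
    exact orderOf_eq_one_iff.1 h1
  have htne : t ≠ 1 := by
    intro h
    rw [h] at hti
    have h5 : x⁻¹ = x := by rw [← hti]; simp
    have h6 : x ^ 2 = 1 := by
      rw [pow_two]
      nth_rewrite 1 [← h5]
      simp
    have h7 : orderOf x = 2 := orderOf_eq_prime h6 hx
    have h8 : orderOf x ∣ Nat.card (Subgroup.centralizer ({x} : Set G)) := by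
      have := orderOf_dvd_natCard (⟨x, Subgroup.mem_centralizer_singleton_iff.2 rfl⟩ : Subgroup.centralizer ({x} : Set G))
      rwa [Subgroup.orderOf_mk] at this
    rw [h7] at h8
    exact (Nat.not_even_iff_odd.2 hodd) (even_iff_two_dvd.2 h8)
  exact ⟨t, orderOf_eq_prime htt htne, hti⟩

end Cfsg.Agent.S0241
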