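import Cfsg.Agent.Lib.SpSimple
import Cfsg.Statements.S0246
-- import your own Cfsg.Agent.* helpers here

set_option autoImplicit false
open Cfsg

namespace Cfsg.Agent.S0246

/-- The centre of Sp_{2m}(q), m at least 1, is {1, -1}: it has order gcd(2, q-1). -/
theorem result {F : Type*} [Field F] [Fintype F] {q : ℕ} (hF : Fintype.card F = q) (m : ℕ) (hm : 1 ≤ m) : Nat.card (Subgroup.center (Matrix.symplecticGroup (Fin m) F)) = Nat.gcd 2 (q - 1) := by
  classical
  have hm' := hm
  open Cfsg.Agent.Lib.SpSimple in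
  have hcard : Nat.card (Subgroup.center (Matrix.symplecticGroup (Fin m) F)) = Nat.card {a : F // a * a = 1} := by
    refine Nat.card_congr (Equiv.ofBijective (fun A ↦ ⟨((mem_center_iff hm A.1).1 A.2).choose, ((mem_center_iff hm A.1).1 A.2).choose_spec.1⟩) ⟨?_, ?_⟩)
    · rintro ⟨A, hA⟩ ⟨B, hB⟩ h
      have h1 := ((mem_center_iff hm A).1 hA).choose_spec.2
      have h2 := ((mem_center_iff hm B).1 hB).choose_spec.2
      have h3 := congrArg Subtype.val h
      simp only at h3
      rw [h3, ← h2] at h1
      exact Subtype.ext (Subtype.ext h1)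
    · rintro ⟨a, ha⟩
      have hmem : (a • 1 : Matrix (Fin m ⊕ Fin m) (Fin m ⊕ Fin m) F) ∈ Matrix.symplecticGroup (Fin m) F := by
        rw [SymplecticGroup.mem_iff]
        simp [smul_smul, ha]
      have hc : (⟨_, hmem⟩ : Matrix.symplecticGroup (Fin m) F) ∈ Subgroup.center (Matrix.symplecticGroup (Fin m) F) :=
        (mem_center_iff hm _).2 ⟨a, ha, rfl⟩
      refine ⟨⟨_, hc⟩, ?_⟩
      apply Subtype.ext
      have h1 := ((mem_center_iff hm _).1 hc).choose_spec.2
      simp only at h1 ⊢
      generalize ((mem_center_iff hm _).1 hc).choose = b at h1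
      have hne : (Pi.single (Sum.inl (⟨0, hm⟩ : Fin m)) 1 : Fin m ⊕ Fin m → F) ≠ 0 := by
        intro h
        have := congrFun h (.inl ⟨0, hm⟩)
        simp at this
      have h2 := congrFun (congrFun h1 (.inl ⟨0, hm⟩)) (.inl ⟨0, hm⟩)
      simpa using h2.symm
  rw [hcard]
  have hq : 0 < q := by rw [← hF]; exact Fintype.card_pos
  by_cases h2 : (2 : F) = 0
  · have hc : ringChar F = 2 := by
      have := CharTwo.of_one_ne_zero_of_two_eq_zero (R := F) one_ne_zero h2
      exact (ringChar.eq F 2)
    have heven : q % 2 = 0 := by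
      rw [← hF]; exact FiniteField.even_card_iff_char_two.1 hc
    have hq2 : 2 ≤ q := by rw [← hF]; exact Fintype.one_lt_card
    have hg : Nat.gcd 2 (q - 1) = 1 := (Nat.Prime.coprime_iff_not_dvd Nat.prime_two).2 (by omega)
    rw [hg, Nat.card_eq_one_iff_unique]
    refine ⟨⟨?_⟩, ⟨⟨1, by simp⟩⟩⟩
    rintro ⟨a, ha⟩ ⟨b, hb⟩
    apply Subtype.ext
    have hab : (a + b) * (a + b) = 0 := by
      linear_combination ha + hb + (a * b + 1) * h2
    have h3 : a + b = 0 := by
      simpa using hab
    have h4 : a = b := by linear_combination h3 - b * h2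
    exact h4
  · have hc : ringChar F ≠ 2 := by
      intro h
      apply h2
      have := (ringChar.spec F 2).2 h.dvd
      simpa using this
    have hodd : q % 2 = 1 := by
      have h3 := FiniteField.even_card_iff_char_two (F := F)
      rw [hF] at h3
      by_contra h4
      exact hc (h3.2 (by omega))
    have hq2 : 2 ≤ q := by rw [← hF]; exact Fintype.one_lt_card
    have hg : Nat.gcd 2 (q - 1) = 2 := by
      obtain ⟨r, hr⟩ : ∃ r, q - 1 = 2 * r := ⟨(q - 1) / 2, by omega⟩
      rw [hr]; simp
    rw [hg, Nat.card_eq_two_iff]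
    have hne : (1 : F) ≠ -1 := by
      intro h
      apply h2
      linear_combination h
    refine ⟨⟨1, by simp⟩, ⟨-1, by simp⟩, ?_, ?_⟩
    · intro h
      exact hne (congrArg Subtype.val h)
    · ext ⟨a, ha⟩
      simp only [Set.mem_insert_iff, Set.mem_singleton_iff, Subtype.mk.injEq, Set.mem_univ, iff_true]
      have : (a - 1) * (a + 1) = 0 := by linear_combination ha
      rcases mul_eq_zero.1 this with h | h
      · exact Or.inl (sub_eq_zero.1 h)
      · exact Or.inr (by linear_combination h)

end Cfsg.Agent.S0246
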