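import Cfsg.Agent.S0826
import Cfsg.Agent.Lib.IsomChain
import Cfsg.Statements.S0247
-- import your own Cfsg.Agent.* helpers here

set_option autoImplicit false
open Cfsg

namespace Cfsg.Agent.S0247


open scoped Matrix

/-- Transport of the symplectic group along a ring isomorphism. -/
noncomputable def mapSp {F K : Type*} [Field F] [Field K] (φ : F ≃+* K) :
    Matrix.symplecticGroup (Fin 2) F ≃* Matrix.symplecticGroup (Fin 2) K where
  toFun A := ⟨A.1.map φ, SymplecticGroup.map_mem A.2 φ⟩
  invFun A := ⟨A.1.map φ.symm, SymplecticGroup.map_mem A.2 φ.symm⟩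
  left_inv A := by
    apply Subtype.ext
    ext i j
    simp
  right_inv A := by
    apply Subtype.ext
    ext i j
    simp
  map_mul' A B := by
    apply Subtype.ext
    exact Matrix.map_mul


/-- Sp_4(2) is isomorphic to the symmetric group S_6. -/
theorem result {F : Type*} [Field F] [Fintype F] (hF : Fintype.card F = 2) : Nonempty (Matrix.symplecticGroup (Fin 2) F ≃* Equiv.Perm (Fin 6)) := by
  classical
  have hZ : Fintype.card (ZMod 2) = Fintype.card F := by simp [hF]
  let φ : F ≃+* ZMod 2 := (FiniteField.ringEquivOfCardEq hZ).symm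
  obtain ⟨f, hf⟩ := Cfsg.Agent.S0826.result 3 (by omega)
  have hc : Nat.card (Matrix.symplecticGroup (Fin 2) (ZMod 2)) = 720 := by
    rw [Cfsg.Agent.Lib.IsomChain.card_symplecticGroup]
    simp [Finset.prod_range_succ]
  have hc2 : Nat.card (Equiv.Perm (Fin 6)) = 720 := by
    simp [Nat.card_eq_fintype_card, Fintype.card_perm, Nat.factorial]
  let f' : Equiv.Perm (Fin 6) →* Matrix.symplecticGroup (Fin 2) (ZMod 2) := f
  have hb : Function.Bijective f' := by
    have : Finite (Matrix.symplecticGroup (Fin 2) (ZMod 2)) := Nat.finite_of_card_ne_zero (by rw [hc]; norm_num)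
    exact (Nat.bijective_iff_injective_and_card _).2 ⟨hf, by rw [hc, hc2]⟩
  exact ⟨(mapSp φ).trans (MulEquiv.ofBijective f' hb).symm⟩

end Cfsg.Agent.S0247
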