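import Cfsg.Agent.Lib.PermIso
import Cfsg.Agent.Lib.SLn
import Cfsg.Agent.S0243
import Cfsg.Agent.S0242
import Cfsg.Statements.S0250
-- import your own Cfsg.Agent.* helpers here

set_option autoImplicit false
open Cfsg

namespace Cfsg.Agent.S0250

/-- SL_2(2) is isomorphic to S_3. -/
theorem result {F : Type*} [Field F] [Fintype F] (hF : Fintype.card F = 2) : Nonempty (Matrix.SpecialLinearGroup (Fin 2) F ≃* Equiv.Perm (Fin 3)) := by
  classical
  have hP : Nat.card (Projectivization F (Fin 2 → F)) = Fintype.card F + 1 := by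
    rw [Projectivization.card_of_finrank_two F (Fin 2 → F) (by simp), Nat.card_eq_fintype_card]
  have hc := Cfsg.Agent.S0242.result hF 2 (by norm_num)
  rw [Fin.prod_univ_two] at hc
  norm_num [-Nat.card_eq_fintype_card] at hc
  have hz := Cfsg.Agent.Lib.SLn.card_center_SL (ι := Fin 2) (F := F)
  rw [hF] at hz
  norm_num [-Nat.card_eq_fintype_card] at hz
  refine Cfsg.Agent.Lib.PermIso.nonempty_mulEquiv_perm 3 (by rw [hP, hF])
    (MulAction.toPermHom (Matrix.SpecialLinearGroup (Fin 2) F) (Projectivization F (Fin 2 → F))) ?_ (by rw [hc]; rfl)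
  rw [injective_iff_map_eq_one]
  intro g hg
  have hg' : g ∈ (MulAction.toPermHom (Matrix.SpecialLinearGroup (Fin 2) F) (Projectivization F (Fin 2 → F))).ker := hg
  rw [Projectivization.SL_mulAction_ker] at hg'
  rw [hz] at hg'
  exact Subgroup.mem_bot.1 hg'

end Cfsg.Agent.S0250
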