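import Cfsg.Agent.Lib.PermIso
import Cfsg.Agent.Lib.SLn
import Cfsg.Agent.S0243
import Cfsg.Agent.S0242
import Cfsg.Statements.S0251
-- import your own Cfsg.Agent.* helpers here

set_option autoImplicit false
open Cfsg

namespace Cfsg.Agent.S0251

/-- PSL_2(3) is isomorphic to A_4. -/
theorem result {F : Type*} [Field F] [Fintype F] (hF : Fintype.card F = 3) : Nonempty (Matrix.ProjectiveSpecialLinearGroup (Fin 2) F ≃* alternatingGroup (Fin 4)) := by
  classical
  have hP : Nat.card (Projectivization F (Fin 2 → F)) = Fintype.card F + 1 := by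
    rw [Projectivization.card_of_finrank_two F (Fin 2 → F) (by simp), Nat.card_eq_fintype_card]
  have hc := Cfsg.Agent.S0243.result hF 2 (by norm_num)
  rw [Fin.prod_univ_two] at hc
  norm_num [-Nat.card_eq_fintype_card] at hc
  refine Cfsg.Agent.Lib.PermIso.nonempty_mulEquiv_alternating 4 (by rw [hP, hF]) Projectivization.PSLAction.toPermHom
    Matrix.ProjectiveSpecialLinearGroup.toPermHom_injective ?_
  have : Nat.factorial 4 = 24 := rfl
  omega

end Cfsg.Agent.S0251
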