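import Mathlib
import Cfsg.Agent.Lib.KBCheck
import Cfsg.Statements.S3377
-- import your own Cfsg.Agent.* helpers here

set_option autoImplicit false
open Cfsg

namespace Cfsg.Agent.S3377


open Cfsg.Agent.Lib.KBCheck

def baseRules : List Rule := [([0,0,0],[]),([1,1,1,1,1],[]),([0,1,0,1],[])]
def certA : List (ℕ × ℕ × ℕ) := [(0, 2, 2), (2, 1, 3), (1, 4, 4), (3, 4, 2), (4, 3, 3), (7, 6, 2), (8, 3, 6), (0, 9, 2), (9, 8, 4), (3, 11, 2)]
def finalRules : List Rule := run 40 baseRules certA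
def nfsA : List (List ℕ) := [[], [0], [1], [0, 0], [0, 1], [1, 0], [1, 1], [0, 0, 1], [0, 1, 0], [0, 1, 1], [1, 0, 0], [1, 1, 0], [1, 1, 1], [0, 0, 1, 0], [0, 0, 1, 1], [0, 1, 0, 0], [0, 1, 1, 0], [0, 1, 1, 1], [1, 0, 0, 1], [1, 1, 0, 0], [1, 1, 1, 0], [0, 0, 1, 0, 0], [0, 0, 1, 1, 0], [0, 0, 1, 1, 1], [0, 1, 0, 0, 1], [0, 1, 1, 0, 0], [0, 1, 1, 1, 0], [1, 0, 0, 1, 1], [1, 1, 0, 0, 1], [0, 0, 1, 0, 0, 1], [0, 0, 1, 1, 0, 0], [0, 0, 1, 1, 1, 0], [0, 1, 0, 0, 1, 1], [0, 1, 1, 0, 0, 1], [1, 0, 0, 1, 1, 0], [1, 0, 0, 1, 1, 1], [1, 1, 0, 0, 1, 1], [0, 0, 1, 0, 0, 1, 1], [0, 0, 1, 1, 0, 0, 1], [0, 1, 0, 0, 1, 1, 0], [0, 1, 0, 0, 1, 1, 1], [0, 1, 1, 0, 0, 1, 1], [1, 0, 0, 1, 1, 0, 0], [1, 0, 0, 1, 1, 1, 0], [1, 1, 0, 0, 1, 1, 0], [0, 0, 1, 0, 0, 1, 1, 0], [0, 0, 1, 0, 0, 1, 1, 1], [0, 0, 1, 1, 0, 0, 1, 1], [0, 1, 0, 0, 1, 1, 0, 0], [0, 1, 0, 0, 1, 1, 1, 0], [0, 1, 1, 0, 0, 1, 1, 0], [1, 0, 0, 1, 1, 0, 0, 1], [1, 1, 0, 0, 1, 1,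 0, 0], [0, 0, 1, 0, 0, 1, 1, 0, 0], [0, 0, 1, 0, 0, 1, 1, 1, 0], [0, 0, 1, 1, 0, 0, 1, 1, 0], [0, 1, 1, 0, 0, 1, 1, 0, 0], [1, 0, 0, 1, 1, 0, 0, 1, 1], [1, 1, 0, 0, 1, 1, 0, 0, 1], [0, 1, 1, 0, 0, 1, 1, 0, 0, 1]]
def invA : List (ℕ × List ℕ) := [(0,[0,0]),(1,[1,1,1,1])]

lemma check_A : check 40 finalRules [0,1] invA nfsA = true := by decide +kernel

def xA : alternatingGroup (Fin 5) := ⟨Equiv.swap (0 : Fin 5) 1 * Equiv.swap (1 : Fin 5) 2, Equiv.Perm.mem_alternatingGroup.2 (by decide)⟩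
def yA : alternatingGroup (Fin 5) := ⟨Equiv.swap (0 : Fin 5) 2 * Equiv.swap (1 : Fin 5) 3 * Equiv.swap (2 : Fin 5) 4 * Equiv.swap (3 : Fin 5) 4, Equiv.Perm.mem_alternatingGroup.2 (by decide)⟩
def gA (n : ℕ) : alternatingGroup (Fin 5) := if n = 0 then xA else yA

lemma nodup_A : (nfsA.map (fun u => ev gA u)).Nodup := by decide +kernel

lemma x3 : xA ^ 3 = 1 := by decide +kernel
lemma y5 : yA ^ 5 = 1 := by decide +kernel
lemma xy2 : (xA * yA) ^ 2 = 1 := by decide +kernel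


/-- The alternating group of degree 5 has the presentation ⟨x, y | x³ = 1, y⁵ = 1, (xy)² = 1⟩: the group so presented is isomorphic to Alt(5). -/
theorem result :
    Nonempty (PresentedGroup ({FreeGroup.of (0 : Fin 2) ^ 3, FreeGroup.of (1 : Fin 2) ^ 5,
        (FreeGroup.of (0 : Fin 2) * FreeGroup.of 1) ^ 2} : Set (FreeGroup (Fin 2))) ≃* alternatingGroup (Fin 5)) := by
  set R : Set (FreeGroup (Fin 2)) := {FreeGroup.of (0 : Fin 2) ^ 3, FreeGroup.of (1 : Fin 2) ^ 5,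
        (FreeGroup.of (0 : Fin 2) * FreeGroup.of 1) ^ 2} with hR
  let x : PresentedGroup R := PresentedGroup.of 0
  let y : PresentedGroup R := PresentedGroup.of 1
  have hx : x ^ 3 = 1 := by
    have : PresentedGroup.mk R (FreeGroup.of (0 : Fin 2) ^ 3) = 1 :=
      PresentedGroup.one_of_mem (by simp [hR])
    rw [map_pow] at this
    exact this
  have hy : y ^ 5 = 1 := by
    have : PresentedGroup.mk R (FreeGroup.of (1 : Fin 2) ^ 5) = 1 :=
      PresentedGroup.one_of_mem (by simp [hR])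
    rw [map_pow] at this
    exact this
  have hxy : (x * y) ^ 2 = 1 := by
    have : PresentedGroup.mk R ((FreeGroup.of (0 : Fin 2) * FreeGroup.of 1) ^ 2) = 1 :=
      PresentedGroup.one_of_mem (by simp [hR])
    rw [map_pow, map_mul] at this
    exact this
  let f : ℕ → PresentedGroup R := fun n => if n = 0 then x else y
  have hbase : Valid f baseRules := by
    intro r hr
    simp only [baseRules, List.mem_cons, List.not_mem_nil, or_false] at hr
    rcases hr with rfl | rfl | rfl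
    · simpa [ev, f, pow_succ, mul_assoc] using hx
    · simpa [ev, f, pow_succ, mul_assoc] using hy
    · simpa [ev, f, pow_succ, mul_assoc] using hxy
  have hfinal : Valid f finalRules := valid_run f _ _ hbase
  have hgen : Subgroup.closure (f '' {g | g ∈ [0, 1]}) = ⊤ := by
    rw [eq_top_iff, ← PresentedGroup.closure_range_of]
    apply Subgroup.closure_mono
    rintro _ ⟨i, rfl⟩
    fin_cases i
    · exact ⟨0, by simp, rfl⟩
    · exact ⟨1, by simp, rfl⟩
  let φ : PresentedGroup R →* alternatingGroup (Fin 5) :=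
    PresentedGroup.toGroup (f := fun i : Fin 2 => gA i.val) (by
      intro r hr
      simp only [hR, Set.mem_insert_iff, Set.mem_singleton_iff] at hr
      rcases hr with rfl | rfl | rfl
      · simpa [gA] using x3
      · simpa [gA] using y5
      · simpa [gA] using xy2)
  have hφf : ∀ n, φ (f n) = gA n := by
    intro n
    by_cases h : n = 0
    · subst h
      exact PresentedGroup.toGroup.of _
    · simp only [f, if_neg h]
      have : gA n = gA 1 := by simp [gA, h]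
      rw [this]
      exact PresentedGroup.toGroup.of _
  have hφev : ∀ u, φ (ev f u) = ev gA u := by
    intro u
    induction u with
    | nil => simp [ev]
    | cons a t ih => rw [ev_cons, ev_cons, map_mul, ih, hφf]
  have hcard : Nat.card (alternatingGroup (Fin 5)) = nfsA.length := by
    have h1 := two_mul_nat_card_alternatingGroup (α := Fin 5)
    rw [Nat.card_perm, Nat.card_fin] at h1
    have h2 : Nat.factorial 5 = 120 := rfl
    have h3 : nfsA.length = 60 := by decide +kernel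
    omega
  have hnd : (nfsA.map (fun u => φ (ev f u))).Nodup := by
    have : (fun u => φ (ev f u)) = fun u => ev gA u := funext hφev
    rw [this]
    exact nodup_A
  exact ⟨MulEquiv.ofBijective φ (bijective_of_nodup f hfinal check_A hgen φ hcard hnd)⟩

end Cfsg.Agent.S3377
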