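import Cfsg.Agent.Lib.MkSL
import Cfsg.Agent.S0243
import Cfsg.Agent.S3377
import Cfsg.Statements.S0253
-- import your own Cfsg.Agent.* helpers here

set_option autoImplicit false
open Cfsg

namespace Cfsg.Agent.S0253

/-- PSL_2(5) is isomorphic to A_5. -/
theorem result {F : Type*} [Field F] [Fintype F] (hF : Fintype.card F = 5) : Nonempty (Matrix.ProjectiveSpecialLinearGroup (Fin 2) F ≃* alternatingGroup (Fin 5)) := by
  open Cfsg.Agent.Lib.MkSL in
  classical
  have h5 : (5 : F) = 0 := by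
    have := FiniteField.cast_card_eq_zero F
    rw [hF] at this
    exact_mod_cast this
  let X : Matrix.SpecialLinearGroup (Fin 2) F := mkSL 0 1 (-1) 1 (by ring)
  let Y : Matrix.SpecialLinearGroup (Fin 2) F := mkSL 1 1 0 1 (by ring)
  have hx : X ^ 3 = mkSL (-1) 0 0 (-1) (by ring) := by
    simp only [X, pow_succ, pow_zero, one_mul, mkSL_mul]
    apply mkSL_eq <;> ring
  have hy : Y ^ 5 = mkSL 1 0 0 1 (by ring) := by
    simp only [Y, pow_succ, pow_zero, one_mul, mkSL_mul]
    apply mkSL_eq <;> grind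
  have hxy : (X * Y) ^ 2 = mkSL (-1) 0 0 (-1) (by ring) := by
    simp only [X, Y, pow_succ, pow_zero, one_mul, mkSL_mul]
    apply mkSL_eq <;> ring
  let π : Matrix.SpecialLinearGroup (Fin 2) F →* Matrix.ProjectiveSpecialLinearGroup (Fin 2) F :=
    QuotientGroup.mk' _
  have hx' : π X ^ 3 = 1 := by rw [← map_pow]; exact mk_scalar_eq_one _ _ hx
  have hy' : π Y ^ 5 = 1 := by rw [← map_pow]; exact mk_scalar_eq_one _ _ hy
  have hxy' : (π X * π Y) ^ 2 = 1 := by rw [← map_mul, ← map_pow]; exact mk_scalar_eq_one _ _ hxy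
  have hy1 : π Y ≠ 1 := mk_ne_one _ one_ne_zero
  let φ := PresentedGroup.toGroup (rels := ({FreeGroup.of (0 : Fin 2) ^ 3, FreeGroup.of (1 : Fin 2) ^ 5,
        (FreeGroup.of (0 : Fin 2) * FreeGroup.of 1) ^ 2} : Set (FreeGroup (Fin 2)))) (f := ![π X, π Y]) (by
    intro r hr
    simp only [Set.mem_insert_iff, Set.mem_singleton_iff] at hr
    rcases hr with rfl | rfl | rfl
    · simpa using hx'
    · simpa using hy'
    · simpa using hxy')
  obtain ⟨e⟩ := Cfsg.Agent.S3377.result
  have : IsSimpleGroup (alternatingGroup (Fin 5)) := alternatingGroup.isSimpleGroup (by simp)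
  have hc := Cfsg.Agent.S0243.result hF 2 (by norm_num)
  rw [Fin.prod_univ_two] at hc
  norm_num [-Nat.card_eq_fintype_card] at hc
  have hA : Nat.card (alternatingGroup (Fin 5)) = 60 := by
    have h1 := two_mul_nat_card_alternatingGroup (α := Fin 5)
    rw [Nat.card_perm, Nat.card_fin] at h1
    have h2 : Nat.factorial 5 = 120 := rfl
    omega
  obtain ⟨e'⟩ := nonempty_mulEquiv_of_hom (φ.comp e.symm.toMonoidHom) (e (PresentedGroup.of 1)) (by
    have : (φ.comp e.symm.toMonoidHom) (e (PresentedGroup.of 1)) = π Y := by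
      simp only [MonoidHom.comp_apply, MulEquiv.coe_toMonoidHom, MulEquiv.symm_apply_apply, φ]
      simp
    rw [this]; exact hy1) (by omega)
  exact ⟨e'.symm⟩

end Cfsg.Agent.S0253
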