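import Cfsg.Agent.Lib.MkSL
import Cfsg.Agent.S0243
import Cfsg.Agent.Lib.A6Pres
import Cfsg.Statements.S0254
-- import your own Cfsg.Agent.* helpers here

set_option autoImplicit false
open Cfsg

namespace Cfsg.Agent.S0254

/-- PSL_2(9) is isomorphic to A_6. -/
theorem result {F : Type*} [Field F] [Fintype F] (hF : Fintype.card F = 9) : Nonempty (Matrix.ProjectiveSpecialLinearGroup (Fin 2) F ≃* alternatingGroup (Fin 6)) := by
  open Cfsg.Agent.Lib.MkSL in
  classical
  have h3 : (3 : F) = 0 := by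
    have := prime_cast_eq_zero (F := F) (p := 3) (k := 2) Nat.prime_three (by rw [hF]; norm_num) (by norm_num)
    exact_mod_cast this
  obtain ⟨i, hi'⟩ : IsSquare (-1 : F) := FiniteField.isSquare_neg_one_iff.2 (by rw [hF]; norm_num)
  have hi : i * i = -1 := hi'.symm
  have hB : 1 * (2 + i) - i * (1 + 2 * i) = 1 := by grind
  have hA : (0 : F) * 0 - 1 * (-1) = 1 := by ring
  let X : Matrix.SpecialLinearGroup (Fin 2) F := mkSL 0 1 (-1) 0 hA
  let Y : Matrix.SpecialLinearGroup (Fin 2) F := mkSL 1 i (1 + 2 * i) (2 + i) hB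
  have r1 : X ^ 2 = mkSL (-1) 0 0 (-1) (by ring) := by
    simp only [X, pow_succ, pow_zero, one_mul, mkSL_mul]
    apply mkSL_eq <;> ring
  have r2 : Y ^ 4 = mkSL (-1) 0 0 (-1) (by ring) := by
    simp only [Y, pow_succ, pow_zero, one_mul, mkSL_mul]
    apply mkSL_eq <;> grind
  have r3 : (X * Y) ^ 5 = mkSL 1 0 0 1 (by ring) := by
    simp only [X, Y, pow_succ, pow_zero, one_mul, mkSL_mul]
    apply mkSL_eq <;> grind
  have r4 : (X * Y ^ 2) ^ 5 = mkSL (-1) 0 0 (-1) (by ring) := by
    simp only [X, Y, pow_succ, pow_zero, one_mul, mkSL_mul]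
    apply mkSL_eq <;> grind
  let π : Matrix.SpecialLinearGroup (Fin 2) F →* Matrix.ProjectiveSpecialLinearGroup (Fin 2) F :=
    QuotientGroup.mk' _
  have r1' : π X ^ 2 = 1 := by rw [← map_pow]; exact mk_scalar_eq_one _ _ r1
  have r2' : π Y ^ 4 = 1 := by rw [← map_pow]; exact mk_scalar_eq_one _ _ r2
  have r3' : (π X * π Y) ^ 5 = 1 := by rw [← map_mul, ← map_pow]; exact mk_scalar_eq_one _ _ r3
  have r4' : (π X * π Y ^ 2) ^ 5 = 1 := by rw [← map_pow, ← map_mul, ← map_pow]; exact mk_scalar_eq_one _ _ r4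
  have hi0 : i ≠ 0 := by
    rintro rfl
    have : (1 : F) = 0 := by linear_combination hi
    exact one_ne_zero this
  have hy1 : π Y ≠ 1 := mk_ne_one _ hi0
  let φ := PresentedGroup.toGroup (rels := Cfsg.Agent.Lib.A6Pres.rels) (f := ![π X, π Y]) (by
    intro r hr
    simp only [Cfsg.Agent.Lib.A6Pres.rels, Set.mem_insert_iff, Set.mem_singleton_iff] at hr
    rcases hr with rfl | rfl | rfl | rfl
    · simpa using r1'
    · simpa using r2'
    · simpa using r3'
    · simpa using r4')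
  obtain ⟨e⟩ := Cfsg.Agent.Lib.A6Pres.nonempty_mulEquiv
  have : IsSimpleGroup (alternatingGroup (Fin 6)) := alternatingGroup.isSimpleGroup (by simp)
  have hc := Cfsg.Agent.S0243.result hF 2 (by norm_num)
  rw [Fin.prod_univ_two] at hc
  norm_num [-Nat.card_eq_fintype_card] at hc
  have hAlt : Nat.card (alternatingGroup (Fin 6)) = 360 := by
    have h1 := two_mul_nat_card_alternatingGroup (α := Fin 6)
    rw [Nat.card_perm, Nat.card_fin] at h1
    have h2 : Nat.factorial 6 = 720 := rfl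
    omega
  obtain ⟨e'⟩ := nonempty_mulEquiv_of_hom (φ.comp e.symm.toMonoidHom) (e (PresentedGroup.of 1)) (by
    have : (φ.comp e.symm.toMonoidHom) (e (PresentedGroup.of 1)) = π Y := by
      simp only [MonoidHom.comp_apply, MulEquiv.coe_toMonoidHom, MulEquiv.symm_apply_apply, φ]
      simp
    rw [this]; exact hy1) (by omega)
  exact ⟨e'.symm⟩

end Cfsg.Agent.S0254
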