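import Cfsg.Agent.Lib.MkSL
import Cfsg.Agent.S0243
import Cfsg.Agent.S0249
import Cfsg.Agent.Lib.L27Pres
import Cfsg.Statements.S0255
-- import your own Cfsg.Agent.* helpers here

set_option autoImplicit false
open Cfsg

namespace Cfsg.Agent.S0255

/-- PSL_2(7) is isomorphic to PSL_3(2). -/
theorem result {F K : Type*} [Field F] [Fintype F] [Field K] [Fintype K] (hF : Fintype.card F = 7) (hK : Fintype.card K = 2) : Nonempty (Matrix.ProjectiveSpecialLinearGroup (Fin 2) F ≃* Matrix.ProjectiveSpecialLinearGroup (Fin 3) K) := by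
  classical
  have e₁ : Nonempty (PresentedGroup Cfsg.Agent.Lib.L27Pres.rels ≃* Matrix.ProjectiveSpecialLinearGroup (Fin 2) F) := by
    open Cfsg.Agent.Lib.MkSL in
    have h7 : (7 : F) = 0 := by
      have := FiniteField.cast_card_eq_zero F
      rw [hF] at this
      exact_mod_cast this
    let X : Matrix.SpecialLinearGroup (Fin 2) F := mkSL 0 1 (-1) 0 (by ring)
    let Y : Matrix.SpecialLinearGroup (Fin 2) F := mkSL 0 1 (-1) 1 (by ring)
    have r1 : X ^ 2 = mkSL (-1) 0 0 (-1) (by ring) := by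
      simp only [X, pow_succ, pow_zero, one_mul, mkSL_mul]
      apply mkSL_eq <;> ring
    have r2 : Y ^ 3 = mkSL (-1) 0 0 (-1) (by ring) := by
      simp only [Y, pow_succ, pow_zero, one_mul, mkSL_mul]
      apply mkSL_eq <;> ring
    have r3 : (X * Y) ^ 7 = mkSL (-1) 0 0 (-1) (by ring) := by
      simp only [X, Y, pow_succ, pow_zero, one_mul, mkSL_mul]
      apply mkSL_eq <;> grind
    have r4 : (X * Y * X * Y ^ 2) ^ 4 = mkSL (-1) 0 0 (-1) (by ring) := by
      simp only [X, Y, pow_succ, pow_zero, one_mul, mkSL_mul]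
      apply mkSL_eq <;> grind
    let π : Matrix.SpecialLinearGroup (Fin 2) F →* Matrix.ProjectiveSpecialLinearGroup (Fin 2) F :=
      QuotientGroup.mk' _
    have r1' : π X ^ 2 = 1 := by rw [← map_pow]; exact mk_scalar_eq_one _ _ r1
    have r2' : π Y ^ 3 = 1 := by rw [← map_pow]; exact mk_scalar_eq_one _ _ r2
    have r3' : (π X * π Y) ^ 7 = 1 := by rw [← map_mul, ← map_pow]; exact mk_scalar_eq_one _ _ r3
    have r4' : (π X * π Y * π X * π Y ^ 2) ^ 4 = 1 := by
      rw [← map_pow, ← map_mul, ← map_mul, ← map_mul, ← map_pow]; exact mk_scalar_eq_one _ _ r4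
    have hc := Cfsg.Agent.S0243.result hF 2 (by norm_num)
    rw [Fin.prod_univ_two] at hc
    norm_num [-Nat.card_eq_fintype_card] at hc
    have hs : IsSimpleGroup (Matrix.ProjectiveSpecialLinearGroup (Fin 2) F) :=
      Matrix.ProjectiveSpecialLinearGroup.rank_two_simple (by rw [Nat.card_eq_fintype_card, hF]; norm_num)
    refine Cfsg.Agent.Lib.L27Pres.nonempty_mulEquiv_of_simple (by omega) (π X) (π Y) r1' r2' r3' r4'
      (mk_ne_one _ one_ne_zero) (mk_ne_one _ one_ne_zero) ?_
    rw [← map_mul]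
    have : X * Y = mkSL (-1) 1 0 (-1) (by ring) := by
      simp only [X, Y, mkSL_mul]
      apply mkSL_eq <;> ring
    rw [this]
    exact mk_ne_one _ one_ne_zero
  have e₂ : Nonempty (PresentedGroup Cfsg.Agent.Lib.L27Pres.rels ≃* Matrix.ProjectiveSpecialLinearGroup (Fin 3) K) := by
    let f : ZMod 2 →+* K := (ZMod.ringEquivOfPrime K Nat.prime_two hK).toRingHom
    have hf : Function.Injective f := f.injective
    let X : Matrix.SpecialLinearGroup (Fin 3) (ZMod 2) := ⟨!![0, 0, 1; 0, 1, 0; 1, 0, 0], by rw [Matrix.det_fin_three]; decide⟩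
    let Y : Matrix.SpecialLinearGroup (Fin 3) (ZMod 2) := ⟨!![0, 1, 0; 1, 0, 1; 1, 1, 0], by rw [Matrix.det_fin_three]; decide⟩
    let π : Matrix.SpecialLinearGroup (Fin 3) (ZMod 2) →* Matrix.ProjectiveSpecialLinearGroup (Fin 3) K :=
      (QuotientGroup.mk' _).comp (Matrix.SpecialLinearGroup.map f)
    have hne : ∀ (A : Matrix.SpecialLinearGroup (Fin 3) (ZMod 2)) (i j : Fin 3), i ≠ j → A i j ≠ 0 → π A ≠ 1 := by
      intro A i j hij hA h
      have h1 : Matrix.SpecialLinearGroup.map f A ∈ Subgroup.center (Matrix.SpecialLinearGroup (Fin 3) K) :=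
        (QuotientGroup.eq_one_iff _).1 h
      obtain ⟨r, -, hr⟩ := Matrix.SpecialLinearGroup.mem_center_iff.1 h1
      have h2 := congrFun (congrFun hr i) j
      simp [Matrix.scalar_apply, Matrix.diagonal_apply, hij] at h2
      exact hA (hf (by simpa using h2.symm))
    have r1 : X ^ 2 = 1 := by decide +kernel
    have r2 : Y ^ 3 = 1 := by decide +kernel
    have r3 : (X * Y) ^ 7 = 1 := by decide +kernel
    have r4 : (X * Y * X * Y ^ 2) ^ 4 = 1 := by decide +kernel
    have hc := Cfsg.Agent.S0243.result hK 3 (by norm_num)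
    rw [Fin.prod_univ_three] at hc
    norm_num [-Nat.card_eq_fintype_card] at hc
    have hs := Cfsg.Agent.S0249.result (F := K) 3 le_rfl
    refine Cfsg.Agent.Lib.L27Pres.nonempty_mulEquiv_of_simple hc (π X) (π Y) ?_ ?_ ?_ ?_
      (hne X 0 2 (by decide) (by decide +kernel)) (hne Y 0 1 (by decide) (by decide +kernel)) ?_
    · rw [← map_pow, r1, map_one]
    · rw [← map_pow, r2, map_one]
    · rw [← map_mul, ← map_pow, r3, map_one]
    · rw [← map_pow, ← map_mul, ← map_mul, ← map_mul, ← map_pow, r4, map_one]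
    · rw [← map_mul]
      exact hne _ 0 1 (by decide) (by decide +kernel)
  obtain ⟨e₁⟩ := e₁
  obtain ⟨e₂⟩ := e₂
  exact ⟨e₁.symm.trans e₂⟩

end Cfsg.Agent.S0255
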