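import Mathlib
import Cfsg.Statements.S0268
-- import your own Cfsg.Agent.* helpers here

set_option autoImplicit false
open Cfsg

namespace Cfsg.Agent.S0268

/-- For q odd, -1 is the unique involution of SL_2(q). -/
theorem result {F : Type*} [Field F] [Fintype F] (hF : Odd (Fintype.card F)) (g : Matrix.SpecialLinearGroup (Fin 2) F) (h1 : g ≠ 1) (h2 : g * g = 1) : (g : Matrix (Fin 2) (Fin 2) F) = -1 := by
  have hd := g.2
  rw [Matrix.det_fin_two] at hd
  have h11 := congrFun (congrFun (congrArg Subtype.val h2) 0) 0
  have h12 := congrFun (congrFun (congrArg Subtype.val h2) 0) 1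
  have h21 := congrFun (congrFun (congrArg Subtype.val h2) 1) 0
  have h22 := congrFun (congrFun (congrArg Subtype.val h2) 1) 1
  simp [Matrix.mul_apply, Fin.sum_univ_two] at h11 h12 h21 h22
  have hc : ringChar F ≠ 2 := by
    intro h
    have := FiniteField.even_card_iff_char_two.1 h
    rw [Nat.odd_iff] at hF
    omega
  have h2ne : (2 : F) ≠ 0 := Ring.two_ne_zero hc
  by_cases hs : g 0 0 + g 1 1 = 0
  · exfalso
    have hd' : g 1 1 = - g 0 0 := by linear_combination hs
    rw [hd'] at hd
    apply h2ne
    linear_combination -h11 + (-1 : F) * hd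
  · have hb : g 0 1 = 0 := by
      have : g 0 1 * (g 0 0 + g 1 1) = 0 := by linear_combination h12
      exact (mul_eq_zero.1 this).resolve_right hs
    have hc' : g 1 0 = 0 := by
      have : g 1 0 * (g 0 0 + g 1 1) = 0 := by linear_combination h21
      exact (mul_eq_zero.1 this).resolve_right hs
    simp only [hb, hc', zero_mul, mul_zero, add_zero, sub_zero, zero_add] at h11 h22 hd
    have had : g 0 0 = g 1 1 := by linear_combination (g 1 1) * h11 - (g 0 0) * hd
    have h3 : (g 0 0 - 1) * (g 0 0 + 1) = 0 := by linear_combination h11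
    rcases mul_eq_zero.1 h3 with h4 | h4
    · exfalso
      apply h1
      have h5 : g 0 0 = 1 := by linear_combination h4
      have h6 : g 1 1 = 1 := by rw [← had, h5]
      ext i j
      fin_cases i <;> fin_cases j <;> simp [h5, h6, hb, hc']
    · have h5 : g 0 0 = -1 := by linear_combination h4
      have h6 : g 1 1 = -1 := by rw [← had, h5]
      ext i j
      fin_cases i <;> fin_cases j <;> simp [h5, h6, hb, hc']

end Cfsg.Agent.S0268
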