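import Cfsg.Agent.Lib.MkSL
import Cfsg.Agent.Lib.UniqueSub
import Cfsg.Agent.S0268
import Cfsg.Statements.S0261
-- import your own Cfsg.Agent.* helpers here

set_option autoImplicit false
open Cfsg

namespace Cfsg.Agent.S0261

/-- For q odd, the Sylow 2-subgroups of SL_2(q) are generalised quaternion. -/
theorem result {F : Type*} [Field F] [Fintype F] (hF : Odd (Fintype.card F)) (P : Sylow 2 (Matrix.SpecialLinearGroup (Fin 2) F)) : ∃ k : ℕ, 1 ≤ k ∧ Nonempty ((P : Subgroup (Matrix.SpecialLinearGroup (Fin 2) F)) ≃* QuaternionGroup (2 ^ k)) := by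
  open Cfsg.Agent.Lib.MkSL in
  classical
  have hc : ringChar F ≠ 2 := by
    intro h
    have := FiniteField.even_card_iff_char_two.1 h
    rw [Nat.odd_iff] at hF
    omega
  have h2ne : (2 : F) ≠ 0 := Ring.two_ne_zero hc
  have hU : Cfsg.Agent.Lib.UniqueSub.UniqueP 2 (P : Subgroup (Matrix.SpecialLinearGroup (Fin 2) F)) := by
    intro x y hx hy
    have key : ∀ z : (P : Subgroup (Matrix.SpecialLinearGroup (Fin 2) F)), orderOf z = 2 →
        ((z : Matrix.SpecialLinearGroup (Fin 2) F) : Matrix (Fin 2) (Fin 2) F) = -1 := by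
      intro z hz
      have h1 : (z : Matrix.SpecialLinearGroup (Fin 2) F) ≠ 1 := by
        intro h
        have : z = 1 := Subtype.ext h
        rw [this, orderOf_one] at hz
        omega
      have h2 : (z : Matrix.SpecialLinearGroup (Fin 2) F) * z = 1 := by
        have h3 := pow_orderOf_eq_one z
        rw [hz, pow_two] at h3
        exact congrArg Subtype.val h3
      exact Cfsg.Agent.S0268.result hF _ h1 h2
    have : x = y := Subtype.ext (Subtype.ext ((key x hx).trans (key y hy).symm))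
    rw [← this]
    exact Subgroup.mem_zpowers x
  rcases Cfsg.Agent.Lib.UniqueSub.cyclic_or_quaternion P.isPGroup' hU with h | ⟨-, k, hk, he⟩
  · exfalso
    obtain ⟨x, y, hxy⟩ : ∃ x y : F, x * x + y * y + 1 = 0 := by
      obtain ⟨a, b, hab⟩ := FiniteField.exists_root_sum_quadratic
        (f := Polynomial.X ^ 2) (g := Polynomial.X ^ 2 + Polynomial.C 1) (by simp) (by
          rw [Polynomial.degree_add_eq_left_of_degree_lt]
          · simp
          · rw [Polynomial.degree_X_pow, Polynomial.degree_C one_ne_zero]; norm_num)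
        (Nat.odd_iff.1 hF)
      refine ⟨a, b, ?_⟩
      simp at hab
      linear_combination hab
    let A : Matrix.SpecialLinearGroup (Fin 2) F := mkSL 0 (-1) 1 0 (by ring)
    let B : Matrix.SpecialLinearGroup (Fin 2) F := mkSL x y y (-x) (by linear_combination -hxy)
    let M : Matrix.SpecialLinearGroup (Fin 2) F := mkSL (-1) 0 0 (-1) (by ring)
    have hA2 : A * A = M := by
      simp only [A, M, mkSL_mul]
      apply mkSL_eq <;> ring
    have hB2 : B * B = M := by
      simp only [B, M, mkSL_mul]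
      apply mkSL_eq <;> grind
    have hM2 : M * M = 1 := by
      simp only [M, mkSL_mul]
      rw [← mkSL_one]
      apply mkSL_eq <;> ring
    have hcomm : A * B = M * (B * A) := by
      simp only [A, B, M, mkSL_mul]
      apply mkSL_eq <;> ring
    have hA4 : A ^ 4 = 1 := by
      rw [show A ^ 4 = (A * A) * (A * A) by simp only [pow_succ, pow_zero, one_mul, mul_assoc], hA2, hM2]
    have hB4 : B ^ 4 = 1 := by
      rw [show B ^ 4 = (B * B) * (B * B) by simp only [pow_succ, pow_zero, one_mul, mul_assoc], hB2, hM2]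
    have h1 : B = A * (B * A) := by
      have : A * B = A * (A * (B * A)) := by rw [hcomm, ← hA2]; group
      exact mul_left_cancel this
    have hAB : B * A * B⁻¹ = A⁻¹ := by
      have : B * A = A⁻¹ * B := by
        nth_rw 2 [h1]
        group
      rw [this]; group
    have hpA : IsPGroup 2 (Subgroup.zpowers A) := by
      obtain ⟨k, -, hk⟩ := (Nat.dvd_prime_pow Nat.prime_two).1 (orderOf_dvd_of_pow_eq_one (show A ^ (2 ^ 2) = 1 from hA4))
      exact IsPGroup.of_card (n := k) (by rw [Nat.card_zpowers, hk])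
    have hpB : IsPGroup 2 (Subgroup.zpowers B) := by
      obtain ⟨k, -, hk⟩ := (Nat.dvd_prime_pow Nat.prime_two).1 (orderOf_dvd_of_pow_eq_one (show B ^ (2 ^ 2) = 1 from hB4))
      exact IsPGroup.of_card (n := k) (by rw [Nat.card_zpowers, hk])
    have hnorm : Subgroup.zpowers B ≤ Subgroup.normalizer ((Subgroup.zpowers A : Subgroup _) : Set (Matrix.SpecialLinearGroup (Fin 2) F)) := by
      rw [Subgroup.zpowers_le, Subgroup.mem_normalizer_iff_map_conj_eq, MonoidHom.map_zpowers]
      change Subgroup.zpowers (B * A * B⁻¹) = _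
      rw [hAB, Subgroup.zpowers_inv]
    have hp := hpB.to_sup_of_normal_right' hpA hnorm
    obtain ⟨S, hS⟩ := hp.exists_le_sylow
    obtain ⟨g, rfl⟩ := MulAction.exists_smul_eq (Matrix.SpecialLinearGroup (Fin 2) F) P S
    have hAm : g⁻¹ * A * g ∈ (P : Subgroup (Matrix.SpecialLinearGroup (Fin 2) F)) :=
      (Cfsg.Agent.Lib.SylowCount.mem_smul_sylow g A P).1 (hS (Subgroup.mem_sup_right (Subgroup.mem_zpowers A)))
    have hBm : g⁻¹ * B * g ∈ (P : Subgroup (Matrix.SpecialLinearGroup (Fin 2) F)) :=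
      (Cfsg.Agent.Lib.SylowCount.mem_smul_sylow g B P).1 (hS (Subgroup.mem_sup_left (Subgroup.mem_zpowers B)))
    obtain ⟨c, hc'⟩ := h.exists_generator
    obtain ⟨i, hi⟩ := hc' ⟨_, hAm⟩
    obtain ⟨j, hj⟩ := hc' ⟨_, hBm⟩
    have hcc : (⟨_, hAm⟩ : (P : Subgroup (Matrix.SpecialLinearGroup (Fin 2) F))) * ⟨_, hBm⟩ = ⟨_, hBm⟩ * ⟨_, hAm⟩ := by
      rw [← hi, ← hj]
      exact (Commute.refl c).zpow_zpow i j
    have hcc' : (g⁻¹ * A * g) * (g⁻¹ * B * g) = (g⁻¹ * B * g) * (g⁻¹ * A * g) := congrArg Subtype.val hcc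
    have hAB' : A * B = B * A := by
      have : g⁻¹ * (A * B) * g = g⁻¹ * (B * A) * g := by
        calc g⁻¹ * (A * B) * g = (g⁻¹ * A * g) * (g⁻¹ * B * g) := by group
          _ = (g⁻¹ * B * g) * (g⁻¹ * A * g) := hcc'
          _ = g⁻¹ * (B * A) * g := by group
      exact mul_left_cancel (mul_right_cancel this)
    have hM1 : M = 1 := by
      have : M * (B * A) = 1 * (B * A) := by rw [← hcomm, hAB', one_mul]
      exact mul_right_cancel this
    have h00 := congrArg (fun g : Matrix.SpecialLinearGroup (Fin 2) F ↦ (g : Matrix (Fin 2) (Fin 2) F) 0 0) hM1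
    simp [M, mkSL] at h00
    apply h2ne
    have h7 : (-1 : F) = 1 := h00
    linear_combination -h7
  · exact ⟨k, hk, he⟩

end Cfsg.Agent.S0261
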