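import Cfsg.Agent.S0251
import Cfsg.Agent.S0261
import Cfsg.Agent.S0242
import Cfsg.Statements.S0257
-- import your own Cfsg.Agent.* helpers here

set_option autoImplicit false
open Cfsg

namespace Cfsg.Agent.S0257

/-- SL_2(3) has a normal subgroup of index 3 isomorphic to the quaternion group of order 8, and its centre has order 2. -/
theorem result {F : Type*} [Field F] [Fintype F] (hF : Fintype.card F = 3) : (∃ Q : Subgroup (Matrix.SpecialLinearGroup (Fin 2) F), Q.Normal ∧ Q.index = 3 ∧ Nonempty (Q ≃* QuaternionGroup 2)) ∧ Nat.card (Subgroup.center (Matrix.SpecialLinearGroup (Fin 2) F)) = 2 := by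
  classical
  have hodd : Odd (Fintype.card F) := by rw [hF]; decide
  refine ⟨?_, ?_⟩
  · obtain ⟨e⟩ := Cfsg.Agent.S0251.result hF
    let π : Matrix.SpecialLinearGroup (Fin 2) F →* alternatingGroup (Fin 4) :=
      e.toMonoidHom.comp (QuotientGroup.mk' _)
    have hπ : Function.Surjective π := e.surjective.comp (QuotientGroup.mk'_surjective _)
    let V : Subgroup (alternatingGroup (Fin 4)) :=
      { carrier := {x | x ^ 2 = 1}
        one_mem' := by simp
        mul_mem' := by
          intro a b ha hb
          have : ∀ a b : alternatingGroup (Fin 4), a ^ 2 = 1 → b ^ 2 = 1 → (a * b) ^ 2 = 1 := by decide +kernel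
          exact this a b ha hb
        inv_mem' := by
          intro a ha
          have h : a ^ 2 = 1 := ha
          show a⁻¹ ^ 2 = 1
          rw [inv_pow, h, inv_one] }
    have hVn : V.Normal := ⟨by
      intro n hn g
      have h : n ^ 2 = 1 := hn
      show (g * n * g⁻¹) ^ 2 = 1
      rw [conj_pow, h]; simp⟩
    have hVc : Nat.card V = 4 := by
      have : Fintype.card {x : alternatingGroup (Fin 4) // x ^ 2 = 1} = 4 := by decide +kernel
      refine Eq.trans ?_ this
      rw [← Nat.card_eq_fintype_card]
      exact Nat.card_congr (Equiv.subtypeEquivRight fun _ ↦ Iff.rfl)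
    have hAc : Nat.card (alternatingGroup (Fin 4)) = 12 := by
      have h1 := two_mul_nat_card_alternatingGroup (α := Fin 4)
      rw [Nat.card_perm, Nat.card_fin] at h1
      have h2 : Nat.factorial 4 = 24 := rfl
      omega
    have hVi : V.index = 3 := by
      have := Subgroup.card_mul_index V
      rw [hVc, hAc] at this
      omega
    let Q := V.comap π
    have hQi : Q.index = 3 := by rw [Subgroup.index_comap_of_surjective _ hπ, hVi]
    have hGc : Nat.card (Matrix.SpecialLinearGroup (Fin 2) F) = 24 := by
      have hc := Cfsg.Agent.S0242.result hF 2 (by norm_num)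
      rw [Fin.prod_univ_two] at hc
      norm_num [-Nat.card_eq_fintype_card] at hc
      omega
    have hQc : Nat.card Q = 8 := by
      have := Subgroup.card_mul_index Q
      rw [hQi, hGc] at this
      omega
    have hp : IsPGroup 2 Q := IsPGroup.of_card (n := 3) (by rw [hQc]; norm_num)
    obtain ⟨S, hS⟩ := hp.exists_le_sylow
    have hSc : Nat.card S = 8 := by
      apply Cfsg.Agent.Lib.SylowCount.card_sylow_of_factor S 3 3 (by rw [hGc]; norm_num) (by norm_num)
    have hQS : Q = S := Subgroup.eq_of_le_of_card_ge hS (by rw [hQc, hSc])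
    obtain ⟨k, hk, ⟨f⟩⟩ := Cfsg.Agent.S0261.result hodd S
    have : NeZero (2 ^ k) := ⟨by positivity⟩
    have h8 := Nat.card_congr f.toEquiv
    rw [hSc, Nat.card_eq_fintype_card (α := QuaternionGroup (2 ^ k)), QuaternionGroup.card] at h8
    have hk1 : k = 1 := by
      have h2k : 2 ^ k = 2 ^ 1 := by omega
      exact Nat.pow_right_injective (le_refl 2) h2k
    subst hk1
    refine ⟨Q, Subgroup.Normal.comap hVn π, hQi, ?_⟩
    rw [hQS]
    exact ⟨f⟩
  · have := Cfsg.Agent.Lib.SLn.card_center_SL (ι := Fin 2) (F := F)
    rw [this, hF]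
    simp

end Cfsg.Agent.S0257
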