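import Cfsg.Agent.Lib.SylowCount
import Cfsg.Statements.S0263
-- import your own Cfsg.Agent.* helpers here

set_option autoImplicit false
open Cfsg

namespace Cfsg.Agent.S0263

/-- A Sylow p-subgroup of GL_n(q), p the characteristic, has order q^(n(n-1)/2). -/
theorem result {F : Type*} [Field F] [Fintype F] {q : ℕ} (hF : Fintype.card F = q) (p : ℕ) [Fact p.Prime] [CharP F p] (n : ℕ) (P : Sylow p (Matrix.GeneralLinearGroup (Fin n) F)) : Nat.card P = q ^ (n * (n - 1) / 2) := by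
  subst hF
  obtain ⟨k, -, hq⟩ := FiniteField.card F p
  set q := Fintype.card F with hqdef
  have hpp : p.Prime := Fact.out
  have hk : 0 < (k : ℕ) := k.pos
  have hg : Nat.card (Matrix.GeneralLinearGroup (Fin n) F) =
      p ^ ((k : ℕ) * (n * (n - 1) / 2)) * ∏ i : Fin n, (q ^ (n - (i : ℕ)) - 1) := by
    rw [Matrix.card_GL_field, pow_mul, ← hq, ← Finset.sum_range_id, ← Fin.sum_univ_eq_sum_range (fun i ↦ i) n,
      ← Finset.prod_pow_eq_pow_sum, ← Finset.prod_mul_distrib]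
    refine Finset.prod_congr rfl fun i _ ↦ ?_
    have hi : (i : ℕ) ≤ n := i.2.le
    rw [Nat.mul_sub, mul_one, ← pow_add, Nat.add_sub_cancel' hi]
  have hm : ¬ p ∣ ∏ i : Fin n, (q ^ (n - (i : ℕ)) - 1) := by
    intro h
    obtain ⟨i, -, hi⟩ := (Prime.dvd_finsetProd_iff hpp.prime _).1 h
    have h0 : n - (i : ℕ) ≠ 0 := by have := i.2; omega
    have h1 : p ∣ q ^ (n - (i : ℕ)) := by
      rw [hq]
      exact dvd_pow (dvd_pow_self p hk.ne') h0
    have hq1 : 1 ≤ q ^ (n - (i : ℕ)) := Nat.one_le_pow _ _ (Fintype.card_pos)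
    have h2 : p ∣ 1 := by
      have := (Nat.dvd_sub h1 hi)
      rwa [Nat.sub_sub_self hq1] at this
    exact hpp.one_lt.ne' (Nat.dvd_one.1 h2)
  rw [Cfsg.Agent.Lib.SylowCount.card_sylow_of_factor P _ _ hg hm, pow_mul, hq]

end Cfsg.Agent.S0263
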