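import Cfsg.Agent.Lib.ProjLine
import Cfsg.Statements.S0267
-- import your own Cfsg.Agent.* helpers here

set_option autoImplicit false
open Cfsg

namespace Cfsg.Agent.S0267

/-- SL_2(q) is 3-transitive on the q+1 points of the projective line if and only if q is even. -/
theorem result {F : Type*} [Field F] [Fintype F] : MulAction.IsMultiplyPretransitive (Matrix.SpecialLinearGroup (Fin 2) F) (Projectivization F (Fin 2 → F)) 3 ↔ ringChar F = 2 := by
  open Cfsg.Agent.Lib.ProjLine Projectivization in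
  constructor
  · intro h
    by_contra hc
    obtain ⟨d, hd⟩ := FiniteField.exists_nonsquare hc
    have hd0 : d ≠ 0 := by
      rintro rfl
      exact hd (IsSquare.zero)
    have hv : (![d, 1] : Fin 2 → F) ≠ 0 := (ne_zero_iff _).2 (Or.inr (by simp))
    have h12 : ∀ (a b : Fin 2 → F) (ha : a ≠ 0) (hb : b ≠ 0), cr a b ≠ 0 → mk F a ha ≠ mk F b hb :=
      fun a b ha hb hc h ↦ hc ((mk_eq_iff ha hb).1 h)
    let x := emb3 (mk F e₁ e₁_ne) (mk F e₂ e₂_ne) (mk F e₃ e₃_ne) (h12 _ _ _ _ (by simp [cr, e₁, e₂]))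
      (h12 _ _ _ _ (by simp [cr, e₁, e₃])) (h12 _ _ _ _ (by simp [cr, e₂, e₃]))
    let y := emb3 (mk F e₁ e₁_ne) (mk F e₂ e₂_ne) (mk F ![d, 1] hv) (h12 _ _ _ _ (by simp [cr, e₁, e₂]))
      (h12 _ _ _ _ (by simp [cr, e₁])) (h12 _ _ _ _ (by simp [cr, e₂, hd0]))
    obtain ⟨g, hg⟩ := MulAction.isMultiplyPretransitive_iff.1 h x y
    have h0 := congrArg (fun f : Fin 3 ↪ _ ↦ f 0) hg
    have h1 := congrArg (fun f : Fin 3 ↪ _ ↦ f 1) hg
    have h2 := congrArg (fun f : Fin 3 ↪ _ ↦ f 2) hg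
    simp only [Function.Embedding.smul_apply] at h0 h1 h2
    change g • mk F e₁ e₁_ne = mk F e₁ e₁_ne at h0
    change g • mk F e₂ e₂_ne = mk F e₂ e₂_ne at h1
    change g • mk F e₃ e₃_ne = mk F ![d, 1] hv at h2
    change mk F (Matrix.mulVec (g : Matrix (Fin 2) (Fin 2) F) e₁) _ = _ at h0
    change mk F (Matrix.mulVec (g : Matrix (Fin 2) (Fin 2) F) e₂) _ = _ at h1
    change mk F (Matrix.mulVec (g : Matrix (Fin 2) (Fin 2) F) e₃) _ = _ at h2
    replace h0 := (mk_eq_iff _ _).1 h0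
    replace h1 := (mk_eq_iff _ _).1 h1
    replace h2 := (mk_eq_iff _ _).1 h2
    have hdet := g.2
    rw [Matrix.det_fin_two] at hdet
    simp [cr, e₁, e₂, e₃, Matrix.mulVec, dotProduct, Fin.sum_univ_two] at h0 h1 h2
    apply hd
    rw [h1, zero_mul, sub_zero] at hdet
    refine ⟨g 0 0, ?_⟩
    have h3 : g 1 1 * d = g 0 0 := by rw [h0, h1] at h2; linear_combination -h2
    have this := hdet
    calc d = (g 0 0 * g 1 1) * d := by rw [this, one_mul]
      _ = g 0 0 * (g 1 1 * d) := by ring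
      _ = g 0 0 * g 0 0 := by rw [h3]
  · intro h
    rw [MulAction.isMultiplyPretransitive_iff]
    intro x y
    obtain ⟨g, hg⟩ := exists_GL_of_embedding x
    obtain ⟨k, hk⟩ := exists_GL_of_embedding y
    obtain ⟨l, hl⟩ := exists_SL_of_isSquare (k * g⁻¹) (FiniteField.isSquare_of_char_two h _)
    refine ⟨l, ?_⟩
    ext i
    simp only [Function.Embedding.smul_apply]
    rw [hl, ← hg, mul_smul, inv_smul_smul, hk]

end Cfsg.Agent.S0267
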