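import Cfsg.Agent.Lib.ClassGeom
import Cfsg.Statements.S0271
-- import your own Cfsg.Agent.* helpers here

set_option autoImplicit false
open Cfsg

namespace Cfsg.Agent.S0271

/-- Sp_{2m}(F) is transitive on non-zero vectors. -/
theorem result {F : Type*} [Field F] (m : ℕ) (v w : Fin m ⊕ Fin m → F) (hv : v ≠ 0) (hw : w ≠ 0) : ∃ g : Matrix.symplecticGroup (Fin m) F, (g : Matrix (Fin m ⊕ Fin m) (Fin m ⊕ Fin m) F).mulVec v = w := by
  classical
  have H := Cfsg.Agent.Lib.ClassGeom.hf m F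
  have hpartner : ∀ a : Fin m ⊕ Fin m → F, a ≠ 0 → ∃ b, Cfsg.sympForm m F a b = 1 := by
    intro a ha
    obtain ⟨y, hy⟩ := Cfsg.Agent.Lib.SymplecticTv.exists_ne_right H ha
    refine ⟨(Cfsg.sympForm m F a y)⁻¹ • y, ?_⟩
    rw [H.bilinear.smul_right]
    exact inv_mul_cancel₀ hy
  obtain ⟨v', hv'⟩ := hpartner v hv
  obtain ⟨w', hw'⟩ := hpartner w hw
  obtain ⟨A, -, h1, -⟩ := Cfsg.Agent.Lib.ClassGeom.exists_pair v v' w w' hv' hw'
  exact ⟨A, h1⟩

end Cfsg.Agent.S0271
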