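import Cfsg.Agent.S0261
import Cfsg.Agent.Lib.GL2Sylow
import Cfsg.Statements.S0276
-- import your own Cfsg.Agent.* helpers here

set_option autoImplicit false
open Cfsg

namespace Cfsg.Agent.S0276


theorem klein_aux {G H : Type*} [Group G] [Group H] [Finite G] [Finite H] (π : G →* H) (hπ : Function.Surjective π)
    (c : ℕ) (hG : Nat.card G = 2 ^ 3 * c) (hH : Nat.card H = 2 ^ 2 * c) (hc : ¬ 2 ∣ c)
    (hQ : ∀ Q : Sylow 2 G, ∀ s ∈ (Q : Subgroup G), s ^ 4 = 1)
    (hcen : ∀ y : G, y ^ 2 = 1 → π y = 1) (P : Sylow 2 H) : IsKleinFour (P : Subgroup H) := by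
  have hc0 : 0 < c := by
    rcases Nat.eq_zero_or_pos c with h | h
    · rw [h] at hc
      exact absurd (dvd_zero 2) hc
    · exact h
  have hP4 : Nat.card (P : Subgroup H) = 2 ^ 2 := Cfsg.Agent.Lib.SylowCount.card_sylow_of_factor P 2 c hH hc
  let S₀ : Subgroup G := (P : Subgroup H).comap π
  have hidx : S₀.index = (P : Subgroup H).index := Subgroup.index_comap_of_surjective _ hπ
  have hS₀ : Nat.card S₀ = 2 ^ 3 := by
    have h1 := (P : Subgroup H).card_mul_index
    have h2 := S₀.card_mul_index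
    rw [hidx, hG] at h2
    rw [hH, hP4] at h1
    have h3 : (P : Subgroup H).index = c := Nat.eq_of_mul_eq_mul_left (by norm_num) h1
    rw [h3] at h2
    exact Nat.eq_of_mul_eq_mul_right hc0 h2
  have hS₀p : IsPGroup 2 S₀ := IsPGroup.of_card hS₀
  obtain ⟨Q, hQle⟩ := hS₀p.exists_le_sylow
  have hsq : ∀ x : (P : Subgroup H), x ^ 2 = 1 := by
    rintro ⟨x, hx⟩
    obtain ⟨s, rfl⟩ := hπ x
    have hs : s ∈ S₀ := hx
    have h1 := hQ Q s (hQle hs)
    have h2 : π (s ^ 2) = 1 := hcen (s ^ 2) (by rw [← pow_mul]; exact h1)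
    apply Subtype.ext
    rw [map_pow] at h2
    exact h2
  have hcard4 : Nat.card (P : Subgroup H) = 4 := by
    rw [hP4]; norm_num
  refine ⟨hcard4, ?_⟩
  have h1 : Monoid.exponent (P : Subgroup H) ∣ 2 :=
    Monoid.exponent_dvd_of_forall_pow_eq_one hsq
  rcases (Nat.dvd_prime Nat.prime_two).1 h1 with h | h
  · exfalso
    have h2 := Monoid.exp_eq_one_iff.1 h
    have h3 := Nat.card_of_subsingleton (α := (P : Subgroup H)) 1
    rw [hcard4] at h3
    omega
  · exact h

theorem sq_central {F : Type*} [Field F] (h2ne : (2 : F) ≠ 0) (y : Matrix.SpecialLinearGroup (Fin 2) F) (hy : y ^ 2 = 1) :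
    y ∈ Subgroup.center (Matrix.SpecialLinearGroup (Fin 2) F) := by
  rw [Matrix.SpecialLinearGroup.mem_center_iff]
  have hdet := y.2
  rw [Matrix.det_fin_two] at hdet
  have hm := congrArg (fun z : Matrix.SpecialLinearGroup (Fin 2) F ↦ (z : Matrix (Fin 2) (Fin 2) F)) hy
  simp only [pow_two, Matrix.SpecialLinearGroup.coe_mul, Matrix.SpecialLinearGroup.coe_one] at hm
  have h00 := congrFun (congrFun hm 0) 0
  have h01 := congrFun (congrFun hm 0) 1
  have h10 := congrFun (congrFun hm 1) 0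
  have h11 := congrFun (congrFun hm 1) 1
  simp [Matrix.mul_apply, Fin.sum_univ_two] at h00 h01 h10 h11
  set a := (y : Matrix (Fin 2) (Fin 2) F) 0 0
  set b := (y : Matrix (Fin 2) (Fin 2) F) 0 1
  set c := (y : Matrix (Fin 2) (Fin 2) F) 1 0
  set d := (y : Matrix (Fin 2) (Fin 2) F) 1 1
  have hsum : a + d ≠ 0 := by
    intro h
    have hd : d = -a := by linear_combination h
    apply h2ne
    rw [hd] at hdet
    linear_combination -hdet - h00
  have hb : b = 0 := by
    have : b * (a + d) = 0 := by linear_combination h01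
    exact (mul_eq_zero.1 this).resolve_right hsum
  have hc' : c = 0 := by
    have : c * (a + d) = 0 := by linear_combination h10
    exact (mul_eq_zero.1 this).resolve_right hsum
  have had : a = d := by
    rw [hb] at hdet h00
    have hd2 : a * (a - d) = 0 := by linear_combination h00 - hdet
    have ha : a ≠ 0 := by
      intro h
      rw [h] at hdet
      simp at hdet
    exact sub_eq_zero.1 ((mul_eq_zero.1 hd2).resolve_left ha)
  refine ⟨a, ?_, ?_⟩
  · rw [Fintype.card_fin]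
    rw [hb] at h00
    linear_combination h00
  · ext i j
    fin_cases i <;> fin_cases j <;> simp [Matrix.scalar_apply, Matrix.diagonal_apply]
    · rfl
    · exact hb.symm
    · exact hc'.symm
    · exact had

theorem q8_pow : ∀ y : QuaternionGroup (2 ^ 1), y ^ 4 = 1 := by decide

theorem sylow_pow4 {G : Type*} [Group G] [Finite G] (Q : Sylow 2 G) (hQc : Nat.card Q = 2 ^ 3)
    (hq : ∃ k : ℕ, 1 ≤ k ∧ Nonempty ((Q : Subgroup G) ≃* QuaternionGroup (2 ^ k))) :
    ∀ s ∈ (Q : Subgroup G), s ^ 4 = 1 := by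
  obtain ⟨k, hk, ⟨e⟩⟩ := hq
  have hk1 : k = 1 := by
    have h1 : Nat.card (QuaternionGroup (2 ^ k)) = 2 ^ 3 := by
      rw [← Nat.card_congr e.toEquiv]; exact hQc
    rw [Nat.card_eq_fintype_card, QuaternionGroup.card] at h1
    have h2 : 2 ^ (2 + k) = 2 ^ 3 := by
      rw [pow_add]; exact h1
    have := Nat.pow_right_injective (le_refl 2) h2
    omega
  subst hk1
  intro s hs
  have h1 := q8_pow (e ⟨s, hs⟩)
  rw [← map_pow] at h1
  have h2 : (⟨s, hs⟩ : (Q : Subgroup G)) ^ 4 = 1 := e.injective (by rw [h1, map_one])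
  exact congrArg Subtype.val h2


/-- For q = 3 or 5 mod 8 the Sylow 2-subgroups of PSL_2(q) are elementary abelian of order 4. -/
theorem result {F : Type*} [Field F] [Fintype F] {q : ℕ} (hF : Fintype.card F = q) (hq : q % 8 = 3 ∨ q % 8 = 5) (P : Sylow 2 (Matrix.ProjectiveSpecialLinearGroup (Fin 2) F)) : IsKleinFour (P : Subgroup (Matrix.ProjectiveSpecialLinearGroup (Fin 2) F)) := by
  classical
  have hq3 : 3 ≤ q := by
    have := Fintype.one_lt_card (α := F)
    rw [hF] at this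
    rcases hq with h | h <;> omega
  have hodd : Odd (Fintype.card F) := by
    rw [hF, Nat.odd_iff]
    rcases hq with h | h <;> omega
  have hc : ringChar F ≠ 2 := by
    intro h
    have := FiniteField.even_card_iff_char_two.1 h
    rw [Nat.odd_iff] at hodd
    omega
  have h2ne : (2 : F) ≠ 0 := Ring.two_ne_zero hc
  -- cardinalities
  have hcardSL : Nat.card (Matrix.SpecialLinearGroup (Fin 2) F) = q * ((q - 1) * (q + 1)) := by
    rw [← hF]; exact Cfsg.Agent.Lib.GL2Sylow.card_SL₂ (F := F)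
  have hgcd : Nat.gcd 2 (q - 1) = 2 := by
    obtain ⟨r, hr⟩ : ∃ r, q - 1 = 2 * r := ⟨(q - 1) / 2, by rcases hq with h | h <;> omega⟩
    rw [hr]; simp
  have hcardP := Cfsg.Agent.Lib.SLn.card_SL_eq_center_mul (ι := Fin 2) (F := F)
  rw [Fintype.card_fin, hF, hgcd, hcardSL] at hcardP
  obtain ⟨m, hm, hmm⟩ : ∃ m : ℕ, ¬ 2 ∣ m ∧ (q - 1) * (q + 1) = 8 * m := by
    rcases hq with h | h
    · obtain ⟨k, rfl⟩ : ∃ k, q = 8 * k + 3 := ⟨q / 8, by omega⟩
      refine ⟨(4 * k + 1) * (2 * k + 1), ?_, ?_⟩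
      · rw [Nat.Prime.dvd_mul Nat.prime_two]; omega
      · have : 8 * k + 3 - 1 = 8 * k + 2 := by omega
        rw [this]; ring
    · obtain ⟨k, rfl⟩ : ∃ k, q = 8 * k + 5 := ⟨q / 8, by omega⟩
      refine ⟨(2 * k + 1) * (4 * k + 3), ?_, ?_⟩
      · rw [Nat.Prime.dvd_mul Nat.prime_two]; omega
      · have : 8 * k + 5 - 1 = 8 * k + 4 := by omega
        rw [this]; ring
  have hqm : ¬ 2 ∣ q * m := by
    rw [Nat.Prime.dvd_mul Nat.prime_two]
    rintro (h | h)
    · rw [Nat.odd_iff, hF] at hodd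
      omega
    · exact hm h
  have hSLc : Nat.card (Matrix.SpecialLinearGroup (Fin 2) F) = 2 ^ 3 * (q * m) := by
    rw [hcardSL, hmm]; ring
  have hPSLc : Nat.card (Matrix.ProjectiveSpecialLinearGroup (Fin 2) F) = 2 ^ 2 * (q * m) := by
    rw [hmm] at hcardP
    have : 2 * Nat.card (Matrix.ProjectiveSpecialLinearGroup (Fin 2) F) = 2 * (2 ^ 2 * (q * m)) := by
      rw [← hcardP]; ring
    omega
  refine klein_aux (QuotientGroup.mk' _) (QuotientGroup.mk'_surjective _) (q * m) hSLc hPSLc hqm ?_ ?_ P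
  · intro Q
    exact sylow_pow4 Q (Cfsg.Agent.Lib.SylowCount.card_sylow_of_factor Q 3 (q * m) hSLc hqm) (Cfsg.Agent.S0261.result hodd Q)
  · intro y hy
    rw [← MonoidHom.mem_ker, QuotientGroup.ker_mk']
    exact sq_central h2ne y hy

end Cfsg.Agent.S0276
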