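import Cfsg.Agent.Lib.SUCenter
import Cfsg.Agent.Lib.GL2Sylow
import Cfsg.Statements.S0281
-- import your own Cfsg.Agent.* helpers here

set_option autoImplicit false
open Cfsg

namespace Cfsg.Agent.S0281


open scoped Matrix MatrixGroups
open Cfsg.Agent.Lib.UnitaryHerm Cfsg.Agent.Lib.UnitaryBase

theorem exists_embed {K F : Type*} [Field K] [Fintype K] [Field F] [Fintype F] {q : ℕ}
    (hF : Fintype.card F = q ^ 2) (hK : Fintype.card K = q) : Nonempty (K →+* F) := by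
  classical
  obtain ⟨p, hp⟩ := CharP.exists K
  obtain ⟨k, hprime, hk⟩ := FiniteField.card K p
  haveI : Fact p.Prime := ⟨hprime⟩
  obtain ⟨p', hp'⟩ := CharP.exists F
  obtain ⟨m, hprime', hm⟩ := FiniteField.card F p'
  have hpp : p' = p := by
    have h1 : p' ∣ p ^ ((k : ℕ) * 2) := by
      rw [pow_mul, ← hk, hK, ← hF, hm]
      exact dvd_pow_self _ m.ne_zero
    exact (Nat.prime_dvd_prime_iff_eq hprime' hprime).1 (hprime'.dvd_of_dvd_pow h1)
  subst hpp
  letI : Algebra (ZMod p') K := ZMod.algebra K p'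
  letI : Algebra (ZMod p') F := ZMod.algebra F p'
  have hfK : Module.finrank (ZMod p') K = k := by
    have := Module.card_eq_pow_finrank (K := ZMod p') (V := K)
    rw [ZMod.card, hk] at this
    exact (Nat.pow_right_injective hprime'.two_le this).symm
  have hfF : Module.finrank (ZMod p') F = (k : ℕ) * 2 := by
    have := Module.card_eq_pow_finrank (K := ZMod p') (V := F)
    rw [ZMod.card, hF, ← hK, hk, ← pow_mul] at this
    exact (Nat.pow_right_injective hprime'.two_le this).symm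
  obtain ⟨f⟩ := (FiniteField.nonempty_algHom_iff_finrank_dvd (F := ZMod p') (K := K) (L := F)).2 (by
    rw [hfK, hfF]
    exact dvd_mul_right _ _)
  exact ⟨f.toRingHom⟩

section

variable {F K : Type*} [Field F] [Fintype F] [Field K] [Fintype K] {q : ℕ}

omit [Fintype F] in
theorem alg_id (A B C D t tq e1 e1q e2 e2q ε : F) (h1' : 1 + e1 * e1q = 0) (h2' : 1 + e2 * e2q = 0)
    (hs : tq * (1 + e1 * e2q) = ε) (ht : t * (1 + e2 * e1q) = -ε) :
    (A + t * B) * (C + tq * D) + (e1 * A + t * e2 * B) * (e1q * C + tq * e2q * D) = ε * (A * D - B * C) := by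
  linear_combination (A * C) * h1' + (A * D) * hs + (B * C) * ht + (B * D * t * tq) * h2'

/-- The matrix of the change of basis. -/
theorem exists_basis (hF : Fintype.card F = q ^ 2) :
    ∃ (P : GL (Fin 2) F) (ε : F), ε ≠ 0 ∧ ∀ x y : Fin 2 → F,
      Cfsg.hermForm 2 F q ((P : Matrix (Fin 2) (Fin 2) F) *ᵥ x) ((P : Matrix (Fin 2) (Fin 2) F) *ᵥ y) =
        ε * (x 0 * (y 1) ^ q - x 1 * (y 0) ^ q) := by
  classical
  obtain ⟨σ, hσ⟩ := exists_sigma hF
  have hf : Cfsg.Geo.IsUnitaryForm σ (Cfsg.hermForm 2 F q) := hermForm_isUnitary hF hσ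
  obtain ⟨ε, hε0, hε⟩ := exists_tr0 hf
  obtain ⟨η₁, η₂, _, h1, h2, _, h12, _, _⟩ := Cfsg.Agent.Lib.SUCenter.exists_three hF
  rw [hσ] at hε
  have hη2 : η₂ ≠ 0 := by
    have hq := q_two_le hF
    rintro rfl
    rw [zero_pow (by omega)] at h2
    simp at h2
  set α := 1 + η₁ * η₂ ^ q with hα
  have hαη : α * η₂ = η₂ - η₁ := by
    rw [hα, add_mul, one_mul, mul_assoc, ← pow_succ, h2]
    ring
  have hα0 : α ≠ 0 := by
    intro h
    rw [h, zero_mul] at hαη
    exact h12 (sub_eq_zero.1 hαη.symm).symm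
  have hadd : ∀ a b : F, (a + b) ^ q = a ^ q + b ^ q := by
    intro a b
    rw [← hσ, ← hσ, ← hσ, map_add]
  set t := (ε / α) ^ q with ht
  have ht2 : t ^ q = ε / α := pow_q_q hF _
  have ht0 : t ≠ 0 := by
    intro h
    rw [h, zero_pow (by have := q_two_le hF; omega)] at ht2
    exact div_ne_zero hε0 hα0 ht2.symm
  let M : Matrix (Fin 2) (Fin 2) F := !![1, t; η₁, t * η₂]
  have hdet : M.det ≠ 0 := by
    rw [Matrix.det_fin_two_of]
    have : 1 * (t * η₂) - t * η₁ = t * (η₂ - η₁) := by ring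
    rw [this]
    exact mul_ne_zero ht0 (sub_ne_zero.2 (Ne.symm h12))
  refine ⟨Matrix.GeneralLinearGroup.mkOfDetNeZero M hdet, ε, hε0, ?_⟩
  intro x y
  change Cfsg.hermForm 2 F q (M *ᵥ x) (M *ᵥ y) = _
  have hMv : ∀ w : Fin 2 → F, M *ᵥ w = ![w 0 + t * w 1, η₁ * w 0 + t * η₂ * w 1] := by
    intro w
    funext i
    fin_cases i <;> simp [M, Matrix.mulVec, dotProduct, Fin.sum_univ_two]
  rw [hMv, hMv]
  simp only [Cfsg.hermForm, Fin.sum_univ_two, Matrix.cons_val_zero, Matrix.cons_val_one, hadd, mul_pow]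
  have h1' : 1 + η₁ * η₁ ^ q = 0 := by
    rw [← pow_succ', h1]
    ring
  have h2' : 1 + η₂ * η₂ ^ q = 0 := by
    rw [← pow_succ', h2]
    ring
  have hsα : t ^ q * (1 + η₁ * η₂ ^ q) = ε := by
    rw [ht2, ← hα]
    field_simp
  have htβ : t * (1 + η₂ * η₁ ^ q) = -ε := by
    have h6 := congrArg (fun z ↦ z ^ q) hsα
    simp only [mul_pow, hadd, pow_q_q hF, one_pow] at h6
    rw [eq_neg_of_add_eq_zero_right hε] at h6
    rw [← h6]
    ring
  exact alg_id _ _ _ _ _ _ _ _ _ _ _ h1' h2' hsα htβ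

/-- The map from `SL₂(K)`. -/
noncomputable def toSU (τ : K →+* F) (hK : Fintype.card K = q) (P : GL (Fin 2) F) (ε : F) (hε0 : ε ≠ 0)
    (hP : ∀ x y : Fin 2 → F, Cfsg.hermForm 2 F q ((P : Matrix (Fin 2) (Fin 2) F) *ᵥ x) ((P : Matrix (Fin 2) (Fin 2) F) *ᵥ y) =
        ε * (x 0 * (y 1) ^ q - x 1 * (y 0) ^ q)) : SL(2, K) →* Cfsg.SU 2 F q where
  toFun A := ⟨⟨(P : Matrix (Fin 2) (Fin 2) F) * ((A : Matrix (Fin 2) (Fin 2) K).map τ) * ((P⁻¹ : GL (Fin 2) F) : Matrix (Fin 2) (Fin 2) F), by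
      have h1 := Matrix.det_units_conj P ((A : Matrix (Fin 2) (Fin 2) K).map τ)
      change (((P : Matrix (Fin 2) (Fin 2) F) * ((A : Matrix (Fin 2) (Fin 2) K).map τ) * ((P⁻¹ : GL (Fin 2) F) : Matrix (Fin 2) (Fin 2) F))).det = 1
      rw [show (((P⁻¹ : GL (Fin 2) F) : Matrix (Fin 2) (Fin 2) F)) = ((P⁻¹ : (Matrix (Fin 2) (Fin 2) F)ˣ) : Matrix (Fin 2) (Fin 2) F) from rfl, h1]
      have h2 : ((A : Matrix (Fin 2) (Fin 2) K).map τ).det = τ (A : Matrix (Fin 2) (Fin 2) K).det := by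
        rw [← RingHom.mapMatrix_apply, ← RingHom.map_det]
      rw [h2, A.2, map_one]⟩, by
      intro u v
      have hPP : ∀ w : Fin 2 → F, (P : Matrix (Fin 2) (Fin 2) F) *ᵥ (((P⁻¹ : GL (Fin 2) F) : Matrix (Fin 2) (Fin 2) F) *ᵥ w) = w := by
        intro w
        rw [Matrix.mulVec_mulVec, ← Units.val_mul, mul_inv_cancel]
        simp
      have hfix : ∀ a : K, (τ a) ^ q = τ a := by
        intro a
        rw [← map_pow, ← hK, FiniteField.pow_card]
      have hadd : ∀ a b : F, (a + b) ^ q = a ^ q + b ^ q := by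
        obtain ⟨p, hp⟩ := CharP.exists F
        have hK' := FiniteField.card K (ringChar K)
        obtain ⟨k, hprime, hk⟩ := hK'
        have hchar : CharP F (ringChar K) := by
          haveI : Fact (ringChar K).Prime := ⟨hprime⟩
          exact (RingHom.charP_iff τ τ.injective (ringChar K)).1 (ringChar.charP K)
        haveI : Fact (ringChar K).Prime := ⟨hprime⟩
        intro a b
        rw [← hK, hk]
        exact add_pow_char_pow a b _ _
      set x := ((P⁻¹ : GL (Fin 2) F) : Matrix (Fin 2) (Fin 2) F) *ᵥ u with hx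
      set y := ((P⁻¹ : GL (Fin 2) F) : Matrix (Fin 2) (Fin 2) F) *ᵥ v with hy
      have hu : u = (P : Matrix (Fin 2) (Fin 2) F) *ᵥ x := (hPP u).symm
      have hv : v = (P : Matrix (Fin 2) (Fin 2) F) *ᵥ y := (hPP v).symm
      change Cfsg.hermForm 2 F q (((P : Matrix (Fin 2) (Fin 2) F) * ((A : Matrix (Fin 2) (Fin 2) K).map τ) * ((P⁻¹ : GL (Fin 2) F) : Matrix (Fin 2) (Fin 2) F)) *ᵥ u)
        (((P : Matrix (Fin 2) (Fin 2) F) * ((A : Matrix (Fin 2) (Fin 2) K).map τ) * ((P⁻¹ : GL (Fin 2) F) : Matrix (Fin 2) (Fin 2) F)) *ᵥ v) = Cfsg.hermForm 2 F q u v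
      rw [← Matrix.mulVec_mulVec, ← Matrix.mulVec_mulVec, ← Matrix.mulVec_mulVec, ← Matrix.mulVec_mulVec, ← hx, ← hy, hu, hv, hP, hP]
      have hA : ∀ w : Fin 2 → F, ((A : Matrix (Fin 2) (Fin 2) K).map τ) *ᵥ w =
          ![τ (A 0 0) * w 0 + τ (A 0 1) * w 1, τ (A 1 0) * w 0 + τ (A 1 1) * w 1] := by
        intro w
        funext i
        fin_cases i <;> simp [Matrix.mulVec, dotProduct, Fin.sum_univ_two]
      rw [hA, hA]
      simp only [Matrix.cons_val_zero, Matrix.cons_val_one, hadd, mul_pow, hfix]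
      have hdet : τ (A 0 0) * τ (A 1 1) - τ (A 0 1) * τ (A 1 0) = 1 := by
        have h3 := A.2
        rw [Matrix.det_fin_two] at h3
        have h4 := congrArg τ h3
        simpa using h4
      linear_combination (ε * (x 0 * y 1 ^ q - x 1 * y 0 ^ q)) * hdet⟩
  map_one' := by
    apply Subtype.ext
    apply Subtype.ext
    simp
  map_mul' A B := by
    apply Subtype.ext
    apply Subtype.ext
    change (P : Matrix (Fin 2) (Fin 2) F) * (((A * B : SL(2, K)) : Matrix (Fin 2) (Fin 2) K).map τ) * ((P⁻¹ : GL (Fin 2) F) : Matrix (Fin 2) (Fin 2) F) =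
      ((P : Matrix (Fin 2) (Fin 2) F) * ((A : Matrix (Fin 2) (Fin 2) K).map τ) * ((P⁻¹ : GL (Fin 2) F) : Matrix (Fin 2) (Fin 2) F)) *
      ((P : Matrix (Fin 2) (Fin 2) F) * ((B : Matrix (Fin 2) (Fin 2) K).map τ) * ((P⁻¹ : GL (Fin 2) F) : Matrix (Fin 2) (Fin 2) F))
    have h1 : ((P⁻¹ : GL (Fin 2) F) : Matrix (Fin 2) (Fin 2) F) * (P : Matrix (Fin 2) (Fin 2) F) = 1 := by
      rw [← Units.val_mul, inv_mul_cancel]
      simp
    have h2 : (((A * B : SL(2, K)) : Matrix (Fin 2) (Fin 2) K).map τ) = ((A : Matrix (Fin 2) (Fin 2) K).map τ) * ((B : Matrix (Fin 2) (Fin 2) K).map τ) := by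
      rw [Matrix.SpecialLinearGroup.coe_mul, Matrix.map_mul]
    rw [h2]
    calc _ = (P : Matrix (Fin 2) (Fin 2) F) * ((A : Matrix (Fin 2) (Fin 2) K).map τ) * 1 * ((B : Matrix (Fin 2) (Fin 2) K).map τ) * ((P⁻¹ : GL (Fin 2) F) : Matrix (Fin 2) (Fin 2) F) := by
            simp [Matrix.mul_assoc]
      _ = _ := by
            rw [← h1]
            simp only [Matrix.mul_assoc]

theorem toSU_bijective (τ : K →+* F) (hF : Fintype.card F = q ^ 2) (hK : Fintype.card K = q) (P : GL (Fin 2) F) (ε : F) (hε0 : ε ≠ 0)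
    (hP : ∀ x y : Fin 2 → F, Cfsg.hermForm 2 F q ((P : Matrix (Fin 2) (Fin 2) F) *ᵥ x) ((P : Matrix (Fin 2) (Fin 2) F) *ᵥ y) =
        ε * (x 0 * (y 1) ^ q - x 1 * (y 0) ^ q)) : Function.Bijective (toSU τ hK P ε hε0 hP) := by
  classical
  have hq := q_two_le hF
  have hinj : Function.Injective (toSU τ hK P ε hε0 hP) := by
    intro A B h
    have h1 : (P : Matrix (Fin 2) (Fin 2) F) * ((A : Matrix (Fin 2) (Fin 2) K).map τ) * ((P⁻¹ : GL (Fin 2) F) : Matrix (Fin 2) (Fin 2) F) =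
        (P : Matrix (Fin 2) (Fin 2) F) * ((B : Matrix (Fin 2) (Fin 2) K).map τ) * ((P⁻¹ : GL (Fin 2) F) : Matrix (Fin 2) (Fin 2) F) :=
      congrArg (fun z : Cfsg.SU 2 F q ↦ ((z.1 : Matrix.SpecialLinearGroup (Fin 2) F) : Matrix (Fin 2) (Fin 2) F)) h
    have h2 : ((A : Matrix (Fin 2) (Fin 2) K).map τ) = ((B : Matrix (Fin 2) (Fin 2) K).map τ) := by
      have h3 := congrArg (fun X ↦ ((P⁻¹ : GL (Fin 2) F) : Matrix (Fin 2) (Fin 2) F) * X * (P : Matrix (Fin 2) (Fin 2) F)) h1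
      have h4 : ∀ X : Matrix (Fin 2) (Fin 2) F, ((P⁻¹ : GL (Fin 2) F) : Matrix (Fin 2) (Fin 2) F) * ((P : Matrix (Fin 2) (Fin 2) F) * X * ((P⁻¹ : GL (Fin 2) F) : Matrix (Fin 2) (Fin 2) F)) * (P : Matrix (Fin 2) (Fin 2) F) = X := by
        intro X
        have h5 : ((P⁻¹ : GL (Fin 2) F) : Matrix (Fin 2) (Fin 2) F) * (P : Matrix (Fin 2) (Fin 2) F) = 1 := by
          rw [← Units.val_mul, inv_mul_cancel]
          simp
        calc _ = (((P⁻¹ : GL (Fin 2) F) : Matrix (Fin 2) (Fin 2) F) * (P : Matrix (Fin 2) (Fin 2) F)) * X * (((P⁻¹ : GL (Fin 2) F) : Matrix (Fin 2) (Fin 2) F) * (P : Matrix (Fin 2) (Fin 2) F)) := by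
              simp only [Matrix.mul_assoc]
          _ = X := by rw [h5]; simp
      simp only [h4] at h3
      exact h3
    apply Subtype.ext
    ext i j
    exact τ.injective (congrFun (congrFun h2 i) j)
  have hc1 : Nat.card SL(2, K) = q * ((q - 1) * (q + 1)) := by
    rw [Cfsg.Agent.Lib.GL2Sylow.card_SL₂, hK]
  have hc2 : Nat.card (Cfsg.SU 2 F q) = q * ((q - 1) * (q + 1)) := by
    have h1 := Cfsg.Agent.Lib.UnitaryOrder.card_SU hF (n := 2) (by omega)
    rw [Cfsg.Agent.Lib.UnitaryOrder.card_GU hF] at h1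
    norm_num [Finset.prod_range_succ] at h1
    apply Nat.eq_of_mul_eq_mul_left (show 0 < q + 1 by omega)
    rw [Nat.card_eq_fintype_card, h1]
    have h2 : (q - 1) * (q + 1) = q ^ 2 - 1 := by
      obtain ⟨r, rfl⟩ : ∃ r, q = r + 1 := ⟨q - 1, by omega⟩
      simp only [Nat.add_sub_cancel]
      have : (r + 1) ^ 2 = r * (r + 1 + 1) + 1 := by ring
      rw [this]
      simp
    rw [h2]
    ring
  have : Finite (Cfsg.SU 2 F q) := inferInstance
  exact (Nat.bijective_iff_injective_and_card _).2 ⟨hinj, by rw [hc1, hc2]⟩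

end


/-- SU_2(q) is isomorphic to SL_2(q). -/
theorem result {F K : Type*} [Field F] [Fintype F] [Field K] [Fintype K] {q : ℕ} (hF : Fintype.card F = q ^ 2) (hK : Fintype.card K = q) : Nonempty (Cfsg.SU 2 F q ≃* Matrix.SpecialLinearGroup (Fin 2) K) := by
  classical
  obtain ⟨τ⟩ := exists_embed hF hK
  obtain ⟨P, ε, hε0, hP⟩ := exists_basis hF
  exact ⟨(MulEquiv.ofBijective (toSU τ hK P ε hε0 hP) (toSU_bijective τ hF hK P ε hε0 hP)).symm⟩

end Cfsg.Agent.S0281
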