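import Cfsg.Agent.Lib.SUCenter
import Cfsg.Agent.Lib.CharBurnside
import Cfsg.Statements.S0282
-- import your own Cfsg.Agent.* helpers here

set_option autoImplicit false
open Cfsg

namespace Cfsg.Agent.S0282

/-- PSU_3(2) is a solvable group of order 72. -/
theorem result {F : Type*} [Field F] [Fintype F] (hF : Fintype.card F = 4) : Nat.card (Cfsg.PSU 3 F 2) = 72 ∧ Group.IsSolvable (Cfsg.PSU 3 F 2) := by
  have h := Cfsg.Agent.Lib.SUCenter.card_PSU (F := F) (q := 2) (n := 3) (by rw [hF]; norm_num) (by omega)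
  rw [Cfsg.Agent.Lib.UnitaryOrder.card_GU (by rw [hF]; norm_num)] at h
  have h2 : Nat.card (Cfsg.PSU 3 F 2) = 72 := by
    norm_num [Finset.prod_range_succ] at h
    omega
  refine ⟨h2, ?_⟩
  exact Cfsg.Agent.Lib.CharBurnside.solvable_two_prime 2 3 Nat.prime_two Nat.prime_three 72 _ 3 2 h2 (by rw [h2]; norm_num)

end Cfsg.Agent.S0282
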