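import Cfsg.Agent.Lib.FormCount
import Cfsg.Statements.S0284
-- import your own Cfsg.Agent.* helpers here

set_option autoImplicit false
open Cfsg

namespace Cfsg.Agent.S0284

/-- The standard Hermitian form on F^n, |F| = q^2, has exactly q^(n-1) (q^n - (-1)^n) vectors of norm 1. -/
theorem result {F : Type*} [Field F] [Fintype F] {q : ℕ} (hF : Fintype.card F = q ^ 2) (n : ℕ) : Nat.card {v : Fin n → F // Cfsg.hermForm n F q v v = 1} = (if Even n then q ^ (n - 1) * (q ^ n - 1) else q ^ (n - 1) * (q ^ n + 1)) := by
  have hq2 := Cfsg.Agent.Lib.FormCount.two_le_q hF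
  cases n with
  | zero =>
    have h0 : Nat.card {v : Fin 0 → F // Cfsg.hermForm 0 F q v v = 1} = 0 := by
      have : IsEmpty {v : Fin 0 → F // Cfsg.hermForm 0 F q v v = 1} := by
        refine ⟨?_⟩
        rintro ⟨v, hv⟩
        simp [Cfsg.hermForm] at hv
      exact Nat.card_of_isEmpty
    rw [h0]
    simp
  | succ k =>
    have h := Cfsg.Agent.Lib.FormCount.herm_one_closed hF k
    have h2 : 1 ≤ q ^ (k + 1) := Nat.one_le_pow _ _ (by omega)
    simp only [Nat.add_sub_cancel]
    by_cases hk : Even (k + 1)
    · rw [if_pos hk]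
      have hk' : Odd k := by
        rcases Nat.even_or_odd k with h3 | h3
        · exact absurd hk (by simp [Nat.even_add_one, h3])
        · exact h3
      rw [hk'.neg_one_pow] at h
      zify [h2]
      rw [h]
      ring
    · rw [if_neg hk]
      have hk' : Even k := by
        rcases Nat.even_or_odd k with h3 | h3
        · exact h3
        · exact absurd (by simp [Nat.even_add_one, h3]) hk
      rw [hk'.neg_one_pow] at h
      zify
      rw [h]

end Cfsg.Agent.S0284
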