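import Cfsg.Agent.Lib.OmegaOrder
import Cfsg.Agent.Lib.QuadStab
import Cfsg.Agent.Lib.QuadPlus
import Cfsg.Statements.S0292
-- import your own Cfsg.Agent.* helpers here

set_option autoImplicit false
open Cfsg

namespace Cfsg.Agent.S0292

/-- 2 |PΩ_{2m+1}(q)| = q^(m^2) prod_{i=1}^{m} (q^(2i) - 1), for q odd and m at least 3 (type B_m). -/
theorem result {F : Type*} [Field F] [Fintype F] {q : ℕ} (hF : Fintype.card F = q) (hodd : Odd q) (m : ℕ) (hm : 3 ≤ m) : 2 * Nat.card (Cfsg.POmega F (Cfsg.quadFormOdd m F)) = q ^ (m ^ 2) * ∏ i ∈ Finset.range m, (q ^ (2 * (i + 1)) - 1) := by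
  classical
  have h2 : (2 : F) ≠ 0 := Cfsg.Agent.Lib.Spinor2.two_ne_of_odd hF hodd
  have hQ := Cfsg.Agent.Lib.QuadStab.quadFormOdd_nondeg h2 m
  have hn : 7 ≤ Fintype.card (Unit ⊕ (Fin m ⊕ Fin m)) := by
    simp
    omega
  have h1 := Cfsg.Agent.Lib.OmegaOrder.card_omega_mul hQ
    (Cfsg.Agent.Lib.Spinor.omega_index hQ h2 (by omega))
  have h3 := Cfsg.Agent.Lib.OrthFam.card_odd hF hodd m
  have h4 := Cfsg.Agent.Lib.OmegaOrder.card_split hQ
  have h5 : Nat.card (Subgroup.center (Cfsg.Omega F (Cfsg.quadFormOdd m F))) = 1 := by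
    refine Cfsg.Agent.Lib.OmegaOrder.card_center_one hQ hn (fun A hA => ?_)
    exfalso
    have h6 : Cfsg.Agent.Lib.OmegaSimple.toGL (Cfsg.quadFormOdd m F) A ∈ Cfsg.Agent.Lib.QuadSiegel.sigmaG hQ := by
      rw [← Cfsg.Agent.Lib.QuadSiegel.omegaGL_eq_sigmaG hQ hn]
      exact Cfsg.Agent.Lib.OmegaSimple.toGL_mem A
    have h7 := Cfsg.Agent.Lib.QuadSiegel.sigmaG_det hQ h6
    rw [hA] at h7
    have h8 : ((-1 : Matrix.GeneralLinearGroup (Unit ⊕ (Fin m ⊕ Fin m)) F) : Matrix (Unit ⊕ (Fin m ⊕ Fin m)) (Unit ⊕ (Fin m ⊕ Fin m)) F).det = 1 := by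
      have h10 : (Matrix.GeneralLinearGroup.det : Matrix.GeneralLinearGroup (Unit ⊕ (Fin m ⊕ Fin m)) F →* Fˣ) (-1) = 1 := h7
      have h11 := congrArg Units.val h10
      simpa using h11
    rw [Units.val_neg, Units.val_one, Matrix.det_neg, Matrix.det_one, mul_one] at h8
    have h9 : Odd (Fintype.card (Unit ⊕ (Fin m ⊕ Fin m))) := by
      simp only [Fintype.card_sum, Fintype.card_unit, Fintype.card_fin]
      exact ⟨m, by ring⟩
    rw [h9.neg_one_pow] at h8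
    apply h2
    linear_combination -h8
  rw [h5, mul_one] at h4
  rw [← h4]
  rw [h3] at h1
  nlinarith [h1]

end Cfsg.Agent.S0292
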