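import Cfsg.Agent.Lib.OmegaOrder
import Cfsg.Agent.Lib.QuadStab
import Cfsg.Agent.Lib.QuadPlus
import Cfsg.Statements.S0294
-- import your own Cfsg.Agent.* helpers here

set_option autoImplicit false
open Cfsg

namespace Cfsg.Agent.S0294

/-- gcd(4, q^m + 1) |PΩ^-_{2m}(q)| = q^(m(m-1)) (q^m + 1) prod_{i=1}^{m-1} (q^(2i) - 1), m at least 4 (type ²D_m). -/
theorem result {F : Type*} [Field F] [Fintype F] {q : ℕ} (hF : Fintype.card F = q) (m : ℕ) (hm : 4 ≤ m) (a b : F) (hab : ∀ z₁ z₂ : F, z₁ ^ 2 + a * z₁ * z₂ + b * z₂ ^ 2 = 0 → z₁ = 0 ∧ z₂ = 0) : Nat.gcd 4 (q ^ m + 1) * Nat.card (Cfsg.POmega F (Cfsg.quadFormMinus (m - 1) F a b)) = q ^ (m * (m - 1)) * (q ^ m + 1) * ∏ i ∈ Finset.range (m - 1), (q ^ (2 * (i + 1)) - 1) := by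
  classical
  have hQ := Cfsg.Agent.Lib.OrthMinus.minus_nondeg (m - 1) a b hab
  have hn : 7 ≤ Fintype.card ((Fin (m - 1) ⊕ Fin (m - 1)) ⊕ Fin 2) := by
    simp
    omega
  have h3 := Cfsg.Agent.Lib.OrthMinus.card_minus hF m (by omega) a b hab
  have h4 := Cfsg.Agent.Lib.OmegaOrder.card_split hQ
  by_cases hodd : Odd q
  · have h2 : (2 : F) ≠ 0 := Cfsg.Agent.Lib.Spinor2.two_ne_of_odd hF hodd
    have h1 := Cfsg.Agent.Lib.OmegaOrder.card_omega_mul hQ
      (Cfsg.Agent.Lib.Spinor.omega_index hQ h2 (by omega))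
    rw [h3] at h1
    have hN : q ^ m % 2 = 1 := Nat.odd_iff.1 (hodd.pow)
    have hN4 : q ^ m % 4 = 1 ∨ q ^ m % 4 = 3 := by omega
    rcases hN4 with hN4 | hN4
    · have h5 := Cfsg.Agent.Lib.OmegaOrder.card_center_of_not_mem hQ hn
        (fun h => by
          have := (Cfsg.Agent.Lib.Spinor2.neg_one_minus hF hodd m (by omega) a b hab).1 h
          omega)
      rw [h5, mul_one] at h4
      rw [Cfsg.Agent.Lib.OmegaOrder.gcd_four_two (by omega)]
      rw [h4] at h1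
      nlinarith [h1]
    · have h5 := Cfsg.Agent.Lib.OmegaOrder.card_center_of_mem hQ hn h2
        ((Cfsg.Agent.Lib.Spinor2.neg_one_minus hF hodd m (by omega) a b hab).2 hN4)
      rw [h5] at h4
      rw [Cfsg.Agent.Lib.OmegaOrder.gcd_four_left (by omega)]
      rw [h4] at h1
      nlinarith [h1]
  · have h2 := Cfsg.Agent.Lib.OmegaOrder.two_eq_zero_of_not_odd hF hodd
    have h1 := Cfsg.Agent.Lib.OmegaOrder.card_omega_mul hQ
      (Cfsg.Agent.Lib.OmegaOrder.index_char2 hQ hn h2)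
    rw [h3] at h1
    have h5 := Cfsg.Agent.Lib.OmegaOrder.card_center_char2 hQ hn h2
    rw [h5, mul_one] at h4
    have hq2 : 2 ∣ q := (Nat.not_odd_iff_even.1 hodd).two_dvd
    have hd : 4 ∣ q ^ m := by
      have h6 : 2 ^ 2 ∣ q ^ 2 := pow_dvd_pow_of_dvd hq2 2
      exact h6.trans (pow_dvd_pow q (by omega))
    rw [Cfsg.Agent.Lib.OmegaOrder.gcd_four_one (by omega), one_mul]
    rw [h4] at h1
    nlinarith [h1]

end Cfsg.Agent.S0294
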