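import Cfsg.Agent.Lib.OmegaSimple
import Cfsg.Agent.Lib.QuadPlus
import Cfsg.Statements.S0296
-- import your own Cfsg.Agent.* helpers here

set_option autoImplicit false
open Cfsg

namespace Cfsg.Agent.S0296

/-- PΩ^+_{2m}(q) is simple for m at least 4. -/
theorem result {F : Type*} [Field F] [Fintype F] (m : ℕ) (hm : 4 ≤ m) : IsSimpleGroup (Cfsg.POmega F (Cfsg.quadFormPlus m F)) := by
  classical
  refine Cfsg.Agent.Lib.OmegaSimple.isSimple_POmega
    (Cfsg.Agent.Lib.QuadPlus.quadFormPlus_nondeg m) ?_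
  simp
  omega

end Cfsg.Agent.S0296
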