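import Cfsg.Agent.Lib.ClassGeom
import Cfsg.Statements.S0304
-- import your own Cfsg.Agent.* helpers here

set_option autoImplicit false
open Cfsg

namespace Cfsg.Agent.S0304


open scoped Matrix
open QuadraticMap (polar)

variable {F : Type*} [Field F] [Fintype F] [CharP F 2] {m : ℕ}

local notation "W" m => (Fin m ⊕ Fin m)

/-- The symplectic form is the polar of the plus-type form in characteristic two. -/
theorem sympForm_eq (u v : Fin m ⊕ Fin m → F) :
    Cfsg.sympForm m F u v = quadFormPlus m F (u + v) - quadFormPlus m F u - quadFormPlus m F v := by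
  simp only [Cfsg.sympForm, Matrix.J, quadFormPlus, dotProduct, Fintype.sum_sum_type,
    Matrix.fromBlocks_mulVec, Matrix.zero_mulVec, Matrix.one_mulVec, Sum.elim_inl, Sum.elim_inr, Pi.add_apply,
    Matrix.neg_mulVec, zero_add, add_zero, Pi.neg_apply, Function.comp]
  rw [← Finset.sum_add_distrib, ← Finset.sum_sub_distrib, ← Finset.sum_sub_distrib]
  refine Finset.sum_congr rfl fun i _ ↦ ?_
  have h2 : (2 : F) = 0 := CharTwo.two_eq_zero
  linear_combination (-(u (.inl i) * v (.inr i))) * h2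

theorem quadFormOdd_eq (v : Unit ⊕ (Fin m ⊕ Fin m) → F) :
    quadFormOdd m F v = v (.inl ()) ^ 2 + quadFormPlus m F (fun s ↦ v (.inr s)) := rfl

/-- The vector `(c, w)`. -/
def mk (c : F) (w : Fin m ⊕ Fin m → F) : Unit ⊕ (Fin m ⊕ Fin m) → F := Sum.elim (fun _ ↦ c) w

theorem mk_eta (v : Unit ⊕ (Fin m ⊕ Fin m) → F) : mk (v (.inl ())) (fun s ↦ v (.inr s)) = v := by
  funext s
  rcases s with s | s
  · rfl
  · rfl

theorem Q_mk (c : F) (w : Fin m ⊕ Fin m → F) : quadFormOdd m F (mk c w) = c ^ 2 + quadFormPlus m F w := rfl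

theorem mk_add (c d : F) (u v : Fin m ⊕ Fin m → F) : mk c u + mk d v = mk (c + d) (u + v) := by
  funext s
  rcases s with s | s <;> rfl

theorem plus_single (i : Fin m ⊕ Fin m) (w : Fin m ⊕ Fin m → F) :
    quadFormPlus m F (w + Pi.single i 1) - quadFormPlus m F w - quadFormPlus m F (Pi.single i 1) =
      (match i with | .inl j => w (.inr j) | .inr j => w (.inl j)) := by
  have h1 : quadFormPlus m F (Pi.single i (1 : F)) = 0 := by
    apply Finset.sum_eq_zero
    intro j _
    rcases i with i | i <;> simp [Pi.single_apply]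
  rw [h1, sub_zero, quadFormPlus, quadFormPlus, ← Finset.sum_sub_distrib]
  rcases i with i | i
  · rw [Finset.sum_eq_single i]
    · simp [Pi.single_apply]
      ring
    · intro j _ hj
      simp [Pi.single_apply, hj]
    · simp
  · rw [Finset.sum_eq_single i]
    · simp [Pi.single_apply]
      ring
    · intro j _ hj
      simp [Pi.single_apply, hj]
    · simp

variable (g : isometryGroup F (quadFormOdd m F))

theorem iso_apply (v : Unit ⊕ (Fin m ⊕ Fin m) → F) :
    quadFormOdd m F (g.1.1 *ᵥ v) = quadFormOdd m F v := g.2 v 0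

theorem fix_e0 : g.1.1 *ᵥ (mk (1 : F) 0) = mk (1 : F) 0 := by
  set x := g.1.1 *ᵥ (mk (1 : F) 0) with hx
  have h2 : (2 : F) = 0 := CharTwo.two_eq_zero
  have hsurj : ∀ u : Unit ⊕ (Fin m ⊕ Fin m) → F, ∃ v, g.1.1 *ᵥ v = u := by
    intro u
    refine ⟨((g.1)⁻¹ : Matrix.GeneralLinearGroup _ F).1 *ᵥ u, ?_⟩
    rw [Matrix.mulVec_mulVec, ← Units.val_mul, mul_inv_cancel]
    simp
  have hpol : ∀ u : Unit ⊕ (Fin m ⊕ Fin m) → F, quadFormOdd m F (x + u) = quadFormOdd m F x + quadFormOdd m F u := by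
    intro u
    obtain ⟨v, rfl⟩ := hsurj u
    rw [hx, ← Matrix.mulVec_add, iso_apply, iso_apply, iso_apply]
    conv_lhs => rw [← mk_eta v, mk_add, Q_mk]
    conv_rhs => rw [Q_mk]
    conv_rhs => rw [← mk_eta v, Q_mk]
    have h00 : quadFormPlus m F (0 : Fin m ⊕ Fin m → F) = 0 := by simp [quadFormPlus]
    rw [h00]
    simp only [zero_add, add_sq]
    simp only [one_pow, mul_one]
    linear_combination (v (.inl ())) * h2 
  have hW : ∀ s, x (.inr s) = 0 := by
    intro s
    have key : ∀ i : Fin m ⊕ Fin m, (match i with | .inl j => x (.inr (.inr j)) | .inr j => x (.inr (.inl j))) = 0 := by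
      intro i
      have h3 : quadFormOdd m F (mk (x (.inl ())) (fun s ↦ x (.inr s)) + mk 0 (Pi.single i 1)) =
          quadFormOdd m F (mk (x (.inl ())) (fun s ↦ x (.inr s))) + quadFormOdd m F (mk 0 (Pi.single i 1)) := by
        rw [mk_eta]
        exact hpol _
      rw [mk_add, Q_mk, Q_mk, Q_mk, add_zero] at h3
      have h4 := plus_single i (fun s ↦ x (.inr s))
      rcases i with i | i
      · simp only at h4 ⊢
        linear_combination (-1 : F) * h4 + h3
      · simp only at h4 ⊢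
        linear_combination (-1 : F) * h4 + h3
    rcases s with i | i
    · exact key (.inr i)
    · exact key (.inl i)
  have h0 : x (.inl ()) ^ 2 = 1 := by
    have h3 := iso_apply g (mk (1 : F) 0)
    rw [← hx, ← mk_eta x, Q_mk, Q_mk] at h3
    have h4 : (fun s ↦ x (.inr s)) = 0 := funext hW
    rw [h4] at h3
    have h5 : quadFormPlus m F (0 : Fin m ⊕ Fin m → F) = 0 := by simp [quadFormPlus]
    rw [h5] at h3
    simpa using h3
  have h6 : x (.inl ()) = 1 := by
    apply CharTwo.sq_injective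
    simpa using h0
  funext s
  rcases s with s | s
  · exact h6
  · exact hW s

/-- The symplectic block. -/
def blk (g : Matrix (Unit ⊕ (Fin m ⊕ Fin m)) (Unit ⊕ (Fin m ⊕ Fin m)) F) : Matrix (Fin m ⊕ Fin m) (Fin m ⊕ Fin m) F :=
  fun i j ↦ g (.inr i) (.inr j)

theorem col_zero (s : Fin m ⊕ Fin m) : g.1.1 (.inr s) (.inl ()) = 0 := by
  have h := congrFun (fix_e0 g) (.inr s)
  simp only [Matrix.mulVec, dotProduct, Fintype.sum_sum_type, mk, Sum.elim_inl, Sum.elim_inr, Pi.zero_apply, mul_zero,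
    Finset.sum_const_zero, add_zero, mul_one] at h
  simpa using h

theorem apply_inr (v : Unit ⊕ (Fin m ⊕ Fin m) → F) (s : Fin m ⊕ Fin m) :
    (g.1.1 *ᵥ v) (.inr s) = (blk g.1.1 *ᵥ (fun t ↦ v (.inr t))) s := by
  simp only [Matrix.mulVec, dotProduct, Fintype.sum_sum_type, blk]
  simp [col_zero g s]

theorem blk_mem : blk g.1.1 ∈ Matrix.symplecticGroup (Fin m) F := by
  rw [Cfsg.Agent.Lib.ClassGeom.mem_sp_iff_pres]
  intro u v
  have h1 : ∀ x y : Fin m ⊕ Fin m → F, quadFormPlus m F (x + y) - quadFormPlus m F x - quadFormPlus m F y = 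
      quadFormOdd m F (mk 0 x + mk 0 y) - quadFormOdd m F (mk 0 x) - quadFormOdd m F (mk 0 y) := by
    intro x y
    rw [mk_add, Q_mk, Q_mk, Q_mk]
    simp
  have hact : ∀ x : Fin m ⊕ Fin m → F, ∃ c, g.1.1 *ᵥ (mk 0 x) = mk c (blk g.1.1 *ᵥ x) := by
    intro x
    refine ⟨(g.1.1 *ᵥ (mk 0 x)) (.inl ()), ?_⟩
    funext s
    rcases s with s | s
    · rfl
    · exact apply_inr g _ s
  obtain ⟨c, hc⟩ := hact u
  obtain ⟨d, hd⟩ := hact v
  rw [sympForm_eq, sympForm_eq]
  have h3 := iso_apply g (mk 0 u + mk 0 v)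
  have h4 := iso_apply g (mk 0 u)
  have h5 := iso_apply g (mk 0 v)
  rw [Matrix.mulVec_add, hc, hd] at h3
  rw [hc] at h4
  rw [hd] at h5
  rw [mk_add, Q_mk, mk_add, Q_mk] at h3
  rw [Q_mk, Q_mk] at h4 h5
  have h2 : (2 : F) = 0 := CharTwo.two_eq_zero
  linear_combination h3 - h4 - h5 - (c * d) * h2

theorem blk_mul (g h : isometryGroup F (quadFormOdd m F)) : blk (g * h).1.1 = blk g.1.1 * blk h.1.1 := by
  ext i j
  change (g.1.1 * h.1.1) _ _ = _
  simp only [Matrix.mul_apply, Fintype.sum_sum_type, blk]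
  simp
  left
  exact col_zero g i

/-- The map to the symplectic group. -/
noncomputable def toSp : isometryGroup F (quadFormOdd m F) →* Matrix.symplecticGroup (Fin m) F where
  toFun g := ⟨blk g.1.1, blk_mem g⟩
  map_one' := by
    apply Subtype.ext
    ext i j
    simp [blk, Matrix.one_apply]
  map_mul' g h := Subtype.ext (blk_mul g h)

theorem toSp_injective : Function.Injective (toSp (F := F) (m := m)) := by
  intro g h hgh
  have hb : blk g.1.1 = blk h.1.1 := congrArg Subtype.val hgh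
  apply Subtype.ext
  apply Units.ext
  apply Matrix.mulVec_injective
  funext v
  have h1 := iso_apply g v
  have h2 := iso_apply h v
  have hW : ∀ s, (g.1.1 *ᵥ v) (.inr s) = (h.1.1 *ᵥ v) (.inr s) := by
    intro s
    rw [apply_inr, apply_inr, hb]
  have h3 : (g.1.1 *ᵥ v) (.inl ()) ^ 2 = (h.1.1 *ᵥ v) (.inl ()) ^ 2 := by
    rw [← h2, quadFormOdd_eq, quadFormOdd_eq, funext hW] at h1
    exact add_right_cancel h1
  have h4 := CharTwo.sq_injective h3
  funext s
  rcases s with s | s
  · exact h4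
  · exact hW s

theorem toSp_surjective : Function.Surjective (toSp (F := F) (m := m)) := by
  classical
  rintro ⟨A, hA⟩
  have h2 : (2 : F) = 0 := CharTwo.two_eq_zero
  have hpres := (Cfsg.Agent.Lib.ClassGeom.mem_sp_iff_pres _).1 hA
  have hsq : ∀ x : F, IsSquare x := FiniteField.isSquare_of_char_two (CharP.ringChar_of_prime_eq_zero Nat.prime_two (by exact_mod_cast h2))
  choose s hs using hsq
  have hs2 : ∀ x, s x ^ 2 = x := fun x ↦ by rw [pow_two, ← hs]
  let D : (Fin m ⊕ Fin m → F) → F := fun w ↦ quadFormPlus m F w + quadFormPlus m F (A *ᵥ w)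
  have hDadd : ∀ u v, D (u + v) = D u + D v := by
    intro u v
    have h3 := hpres u v
    rw [sympForm_eq, sympForm_eq] at h3
    simp only [D, Matrix.mulVec_add]
    linear_combination h3 + (quadFormPlus m F (u + v) - quadFormPlus m F u - quadFormPlus m F v) * h2
  have hDsmul : ∀ (c : F) u, D (c • u) = c ^ 2 * D u := by
    intro c u
    simp only [D, Matrix.mulVec_smul, quadFormPlus, Pi.smul_apply, smul_eq_mul, mul_add, Finset.mul_sum]
    congr 1 <;> exact Finset.sum_congr rfl fun i _ ↦ by ring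
  let L : (Fin m ⊕ Fin m → F) →ₗ[F] F :=
    { toFun := fun w ↦ s (D w)
      map_add' := fun u v ↦ by
        apply CharTwo.sq_injective
        simp only
        rw [CharTwo.add_sq, hs2, hs2, hs2, hDadd]
      map_smul' := fun c u ↦ by
        apply CharTwo.sq_injective
        simp only [RingHom.id_apply, smul_eq_mul]
        rw [mul_pow, hs2, hs2, hDsmul] }
  have hL : ∀ w, L w ^ 2 = D w := fun w ↦ hs2 _
  let M : Matrix (Unit ⊕ (Fin m ⊕ Fin m)) (Unit ⊕ (Fin m ⊕ Fin m)) F :=
    Matrix.fromBlocks 1 (Matrix.of fun _ j ↦ L (Pi.single j 1)) 0 A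
  have hdet : M.det ≠ 0 := by
    have h6 : M.det = A.det := by
      simp only [M]
      rw [Matrix.det_fromBlocks_zero₂₁, Matrix.det_one, one_mul]
    rw [h6]
    exact (SymplecticGroup.symplectic_det hA).ne_zero
  have hLsum : ∀ w, L w = ∑ j, L (Pi.single j 1) * w j := by
    intro w
    rw [LinearMap.pi_apply_eq_sum_univ L w]
    refine Finset.sum_congr rfl fun j _ => ?_
    rw [smul_eq_mul, mul_comm]
    congr 2
    funext k
    simp [Pi.single_apply, eq_comm]
  have hMv : ∀ v, M *ᵥ v = mk (v (.inl ()) + L (fun t ↦ v (.inr t))) (A *ᵥ (fun t ↦ v (.inr t))) := by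
    intro v
    funext t
    rcases t with t | t
    · change (M *ᵥ v) (.inl t) = _
      rw [hLsum]
      simp [M, Matrix.mulVec, dotProduct, Fintype.sum_sum_type, mk]
    · change (M *ᵥ v) (.inr t) = _
      simp [M, Matrix.mulVec, dotProduct, Fintype.sum_sum_type, mk]
  let g0 : Matrix.GeneralLinearGroup (Unit ⊕ (Fin m ⊕ Fin m)) F := Matrix.GeneralLinearGroup.mkOfDetNeZero M hdet
  have hg0 : g0 ∈ isometryGroup F (quadFormOdd m F) := by
    intro u v
    change quadFormOdd m F (M *ᵥ u) = quadFormOdd m F u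
    rw [hMv, Q_mk, quadFormOdd_eq u, CharTwo.add_sq, hL]
    simp only [D]
    linear_combination (quadFormPlus m F (A *ᵥ (fun t ↦ u (.inr t)))) * h2
  refine ⟨⟨g0, hg0⟩, ?_⟩
  apply Subtype.ext
  ext i j
  change M (.inr i) (.inr j) = A i j
  simp [M]


/-- In characteristic 2, O_{2m+1}(q) is isomorphic to Sp_{2m}(q). -/
theorem result {F : Type*} [Field F] [Fintype F] [CharP F 2] (m : ℕ) : Nonempty (Cfsg.isometryGroup F (Cfsg.quadFormOdd m F) ≃* Matrix.symplecticGroup (Fin m) F) := by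
  exact ⟨MulEquiv.ofBijective toSp ⟨toSp_injective, toSp_surjective⟩⟩

end Cfsg.Agent.S0304
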