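import Cfsg.Agent.Lib.Dihedral
import Cfsg.Statements.S0305
-- import your own Cfsg.Agent.* helpers here

set_option autoImplicit false
open Cfsg

namespace Cfsg.Agent.S0305


open Matrix

variable {F : Type*} [Field F]

local notation "I" => (Fin 1 ⊕ Fin 1)

def mkM (p q r s : F) : Matrix I I F :=
  Matrix.of fun i j ↦ Sum.elim (fun _ ↦ Sum.elim (fun _ ↦ p) (fun _ ↦ q) j) (fun _ ↦ Sum.elim (fun _ ↦ r) (fun _ ↦ s) j) i

theorem mkM_mul (p q r s p' q' r' s' : F) : mkM p q r s * mkM p' q' r' s' =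
    mkM (p * p' + q * r') (p * q' + q * s') (r * p' + s * r') (r * q' + s * s') := by
  ext i j
  rcases i with i | i <;> rcases j with j | j <;>
    simp [mkM, Matrix.mul_apply, Fintype.sum_sum_type]

theorem mkM_one : mkM (1 : F) 0 0 1 = 1 := by
  ext i j
  rcases i with i | i <;> rcases j with j | j <;>
    simp [mkM, Matrix.one_apply, Subsingleton.elim i j]

theorem eq_mkM (M : Matrix I I F) : M = mkM (M (.inl 0) (.inl 0)) (M (.inl 0) (.inr 0)) (M (.inr 0) (.inl 0)) (M (.inr 0) (.inr 0)) := by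
  ext i j
  have h : ∀ k : Fin 1, k = 0 := fun k ↦ Subsingleton.elim _ _
  rcases i with i | i <;> rcases j with j | j <;> simp [mkM, h i, h j]

theorem q_mulVec (M : Matrix I I F) (u : I → F) : Cfsg.quadFormPlus 1 F (M *ᵥ u) =
    (M (.inl 0) (.inl 0) * u (.inl 0) + M (.inl 0) (.inr 0) * u (.inr 0)) *
    (M (.inr 0) (.inl 0) * u (.inl 0) + M (.inr 0) (.inr 0) * u (.inr 0)) := by
  simp [Cfsg.quadFormPlus, Matrix.mulVec, dotProduct, Fintype.sum_sum_type]

/-- diagonal elements -/
def D (a : Fˣ) : Matrix.GeneralLinearGroup I F :=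
  ⟨mkM (a : F) 0 0 (a⁻¹ : Fˣ), mkM ((a⁻¹ : Fˣ) : F) 0 0 a, by
    rw [mkM_mul]; simp [mkM_one], by rw [mkM_mul]; simp [mkM_one]⟩

def W : Matrix.GeneralLinearGroup I F :=
  ⟨mkM (0 : F) 1 1 0, mkM (0 : F) 1 1 0, by
    rw [mkM_mul]; simp [mkM_one], by rw [mkM_mul]; simp [mkM_one]⟩

theorem D_mem (a : Fˣ) : D a ∈ Cfsg.isometryGroup F (Cfsg.quadFormPlus 1 F) := by
  intro u _
  change Cfsg.quadFormPlus 1 F (mkM (a : F) 0 0 (a⁻¹ : Fˣ) *ᵥ u) = Cfsg.quadFormPlus 1 F u
  rw [q_mulVec]
  simp [mkM, Cfsg.quadFormPlus]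
  field_simp

theorem W_mem : (W : Matrix.GeneralLinearGroup I F) ∈ Cfsg.isometryGroup F (Cfsg.quadFormPlus 1 F) := by
  intro u _
  change Cfsg.quadFormPlus 1 F (mkM (0 : F) 1 1 0 *ᵥ u) = Cfsg.quadFormPlus 1 F u
  rw [q_mulVec]
  simp [mkM, Cfsg.quadFormPlus, mul_comm]

abbrev T (F : Type*) [Field F] := Cfsg.isometryGroup F (Cfsg.quadFormPlus 1 F)

/-- the torus as a homomorphism -/
def DH : Fˣ →* T F where
  toFun a := ⟨D a, D_mem a⟩
  map_one' := by
    apply Subtype.ext
    apply Units.ext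
    change mkM _ _ _ _ = 1
    simp [mkM_one]
  map_mul' a b := by
    apply Subtype.ext
    apply Units.ext
    change mkM _ _ _ _ = mkM _ _ _ _ * mkM _ _ _ _
    rw [mkM_mul]
    simp [mul_comm]

def WH : T F := ⟨W, W_mem⟩

theorem mkM_inj {p q r s p' q' r' s' : F} (h : mkM p q r s = mkM p' q' r' s') : p = p' ∧ q = q' ∧ r = r' ∧ s = s' := by
  refine ⟨?_, ?_, ?_, ?_⟩
  · simpa [mkM] using congrFun (congrFun h (.inl 0)) (.inl 0)
  · simpa [mkM] using congrFun (congrFun h (.inl 0)) (.inr 0)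
  · simpa [mkM] using congrFun (congrFun h (.inr 0)) (.inl 0)
  · simpa [mkM] using congrFun (congrFun h (.inr 0)) (.inr 0)

theorem classify (g : T F) : (∃ a : Fˣ, g = DH a) ∨ ∃ a : Fˣ, g = WH * DH a := by
  obtain ⟨g, hg⟩ := g
  have hg' : ∀ u : I → F, Cfsg.quadFormPlus 1 F ((g : Matrix I I F) *ᵥ u) = Cfsg.quadFormPlus 1 F u := fun u ↦ hg u u
  have he := eq_mkM (g : Matrix I I F)
  set p := (g : Matrix I I F) (.inl 0) (.inl 0)
  set q := (g : Matrix I I F) (.inl 0) (.inr 0)
  set r := (g : Matrix I I F) (.inr 0) (.inl 0)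
  set s := (g : Matrix I I F) (.inr 0) (.inr 0)
  have h1 : p * r = 0 := by
    have := hg' (Sum.elim (fun _ ↦ 1) (fun _ ↦ 0))
    rw [q_mulVec] at this
    simpa [Cfsg.quadFormPlus] using this
  have h2 : q * s = 0 := by
    have := hg' (Sum.elim (fun _ ↦ 0) (fun _ ↦ 1))
    rw [q_mulVec] at this
    simpa [Cfsg.quadFormPlus] using this
  have h3 : (p + q) * (r + s) = 1 := by
    have := hg' (Sum.elim (fun _ ↦ 1) (fun _ ↦ 1))
    rw [q_mulVec] at this
    simpa [Cfsg.quadFormPlus] using this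
  by_cases hp : p = 0
  · right
    have hqr : q * r = 1 := by
      rw [hp] at h3
      have hs : s = 0 := by
        have hq : q ≠ 0 := by
          intro h
          rw [h] at h3
          simp at h3
        exact (mul_eq_zero.1 h2).resolve_left hq
      rw [hs] at h3
      simpa using h3
    have hr : r ≠ 0 := by
      intro h
      rw [h] at hqr
      simp at hqr
    have hs : s = 0 := by
      have hq : q ≠ 0 := by
        intro h
        rw [h] at hqr
        simp at hqr
      exact (mul_eq_zero.1 h2).resolve_left hq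
    refine ⟨Units.mk0 r hr, ?_⟩
    apply Subtype.ext
    apply Units.ext
    change (g : Matrix I I F) = mkM (0 : F) 1 1 0 * mkM _ 0 0 _
    rw [he, mkM_mul, hp, hs]
    have hqe : q = r⁻¹ := eq_inv_of_mul_eq_one_left hqr
    simp [hqe]
  · left
    have hr : r = 0 := (mul_eq_zero.1 h1).resolve_left hp
    have hps : p * s = 1 := by
      rw [hr] at h3
      have hs : s ≠ 0 := by
        intro h
        rw [h] at h3
        simp at h3
      have hq : q = 0 := (mul_eq_zero.1 h2).resolve_right hs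
      rw [hq] at h3
      simpa using h3
    have hs : s ≠ 0 := by
      intro h
      rw [h] at hps
      simp at hps
    have hq : q = 0 := (mul_eq_zero.1 h2).resolve_right hs
    refine ⟨Units.mk0 p hp, ?_⟩
    apply Subtype.ext
    apply Units.ext
    change (g : Matrix I I F) = mkM _ 0 0 _
    rw [he, hr, hq]
    have hse : s = p⁻¹ := eq_inv_of_mul_eq_one_right hps
    simp [hse]


/-- GO^+_2(q) is dihedral of order 2(q-1). -/
theorem result {F : Type*} [Field F] [Fintype F] {q : ℕ} (hF : Fintype.card F = q) : Nonempty (Cfsg.isometryGroup F (Cfsg.quadFormPlus 1 F) ≃* DihedralGroup (q - 1)) := by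
  classical
  have hq2 : 2 ≤ q := by
    rw [← hF]; exact Fintype.one_lt_card
  have hcardU : Nat.card Fˣ = q - 1 := by
    rw [Nat.card_eq_fintype_card, Fintype.card_units, hF]
  have : NeZero (q - 1) := ⟨by omega⟩
  have : Finite (T F) := by
    have : Finite (Matrix.GeneralLinearGroup I F) := inferInstance
    exact inferInstance
  obtain ⟨γ, hγ⟩ := IsCyclic.exists_generator (α := Fˣ)
  have hordγ : orderOf γ = q - 1 := by
    rw [← hcardU, orderOf_eq_card_of_forall_mem_zpowers hγ]
  have hDinj : Function.Injective (DH (F := F)) := by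
    intro a b hab
    have h1 := congrArg (fun g : T F ↦ ((g : Matrix.GeneralLinearGroup I F) : Matrix I I F)) hab
    have h2 := (mkM_inj h1).1
    exact Units.ext h2
  have hW2 : (WH : T F) ^ 2 = 1 := by
    rw [pow_two]
    apply Subtype.ext
    apply Units.ext
    change mkM _ _ _ _ * mkM _ _ _ _ = 1
    rw [mkM_mul]
    simp [mkM_one]
  have hWD : ∀ a : Fˣ, (WH : T F) * DH a * (WH : T F)⁻¹ = (DH a)⁻¹ := by
    intro a
    rw [mul_inv_eq_iff_eq_mul, ← map_inv]
    apply Subtype.ext
    apply Units.ext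
    change mkM _ _ _ _ * mkM _ _ _ _ = mkM _ _ _ _ * mkM _ _ _ _
    rw [mkM_mul, mkM_mul]
    simp
  have hWn : (WH : T F) ∉ Subgroup.zpowers (DH γ) := by
    rintro ⟨k, hk⟩
    simp only at hk
    rw [← map_zpow] at hk
    have h1 := congrArg (fun g : T F ↦ ((g : Matrix.GeneralLinearGroup I F) : Matrix I I F)) hk
    have h2 := (mkM_inj h1).2.1
    exact zero_ne_one h2
  have hcard : Nat.card (T F) = 2 * (q - 1) := by
    let f : Fˣ ⊕ Fˣ → T F := Sum.elim DH (fun a ↦ WH * DH a)
    have hf : Function.Bijective f := by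
      constructor
      · rintro (a | a) (b | b) h
        · exact congrArg _ (hDinj h)
        · exfalso
          have h1 := congrArg (fun g : T F ↦ ((g : Matrix.GeneralLinearGroup I F) : Matrix I I F)) h
          change mkM _ _ _ _ = mkM _ _ _ _ * mkM _ _ _ _ at h1
          rw [mkM_mul] at h1
          have h2 := (mkM_inj h1).1
          simp at h2
        · exfalso
          have h1 := congrArg (fun g : T F ↦ ((g : Matrix.GeneralLinearGroup I F) : Matrix I I F)) h
          change mkM _ _ _ _ * mkM _ _ _ _ = mkM _ _ _ _ at h1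
          rw [mkM_mul] at h1
          have h2 := (mkM_inj h1).1
          simp at h2
          exact b.ne_zero h2.symm
        · have h3 := hDinj (mul_left_cancel h)
          exact congrArg _ h3
      · intro g
        rcases classify g with ⟨a, rfl⟩ | ⟨a, rfl⟩
        · exact ⟨.inl a, rfl⟩
        · exact ⟨.inr a, rfl⟩
    rw [← Nat.card_congr (Equiv.ofBijective f hf), Nat.card_sum, hcardU]
    ring
  have hord : orderOf (DH γ) = q - 1 := by
    rw [orderOf_injective _ hDinj, hordγ]
  obtain ⟨e⟩ := Cfsg.Agent.Lib.Dihedral.nonempty_mulEquiv_dihedral (T := T F) (q - 1) (DH γ) WH hord hW2 (hWD γ) hWn hcard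
  exact ⟨e⟩

end Cfsg.Agent.S0305
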