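import Cfsg.Agent.Lib.SLn
import Cfsg.Statements.S0307
-- import your own Cfsg.Agent.* helpers here

set_option autoImplicit false
open Cfsg

namespace Cfsg.Agent.S0307

/-- PSL_n(q) is normal in PGL_n(q) with cyclic quotient of order gcd(n, q-1): the image of the natural map PSL_n → PGL_n is the kernel of a surjective homomorphism onto the cyclic group of that order. -/
theorem result {F : Type*} [Field F] [Fintype F] {q : ℕ} (hF : Fintype.card F = q) (n : ℕ) (hn : 1 ≤ n) : ∃ g : Matrix.ProjGenLinGroup (Fin n) F →* Multiplicative (ZMod (Nat.gcd n (q - 1))), Function.Surjective g ∧ g.ker = (Matrix.ProjectiveSpecialLinearGroup.toPGL : Matrix.ProjectiveSpecialLinearGroup (Fin n) F →* Matrix.ProjGenLinGroup (Fin n) F).range := by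
  classical
  have hq : Nat.card Fˣ = q - 1 := by
    rw [Nat.card_eq_fintype_card, Fintype.card_units, hF]
  have hq2 : 2 ≤ q := by
    rw [← hF]; exact Fintype.one_lt_card
  have hnz : Nonempty (Fin n) := ⟨⟨0, hn⟩⟩
  set d := Nat.gcd n (q - 1) with hd
  have hd0 : d ≠ 0 := Nat.gcd_ne_zero_left (by omega)
  have : NeZero d := ⟨hd0⟩
  let P : Subgroup Fˣ := (powMonoidHom n : Fˣ →* Fˣ).range
  have hidx : Nat.card (Fˣ ⧸ P) = d := by
    have h1 : P.index = (Nat.card Fˣ).gcd n := IsCyclic.index_powMonoidHom_range Fˣ n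
    change P.index = d
    rw [h1, hq, Nat.gcd_comm]
  have hcq : IsCyclic (Fˣ ⧸ P) := inferInstance
  have hcz : IsCyclic (Multiplicative (ZMod d)) := inferInstance
  have hcardZ : Nat.card (Multiplicative (ZMod d)) = d := by
    change Nat.card (ZMod d) = d
    simp
  let e : (Fˣ ⧸ P) ≃* Multiplicative (ZMod d) := mulEquivOfCyclicCardEq (hidx.trans hcardZ.symm)
  let θ : Fˣ →* Multiplicative (ZMod d) := e.toMonoidHom.comp (QuotientGroup.mk' P)
  have hθs : Function.Surjective θ := e.surjective.comp (QuotientGroup.mk'_surjective P)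
  have hθk : ∀ x, θ x = 1 ↔ ∃ u : Fˣ, u ^ n = x := by
    intro x
    constructor
    · intro h
      have h1 : (QuotientGroup.mk' P x) = 1 := e.injective (by rw [map_one]; exact h)
      have h2 : x ∈ P := by
        rw [← QuotientGroup.ker_mk' P]; exact h1
      obtain ⟨u, hu⟩ := h2
      exact ⟨u, hu⟩
    · rintro ⟨u, rfl⟩
      have h2 : u ^ n ∈ P := ⟨u, rfl⟩
      have h1 : (QuotientGroup.mk' P (u ^ n)) = 1 := by
        rw [← MonoidHom.mem_ker, QuotientGroup.ker_mk']; exact h2
      change e (QuotientGroup.mk' P (u ^ n)) = 1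
      rw [h1, map_one]
  let κ : Matrix.GeneralLinearGroup (Fin n) F →* Multiplicative (ZMod d) :=
    θ.comp Matrix.GeneralLinearGroup.det
  have hκ : ∀ c : Fˣ, κ (Matrix.GeneralLinearGroup.scalar (Fin n) c) = 1 := by
    intro c
    change θ (Matrix.GeneralLinearGroup.det _) = 1
    rw [hθk]
    refine ⟨c, ?_⟩
    apply Units.ext
    simp [Matrix.GeneralLinearGroup.scalar]
  have hle : Subgroup.center (Matrix.GeneralLinearGroup (Fin n) F) ≤ κ.ker := by
    rw [Matrix.GeneralLinearGroup.center_eq_range_scalar]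
    rintro _ ⟨c, rfl⟩
    exact hκ c
  let g : Matrix.ProjGenLinGroup (Fin n) F →* Multiplicative (ZMod d) := QuotientGroup.lift _ κ hle
  have hg : ∀ x, g (Matrix.ProjGenLinGroup.mk x) = κ x := fun x ↦ rfl
  refine ⟨g, ?_, ?_⟩
  · intro y
    obtain ⟨c, rfl⟩ := hθs y
    obtain ⟨x, hx⟩ : ∃ x : Matrix.GeneralLinearGroup (Fin n) F, Matrix.GeneralLinearGroup.det x = c :=
      Matrix.GeneralLinearGroup.det_surjective c
    refine ⟨Matrix.ProjGenLinGroup.mk x, ?_⟩
    rw [hg]
    change θ (Matrix.GeneralLinearGroup.det x) = _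
    rw [hx]
  · ext x
    induction x using Matrix.ProjGenLinGroup.induction_on with
    | mk x =>
    rw [MonoidHom.mem_ker, hg]
    constructor
    · intro h
      obtain ⟨u, hu⟩ := (hθk _).1 h
      let x' : Matrix.GeneralLinearGroup (Fin n) F := x * Matrix.GeneralLinearGroup.scalar (Fin n) u⁻¹
      have hdet : Matrix.GeneralLinearGroup.det x' = 1 := by
        have h3 : Matrix.GeneralLinearGroup.det (Matrix.GeneralLinearGroup.scalar (Fin n) u⁻¹) = (u ^ n)⁻¹ := by
          apply Units.ext
          simp [Matrix.GeneralLinearGroup.scalar]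
        change Matrix.GeneralLinearGroup.det (x * _) = 1
        rw [map_mul, h3, hu]
        simp
      have hmem : x'.1.det = 1 := congrArg Units.val hdet
      let s : Matrix.SpecialLinearGroup (Fin n) F := ⟨x'.1, hmem⟩
      refine ⟨(QuotientGroup.mk s : Matrix.ProjectiveSpecialLinearGroup (Fin n) F), ?_⟩
      rw [Matrix.ProjectiveSpecialLinearGroup.toPGL_mk]
      have h5 : Matrix.SpecialLinearGroup.toGL s = x' := by
        apply Units.ext
        rfl
      rw [h5, Matrix.ProjGenLinGroup.mk_eq_mk_iff]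
      refine ⟨u, ?_⟩
      change x * Matrix.GeneralLinearGroup.scalar (Fin n) u⁻¹ * _ = x
      rw [mul_assoc, ← map_mul]
      simp
    · rintro ⟨y, hy⟩
      induction y using QuotientGroup.induction_on with
      | H s =>
      rw [Matrix.ProjectiveSpecialLinearGroup.toPGL_mk, Matrix.ProjGenLinGroup.mk_eq_mk_iff] at hy
      obtain ⟨u, rfl⟩ := hy
      rw [map_mul, hκ, mul_one]
      change θ (Matrix.GeneralLinearGroup.det (Matrix.SpecialLinearGroup.toGL s)) = 1
      have : Matrix.GeneralLinearGroup.det (Matrix.SpecialLinearGroup.toGL s) = 1 := by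
        apply Units.ext
        simp
      rw [this, map_one]

end Cfsg.Agent.S0307
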