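import Mathlib
import Cfsg.Agent.Lib.BNPair
import Cfsg.Statements.S0312
-- import your own Cfsg.Agent.* helpers here

set_option autoImplicit false
open Cfsg

namespace Cfsg.Agent.S0312

/-- Every standard parabolic subgroup of a group with a (B,N)-pair equals its own normaliser. -/
theorem result {G : Type*} [Group G] (P : Cfsg.BNPair G) {J : Set G}
    (hJ : J ⊆ P.S) : Subgroup.normalizer (P.parabolic J : Set G) = P.parabolic J := by
  apply le_antisymm
  · intro g hg
    obtain ⟨n, hn, h1⟩ := Cfsg.Agent.Lib.BNPair.exists_mem_C (P := P) g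
    obtain ⟨x, hx, y, hy, rfl⟩ := Cfsg.Agent.Lib.BNPair.mem_C.1 h1
    have hb : P.B ≤ P.parabolic J := le_sup_left
    rw [Subgroup.mem_normalizer_iff] at hg
    have hnP : n ∈ P.parabolic J := by
      refine Cfsg.Agent.Lib.BNPair.mem_of_conj_le hb hn (fun c hc => ?_)
      have h2 : (x * n * y) * (y⁻¹ * c * y) * (x * n * y)⁻¹ ∈ P.parabolic J := by
        apply (hg _).1
        exact hb (mul_mem (mul_mem (inv_mem hy) hc) hy)
      have e : n * c * n⁻¹ = x⁻¹ * ((x * n * y) * (y⁻¹ * c * y) * (x * n * y)⁻¹) * x := by group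
      rw [e]
      exact mul_mem (mul_mem (hb (inv_mem hx)) h2) (hb hx)
    exact mul_mem (mul_mem (hb hx) hnP) (hb hy)
  · exact Subgroup.le_normalizer

end Cfsg.Agent.S0312
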