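import Mathlib
import Cfsg.Agent.Lib.BNPair
import Cfsg.Statements.S0313
-- import your own Cfsg.Agent.* helpers here

set_option autoImplicit false
open Cfsg

namespace Cfsg.Agent.S0313

/-- Two standard parabolic subgroups of a group with a (B,N)-pair which are conjugate in `G` coincide. -/
theorem result {G : Type*} [Group G] (P : Cfsg.BNPair G) {J K : Set G}
    (hJ : J ⊆ P.S) (hK : K ⊆ P.S) (g : G)
    (h : (P.parabolic J).map (MulAut.conj g).toMonoidHom = P.parabolic K) :
    P.parabolic J = P.parabolic K := by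
  have hcj : ∀ x ∈ P.parabolic J, g * x * g⁻¹ ∈ P.parabolic K := by
    intro x hx
    rw [← h]
    exact ⟨x, hx, by simp⟩
  obtain ⟨n, hn, h1⟩ := Cfsg.Agent.Lib.BNPair.exists_mem_C (P := P) g
  obtain ⟨x, hx, y, hy, hg⟩ := Cfsg.Agent.Lib.BNPair.mem_C.1 h1
  have hbK : P.B ≤ P.parabolic K := le_sup_left
  have hbJ : P.B ≤ P.parabolic J := le_sup_left
  have hnP : n ∈ P.parabolic K := by
    refine Cfsg.Agent.Lib.BNPair.mem_of_conj_le hbK hn (fun c hc => ?_)
    have h2 := hcj (y⁻¹ * c * y) (hbJ (mul_mem (mul_mem (inv_mem hy) hc) hy))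
    have e : n * c * n⁻¹ = x⁻¹ * (g * (y⁻¹ * c * y) * g⁻¹) * x := by
      rw [hg]; group
    rw [e]
    exact mul_mem (mul_mem (hbK (inv_mem hx)) h2) (hbK hx)
  have hgK : g ∈ P.parabolic K := by
    rw [hg]
    exact mul_mem (mul_mem (hbK hx) hnP) (hbK hy)
  apply le_antisymm
  · intro u hu
    have := hcj u hu
    have e : u = g⁻¹ * (g * u * g⁻¹) * g := by group
    rw [e]
    exact mul_mem (mul_mem (inv_mem hgK) this) hgK
  · intro u hu
    have h3 : g * u * g⁻¹ ∈ P.parabolic K := mul_mem (mul_mem hgK hu) (inv_mem hgK)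
    rw [← h] at h3
    obtain ⟨v, hv, e⟩ := h3
    simp only [MulEquiv.coe_toMonoidHom, MulAut.conj_apply] at e
    have : v = u := by
      have := mul_left_cancel (mul_right_cancel e)
      exact this
    rwa [← this]

end Cfsg.Agent.S0313
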