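import Mathlib
import Cfsg.Agent.Lib.BNPair
import Cfsg.Statements.S0316
-- import your own Cfsg.Agent.* helpers here

set_option autoImplicit false
open Cfsg

namespace Cfsg.Agent.S0316

/-- The map `J ↦ P_J` is a lattice isomorphism from the power set of the set of distinguished generators onto the
subgroups containing `B`. -/
theorem result {G : Type*} [Group G] (P : Cfsg.BNPair G) :
    ∃ e : Set P.S ≃o {M : Subgroup G // P.B ≤ M},
      ∀ J : Set P.S, ((e J : {M : Subgroup G // P.B ≤ M}) : Subgroup G) = P.parabolic (Subtype.val '' J) := by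
  have hS : ∀ J : Set P.S, Subtype.val '' J ⊆ P.S := by
    rintro J _ ⟨s, _, rfl⟩
    exact s.2
  refine ⟨{ toFun := fun J => ⟨P.parabolic (Subtype.val '' J), le_sup_left⟩
            invFun := fun M => {s : P.S | s.1 ∈ M.1}
            left_inv := ?_
            right_inv := ?_
            map_rel_iff' := ?_ }, fun J => rfl⟩
  · intro J
    ext s
    simp only [Set.mem_ofPred_eq]
    constructor
    · intro h
      have := Cfsg.Agent.Lib.BNPair.mem_of_mem_parabolic (hS J) s.2 h
      obtain ⟨u, hu, e⟩ := this
      have : u = s := Subtype.ext e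
      rwa [← this]
    · intro h
      exact (le_sup_right : Subgroup.closure (Subtype.val '' J) ≤ P.parabolic (Subtype.val '' J))
        (Subgroup.subset_closure ⟨s, h, rfl⟩)
  · rintro ⟨M, hM⟩
    apply Subtype.ext
    simp only
    have e : Subtype.val '' {s : P.S | s.1 ∈ M} = {s | s ∈ P.S ∧ s ∈ M} := by
      ext x
      constructor
      · rintro ⟨s, hs, rfl⟩
        exact ⟨s.2, hs⟩
      · rintro ⟨h1, h2⟩
        exact ⟨⟨x, h1⟩, h2, rfl⟩
    rw [e]
    exact (Cfsg.Agent.Lib.BNPair.eq_parabolic hM).symm
  · intro J K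
    change P.parabolic (Subtype.val '' J) ≤ P.parabolic (Subtype.val '' K) ↔ J ≤ K
    constructor
    · intro h s hs
      have h0 : s.1 ∈ P.parabolic (Subtype.val '' J) :=
        (le_sup_right : Subgroup.closure (Subtype.val '' J) ≤ P.parabolic (Subtype.val '' J))
          (Subgroup.subset_closure ⟨s, hs, rfl⟩)
      have h1 : s.1 ∈ P.parabolic (Subtype.val '' K) := h h0
      obtain ⟨u, hu, e⟩ := Cfsg.Agent.Lib.BNPair.mem_of_mem_parabolic (hS K) s.2 h1
      have : u = s := Subtype.ext e
      rwa [← this]
    · intro h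
      apply sup_le_sup_left
      apply Subgroup.closure_mono
      exact Set.image_mono h

end Cfsg.Agent.S0316
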