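import Mathlib
import Cfsg.Agent.Lib.BNPair
import Cfsg.Statements.S0318
-- import your own Cfsg.Agent.* helpers here

set_option autoImplicit false
open Cfsg

namespace Cfsg.Agent.S0318

/-- For `n ∈ N`, the subgroup generated by `B` and `n` coincides with the subgroup generated by `B` and the
conjugate `n B n⁻¹`. -/
theorem result {G : Type*} [Group G] (P : Cfsg.BNPair G) {n : G}
    (hn : n ∈ P.N) :
    P.B ⊔ Subgroup.closure {n} = P.B ⊔ P.B.map (MulAut.conj n).toMonoidHom := by
  apply le_antisymm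
  · refine sup_le le_sup_left ?_
    rw [Subgroup.closure_le, Set.singleton_subset_iff]
    apply Cfsg.Agent.Lib.BNPair.mem_of_conj_le (le_sup_left : P.B ≤ P.B ⊔ P.B.map (MulAut.conj n).toMonoidHom) hn
    intro b hb
    exact (le_sup_right : P.B.map (MulAut.conj n).toMonoidHom ≤ P.B ⊔ P.B.map (MulAut.conj n).toMonoidHom)
      ⟨b, hb, by simp⟩
  · refine sup_le le_sup_left ?_
    rintro _ ⟨b, hb, rfl⟩
    simp only [MulEquiv.coe_toMonoidHom, MulAut.conj_apply]
    have h1 : n ∈ P.B ⊔ Subgroup.closure {n} :=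
      (le_sup_right : Subgroup.closure {n} ≤ P.B ⊔ Subgroup.closure {n})
        (Subgroup.subset_closure rfl)
    exact mul_mem (mul_mem h1 ((le_sup_left : P.B ≤ P.B ⊔ Subgroup.closure {n}) hb)) (inv_mem h1)

end Cfsg.Agent.S0318
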