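import Mathlib
import Cfsg.Agent.Lib.BNPair
import Cfsg.Statements.S0321
-- import your own Cfsg.Agent.* helpers here

set_option autoImplicit false
open Cfsg

namespace Cfsg.Agent.S0321

/-- For `n ∈ N` not in `B`, the union `B ∪ B n B` is (the underlying set of) a subgroup exactly when `n` agrees
modulo `B ⊓ N` with one of the distinguished representatives; thus the distinguished involutions are
determined by `B` and `N`. -/
theorem result {G : Type*} [Group G] (P : Cfsg.BNPair G) {n : G}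
    (hn : n ∈ P.N) (hnB : n ∉ P.B) :
    (∃ H : Subgroup G, (H : Set G) = (P.B : Set G) ∪ DoubleCoset.doubleCoset n (P.B : Set G) P.B) ↔ ∃ s ∈ P.S, s⁻¹ * n ∈ P.B := by
  constructor
  · rintro ⟨H, hH⟩
    have hB : P.B ≤ H := by
      intro b hb
      rw [← SetLike.mem_coe, hH]
      exact Or.inl hb
    have hnH : n ∈ H := by
      rw [← SetLike.mem_coe, hH]
      exact Or.inr (Cfsg.Agent.Lib.BNPair.self_mem_C n)
    have hE := Cfsg.Agent.Lib.BNPair.eq_parabolic hB
    by_cases hJ : ∃ s, s ∈ P.S ∧ s ∈ H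
    · obtain ⟨s, hs, hsH⟩ := hJ
      refine ⟨s, hs, ?_⟩
      rw [← SetLike.mem_coe, hH] at hsH
      rcases hsH with h | h
      · exact absurd h (Cfsg.Agent.Lib.BNPair.s_not_mem_B hs)
      · exact (Cfsg.Agent.Lib.BNPair.E_of_mem_C hn (Cfsg.Agent.Lib.BNPair.s_mem_N hs) h).symm
    · exfalso
      push Not at hJ
      have h1 : {s | s ∈ P.S ∧ s ∈ H} = ∅ := by
        ext s
        simp only [Set.mem_ofPred_eq, Set.mem_empty_iff_false, iff_false]
        exact fun h => hJ s h.1 h.2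
      rw [h1, Cfsg.BNPair.parabolic, Subgroup.closure_empty, sup_bot_eq] at hE
      rw [hE] at hnH
      exact hnB hnH
  · rintro ⟨s, hs, hsn⟩
    have hC : Cfsg.Agent.Lib.BNPair.C P n = Cfsg.Agent.Lib.BNPair.C P s := (Cfsg.Agent.Lib.BNPair.C_eq_of_E hsn).symm
    have hsN := Cfsg.Agent.Lib.BNPair.s_mem_N hs
    have hss : ∀ b ∈ P.B, s * b * s ∈ (P.B : Set G) ∪ Cfsg.Agent.Lib.BNPair.C P s := by
      intro b hb
      rcases P.mul_mem_union s hs s hsN b hb with h | h
      · left
        obtain ⟨x, hx, y, hy, e⟩ := Cfsg.Agent.Lib.BNPair.mem_C.1 h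
        rw [e]
        exact mul_mem (mul_mem hx (Cfsg.Agent.Lib.BNPair.ss_mem_T hs)) hy
      · exact Or.inr h
    refine ⟨{ carrier := (P.B : Set G) ∪ Cfsg.Agent.Lib.BNPair.C P s
              mul_mem' := ?_
              one_mem' := Or.inl (one_mem _)
              inv_mem' := ?_ }, ?_⟩
    · rintro a c (ha | ha) (hc | hc)
      · exact Or.inl (mul_mem ha hc)
      · exact Or.inr (Cfsg.Agent.Lib.BNPair.mul_mem_C_left ha hc)
      · exact Or.inr (Cfsg.Agent.Lib.BNPair.mul_mem_C_right hc ha)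
      · obtain ⟨x, hx, y, hy, rfl⟩ := Cfsg.Agent.Lib.BNPair.mem_C.1 ha
        obtain ⟨u, hu, v, hv, rfl⟩ := Cfsg.Agent.Lib.BNPair.mem_C.1 hc
        have e : x * s * y * (u * s * v) = x * (s * (y * u) * s) * v := by group
        rw [e]
        rcases hss (y * u) (mul_mem hy hu) with h | h
        · exact Or.inl (mul_mem (mul_mem hx h) hv)
        · exact Or.inr (Cfsg.Agent.Lib.BNPair.mul_mem_C_right hv (Cfsg.Agent.Lib.BNPair.mul_mem_C_left hx h))
    · rintro a (ha | ha)
      · exact Or.inl (inv_mem ha)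
      · right
        have h1 := Cfsg.Agent.Lib.BNPair.mem_C_inv ha
        rwa [Cfsg.Agent.Lib.BNPair.C_eq_of_E (Cfsg.Agent.Lib.BNPair.E_inv_s hs)] at h1
    · simp only [Subgroup.coe_set_mk, hC]
      rfl

end Cfsg.Agent.S0321
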