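import Mathlib
import Cfsg.Agent.Lib.BNPair
import Cfsg.Statements.S0322
-- import your own Cfsg.Agent.* helpers here

set_option autoImplicit false
open Cfsg

namespace Cfsg.Agent.S0322

/-- A group with a (B,N)-pair of rank one acts doubly transitively on the left cosets of `B`. -/
theorem result {G : Type*} [Group G] (P : Cfsg.BNPair G) (h : P.rank = 1) : MulAction.IsMultiplyPretransitive G (G ⧸ P.B) 2 := by
  classical
  have hcard : Nat.card P.S = 1 := h
  obtain ⟨hss, ⟨⟨s, hs⟩⟩⟩ := Nat.card_eq_one_iff_unique.1 hcard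
  have hS : ∀ u ∈ P.S, u = s := fun u hu => congrArg Subtype.val (hss.elim ⟨u, hu⟩ ⟨s, hs⟩)
  have hlist : ∀ l : List G, (∀ x ∈ l, x ∈ P.S) → l.prod ∈ P.B ∨ Cfsg.Agent.Lib.BNPair.E P s l.prod := by
    intro l
    induction l with
    | nil => intro _; left; simp [one_mem]
    | cons a l ih =>
      intro hl
      have ha : a = s := hS a (hl a (by simp))
      subst ha
      have hl1 : ∀ x ∈ l, x ∈ P.S := fun x hx => hl x (List.mem_cons_of_mem _ hx)
      rw [List.prod_cons]
      rcases ih hl1 with h1 | h1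
      · right
        have : Cfsg.Agent.Lib.BNPair.E P (a * 1) (a * l.prod) := Cfsg.Agent.Lib.BNPair.E.mul_left a (by simpa [Cfsg.Agent.Lib.BNPair.E] using h1)
        simpa using this
      · left
        have h2 := h1.mul_left a
        have h3 : a⁻¹ * a⁻¹ * (a * l.prod) ∈ P.B := by
          have e : a⁻¹ * a⁻¹ * (a * l.prod) = (a * a)⁻¹ * (a * l.prod) := by group
          rw [e]
          exact h2
        have e2 : a * l.prod = (a * a) * ((a * a)⁻¹ * (a * l.prod)) := by group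
        rw [e2]
        exact mul_mem (Cfsg.Agent.Lib.BNPair.ss_mem_T hs) h2
  have hdec : ∀ g : G, g ∉ P.B → g ∈ Cfsg.Agent.Lib.BNPair.C P s := by
    intro g hg
    obtain ⟨n, hn, h1⟩ := Cfsg.Agent.Lib.BNPair.exists_mem_C (P := P) g
    obtain ⟨l, hl, h2⟩ := Cfsg.Agent.Lib.BNPair.exists_word hn
    rcases hlist l hl with h3 | h3
    · exfalso
      apply hg
      obtain ⟨x, hx, y, hy, rfl⟩ := Cfsg.Agent.Lib.BNPair.mem_C.1 h1
      have hnB : n ∈ P.B := by
        have e : n = l.prod * (l.prod⁻¹ * n) := by group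
        rw [e]
        exact mul_mem h3 h2
      exact mul_mem (mul_mem hx hnB) hy
    · rwa [Cfsg.Agent.Lib.BNPair.C_eq_of_E (h3.trans h2)]
  have hmove : ∀ a b : G ⧸ P.B, a ≠ b →
      ∃ g : G, g • a = ((1 : G) : G ⧸ P.B) ∧ g • b = ((s : G) : G ⧸ P.B) := by
    intro a b hab
    obtain ⟨x, rfl⟩ := QuotientGroup.mk_surjective a
    obtain ⟨y, rfl⟩ := QuotientGroup.mk_surjective b
    have hxy : x⁻¹ * y ∉ P.B := by
      intro h
      exact hab (QuotientGroup.eq.2 h)
    obtain ⟨u, hu, v, hv, e⟩ := Cfsg.Agent.Lib.BNPair.mem_C.1 (hdec _ hxy)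
    refine ⟨u⁻¹ * x⁻¹, ?_, ?_⟩
    · rw [MulAction.Quotient.smul_coe]
      apply QuotientGroup.eq.2
      simp only [smul_eq_mul]
      have e2 : (u⁻¹ * x⁻¹ * x)⁻¹ * 1 = u := by group
      rw [e2]
      exact hu
    · rw [MulAction.Quotient.smul_coe]
      apply QuotientGroup.eq.2
      simp only [smul_eq_mul]
      have e2 : (u⁻¹ * x⁻¹ * y)⁻¹ * s = v⁻¹ := by
        have : y = x * (u * s * v) := by rw [← e]; group
        rw [this]; group
      rw [e2]
      exact inv_mem hv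
  rw [MulAction.is_two_pretransitive_iff]
  intro a b c d hab hcd
  obtain ⟨g₁, h1, h2⟩ := hmove a b hab
  obtain ⟨g₂, h3, h4⟩ := hmove c d hcd
  refine ⟨g₂⁻¹ * g₁, ?_, ?_⟩
  · rw [mul_smul, h1, ← h3, inv_smul_smul]
  · rw [mul_smul, h2, ← h4, inv_smul_smul]

end Cfsg.Agent.S0322
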