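import Mathlib
import Cfsg.Statements.S0323
-- import your own Cfsg.Agent.* helpers here

set_option autoImplicit false
open scoped Pointwise
open Cfsg

namespace Cfsg.Agent.S0323

/-- A doubly transitive action on a set with at least three points yields a (B,N)-pair of rank one:
`B` is the stabiliser of a point `x`, `N` the setwise stabiliser of a pair `{x, y}`. -/
theorem result {G Ω : Type*} [Group G] [MulAction G Ω]
    (h2 : MulAction.IsMultiplyPretransitive G Ω 2) {x y z : Ω} (hxy : x ≠ y) (hyz : y ≠ z) (hxz : x ≠ z) :
    ∃ P : Cfsg.BNPair G, P.B = MulAction.stabilizer G x ∧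
      P.N = MulAction.stabilizer G ({x, y} : Set Ω) ∧ P.rank = 1 := by
  classical
  obtain ⟨s, hsx, hsy⟩ := (MulAction.is_two_pretransitive_iff.1 h2) hxy hxy.symm
  have hmemN : ∀ g : G, g ∈ MulAction.stabilizer G ({x, y} : Set Ω) ↔
      (g • x = x ∧ g • y = y) ∨ (g • x = y ∧ g • y = x) := by
    intro g
    rw [MulAction.mem_stabilizer_iff, Set.smul_set_insert, Set.smul_set_singleton,
      Set.pair_eq_pair_iff]
  have hsN : s ∈ MulAction.stabilizer G ({x, y} : Set Ω) := (hmemN s).2 (Or.inr ⟨hsx, hsy⟩)
  have hT : ∀ t : G, t ∈ MulAction.stabilizer G x → t ∈ MulAction.stabilizer G ({x, y} : Set Ω) →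
      t • x = x ∧ t • y = y := by
    intro t h1 h2
    rcases (hmemN t).1 h2 with h | h
    · exact h
    · exfalso
      have h3 : t • x = x := h1
      rw [h.1] at h3
      exact hxy h3.symm
  have hdec : ∀ g : G, g ∈ MulAction.stabilizer G x ∨
      ∃ h ∈ MulAction.stabilizer G x, ∃ b ∈ MulAction.stabilizer G x, g = h * s * b := by
    intro g
    by_cases hg : g • x = x
    · exact Or.inl hg
    right
    obtain ⟨h, hh1, hh2⟩ := (MulAction.is_two_pretransitive_iff.1 h2) hxy (Ne.symm hg)
    refine ⟨h, hh1, (h * s)⁻¹ * g, ?_, by group⟩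
    rw [MulAction.mem_stabilizer_iff, mul_smul, ← hh2, inv_smul_eq_iff, mul_smul, hsx]
  let P : Cfsg.BNPair G :=
    { B := MulAction.stabilizer G x
      N := MulAction.stabilizer G ({x, y} : Set Ω)
      S := {s}
      sup_eq_top := by
        rw [eq_top_iff]
        intro g _
        rcases hdec g with h | ⟨h, hh, b, hb, rfl⟩
        · exact (le_sup_left : MulAction.stabilizer G x ≤ _) h
        · have h1 := (le_sup_left : MulAction.stabilizer G x ≤ MulAction.stabilizer G x ⊔ MulAction.stabilizer G ({x, y} : Set Ω))
          have h3 := (le_sup_right : MulAction.stabilizer G ({x, y} : Set Ω) ≤ MulAction.stabilizer G x ⊔ MulAction.stabilizer G ({x, y} : Set Ω))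
          exact mul_mem (mul_mem (h1 hh) (h3 hsN)) (h1 hb)
      conj_mem := by
        intro n hn t ht
        obtain ⟨h1, h3⟩ := hT t ht.1 ht.2
        rw [MulAction.mem_stabilizer_iff, mul_smul, mul_smul]
        rcases (hmemN n).1 hn with ⟨h4, h5⟩ | ⟨h4, h5⟩
        · have : n⁻¹ • x = x := by rw [inv_smul_eq_iff, h4]
          rw [this, h1, h4]
        · have : n⁻¹ • x = y := by rw [inv_smul_eq_iff, h5]
          rw [this, h3, h5]
      subset := by
        intro a ha
        obtain rfl : s = a := (Set.mem_singleton_iff.1 ha).symm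
        exact hsN
      sq_mem := by
        intro a ha
        obtain rfl : s = a := (Set.mem_singleton_iff.1 ha).symm
        change s * s ∈ MulAction.stabilizer G x
        rw [MulAction.mem_stabilizer_iff, mul_smul, hsx, hsy]
      inj := by
        intro a ha c hc _
        rw [Set.mem_singleton_iff.1 ha, Set.mem_singleton_iff.1 hc]
      closure_sup := by
        apply le_antisymm
        · refine sup_le ?_ inf_le_right
          rw [Subgroup.closure_le, Set.singleton_subset_iff]
          exact hsN
        · intro n hn
          rcases (hmemN n).1 hn with ⟨h4, h5⟩ | ⟨h4, h5⟩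
          · exact (le_sup_right : _ ≤ Subgroup.closure {s} ⊔ _) ⟨h4, hn⟩
          · have h6 : s * n ∈ MulAction.stabilizer G x ⊓ MulAction.stabilizer G ({x, y} : Set Ω) := by
              refine ⟨(?_ : s * n ∈ MulAction.stabilizer G x), mul_mem hsN hn⟩
              rw [MulAction.mem_stabilizer_iff, mul_smul, h4, hsy]
            have h7 : s ∈ Subgroup.closure ({s} : Set G) := Subgroup.subset_closure rfl
            have e : n = s⁻¹ * (s * n) := by group
            rw [e]
            exact mul_mem ((le_sup_left : _ ≤ Subgroup.closure ({s} : Set G) ⊔ _) (inv_mem h7))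
              ((le_sup_right : _ ≤ Subgroup.closure ({s} : Set G) ⊔ _) h6)
      mul_mem_union := by
        intro a ha n hn b hb
        obtain rfl : s = a := (Set.mem_singleton_iff.1 ha).symm
        rcases (hmemN n).1 hn with ⟨h4, h5⟩ | ⟨h4, h5⟩
        · left
          refine DoubleCoset.mem_doubleCoset.2 ⟨1, one_mem _, n⁻¹ * b * n, ?_, by group⟩
          change n⁻¹ * b * n ∈ MulAction.stabilizer G x
          rw [MulAction.mem_stabilizer_iff, mul_smul, mul_smul, h4, hb, inv_smul_eq_iff, h4]
        · have h6 : s * n ∈ MulAction.stabilizer G x := by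
            rw [MulAction.mem_stabilizer_iff, mul_smul, h4, hsy]
          rcases hdec (s * b * n) with h | ⟨h, hh, c, hc, e⟩
          · left
            refine DoubleCoset.mem_doubleCoset.2 ⟨1, one_mem _, (s * n)⁻¹ * (s * b * n), ?_, by group⟩
            exact mul_mem (inv_mem h6) h
          · right
            refine DoubleCoset.mem_doubleCoset.2 ⟨h, hh, n⁻¹ * s * c, ?_, ?_⟩
            · change n⁻¹ * s * c ∈ MulAction.stabilizer G x
              have h7 : n⁻¹ * s ∈ MulAction.stabilizer G x := by
                rw [MulAction.mem_stabilizer_iff, mul_smul, hsx, inv_smul_eq_iff, h4]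
              exact mul_mem h7 hc
            · rw [e]; group
      conj_ne := by
        intro a ha hcon
        obtain rfl : s = a := (Set.mem_singleton_iff.1 ha).symm
        obtain ⟨b, hb1, hb2⟩ := (MulAction.is_two_pretransitive_iff.1 h2) hxy hxz
        have h3 : s * b * s ∈ ((MulAction.stabilizer G x : Subgroup G) : Set G) := by
          rw [← hcon]
          exact ⟨b, hb1, rfl⟩
        have h4 : (s * b * s) • x = x := h3
        rw [mul_smul, mul_smul, hsx, hb2] at h4
        apply hyz
        rw [← hsy] at h4
        exact (smul_left_cancel s h4).symm }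
  refine ⟨P, rfl, rfl, ?_⟩
  change Nat.card ({s} : Set G) = 1
  simp

end Cfsg.Agent.S0323
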