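import Mathlib
import Cfsg.Prelude.Def_LieExceptional
import Cfsg.Statements.S0326
-- import your own Cfsg.Agent.* helpers here

set_option autoImplicit false
open Cfsg

namespace Cfsg.Agent.S0326

/-- The Suzuki–Tits ovoid over a finite field with `q` elements has `q² + 1` points. -/
theorem result {F : Type*} [Field F] [Fintype F] (m : ℕ) :
    Nat.card (Cfsg.suzukiOvoid F m) = Fintype.card F ^ 2 + 1 := by
  classical
  rw [← Nat.card_eq_fintype_card (α := F)]
  have h1 : Nat.card (Option (F × F)) = Nat.card F ^ 2 + 1 := by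
    rw [Nat.card_eq_fintype_card, Fintype.card_option, Fintype.card_prod, ← Nat.card_eq_fintype_card]
    ring
  rw [← h1]
  symm
  refine Nat.card_congr ?_
  have hne : ∀ x y : F, (![x * y + x ^ (2 ^ (m + 1) + 2) + y ^ (2 ^ (m + 1)), y, x, 1] : Fin 4 → F) ≠ 0 := by
    intro x y h
    have := congrFun h 3
    simp at this
  have hinf : (![1, 0, 0, 0] : Fin 4 → F) ≠ 0 := by
    intro h
    have := congrFun h 0
    simp at this
  refine Equiv.ofBijective
    (fun o ↦ match o with
      | none => ⟨Projectivization.mk F ![1, 0, 0, 0] hinf, ⟨_, hinf, rfl, Or.inl rfl⟩⟩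
      | some p => ⟨Projectivization.mk F _ (hne p.1 p.2), ⟨_, hne p.1 p.2, rfl, Or.inr ⟨p.1, p.2, rfl⟩⟩⟩) ⟨?_, ?_⟩
  · rintro (_ | ⟨x, y⟩) (_ | ⟨x', y'⟩) h
    · rfl
    · exfalso
      have h2 := congrArg Subtype.val h
      simp only at h2
      rw [Projectivization.mk_eq_mk_iff'] at h2
      obtain ⟨a, ha⟩ := h2
      have h3 := congrFun ha 3
      have h4 := congrFun ha 0
      simp at h3
      simp [h3] at h4
    · exfalso
      have h2 := congrArg Subtype.val h
      simp only at h2
      rw [Projectivization.mk_eq_mk_iff'] at h2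
      obtain ⟨a, ha⟩ := h2
      have := congrFun ha 3
      simp at this
    · have h2 := congrArg Subtype.val h
      simp only at h2
      rw [Projectivization.mk_eq_mk_iff'] at h2
      obtain ⟨a, ha⟩ := h2
      have h3 := congrFun ha 3
      have h4 := congrFun ha 2
      have h5 := congrFun ha 1
      simp at h3 h4 h5
      subst h3
      simp at h4 h5
      rw [h4, h5]
  · rintro ⟨p, v, hv, hp, (rfl | ⟨x, y, rfl⟩)⟩
    · exact ⟨none, Subtype.ext hp.symm⟩
    · exact ⟨some (x, y), Subtype.ext hp.symm⟩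

end Cfsg.Agent.S0326
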