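import Cfsg.Agent.Lib.Suzuki4
import Cfsg.Statements.S0330
-- import your own Cfsg.Agent.* helpers here

set_option autoImplicit false
open Cfsg

namespace Cfsg.Agent.S0330

/-- A Sylow 2-subgroup `P` of the Suzuki group (field with `q = 2^(2m+1)` elements, `m ≥ 1`) has order `q²` and
exponent `4`; its centre coincides with its commutator subgroup and has order `q`. -/
theorem result {F : Type*} [Field F] [Fintype F] {m : ℕ} (hm : 1 ≤ m)
    (hF : Fintype.card F = 2 ^ (2 * m + 1)) (P : Sylow 2 (Cfsg.Sz F m)) :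
    Nat.card P = (2 ^ (2 * m + 1)) ^ 2 ∧ Monoid.exponent P = 4 ∧
      Subgroup.center P = commutator P ∧ Nat.card (Subgroup.center P) = 2 ^ (2 * m + 1) := by
  classical
  haveI := Lib.Suzuki.charTwo hF
  have hs := Lib.Suzuki.sqProp (m := m) hF
  have hs₂ : 2 < Fintype.card F := (Nat.le_add_left 2 _).trans_lt (Lib.Suzuki.s_lt hm hF)
  have hS : ((Lib.Suzuki.sylowT hs hm hF : Sylow 2 (Sz F m)) : Subgroup (Sz F m)) = Lib.Suzuki.T hs :=
    Sylow.coe_ofCard _ _
  let e : P ≃* Lib.Suzuki.T hs := (P.equiv (Lib.Suzuki.sylowT hs hm hF)).trans (MulEquiv.subgroupCongr hS)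
  refine ⟨?_, ?_, ?_, ?_⟩
  · rw [Nat.card_congr e.toEquiv, Lib.Suzuki.card_T, hF]
  · rw [Monoid.exponent_eq_of_mulEquiv e, Lib.Suzuki.exponent_T]
  · exact Lib.Suzuki.transfer_center_comm e (by
      rw [Lib.Suzuki.center_eq_Z₀ hs hs₂, Lib.Suzuki.comm_eq_Z₀ hs hs₂])
  · rw [Nat.card_congr (Subgroup.centerCongr e).toEquiv, Lib.Suzuki.center_eq_Z₀ hs hs₂,
      Lib.Suzuki.card_Z₀, hF]

end Cfsg.Agent.S0330
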