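import Cfsg.Agent.Lib.Suzuki3
import Cfsg.Statements.S0334
-- import your own Cfsg.Agent.* helpers here

set_option autoImplicit false
open Cfsg

namespace Cfsg.Agent.S0334


open Cfsg.Agent.Lib.Suzuki
open scoped Matrix MatrixGroups

variable {F : Type*} [Field F] {m : ℕ}

theorem pres_tr [CharP F 2] (a b : F) :
    (trM m a b).transpose * suzukiForm F * (trM m a b) = suzukiForm F := by
  have h2 : (2 : F) = 0 := two_eq
  ext i j
  rw [Matrix.mul_apply, Fin.sum_univ_four]
  simp only [Matrix.mul_apply, Fin.sum_univ_four, Matrix.transpose_apply]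
  fin_cases i <;> fin_cases j <;> simp [trM, suzukiForm]
  · linear_combination a * h2
  · linear_combination (a ^ 2 ^ (m + 1)) * h2
  · linear_combination (b + a ^ 2 ^ (m + 1) * a) * h2
  · linear_combination a * h2
  · linear_combination (b + a ^ 2 ^ (m + 1) * a) * h2
  · linear_combination (a ^ 2 ^ (m + 1) * a ^ 2 + 2 * a * b + b ^ 2 ^ (m + 1)) * h2

theorem pres_dg [CharP F 2] (α : Fˣ) :
    (dgM m α).transpose * suzukiForm F * (dgM m α) = suzukiForm F := by
  have h0 : (α : F) ≠ 0 := α.ne_zero
  have hr : (α : F) ^ (2 ^ m) ≠ 0 := pow_ne_zero _ h0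
  rw [dgM, Matrix.diagonal_transpose]
  ext i j
  rw [Matrix.mul_diagonal, Matrix.diagonal_mul]
  fin_cases i <;> fin_cases j <;> simp [suzukiForm] <;> field_simp

theorem pres_wS :
    (suzukiForm F).transpose * suzukiForm F * (suzukiForm F) = suzukiForm F := by
  ext i j
  simp only [Matrix.mul_apply, Fin.sum_univ_four, Matrix.transpose_apply]
  fin_cases i <;> fin_cases j <;> simp [suzukiForm]

theorem pres_mul {g h : Matrix (Fin 4) (Fin 4) F} (hg : g.transpose * suzukiForm F * g = suzukiForm F)
    (hh : h.transpose * suzukiForm F * h = suzukiForm F) :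
    (g * h).transpose * suzukiForm F * (g * h) = suzukiForm F := by
  rw [Matrix.transpose_mul]
  calc _ = h.transpose * (g.transpose * suzukiForm F * g) * h := by simp only [Matrix.mul_assoc]
    _ = _ := by rw [hg, hh]


/-- Every element of the Suzuki group preserves the alternating form with antidiagonal matrix:
`gᵀ J g = J`. Hence the Suzuki group is a subgroup of a 4-dimensional symplectic group. -/
theorem result {F : Type*} [Field F] [Fintype F] {m : ℕ} (hm : 1 ≤ m)
    (hF : Fintype.card F = 2 ^ (2 * m + 1)) {g : Matrix.SpecialLinearGroup (Fin 4) F}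
    (hg : g ∈ Cfsg.Sz F m) :
    (g : Matrix (Fin 4) (Fin 4) F).transpose * Cfsg.suzukiForm F * (g : Matrix (Fin 4) (Fin 4) F) =
      Cfsg.suzukiForm F := by
  haveI := Cfsg.Agent.Lib.Suzuki.charTwo hF
  rcases decomp (sqProp hF) (four_le hm) (s_lt hm hF) hg with ⟨a, b, α, rfl⟩ | ⟨a, b, c, e, α, rfl⟩
  · exact pres_mul (pres_tr a b) (pres_dg α)
  · exact pres_mul (pres_mul (pres_tr a b) pres_wS) (pres_mul (pres_tr c e) (pres_dg α))

end Cfsg.Agent.S0334
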