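import Cfsg.Agent.Lib.Suzuki3
import Cfsg.Statements.S0335
-- import your own Cfsg.Agent.* helpers here

set_option autoImplicit false
open Cfsg

namespace Cfsg.Agent.S0335


open Cfsg.Agent.Lib.Suzuki
open scoped Matrix MatrixGroups LinearAlgebra.Projectivization

variable {F : Type*} [Field F] {m : ℕ}

/-- The model vectors are independent. -/
theorem model_indep {x y : F} (hxy : ¬ (x = 0 ∧ y = 0)) :
    LinearIndependent F ![(![1, 0, 0, 0] : Fin 4 → F), vP m (0 : F) 0, vP m x y] := by
  rw [Fintype.linearIndependent_iff]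
  intro g hg
  rw [Fin.sum_univ_three] at hg
  have h1 := congrFun hg 1
  have h2 := congrFun hg 2
  have h0 := congrFun hg 0
  have h3 := congrFun hg 3
  simp [vP, fS] at h0 h1 h2 h3
  have hg2 : g 2 = 0 := by
    by_contra hne
    have hy : y = 0 := h1.resolve_left hne
    have hx : x = 0 := h2.resolve_left hne
    exact hxy ⟨hx, hy⟩
  have hg1 : g 1 = 0 := by
    rw [hg2] at h3
    simpa using h3
  have hg0 : g 0 = 0 := by
    rw [hg2] at h0
    simpa using h0
  intro i
  fin_cases i
  · exact hg0
  · exact hg1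
  · exact hg2


/-- The Suzuki–Tits point set is an ovoid: any three distinct points of it are projectively independent
(no line of projective 3-space meets it in more than two points). -/
theorem result {F : Type*} [Field F] [Fintype F] {m : ℕ} (hm : 1 ≤ m)
    (hF : Fintype.card F = 2 ^ (2 * m + 1)) (p : Fin 3 ↪ Cfsg.suzukiOvoid F m) :
    Projectivization.Independent (fun i => (p i : Projectivization F (Fin 4 → F))) := by
  classical
  haveI := Cfsg.Agent.Lib.Suzuki.charTwo hF
  have hs := sqProp (F := F) (m := m) hF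
  have hne : ∀ i j : Fin 3, i ≠ j → (p i).1 ≠ (p j).1 := fun i j hij h ↦ hij (p.injective (Subtype.ext h))
  obtain ⟨g, hg, hg0, hg1⟩ := exists_to_two hs (p 0).2 (p 1).2 (hne 0 1 (by decide))
  have h2 : g • (p 2).1 ∈ suzukiOvoid F m := smul_mem_ovoid hg (p 2).2
  rcases mem_ovoid.1 h2 with h3 | ⟨x, y, h3⟩
  · exfalso
    rw [← hg0] at h3
    exact hne 2 0 (by decide) (smul_left_cancel g h3)
  have hxy : ¬ (x = 0 ∧ y = 0) := by
    rintro ⟨rfl, rfl⟩
    rw [← hg1] at h3
    exact hne 2 1 (by decide) (smul_left_cancel g h3)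
  rw [Projectivization.independent_iff]
  -- the images under `g`
  have hinj : ∀ {v : Fin 4 → F}, v ≠ 0 → g • v ≠ 0 := by
    intro v hv h
    apply hv
    have := congrArg (fun w ↦ g⁻¹ • w) h
    simpa using this
  have hrep : ∀ i : Fin 3, g • (p i).1 = Projectivization.mk F (g • (p i).1.rep) (hinj (p i).1.rep_nonzero) := by
    intro i
    conv_lhs => rw [← Projectivization.mk_rep (p i).1]
    exact smul_mk' g _ _
  let w : Fin 3 → (Fin 4 → F) := ![(![1, 0, 0, 0] : Fin 4 → F), vP m (0 : F) 0, vP m x y]
  have hw : ∀ i : Fin 3, ∃ c : Fˣ, c • w i = g • (p i).1.rep := by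
    intro i
    have hwne : ∀ i, w i ≠ 0 := by
      intro i
      fin_cases i
      · simp [w]
      · exact vP_ne _ _
      · exact vP_ne _ _
    have key : Projectivization.mk F (g • (p i).1.rep) (hinj (p i).1.rep_nonzero) = Projectivization.mk F (w i) (hwne i) := by
      rw [← hrep]
      fin_cases i
      · exact hg0
      · exact hg1
      · exact h3
    exact (Projectivization.mk_eq_mk_iff F _ _ _ _).1 key
  choose c hc using hw
  have h4 : LinearIndependent F (fun i ↦ c i • w i) := (model_indep hxy).units_smul c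
  have h5 : LinearIndependent F (Matrix.mulVecLin (g : Matrix (Fin 4) (Fin 4) F) ∘ (Projectivization.rep ∘ fun i ↦ ((p i : suzukiOvoid F m) : ℙ F (Fin 4 → F)))) := by
    convert h4 using 1
    funext i
    exact (hc i).symm
  exact h5.of_comp _

end Cfsg.Agent.S0335
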