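import Cfsg.Statements.S0362
import Cfsg.Agent.Lib.GolayPerm

set_option autoImplicit false
open Cfsg

namespace Cfsg.Agent.S0362

/-- The length-24 code is self-orthogonal: the dot product over ZMod 2 of any two of its words vanishes (with dimension 12 this makes it self-dual). -/
theorem result (v w : Cfsg.GolayPt → ZMod 2) (hv : v ∈ Cfsg.golayCode) (hw : w ∈ Cfsg.golayCode) : ∑ i, v i * w i = 0 := by
  have hgen : ∀ s ∈ Set.range Cfsg.qrWord ∪ {(1 : Cfsg.GolayPt → ZMod 2)},
      ∀ t ∈ Set.range Cfsg.qrWord ∪ {(1 : Cfsg.GolayPt → ZMod 2)}, ∑ i, s i * t i = 0 := by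
    have h1 : ∀ a b : ZMod 23, ∑ i, Cfsg.qrWord a i * Cfsg.qrWord b i = 0 := by
      decide +kernel
    have h2 : ∀ a : ZMod 23, ∑ i, Cfsg.qrWord a i * (1 : Cfsg.GolayPt → ZMod 2) i = 0 := by
      decide +kernel
    have h3 : ∑ i : Cfsg.GolayPt, (1 : Cfsg.GolayPt → ZMod 2) i * (1 : Cfsg.GolayPt → ZMod 2) i = 0 := by
      decide +kernel
    rintro s (⟨a, rfl⟩ | hs) t (⟨b, rfl⟩ | ht)
    · exact h1 a b
    · have : t = 1 := ht
      subst this
      exact h2 a
    · have : s = 1 := hs
      subst this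
      have := h2 b
      simpa [mul_comm] using this
    · have h4 : s = 1 := hs
      have h5 : t = 1 := ht
      subst h4 h5
      exact h3
  have step1 : ∀ t ∈ Set.range Cfsg.qrWord ∪ {(1 : Cfsg.GolayPt → ZMod 2)}, ∀ v ∈ Cfsg.golayCode,
      ∑ i, v i * t i = 0 := by
    intro t ht v hv
    have hv' : v ∈ Submodule.span (ZMod 2) (Set.range Cfsg.qrWord ∪ {(1 : Cfsg.GolayPt → ZMod 2)}) := hv
    clear hv
    induction hv' using Submodule.span_induction with
    | mem s hs => exact hgen s hs t ht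
    | zero => simp
    | add a b _ _ ha hb =>
      simp only [Pi.add_apply, add_mul, Finset.sum_add_distrib]
      rw [ha, hb]
      simp
    | smul c a _ ha =>
      simp only [Pi.smul_apply, smul_eq_mul, mul_assoc, ← Finset.mul_sum]
      rw [ha, mul_zero]
  have hw' : w ∈ Submodule.span (ZMod 2) (Set.range Cfsg.qrWord ∪ {(1 : Cfsg.GolayPt → ZMod 2)}) := hw
  clear hw
  induction hw' using Submodule.span_induction with
  | mem t ht => exact step1 t ht v hv
  | zero => simp
  | add a b _ _ ha hb =>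
    simp only [Pi.add_apply, mul_add, Finset.sum_add_distrib]
    rw [ha, hb]
    simp
  | smul c a _ ha =>
    simp only [Pi.smul_apply, smul_eq_mul, mul_left_comm _ c, ← Finset.mul_sum]
    rw [ha, mul_zero]

end Cfsg.Agent.S0362
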