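import Cfsg.Statements.S0370
import Cfsg.Agent.Lib.GolayPerm

set_option autoImplicit false
open Cfsg

namespace Cfsg.Agent.S0370

/-- The permutation x ↦ x + 1 of the residues modulo 23, fixing the extra point, lies in the group of the length-24 code. -/
theorem result : Equiv.optionCongr (Equiv.addRight (1 : ZMod 23)) ∈ Cfsg.M24 := by
  have hv : Cfsg.Agent.Lib.GolayPerm.isAut [1, 2, 3, 4, 5, 6, 7, 8, 9, 10, 11, 12, 13, 14, 15, 16, 17, 18, 19, 20, 21, 22, 0, 23] = true := by
    decide +kernel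
  have h := Cfsg.Agent.Lib.GolayPerm.toPerm_mem_M24 hv
  convert h using 1
  ext1 p
  rw [Cfsg.Agent.Lib.GolayPerm.toPerm_apply (Cfsg.Agent.Lib.GolayPerm.isAut_valid hv)]
  revert p
  decide +kernel

end Cfsg.Agent.S0370
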