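import Cfsg.Statements.S0371
import Cfsg.Agent.Lib.GolayPerm

set_option autoImplicit false
open Cfsg

namespace Cfsg.Agent.S0371

/-- Multiplication by a nonzero square residue modulo 23, fixing the extra point, lies in the group of the length-24 code. -/
theorem result (u : (ZMod 23)ˣ) (hu : IsSquare u) : Equiv.optionCongr (Units.mulLeft u) ∈ Cfsg.M24 := by
  open Cfsg.Agent.Lib.GolayPerm Cfsg.Agent.Lib.GolayCode in
  have key : ∀ a : ZMod 23, a ≠ 0 → (∃ r : ZMod 23, a = r * r) →
      isAut ((List.range 23).map (fun x => (a.val * x) % 23) ++ [23]) = true := by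
    decide +kernel
  have key2 : ∀ a : ZMod 23, ∀ p : GolayPt,
      (match p with | none => none | some x => some (a * x)) =
        permFun ((List.range 23).map (fun x => (a.val * x) % 23) ++ [23]) p := by
    decide +kernel
  obtain ⟨v, hv⟩ := hu
  have ha : (u : ZMod 23) ≠ 0 := by
    have : Fact (Nat.Prime 23) := ⟨by norm_num⟩
    exact u.ne_zero
  have hs : ∃ r : ZMod 23, (u : ZMod 23) = r * r := ⟨v, by rw [hv]; simp⟩
  have hk := key _ ha hs
  have h := toPerm_mem_M24 hk
  convert h using 1
  ext1 p
  rw [toPerm_apply (isAut_valid hk), ← key2]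
  cases p with
  | none => rfl
  | some x => rfl

end Cfsg.Agent.S0371
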