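import Cfsg.Statements.S0373
import Cfsg.Agent.Lib.GolayPerm

set_option autoImplicit false
open Cfsg

namespace Cfsg.Agent.S0373

/-- The cube-twist permutation (squares t ↦ t^3/9, non-squares t ↦ 9t^3, extra point fixed) lies in the group of the length-24 code. -/
theorem result : Cfsg.cubeTwist ∈ Cfsg.M24 := by
  have hv : Cfsg.Agent.Lib.GolayPerm.isAut [0, 18, 6, 3, 2, 21, 1, 5, 16, 12, 7, 19, 8, 9, 17, 15, 13, 11, 4, 22, 10, 20, 14, 23] = true := by
    decide +kernel
  have h := Cfsg.Agent.Lib.GolayPerm.toPerm_mem_M24 hv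
  convert h using 1
  ext1 p
  rw [Cfsg.Agent.Lib.GolayPerm.toPerm_apply (Cfsg.Agent.Lib.GolayPerm.isAut_valid hv)]
  change Cfsg.cubeTwistFun p = _
  revert p
  decide +kernel

end Cfsg.Agent.S0373
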