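import Cfsg.Statements.S0374
import Cfsg.Agent.Lib.GolaySLP
import Cfsg.Agent.S0370
import Cfsg.Agent.S0372
import Cfsg.Agent.S0373

set_option autoImplicit false
open Cfsg

namespace Cfsg.Agent.S0374

/-- The group of the length-24 code is generated by x ↦ x+1, x ↦ -1/x and the cube-twist permutation. -/
theorem result : Subgroup.closure {Equiv.optionCongr (Equiv.addRight (1 : ZMod 23)), Cfsg.projInv, Cfsg.cubeTwist} = Cfsg.M24 := by
  apply le_antisymm
  · rw [Subgroup.closure_le]
    intro x hx
    simp only [Set.mem_insert_iff, Set.mem_singleton_iff] at hx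
    rcases hx with rfl | rfl | rfl
    · exact Cfsg.Agent.S0370.result
    · exact Cfsg.Agent.S0372.result
    · exact Cfsg.Agent.S0373.result
  · apply Cfsg.Agent.Lib.GolaySLP.M24_le_closure
    · have hv : Cfsg.Agent.Lib.GolayPerm.isAut Cfsg.Agent.Lib.GolayOrbit.genA = true := by decide +kernel
      have : Cfsg.Agent.Lib.GolayPerm.toPerm Cfsg.Agent.Lib.GolayOrbit.genA = Equiv.optionCongr (Equiv.addRight (1 : ZMod 23)) := by
        ext1 p
        rw [Cfsg.Agent.Lib.GolayPerm.toPerm_apply (Cfsg.Agent.Lib.GolayPerm.isAut_valid hv)]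
        revert p
        decide +kernel
      rw [this]
      exact Subgroup.subset_closure (by simp)
    · have hv : Cfsg.Agent.Lib.GolayPerm.isAut Cfsg.Agent.Lib.GolayOrbit.genC = true := by decide +kernel
      have : Cfsg.Agent.Lib.GolayPerm.toPerm Cfsg.Agent.Lib.GolayOrbit.genC = Cfsg.projInv := by
        ext1 p
        rw [Cfsg.Agent.Lib.GolayPerm.toPerm_apply (Cfsg.Agent.Lib.GolayPerm.isAut_valid hv)]
        revert p
        decide +kernel
      rw [this]
      exact Subgroup.subset_closure (by simp)
    · have hv : Cfsg.Agent.Lib.GolayPerm.isAut Cfsg.Agent.Lib.GolayOrbit.genD = true := by decide +kernel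
      have : Cfsg.Agent.Lib.GolayPerm.toPerm Cfsg.Agent.Lib.GolayOrbit.genD = Cfsg.cubeTwist := by
        ext1 p
        rw [Cfsg.Agent.Lib.GolayPerm.toPerm_apply (Cfsg.Agent.Lib.GolayPerm.isAut_valid hv)]
        change _ = Cfsg.cubeTwistFun p
        revert p
        decide +kernel
      rw [this]
      exact Subgroup.subset_closure (by simp)

end Cfsg.Agent.S0374
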