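import Cfsg.Statements.S0376
import Cfsg.Agent.Lib.GolayTrans

set_option autoImplicit false
open Cfsg

namespace Cfsg.Agent.S0376

/-- A point stabiliser in the group of the length-24 code has order 10200960 = 2^7·3^2·5·7·11·23. -/
theorem result (p : Cfsg.GolayPt) : Nat.card (MulAction.stabilizer Cfsg.M24 p) = 10200960 := by
  have hset : (MulAction.stabilizer Cfsg.M24 p).map Cfsg.M24.subtype =
      Cfsg.M24 ⊓ MulAction.stabilizer (Equiv.Perm Cfsg.GolayPt) p := by
    ext g
    simp only [Subgroup.mem_map, MulAction.mem_stabilizer_iff, Subgroup.mem_inf, Subgroup.coe_subtype]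
    constructor
    · rintro ⟨x, hx, rfl⟩
      exact ⟨x.2, hx⟩
    · rintro ⟨h1, h2⟩
      exact ⟨⟨g, h1⟩, h2, rfl⟩
  rw [Cfsg.Agent.Lib.GolayTrans.card_subgroup_M24, hset, Cfsg.Agent.Lib.GolayTrans.card_stab_one p]

end Cfsg.Agent.S0376
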