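import Cfsg.Statements.S0378
import Cfsg.Agent.Lib.GolayTrans

set_option autoImplicit false
open Cfsg

namespace Cfsg.Agent.S0378

/-- A two-point stabiliser in the group of the length-24 code has order 443520 = 2^7·3^2·5·7·11. -/
theorem result (p q : Cfsg.GolayPt) (hpq : p ≠ q) : Nat.card ↥(MulAction.stabilizer Cfsg.M24 p ⊓ MulAction.stabilizer Cfsg.M24 q) = 443520 := by
  have hset : (MulAction.stabilizer Cfsg.M24 p ⊓ MulAction.stabilizer Cfsg.M24 q).map Cfsg.M24.subtype =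
      Cfsg.M24 ⊓ MulAction.stabilizer (Equiv.Perm Cfsg.GolayPt) p ⊓ MulAction.stabilizer (Equiv.Perm Cfsg.GolayPt) q := by
    ext g
    simp only [Subgroup.mem_map, MulAction.mem_stabilizer_iff, Subgroup.mem_inf, Subgroup.coe_subtype]
    constructor
    · rintro ⟨x, ⟨hx1, hx2⟩, rfl⟩
      exact ⟨⟨x.2, hx1⟩, hx2⟩
    · rintro ⟨⟨h1, h2⟩, h3⟩
      exact ⟨⟨g, h1⟩, ⟨h2, h3⟩, rfl⟩
  rw [Cfsg.Agent.Lib.GolayTrans.card_subgroup_M24, hset, Cfsg.Agent.Lib.GolayTrans.card_stab_two hpq]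

end Cfsg.Agent.S0378
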