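import Cfsg.Statements.S0382
import Cfsg.Agent.Lib.GolayOrbit

set_option autoImplicit false
open scoped Pointwise
open Cfsg

namespace Cfsg.Agent.S0382

/-- A dodecad stabiliser in the group of the length-24 code has order 95040 = 2^6·3^3·5·11. -/
theorem result (d : Finset Cfsg.GolayPt) (hd : d ∈ Cfsg.dodecads) : Nat.card (MulAction.stabilizer Cfsg.M24 d) = 95040 := by
  classical
  have h1 : Nat.card (MulAction.orbit Cfsg.M24 d) = 2576 := by
    have : MulAction.orbit Cfsg.M24 d = Cfsg.dodecads := by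
      ext d'
      constructor
      · rintro ⟨g, rfl⟩
        exact Cfsg.Agent.Lib.GolayPerm.smul_mem_dodecads g.2 hd
      · intro hd'
        obtain ⟨g, hg, h⟩ := Cfsg.Agent.Lib.GolayOrbit.exists_map_dodecad hd hd'
        exact ⟨⟨g, hg⟩, h⟩
    rw [this]
    exact Cfsg.Agent.Lib.GolayFacts.ncard_dodecads
  have h2 := Nat.card_congr (MulAction.orbitProdStabilizerEquivGroup Cfsg.M24 d)
  rw [Nat.card_prod, h1, Cfsg.Agent.Lib.GolayChain.card_M24] at h2
  omega

end Cfsg.Agent.S0382
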