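import Cfsg.Statements.S0385
import Cfsg.Agent.Lib.GolayM12

set_option autoImplicit false
open Cfsg

namespace Cfsg.Agent.S0385

/-- The 6-point intersections of octads with a fixed dodecad form a Steiner system S(5, 6, 12) on the dodecad. -/
theorem result (d : Finset Cfsg.GolayPt) (hd : d ∈ Cfsg.dodecads) : Cfsg.IsSteinerSystem 5 6 {h : Finset {p : Cfsg.GolayPt // p ∈ d} | ∃ o ∈ Cfsg.octads, (o ∩ d).card = 6 ∧ h = Finset.subtype (fun p => p ∈ d) o} := by
  classical
  refine ⟨?_, ?_⟩
  · rintro b ⟨o, ho, h6, rfl⟩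
    rw [Finset.card_subtype, Finset.filter_mem_eq_inter]
    exact h6
  · intro s hs
    let s' : Finset Cfsg.GolayPt := s.map (Function.Embedding.subtype _)
    have hs' : s'.card = 5 := by simp [s', hs]
    obtain ⟨O, ⟨hO, hsO⟩, huniq⟩ := Cfsg.Agent.Lib.GolayFacts.isSteiner.2 s' hs'
    have hsub : s' ⊆ O ∩ d := by
      intro p hp
      obtain ⟨q, hq, rfl⟩ := Finset.mem_map.mp hp
      exact Finset.mem_inter.mpr ⟨hsO hp, q.2⟩
    have h5 := Finset.card_le_card hsub
    rw [hs'] at h5
    have h6 : (O ∩ d).card = 6 := by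
      have := Cfsg.Agent.Lib.GolayM12.card_octad_inter_dodecad hO hd
      omega
    refine ⟨Finset.subtype (fun p => p ∈ d) O, ⟨⟨O, hO, h6, rfl⟩, ?_⟩, ?_⟩
    · intro x hx
      rw [Finset.mem_subtype]
      exact hsO (Finset.mem_map.mpr ⟨x, hx, rfl⟩)
    · rintro b ⟨⟨O', hO', _, rfl⟩, hb⟩
      have : O' = O := by
        apply huniq
        refine ⟨hO', ?_⟩
        intro p hp
        obtain ⟨q, hq, rfl⟩ := Finset.mem_map.mp hp
        have := hb hq
        rw [Finset.mem_subtype] at this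
        exact this
      rw [this]

end Cfsg.Agent.S0385
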