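import Cfsg.Statements.S0389
import Cfsg.Agent.Lib.GolayM12

set_option autoImplicit false
open scoped Pointwise
open Cfsg

namespace Cfsg.Agent.S0389

/-- The stabiliser of a dodecad and a point on it is 3-transitive on the complementary dodecad. -/
theorem result (d : Finset Cfsg.GolayPt) (hd : d ∈ Cfsg.dodecads) (p : Cfsg.GolayPt) (hp : p ∈ d) (x y : Fin 3 ↪ Cfsg.GolayPt) (hx : ∀ i, x i ∉ d) (hy : ∀ i, y i ∉ d) : ∃ g ∈ MulAction.stabilizer Cfsg.M24 d ⊓ MulAction.stabilizer Cfsg.M24 p, ∀ i, (g : Equiv.Perm Cfsg.GolayPt) (x i) = y i := by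
  let x' : ℕ → Cfsg.GolayPt := fun i => if h : i < 3 then x ⟨i, h⟩ else none
  let y' : ℕ → Cfsg.GolayPt := fun i => if h : i < 3 then y ⟨i, h⟩ else none
  obtain ⟨g, hg, hgx⟩ := Cfsg.Agent.Lib.GolayM12.exists_tuple_compl_general hd hp 3 le_rfl x' y'
    (fun a ha => by simp only [x', dif_pos ha]; exact hx _)
    (fun a ha => by simp only [y', dif_pos ha]; exact hy _)
    (fun a ha c hc hac he => by
      simp only [x', dif_pos ha, dif_pos hc] at he
      exact hac (congrArg Fin.val (x.injective he)))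
    (fun a ha c hc hac he => by
      simp only [y', dif_pos ha, dif_pos hc] at he
      exact hac (congrArg Fin.val (y.injective he)))
  obtain ⟨h1, h2, h3⟩ := Cfsg.Agent.Lib.GolayM12.mem_stabSP.mp hg
  refine ⟨⟨g, h1⟩, ⟨h2, h3⟩, ?_⟩
  intro i
  have := hgx i i.2
  simp only [x', y', dif_pos i.2, Fin.eta] at this
  exact this

end Cfsg.Agent.S0389
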