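import Cfsg.Statements.S0445
import Mathlib

set_option autoImplicit false
open Cfsg

namespace Cfsg.Agent.S0445

open Matrix

abbrev Mat5 := Matrix (Fin 5) (Fin 5) (ZMod 2)

def build (b : ZMod 2) (c d : Fin 3 → ZMod 2) (A : Matrix (Fin 3) (Fin 3) (ZMod 2)) : Mat5 :=
  !![1, b, c 0, c 1, c 2; 0, 1, 0, 0, 0; 0, d 0, A 0 0, A 0 1, A 0 2; 0, d 1, A 1 0, A 1 1, A 1 2;
    0, d 2, A 2 0, A 2 1, A 2 2]

theorem det_zero_col {R : Type*} [CommRing R] (M : Matrix (Fin 5) (Fin 5) R) (h1 : M 1 0 = 0)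
    (h2 : M 2 0 = 0) (h3 : M 3 0 = 0) (h4 : M 4 0 = 0) :
    M.det = M 0 0 * (M.submatrix Fin.succ Fin.succ).det := by
  rw [Matrix.det_succ_column_zero, Fin.sum_univ_five]
  rw [h1, h2, h3, h4]
  simp

theorem det_zero_row {R : Type*} [CommRing R] (M : Matrix (Fin 4) (Fin 4) R) (h1 : M 0 1 = 0)
    (h2 : M 0 2 = 0) (h3 : M 0 3 = 0) :
    M.det = M 0 0 * (M.submatrix Fin.succ Fin.succ).det := by
  rw [Matrix.det_succ_row_zero, Fin.sum_univ_four]
  rw [h1, h2, h3]
  simp

theorem det_shape (M : Mat5) (h1 : M 1 0 = 0) (h2 : M 2 0 = 0) (h3 : M 3 0 = 0) (h4 : M 4 0 = 0)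
    (r2 : M 1 2 = 0) (r3 : M 1 3 = 0) (r4 : M 1 4 = 0) :
    M.det = M 0 0 * (M 1 1 * (Matrix.of fun i j : Fin 3 => M i.succ.succ j.succ.succ).det) := by
  rw [det_zero_col M h1 h2 h3 h4, det_zero_row _ r2 r3 r4]
  rfl

theorem det_build (b : ZMod 2) (c d : Fin 3 → ZMod 2) (A : Matrix (Fin 3) (Fin 3) (ZMod 2)) :
    (build b c d A).det = A.det := by
  rw [det_shape _ rfl rfl rfl rfl rfl rfl rfl]
  have e : (Matrix.of fun i j : Fin 3 => (build b c d A) i.succ.succ j.succ.succ) = A := by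
    ext i j
    fin_cases i <;> fin_cases j <;> rfl
  rw [e]
  have h0 : build b c d A 0 0 = 1 := rfl
  have h1 : build b c d A 1 1 = 1 := rfl
  rw [h0, h1, one_mul, one_mul]

theorem comm_build (b : ZMod 2) (c d : Fin 3 → ZMod 2) (A : Matrix (Fin 3) (Fin 3) (ZMod 2)) :
    build b c d A * Matrix.transvection 0 1 1 = Matrix.transvection 0 1 1 * build b c d A := by
  ext i j
  fin_cases i <;> fin_cases j <;>
    simp [build, Matrix.mul_apply, Fin.sum_univ_five, Matrix.transvection, Matrix.single_apply,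
      Matrix.one_apply] <;> ring

theorem zmod2_ne {x : ZMod 2} (h : x ≠ 0) : x = 1 := by
  revert x; decide

theorem shape_of_comm (m : Mat5) (h : m * Matrix.transvection 0 1 1 = Matrix.transvection 0 1 1 * m) :
    m 1 0 = 0 ∧ m 2 0 = 0 ∧ m 3 0 = 0 ∧ m 4 0 = 0 ∧ m 1 2 = 0 ∧ m 1 3 = 0 ∧ m 1 4 = 0 ∧ m 0 0 = m 1 1 := by
  have key : ∀ i j, (m * (Matrix.transvection 0 1 1 : Mat5)) i j = ((Matrix.transvection 0 1 1 : Mat5) * m) i j := by
    intro i j; rw [h]
  have k11 := key 1 1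
  have k21 := key 2 1
  have k31 := key 3 1
  have k41 := key 4 1
  have k02 := key 0 2
  have k03 := key 0 3
  have k04 := key 0 4
  have k01 := key 0 1
  simp [Matrix.mul_apply, Fin.sum_univ_five, Matrix.transvection, Matrix.single_apply,
      Matrix.one_apply] at k11 k21 k31 k41 k02 k03 k04 k01
  refine ⟨k11, k21, k31, k41, k02, k03, k04, ?_⟩
  have h2 : m 0 1 + m 0 0 = m 0 1 + m 1 1 := by rw [← k01]; ring
  exact add_left_cancel h2

/-- In the special linear group of dimension 5 over the field with two elements, the centraliser of a transvection has order 21504 = 2 ^ 7 · 168 (it is an extension of an extraspecial group of order 2 ^ 7 by the simple group of order 168). -/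
theorem result (s : Matrix.SpecialLinearGroup (Fin 5) (ZMod 2)) (hs : (s : Matrix (Fin 5) (Fin 5) (ZMod 2)) = Matrix.transvection 0 1 1) : Nat.card (Subgroup.centralizer ({s} : Set (Matrix.SpecialLinearGroup (Fin 5) (ZMod 2)))) = 21504 := by
  classical
  have hdetA : ∀ A : GL (Fin 3) (ZMod 2), (A : Matrix (Fin 3) (Fin 3) (ZMod 2)).det = 1 := by
    intro A
    apply zmod2_ne
    exact (Matrix.isUnits_det_units A).ne_zero
  have hsm : ((s : Matrix (Fin 5) (Fin 5) (ZMod 2))) = Matrix.transvection 0 1 1 := hs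
  let f : ZMod 2 × (Fin 3 → ZMod 2) × (Fin 3 → ZMod 2) × GL (Fin 3) (ZMod 2) →
      Subgroup.centralizer ({s} : Set (Matrix.SpecialLinearGroup (Fin 5) (ZMod 2))) :=
    fun x => ⟨(⟨build x.1 x.2.1 x.2.2.1 (x.2.2.2 : Matrix (Fin 3) (Fin 3) (ZMod 2)),
      by rw [det_build, hdetA]⟩ : Matrix.SpecialLinearGroup (Fin 5) (ZMod 2)), by
        refine Subgroup.mem_centralizer_iff.2 ?_
        intro h hh
        rw [Set.mem_singleton_iff.1 hh]
        apply Subtype.ext
        show (s : Matrix (Fin 5) (Fin 5) (ZMod 2)) * build _ _ _ _ = build _ _ _ _ * (s : Matrix (Fin 5) (Fin 5) (ZMod 2))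
        rw [hsm, comm_build]⟩
  have hval : ∀ x, (((f x : Matrix.SpecialLinearGroup (Fin 5) (ZMod 2))) : Matrix (Fin 5) (Fin 5) (ZMod 2)) =
      build x.1 x.2.1 x.2.2.1 (x.2.2.2 : Matrix (Fin 3) (Fin 3) (ZMod 2)) := fun _ => rfl
  have hinj : Function.Injective f := by
    rintro ⟨b, c, d, A⟩ ⟨b', c', d', A'⟩ h
    have h1 : build b c d (A : Matrix (Fin 3) (Fin 3) (ZMod 2)) = build b' c' d' (A' : Matrix (Fin 3) (Fin 3) (ZMod 2)) := by
      rw [← hval (b, c, d, A), ← hval (b', c', d', A'), h]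
    have e : ∀ i j, build b c d (A : Matrix (Fin 3) (Fin 3) (ZMod 2)) i j = build b' c' d' (A' : Matrix (Fin 3) (Fin 3) (ZMod 2)) i j := by
      intro i j; rw [h1]
    have hb : b = b' := e 0 1
    have hc : c = c' := by
      funext i
      fin_cases i
      · exact e 0 2
      · exact e 0 3
      · exact e 0 4
    have hd : d = d' := by
      funext i
      fin_cases i
      · exact e 2 1
      · exact e 3 1
      · exact e 4 1
    have hA : A = A' := by
      apply Units.ext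
      ext i j
      fin_cases i <;> fin_cases j
      · exact e 2 2
      · exact e 2 3
      · exact e 2 4
      · exact e 3 2
      · exact e 3 3
      · exact e 3 4
      · exact e 4 2
      · exact e 4 3
      · exact e 4 4
    rw [hb, hc, hd, hA]
  have hsurj : Function.Surjective f := by
    rintro ⟨M, hM⟩
    have hcomm : (M : Matrix (Fin 5) (Fin 5) (ZMod 2)) * Matrix.transvection 0 1 1 = Matrix.transvection 0 1 1 * (M : Matrix (Fin 5) (Fin 5) (ZMod 2)) := by
      have h1 := Subgroup.mem_centralizer_iff.1 hM s rfl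
      have h2 := congrArg (fun z : Matrix.SpecialLinearGroup (Fin 5) (ZMod 2) => (z : Matrix (Fin 5) (Fin 5) (ZMod 2))) h1
      simp only [Matrix.SpecialLinearGroup.coe_mul, hsm] at h2
      exact h2.symm
    obtain ⟨h1, h2, h3, h4, r2, r3, r4, hd⟩ := shape_of_comm _ hcomm
    have hdet := det_shape _ h1 h2 h3 h4 r2 r3 r4
    rw [M.2] at hdet
    have h00 : (M : Matrix (Fin 5) (Fin 5) (ZMod 2)) 0 0 = 1 := by
      apply zmod2_ne
      intro h0
      rw [h0, zero_mul] at hdet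
      exact one_ne_zero hdet
    have h11 : (M : Matrix (Fin 5) (Fin 5) (ZMod 2)) 1 1 = 1 := by rw [← hd, h00]
    rw [h00, h11, one_mul, one_mul] at hdet
    let A₀ : Matrix (Fin 3) (Fin 3) (ZMod 2) := Matrix.of fun i j : Fin 3 => (M : Matrix (Fin 5) (Fin 5) (ZMod 2)) i.succ.succ j.succ.succ
    have hA₀ : A₀.det ≠ 0 := by
      show (Matrix.of fun i j : Fin 3 => (M : Matrix (Fin 5) (Fin 5) (ZMod 2)) i.succ.succ j.succ.succ).det ≠ 0
      rw [← hdet]; exact one_ne_zero
    let A : GL (Fin 3) (ZMod 2) := Matrix.GeneralLinearGroup.mkOfDetNeZero A₀ hA₀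
    refine ⟨((M : Matrix (Fin 5) (Fin 5) (ZMod 2)) 0 1,
      ![(M : Matrix (Fin 5) (Fin 5) (ZMod 2)) 0 2, (M : Matrix (Fin 5) (Fin 5) (ZMod 2)) 0 3, (M : Matrix (Fin 5) (Fin 5) (ZMod 2)) 0 4],
      ![(M : Matrix (Fin 5) (Fin 5) (ZMod 2)) 2 1, (M : Matrix (Fin 5) (Fin 5) (ZMod 2)) 3 1, (M : Matrix (Fin 5) (Fin 5) (ZMod 2)) 4 1], A), ?_⟩
    apply Subtype.ext
    apply Subtype.ext
    rw [hval]
    ext i j
    fin_cases i <;> fin_cases j
    · exact h00.symm
    · rfl
    · rfl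
    · rfl
    · rfl
    · exact h1.symm
    · exact h11.symm
    · exact r2.symm
    · exact r3.symm
    · exact r4.symm
    · exact h2.symm
    · rfl
    · rfl
    · rfl
    · rfl
    · exact h3.symm
    · rfl
    · rfl
    · rfl
    · rfl
    · exact h4.symm
    · rfl
    · rfl
    · rfl
    · rfl
  have hc := Nat.card_congr (Equiv.ofBijective f ⟨hinj, hsurj⟩)
  rw [← hc, Nat.card_prod, Nat.card_prod, Nat.card_prod, Matrix.card_GL_field]
  simp [Fin.prod_univ_three, ZMod.card, Nat.card_eq_fintype_card]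

end Cfsg.Agent.S0445
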