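import Cfsg.Statements.S0493
import Mathlib
import Cfsg.Agent.Lib.SylowCount
import Cfsg.Agent.Lib.CharBurnside

set_option autoImplicit false
open Cfsg

namespace Cfsg.Agent.S0493

open scoped commutatorElement

theorem form (n : ℕ) (hn : 1 ≤ n) (h100 : n ≤ 100) (h60 : n ≠ 60) (h84 : n ≠ 84) (h2 : n % 4 ≠ 2) :
    ∃ p q a b : ℕ, p.Prime ∧ q.Prime ∧ n = p ^ a * q ^ b := by
  interval_cases n
  · exact ⟨2, 3, 0, 0, by norm_num, by norm_num, by norm_num⟩
  · omega
  · exact ⟨3, 2, 1, 0, by norm_num, by norm_num, by norm_num⟩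
  · exact ⟨2, 3, 2, 0, by norm_num, by norm_num, by norm_num⟩
  · exact ⟨5, 2, 1, 0, by norm_num, by norm_num, by norm_num⟩
  · omega
  · exact ⟨7, 2, 1, 0, by norm_num, by norm_num, by norm_num⟩
  · exact ⟨2, 3, 3, 0, by norm_num, by norm_num, by norm_num⟩
  · exact ⟨3, 2, 2, 0, by norm_num, by norm_num, by norm_num⟩
  · omega
  · exact ⟨11, 2, 1, 0, by norm_num, by norm_num, by norm_num⟩
  · exact ⟨2, 3, 2, 1, by norm_num, by norm_num, by norm_num⟩
  · exact ⟨13, 2, 1, 0, by norm_num, by norm_num, by norm_num⟩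
  · omega
  · exact ⟨3, 5, 1, 1, by norm_num, by norm_num, by norm_num⟩
  · exact ⟨2, 3, 4, 0, by norm_num, by norm_num, by norm_num⟩
  · exact ⟨17, 2, 1, 0, by norm_num, by norm_num, by norm_num⟩
  · omega
  · exact ⟨19, 2, 1, 0, by norm_num, by norm_num, by norm_num⟩
  · exact ⟨2, 5, 2, 1, by norm_num, by norm_num, by norm_num⟩
  · exact ⟨3, 7, 1, 1, by norm_num, by norm_num, by norm_num⟩
  · omega
  · exact ⟨23, 2, 1, 0, by norm_num, by norm_num, by norm_num⟩
  · exact ⟨2, 3, 3, 1, by norm_num, by norm_num, by norm_num⟩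
  · exact ⟨5, 2, 2, 0, by norm_num, by norm_num, by norm_num⟩
  · omega
  · exact ⟨3, 2, 3, 0, by norm_num, by norm_num, by norm_num⟩
  · exact ⟨2, 7, 2, 1, by norm_num, by norm_num, by norm_num⟩
  · exact ⟨29, 2, 1, 0, by norm_num, by norm_num, by norm_num⟩
  · omega
  · exact ⟨31, 2, 1, 0, by norm_num, by norm_num, by norm_num⟩
  · exact ⟨2, 3, 5, 0, by norm_num, by norm_num, by norm_num⟩
  · exact ⟨3, 11, 1, 1, by norm_num, by norm_num, by norm_num⟩
  · omega
  · exact ⟨5, 7, 1, 1, by norm_num, by norm_num, by norm_num⟩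
  · exact ⟨2, 3, 2, 2, by norm_num, by norm_num, by norm_num⟩
  · exact ⟨37, 2, 1, 0, by norm_num, by norm_num, by norm_num⟩
  · omega
  · exact ⟨3, 13, 1, 1, by norm_num, by norm_num, by norm_num⟩
  · exact ⟨2, 5, 3, 1, by norm_num, by norm_num, by norm_num⟩
  · exact ⟨41, 2, 1, 0, by norm_num, by norm_num, by norm_num⟩
  · omega
  · exact ⟨43, 2, 1, 0, by norm_num, by norm_num, by norm_num⟩
  · exact ⟨2, 11, 2, 1, by norm_num, by norm_num, by norm_num⟩
  · exact ⟨3, 5, 2, 1, by norm_num, by norm_num, by norm_num⟩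
  · omega
  · exact ⟨47, 2, 1, 0, by norm_num, by norm_num, by norm_num⟩
  · exact ⟨2, 3, 4, 1, by norm_num, by norm_num, by norm_num⟩
  · exact ⟨7, 2, 2, 0, by norm_num, by norm_num, by norm_num⟩
  · omega
  · exact ⟨3, 17, 1, 1, by norm_num, by norm_num, by norm_num⟩
  · exact ⟨2, 13, 2, 1, by norm_num, by norm_num, by norm_num⟩
  · exact ⟨53, 2, 1, 0, by norm_num, by norm_num, by norm_num⟩
  · omega
  · exact ⟨5, 11, 1, 1, by norm_num, by norm_num, by norm_num⟩
  · exact ⟨2, 7, 3, 1, by norm_num, by norm_num, by norm_num⟩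
  · exact ⟨3, 19, 1, 1, by norm_num, by norm_num, by norm_num⟩
  · omega
  · exact ⟨59, 2, 1, 0, by norm_num, by norm_num, by norm_num⟩
  · omega
  · exact ⟨61, 2, 1, 0, by norm_num, by norm_num, by norm_num⟩
  · omega
  · exact ⟨3, 7, 2, 1, by norm_num, by norm_num, by norm_num⟩
  · exact ⟨2, 3, 6, 0, by norm_num, by norm_num, by norm_num⟩
  · exact ⟨5, 13, 1, 1, by norm_num, by norm_num, by norm_num⟩
  · omega
  · exact ⟨67, 2, 1, 0, by norm_num, by norm_num, by norm_num⟩
  · exact ⟨2, 17, 2, 1, by norm_num, by norm_num, by norm_num⟩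
  · exact ⟨3, 23, 1, 1, by norm_num, by norm_num, by norm_num⟩
  · omega
  · exact ⟨71, 2, 1, 0, by norm_num, by norm_num, by norm_num⟩
  · exact ⟨2, 3, 3, 2, by norm_num, by norm_num, by norm_num⟩
  · exact ⟨73, 2, 1, 0, by norm_num, by norm_num, by norm_num⟩
  · omega
  · exact ⟨3, 5, 1, 2, by norm_num, by norm_num, by norm_num⟩
  · exact ⟨2, 19, 2, 1, by norm_num, by norm_num, by norm_num⟩
  · exact ⟨7, 11, 1, 1, by norm_num, by norm_num, by norm_num⟩
  · omega
  · exact ⟨79, 2, 1, 0, by norm_num, by norm_num, by norm_num⟩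
  · exact ⟨2, 5, 4, 1, by norm_num, by norm_num, by norm_num⟩
  · exact ⟨3, 2, 4, 0, by norm_num, by norm_num, by norm_num⟩
  · omega
  · exact ⟨83, 2, 1, 0, by norm_num, by norm_num, by norm_num⟩
  · omega
  · exact ⟨5, 17, 1, 1, by norm_num, by norm_num, by norm_num⟩
  · omega
  · exact ⟨3, 29, 1, 1, by norm_num, by norm_num, by norm_num⟩
  · exact ⟨2, 11, 3, 1, by norm_num, by norm_num, by norm_num⟩
  · exact ⟨89, 2, 1, 0, by norm_num, by norm_num, by norm_num⟩
  · omega
  · exact ⟨7, 13, 1, 1, by norm_num, by norm_num, by norm_num⟩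
  · exact ⟨2, 23, 2, 1, by norm_num, by norm_num, by norm_num⟩
  · exact ⟨3, 31, 1, 1, by norm_num, by norm_num, by norm_num⟩
  · omega
  · exact ⟨5, 19, 1, 1, by norm_num, by norm_num, by norm_num⟩
  · exact ⟨2, 3, 5, 1, by norm_num, by norm_num, by norm_num⟩
  · exact ⟨97, 2, 1, 0, by norm_num, by norm_num, by norm_num⟩
  · omega
  · exact ⟨3, 11, 2, 1, by norm_num, by norm_num, by norm_num⟩
  · exact ⟨2, 5, 2, 2, by norm_num, by norm_num, by norm_num⟩

theorem comm_of_solvable {G : Type*} [Group G] [IsSimpleGroup G] (hs : Group.IsSolvable G) :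
    IsMulCommutative G := by
  have hn : (commutator G).Normal := inferInstance
  rcases hn.eq_bot_or_eq_top with h | h
  · exact ⟨⟨fun a b => by
      have h1 : ⁅a, b⁆ ∈ commutator G := Subgroup.commutator_mem_commutator (Subgroup.mem_top a) (Subgroup.mem_top b)
      rw [h, Subgroup.mem_bot] at h1
      exact commutatorElement_eq_one_iff_mul_comm.1 h1⟩⟩
  · exfalso
    obtain ⟨n, hn⟩ := (Group.isSolvable_def G).1 hs
    have h2 : ∀ k, derivedSeries G k = ⊤ := by
      intro k
      induction k with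
      | zero => rfl
      | succ k ih =>
        rw [derivedSeries_succ, ih]
        exact h
    rw [h2 n] at hn
    exact top_ne_bot hn

theorem no_twice_odd {G : Type*} [Group G] [Finite G] [IsSimpleGroup G] (hG : ¬ IsMulCommutative G)
    (h2 : Nat.card G % 4 = 2) : False := by
  classical
  letI : Fintype G := Fintype.ofFinite G
  have hd : 2 ∣ Nat.card G := by omega
  haveI : Fact (Nat.Prime 2) := ⟨Nat.prime_two⟩
  obtain ⟨t, ht⟩ := exists_prime_orderOf_dvd_card' (G := G) 2 hd
  let f : G →* Equiv.Perm G := MulAction.toPermHom G G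
  have hfinj : Function.Injective f := by
    intro a b hab
    have := congrArg (fun σ : Equiv.Perm G => σ 1) hab
    simpa [f] using this
  have hord : orderOf (f t) = 2 := by
    rw [orderOf_injective f hfinj, ht]
  have hsign := Cfsg.Agent.Lib.SylowCount.sign_of_orderOf_two hord
  have hs1 := Cfsg.Agent.Lib.SylowCount.sign_eq_one_of_simple hG f t
  have hsupp : (f t).support = Finset.univ := by
    ext x
    simp only [Equiv.Perm.mem_support, Finset.mem_univ, iff_true]
    intro h
    have h1 : t * x = x := h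
    have h2 : t = 1 := by simpa using h1
    rw [h2, orderOf_one] at ht
    omega
  rw [hsupp, Finset.card_univ, ← Nat.card_eq_fintype_card, hs1] at hsign
  have hodd : Odd (Nat.card G / 2) := by
    rw [Nat.odd_iff]
    omega
  rw [hodd.neg_one_pow] at hsign
  exact absurd hsign (by decide)

/-- A finite simple group of order at most 100 that is not cyclic has order 60. -/
theorem result {G : Type*} [Group G] [Finite G] [IsSimpleGroup G]
    (hG : ¬ IsCyclic G) (h : Nat.card G ≤ 100) : Nat.card G = 60 := by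
  classical
  have hpos : 1 ≤ Nat.card G := Nat.card_pos
  have hG' : ¬ IsMulCommutative G := by
    intro hc
    apply hG
    have hp := (Group.is_simple_iff_prime_card (α := G)).1 ‹IsSimpleGroup G›
    haveI := Fact.mk hp
    exact isCyclic_of_prime_card rfl
  by_contra h60
  by_cases h2 : Nat.card G % 4 = 2
  · exact no_twice_odd hG' h2
  by_cases h84 : Nat.card G = 84
  · haveI : Fact (Nat.Prime 7) := ⟨by norm_num⟩
    have h7 : (7 : ℕ) ∣ Nat.card G := by rw [h84]; norm_num
    have h1 := Cfsg.Agent.Lib.SylowCount.card_sylow_ne_one_of_simple hG' h7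
    have h3 := Cfsg.Agent.Lib.SylowCount.card_sylow_dvd_cofactor (G := G) (p := 7) 1 12 (by rw [h84]; norm_num) (by norm_num)
    have h4 := card_sylow_modEq_one 7 G
    have h5 : Nat.card (Sylow 7 G) ≤ 12 := Nat.le_of_dvd (by norm_num) h3
    have h6 : Nat.card (Sylow 7 G) % 7 = 1 := h4
    interval_cases hc : Nat.card (Sylow 7 G) <;> omega
  obtain ⟨p, q, a, b, hp, hq, hpq⟩ := form _ hpos h h60 h84 h2
  have hs := Cfsg.Agent.Lib.CharBurnside.solvable_two_prime p q hp hq _ G a b rfl hpq
  exact hG' (comm_of_solvable hs)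

end Cfsg.Agent.S0493
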