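import Cfsg.Statements.S0494
import Mathlib
import Cfsg.Agent.Lib.SylowCount
import Cfsg.Agent.Lib.H6Orb4d

set_option autoImplicit false
open Cfsg

namespace Cfsg.Agent.S0494

theorem count_elts {G : Type*} [Group G] [Finite G] (p : ℕ) [hp : Fact p.Prime] (k : ℕ)
    (hk : ∀ P : Sylow p G, Nat.card P = k)
    (hdis : ∀ P Q : Sylow p G, P ≠ Q → ∀ x : G, x ∈ (P : Subgroup G) → x ∈ (Q : Subgroup G) → x = 1) :
    Nat.card {x : G // x ≠ 1 ∧ ∃ P : Sylow p G, x ∈ (P : Subgroup G)} = Nat.card (Sylow p G) * (k - 1) := by
  classical
  letI : Fintype (Sylow p G) := Fintype.ofFinite _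
  let f : (Σ P : Sylow p G, {x : (P : Subgroup G) // x ≠ 1}) → {x : G // x ≠ 1 ∧ ∃ P : Sylow p G, x ∈ (P : Subgroup G)} :=
    fun a => ⟨(a.2.1 : G), fun h => a.2.2 (Subtype.ext h), a.1, a.2.1.2⟩
  have hf : Function.Bijective f := by
    constructor
    · rintro ⟨P, x, hx⟩ ⟨Q, y, hy⟩ hxy
      have h1 : (x : G) = (y : G) := congrArg Subtype.val hxy
      have hPQ : P = Q := by
        by_contra hne
        apply hx
        apply Subtype.ext
        exact hdis P Q hne x x.2 (h1 ▸ y.2)
      subst hPQ
      have h2 : x = y := Subtype.ext h1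
      subst h2
      rfl
    · rintro ⟨x, hx, P, hP⟩
      exact ⟨⟨P, ⟨x, hP⟩, fun h => hx (congrArg Subtype.val h)⟩, rfl⟩
  rw [← Nat.card_congr (Equiv.ofBijective f hf), Nat.card_sigma]
  have hcard : ∀ P : Sylow p G, Nat.card {x : (P : Subgroup G) // x ≠ 1} = k - 1 := by
    intro P
    rw [← hk P]
    letI : Fintype (P : Subgroup G) := Fintype.ofFinite _
    rw [Nat.card_eq_fintype_card, Nat.card_eq_fintype_card, Fintype.card_subtype_compl, Fintype.card_subtype_eq]
  simp only [hcard, Finset.sum_const, Finset.card_univ, smul_eq_mul, Nat.card_eq_fintype_card]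

/-- A simple group of order 60 is isomorphic to the alternating group of degree 5. -/
theorem result {G : Type*} [Group G] [Finite G] [IsSimpleGroup G]
    (h : Nat.card G = 60) : Nonempty (G ≃* alternatingGroup (Fin 5)) := by
  classical
  have hG : ¬ IsMulCommutative G := by
    intro hc
    have hp := (Group.is_simple_iff_prime_card (α := G)).1 ‹IsSimpleGroup G›
    rw [h] at hp
    norm_num at hp
  haveI h2f : Fact (Nat.Prime 2) := ⟨Nat.prime_two⟩
  haveI h5f : Fact (Nat.Prime 5) := ⟨by norm_num⟩
  have hd2 := Cfsg.Agent.Lib.SylowCount.card_sylow_dvd_cofactor (G := G) (p := 2) 2 15 (by rw [h]; norm_num) (by norm_num)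
  have hne2 := Cfsg.Agent.Lib.SylowCount.card_sylow_ne_one_of_simple hG (p := 2) (G := G) (by rw [h]; norm_num)
  have hmod2 := Cfsg.Agent.Lib.SylowCount.card_sylow_mod (G := G) 2
  have hlast : ∀ H : Subgroup G, H.index = 5 → Nonempty (G ≃* alternatingGroup (Fin 5)) := by
    intro H hH
    have hHne : H ≠ ⊤ := by
      rintro rfl
      simp at hH
    obtain ⟨f, hf⟩ := Cfsg.Agent.Lib.SylowCount.exists_injective_alternating hG H hHne
    have hgen : ∀ n : ℕ, n = 5 → (∃ f : G →* ↥(alternatingGroup (Fin n)), Function.Injective f) →
        ∃ f : G →* ↥(alternatingGroup (Fin 5)), Function.Injective f := by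
      rintro n rfl hex
      exact hex
    obtain ⟨g, hg⟩ := hgen _ hH ⟨f, hf⟩
    have hc5 : Nat.card (alternatingGroup (Fin 5)) = 60 := by
      rw [nat_card_alternatingGroup, Nat.card_fin]
      norm_num [Nat.factorial]
    have hbij : Function.Bijective g := by
      rw [Nat.bijective_iff_injective_and_card]
      exact ⟨hg, h.trans hc5.symm⟩
    exact ⟨MulEquiv.ofBijective g hbij⟩
  have h15 : Nat.card (Sylow 2 G) ≤ 15 := Nat.le_of_dvd (by norm_num) hd2
  have hcases : Nat.card (Sylow 2 G) = 3 ∨ Nat.card (Sylow 2 G) = 5 ∨ Nat.card (Sylow 2 G) = 15 := by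
    interval_cases hc : Nat.card (Sylow 2 G) <;> first | omega | simp | skip
  obtain ⟨P₀⟩ : Nonempty (Sylow 2 G) := inferInstance
  rcases hcases with h3 | h5 | h15'
  · -- index three
    exfalso
    have hN : (Subgroup.normalizer ((P₀ : Subgroup G) : Set G)).index = 3 := by
      have := Sylow.card_eq_index_normalizer P₀
      rw [h3] at this
      exact this.symm
    have hne : Subgroup.normalizer ((P₀ : Subgroup G) : Set G) ≠ ⊤ := by
      intro htop
      rw [htop] at hN
      simp at hN
    have := Cfsg.Agent.Lib.SylowCount.two_mul_card_dvd_factorial hG _ hne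
    rw [hN, h] at this
    norm_num [Nat.factorial] at this
  · exact Cfsg.Agent.Lib.H6Orb4.iso_A5 ‹IsSimpleGroup G› h h5
  · -- fifteen Sylow subgroups
    have hcard2 : ∀ P : Sylow 2 G, Nat.card P = 4 := fun P => by
      have := Cfsg.Agent.Lib.SylowCount.card_sylow_of_factor P 2 15 (by rw [h]; norm_num) (by norm_num)
      simpa using this
    by_cases hdis : ∀ P Q : Sylow 2 G, P ≠ Q → ∀ x : G, x ∈ (P : Subgroup G) → x ∈ (Q : Subgroup G) → x = 1
    · exfalso
      have hc2 := count_elts 2 4 hcard2 hdis
      rw [h15'] at hc2
      -- the Sylow 5 count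
      have hd5 := Cfsg.Agent.Lib.SylowCount.card_sylow_dvd_cofactor (G := G) (p := 5) 1 12 (by rw [h]; norm_num) (by norm_num)
      have hne5 := Cfsg.Agent.Lib.SylowCount.card_sylow_ne_one_of_simple hG (p := 5) (G := G) (by rw [h]; norm_num)
      have hmod5 := Cfsg.Agent.Lib.SylowCount.card_sylow_mod (G := G) 5
      have h12 : Nat.card (Sylow 5 G) ≤ 12 := Nat.le_of_dvd (by norm_num) hd5
      have hn5 : Nat.card (Sylow 5 G) = 6 := by
        interval_cases hc : Nat.card (Sylow 5 G) <;> first | omega | simp | skip
      have hcard5 : ∀ P : Sylow 5 G, Nat.card P = 5 := fun P => by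
        have := Cfsg.Agent.Lib.SylowCount.card_sylow_of_factor P 1 12 (by rw [h]; norm_num) (by norm_num)
        simpa using this
      have hdis5 : ∀ P Q : Sylow 5 G, P ≠ Q → ∀ x : G, x ∈ (P : Subgroup G) → x ∈ (Q : Subgroup G) → x = 1 := by
        intro P Q hPQ x hxP hxQ
        by_contra hx1
        apply hPQ
        haveI : Fact (Nat.card P).Prime := ⟨by rw [hcard5 P]; norm_num⟩
        -- `x` generates both
        have hz : Subgroup.zpowers x = (P : Subgroup G) := by
          apply Subgroup.eq_of_le_of_card_ge (Subgroup.zpowers_le.2 hxP)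
          rw [hcard5 P, Nat.card_zpowers]
          have h1 : orderOf x ∣ 5 := by
            have h2 := Subgroup.orderOf_dvd_natCard (P : Subgroup G) hxP
            rwa [hcard5 P] at h2
          rcases (Nat.dvd_prime (by norm_num)).1 h1 with h3 | h3
          · exact absurd (orderOf_eq_one_iff.1 h3) hx1
          · omega
        have hz' : Subgroup.zpowers x = (Q : Subgroup G) := by
          apply Subgroup.eq_of_le_of_card_ge (Subgroup.zpowers_le.2 hxQ)
          rw [hcard5 Q, Nat.card_zpowers]
          have h1 : orderOf x ∣ 5 := by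
            have h2 := Subgroup.orderOf_dvd_natCard (P : Subgroup G) hxP
            rwa [hcard5 P] at h2
          rcases (Nat.dvd_prime (by norm_num)).1 h1 with h3 | h3
          · exact absurd (orderOf_eq_one_iff.1 h3) hx1
          · omega
        exact Sylow.ext (hz.symm.trans hz')
      have hc5 := count_elts 5 5 hcard5 hdis5
      rw [hn5] at hc5
      -- union inside `G`
      let f : ({x : G // x ≠ 1 ∧ ∃ P : Sylow 2 G, x ∈ (P : Subgroup G)} ⊕ {x : G // x ≠ 1 ∧ ∃ P : Sylow 5 G, x ∈ (P : Subgroup G)})
          → {x : G // x ≠ 1} := Sum.elim (fun a => ⟨a.1, a.2.1⟩) (fun a => ⟨a.1, a.2.1⟩)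
      have hf : Function.Injective f := by
        rintro (⟨x, hx, P, hP⟩ | ⟨x, hx, P, hP⟩) (⟨y, hy, Q, hQ⟩ | ⟨y, hy, Q, hQ⟩) hxy
        · have : x = y := congrArg Subtype.val hxy
          subst this
          rfl
        · exfalso
          have hxy' : x = y := congrArg Subtype.val hxy
          subst hxy'
          have h1 : orderOf x ∣ 4 := by
            have h2 := Subgroup.orderOf_dvd_natCard (P : Subgroup G) hP
            rwa [hcard2 P] at h2
          have h2 : orderOf x ∣ 5 := by
            have h2 := Subgroup.orderOf_dvd_natCard (Q : Subgroup G) hQ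
            rwa [hcard5 Q] at h2
          have h3 : orderOf x ∣ 1 := by
            have := Nat.dvd_gcd h1 h2
            simpa using this
          exact hx (orderOf_eq_one_iff.1 (Nat.dvd_one.1 h3))
        · exfalso
          have hxy' : x = y := congrArg Subtype.val hxy
          subst hxy'
          have h1 : orderOf x ∣ 5 := by
            have h2 := Subgroup.orderOf_dvd_natCard (P : Subgroup G) hP
            rwa [hcard5 P] at h2
          have h2 : orderOf x ∣ 4 := by
            have h2 := Subgroup.orderOf_dvd_natCard (Q : Subgroup G) hQ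
            rwa [hcard2 Q] at h2
          have h3 : orderOf x ∣ 1 := by
            have := Nat.dvd_gcd h1 h2
            simpa using this
          exact hx (orderOf_eq_one_iff.1 (Nat.dvd_one.1 h3))
        · have : x = y := congrArg Subtype.val hxy
          subst this
          rfl
      have hle := Nat.card_le_card_of_injective f hf
      rw [Nat.card_sum, hc2, hc5] at hle
      have hc1 : Nat.card {x : G // x ≠ 1} = 59 := by
        letI : Fintype G := Fintype.ofFinite G
        rw [Nat.card_eq_fintype_card, Fintype.card_subtype_compl, Fintype.card_subtype_eq,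
          ← Nat.card_eq_fintype_card, h]
      rw [hc1] at hle
      omega
    · push Not at hdis
      obtain ⟨P, Q, hPQ, x, hxP, hxQ, hx1⟩ := hdis
      let C := Subgroup.centralizer ({x} : Set G)
      have habel : ∀ R : Sylow 2 G, x ∈ (R : Subgroup G) → (R : Subgroup G) ≤ C := by
        intro R hxR y hy
        have h4 : Nat.card R = 2 ^ 2 := by rw [hcard2 R]; norm_num
        have hcomm := IsPGroup.isMulCommutative_of_card_eq_prime_sq h4
        have := hcomm.is_comm.comm ⟨y, hy⟩ ⟨x, hxR⟩
        rw [Subgroup.mem_centralizer_iff]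
        rintro w (rfl : w = x)
        exact (congrArg Subtype.val this).symm
      have hPC := habel P hxP
      have hQC := habel Q hxQ
      have h4C : 4 ∣ Nat.card C := by
        have := Subgroup.card_dvd_of_le hPC
        rwa [hcard2 P] at this
      have hC60 : Nat.card C ∣ 60 := by
        have := Subgroup.card_subgroup_dvd_card C
        rwa [h] at this
      have hCne4 : Nat.card C ≠ 4 := by
        intro h4
        apply hPQ
        have e1 : (P : Subgroup G) = C :=
          Subgroup.eq_of_le_of_card_ge hPC (by rw [h4, hcard2 P])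
        have e2 : (Q : Subgroup G) = C :=
          Subgroup.eq_of_le_of_card_ge hQC (by rw [h4, hcard2 Q])
        exact Sylow.ext (e1.trans e2.symm)
      have hidx : Nat.card C * C.index = 60 := by
        rw [Subgroup.card_mul_index, h]
      have hC : Nat.card C = 12 ∨ Nat.card C = 20 ∨ Nat.card C = 60 := by
        obtain ⟨k, hk⟩ := h4C
        obtain ⟨m, hm⟩ := hC60
        rw [hk] at hm hCne4
        have hk15 : k ≤ 15 := by
          by_contra hcon
          have : 4 * 16 ≤ 4 * k := by omega
          have hm0 : 1 ≤ m := by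
            rcases Nat.eq_zero_or_pos m with rfl | h
            · simp at hm
            · exact h
          nlinarith
        rw [hk]
        interval_cases k <;> first | omega | skip
      rcases hC with h12 | h20 | h60
      · apply hlast C
        rw [h12] at hidx
        omega
      · exfalso
        rw [h20] at hidx
        have hi3 : C.index = 3 := by omega
        have hCne : C ≠ ⊤ := by
          intro htop
          rw [htop] at hi3
          simp at hi3
        have := Cfsg.Agent.Lib.SylowCount.two_mul_card_dvd_factorial hG _ hCne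
        rw [hi3, h] at this
        norm_num [Nat.factorial] at this
      · exfalso
        have htop : C = ⊤ := by
          apply Subgroup.eq_top_of_card_eq
          rw [h60, h]
        have hxc : x ∈ Subgroup.center G := by
          rw [Subgroup.mem_center_iff]
          intro g
          have hg : g ∈ C := by rw [htop]; trivial
          exact (Subgroup.mem_centralizer_iff.1 hg x rfl).symm
        rcases (inferInstance : (Subgroup.center G).Normal).eq_bot_or_eq_top with h0 | h0
        · rw [h0, Subgroup.mem_bot] at hxc
          exact hx1 hxc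
        · apply hG
          exact ⟨⟨fun a b => by
            have : b ∈ Subgroup.center G := by rw [h0]; trivial
            exact (Subgroup.mem_center_iff.1 this a)⟩⟩

end Cfsg.Agent.S0494
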