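import Cfsg.Statements.S0499
import Mathlib
import Cfsg.Agent.Lib.PNilpB

set_option autoImplicit false
open Cfsg

namespace Cfsg.Agent.S0499

theorem modEq_cases (r k j : ℕ) (hr : r.Prime) (hr2 : r ≠ 2) (hj : j < k) (hk : k ≤ 3)
    (h : 2 ^ k ≡ 2 ^ j [MOD r]) : (r = 3 ∧ 2 ≤ k) ∨ (r = 7 ∧ k = 3) := by
  have h1 : r ∣ 2 ^ k - 2 ^ j := (Nat.modEq_iff_dvd' (Nat.pow_le_pow_right (by norm_num) hj.le)).1 h.symm
  have hcases : (k = 1 ∧ j = 0) ∨ (k = 2 ∧ j = 0) ∨ (k = 2 ∧ j = 1) ∨ (k = 3 ∧ j = 0) ∨ (k = 3 ∧ j = 1) ∨ (k = 3 ∧ j = 2) := by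
    omega
  rcases hcases with ⟨rfl, rfl⟩ | ⟨rfl, rfl⟩ | ⟨rfl, rfl⟩ | ⟨rfl, rfl⟩ | ⟨rfl, rfl⟩ | ⟨rfl, rfl⟩
  · norm_num at h1
    exact absurd h1 hr.one_lt.ne'
  · norm_num at h1
    left
    exact ⟨(Nat.prime_dvd_prime_iff_eq hr Nat.prime_three).1 h1, le_rfl⟩
  · norm_num at h1
    exact absurd ((Nat.prime_dvd_prime_iff_eq hr Nat.prime_two).1 h1) hr2
  · norm_num at h1
    right
    exact ⟨(Nat.prime_dvd_prime_iff_eq hr (by norm_num)).1 h1, rfl⟩
  · norm_num at h1
    left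
    have h6 : r ∣ 2 * 3 := h1
    rcases (Nat.Prime.dvd_mul hr).1 h6 with h | h
    · exact absurd ((Nat.prime_dvd_prime_iff_eq hr Nat.prime_two).1 h) hr2
    · exact ⟨(Nat.prime_dvd_prime_iff_eq hr Nat.prime_three).1 h, by norm_num⟩
  · norm_num at h1
    have h6 : r ∣ 2 ^ 2 := h1
    exact absurd ((Nat.prime_dvd_prime_iff_eq hr Nat.prime_two).1 (hr.dvd_of_dvd_pow h6)) hr2

/-- A non-abelian finite simple group of even order has order divisible by 12, 16 or 56. -/
theorem result {G : Type*} [Group G] [Finite G] [IsSimpleGroup G]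
    (hG : ¬ IsMulCommutative G) (h2 : Even (Nat.card G)) :
    12 ∣ Nat.card G ∨ 16 ∣ Nat.card G ∨ 56 ∣ Nat.card G := by
  classical
  by_contra hcon
  push Not at hcon
  obtain ⟨h12, h16, h56⟩ := hcon
  haveI : Fact (Nat.Prime 2) := ⟨Nat.prime_two⟩
  have hnpc : Cfsg.HasNormalPComplement 2 G := by
    refine Cfsg.Agent.Lib.PNilpB.frob2 fun Q hQ y hy hyc => ?_
    by_contra hyC
    obtain ⟨k, hk⟩ := IsPGroup.iff_card.1 hQ
    have hQdvd : Nat.card Q ∣ Nat.card G := Subgroup.card_subgroup_dvd_card Q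
    have hk3 : k ≤ 3 := by
      by_contra hk4
      push Not at hk4
      apply h16
      have h2k : 2 ^ 4 ∣ 2 ^ k := pow_dvd_pow 2 hk4
      rw [← hk] at h2k
      exact h2k.trans hQdvd
    let φ := Q.normalizerMonoidHom
    let z := φ ⟨y, hy⟩
    have hz1 : z ≠ 1 := by
      intro h
      apply hyC
      have h1 : (⟨y, hy⟩ : Subgroup.normalizer (Q : Set G)) ∈ φ.ker := h
      rw [Subgroup.normalizerMonoidHom_ker, Subgroup.mem_subgroupOf] at h1
      exact h1
    have hzo : orderOf z ∣ orderOf y := by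
      have h1 := orderOf_map_dvd φ ⟨y, hy⟩
      rwa [Subgroup.orderOf_mk] at h1
    have hzo1 : orderOf z ≠ 1 := fun h => hz1 (orderOf_eq_one_iff.1 h)
    obtain ⟨r, hr, hrz⟩ := Nat.exists_prime_and_dvd hzo1
    haveI : Fact r.Prime := ⟨hr⟩
    have hzo0 : orderOf z ≠ 0 := (orderOf_pos z).ne'
    have hz₁ : orderOf (z ^ (orderOf z / r)) = r := orderOf_pow_orderOf_div hzo0 hrz
    obtain ⟨z₁, hz₁e⟩ : ∃ z₁, z₁ = z ^ (orderOf z / r) := ⟨_, rfl⟩
    rw [← hz₁e] at hz₁
    have hrG : r ∣ Nat.card G := (hrz.trans hzo).trans (orderOf_dvd_natCard y)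
    have hr2 : r ≠ 2 := by
      rintro rfl
      have h1 : 2 ∣ orderOf y := hrz.trans hzo
      have h2 := Nat.Coprime.eq_one_of_dvd hyc.symm h1
      norm_num at h2
    haveI : Fintype Q := Fintype.ofFinite Q
    let f : Function.End Q := ⇑z₁
    have hf : f ^ r ^ 1 = 1 := by
      have h1 : z₁ ^ r = 1 := hz₁ ▸ pow_orderOf_eq_one z₁
      have h2 : ∀ n : ℕ, f ^ n = ⇑(z₁ ^ n) := by
        intro n
        induction n with
        | zero => rfl
        | succ n ih =>
          rw [pow_succ, ih, pow_succ]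
          rfl
      rw [pow_one, h2, h1]
      rfl
    have hmod := Equiv.Perm.card_fixedPoints_modEq (p := r) (n := 1) hf
    -- the fixed subgroup
    let F : Subgroup Q := MonoidHom.eqLocus (z₁ : Q →* Q) (MonoidHom.id Q)
    have hF : Nat.card F = Fintype.card f.fixedPoints := by
      rw [← Nat.card_eq_fintype_card]
      exact Nat.card_congr (Equiv.subtypeEquivRight (fun q => Iff.rfl))
    have hFd : Nat.card F ∣ 2 ^ k := hk ▸ Subgroup.card_subgroup_dvd_card F
    obtain ⟨j, hjk, hj⟩ := (Nat.dvd_prime_pow Nat.prime_two).1 hFd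
    have hjne : j ≠ k := by
      rintro rfl
      have htop : F = ⊤ := by
        apply (Subgroup.card_eq_iff_eq_top F).1
        rw [hj, hk]
      have : z₁ = 1 := by
        ext q
        have h1 : q ∈ F := by rw [htop]; trivial
        exact congrArg Subtype.val h1
      rw [this, orderOf_one] at hz₁
      exact hr.one_lt.ne hz₁
    rw [← hF, hj, ← Nat.card_eq_fintype_card, hk] at hmod
    rcases modEq_cases r k j hr hr2 (lt_of_le_of_ne hjk hjne) hk3 hmod with ⟨rfl, h⟩ | ⟨rfl, rfl⟩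
    · apply h12
      have h4 : 2 ^ 2 ∣ Nat.card G := by
        have h2k : 2 ^ 2 ∣ 2 ^ k := pow_dvd_pow 2 h
        rw [← hk] at h2k
        exact h2k.trans hQdvd
      have : 12 = 2 ^ 2 * 3 := by norm_num
      rw [this]
      exact Nat.Coprime.mul_dvd_of_dvd_of_dvd (by norm_num) h4 hrG
    · apply h56
      have h8 : 2 ^ 3 ∣ Nat.card G := by
        rw [← hk]; exact hQdvd
      have : 56 = 2 ^ 3 * 7 := by norm_num
      rw [this]
      exact Nat.Coprime.mul_dvd_of_dvd_of_dvd (by norm_num) h8 hrG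
  rw [Cfsg.Agent.Lib.PNilp.npc_iff] at hnpc
  obtain ⟨N, hN, hNp, hpow⟩ := hnpc
  rcases IsSimpleGroup.eq_bot_or_eq_top_of_normal N hN with rfl | rfl
  · have h2G : IsPGroup 2 G := by
      intro g
      obtain ⟨k, hk⟩ := hpow g
      exact ⟨k, Subgroup.mem_bot.1 hk⟩
    have hc := h2G.center_nontrivial
    have hct : Subgroup.center G = ⊤ := by
      rcases IsSimpleGroup.eq_bot_or_eq_top_of_normal (Subgroup.center G) inferInstance with h | h
      · exact absurd h ((Subgroup.nontrivial_iff_ne_bot _).1 hc)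
      · exact h
    apply hG
    refine ⟨⟨fun a b => ?_⟩⟩
    have := Subgroup.mem_center_iff.1 (hct ▸ Subgroup.mem_top a : a ∈ Subgroup.center G) b
    exact this.symm
  · apply hNp
    rw [Subgroup.card_top]
    exact h2.two_dvd

end Cfsg.Agent.S0499
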