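import Cfsg.Statements.S0502
import Cfsg.Agent.Lib.PGroupBasic
import Cfsg.Agent.Lib.H2Basic

set_option autoImplicit false
set_option linter.all false
open Cfsg

namespace Cfsg.Agent.S0502


open Cfsg Cfsg.Agent.Lib Cfsg.Agent.Lib.H2Basic Relation

theorem exists_two_ne' {G : Type*} [Group G] {V : Subgroup G} (hV : IsKleinFour V) :
    ∃ x ∈ V, ∃ y ∈ V, x ≠ 1 ∧ y ≠ 1 ∧ x ≠ y := by
  classical
  have hc := hV.card_four
  have h1 : ∃ x ∈ V, x ≠ 1 := by
    by_contra hcon
    push Not at hcon
    have := card_subgroup_le_of_subset V ({1} : Finset G) (fun g hg => by simp [hcon g hg])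
    rw [Finset.card_singleton] at this
    omega
  obtain ⟨x, hx, hx1⟩ := h1
  have h3 : ∃ y ∈ V, y ≠ 1 ∧ x ≠ y := by
    by_contra hcon
    push Not at hcon
    have := card_subgroup_le_of_subset V ({1, x} : Finset G) (fun g hg => by
      by_cases hg1 : g = 1
      · simp [hg1]
      · simp [(hcon g hg hg1).symm])
    have h4 := Finset.card_le_two (a := (1 : G)) (b := x)
    omega
  obtain ⟨y, hy, hy1, hxy⟩ := h3
  exact ⟨x, hx, y, hy, hx1, hy1, hxy⟩


/-- If a finite 2-group has a normal elementary abelian subgroup of order at least 8, then any two of its Klein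
four-subgroups are joined by a chain of Klein four-subgroups with consecutive members commuting elementwise. -/
theorem result {P : Type*} [Group P] [Finite P] (hP : IsPGroup 2 P)
    (E : Subgroup P) [E.Normal] (hE : IsMulCommutative E) (hE2 : ∀ e ∈ E, e ^ 2 = 1) (hE8 : 8 ≤ Nat.card E) :
    Cfsg.IsFourConnected P := by
  classical
  have hEcomm : ∀ a ∈ E, ∀ b ∈ E, a * b = b * a := by
    intro a ha b hb
    have := hE.is_comm.comm (⟨a, ha⟩ : E) ⟨b, hb⟩
    exact congrArg Subtype.val this
  have hEsq : ∀ e ∈ E, e * e = 1 := fun e he => by rw [← pow_two]; exact hE2 e he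
  have hEne : E ≠ ⊥ := by
    intro h
    rw [h] at hE8
    simp at hE8
  obtain ⟨z, hzE, hz1, hzc⟩ := PGroupBasic.exists_ne_one_mem_center_of_normal hP E hEne
  have hzcomm : ∀ g : P, g * z = z * g := fun g => (Subgroup.mem_center_iff.mp hzc g)
  have hzsq : z * z = 1 := hEsq z hzE
  -- the key element
  have key : ∀ t : P, t * t = 1 → ∃ a ∈ E, a ≠ 1 ∧ a ≠ z ∧ a * t = t * a := by
    intro t ht
    by_contra hno
    push Not at hno
    have hti : t⁻¹ = t := inv_eq_of_mul_eq_one_left ht
    have hn : ∀ e ∈ E, t * e * t ∈ E := by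
      intro e he
      have := Subgroup.Normal.conj_mem (inferInstance : E.Normal) e he t
      rwa [hti] at this
    have hcm : ∀ x : P, t * x * t = x → x * t = t * x := by
      intro x hx
      calc x * t = (t * x * t) * t := by rw [hx]
        _ = t * x * (t * t) := by group
        _ = t * x := by rw [ht, mul_one]
    have hphi : ∀ e ∈ E, e ≠ 1 → e ≠ z → t * e * t = e * z := by
      intro e he he1 hez
      have h1 : e * (t * e * t) ∈ E := E.mul_mem he (hn e he)
      have h2 : t * (e * (t * e * t)) * t = e * (t * e * t) := by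
        calc t * (e * (t * e * t)) * t = (t * e * t) * e * (t * t) := by group
          _ = e * (t * e * t) := by rw [ht, mul_one, hEcomm _ (hn e he) _ he]
      have h3 := hcm _ h2
      have h5 : e * t ≠ t * e := hno e he he1 hez
      by_cases h6 : e * (t * e * t) = 1
      · exfalso
        have h7 : t * e * t = e := by
          calc t * e * t = e * e * (t * e * t) := by rw [hEsq e he, one_mul]
            _ = e * (e * (t * e * t)) := by group
            _ = e := by rw [h6, mul_one]
        exact h5 (hcm e h7)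
      · have h7 : e * (t * e * t) = z := by
          by_contra h8
          exact hno _ h1 h6 h8 h3
        calc t * e * t = e * e * (t * e * t) := by rw [hEsq e he, one_mul]
            _ = e * (e * (t * e * t)) := by group
            _ = e * z := by rw [h7]
    have hcard : ∀ F : Finset P, F.card < 8 → ∃ e ∈ E, e ∉ F := by
      intro F hF
      by_contra h
      push Not at h
      have := H2Basic.card_subgroup_le_of_subset E F h
      omega
    obtain ⟨e, he, he'⟩ := hcard {1, z} (by
      have := Finset.card_le_two (a := (1 : P)) (b := z)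
      omega)
    obtain ⟨f, hf, hf'⟩ := hcard {1, z, e, e * z} (by
      have := Finset.card_le_four (a := (1 : P)) (b := z) (c := e) (d := e * z)
      omega)
    simp only [Finset.mem_insert, Finset.mem_singleton, not_or] at he' hf'
    have h1 := hphi e he he'.1 he'.2
    have h2 := hphi f hf hf'.1 hf'.2.1
    have h3 : t * (e * f) * t = e * f := by
      calc t * (e * f) * t = (t * e) * 1 * (f * t) := by group
        _ = (t * e) * (t * t) * (f * t) := by rw [ht]
        _ = (t * e * t) * (t * f * t) := by group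
        _ = e * z * (f * z) := by rw [h1, h2]
        _ = e * (f * z) * z := by rw [show e * z * (f * z) = e * (z * f) * z by group, ← hzcomm f]
        _ = e * f * (z * z) := by group
        _ = e * f := by rw [hzsq, mul_one]
    have h4 := hcm _ h3
    have h5 : e * f ∈ E := E.mul_mem he hf
    have h6 : e * (e * f) = f := by
      rw [← mul_assoc, hEsq e he, one_mul]
    by_cases h7 : e * f = 1
    · apply hf'.2.2.1
      rw [h7, mul_one] at h6
      exact h6.symm
    by_cases h8 : e * f = z
    · apply hf'.2.2.2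
      rw [h8] at h6
      exact h6.symm
    exact hno _ h5 h7 h8 h4
  have hk : ∀ (a b : P) (ha : a * a = 1) (hb : b * b = 1) (hab : a * b = b * a), a ≠ 1 → b ≠ 1 → a ≠ b →
      IsKleinFour (kleinOf a b ha hb hab) := by
    intro a b ha hb hab ha1 hb1 hne
    apply isKleinFour_of _ (card_kleinOf ha1 hb1 hne)
    intro c hc
    rcases mem_kleinOf.mp hc with rfl | rfl | rfl | rfl
    · simp
    · exact ha
    · exact hb
    · calc a * b * (a * b) = a * (b * a) * b := by group
        _ = a * (a * b) * b := by rw [hab]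
        _ = (a * a) * (b * b) := by group
        _ = 1 := by rw [ha, hb, mul_one]
  have hcmk : ∀ (a b : P) (ha : a * a = 1) (hb : b * b = 1) (hab : a * b = b * a) (v : P),
      v * a = a * v → v * b = b * v → ∀ c ∈ kleinOf a b ha hb hab, v * c = c * v := by
    intro a b ha hb hab v h1 h2 c hc
    rcases mem_kleinOf.mp hc with rfl | rfl | rfl | rfl
    · simp
    · exact h1
    · exact h2
    · rw [← mul_assoc, h1, mul_assoc, h2, mul_assoc]
  set R : Subgroup P → Subgroup P → Prop :=
    fun A B => IsKleinFour A ∧ IsKleinFour B ∧ ∀ a ∈ A, ∀ b ∈ B, a * b = b * a with hR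
  have hsymm : ∀ A B, R A B → R B A := fun A B ⟨h1, h2, h3⟩ => ⟨h2, h1, fun b hb a ha => (h3 a ha b hb).symm⟩
  have hconn : ∀ V : Subgroup P, IsKleinFour V →
      ∃ W : Subgroup P, IsKleinFour W ∧ W ≤ E ∧ ReflTransGen R V W := by
    intro V hV
    obtain ⟨x, hx, y, hy, hx1, hy1, hxy⟩ := exists_two_ne' hV
    obtain ⟨t, ht, ht1, htz⟩ : ∃ t ∈ V, t ≠ 1 ∧ t ≠ z := by
      by_cases h : x = z
      · exact ⟨y, hy, hy1, fun h' => hxy (h.trans h'.symm)⟩
      · exact ⟨x, hx, hx1, h⟩
    have htt := mul_self_of_isKleinFour hV ht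
    have hV₁ := hk z t hzsq htt (hzcomm t).symm hz1 ht1 htz.symm
    obtain ⟨a, haE, ha1, haz, hat⟩ := key t htt
    have hW := hk z a hzsq (hEsq a haE) (hzcomm a).symm hz1 ha1 haz.symm
    refine ⟨_, hW, ?_, ?_⟩
    · intro c hc
      rcases mem_kleinOf.mp hc with rfl | rfl | rfl | rfl
      · exact E.one_mem
      · exact hzE
      · exact haE
      · exact E.mul_mem hzE haE
    · have h1 : R V (kleinOf z t hzsq htt (hzcomm t).symm) := by
        refine ⟨hV, hV₁, fun v hv c hc => ?_⟩
        exact hcmk _ _ _ _ _ v (hzcomm v) (comm_of_isKleinFour hV hv ht) c hc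
      have h2 : R (kleinOf z t hzsq htt (hzcomm t).symm) (kleinOf z a hzsq (hEsq a haE) (hzcomm a).symm) := by
        refine ⟨hV₁, hW, fun v hv c hc => ?_⟩
        refine (hcmk z t hzsq htt (hzcomm t).symm c ?_ ?_ v hv).symm
        · rcases mem_kleinOf.mp hc with rfl | rfl | rfl | rfl
          · simp
          · rfl
          · exact hzcomm _
          · exact hzcomm _
        · exact hcmk z a hzsq (hEsq a haE) (hzcomm a).symm t (hzcomm t) hat.symm c hc |>.symm
      exact (ReflTransGen.single h1).tail h2
  intro U V hU hV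
  obtain ⟨W₁, hW₁, hW₁E, h1⟩ := hconn U hU
  obtain ⟨W₂, hW₂, hW₂E, h2⟩ := hconn V hV
  have h3 : R W₁ W₂ := ⟨hW₁, hW₂, fun a ha b hb => hEcomm a (hW₁E ha) b (hW₂E hb)⟩
  have hrev : ∀ A B, ReflTransGen R A B → ReflTransGen R B A := by
    intro A B hAB
    induction hAB with
    | refl => exact ReflTransGen.refl
    | tail _ hbc ih => exact ReflTransGen.head (hsymm _ _ hbc) ih
  have h4 : ReflTransGen R W₂ V := hrev _ _ h2
  exact (h1.tail h3).trans h4

end Cfsg.Agent.S0502
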