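import Cfsg.Statements.S0514
import Mathlib
import Cfsg.Agent.Lib.PNilpB
import Cfsg.Agent.Lib.SylowIn

set_option autoImplicit false
open Cfsg

namespace Cfsg.Agent.S0514

open DihedralGroup

theorem odd_two_pow {a m : ℕ} (ha : Odd a) (h1 : a ∣ 2 ^ m) : a = 1 := by
  have h2 : Nat.Coprime a (2 ^ m) := (Nat.coprime_two_right.2 ha).pow_right m
  exact Nat.Coprime.eq_one_of_dvd h2 h1

theorem conj_pow_mem {X : Type*} [Group X] (P : Subgroup X) (y : X)
    (hN : ∀ x ∈ P, y * x * y⁻¹ ∈ P) (k : ℕ) : ∀ x ∈ P, y ^ k * x * (y ^ k)⁻¹ ∈ P := by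
  induction k with
  | zero => intro x hx; simpa using hx
  | succ k ih =>
    intro x hx
    have e : y ^ (k + 1) * x * (y ^ (k + 1))⁻¹ = y ^ k * (y * x * y⁻¹) * (y ^ k)⁻¹ := by
      rw [pow_succ]; group
    rw [e]
    exact ih _ (hN x hx)

theorem odd_cent_cyclic {X : Type*} [Group X] [Finite X] (P : Subgroup X) (hP : IsPGroup 2 P)
    (hc : IsCyclic P) (y : X) (hy : Odd (orderOf y)) (hN : ∀ x ∈ P, y * x * y⁻¹ ∈ P) :
    ∀ x ∈ P, y * x * y⁻¹ = x := by
  haveI : Fact (Nat.Prime 2) := ⟨Nat.prime_two⟩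
  have hinv : ∀ x ∈ P, y⁻¹ * x * y ∈ P := by
    intro x hx
    have h1 := conj_pow_mem P y hN (orderOf y - 1) x hx
    have h2 : y ^ (orderOf y - 1) = y⁻¹ := by
      apply eq_inv_of_mul_eq_one_left
      rw [← pow_succ, Nat.sub_add_cancel (orderOf_pos y), pow_orderOf_eq_one]
    rw [h2, inv_inv] at h1
    exact h1
  have hNorm : y ∈ Subgroup.normalizer (P : Set X) := by
    rw [Subgroup.mem_normalizer_iff]
    intro h
    constructor
    · exact hN h
    · intro hh
      have := hinv _ hh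
      have e : y⁻¹ * (y * h * y⁻¹) * y = h := by group
      rwa [e] at this
  obtain ⟨k, hk⟩ := IsPGroup.iff_card.1 hP
  have hz : P.normalizerMonoidHom ⟨y, hNorm⟩ = 1 := by
    have h1 : orderOf (P.normalizerMonoidHom ⟨y, hNorm⟩) ∣ orderOf y := by
      have h2 := orderOf_map_dvd P.normalizerMonoidHom ⟨y, hNorm⟩
      rwa [Subgroup.orderOf_mk] at h2
    have h3 : orderOf (P.normalizerMonoidHom ⟨y, hNorm⟩) ∣ Nat.card (MulAut P) :=
      orderOf_dvd_natCard _
    rw [IsCyclic.card_mulAut, hk] at h3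
    have hodd : Odd (orderOf (P.normalizerMonoidHom ⟨y, hNorm⟩)) := Odd.of_dvd_nat hy h1
    rcases k with _ | k
    · simp only [pow_zero, Nat.totient_one, Nat.dvd_one] at h3
      exact orderOf_eq_one_iff.1 h3
    · rw [Nat.totient_prime_pow_succ Nat.prime_two] at h3
      have h3' : orderOf (P.normalizerMonoidHom ⟨y, hNorm⟩) ∣ 2 ^ k := by simpa using h3
      exact orderOf_eq_one_iff.1 (odd_two_pow hodd h3')
  have hker : (⟨y, hNorm⟩ : Subgroup.normalizer (P : Set X)) ∈ P.normalizerMonoidHom.ker := hz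
  rw [Subgroup.normalizerMonoidHom_ker, Subgroup.mem_subgroupOf] at hker
  intro x hx
  have := Subgroup.mem_centralizer_iff.1 hker x hx
  show y * x * y⁻¹ = x
  rw [← this]; group

theorem core {X : Type*} [Group X] [Finite X] (Q : Subgroup X) (hQ : IsPGroup 2 Q) {n : ℕ} [NeZero n]
    (f : Q →* DihedralGroup n) (hf : Function.Injective f) (y : X) (hy : Odd (orderOf y))
    (hyN : ∀ x ∈ Q, y * x * y⁻¹ ∈ Q) (t : X) (htQ : t ∈ Q) (ht1 : t ≠ 1) (hyt : y * t * y⁻¹ = t) :
    ∀ x ∈ Q, y * x * y⁻¹ = x := by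
  classical
  haveI : Fact (Nat.Prime 2) := ⟨Nat.prime_two⟩
  let R : Subgroup (DihedralGroup n) := Subgroup.zpowers (r 1)
  have hrot : ∀ i : ZMod n, (r i : DihedralGroup n) ∈ R := by
    intro i
    refine ⟨(i.val : ℤ), ?_⟩
    simp [r_one_zpow, ZMod.natCast_zmod_val]
  have hRcard : Nat.card R = n := by
    rw [Nat.card_zpowers, orderOf_r_one]
  have hRindex : R.index = 2 := by
    have h1 := Subgroup.index_mul_card R
    rw [hRcard, nat_card] at h1
    have hn : 0 < n := Nat.pos_of_ne_zero (NeZero.ne n)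
    exact Nat.eq_of_mul_eq_mul_right hn h1
  haveI hRn : R.Normal := Subgroup.normal_of_index_eq_two hRindex
  let W : Subgroup Q := R.comap f
  have hWidx : W.index ∣ 2 := by
    have h1 : W.index = R.relIndex f.range := Subgroup.index_comap R f
    rw [h1, ← hRindex]
    exact Subgroup.relIndex_dvd_index_of_normal R f.range
  haveI hWc : IsCyclic W := by
    let g : W →* R := (f.comp W.subtype).codRestrict R (fun w => w.2)
    apply isCyclic_of_injective g
    intro a b hab
    have : f a = f b := congrArg Subtype.val hab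
    exact Subtype.ext (hf this)
  have hcases : ∀ z : DihedralGroup n, (∃ i, z = r i) ∨ (∃ i, z = sr i) := by
    intro z
    cases z with
    | r i => exact Or.inl ⟨i, rfl⟩
    | sr i => exact Or.inr ⟨i, rfl⟩
  have hyN' : ∀ k : ℕ, ∀ x ∈ Q, y ^ k * x * (y ^ k)⁻¹ ∈ Q := fun k => conj_pow_mem Q y hyN k
  by_cases hW2 : Nat.card W ≤ 2
  · -- small case
    have hQ4 : Nat.card Q ≤ 4 := by
      have h1 := Subgroup.card_mul_index W
      have h2 : W.index ≤ 2 := Nat.le_of_dvd (by norm_num) hWidx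
      rw [← h1]
      nlinarith
    intro x hxQ
    by_contra hx
    obtain ⟨a, ha⟩ : ∃ a, orderOf y = 2 * a + 1 := hy
    have hya : y ^ (2 * a + 1) = 1 := by rw [← ha]; exact pow_orderOf_eq_one y
    have hx2 : y * (y * x * y⁻¹) * y⁻¹ ≠ x := by
      intro h
      have h2 : y ^ 2 * x * (y ^ 2)⁻¹ = x := by
        calc y ^ 2 * x * (y ^ 2)⁻¹ = y * (y * x * y⁻¹) * y⁻¹ := by rw [pow_two]; group
          _ = x := h
      have hpow : ∀ m : ℕ, y ^ (2 * m) * x * (y ^ (2 * m))⁻¹ = x := by
        intro m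
        induction m with
        | zero => simp
        | succ m ih =>
          have e : y ^ (2 * (m + 1)) * x * (y ^ (2 * (m + 1)))⁻¹ =
              y ^ 2 * (y ^ (2 * m) * x * (y ^ (2 * m))⁻¹) * (y ^ 2)⁻¹ := by
            rw [show 2 * (m + 1) = 2 + 2 * m by ring, pow_add]; group
          rw [e, ih, h2]
      apply hx
      have h3 := hpow a
      have e : y ^ (2 * a + 1) * x * (y ^ (2 * a + 1))⁻¹ = y * (y ^ (2 * a) * x * (y ^ (2 * a))⁻¹) * y⁻¹ := by
        rw [show 2 * a + 1 = 1 + 2 * a by ring, pow_add, pow_one]; group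
      rw [h3, hya] at e
      simp only [one_mul, inv_one, mul_one] at e
      exact e.symm
    have hne1 : ∀ u : X, y * u * y⁻¹ = 1 → u = 1 := by
      intro u hu
      have : u = y⁻¹ * (y * u * y⁻¹) * y := by group
      rw [this, hu]; group
    have hnet : ∀ u : X, y * u * y⁻¹ = t → u = t := by
      intro u hu
      have e : y * u * y⁻¹ = y * t * y⁻¹ := by rw [hu, hyt]
      exact mul_left_cancel (mul_right_cancel e)
    have hx0 : x ≠ 1 := by
      rintro rfl
      apply hx; group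
    have hxt : x ≠ t := by
      rintro rfl
      exact hx hyt
    obtain ⟨x₁, hx₁⟩ : ∃ x₁, x₁ = y * x * y⁻¹ := ⟨_, rfl⟩
    obtain ⟨x₂, hx₂⟩ : ∃ x₂, x₂ = y * x₁ * y⁻¹ := ⟨_, rfl⟩
    have h11 : x₁ ≠ 1 := fun h => hx0 (hne1 x (hx₁ ▸ h))
    have h1t : x₁ ≠ t := fun h => hxt (hnet x (hx₁ ▸ h))
    have h21 : x₂ ≠ 1 := fun h => h11 (hne1 x₁ (hx₂ ▸ h))
    have h2t : x₂ ≠ t := fun h => h1t (hnet x₁ (hx₂ ▸ h))
    have h1x : x₁ ≠ x := fun h => hx (hx₁ ▸ h)
    have h2x : x₂ ≠ x := by
      rw [hx₂, hx₁]; exact hx2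
    have h21' : x₂ ≠ x₁ := by
      intro h
      rw [hx₂, hx₁] at h
      exact h1x (by rw [hx₁]; exact (mul_left_cancel (mul_right_cancel h)))
    have hcard : ({1, t, x, x₁, x₂} : Finset X).card = 5 := by
      rw [Finset.card_insert_of_notMem, Finset.card_insert_of_notMem, Finset.card_insert_of_notMem,
        Finset.card_insert_of_notMem, Finset.card_singleton]
      · simpa using h21'.symm
      · simp only [Finset.mem_insert, Finset.mem_singleton, not_or]
        exact ⟨h1x.symm, h2x.symm⟩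
      · simp only [Finset.mem_insert, Finset.mem_singleton, not_or]
        exact ⟨hxt.symm, h1t.symm, h2t.symm⟩
      · simp only [Finset.mem_insert, Finset.mem_singleton, not_or]
        exact ⟨ht1.symm, hx0.symm, h11.symm, h21.symm⟩
    have hsub : (({1, t, x, x₁, x₂} : Finset X) : Set X) ⊆ (Q : Set X) := by
      intro z hz
      simp only [Finset.coe_insert, Finset.coe_singleton, Set.mem_insert_iff, Set.mem_singleton_iff] at hz
      have hx₁Q : x₁ ∈ Q := hx₁ ▸ hyN x hxQ
      have hx₂Q : x₂ ∈ Q := hx₂ ▸ hyN x₁ hx₁Q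
      rcases hz with rfl | rfl | rfl | rfl | rfl
      · exact Q.one_mem
      · exact htQ
      · exact hxQ
      · exact hx₁Q
      · exact hx₂Q
    have hle := Set.ncard_le_ncard hsub (Set.toFinite _)
    rw [Set.ncard_coe_finset, hcard] at hle
    have : (Q : Set X).ncard = Nat.card Q := (Nat.card_coe_set_eq _).symm
    omega
  · -- large case
    push Not at hW2
    obtain ⟨w₀, hw₀⟩ := hWc.exists_generator
    have ho : orderOf w₀ = Nat.card W := orderOf_eq_card_of_forall_mem_zpowers hw₀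
    obtain ⟨w, hwe⟩ : ∃ w : X, w = ((w₀ : W) : Q) := ⟨_, rfl⟩
    have hwQ : w ∈ Q := hwe ▸ ((w₀ : W) : Q).2
    have how : orderOf w = Nat.card W := by
      rw [hwe, Subgroup.orderOf_coe, Subgroup.orderOf_coe, ho]
    have hinW : ∀ (u : X) (hu : u ∈ Q), 2 < orderOf u → (⟨u, hu⟩ : Q) ∈ W := by
      intro u hu ho2
      rcases hcases (f ⟨u, hu⟩) with ⟨i, hi⟩ | ⟨i, hi⟩
      · show f ⟨u, hu⟩ ∈ R
        rw [hi]; exact hrot i
      · exfalso
        have h1 : f (⟨u, hu⟩ * ⟨u, hu⟩) = f 1 := by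
          rw [map_mul, hi, sr_mul_self, map_one]
        have h2 := hf h1
        have h3 : u * u = 1 := congrArg Subtype.val h2
        have h4 : orderOf u ∣ 2 := orderOf_dvd_of_pow_eq_one (by rw [pow_two]; exact h3)
        have := Nat.le_of_dvd (by norm_num) h4
        omega
    let W' : Subgroup X := W.map Q.subtype
    have hW'mem : ∀ (u : X) (hu : u ∈ Q), (⟨u, hu⟩ : Q) ∈ W → u ∈ W' := fun u hu h => ⟨⟨u, hu⟩, h, rfl⟩
    have hW'pow : ∀ z ∈ W', ∃ k : ℤ, z = w ^ k := by
      rintro _ ⟨z, hz, rfl⟩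
      obtain ⟨k, hk⟩ := hw₀ ⟨z, hz⟩
      refine ⟨k, ?_⟩
      have := congrArg (fun v : W => ((v : Q) : X)) hk
      simp only [Subgroup.coe_zpow] at this
      rw [hwe]
      exact this.symm
    have hwW' : w ∈ W' := hW'mem w hwQ (by
      have : (⟨w, hwQ⟩ : Q) = (w₀ : Q) := Subtype.ext hwe
      rw [this]; exact w₀.2)
    have hordconj : orderOf (y * w * y⁻¹) = orderOf w := by
      apply orderOf_eq_orderOf_iff.2
      intro n
      rw [conj_pow]
      constructor
      · intro h
        have : w ^ n = y⁻¹ * (y * w ^ n * y⁻¹) * y := by group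
        rw [this, h]; group
      · intro h
        rw [h]; group
    have hαW : y * w * y⁻¹ ∈ W' := hW'mem _ (hyN w hwQ) (hinW _ _ (by rw [hordconj, how]; exact hW2))
    have hW'N : ∀ z ∈ W', y * z * y⁻¹ ∈ W' := by
      intro z hz
      obtain ⟨k, rfl⟩ := hW'pow z hz
      rw [← conj_zpow]
      exact W'.zpow_mem hαW k
    have hW'p : IsPGroup 2 W' := (IsPGroup.to_subgroup hQ W).map _
    have hW'c : IsCyclic W' :=
      isCyclic_of_surjective (Q.subtype.subgroupMap W) (Q.subtype.subgroupMap_surjective W)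
    have hfix := odd_cent_cyclic W' hW'p hW'c y hy hW'N
    intro x hxQ
    by_cases hxW : x ∈ W'
    · exact hfix x hxW
    · have hx₁Q := hyN x hxQ
      have hfx : ∃ i, f ⟨x, hxQ⟩ = sr i := by
        rcases hcases (f ⟨x, hxQ⟩) with ⟨i, hi⟩ | hi
        · exfalso
          apply hxW
          apply hW'mem x hxQ
          show f ⟨x, hxQ⟩ ∈ R
          rw [hi]; exact hrot i
        · exact hi
      obtain ⟨i, hi⟩ := hfx
      rcases hcases (f ⟨_, hx₁Q⟩) with ⟨j, hj⟩ | ⟨j, hj⟩
      · exfalso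
        have h1 : y * x * y⁻¹ ∈ W' := hW'mem _ hx₁Q (by
          show f ⟨_, hx₁Q⟩ ∈ R
          rw [hj]; exact hrot j)
        have h2 := hfix _ h1
        have h3 : y * x * y⁻¹ = x := mul_left_cancel (mul_right_cancel h2)
        rw [h3] at h1
        exact hxW h1
      · -- reflection
        obtain ⟨w', hw'⟩ : ∃ w', w' = x⁻¹ * (y * x * y⁻¹) := ⟨_, rfl⟩
        have hw'Q : w' ∈ Q := hw' ▸ Q.mul_mem (Q.inv_mem hxQ) hx₁Q
        have hw'W : w' ∈ W' := hW'mem _ hw'Q (by
          show f ⟨w', hw'Q⟩ ∈ R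
          have e : (⟨w', hw'Q⟩ : Q) = (⟨x, hxQ⟩ : Q)⁻¹ * ⟨_, hx₁Q⟩ := Subtype.ext hw'
          rw [e, map_mul, map_inv, hi, hj, inv_sr, sr_mul_sr]
          exact hrot _)
        have hxw : y * x * y⁻¹ = x * w' := by rw [hw']; group
        have hit : ∀ k : ℕ, y ^ k * x * (y ^ k)⁻¹ = x * w' ^ k := by
          intro k
          induction k with
          | zero => simp
          | succ k ih =>
            have e : y ^ (k + 1) * x * (y ^ (k + 1))⁻¹ = y * (y ^ k * x * (y ^ k)⁻¹) * y⁻¹ := by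
              rw [pow_succ']; group
            rw [e, ih]
            have e2 : y * (x * w' ^ k) * y⁻¹ = (y * x * y⁻¹) * (y * w' * y⁻¹) ^ k := by
              rw [conj_pow]; group
            rw [e2, hfix w' hw'W, hxw, pow_succ']
            group
        have h1 := hit (orderOf y)
        rw [pow_orderOf_eq_one] at h1
        simp only [one_mul, inv_one, mul_one] at h1
        have h2 : w' ^ orderOf y = 1 := by
          have := h1
          exact (mul_left_cancel (a := x) (by rw [mul_one]; exact this.symm))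
        obtain ⟨m, hm⟩ := IsPGroup.iff_orderOf.1 hQ ⟨w', hw'Q⟩
        have hm' : orderOf w' = 2 ^ m := by
          rw [← hm, Subgroup.orderOf_mk]
        have h3 : orderOf w' ∣ orderOf y := orderOf_dvd_of_pow_eq_one h2
        have h4 : orderOf w' = 1 := by
          have hodd : Odd (orderOf w') := Odd.of_dvd_nat hy h3
          exact odd_two_pow (m := m) hodd (by rw [hm'])
        have h5 : w' = 1 := orderOf_eq_one_iff.1 h4
        rw [hxw, h5, mul_one]

/-- In a finite group whose Sylow 2-subgroups are dihedral of order at least 4, the centralizer of any involution has a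
normal subgroup of odd order whose index in the centralizer is a power of 2. -/
theorem result {X : Type*} [Group X] [Finite X]
    (S : Sylow 2 X) (n : ℕ) (hn : 2 ≤ n) (hS : Nonempty ((S : Subgroup X) ≃* DihedralGroup n)) (t : X)
    (ht : orderOf t = 2) :
    ∃ N : Subgroup (Subgroup.centralizer ({t} : Set X)), N.Normal ∧ Odd (Nat.card N) ∧ ∃ k : ℕ, N.index = 2 ^ k := by
  classical
  haveI : Fact (Nat.Prime 2) := ⟨Nat.prime_two⟩
  haveI : NeZero n := ⟨by omega⟩
  obtain ⟨φ⟩ := hS
  let C := Subgroup.centralizer ({t} : Set X)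
  have htC : t ∈ C := by
    rw [Subgroup.mem_centralizer_iff]
    intro h hh
    rw [Set.mem_singleton_iff.1 hh]
  let t₀ : C := ⟨t, htC⟩
  have hcentral : ∀ c : C, (c : X) * t = t * c := by
    intro c
    have := Subgroup.mem_centralizer_iff.1 c.2 t rfl
    exact this.symm
  have hnpc : Cfsg.HasNormalPComplement 2 C := by
    refine Cfsg.Agent.Lib.PNilpB.frob2 fun Q hQ y hy hyc => ?_
    let Z : Subgroup C := Subgroup.zpowers t₀
    have hZn : Z.Normal := by
      constructor
      rintro _ ⟨k, rfl⟩ g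
      refine ⟨k, ?_⟩
      have : g * t₀ * g⁻¹ = t₀ := by
        apply Subtype.ext
        show (g : X) * t * (g : X)⁻¹ = t
        rw [hcentral g]; group
      show t₀ ^ k = g * t₀ ^ k * g⁻¹
      rw [← conj_zpow, this]
    have hZp : IsPGroup 2 Z := by
      apply IsPGroup.of_card (n := 1)
      rw [Nat.card_zpowers, pow_one]
      have : orderOf t₀ = orderOf t := by
        rw [← Subgroup.orderOf_coe]
      rw [this, ht]
    have hQ₁ : IsPGroup 2 ↥(Q ⊔ Z) := IsPGroup.to_sup_of_normal_right hQ hZp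
    let Q₂ : Subgroup X := (Q ⊔ Z).map C.subtype
    have hQ₂ : IsPGroup 2 Q₂ := hQ₁.map _
    obtain ⟨g, hg⟩ := Cfsg.Agent.Lib.SylowIn.exists_conj_mem_sylow S hQ₂
    let f₀ : Q₂ →* (S : Subgroup X) :=
      ((MulAut.conj g).toMonoidHom.comp Q₂.subtype).codRestrict (S : Subgroup X) (fun x => hg x x.2)
    let f : Q₂ →* DihedralGroup n := φ.toMonoidHom.comp f₀
    have hf : Function.Injective f := by
      intro a b hab
      have h1 : f₀ a = f₀ b := φ.injective hab
      have h2 : g * (a : X) * g⁻¹ = g * (b : X) * g⁻¹ := congrArg Subtype.val h1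
      exact Subtype.ext (mul_left_cancel (mul_right_cancel h2))
    have hyo : Odd (orderOf (y : X)) := by
      rw [Subgroup.orderOf_coe]
      exact Nat.coprime_two_right.1 hyc
    have hconj : ∀ x ∈ Q ⊔ Z, y * x * y⁻¹ ∈ Q ⊔ Z := by
      have hle : (Q ⊔ Z).map (MulAut.conj y).toMonoidHom ≤ Q ⊔ Z := by
        rw [Subgroup.map_sup]
        apply sup_le_sup
        · rintro _ ⟨q, hq, rfl⟩
          exact (Subgroup.mem_normalizer_iff.1 hy q).1 hq
        · rintro _ ⟨q, hq, rfl⟩
          exact hZn.conj_mem q hq y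
      intro x hx
      exact hle ⟨x, hx, rfl⟩
    have hcore := core Q₂ hQ₂ f hf (y : X) hyo
      (by
        rintro _ ⟨c, hc, rfl⟩
        exact ⟨_, hconj c hc, rfl⟩)
      t ⟨t₀, Subgroup.mem_sup_right (Subgroup.mem_zpowers t₀), rfl⟩
      (fun h => by rw [h, orderOf_one] at ht; omega)
      (by rw [hcentral y]; group)
    rw [Subgroup.mem_centralizer_iff]
    intro q hq
    have h1 := hcore (q : X) ⟨q, Subgroup.mem_sup_left hq, rfl⟩
    apply Subtype.ext
    show (q : X) * y = y * q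
    calc (q : X) * y = ((y : X) * q * (y : X)⁻¹) * y := by rw [h1]
      _ = y * q := by group
  rw [Cfsg.Agent.Lib.PNilp.npc_iff] at hnpc
  obtain ⟨N, hN, hNp, hpow⟩ := hnpc
  haveI := hN
  refine ⟨N, hN, ?_, ?_⟩
  · rw [← Nat.not_even_iff_odd, even_iff_two_dvd]
    exact hNp
  · have hq := Cfsg.Agent.Lib.PNilp.isPGroup_quot_of_pow N hpow
    obtain ⟨k, hk⟩ := IsPGroup.iff_card.1 hq
    exact ⟨k, hk⟩

end Cfsg.Agent.S0514
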