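import Mathlib
import Cfsg.Prelude
import Cfsg.Statements.S0520
-- import your own Cfsg.Agent.* helpers here

set_option autoImplicit false
open Cfsg

namespace Cfsg.Agent.S0520


open Cfsg

variable {G : Type*} [Group G]

abbrev cj (g : G) (K : Subgroup G) : Subgroup G := K.map (MulAut.conj g).toMonoidHom

theorem mem_cj {g x : G} {K : Subgroup G} : x ∈ cj g K ↔ g⁻¹ * x * g ∈ K := by
  constructor
  · rintro ⟨y, hy, rfl⟩
    simpa [MulAut.conj_apply, mul_assoc] using hy
  · intro h
    exact ⟨_, h, by simp [MulAut.conj_apply, mul_assoc]⟩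

theorem cj_mul (g h : G) (K : Subgroup G) : cj (g * h) K = cj g (cj h K) := by
  ext x
  simp only [mem_cj, mul_inv_rev]
  constructor <;> intro hx <;> convert hx using 1 <;> group

theorem cj_one (K : Subgroup G) : cj 1 K = K := by
  ext x
  simp [mem_cj]

theorem cj_inv_cj (g : G) (K : Subgroup G) : cj g⁻¹ (cj g K) = K := by
  rw [← cj_mul, inv_mul_cancel, cj_one]

theorem cj_mono (g : G) {K L : Subgroup G} (h : K ≤ L) : cj g K ≤ cj g L := Subgroup.map_mono h

theorem card_cj (g : G) (K : Subgroup G) : Nat.card (cj g K) = Nat.card K :=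
  Subgroup.card_map_of_injective (MulAut.conj g).injective

theorem kl_congr {A B : Type*} [Group A] [Group B] (e : A ≃* B) (h : IsKleinFour A) : IsKleinFour B :=
  ⟨by rw [← Nat.card_congr e.toEquiv]; exact h.card_four,
   by rw [← Monoid.exponent_eq_of_mulEquiv e]; exact h.exponent_two⟩

theorem kl_cj {U : Subgroup G} (h : IsKleinFour U) (g : G) : IsKleinFour (cj g U) :=
  kl_congr (U.equivMapOfInjective _ (MulAut.conj g).injective) h

theorem kl_mul_self {T : Subgroup G} (hT : IsKleinFour T) {a : G} (ha : a ∈ T) : a * a = 1 := by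
  have h1 := Monoid.pow_exponent_eq_one (⟨a, ha⟩ : T)
  rw [hT.exponent_two, sq] at h1
  exact congrArg Subtype.val h1

theorem kl_p {T : Subgroup G} (hT : IsKleinFour T) : IsPGroup 2 T :=
  IsPGroup.of_card (n := 2) (by rw [hT.card_four]; norm_num)

abbrev Rel (S : Type*) [Group S] (A B : Subgroup S) : Prop :=
  IsKleinFour A ∧ IsKleinFour B ∧ ∀ a ∈ A, ∀ b ∈ B, a * b = b * a

theorem rel_symm {A B : Subgroup G} (h : Rel G A B) : Rel G B A :=
  ⟨h.2.1, h.1, fun a ha b hb => (h.2.2 b hb a ha).symm⟩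

theorem conn_cj (g : G) {U V : Subgroup G} (h : Relation.ReflTransGen (Rel G) U V) :
    Relation.ReflTransGen (Rel G) (cj g U) (cj g V) := by
  induction h with
  | refl => exact .refl
  | @tail A B _ hAB ih =>
    refine ih.tail ⟨kl_cj hAB.1 g, kl_cj hAB.2.1 g, ?_⟩
    rintro _ ⟨a, ha, rfl⟩ _ ⟨b, hb, rfl⟩
    have := hAB.2.2 a ha b hb
    simp only [MulEquiv.coe_toMonoidHom, ← map_mul, this]

theorem conn_symm {U V : Subgroup G} (h : Relation.ReflTransGen (Rel G) U V) :
    Relation.ReflTransGen (Rel G) V U := by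
  induction h with
  | refl => exact .refl
  | @tail A B _ hAB ih => exact Relation.ReflTransGen.head (rel_symm hAB) ih

theorem conn_map (S : Subgroup G) {A B : Subgroup S}
    (h : Relation.ReflTransGen (fun A B : Subgroup S => IsKleinFour A ∧ IsKleinFour B ∧ ∀ a ∈ A, ∀ b ∈ B, a * b = b * a) A B) :
    Relation.ReflTransGen (Rel G) (A.map S.subtype) (B.map S.subtype) := by
  induction h with
  | refl => exact .refl
  | @tail A B _ hAB ih =>
    refine ih.tail ⟨kl_congr (A.equivMapOfInjective _ S.subtype_injective) hAB.1,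
      kl_congr (B.equivMapOfInjective _ S.subtype_injective) hAB.2.1, ?_⟩
    rintro _ ⟨a, ha, rfl⟩ _ ⟨b, hb, rfl⟩
    have := hAB.2.2 a ha b hb
    simpa using congrArg Subtype.val this

theorem conn_of_sub (S : Subgroup G) (hS : IsFourConnected S) {U V : Subgroup G}
    (hU : IsKleinFour U) (hV : IsKleinFour V) (hUS : U ≤ S) (hVS : V ≤ S) :
    Relation.ReflTransGen (Rel G) U V := by
  have h1 := hS (U.subgroupOf S) (V.subgroupOf S)
    (kl_congr (Subgroup.subgroupOfEquivOfLe hUS).symm hU)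
    (kl_congr (Subgroup.subgroupOfEquivOfLe hVS).symm hV)
  have h2 : Relation.ReflTransGen (Rel G) ((U.subgroupOf S).map S.subtype) ((V.subgroupOf S).map S.subtype) := by
    exact conn_map S h1
  rwa [Subgroup.map_subgroupOf_eq_of_le hUS, Subgroup.map_subgroupOf_eq_of_le hVS] at h2

variable [Finite G]

theorem exists_conj_le (S : Sylow 2 G) {T : Subgroup G} (hT : IsPGroup 2 T) :
    ∃ c : G, T ≤ cj c (S : Subgroup G) := by
  haveI : Fact (Nat.Prime 2) := ⟨Nat.prime_two⟩
  obtain ⟨Q, hQ⟩ := hT.exists_le_sylow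
  obtain ⟨c, rfl⟩ := MulAction.exists_smul_eq G S Q
  refine ⟨c, hQ.trans ?_⟩
  rintro _ ⟨y, hy, rfl⟩
  exact ⟨y, hy, rfl⟩

theorem exists_four {X : Type*} [Group X] [Finite X] (h : ¬ PRankLE 2 1 X) :
    ∃ V : Subgroup X, IsKleinFour V := by
  haveI : Fact (Nat.Prime 2) := ⟨Nat.prime_two⟩
  unfold PRankLE at h
  push Not at h
  obtain ⟨A, -, hA2, hc⟩ := h
  have hp : IsPGroup 2 A := by
    intro a
    refine ⟨1, ?_⟩
    apply Subtype.ext
    simpa using hA2 a a.2
  obtain ⟨n, hn⟩ := IsPGroup.iff_card.mp hp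
  have hn2 : 2 ≤ n := by
    by_contra hlt
    have : n ≤ 1 := by omega
    have h3 : 2 ^ n ≤ 2 ^ 1 := Nat.pow_le_pow_right (by norm_num) this
    rw [hn] at hc
    omega
  have hd : 2 ^ 2 ∣ Nat.card A := by
    rw [hn]; exact pow_dvd_pow 2 hn2
  obtain ⟨K, hK⟩ := Sylow.exists_subgroup_card_pow_prime (G := A) 2 hd
  refine ⟨K.map A.subtype, ?_⟩
  have hcard : Nat.card (K.map A.subtype) = 4 := by
    rw [Subgroup.card_map_of_injective A.subtype_injective, hK]; norm_num
  haveI : Nontrivial (K.map A.subtype) := by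
    rw [← Finite.one_lt_card_iff_nontrivial, hcard]; norm_num
  refine ⟨hcard, ?_⟩
  rw [Monoid.exponent_eq_prime_iff Nat.prime_two]
  rintro ⟨g, ⟨y, hy, rfl⟩⟩ hg
  apply orderOf_eq_prime
  · apply Subtype.ext
    simpa using hA2 y y.2
  · exact hg

theorem not_rank_of_four {X : Type*} [Group X] {Q V : Subgroup X} (hV : IsKleinFour V) (hVQ : V ≤ Q) :
    ¬ PRankLE 2 1 Q := by
  intro h
  have h1 := h (V.subgroupOf Q) ?_ ?_
  · have h2 : Nat.card (V.subgroupOf Q) = Nat.card V :=
      Nat.card_congr (Subgroup.subgroupOfEquivOfLe hVQ).toEquiv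
    rw [h2, hV.card_four] at h1
    norm_num at h1
  · have : IsMulCommutative V := @IsKleinFour.isMulCommutative _ _ hV
    refine ⟨⟨fun a b => ?_⟩⟩
    apply Subtype.ext
    apply Subtype.ext
    have h3 := this.is_comm.comm (⟨a.1.1, a.2⟩ : V) ⟨b.1.1, b.2⟩
    simpa using congrArg Subtype.val h3
  · intro a ha
    apply Subtype.ext
    simpa [sq] using kl_mul_self hV ha

theorem conn_of_top (S : Sylow 2 G) (hS : IsFourConnected (S : Subgroup G))
    {U₀ : Subgroup G} (hU₀ : IsKleinFour U₀) (hU₀S : U₀ ≤ S)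
    (hM : (⨆ Q : {Q : Subgroup G // Q ≤ (S : Subgroup G) ∧ ¬ PRankLE 2 1 Q},
          Subgroup.normalizer ((Q : Subgroup G) : Set G)) = ⊤) :
    IsFourConnected G := by
  classical
  let H : Subgroup G :=
    { carrier := {g | Relation.ReflTransGen (Rel G) U₀ (cj g U₀)}
      one_mem' := by
        show Relation.ReflTransGen (Rel G) U₀ (cj 1 U₀)
        rw [cj_one]
      mul_mem' := by
        intro a b ha hb
        show Relation.ReflTransGen (Rel G) U₀ (cj (a * b) U₀)
        rw [cj_mul]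
        exact Relation.ReflTransGen.trans ha (conn_cj a hb)
      inv_mem' := by
        intro a ha
        show Relation.ReflTransGen (Rel G) U₀ (cj a⁻¹ U₀)
        have := conn_cj a⁻¹ ha
        rw [cj_inv_cj] at this
        exact conn_symm this }
  have hle : (⨆ Q : {Q : Subgroup G // Q ≤ (S : Subgroup G) ∧ ¬ PRankLE 2 1 Q},
          Subgroup.normalizer ((Q : Subgroup G) : Set G)) ≤ H := by
    apply iSup_le
    rintro ⟨Q, hQS, hQr⟩ g hg
    obtain ⟨V', hV'⟩ := exists_four hQr
    set V : Subgroup G := V'.map Q.subtype with hVdef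
    have hV : IsKleinFour V := kl_congr (V'.equivMapOfInjective _ Q.subtype_injective) hV'
    have hVQ : V ≤ Q := by
      rintro _ ⟨y, -, rfl⟩
      exact y.2
    have hgV : cj g V ≤ Q := by
      rintro _ ⟨y, hy, rfl⟩
      exact (Subgroup.mem_normalizer_iff.mp hg y).mp (hVQ hy)
    have h1 : Relation.ReflTransGen (Rel G) U₀ V :=
      conn_of_sub _ hS hU₀ hV hU₀S (hVQ.trans hQS)
    have h2 : Relation.ReflTransGen (Rel G) U₀ (cj g V) :=
      conn_of_sub _ hS hU₀ (kl_cj hV g) hU₀S (hgV.trans hQS)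
    have h3 := conn_cj g h1
    exact Relation.ReflTransGen.trans h2 (conn_symm h3)
  rw [hM] at hle
  have hH : ∀ g, Relation.ReflTransGen (Rel G) U₀ (cj g U₀) := fun g => hle (Subgroup.mem_top g)
  have hall : ∀ W : Subgroup G, IsKleinFour W → Relation.ReflTransGen (Rel G) U₀ W := by
    intro W hW
    obtain ⟨c, hc⟩ := exists_conj_le S (kl_p hW)
    have h1 : cj c⁻¹ W ≤ S := by
      intro x hx
      have := cj_mono c⁻¹ hc hx
      rwa [cj_inv_cj] at this
    have h2 := conn_of_sub _ hS hU₀ (kl_cj hW c⁻¹) hU₀S h1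
    have h3 := conn_cj c h2
    have h4 : cj c (cj c⁻¹ W) = W := by
      have := cj_inv_cj c⁻¹ W
      rwa [inv_inv] at this
    rw [h4] at h3
    exact Relation.ReflTransGen.trans (hH c) h3
  intro U V hU hV
  exact Relation.ReflTransGen.trans (conn_symm (hall U hU)) (hall V hV)

theorem exists_norm (P D : Subgroup G) (hP : IsPGroup 2 P) (hlt : D < P) :
    ∃ x ∈ P, x ∉ D ∧ x ∈ Subgroup.normalizer (D : Set G) := by
  haveI : Fact (Nat.Prime 2) := ⟨Nat.prime_two⟩
  haveI : Group.IsNilpotent P := hP.isNilpotent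
  have hnc := Group.normalizerCondition_of_isNilpotent (G := P)
  have hD' : D.subgroupOf P < ⊤ := by
    apply lt_top_iff_ne_top.mpr
    intro h
    rw [Subgroup.subgroupOf_eq_top] at h
    exact absurd h (not_le_of_gt hlt)
  have h1 := hnc _ hD'
  obtain ⟨-, x, hx, hxn⟩ := SetLike.lt_iff_le_and_exists.mp h1
  refine ⟨x, x.2, fun hxD => hxn ?_, ?_⟩
  · exact hxD
  · rw [Subgroup.mem_normalizer_iff]
    intro n
    have hh := (Subgroup.mem_normalizer_iff.mp hx)
    constructor
    · intro hn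
      have := (hh ⟨n, hlt.le hn⟩).mp hn
      exact this
    · intro hn
      have h3 : n ∈ P := by
        have h4 : (x : G) * n * (x : G)⁻¹ ∈ P := hlt.le hn
        have h5 : (x : G)⁻¹ * ((x : G) * n * (x : G)⁻¹) * x ∈ P :=
          P.mul_mem (P.mul_mem (P.inv_mem x.2) h4) x.2
        simpa [mul_assoc] using h5
      exact (hh ⟨n, h3⟩).mpr hn

theorem key_intersection (S : Sylow 2 G)
    (M : Subgroup G) (hMN : ∀ Q : Subgroup G, Q ≤ S → (∃ V : Subgroup G, IsKleinFour V ∧ V ≤ Q) →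
      Subgroup.normalizer (Q : Set G) ≤ M) :
    ∀ (n : ℕ) (h : G), Nat.card (S : Subgroup G) - Nat.card ↥((S : Subgroup G) ⊓ cj h S) = n →
      ∀ V : Subgroup G, IsKleinFour V → V ≤ S → V ≤ cj h S → h ∈ M := by
  classical
  haveI : Fact (Nat.Prime 2) := ⟨Nat.prime_two⟩
  intro n
  induction n using Nat.strong_induction_on with
  | _ n ih =>
  intro h hn V hV hVS hVh
  set D : Subgroup G := (S : Subgroup G) ⊓ cj h S with hD
  have hVD : V ≤ D := le_inf hVS hVh
  have hDS : D ≤ S := inf_le_left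
  have hDh : D ≤ cj h S := inf_le_right
  have hSp : IsPGroup 2 (S : Subgroup G) := S.isPGroup'
  have hhp : IsPGroup 2 (cj h S) := hSp.map _
  by_cases hDeq : D = S
  · have h1 : (S : Subgroup G) ≤ cj h S := fun x hx => hDh (by rw [hDeq]; exact hx)
    have h2 : (S : Subgroup G) = cj h S :=
      Subgroup.eq_of_le_of_card_ge h1 (by rw [card_cj])
    have h3 : h ∈ Subgroup.normalizer ((S : Subgroup G) : Set G) := by
      rw [Subgroup.mem_normalizer_iff]
      intro x
      constructor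
      · intro hx
        rw [h2]
        exact ⟨x, hx, rfl⟩
      · intro hx
        rw [h2] at hx
        obtain ⟨y, hy, hyx⟩ := hx
        have : x = y := by
          have h4 : h * y * h⁻¹ = h * x * h⁻¹ := hyx
          simpa using h4.symm
        rw [this]; exact hy
    exact hMN _ le_rfl ⟨V, hV, hVS⟩ h3
  have hltS : D < S := lt_of_le_of_ne hDS hDeq
  have hlth : D < cj h S := by
    refine lt_of_le_of_ne hDh ?_
    intro heq
    apply hDeq
    apply le_antisymm hDS
    have h1 : Nat.card (S : Subgroup G) ≤ Nat.card D := by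
      rw [heq, card_cj]
    have := Subgroup.eq_of_le_of_card_ge hDS h1
    rw [this]
  obtain ⟨x, hxS, hxD, hxN⟩ := exists_norm S D hSp hltS
  obtain ⟨y, hyS, hyD, hyN⟩ := exists_norm _ D hhp hlth
  set N := Subgroup.normalizer (D : Set G) with hNdef
  have hDN : D ≤ N := Subgroup.le_normalizer
  set A : Subgroup G := (S : Subgroup G) ⊓ N with hA
  set B : Subgroup G := cj h S ⊓ N with hB
  have hA' : IsPGroup 2 (A.subgroupOf N) := by
    intro a
    obtain ⟨k, hk⟩ := hSp ⟨a.1.1, a.2.1⟩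
    refine ⟨k, ?_⟩
    apply Subtype.ext
    apply Subtype.ext
    simpa using congrArg Subtype.val hk
  have hB' : IsPGroup 2 (B.subgroupOf N) := by
    intro a
    obtain ⟨k, hk⟩ := hhp ⟨a.1.1, a.2.1⟩
    refine ⟨k, ?_⟩
    apply Subtype.ext
    apply Subtype.ext
    simpa using congrArg Subtype.val hk
  obtain ⟨T1, hT1⟩ := hA'.exists_le_sylow
  obtain ⟨T2, hT2⟩ := hB'.exists_le_sylow
  obtain ⟨m, rfl⟩ := MulAction.exists_smul_eq ↥N T1 T2
  set T : Subgroup G := (T1 : Subgroup N).map N.subtype with hT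
  have hTp : IsPGroup 2 T := T1.isPGroup'.map _
  obtain ⟨c, hc⟩ := exists_conj_le S hTp
  have hAT : A ≤ T := by
    intro a ha
    have : (⟨a, ha.2⟩ : N) ∈ A.subgroupOf N := ha
    exact ⟨_, hT1 this, rfl⟩
  have hBT : B ≤ cj (m : G) T := by
    intro b hb
    have h1 : (⟨b, hb.2⟩ : N) ∈ B.subgroupOf N := hb
    obtain ⟨y', hy', hyy⟩ := hT2 h1
    refine ⟨_, ⟨y', hy', rfl⟩, ?_⟩
    have := congrArg Subtype.val hyy
    simpa using this
  have hDA : D ≤ A := le_inf hDS hDN
  have hDB : D ≤ B := le_inf hDh hDN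
  have hcardlt : ∀ K : Subgroup G, D ≤ K → (∃ z ∈ K, z ∉ D) → Nat.card D < Nat.card K := by
    intro K hK ⟨z, hz, hzD⟩
    by_contra hnot
    have : D = K := Subgroup.eq_of_le_of_card_ge hK (by omega)
    rw [this] at hzD
    exact hzD hz
  have hcardA : Nat.card D < Nat.card A := hcardlt A hDA ⟨x, ⟨hxS, hxN⟩, hxD⟩
  have hcardB : Nat.card D < Nat.card B := hcardlt B hDB ⟨y, ⟨hyS, hyN⟩, hyD⟩
  -- first application of the induction hypothesis
  have hc1 : c ∈ M := by
    have hle : A ≤ (S : Subgroup G) ⊓ cj c S := le_inf inf_le_left (hAT.trans hc)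
    have h1 : Nat.card A ≤ Nat.card ↥((S : Subgroup G) ⊓ cj c S) := Subgroup.card_le_of_le hle
    have h2 : Nat.card ↥((S : Subgroup G) ⊓ cj c S) ≤ Nat.card (S : Subgroup G) :=
      Subgroup.card_le_of_le inf_le_left
    refine ih _ ?_ c rfl V hV hVS ((hVD.trans hDA).trans (hAT.trans hc))
    omega
  have hmM : (m : G) ∈ M := hMN D hDS ⟨V, hV, hVD⟩ m.2
  have hd1 : h⁻¹ * ((m : G) * c) ∈ M := by
    set d := h⁻¹ * ((m : G) * c) with hd
    have hcjd : cj d S = cj h⁻¹ (cj (m : G) (cj c S)) := by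
      rw [hd, cj_mul, cj_mul]
    have hBle : B ≤ cj (m : G) (cj c S) := hBT.trans (cj_mono _ hc)
    have hle : cj h⁻¹ B ≤ (S : Subgroup G) ⊓ cj d S := by
      apply le_inf
      · have : cj h⁻¹ B ≤ cj h⁻¹ (cj h S) := cj_mono _ inf_le_left
        rwa [cj_inv_cj] at this
      · rw [hcjd]
        exact cj_mono _ hBle
    have h1 : Nat.card B ≤ Nat.card ↥((S : Subgroup G) ⊓ cj d S) := by
      rw [← card_cj h⁻¹ B]
      exact Subgroup.card_le_of_le hle
    have h2 : Nat.card ↥((S : Subgroup G) ⊓ cj d S) ≤ Nat.card (S : Subgroup G) :=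
      Subgroup.card_le_of_le inf_le_left
    have hVB : V ≤ B := hVD.trans hDB
    refine ih _ ?_ d rfl (cj h⁻¹ V) (kl_cj hV _) ?_ ?_
    · omega
    · have : cj h⁻¹ V ≤ cj h⁻¹ (cj h S) := cj_mono _ hVh
      rwa [cj_inv_cj] at this
    · rw [hcjd]
      exact cj_mono _ (hVB.trans hBle)
  have : h = ((m : G) * c) * (h⁻¹ * ((m : G) * c))⁻¹ := by group
  rw [this]
  exact M.mul_mem (M.mul_mem hmM hc1) (M.inv_mem hd1)

theorem top_of_conn (S : Sylow 2 G) (hc : IsFourConnected G)
    {U₀ : Subgroup G} (hU₀ : IsKleinFour U₀) (hU₀S : U₀ ≤ S) :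
    (⨆ Q : {Q : Subgroup G // Q ≤ (S : Subgroup G) ∧ ¬ PRankLE 2 1 Q},
          Subgroup.normalizer ((Q : Subgroup G) : Set G)) = ⊤ := by
  classical
  set M := (⨆ Q : {Q : Subgroup G // Q ≤ (S : Subgroup G) ∧ ¬ PRankLE 2 1 Q},
          Subgroup.normalizer ((Q : Subgroup G) : Set G)) with hM
  have hMN : ∀ Q : Subgroup G, Q ≤ S → (∃ V : Subgroup G, IsKleinFour V ∧ V ≤ Q) →
      Subgroup.normalizer (Q : Set G) ≤ M := by
    rintro Q hQS ⟨V, hV, hVQ⟩
    exact le_iSup (fun Q : {Q : Subgroup G // Q ≤ (S : Subgroup G) ∧ ¬ PRankLE 2 1 Q} =>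
      Subgroup.normalizer ((Q : Subgroup G) : Set G)) ⟨Q, hQS, not_rank_of_four hV hVQ⟩
  have hkey := key_intersection S M hMN
  have hkey2 : ∀ (a b : G) (V : Subgroup G), IsKleinFour V → V ≤ cj a S → V ≤ cj b S → a⁻¹ * b ∈ M := by
    intro a b V hV ha hb
    refine hkey _ (a⁻¹ * b) rfl (cj a⁻¹ V) (kl_cj hV _) ?_ ?_
    · have := cj_mono a⁻¹ ha
      rwa [cj_inv_cj] at this
    · rw [cj_mul]
      exact cj_mono _ hb
  -- propagate along the commuting graph
  have hprop : ∀ W : Subgroup G, Relation.ReflTransGen (Rel G) U₀ W → ∃ m ∈ M, W ≤ cj m S := by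
    intro W hW
    induction hW with
    | refl =>
      refine ⟨1, M.one_mem, ?_⟩
      rw [cj_one]
      exact hU₀S
    | @tail A B _ hstep ih =>
      obtain ⟨m, hm, hAm⟩ := ih
      have hn : A ≤ Subgroup.normalizer (B : Set G) := by
        intro a ha
        rw [Subgroup.mem_normalizer_iff]
        intro b
        have hcomm : ∀ b ∈ B, a * b * a⁻¹ = b := fun b hb => by
          rw [hstep.2.2 a ha b hb]; group
        constructor
        · intro hb
          rw [hcomm b hb]; exact hb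
        · intro hb
          have h1 := hcomm _ hb
          have h3 : a⁻¹ * (a * (a * b * a⁻¹) * a⁻¹) * a = a * b * a⁻¹ := by group
          rw [h1] at h3
          have h4 : a⁻¹ * (a * b * a⁻¹) * a = b := by group
          have h2 : b = a * b * a⁻¹ := by rw [← h3, h4]
          rw [h2]; exact hb
      have hp : IsPGroup 2 ↥(A ⊔ B) := IsPGroup.to_sup_of_normal_right' (kl_p hstep.1) (kl_p hstep.2.1) hn
      obtain ⟨c, hcS⟩ := exists_conj_le S hp
      have h1 : m⁻¹ * c ∈ M := hkey2 m c A hstep.1 hAm (le_sup_left.trans hcS)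
      refine ⟨c, ?_, le_sup_right.trans hcS⟩
      have : c = m * (m⁻¹ * c) := by group
      rw [this]
      exact M.mul_mem hm h1
  rw [eq_top_iff]
  intro g _
  obtain ⟨m, hm, hle⟩ := hprop _ (hc U₀ (cj g U₀) hU₀ (kl_cj hU₀ g))
  have h1 : m⁻¹ * g ∈ M := hkey2 m g _ (kl_cj hU₀ g) hle (cj_mono g hU₀S)
  have : g = m * (m⁻¹ * g) := by group
  rw [this]
  exact M.mul_mem hm h1


/-- Let G be a finite group of 2-rank at least 2 and S a Sylow 2-subgroup whose commuting graph of Klein four-subgroups is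
connected. Then the commuting graph of Klein four-subgroups of G is disconnected if and only if the 2-generated core — the
subgroup generated by the normalizers N_G(Q) of the subgroups Q of S that contain a Klein four-group — is a proper
subgroup of G. -/
theorem result {G : Type*} [Group G] [Finite G] (h2 : ¬ Cfsg.PRankLE 2 1 G)
    (S : Sylow 2 G) (hS : Cfsg.IsFourConnected (S : Subgroup G)) :
    ¬ Cfsg.IsFourConnected G ↔
      (⨆ Q : {Q : Subgroup G // Q ≤ (S : Subgroup G) ∧ ¬ Cfsg.PRankLE 2 1 Q},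
          Subgroup.normalizer ((Q : Subgroup G) : Set G)) ≠ ⊤ := by
  classical
  obtain ⟨V, hV⟩ := exists_four h2
  obtain ⟨c, hc⟩ := exists_conj_le S (kl_p hV)
  have hU₀ : IsKleinFour (cj c⁻¹ V) := kl_cj hV _
  have hU₀S : cj c⁻¹ V ≤ S := by
    have := cj_mono c⁻¹ hc
    rwa [cj_inv_cj] at this
  constructor
  · intro hn hM
    exact hn (conn_of_top S hS hU₀ hU₀S hM)
  · intro hM hcc
    exact hM (top_of_conn S hcc hU₀ hU₀S)

end Cfsg.Agent.S0520
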