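import Cfsg.Statements.S0533
import Mathlib
import Cfsg.Agent.Lib.Supersolvable
import Cfsg.Agent.Lib.ThompsonBasic
import Cfsg.Agent.Lib.PGroupBasic

set_option autoImplicit false
open Cfsg

namespace Cfsg.Agent.S0533

open Cfsg Cfsg.Agent.Lib Cfsg.Agent.Lib.Supersolvable

universe u

theorem le_norm {G : Type u} [Group G] (T Z : Subgroup G) (h : ∀ t ∈ T, ∀ z ∈ Z, t * z * t⁻¹ ∈ Z) :
    T ≤ Subgroup.normalizer (Z : Set G) := by
  intro t ht
  rw [Subgroup.mem_normalizer_iff]
  intro z
  constructor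
  · exact h t ht z
  · intro hz
    have := h t⁻¹ (T.inv_mem ht) _ hz
    have e : t⁻¹ * (t * z * t⁻¹) * t⁻¹⁻¹ = z := by group
    rwa [e] at this

theorem her_quot {G : Type u} [Group G] [Finite G] (h : Her G) (Z : Subgroup G) [hZn : Z.Normal]
    (hZ : (Nat.card Z).Prime) : Her (G ⧸ Z) := by
  intro Hb d hd
  let π := QuotientGroup.mk' Z
  let L := Hb.comap π
  have hL : Nat.card L = Nat.card Hb * Nat.card Z := card_comap_mk Z Hb
  have hdL : d * Nat.card Z ∣ Nat.card L := by
    rw [hL]; exact Nat.mul_dvd_mul_right hd _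
  obtain ⟨U₀, hU₀⟩ := h L _ hdL
  let U : Subgroup G := U₀.map L.subtype
  have hUL : U ≤ L := Subgroup.map_subtype_le _
  have hUc : Nat.card U = d * Nat.card Z := by
    show Nat.card (U₀.map L.subtype) = _
    rw [Subgroup.card_map_of_injective (Subgroup.subtype_injective _), hU₀]
  suffices hV : ∃ V : Subgroup (G ⧸ Z), V ≤ Hb ∧ Nat.card V = d by
    obtain ⟨V, hV1, hV2⟩ := hV
    exact ⟨V.subgroupOf Hb, by rw [ThompsonBasic.card_subgroupOf_of_le hV1, hV2]⟩
  by_cases hZU : Z ≤ U
  · refine ⟨U.map π, ?_, ?_⟩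
    · rintro _ ⟨u, hu, rfl⟩
      exact hUL hu
    · have h1 := card_comap_mk Z (U.map π)
      have h2 : (U.map π).comap π = U := by
        apply Subgroup.comap_map_eq_self
        rw [QuotientGroup.ker_mk']
        exact hZU
      rw [h2, hUc] at h1
      exact (Nat.eq_of_mul_eq_mul_right hZ.pos h1).symm
  · have hinf : ∀ z ∈ Z, z ∈ U → z = 1 := by
      intro z hz hzU
      by_contra hz1
      apply hZU
      have h1 : Nat.card (Z ⊓ U : Subgroup G) ∣ Nat.card Z := Subgroup.card_dvd_of_le inf_le_left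
      rcases (Nat.dvd_prime hZ).1 h1 with h2 | h2
      · have h3 : Subsingleton (Z ⊓ U : Subgroup G) := (Nat.card_eq_one_iff_unique.1 h2).1
        have h4 := Subsingleton.elim (⟨z, hz, hzU⟩ : (Z ⊓ U : Subgroup G)) 1
        exact absurd (congrArg Subtype.val h4) hz1
      · have h3 : Z ⊓ U = Z := Subgroup.eq_of_le_of_card_ge inf_le_left (le_of_eq h2.symm)
        intro x hx
        have : x ∈ Z ⊓ U := by rw [h3]; exact hx
        exact this.2
    have hdU : d ∣ Nat.card U := by rw [hUc]; exact dvd_mul_right _ _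
    obtain ⟨W, hW⟩ := h U d hdU
    let f : ↥W →* G ⧸ Z := π.comp (U.subtype.comp W.subtype)
    have hf : Function.Injective f := by
      intro a b hab
      have h1 : (QuotientGroup.mk (a : U).1 : G ⧸ Z) = QuotientGroup.mk (b : U).1 := hab
      rw [QuotientGroup.eq] at h1
      have h2 : ((a : U).1)⁻¹ * (b : U).1 ∈ U := U.mul_mem (U.inv_mem (a : U).2) (b : U).2
      have h3 := hinf _ h1 h2
      have h4 : (a : U).1 = (b : U).1 := by
        exact inv_inj.1 (mul_eq_one_iff_eq_inv.1 h3)
      exact Subtype.ext (Subtype.ext h4)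
    refine ⟨f.range, ?_, ?_⟩
    · rintro _ ⟨w, rfl⟩
      exact hUL (w : U).2
    · rw [← hW]
      exact Nat.card_congr (MonoidHom.ofInjective hf).toEquiv.symm

theorem her_super (n : ℕ) : ∀ (G : Type u) [Group G] [Finite G], Nat.card G = n → Her G → IsSupersolvable G := by
  induction n using Nat.strong_induction_on with
  | _ n ih =>
  intro G _ _ hn h
  by_cases hone : Nat.card G = 1
  · haveI : Subsingleton G := (Nat.card_eq_one_iff_unique.mp hone).1
    rw [super_iff]
    have : (⊤ : Subgroup G) = ⊥ := Subsingleton.elim _ _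
    rw [this]
    exact Chain.bot
  have h1 : 1 < Nat.card G := by
    have : 0 < Nat.card G := Nat.card_pos
    omega
  obtain ⟨p, hp, hpd, hmax⟩ := exists_largest_prime h1
  haveI : Fact p.Prime := ⟨hp⟩
  let P : Sylow p G := default
  have hPn : (P : Subgroup G).Normal := her_sylow _ G rfl h p hpd hmax P
  have hPne : (P : Subgroup G) ≠ ⊥ := P.ne_bot_of_dvd_card hpd
  -- a minimal normal subgroup inside `P`
  let S : Set (Subgroup G) := {N | N.Normal ∧ N ≠ ⊥ ∧ N ≤ (P : Subgroup G)}
  have hSne : S.Nonempty := ⟨P, hPn, hPne, le_rfl⟩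
  obtain ⟨N, hN⟩ := Set.Finite.exists_minimal (Set.toFinite S) hSne
  obtain ⟨hNn, hNne, hNP⟩ := hN.1
  haveI := hNn
  haveI := hPn
  -- `N` centralizes `P`
  have hNC : ∀ n ∈ N, ∀ u ∈ (P : Subgroup G), u * n = n * u := by
    haveI hCn : (Subgroup.centralizer ((P : Subgroup G) : Set G)).Normal := Subgroup.normal_centralizer
    have hinfS : N ⊓ Subgroup.centralizer ((P : Subgroup G) : Set G) ∈ S := by
      refine ⟨Subgroup.normal_inf_normal _ _, ?_, inf_le_left.trans hNP⟩
      haveI hn' : (N.subgroupOf (P : Subgroup G)).Normal := inferInstance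
      have hne' : N.subgroupOf (P : Subgroup G) ≠ ⊥ := by
        intro h0
        apply hNne
        rw [eq_bot_iff]
        intro x hx
        have h1 : (⟨x, hNP hx⟩ : (P : Subgroup G)) ∈ N.subgroupOf (P : Subgroup G) := hx
        rw [h0, Subgroup.mem_bot] at h1
        exact Subgroup.mem_bot.2 (congrArg Subtype.val h1)
      obtain ⟨z, hz, hz1, hzc⟩ := PGroupBasic.exists_ne_one_mem_center_of_normal
        P.isPGroup' (N.subgroupOf (P : Subgroup G)) hne'
      intro h0
      have h3 : (z : G) ∈ N ⊓ Subgroup.centralizer ((P : Subgroup G) : Set G) := by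
        refine ⟨hz, Subgroup.mem_centralizer_iff.2 ?_⟩
        intro s hs
        exact congrArg Subtype.val ((Subgroup.mem_center_iff.1 hzc) ⟨s, hs⟩)
      rw [h0, Subgroup.mem_bot] at h3
      exact hz1 (Subtype.ext h3)
    have hle : N ≤ N ⊓ Subgroup.centralizer ((P : Subgroup G) : Set G) := hN.2 hinfS inf_le_left
    intro n hn u hu
    exact Subgroup.mem_centralizer_iff.1 (hle hn).2 u hu
  -- a complement of `P`
  obtain ⟨K, hK⟩ := Subgroup.exists_right_complement'_of_coprime (N := (P : Subgroup G)) P.card_coprime_index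
  have hKidx : (P : Subgroup G).index = Nat.card K := hK.symm.index_eq_card
  have hpK : ¬ p ∣ Nat.card K := by
    rw [← hKidx]; exact P.not_dvd_index
  have hPKtop : (P : Subgroup G) ⊔ K = ⊤ := hK.sup_eq_top
  have hPKdisj : (P : Subgroup G) ⊓ K = ⊥ := hK.disjoint.eq_bot
  have hKN : K ≤ Subgroup.normalizer (N : Set G) := by
    rw [Subgroup.normalizer_eq_top N]; exact le_top
  have hNK : N ⊓ K = ⊥ := by
    rw [eq_bot_iff, ← hPKdisj]
    exact inf_le_inf_right _ hNP
  let M := N ⊔ K
  have hMc : Nat.card M = Nat.card N * Nat.card K := by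
    have h2 := ThompsonBasic.card_sup_mul_card_inf N K hKN
    rw [hNK, Subgroup.card_bot, mul_one] at h2
    exact h2
  have hNp : IsPGroup p N := P.isPGroup'.to_le hNP
  obtain ⟨a, ha⟩ := IsPGroup.iff_card.1 hNp
  have ha0 : a ≠ 0 := by
    intro h0
    rw [h0, pow_zero] at ha
    exact hNne (Subgroup.eq_bot_of_card_eq _ ha)
  have hpN : p ∣ Nat.card N := by rw [ha]; exact dvd_pow_self p ha0
  have hdM : p * Nat.card K ∣ Nat.card M := by
    rw [hMc]; exact Nat.mul_dvd_mul_right hpN _
  obtain ⟨U₀, hU₀⟩ := h M _ hdM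
  let U : Subgroup G := U₀.map M.subtype
  have hUM : U ≤ M := Subgroup.map_subtype_le _
  have hUc : Nat.card U = p * Nat.card K := by
    show Nat.card (U₀.map M.subtype) = _
    rw [Subgroup.card_map_of_injective (Subgroup.subtype_injective _), hU₀]
  let Z := N ⊓ U
  have hUN : U ≤ Subgroup.normalizer (N : Set G) := by
    rw [Subgroup.normalizer_eq_top N]; exact le_top
  have hcard := ThompsonBasic.card_sup_mul_card_inf N U hUN
  have hZp : IsPGroup p Z := hNp.to_le inf_le_left
  obtain ⟨b, hb⟩ := IsPGroup.iff_card.1 hZp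
  have hZdvdU : Nat.card Z ∣ Nat.card U := Subgroup.card_dvd_of_le inf_le_right
  have hcop : Nat.Coprime (p ^ b) (Nat.card K) :=
    Nat.Coprime.pow_left b ((Nat.Prime.coprime_iff_not_dvd hp).2 hpK)
  have hb1 : p ^ b ∣ p ^ 1 := by
    rw [hUc, hb] at hZdvdU
    rw [pow_one]
    exact hcop.dvd_of_dvd_mul_right hZdvdU
  have hble : b ≤ 1 := (Nat.pow_dvd_pow_iff_le_right hp.one_lt).1 hb1
  have hsupM : N ⊔ U ≤ M := sup_le le_sup_left hUM
  have hsupLe : Nat.card (N ⊔ U : Subgroup G) ≤ Nat.card M := Subgroup.card_le_of_le hsupM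
  have hKpos : 0 < Nat.card K := Nat.card_pos
  have hNpos : 0 < Nat.card N := Nat.card_pos
  have hbeq : b = 1 := by
    by_contra hne
    have hb0 : b = 0 := by omega
    have hZ1 : Nat.card (N ⊓ U : Subgroup G) = 1 := by
      show Nat.card Z = 1
      rw [hb, hb0, pow_zero]
    rw [hZ1, mul_one, hUc] at hcard
    rw [hcard, hMc] at hsupLe
    have h2 := hp.two_le
    have h3 : Nat.card N * (p * Nat.card K) = p * (Nat.card N * Nat.card K) := by ring
    rw [h3] at hsupLe
    have h4 : 0 < Nat.card N * Nat.card K := Nat.mul_pos hNpos hKpos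
    nlinarith
  have hZc : Nat.card Z = p := by rw [hb, hbeq, pow_one]
  have hsupEq : N ⊔ U = M := by
    apply Subgroup.eq_of_le_of_card_ge hsupM
    have h2 : Nat.card (N ⊓ U : Subgroup G) = p := hZc
    rw [h2, hUc] at hcard
    rw [hMc]
    have h3 : Nat.card (N ⊔ U : Subgroup G) * p = (Nat.card N * Nat.card K) * p := by rw [hcard]; ring
    exact (Nat.eq_of_mul_eq_mul_right hp.pos h3).ge
  have hPnorm : (P : Subgroup G) ≤ Subgroup.normalizer (Z : Set G) := by
    apply le_norm
    intro t ht z hz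
    have h2 := hNC z hz.1 t ht
    have : t * z * t⁻¹ = z := by rw [h2]; group
    rw [this]; exact hz
  have hUnorm : U ≤ Subgroup.normalizer (Z : Set G) := by
    apply le_norm
    intro t ht z hz
    exact ⟨hNn.conj_mem z hz.1 t, U.mul_mem (U.mul_mem ht hz.2) (U.inv_mem ht)⟩
  have hMnorm : M ≤ Subgroup.normalizer (Z : Set G) := by
    rw [← hsupEq]
    exact sup_le (hNP.trans hPnorm) hUnorm
  have hZn : Z.Normal := by
    apply Subgroup.normalizer_eq_top_iff.1
    rw [eq_top_iff, ← hPKtop]
    exact sup_le hPnorm (le_sup_right.trans hMnorm)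
  haveI := hZn
  haveI : IsCyclic Z := isCyclic_of_prime_card hZc
  apply super_ext Z
  have hlt : Nat.card (G ⧸ Z) < n := by
    rw [← hn]
    have h2 := Subgroup.card_mul_index Z
    rw [hZc] at h2
    have e : Nat.card (G ⧸ Z) = Z.index := rfl
    rw [e, ← h2]
    have h3 : 0 < Z.index := Nat.pos_of_ne_zero Subgroup.index_ne_zero_of_finite
    have h4 := hp.two_le
    nlinarith
  exact ih _ hlt (G ⧸ Z) rfl (her_quot h Z (by rw [hZc]; exact hp))

/-- If every subgroup of a finite group has subgroups of all orders dividing its order, then the group is supersolvable. -/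
theorem result {G : Type*} [Group G] [Finite G] (h : ∀ H : Subgroup G, Cfsg.HasSubgroupOfEveryOrder H) : Cfsg.IsSupersolvable G := by
  exact her_super _ G rfl h

end Cfsg.Agent.S0533
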