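import Cfsg.Statements.S0535
import Mathlib
import Cfsg.Agent.Lib.HallSolv

set_option autoImplicit false
open Cfsg

namespace Cfsg.Agent.S0535

/-- Suppose that for every nontrivial subgroup H of a finite group and every prime p dividing the order of H there is a proper subgroup of H whose index in H is a power of p. Then the group is solvable. -/
theorem result {G : Type*} [Group G] [Finite G] (h : ∀ H : Subgroup G, H ≠ ⊥ → ∀ p : ℕ, p.Prime → p ∣ Nat.card H → ∃ K : Subgroup H, K ≠ ⊤ ∧ ∃ k : ℕ, K.index = p ^ k) : Group.IsSolvable G := by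
  classical
  refine Cfsg.Agent.Lib.HallSolv.solvable_of_complements _ G rfl fun t ht => ?_
  -- minimal subgroup of `t`-power index
  let S : Set (Subgroup G) := {H | ∃ k : ℕ, H.index = t ^ k}
  have hS : S.Nonempty := ⟨⊤, 0, by simp⟩
  obtain ⟨H, hH⟩ := (Set.toFinite S).exists_minimal hS
  obtain ⟨⟨k, hk⟩, hmin⟩ := hH
  refine ⟨H, ?_, k, hk⟩
  rw [Nat.coprime_comm, Nat.Prime.coprime_iff_not_dvd ht]
  intro hd
  have hne : H ≠ ⊥ := by
    rintro rfl
    simp at hd
    exact ht.one_lt.ne' hd
  obtain ⟨K, hK, j, hj⟩ := h H hne t ht hd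
  let K' : Subgroup G := K.map H.subtype
  have hK'le : K' ≤ H := Subgroup.map_subtype_le K
  have hK'S : K' ∈ S := by
    refine ⟨k + j, ?_⟩
    have h1 : K'.index = K.index * H.index := by
      have := Subgroup.index_map_subtype K
      exact this
    rw [h1, hj, hk, pow_add, mul_comm]
  have h2 := hmin hK'S hK'le
  have h3 : K' = H := le_antisymm hK'le h2
  apply hK
  ext x
  simp only [Subgroup.mem_top, iff_true]
  have hx : (x : G) ∈ K' := by rw [h3]; exact x.2
  obtain ⟨y, hy, hyx⟩ := hx
  have : y = x := Subtype.ext hyx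
  rw [← this]
  exact hy

end Cfsg.Agent.S0535
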