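import Cfsg.Statements.S0542
import Cfsg.Agent.Lib.SubnormalJoin
import Cfsg.Agent.Lib.FitCore

set_option autoImplicit false
open Cfsg

namespace Cfsg.Agent.S0542

/-- A Sylow p-subgroup of a finite group meets every subnormal subgroup H in a Sylow p-subgroup of H. -/
theorem result {G : Type*} [Group G] [Finite G] (p : ℕ) [Fact p.Prime] (H : Subgroup G) (hH : H.IsSubnormal) (S : Sylow p G) : ∃ Q : Sylow p H, (Q : Subgroup H) = (S : Subgroup G).subgroupOf H := by
  classical
  have hSN := Cfsg.Agent.Lib.SubnormalJoin.isSubnormal_iff_SN.mp hH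
  have key : ¬ p ∣ (S : Subgroup G).relIndex H := by
    induction hSN with
    | refl =>
      rw [Subgroup.relIndex_top_right]
      exact S.not_dvd_index
    | @step H L hHL hL hn ih =>
      intro hdvd
      apply ih (Cfsg.Agent.Lib.SubnormalJoin.isSubnormal_iff_SN.mpr hL)
      haveI : (H.subgroupOf L).Normal := (Subgroup.normal_subgroupOf_iff_le_normalizer hHL).mpr hn
      have h1 := Cfsg.Agent.Lib.FitCore.relIndex_dvd_index_of_normal_right ((S : Subgroup G).subgroupOf L) (H.subgroupOf L)
      rw [Subgroup.relIndex_subgroupOf hHL] at h1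
      exact hdvd.trans h1
  have hp1 : IsPGroup p ((S : Subgroup G).subgroupOf H) :=
    S.isPGroup'.comap_of_injective H.subtype H.subtype_injective
  exact ⟨hp1.toSylow key, rfl⟩

end Cfsg.Agent.S0542
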