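import Cfsg.Statements.S0547
import Mathlib
import Cfsg.Agent.Lib.PrimOne

set_option autoImplicit false
set_option linter.style.haveILetI false
set_option linter.unusedVariables false
open scoped Pointwise
open Cfsg

namespace Cfsg.Agent.S0547

/-- Let a finite solvable group G act faithfully and primitively on a set, and let M be a minimal normal subgroup of G. Then M is transitive with trivial point stabilizers, and the number of points equals the order of M, which is a prime power p ^ d with d ≥ 1. -/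
theorem result {G : Type*} [Group G] [Finite G] [Group.IsSolvable G] {Ω : Type*} [Nonempty Ω] [MulAction G Ω] [FaithfulSMul G Ω] (hprim : MulAction.IsPreprimitive G Ω) (M : Subgroup G) [M.Normal] (hM : M ≠ ⊥) (hmin : ∀ K : Subgroup G, K.Normal → K ≤ M → K = ⊥ ∨ K = M) : MulAction.IsPretransitive M Ω ∧ (∀ ω : Ω, MulAction.stabilizer M ω = ⊥) ∧ ∃ p d : ℕ, p.Prime ∧ 0 < d ∧ Nat.card Ω = p ^ d ∧ Nat.card M = p ^ d := by
  classical
  haveI := hprim.toIsPretransitive
  obtain ⟨ω₀⟩ := (inferInstance : Nonempty Ω)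
  obtain ⟨hsup, hinf, hcen, hc, p, hp, hexp⟩ := Cfsg.Agent.Lib.PrimOne.solvable_prim hprim M hM hmin ω₀
  haveI : Fact p.Prime := ⟨hp⟩
  have hcomp : Subgroup.IsComplement' M (MulAction.stabilizer G ω₀) := by
    refine Subgroup.isComplement'_of_disjoint_and_mul_eq_univ (disjoint_iff.2 hinf) ?_
    rw [← Subgroup.normal_mul, hsup]
    rfl
  have hreach : ∀ a : Ω, ∃ m : M, m • ω₀ = a := by
    intro a
    obtain ⟨g, hg⟩ := MulAction.exists_smul_eq G ω₀ a
    have hx : g ∈ ((M ⊔ MulAction.stabilizer G ω₀ : Subgroup G) : Set G) := by rw [hsup]; trivial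
    rw [Subgroup.normal_mul] at hx
    obtain ⟨m, hm, s, hs, he⟩ := hx
    refine ⟨⟨m, hm⟩, ?_⟩
    have he' : m * s = g := he
    have hs' : s • ω₀ = ω₀ := hs
    show m • ω₀ = a
    rw [← hg, ← he', mul_smul, hs']
  refine ⟨?_, ?_, ?_⟩
  · refine ⟨fun a b => ?_⟩
    obtain ⟨m₁, rfl⟩ := hreach a
    obtain ⟨m₂, rfl⟩ := hreach b
    exact ⟨m₂ * m₁⁻¹, by rw [smul_smul]; simp⟩
  · intro ω
    obtain ⟨-, hinf', -⟩ := Cfsg.Agent.Lib.PrimOne.solvable_prim hprim M hM hmin ω
    rw [eq_bot_iff]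
    intro x hx
    have h1 : (x : G) ∈ M ⊓ MulAction.stabilizer G ω := ⟨x.2, hx⟩
    rw [hinf'] at h1
    exact Subgroup.mem_bot.2 (Subtype.ext h1)
  · have hMp : IsPGroup p M := by
      intro x
      refine ⟨1, ?_⟩
      apply Subtype.ext
      simpa using hexp x x.2
    obtain ⟨d, hd⟩ := IsPGroup.iff_card.1 hMp
    have hidx := hcomp.symm.index_eq_card
    have hcard : Nat.card Ω = Nat.card M := by
      rw [← MulAction.index_stabilizer_of_transitive G ω₀]
      exact hcomp.index_eq_card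
    refine ⟨p, d, hp, ?_, by rw [hcard, hd], hd⟩
    refine Nat.pos_of_ne_zero ?_
    rintro rfl
    rw [pow_zero] at hd
    exact hM (Subgroup.card_eq_one.1 hd)

end Cfsg.Agent.S0547
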