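import Cfsg.Statements.S0548
import Mathlib
import Cfsg.Agent.Lib.PrimOne

set_option autoImplicit false
set_option linter.style.haveILetI false
set_option linter.unusedVariables false
open scoped ComplexConjugate
open scoped Pointwise
open Cfsg

namespace Cfsg.Agent.S0548

/-- Let a finite solvable group G act faithfully and primitively on a set, let M be a minimal normal subgroup and H the stabilizer of a point. Then H is a complement to M, no non-identity element of H centralizes M, and the only subgroups of M normalized by H are the trivial subgroup and M. -/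
theorem result {G : Type*} [Group G] [Finite G] [Group.IsSolvable G] {Ω : Type*} [MulAction G Ω] [FaithfulSMul G Ω] (hprim : MulAction.IsPreprimitive G Ω) (M : Subgroup G) [M.Normal] (hM : M ≠ ⊥) (hmin : ∀ K : Subgroup G, K.Normal → K ≤ M → K = ⊥ ∨ K = M) (ω : Ω) : Subgroup.IsComplement' M (MulAction.stabilizer G ω) ∧ MulAction.stabilizer G ω ⊓ Subgroup.centralizer (M : Set G) = ⊥ ∧ ∀ K : Subgroup G, K ≤ M → MulAction.stabilizer G ω ≤ Subgroup.normalizer (K : Set G) → K = ⊥ ∨ K = M := by
  obtain ⟨hsup, hinf, hcen, hc, p, hp, hexp⟩ := Cfsg.Agent.Lib.PrimOne.solvable_prim hprim M hM hmin ω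
  refine ⟨?_, ?_, ?_⟩
  · refine Subgroup.isComplement'_of_disjoint_and_mul_eq_univ (disjoint_iff.2 hinf) ?_
    rw [← Subgroup.normal_mul, hsup]
    rfl
  · rw [inf_comm]; exact hcen
  · intro K hKM hKn
    refine hmin K ?_ hKM
    have htop : Subgroup.normalizer (K : Set G) = ⊤ := by
      rw [eq_top_iff, ← hsup]
      refine sup_le ?_ hKn
      intro b hb
      apply Cfsg.Agent.Lib.H5Basic.mem_normalizer_of_map_conj_le
      rintro _ ⟨x, hx, rfl⟩
      have h1 : b * x = x * b := hc b hb x (hKM hx)
      have h2 : (MulAut.conj b).toMonoidHom x = x := by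
        show b * x * b⁻¹ = x
        rw [h1]; group
      rw [h2]
      exact hx
    exact Subgroup.normalizer_eq_top_iff.1 htop

end Cfsg.Agent.S0548
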