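import Cfsg.Statements.S0549
import Mathlib

set_option autoImplicit false
open Cfsg

namespace Cfsg.Agent.S0549

/-- Let U be a maximal subgroup of a finite group G whose normal core is trivial, and N a nontrivial normal subgroup with centralizer C. Then C ∩ U = 1, and either C = 1 or C is a minimal normal subgroup of G. -/
theorem result {G : Type*} [Group G] [Finite G] (U : Subgroup G) (hU : IsCoatom U) (hcore : U.normalCore = ⊥) (N : Subgroup G) [N.Normal] (hN : N ≠ ⊥) : Subgroup.centralizer (N : Set G) ⊓ U = ⊥ ∧ (Subgroup.centralizer (N : Set G) = ⊥ ∨ (Subgroup.centralizer (N : Set G) ≠ ⊥ ∧ ∀ K : Subgroup G, K.Normal → K ≤ Subgroup.centralizer (N : Set G) → K = ⊥ ∨ K = Subgroup.centralizer (N : Set G))) := by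
  classical
  obtain ⟨C, hC⟩ : ∃ C, C = Subgroup.centralizer (N : Set G) := ⟨_, rfl⟩
  rw [← hC]
  have hCn : C.Normal := by
    rw [hC]
    exact Subgroup.normal_centralizer
  have hdecomp : ∀ K : Subgroup G, K.Normal → K ≠ ⊥ → ∀ g : G, ∃ u ∈ U, ∃ k ∈ K, g = u * k := by
    intro K hK hKb g
    have h1 : ¬ K ≤ U := by
      intro h
      apply hKb
      have h2 : K ≤ U.normalCore := Subgroup.normal_le_normalCore.mpr h
      rw [hcore] at h2
      exact le_bot_iff.mp h2
    have h3 : U < U ⊔ K := lt_of_le_of_ne le_sup_left (fun h => h1 (by rw [h]; exact le_sup_right))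
    have h4 := hU.2 _ h3
    have h5 : g ∈ ((U ⊔ K : Subgroup G) : Set G) := by rw [h4]; trivial
    rw [Subgroup.mul_normal] at h5
    obtain ⟨u, hu, k, hk, rfl⟩ := Set.mem_mul.mp h5
    exact ⟨u, hu, k, hk, rfl⟩
  have hD : C ⊓ U = ⊥ := by
    have hDn : (C ⊓ U).Normal := by
      constructor
      intro x hx g
      obtain ⟨u, hu, n, hn, rfl⟩ := hdecomp N inferInstance hN g
      have hcomm : n * x = x * n := by
        have h1 : x ∈ Subgroup.centralizer (N : Set G) := hC ▸ hx.1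
        exact ((Subgroup.mem_centralizer_iff.mp h1 n hn)).symm ▸ rfl
      have h2 : u * n * x * (u * n)⁻¹ = u * x * u⁻¹ := by
        calc u * n * x * (u * n)⁻¹ = u * (n * x) * n⁻¹ * u⁻¹ := by group
          _ = u * (x * n) * n⁻¹ * u⁻¹ := by rw [hcomm]
          _ = u * x * u⁻¹ := by group
      rw [h2]
      exact ⟨hCn.conj_mem x hx.1 u, U.mul_mem (U.mul_mem hu hx.2) (U.inv_mem hu)⟩
    have h3 : C ⊓ U ≤ U.normalCore := Subgroup.normal_le_normalCore.mpr inf_le_right
    rw [hcore] at h3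
    exact le_bot_iff.mp h3
  refine ⟨hD, ?_⟩
  by_cases hCb : C = ⊥
  · exact Or.inl hCb
  refine Or.inr ⟨hCb, fun K hK hKC => ?_⟩
  by_cases hKb : K = ⊥
  · exact Or.inl hKb
  refine Or.inr (le_antisymm hKC fun c hc => ?_)
  obtain ⟨u, hu, k, hk, rfl⟩ := hdecomp K hK hKb c
  have h1 : u = u * k * k⁻¹ := by group
  have h2 : u ∈ C ⊓ U := ⟨by
    rw [h1]
    exact C.mul_mem hc (C.inv_mem (hKC hk)), hu⟩
  rw [hD, Subgroup.mem_bot] at h2
  rw [h2, one_mul]
  exact hk

end Cfsg.Agent.S0549
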