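import Cfsg.Statements.S0552
import Mathlib
import Cfsg.Agent.Lib.FitSolv
import Cfsg.Agent.Lib.FitCore

set_option autoImplicit false
set_option linter.style.haveILetI false
set_option linter.unusedVariables false
open scoped ComplexConjugate
open scoped Pointwise
open Cfsg

namespace Cfsg.Agent.S0552

/-- Let σ be an automorphism of a finite solvable group G fixing every element of the Fitting subgroup. If σ is not the identity then the order of σ and the order of G have a common prime factor. -/
theorem result {G : Type*} [Group G] [Finite G] [Group.IsSolvable G] (σ : G ≃* G) (hσ : ∀ x ∈ Cfsg.fittingSubgroup G, σ x = x) (hne : σ ≠ MulEquiv.refl G) : ¬ (orderOf σ).Coprime (Nat.card G) := by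
  classical
  intro hcop
  apply hne
  have hFn : (Cfsg.fittingSubgroup G).Normal := Cfsg.Agent.Lib.FitCore.fitting_normal
  have key : ∀ g : G, g⁻¹ * σ g = 1 := by
    intro g
    have hz : g⁻¹ * σ g ∈ Cfsg.fittingSubgroup G := by
      apply Cfsg.Agent.Lib.FitSolv.centralizer_fitting_le
      refine Subgroup.mem_centralizer_iff.2 ?_
      intro x hx
      have h1 := hσ _ (hFn.conj_mem x hx g)
      rw [map_mul, map_mul, map_inv, hσ x hx] at h1
      have h2 : x * (g⁻¹ * σ g) = (g⁻¹ * σ g) * x := by
        have h3 : σ g = g * (g⁻¹ * σ g) := by group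
        rw [h3] at h1
        have h4 : g * ((g⁻¹ * σ g) * x * (g⁻¹ * σ g)⁻¹) * g⁻¹ = g * x * g⁻¹ := by
          rw [← h1]
          group
        have h5 := mul_left_cancel (mul_right_cancel h4)
        have h6 : (g⁻¹ * σ g) * x = x * (g⁻¹ * σ g) := mul_inv_eq_iff_eq_mul.1 h5
        exact h6.symm
      exact h2
    let z := g⁻¹ * σ g
    have hz1 : σ z = z := hσ z hz
    have hpow : ∀ n : ℕ, (σ ^ n) g = g * z ^ n := by
      intro n
      induction n with
      | zero => simp
      | succ n ih =>
        have h1 : σ g = g * z := by simp [z]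
        rw [pow_succ']
        show σ ((σ ^ n) g) = _
        rw [ih, map_mul, h1, map_pow, hz1, pow_succ']
        group
    have h2 := hpow (orderOf σ)
    rw [pow_orderOf_eq_one] at h2
    have h3 : z ^ orderOf σ = 1 := by
      have : g = g * z ^ orderOf σ := h2
      simpa using this.symm
    have h4 : orderOf z ∣ orderOf σ := orderOf_dvd_of_pow_eq_one h3
    have h5 : orderOf z ∣ Nat.card G := orderOf_dvd_natCard z
    exact orderOf_eq_one_iff.1 (Nat.eq_one_of_dvd_coprimes hcop h4 h5)
  ext g
  have := key g
  have h1 : σ g = g := by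
    have h2 : σ g = g * (g⁻¹ * σ g) := by group
    rw [h2, this, mul_one]
  exact h1

end Cfsg.Agent.S0552
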