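import Cfsg.Statements.S0555
import Mathlib
import Cfsg.Agent.Lib.Supersolvable

set_option autoImplicit false
set_option linter.style.haveILetI false
set_option linter.unusedVariables false
open scoped Pointwise
open Cfsg

namespace Cfsg.Agent.S0555

/-- Let i ≥ 1. If in the derived series of a group the quotient of the i-th term by the (i+1)-st and the quotient of the (i+1)-st by the (i+2)-nd are both cyclic, then the (i+1)-st and (i+2)-nd terms coincide. -/
theorem result {G : Type*} [Group G] (i : ℕ) (hi : 1 ≤ i) (h₁ : IsCyclic (↥(derivedSeries G i) ⧸ (derivedSeries G (i + 1)).subgroupOf (derivedSeries G i))) (h₂ : IsCyclic (↥(derivedSeries G (i + 1)) ⧸ (derivedSeries G (i + 2)).subgroupOf (derivedSeries G (i + 1)))) : derivedSeries G (i + 1) = derivedSeries G (i + 2) := by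
  classical
  haveI hn1 : (derivedSeries G (i + 1)).Normal := derivedSeries_normal G (i + 1)
  haveI hn2 : (derivedSeries G (i + 2)).Normal := derivedSeries_normal G (i + 2)
  have hle : derivedSeries G (i + 2) ≤ derivedSeries G (i + 1) := by
    rw [show i + 2 = (i + 1) + 1 from rfl, derivedSeries_succ]
    exact Subgroup.commutator_le_left _ _
  refine le_antisymm ?_ hle
  let π := QuotientGroup.mk' (derivedSeries G (i + 2))
  have hone : ∀ x : G, π x = 1 ↔ x ∈ derivedSeries G (i + 2) := fun x => QuotientGroup.eq_one_iff x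
  obtain ⟨q, hq⟩ := IsCyclic.exists_generator (α := ↥(derivedSeries G (i + 1)) ⧸ (derivedSeries G (i + 2)).subgroupOf (derivedSeries G (i + 1)))
  obtain ⟨t, rfl⟩ := QuotientGroup.mk_surjective q
  have hgen : ∀ y ∈ derivedSeries G (i + 1), ∃ k : ℤ, π y = π t ^ k := by
    intro y hy
    obtain ⟨k, hk⟩ := hq ((⟨y, hy⟩ : derivedSeries G (i + 1)) : ↥(derivedSeries G (i + 1)) ⧸ (derivedSeries G (i + 2)).subgroupOf (derivedSeries G (i + 1)))
    refine ⟨k, ?_⟩
    have hk' : (((t ^ k : derivedSeries G (i + 1)) : derivedSeries G (i + 1)) : ↥(derivedSeries G (i + 1)) ⧸ (derivedSeries G (i + 2)).subgroupOf (derivedSeries G (i + 1))) = ((⟨y, hy⟩ : derivedSeries G (i + 1)) : ↥(derivedSeries G (i + 1)) ⧸ (derivedSeries G (i + 2)).subgroupOf (derivedSeries G (i + 1))) := by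
      rw [QuotientGroup.mk_zpow]
      exact hk
    rw [QuotientGroup.eq, Subgroup.mem_subgroupOf] at hk'
    have h2 := (hone _).2 hk'
    simp only [Subgroup.coe_mul, Subgroup.coe_inv, map_mul, map_inv, Subgroup.coe_zpow, map_zpow] at h2
    have h3 : π (t : G) ^ k = π y := inv_mul_eq_one.1 h2
    exact h3.symm
  have hNn : ((derivedSeries G (i + 1)).map π).Normal := hn1.map π (QuotientGroup.mk'_surjective _)
  haveI hNc : IsCyclic ((derivedSeries G (i + 1)).map π) := by
    refine ⟨⟨⟨π t, ⟨t, t.2, rfl⟩⟩, ?_⟩⟩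
    rintro ⟨_, ⟨y, hy, rfl⟩⟩
    obtain ⟨k, hk⟩ := hgen y hy
    refine ⟨k, ?_⟩
    apply Subtype.ext
    rw [SubgroupClass.coe_zpow]
    exact hk.symm
  have hHG : derivedSeries G i ≤ commutator G := by
    obtain ⟨j, rfl⟩ : ∃ j, i = j + 1 := ⟨i - 1, by omega⟩
    rw [derivedSeries_succ, commutator_def]
    exact Subgroup.commutator_mono le_top le_top
  have hπc : ∀ x ∈ commutator G, π x ∈ commutator (G ⧸ derivedSeries G (i + 2)) := by
    intro x hx
    have hle2 : commutator G ≤ (commutator (G ⧸ derivedSeries G (i + 2))).comap π := by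
      rw [commutator_def, Subgroup.commutator_le]
      intro a _ b _
      rw [Subgroup.mem_comap, map_commutatorElement, commutator_def]
      exact Subgroup.commutator_mem_commutator (Subgroup.mem_top _) (Subgroup.mem_top _)
    exact hle2 hx
  have hA : ∀ h ∈ derivedSeries G i, ∀ y ∈ derivedSeries G (i + 1), π h * π y = π y * π h := by
    intro h hh y hy
    exact @Cfsg.Agent.Lib.Supersolvable.commutator_centralizes _ _ _ hNn hNc _ (hπc h (hHG hh)) _ ⟨y, hy, rfl⟩
  have hNcomm : ∀ u ∈ derivedSeries G (i + 1), ∀ v ∈ derivedSeries G (i + 1), π u * π v = π v * π u := by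
    intro u hu v hv
    obtain ⟨a, ha⟩ := hgen u hu
    obtain ⟨b, hb⟩ := hgen v hv
    rw [ha, hb]
    exact ((Commute.refl (π t)).zpow_zpow a b).eq
  obtain ⟨q', hq'⟩ := IsCyclic.exists_generator (α := ↥(derivedSeries G i) ⧸ (derivedSeries G (i + 1)).subgroupOf (derivedSeries G i))
  obtain ⟨s, rfl⟩ := QuotientGroup.mk_surjective q'
  have hdec : ∀ x ∈ derivedSeries G i, ∃ (k : ℤ), ∃ u ∈ derivedSeries G (i + 1), x = (s : G) ^ k * u := by
    intro x hx
    obtain ⟨k, hk⟩ := hq' ((⟨x, hx⟩ : derivedSeries G i) : ↥(derivedSeries G i) ⧸ (derivedSeries G (i + 1)).subgroupOf (derivedSeries G i))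
    have hk' : (((s ^ k : derivedSeries G i) : derivedSeries G i) : ↥(derivedSeries G i) ⧸ (derivedSeries G (i + 1)).subgroupOf (derivedSeries G i)) = ((⟨x, hx⟩ : derivedSeries G i) : ↥(derivedSeries G i) ⧸ (derivedSeries G (i + 1)).subgroupOf (derivedSeries G i)) := by
      rw [QuotientGroup.mk_zpow]
      exact hk
    rw [QuotientGroup.eq, Subgroup.mem_subgroupOf] at hk'
    refine ⟨k, _, hk', ?_⟩
    simp
  rw [show derivedSeries G (i + 1) = ⁅derivedSeries G i, derivedSeries G i⁆ from derivedSeries_succ G i]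
  rw [Subgroup.commutator_le]
  intro x hx y hy
  rw [← hone]
  obtain ⟨a, u, hu, rfl⟩ := hdec x hx
  obtain ⟨b, v, hv, rfl⟩ := hdec y hy
  have hsv : ∀ w ∈ derivedSeries G (i + 1), ∀ c : ℤ, Commute (π (s : G) ^ c) (π w) := by
    intro w hw c
    exact (show Commute (π (s : G)) (π w) from hA s s.2 w hw).zpow_left c
  have hcomm : Commute (π ((s : G) ^ a * u)) (π ((s : G) ^ b * v)) := by
    simp only [map_mul, map_zpow]
    refine Commute.mul_left (Commute.mul_right ?_ (hsv v hv a)) (Commute.mul_right ?_ (show Commute (π u) (π v) from hNcomm u hu v hv))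
    · exact (Commute.refl _).zpow_zpow a b
    · exact (hsv u hu b).symm
  rw [map_commutatorElement, commutatorElement_eq_one_iff_mul_comm]
  exact hcomm.eq

end Cfsg.Agent.S0555
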