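import Cfsg.Statements.S0556
import Mathlib
import Cfsg.Agent.S0034
import Cfsg.Agent.S0033
import Cfsg.Agent.S0065
import Cfsg.Agent.Lib.FrobThm
import Cfsg.Agent.Lib.FitCore
import Cfsg.Agent.Lib.H5Basic

set_option autoImplicit false
set_option linter.style.haveILetI false
set_option linter.unusedVariables false
open scoped ComplexConjugate
open scoped Pointwise
open Cfsg

namespace Cfsg.Agent.S0556

/-- If a finite group has a maximal subgroup that is abelian, then the third term of its derived series is trivial (so the group is solvable of derived length at most three). -/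
theorem result {G : Type*} [Group G] [Finite G] (A : Subgroup G) (hA : IsCoatom A) [IsMulCommutative A] : derivedSeries G 3 = ⊥ := by
  classical
  have hAc : ∀ x ∈ A, ∀ y ∈ A, x * y = y * x := by
    intro x hx y hy
    have := mul_comm' (⟨x, hx⟩ : A) ⟨y, hy⟩
    exact congrArg Subtype.val this
  have hbotc : ∀ (H : Subgroup G), (∀ x ∈ H, ∀ y ∈ H, x * y = y * x) → ⁅H, H⁆ = ⊥ := by
    intro H hH
    rw [eq_bot_iff, Subgroup.commutator_le]
    intro x hx y hy
    simp only [Subgroup.mem_bot]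
    rw [commutatorElement_eq_one_iff_mul_comm]
    exact hH x hx y hy
  have hd3 : ∀ (H : Subgroup G), (∀ x ∈ H, ∀ y ∈ H, x * y = y * x) → derivedSeries G 2 ≤ H → derivedSeries G 3 = ⊥ := by
    intro H hH hle
    rw [derivedSeries_succ, eq_bot_iff, ← hbotc H hH]
    exact Subgroup.commutator_mono hle hle
  by_cases hAn : A.Normal
  · haveI := hAn
    apply hd3 A hAc
    obtain ⟨g, hg⟩ : ∃ g, g ∉ A := by
      by_contra hall
      push_neg at hall
      exact hA.1 (eq_top_iff.2 fun g _ => hall g)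
    have hsup : A ⊔ Subgroup.zpowers g = ⊤ :=
      hA.2 _ (lt_of_le_of_ne le_sup_left (fun h => hg (by
        rw [h]; exact Subgroup.mem_sup_right (Subgroup.mem_zpowers g))))
    have hdec : ∀ x : G, ∃ a ∈ A, ∃ i : ℤ, x = a * g ^ i := by
      intro x
      have hx : x ∈ (A : Set G) * (Subgroup.zpowers g : Subgroup G) := by
        rw [← Subgroup.normal_mul, hsup]; trivial
      obtain ⟨a, ha, b, hb, he⟩ := hx
      obtain ⟨i, rfl⟩ := Subgroup.mem_zpowers_iff.1 hb
      exact ⟨a, ha, i, he.symm⟩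
    have hG' : derivedSeries G 1 ≤ A := by
      rw [derivedSeries_one, commutator_def, Subgroup.commutator_le]
      intro x _ y _
      obtain ⟨a, ha, i, rfl⟩ := hdec x
      obtain ⟨b, hb, j, rfl⟩ := hdec y
      let π : G →* G ⧸ A := QuotientGroup.mk' A
      have hπ1 : ∀ c ∈ A, π c = 1 := fun c hc => (QuotientGroup.eq_one_iff c).2 hc
      rw [← QuotientGroup.eq_one_iff]
      show π _ = 1
      rw [map_commutatorElement, commutatorElement_eq_one_iff_mul_comm]
      simp only [map_mul, hπ1 a ha, hπ1 b hb, one_mul, map_zpow]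
      exact (Commute.refl (π g)).zpow_zpow i j
    have h2 : derivedSeries G 2 ≤ ⁅A, A⁆ := by
      rw [derivedSeries_succ]; exact Subgroup.commutator_mono hG' hG'
    rw [hbotc A hAc] at h2
    exact h2.trans bot_le
  -- A not normal
  let Z : Subgroup G := Subgroup.center G
  have hNA : Subgroup.normalizer (A : Set G) = A := by
    by_contra hne
    have hlt : A < Subgroup.normalizer (A : Set G) := lt_of_le_of_ne Subgroup.le_normalizer (Ne.symm hne)
    exact hAn (Subgroup.normalizer_eq_top_iff.1 (hA.2 _ hlt))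
  have hZA : Z ≤ A := by
    rw [← hNA]
    exact Subgroup.center_le_normalizer _
  have hZc : ∀ x ∈ Z, ∀ y ∈ Z, x * y = y * x := by
    intro x hx y hy
    exact (Subgroup.mem_center_iff.1 hx y).symm
  apply hd3 Z hZc
  -- intersections
  have hcen : ∀ g : G, g ∉ A → ∀ c, c ∈ A → (g⁻¹ * c * g) ∈ A → c ∈ Z := by
    intro g hg c hc1 hc2
    let B : Subgroup G := A.map (MulAut.conj g).toMonoidHom
    have hBne : ¬ B ≤ A := by
      intro hle
      apply hg
      rw [← hNA]
      exact Cfsg.Agent.Lib.H5Basic.mem_normalizer_of_map_conj_le hle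
    have hsup : A ⊔ B = ⊤ := hA.2 _ (lt_of_le_of_ne le_sup_left (fun h => hBne (by rw [h]; exact le_sup_right)))
    have hle : A ⊔ B ≤ Subgroup.centralizer ({c} : Set G) := by
      refine sup_le ?_ ?_
      · intro a ha
        rw [Subgroup.mem_centralizer_singleton_iff]
        exact hAc a ha c hc1
      · rintro _ ⟨b, hb, rfl⟩
        rw [Subgroup.mem_centralizer_singleton_iff]
        have h4 := hAc b hb _ hc2
        simp only [MulEquiv.coe_toMonoidHom, MulAut.conj_apply]
        calc g * b * g⁻¹ * c = g * (b * (g⁻¹ * c * g)) * g⁻¹ := by group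
          _ = g * ((g⁻¹ * c * g) * b) * g⁻¹ := by rw [h4]
          _ = c * (g * b * g⁻¹) := by group
    rw [hsup] at hle
    refine Subgroup.mem_center_iff.2 fun y => ?_
    have h5 := hle (Subgroup.mem_top y)
    rw [Subgroup.mem_centralizer_singleton_iff] at h5
    exact h5
  let π : G →* G ⧸ Z := QuotientGroup.mk' Z
  have hπs : Function.Surjective π := QuotientGroup.mk'_surjective Z
  have hπk : ∀ g, π g = 1 ↔ g ∈ Z := fun g => QuotientGroup.eq_one_iff g
  let Ab : Subgroup (G ⧸ Z) := A.map π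
  have hAbmem : ∀ g, π g ∈ Ab ↔ g ∈ A := by
    intro g
    constructor
    · rintro ⟨c, hc, he⟩
      have h1 : c⁻¹ * g ∈ Z := by
        rw [← hπk, map_mul, map_inv, he, inv_mul_cancel]
      have := A.mul_mem hc (hZA h1)
      simpa using this
    · intro h
      exact ⟨g, h, rfl⟩
  have hAbc : ∀ x ∈ Ab, ∀ y ∈ Ab, x * y = y * x := by
    rintro _ ⟨a, ha, rfl⟩ _ ⟨b, hb, rfl⟩
    rw [← map_mul, ← map_mul, hAc a ha b hb]
  have hF : Cfsg.IsFrobeniusComplement Ab := by
    refine ⟨?_, ?_, ?_⟩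
    · intro h
      apply hAn
      have hAZ : A = Z := by
        apply le_antisymm _ hZA
        intro a ha
        have h1 : π a ∈ Ab := ⟨a, ha, rfl⟩
        rw [h, Subgroup.mem_bot, hπk] at h1
        exact h1
      rw [hAZ]
      infer_instance
    · intro h
      apply hA.1
      rw [eq_top_iff]
      intro g _
      have h1 : π g ∈ Ab := by rw [h]; trivial
      exact (hAbmem g).1 h1
    · intro gb hgb
      obtain ⟨g, rfl⟩ := hπs gb
      have hg : g ∉ A := fun h => hgb ((hAbmem g).2 h)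
      rw [eq_bot_iff]
      rintro w ⟨hw1, hw2⟩
      obtain ⟨c, hc, rfl⟩ := hw1
      have hd : (MulAut.conj (π g))⁻¹ • π c ∈ Ab := Subgroup.mem_pointwise_smul_iff_inv_smul_mem.1 hw2
      rw [Subgroup.mem_bot, hπk]
      apply hcen g hg c hc
      rw [← hAbmem]
      have h3 : π (g⁻¹ * c * g) = (MulAut.conj (π g))⁻¹ • π c := by
        rw [MulAut.smul_def, MulAut.conj_inv_apply, map_mul, map_mul, map_inv]
      rw [h3]; exact hd
  have hAbco : IsCoatom Ab := by
    refine ⟨hF.2.1, fun Lb hLb => ?_⟩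
    have h1 : A < Lb.comap π := by
      refine lt_of_le_of_ne (fun a ha => ?_) ?_
      · show π a ∈ Lb
        exact hLb.le ⟨a, ha, rfl⟩
      · intro he
        apply hLb.ne
        apply le_antisymm hLb.le
        intro y hy
        obtain ⟨g, rfl⟩ := hπs y
        have : g ∈ Lb.comap π := hy
        rw [← he] at this
        exact ⟨g, this, rfl⟩
    have h2 := hA.2 _ h1
    rw [eq_top_iff]
    intro y _
    obtain ⟨g, rfl⟩ := hπs y
    have : g ∈ Lb.comap π := by rw [h2]; trivial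
    exact this
  cases nonempty_fintype (G ⧸ Z)
  obtain ⟨Kb, hKb, hKbn⟩ := Cfsg.Agent.Lib.FrobThm.exists_normal_eq_kernel Ab hF
  haveI := hKbn
  have hKbA : ∀ w, w ∈ Kb → w ∈ Ab → w = 1 := by
    intro w hw hw2
    have h1 : w ∈ Cfsg.frobeniusKernel Ab := by rw [← hKb]; exact hw
    rcases h1 with h | h
    · exact h
    · exfalso
      apply h 1
      simpa using hw2
  have hKbne : Kb ≠ ⊥ := by
    intro hb
    have hcard := (Cfsg.Agent.S0034.result Ab hF).1
    rw [← hKb, hb] at hcard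
    have h6 : Ab.index = 1 := by
      rw [← hcard]
      simp
    exact hF.2.1 (Subgroup.index_eq_one.1 h6)
  -- an element of prime order in Ab
  have hAbcard : Nat.card Ab ≠ 1 := fun h => hF.1 (Subgroup.card_eq_one.1 h)
  obtain ⟨r, hr, hrd⟩ := Nat.exists_prime_and_dvd hAbcard
  haveI : Fact r.Prime := ⟨hr⟩
  obtain ⟨a, haO⟩ := exists_prime_orderOf_dvd_card' (G := Ab) r hrd
  have haO' : orderOf (a : G ⧸ Z) = r := by rw [Subgroup.orderOf_coe]; exact haO
  have ha1 : (a : G ⧸ Z) ≠ 1 := by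
    intro h
    rw [h, orderOf_one] at haO'
    exact hr.one_lt.ne haO'
  let φ : MulAut Kb := MulAut.conjNormal (a : G ⧸ Z)
  have hφk : ∀ k : Kb, ((φ k : Kb) : G ⧸ Z) = (a : G ⧸ Z) * k * (a : G ⧸ Z)⁻¹ := by
    intro k
    exact MulAut.conjNormal_apply _ k
  have hφfp : MonoidHom.FixedPointFree (φ : Kb →* Kb) := by
    intro k hk
    by_contra hk1
    have hk2 : (k : G ⧸ Z) ≠ 1 := fun h => hk1 (Subtype.ext h)
    have hknA : (k : G ⧸ Z) ∉ Ab := fun h => hk2 (hKbA _ k.2 h)
    have h3 := hF.2.2 _ hknA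
    have h4 : (a : G ⧸ Z) ∈ Ab ⊓ (MulAut.conj (k : G ⧸ Z) • Ab) := by
      refine ⟨a.2, Subgroup.mem_pointwise_smul_iff_inv_smul_mem.2 ?_⟩
      rw [MulAut.smul_def, MulAut.conj_inv_apply]
      have h5 : (a : G ⧸ Z) * k * (a : G ⧸ Z)⁻¹ = k := by
        rw [← hφk]
        exact congrArg Subtype.val hk
      have h6 : (k : G ⧸ Z)⁻¹ * a * k = a := by
        have : (a : G ⧸ Z) * k = k * a := by
          calc (a : G ⧸ Z) * k = (a : G ⧸ Z) * k * (a : G ⧸ Z)⁻¹ * a := by group
            _ = k * a := by rw [h5]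
        calc (k : G ⧸ Z)⁻¹ * a * k = (k : G ⧸ Z)⁻¹ * ((a : G ⧸ Z) * k) := by group
          _ = (k : G ⧸ Z)⁻¹ * (k * a) := by rw [this]
          _ = a := by group
      rw [h6]; exact a.2
    rw [h3, Subgroup.mem_bot] at h4
    exact ha1 h4
  have hφ1 : φ ≠ 1 := by
    intro h
    apply hKbne
    rw [eq_bot_iff]
    intro k hk
    have h1 : φ ⟨k, hk⟩ = ⟨k, hk⟩ := by rw [h]; rfl
    have h2 := hφfp _ h1
    rw [Subgroup.mem_bot]
    exact congrArg Subtype.val h2
  have hφr : φ ^ r = 1 := by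
    have h1 : (MulAut.conjNormal (a : G ⧸ Z) : MulAut Kb) ^ r = MulAut.conjNormal ((a : G ⧸ Z) ^ r) := by
      rw [map_pow]
    show (MulAut.conjNormal (a : G ⧸ Z) : MulAut Kb) ^ r = 1
    rw [h1, ← haO', pow_orderOf_eq_one, map_one]
  have hφo : orderOf φ = r := orderOf_eq_prime hφr hφ1
  have hnil : Group.IsNilpotent Kb := Cfsg.Agent.S0033.result φ hφfp r hr hφo
  -- the center of Kb
  haveI hKnt : Nontrivial Kb := (Subgroup.nontrivial_iff_ne_bot Kb).2 hKbne
  have hcne : (⊤ : Subgroup Kb) ⊓ Subgroup.center Kb ≠ ⊥ := Cfsg.Agent.S0065.result ⊤ top_ne_bot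
  rw [top_inf_eq] at hcne
  let Zb : Subgroup (G ⧸ Z) := (Subgroup.center Kb).map Kb.subtype
  haveI hZbn : Zb.Normal := Cfsg.Agent.Lib.FitCore.map_subtype_normal_of_char Kb (Subgroup.center Kb)
  have hZbK : Zb ≤ Kb := by
    rintro _ ⟨z, -, rfl⟩
    exact z.2
  have hZbnot : ¬ Zb ≤ Ab := by
    intro hle
    apply hcne
    rw [eq_bot_iff]
    intro z hz
    have h1 : (z : G ⧸ Z) ∈ Zb := ⟨z, hz, rfl⟩
    have h2 := hKbA _ z.2 (hle h1)
    rw [Subgroup.mem_bot]
    exact Subtype.ext h2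
  have hsup : Zb ⊔ Ab = ⊤ := by
    apply hAbco.2
    exact lt_of_le_of_ne le_sup_right (fun h => hZbnot (by rw [h]; exact le_sup_left))
  have hdec : ∀ x : G ⧸ Z, ∃ z ∈ Zb, ∃ b ∈ Ab, x = z * b := by
    intro x
    have hx : x ∈ (Zb : Set (G ⧸ Z)) * (Ab : Set (G ⧸ Z)) := by
      rw [← Subgroup.normal_mul, hsup]; trivial
    obtain ⟨z, hz, b, hb, he⟩ := hx
    exact ⟨z, hz, b, hb, he.symm⟩
  have hKZ : Kb ≤ Zb := by
    intro k hk
    obtain ⟨z, hz, b, hb, rfl⟩ := hdec k
    have hbK : b ∈ Kb := by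
      have := Kb.mul_mem (Kb.inv_mem (hZbK hz)) hk
      simpa using this
    rw [hKbA b hbK hb, mul_one]
    exact hz
  have hKc : ∀ x ∈ Kb, ∀ y ∈ Kb, x * y = y * x := by
    intro x hx y hy
    obtain ⟨z, hz, rfl⟩ := hKZ hx
    have h1 := (Subgroup.mem_center_iff.1 hz) ⟨y, hy⟩
    exact (congrArg Subtype.val h1).symm
  -- commutator in the quotient
  have hG' : commutator (G ⧸ Z) ≤ Kb := by
    rw [commutator_def, Subgroup.commutator_le]
    intro x _ y _
    obtain ⟨z, hz, b, hb, rfl⟩ := hdec x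
    obtain ⟨z', hz', b', hb', rfl⟩ := hdec y
    let π₂ : G ⧸ Z →* (G ⧸ Z) ⧸ Kb := QuotientGroup.mk' Kb
    have hπ1 : ∀ c ∈ Zb, π₂ c = 1 := fun c hc => (QuotientGroup.eq_one_iff c).2 (hZbK hc)
    rw [← QuotientGroup.eq_one_iff]
    show π₂ _ = 1
    rw [map_commutatorElement, commutatorElement_eq_one_iff_mul_comm]
    simp only [map_mul, hπ1 z hz, hπ1 z' hz', one_mul]
    rw [← map_mul, ← map_mul, hAbc b hb b' hb']
  have h2b : derivedSeries (G ⧸ Z) 2 = ⊥ := by
    rw [derivedSeries_succ, derivedSeries_one, eq_bot_iff]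
    refine le_trans (Subgroup.commutator_mono hG' hG') ?_
    rw [Subgroup.commutator_le]
    intro x hx y hy
    simp only [Subgroup.mem_bot]
    rw [commutatorElement_eq_one_iff_mul_comm]
    exact hKc x hx y hy
  have hm := map_derivedSeries_eq hπs 2
  rw [h2b] at hm
  intro x hx
  rw [← hπk, ← Subgroup.mem_bot, ← hm]
  exact ⟨x, hx, rfl⟩

end Cfsg.Agent.S0556
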