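import Cfsg.Statements.S0557
import Mathlib
import Cfsg.Agent.Lib.FocalGen

set_option autoImplicit false
open Cfsg

namespace Cfsg.Agent.S0557

open scoped commutatorElement

theorem foc_mono {G : Type*} [Group G] {X Y : Subgroup G} (h : X ≤ Y) : X.focalSubgroup ≤ Y.focalSubgroup := by
  apply Subgroup.closure_mono
  rintro g ⟨hg, x, hx, u, rfl⟩
  exact ⟨h hg, x, h hx, u, rfl⟩

theorem foc_iter_mono {G : Type*} [Group G] {X Y : Subgroup G} (h : X ≤ Y) (n : ℕ) :
    (fun K : Subgroup G => Subgroup.focalSubgroup K)^[n] X ≤ (fun K : Subgroup G => Subgroup.focalSubgroup K)^[n] Y := by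
  induction n with
  | zero => simpa using h
  | succ n ih =>
    rw [Function.iterate_succ_apply', Function.iterate_succ_apply']
    exact foc_mono ih

theorem foc_map {G : Type*} [Group G] (K : Subgroup G) (A : Subgroup K) :
    (A.focalSubgroup).map K.subtype ≤ (A.map K.subtype).focalSubgroup := by
  rw [Subgroup.map_le_iff_le_comap]
  apply (Subgroup.closure_le _).2
  rintro g ⟨hg, x, hx, u, rfl⟩
  apply Subgroup.subset_closure
  refine ⟨⟨_, hg, rfl⟩, x, ⟨x, hx, rfl⟩, u, ?_⟩
  simp [commutatorElement_def]

theorem foc_iter_map {G : Type*} [Group G] (K : Subgroup G) (A : Subgroup K) (n : ℕ) :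
    ((fun K' : Subgroup K => Subgroup.focalSubgroup K')^[n] A).map K.subtype ≤
      (fun K' : Subgroup G => Subgroup.focalSubgroup K')^[n] (A.map K.subtype) := by
  induction n with
  | zero => simp
  | succ n ih =>
    rw [Function.iterate_succ_apply', Function.iterate_succ_apply']
    exact (foc_map K _).trans (foc_mono ih)

theorem core.{u} (n : ℕ) : ∀ (G : Type u) [Group G] [Finite G] (H : Subgroup G),
    (Nat.card H).Coprime H.index → (fun K : Subgroup G => Subgroup.focalSubgroup K)^[n] H = ⊥ →
    ∃ N : Subgroup G, N.Normal ∧ Subgroup.IsComplement' N H := by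
  induction n with
  | zero =>
    intro G _ _ H hHall hfoc
    have hH : H = ⊥ := hfoc
    subst hH
    exact ⟨⊤, inferInstance, Subgroup.isComplement'_top_bot⟩
  | succ n ih =>
    intro G _ _ H hHall hfoc
    classical
    rw [Function.iterate_succ_apply] at hfoc
    have hcop : Nat.Coprime H.index (Nat.card (H ⧸ H.focalSubgroupOf)) := by
      apply Nat.Coprime.coprime_dvd_right _ hHall.symm
      exact ⟨_, (Subgroup.card_eq_card_quotient_mul_card_subgroup _)⟩
    have hinf := Cfsg.Agent.Lib.FocalGen.ker_inf H hcop
    have hsup := Cfsg.Agent.Lib.FocalGen.ker_sup H hcop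
    set K : Subgroup G := H.transferFocal.ker with hK
    have hKn : K.Normal := MonoidHom.normal_ker _
    set F : Subgroup G := H.focalSubgroup with hF
    have hFH : F ≤ H := H.focalSubgroup_le
    have hFK : F ≤ K := by rw [← hinf]; exact inf_le_left
    let A : Subgroup K := F.subgroupOf K
    have hAmap : A.map K.subtype = F := Subgroup.map_subgroupOf_eq_of_le hFK
    have hAcard : Nat.card A = Nat.card F := by
      rw [← hAmap]
      exact (Nat.card_congr (Subgroup.equivMapOfInjective A K.subtype K.subtype_injective).toEquiv).trans rfl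
    -- the numbers
    have h1 : Nat.card F * F.relIndex H = Nat.card H := by
      have := Subgroup.relIndex_mul_relIndex (⊥ : Subgroup G) F H bot_le hFH
      rwa [Subgroup.relIndex_bot_left, Subgroup.relIndex_bot_left] at this
    have h2 : F.relIndex H = K.index := by
      have h3 : K.relIndex (K ⊔ H) = K.relIndex H := Subgroup.relIndex_sup_left H K
      rw [hsup, Subgroup.relIndex_top_right] at h3
      rw [h3, ← hinf, Subgroup.inf_relIndex_right]
    have hKidx : K.index ≠ 0 := Subgroup.index_ne_zero_of_finite
    have h4 : Nat.card K = H.index * Nat.card F := by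
      have h5 := Subgroup.card_mul_index K
      have h6 := Subgroup.index_mul_card H
      rw [← h1, h2, ← mul_assoc] at h6
      exact Nat.eq_of_mul_eq_mul_right (Nat.pos_of_ne_zero hKidx) (h5.trans h6.symm)
    have hFpos : 0 < Nat.card F := Nat.card_pos
    have hAidx : A.index = H.index := by
      have h5 := Subgroup.card_mul_index A
      rw [hAcard, h4, mul_comm (H.index)] at h5
      exact Nat.eq_of_mul_eq_mul_left hFpos h5
    have hAcop : (Nat.card A).Coprime A.index := by
      rw [hAcard, hAidx]
      apply Nat.Coprime.coprime_dvd_left _ hHall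
      exact ⟨_, h1.symm⟩
    have hiter : (fun K' : Subgroup K => Subgroup.focalSubgroup K')^[n] A = ⊥ := by
      have h5 := foc_iter_map K A n
      rw [hAmap] at h5
      have h6 : (fun K : Subgroup G => Subgroup.focalSubgroup K)^[n] F = ⊥ := hfoc
      rw [h6, le_bot_iff, Subgroup.map_eq_bot_iff_of_injective _ K.subtype_injective] at h5
      exact h5
    obtain ⟨N₁, hN₁, hcomp⟩ := ih K A hAcop hiter
    have hN₁card : Nat.card N₁ = H.index := by
      have h5 := hcomp.card_mul_card
      rw [hAcard, h4] at h5
      exact Nat.eq_of_mul_eq_mul_right hFpos h5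
    have hN₁idx : N₁.index = Nat.card F := by
      have h5 := Subgroup.card_mul_index N₁
      rw [hN₁card, h4] at h5
      have hHidx : 0 < H.index := Nat.pos_of_ne_zero (Subgroup.index_ne_zero_of_finite (H := H))
      exact Nat.eq_of_mul_eq_mul_left hHidx h5
    let N : Subgroup G := N₁.map K.subtype
    have hNcard : Nat.card N = H.index := by
      rw [← hN₁card]
      exact (Nat.card_congr (Subgroup.equivMapOfInjective N₁ K.subtype K.subtype_injective).toEquiv).symm
    have hFcopm : (Nat.card F).Coprime H.index := by
      apply Nat.Coprime.coprime_dvd_left _ hHall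
      exact ⟨_, h1.symm⟩
    refine ⟨N, ?_, ?_⟩
    · constructor
      rintro _ ⟨x, hx, rfl⟩ g
      have hy : g * (x : G) * g⁻¹ ∈ K := hKn.conj_mem _ x.2 g
      let y : K := ⟨_, hy⟩
      have hxm : x ^ H.index = 1 := by
        rw [← hN₁card]
        have h5 : (⟨x, hx⟩ : N₁) ^ Nat.card N₁ = 1 := pow_card_eq_one'
        exact congrArg Subtype.val h5
      have hym : y ^ H.index = 1 := by
        apply Subtype.ext
        show (g * (x : G) * g⁻¹) ^ H.index = 1
        rw [conj_pow]
        have : (x : G) ^ H.index = 1 := congrArg Subtype.val hxm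
        rw [this]
        simp
      have hq : ((y : K) : K ⧸ N₁) = 1 := by
        apply orderOf_eq_one_iff.1
        apply Nat.eq_one_of_dvd_coprimes hFcopm
        · have : orderOf ((y : K) : K ⧸ N₁) ∣ Nat.card (K ⧸ N₁) := orderOf_dvd_natCard _
          rw [← hN₁idx]
          exact this
        · apply orderOf_dvd_of_pow_eq_one
          rw [← QuotientGroup.mk_pow, hym]
          rfl
      exact ⟨y, (QuotientGroup.eq_one_iff _).1 hq, rfl⟩
    · apply Subgroup.isComplement'_of_coprime
      · rw [hNcard]
        exact Subgroup.index_mul_card H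
      · rw [hNcard]
        exact hHall.symm

/-- Let H be a subgroup of a finite group G with order coprime to its index. If iterating the focal-subgroup construction starting from H reaches the trivial subgroup after finitely many steps, then H has a normal complement in G. -/
theorem result {G : Type*} [Group G] [Finite G] (H : Subgroup G) (hHall : (Nat.card H).Coprime H.index) (n : ℕ) (hfoc : (fun K : Subgroup G => Subgroup.focalSubgroup K)^[n] H = ⊥) : ∃ N : Subgroup G, N.Normal ∧ Subgroup.IsComplement' N H := by
  exact core n G H hHall hfoc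

end Cfsg.Agent.S0557
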