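import Cfsg.Statements.S0558
import Mathlib
import Cfsg.Agent.Lib.PNilpB
import Cfsg.Agent.Lib.TypeP
import Cfsg.Agent.Lib.H5Basic
import Cfsg.Agent.Lib.PResidual
import Cfsg.Agent.Lib.SchurZ

set_option autoImplicit false
set_option linter.style.haveILetI false
set_option linter.unusedVariables false
open scoped ComplexConjugate
open scoped Pointwise
open Cfsg

namespace Cfsg.Agent.S0558

/-- Let H be a subgroup of a finite group G that is not a Sylow subgroup of G for any prime, and suppose that for every prime p dividing the order of H and every Sylow p-subgroup P of H the normalizer of P in G is exactly H. Then some normal subgroup of G is a complement to H. -/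
theorem result {G : Type*} [Group G] [Finite G] (H : Subgroup G) (hnot : ∀ p : ℕ, p.Prime → ∀ P : Sylow p G, (P : Subgroup G) ≠ H) (hnorm : ∀ p : ℕ, p.Prime → p ∣ Nat.card H → ∀ P : Sylow p H, Subgroup.normalizer (((P : Subgroup H).map H.subtype : Subgroup G) : Set G) = H) : ∃ N : Subgroup G, N.Normal ∧ Subgroup.IsComplement' N H := by
  classical
  -- Sylow of H are Sylow in G
  have hsyl : ∀ (p : ℕ) (hp : p.Prime), p ∣ Nat.card H → ∀ P : Sylow p H,
      ∃ S : Sylow p G, (S : Subgroup G) = (P : Subgroup H).map H.subtype := by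
    intro p hp hd P
    haveI : Fact p.Prime := ⟨hp⟩
    have hP' : IsPGroup p ((P : Subgroup H).map H.subtype) := P.isPGroup'.map _
    obtain ⟨S, hS⟩ := hP'.exists_le_sylow
    refine ⟨S, ?_⟩
    by_contra hne
    obtain ⟨n, hn⟩ := (IsPGroup.iff_card.1 hP')
    have hmod := Sylow.card_normalizer_modEq_card (p := p) (n := n) hn
    rw [hnorm p hp hd P] at hmod
    obtain ⟨m, hm⟩ := IsPGroup.iff_card.1 S.isPGroup'
    have hlt2 : Nat.card ((P : Subgroup H).map H.subtype) < Nat.card (S : Subgroup G) :=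
      lt_of_le_of_ne (Subgroup.card_le_of_le hS) (fun h => hne (Subgroup.eq_of_le_of_card_ge hS h.ge).symm)
    rw [hn, hm] at hlt2
    have hnm : n < m := (Nat.pow_lt_pow_iff_right hp.one_lt).1 hlt2
    have hdvdG : p ^ (n + 1) ∣ Nat.card G := by
      refine dvd_trans (pow_dvd_pow p hnm) ?_
      rw [← hm]
      exact Subgroup.card_subgroup_dvd_card _
    have hdvdH : p ^ (n + 1) ∣ Nat.card H := (hmod.dvd_iff (dvd_refl _)).2 hdvdG
    have h3 := P.pow_dvd_card_of_pow_dvd_card hdvdH
    have hcardP : Nat.card (P : Subgroup H) = p ^ n := by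
      rw [← hn]
      exact (Subgroup.card_map_of_injective H.subtype_injective).symm
    rw [hcardP] at h3
    exact absurd (Nat.le_of_dvd (pow_pos hp.pos _) h3) (not_le.2 (Nat.pow_lt_pow_right hp.one_lt (Nat.lt_succ_self n)))
  -- normality of the Sylow subgroups
  have hnormal : ∀ (p : ℕ) (hp : p.Prime), p ∣ Nat.card H → ∀ P : Sylow p H, (P : Subgroup H).Normal := by
    intro p hp hd P
    refine ⟨fun x hx h => ?_⟩
    have hh : (h : G) ∈ Subgroup.normalizer (((P : Subgroup H).map H.subtype : Subgroup G) : Set G) := by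
      rw [hnorm p hp hd P]; exact h.2
    have := (Subgroup.mem_normalizer_iff.1 hh (x : G)).1 ⟨x, hx, rfl⟩
    obtain ⟨z, hz, hze⟩ := this
    have : z = h * x * h⁻¹ := Subtype.ext (by simpa using hze)
    rwa [← this]
  have hnil : Group.IsNilpotent H := by
    have := ((isNilpotent_of_finite_tfae (G := H)).out 0 3).2
    refine this ?_
    intro p hp P
    by_cases hd : p ∣ Nat.card H
    · exact hnormal p hp.out hd P
    · have hb : (P : Subgroup H) = ⊥ := by
        haveI := hp
        rw [← Subgroup.card_eq_one]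
        rw [P.card_eq_multiplicity, Nat.factorization_eq_zero_of_not_dvd hd, pow_zero]
      rw [hb]; exact inferInstance
  have hcop : ∀ a ∈ H, ∀ b ∈ H, (orderOf a).Coprime (orderOf b) → a * b = b * a := by
    intro a ha b hb hab
    have h1 := Cfsg.Agent.Lib.TypeP.nilp_comm_coprime (N := H) _ ⟨a, ha⟩ rfl ⟨b, hb⟩ (by
      simpa [Subgroup.orderOf_mk] using hab)
    exact congrArg Subtype.val h1
  by_cases hbot : H = ⊥
  · subst hbot
    refine ⟨⊤, inferInstance, ?_⟩
    exact Subgroup.isComplement'_top_bot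
  -- H is not a p-group
  have htwo : ∀ (p : ℕ), p.Prime → p ∣ Nat.card H → ∃ q : ℕ, q.Prime ∧ q ≠ p ∧ q ∣ Nat.card H := by
    intro p hp hd
    by_contra hno
    push_neg at hno
    haveI : Fact p.Prime := ⟨hp⟩
    have hne : Nat.card H ≠ 0 := Nat.card_pos.ne'
    have hpow := Nat.eq_prime_pow_of_unique_prime_dvd hne (p := p) (fun {q} hq hqd => by
        by_contra hqp
        exact hno q hq hqp hqd)
    have hpg : IsPGroup p H := IsPGroup.of_card hpow
    let P : Sylow p H := default
    obtain ⟨S, hS⟩ := hsyl p hp hd P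
    have hPtop : (P : Subgroup H) = ⊤ := by
      have := P.is_maximal' (Q := ⊤) (hpg.to_subgroup ⊤) le_top
      exact this.symm
    apply hnot p hp S
    rw [hS, hPtop, ← MonoidHom.range_eq_map, Subgroup.range_subtype]
  -- the local statement
  have hmain : ∀ (p : ℕ), p.Prime → p ∣ Nat.card H → HasNormalPComplement p G := by
    intro p hp hd
    haveI : Fact p.Prime := ⟨hp⟩
    obtain ⟨q, hq, hqp, hqd⟩ := htwo p hp hd
    haveI : Fact q.Prime := ⟨hq⟩
    let P₁ : Sylow p H := default
    let R₁ : Sylow q H := default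
    obtain ⟨S, hS⟩ := hsyl p hp hd P₁
    obtain ⟨T, hT⟩ := hsyl q hq hqd R₁
    have hSH : (S : Subgroup G) ≤ H := by
      rw [hS]; exact Subgroup.map_subtype_le _
    have hTH : (T : Subgroup G) ≤ H := by
      rw [hT]; exact Subgroup.map_subtype_le _
    have hNT : Subgroup.normalizer ((T : Subgroup G) : Set G) = H := by
      rw [hT]; exact hnorm q hq hqd R₁
    have hordS : ∀ a ∈ (S : Subgroup G), ∃ k, orderOf a = p ^ k := by
      intro a ha
      obtain ⟨m, hm⟩ := IsPGroup.iff_card.1 S.isPGroup'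
      have h1 : orderOf (⟨a, ha⟩ : (S : Subgroup G)) ∣ p ^ m := hm ▸ orderOf_dvd_natCard _
      rw [Subgroup.orderOf_mk] at h1
      obtain ⟨k, -, hk⟩ := (Nat.dvd_prime_pow hp).1 h1
      exact ⟨k, hk⟩
    have hordT : ∀ a ∈ (T : Subgroup G), ∃ k, orderOf a = q ^ k := by
      intro a ha
      obtain ⟨m, hm⟩ := IsPGroup.iff_card.1 T.isPGroup'
      have h1 : orderOf (⟨a, ha⟩ : (T : Subgroup G)) ∣ q ^ m := hm ▸ orderOf_dvd_natCard _
      rw [Subgroup.orderOf_mk] at h1
      obtain ⟨k, -, hk⟩ := (Nat.dvd_prime_pow hq).1 h1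
      exact ⟨k, hk⟩
    have hST : ∀ a ∈ (S : Subgroup G), ∀ b ∈ (T : Subgroup G), a * b = b * a := by
      intro a ha b hb
      refine hcop a (hSH ha) b (hTH hb) ?_
      obtain ⟨k, hk⟩ := hordS a ha
      obtain ⟨l, hl⟩ := hordT b hb
      rw [hk, hl]
      exact Nat.Coprime.pow _ _ ((Nat.coprime_primes hp hq).2 hqp.symm)
    have core : ∀ Q : Subgroup G, Q ≤ (S : Subgroup G) → ∀ y ∈ Subgroup.normalizer (Q : Set G),
        (orderOf y).Coprime p → ∀ x ∈ Q, y * x * y⁻¹ = x := by
      intro Q hQS y hy hyc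
      let C : Subgroup G := Subgroup.centralizer (Q : Set G)
      have hTC : (T : Subgroup G) ≤ C := by
        intro t ht
        refine Subgroup.mem_centralizer_iff.2 ?_
        intro x hx
        exact hST x (hQS hx) t ht
      have hyinv : y⁻¹ ∈ Subgroup.normalizer (Q : Set G) := inv_mem hy
      have hTC' : ((y • T : Sylow q G) : Subgroup G) ≤ C := by
        intro t ht
        have h1 := Cfsg.Agent.Lib.H5Basic.mem_of_mem_smul_sylow T y t ht
        refine Subgroup.mem_centralizer_iff.2 ?_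
        intro x hx
        have hx' : y⁻¹ * x * y⁻¹⁻¹ ∈ Q := (Subgroup.mem_normalizer_iff.1 hyinv x).1 hx
        have h2 := hST _ (hQS hx') _ h1
        have h3 : y * (y⁻¹ * x * y⁻¹⁻¹ * (y⁻¹ * t * y)) * y⁻¹ = y * (y⁻¹ * t * y * (y⁻¹ * x * y⁻¹⁻¹)) * y⁻¹ := by
          rw [h2]
        simpa [mul_assoc] using h3
      obtain ⟨c, hc⟩ := MulAction.exists_smul_eq C (T.subtype hTC) ((y • T).subtype hTC')
      have hh : y⁻¹ * (c : G) ∈ H := by
        rw [← hNT]
        apply Cfsg.Agent.Lib.H5Basic.mem_normalizer_of_map_conj_le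
        rintro _ ⟨t, ht, rfl⟩
        have h1 : (⟨t, hTC ht⟩ : C) ∈ ((T.subtype hTC : Sylow q C) : Subgroup C) := by
          rw [Sylow.coe_subtype]
          exact ht
        have h2 := Cfsg.Agent.Lib.H5Basic.conj_mem_smul_sylow (T.subtype hTC) c _ h1
        rw [hc, Sylow.coe_subtype] at h2
        have h3 := Cfsg.Agent.Lib.H5Basic.mem_of_mem_smul_sylow T y _ h2
        simpa [mul_assoc, MulAut.conj_apply] using h3
      have hhinv : (c : G)⁻¹ * y ∈ H := by
        have := inv_mem hh
        simpa using this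
      obtain ⟨b, a, hba, hcommba, hb, ⟨k, hk⟩, hbz, haz⟩ := Cfsg.Agent.Lib.PResidual.exists_decomp (p := p) ((c : G)⁻¹ * y)
      have hcN : (c : G)⁻¹ ∈ Subgroup.normalizer (Q : Set G) :=
        inv_mem (Subgroup.centralizer_le_normalizer _ c.2)
      have hhN : (c : G)⁻¹ * y ∈ Subgroup.normalizer (Q : Set G) := mul_mem hcN hy
      have haN : a ∈ Subgroup.normalizer (Q : Set G) :=
        (Subgroup.zpowers_le.2 hhN) haz
      have hbH : b ∈ H := (Subgroup.zpowers_le.2 hhinv) hbz
      have hbQ : ∀ x ∈ Q, b * x = x * b := by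
        intro x hx
        refine hcop b hbH x (hSH (hQS hx)) ?_
        obtain ⟨l, hl⟩ := hordS x (hQS hx)
        rw [hl]
        exact Nat.Coprime.pow_right _ hb
      have hy1 : ∀ x ∈ Q, y * x * y⁻¹ = a * x * a⁻¹ := by
        intro x hx
        have hyeq : y = (c : G) * (b * a) := by
          rw [← hba]; group
        have hcomm' : b * a = a * b := hcommba.eq
        have hax : a * x * a⁻¹ ∈ Q := (Subgroup.mem_normalizer_iff.1 haN x).1 hx
        have hcc : ∀ z ∈ Q, (c : G) * z = z * c := by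
          intro z hz
          exact ((Subgroup.mem_centralizer_iff.1 c.2) z hz).symm
        rw [hyeq, hcomm']
        have h1 : (c : G) * (a * b) * x * ((c : G) * (a * b))⁻¹ = (c : G) * (a * (b * x * b⁻¹) * a⁻¹) * (c : G)⁻¹ := by
          group
        rw [h1, hbQ x hx]
        have h2 : (c : G) * (a * (x * b * b⁻¹) * a⁻¹) * (c : G)⁻¹ = (c : G) * (a * x * a⁻¹) * (c : G)⁻¹ := by
          group
        rw [h2, hcc _ hax]
        group
      have hypow : ∀ n : ℕ, ∀ x ∈ Q, y ^ n * x * (y ^ n)⁻¹ = a ^ n * x * (a ^ n)⁻¹ := by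
        intro n
        induction n with
        | zero => intro x hx; simp
        | succ n ih =>
          intro x hx
          have hyx : y * x * y⁻¹ ∈ Q := (Subgroup.mem_normalizer_iff.1 hy x).1 hx
          have h1 := ih _ hyx
          rw [hy1 x hx] at h1
          calc y ^ (n + 1) * x * (y ^ (n + 1))⁻¹ = y ^ n * (y * x * y⁻¹) * (y ^ n)⁻¹ := by
                rw [pow_succ]; group
            _ = a ^ n * (a * x * a⁻¹) * (a ^ n)⁻¹ := by rw [hy1 x hx, ← h1]
            _ = a ^ (n + 1) * x * (a ^ (n + 1))⁻¹ := by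
                rw [pow_succ]; group
      intro x hx
      have hp1 := hypow (orderOf a) x hx
      rw [pow_orderOf_eq_one] at hp1
      have hcopn : (orderOf a).Coprime (orderOf y) := by
        rw [hk]
        exact Nat.Coprime.pow_left _ hyc.symm
      obtain ⟨m, hm⟩ := exists_pow_eq_self_of_coprime hcopn
      have hcomm : Commute (y ^ orderOf a) x := by
        have : y ^ orderOf a * x * (y ^ orderOf a)⁻¹ = x := by simpa using hp1
        exact (mul_inv_eq_iff_eq_mul.1 this)
      have hcomm2 : Commute y x := by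
        rw [← hm]
        exact hcomm.pow_left m
      rw [hcomm2.eq]; group
    refine Cfsg.Agent.Lib.PNilpB.frob2 (p := p) ?_
    intro Q hQ y hy hyc
    obtain ⟨S₁, hS₁⟩ := hQ.exists_le_sylow
    obtain ⟨g, hg⟩ := MulAction.exists_smul_eq G S₁ S
    let Q' : Subgroup G := Q.map (MulAut.conj g).toMonoidHom
    have hQ'S : Q' ≤ (S : Subgroup G) := by
      rintro _ ⟨x, hx, rfl⟩
      have := Cfsg.Agent.Lib.H5Basic.conj_mem_smul_sylow S₁ g x (hS₁ hx)
      rw [hg] at this
      simpa [MulAut.conj_apply] using this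
    have hy' : g * y * g⁻¹ ∈ Subgroup.normalizer (Q' : Set G) := by
      apply Cfsg.Agent.Lib.H5Basic.mem_normalizer_of_map_conj_le
      rintro _ ⟨_, ⟨x, hx, rfl⟩, rfl⟩
      refine ⟨y * x * y⁻¹, (Subgroup.mem_normalizer_iff.1 hy x).1 hx, ?_⟩
      simp [MulAut.conj_apply]
      group
    have hyc' : (orderOf (g * y * g⁻¹)).Coprime p := by
      have : orderOf (g * y * g⁻¹) = orderOf y := by
        rw [← MulAut.conj_apply]
        exact MulEquiv.orderOf_eq _ _
      rwa [this]
    refine Subgroup.mem_centralizer_iff.2 ?_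
    intro x hx
    have hxQ' : g * x * g⁻¹ ∈ Q' := ⟨x, hx, rfl⟩
    have h1 := core Q' hQ'S _ hy' hyc' _ hxQ'
    have h2 : g * (y * x * y⁻¹) * g⁻¹ = g * x * g⁻¹ := by
      rw [← h1]; group
    have h3 : y * x * y⁻¹ = x := by
      have := mul_left_cancel (mul_right_cancel h2)
      exact this
    have h4 : y * x = x * y := mul_inv_eq_iff_eq_mul.1 h3
    exact h4.symm
  -- the local complements
  have hloc : ∀ (p : (Nat.card H).primeFactors), ∃ K : Subgroup G, K.Normal ∧
      K.index = (p : ℕ) ^ (Nat.card H).factorization p ∧ ¬ (p : ℕ) ∣ Nat.card K := by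
    rintro ⟨p, hpp⟩
    have hp : p.Prime := Nat.prime_of_mem_primeFactors hpp
    have hd : p ∣ Nat.card H := Nat.dvd_of_mem_primeFactors hpp
    haveI : Fact p.Prime := ⟨hp⟩
    obtain ⟨T, K, hK, hc⟩ := hmain p hp hd
    refine ⟨K, hK, ?_, ?_⟩
    · rw [hc.symm.index_eq_card]
      let P₁ : Sylow p H := default
      obtain ⟨S, hS⟩ := hsyl p hp hd P₁
      have h1 : Nat.card (T : Subgroup G) = Nat.card (S : Subgroup G) := Nat.card_congr (Sylow.equiv T S).toEquiv
      rw [h1, hS, Subgroup.card_map_of_injective H.subtype_injective]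
      exact P₁.card_eq_multiplicity
    · have h2 : (T : Subgroup G).index = Nat.card K := hc.index_eq_card
      rw [← h2]
      exact T.not_dvd_index
  choose K hKn hKi hKc using hloc
  haveI : ∀ p, (K p).Normal := hKn
  let N : Subgroup G := ⨅ p, K p
  have hNn : N.Normal := by
    refine ⟨fun x hx g => ?_⟩
    refine Subgroup.mem_iInf.2 fun p => ?_
    exact (hKn p).conj_mem x (Subgroup.mem_iInf.1 hx p) g
  have hdisj : Disjoint N H := by
    rw [Subgroup.disjoint_def]
    intro x hxN hxH
    by_contra hx1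
    have hord : orderOf x ≠ 1 := fun h => hx1 (orderOf_eq_one_iff.1 h)
    obtain ⟨p, hp, hpd⟩ := Nat.exists_prime_and_dvd hord
    have h1 : orderOf (⟨x, hxH⟩ : H) ∣ Nat.card H := orderOf_dvd_natCard _
    rw [Subgroup.orderOf_mk] at h1
    have hpH : p ∣ Nat.card H := dvd_trans hpd h1
    have hpp : p ∈ (Nat.card H).primeFactors := Nat.mem_primeFactors.2 ⟨hp, hpH, Nat.card_pos.ne'⟩
    have hxK : x ∈ K ⟨p, hpp⟩ := Subgroup.mem_iInf.1 hxN _
    have h2 : orderOf (⟨x, hxK⟩ : K ⟨p, hpp⟩) ∣ Nat.card (K ⟨p, hpp⟩) := orderOf_dvd_natCard _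
    rw [Subgroup.orderOf_mk] at h2
    exact hKc ⟨p, hpp⟩ (dvd_trans hpd h2)
  have hidx : N.index ≤ Nat.card H := by
    refine (Subgroup.index_iInf_le K).trans ?_
    have h1 : ∏ i, (K i).index = ∏ i : (Nat.card H).primeFactors, (i : ℕ) ^ (Nat.card H).factorization i :=
      Finset.prod_congr rfl fun i _ => hKi i
    rw [h1]
    have h2 := Finset.prod_coe_sort (Nat.card H).primeFactors (fun p => p ^ (Nat.card H).factorization p)
    rw [h2]
    have h3 := Nat.prod_factorization_pow_eq_self (Nat.card_pos.ne' : Nat.card H ≠ 0)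
    rw [Finsupp.prod, Nat.support_factorization] at h3
    exact h3.le
  refine ⟨N, hNn, ?_⟩
  refine Subgroup.isComplement'_of_card_mul_and_disjoint ?_ hdisj
  refine le_antisymm ?_ ?_
  · haveI := hNn
    have h6 : Nat.card ↥(N ⊔ H) = Nat.card N * Nat.card H := Cfsg.Agent.Lib.SchurZ.card_sup_of_disjoint N H (disjoint_iff.1 hdisj)
    rw [← h6]
    exact Subgroup.card_le_card_group _
  · have := N.card_mul_index
    rw [← this]
    exact Nat.mul_le_mul_left _ hidx

end Cfsg.Agent.S0558
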