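import Cfsg.Statements.S0559
import Mathlib

set_option autoImplicit false
open Pointwise
open Cfsg

namespace Cfsg.Agent.S0559

/-- Let G = HK be a finite group (every element a product of an element of H and an element of K), and let A and B be conjugates of H and K. Then every element is a product of an element of A and one of B, and there is g with A = gHg⁻¹ and B = gKg⁻¹ simultaneously. -/
theorem result {G : Type*} [Group G] [Finite G] (H K A B : Subgroup G) (hHK : ∀ g : G, ∃ h ∈ H, ∃ k ∈ K, g = h * k) (hA : ∃ x : G, A = MulAut.conj x • H) (hB : ∃ y : G, B = MulAut.conj y • K) : (∀ g : G, ∃ a ∈ A, ∃ b ∈ B, g = a * b) ∧ ∃ g : G, A = MulAut.conj g • H ∧ B = MulAut.conj g • K := by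
  classical
  obtain ⟨x, rfl⟩ := hA
  obtain ⟨y, rfl⟩ := hB
  have hKH : ∀ g : G, ∃ k ∈ K, ∃ h ∈ H, g = k * h := by
    intro g
    obtain ⟨h, hh, k, hk, e⟩ := hHK g⁻¹
    refine ⟨k⁻¹, K.inv_mem hk, h⁻¹, H.inv_mem hh, ?_⟩
    rw [← mul_inv_rev, ← e, inv_inv]
  obtain ⟨k, hk, h, hh, e⟩ := hKH (y⁻¹ * x)
  have hx : x = y * (k * h) := by rw [← e]; group
  let g : G := y * k
  have hg1 : MulAut.conj x • H = MulAut.conj g • H := by
    have h1 : MulAut.conj x = MulAut.conj g * MulAut.conj h := by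
      simp [g, hx, mul_assoc]
    rw [h1, mul_smul, Subgroup.conj_smul_eq_self_of_mem hh]
  have hg2 : MulAut.conj y • K = MulAut.conj g • K := by
    have h1 : MulAut.conj g = MulAut.conj y * MulAut.conj k := by
      simp [g]
    rw [h1, mul_smul, Subgroup.conj_smul_eq_self_of_mem hk]
  refine ⟨?_, g, hg1, hg2⟩
  intro t
  rw [hg1, hg2]
  obtain ⟨a, ha, b, hb, e2⟩ := hHK (g⁻¹ * t * g)
  refine ⟨g * a * g⁻¹, ?_, g * b * g⁻¹, ?_, ?_⟩
  · exact Subgroup.mem_pointwise_smul_iff_inv_smul_mem.mpr (by simpa [MulAut.smul_def, mul_assoc] using ha)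
  · exact Subgroup.mem_pointwise_smul_iff_inv_smul_mem.mpr (by simpa [MulAut.smul_def, mul_assoc] using hb)
  · have : t = g * (a * b) * g⁻¹ := by rw [← e2]; group
    rw [this]
    group

end Cfsg.Agent.S0559
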