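import Cfsg.Statements.S0560
import Mathlib
import Cfsg.Agent.Lib.SylowCount

set_option autoImplicit false
open Pointwise
open Cfsg

namespace Cfsg.Agent.S0560

open scoped Pointwise

theorem card_mul_set {G : Type*} [Group G] [Finite G] (A B : Subgroup G) :
    Nat.card A * Nat.card B = Nat.card ↥((A : Set G) * (B : Set G)) * Nat.card (A ⊓ B : Subgroup G) := by
  classical
  let f : A × B → ↥((A : Set G) * (B : Set G)) := fun p =>
    ⟨(p.1 : G) * p.2, Set.mul_mem_mul p.1.2 p.2.2⟩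
  have hfib : ∀ y, Nat.card {p // f p = y} = Nat.card (A ⊓ B : Subgroup G) := by
    intro y
    have hy : (y : G) ∈ (A : Set G) * B := y.2
    obtain ⟨a₀, ha₀, b₀, hb₀, hab⟩ := hy
    simp only at hab
    symm
    apply Nat.card_congr
    refine
      { toFun := fun c => ⟨(⟨a₀ * c, A.mul_mem ha₀ c.2.1⟩, ⟨(c : G)⁻¹ * b₀, B.mul_mem (B.inv_mem c.2.2) hb₀⟩), ?_⟩
        invFun := fun p => ⟨a₀⁻¹ * p.1.1, A.mul_mem (A.inv_mem ha₀) p.1.1.2, ?_⟩
        left_inv := ?_
        right_inv := ?_ }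
    · apply Subtype.ext
      show a₀ * c * ((c : G)⁻¹ * b₀) = y
      rw [← hab]
      group
    · have h1 : ((p.1.1 : G)) * p.1.2 = y := congrArg Subtype.val p.2
      have h2 : a₀⁻¹ * (p.1.1 : G) = b₀ * ((p.1.2 : G))⁻¹ := by
        rw [inv_mul_eq_iff_eq_mul, ← mul_assoc, hab, ← h1]
        group
      show a₀⁻¹ * (p.1.1 : G) ∈ B
      rw [h2]
      exact B.mul_mem hb₀ (B.inv_mem p.1.2.2)
    · intro c
      apply Subtype.ext
      simp
    · rintro ⟨⟨⟨a, ha⟩, ⟨b, hb⟩⟩, hp⟩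
      have h1 : a * b = y := congrArg Subtype.val hp
      apply Subtype.ext
      apply Prod.ext
      · apply Subtype.ext
        simp
      · apply Subtype.ext
        simp only [mul_inv_rev, inv_inv]
        rw [show a⁻¹ * a₀ * b₀ = a⁻¹ * (a₀ * b₀) by group, hab, ← h1]
        group
  have hcard := Cfsg.Agent.Lib.SylowCount.card_eq_mul_of_fibers f _ hfib
  rw [Nat.card_prod] at hcard
  exact hcard

theorem mem_smul_sylow {G : Type*} [Group G] {p : ℕ} (g x : G) (P : Sylow p G) :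
    x ∈ ((g • P : Sylow p G) : Subgroup G) ↔ g⁻¹ * x * g ∈ (P : Subgroup G) := by
  rw [Sylow.coe_subgroup_smul, Subgroup.mem_pointwise_smul_iff_inv_smul_mem]
  simp [MulAut.smul_def]

/-- Let the finite group G be the product HK of two subgroups and p a prime. Then there are Sylow p-subgroups P of H and Q of K and a Sylow p-subgroup R of G whose underlying set is the product set of P and Q. -/
theorem result {G : Type*} [Group G] [Finite G] (H K : Subgroup G) (hHK : ∀ g : G, ∃ h ∈ H, ∃ k ∈ K, g = h * k) (p : ℕ) [Fact p.Prime] : ∃ (P : Sylow p H) (Q : Sylow p K) (R : Sylow p G), ((R : Subgroup G) : Set G) = (((P : Subgroup H).map H.subtype : Subgroup G) : Set G) * (((Q : Subgroup K).map K.subtype : Subgroup G) : Set G) := by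
  classical
  have hpp : p.Prime := Fact.out
  obtain ⟨P₀⟩ : Nonempty (Sylow p H) := inferInstance
  obtain ⟨Q₀⟩ : Nonempty (Sylow p K) := inferInstance
  have hP₀ : IsPGroup p ((P₀ : Subgroup H).map H.subtype) := P₀.isPGroup'.map _
  have hQ₀ : IsPGroup p ((Q₀ : Subgroup K).map K.subtype) := Q₀.isPGroup'.map _
  obtain ⟨R₁, hR₁⟩ := hP₀.exists_le_sylow
  obtain ⟨R₂, hR₂⟩ := hQ₀.exists_le_sylow
  obtain ⟨c, hc⟩ := MulAction.exists_smul_eq G R₁ R₂
  obtain ⟨h', hh', k', hk', hck⟩ := hHK c⁻¹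
  let h : H := ⟨h', hh'⟩⁻¹
  let k : K := ⟨k', hk'⟩⁻¹
  have hc2 : c = (k : G) * (h : G) := by
    have : c = (c⁻¹)⁻¹ := by group
    rw [this, hck]
    simp [h, k]
  let R : Sylow p G := (h : G) • R₁
  have hR : R = (k : G)⁻¹ • R₂ := by
    rw [← hc, hc2, mul_smul, inv_smul_smul]
  let P : Sylow p H := h • P₀
  let Q : Sylow p K := k⁻¹ • Q₀
  have hPR : (P : Subgroup H).map H.subtype ≤ (R : Subgroup G) := by
    rintro _ ⟨y, hy, rfl⟩
    have h1 : h⁻¹ * y * h ∈ (P₀ : Subgroup H) := (mem_smul_sylow h y P₀).1 hy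
    exact (mem_smul_sylow (h : G) (y : G) R₁).2 (hR₁ ⟨_, h1, rfl⟩)
  have hQR : (Q : Subgroup K).map K.subtype ≤ (R : Subgroup G) := by
    rintro _ ⟨y, hy, rfl⟩
    have h1 : (k⁻¹)⁻¹ * y * k⁻¹ ∈ (Q₀ : Subgroup K) := (mem_smul_sylow k⁻¹ y Q₀).1 hy
    rw [hR]
    exact (mem_smul_sylow ((k : G)⁻¹) (y : G) R₂).2 (hR₂ ⟨_, h1, rfl⟩)
  refine ⟨P, Q, R, ?_⟩
  set A : Subgroup G := (P : Subgroup H).map H.subtype with hA
  set B : Subgroup G := (Q : Subgroup K).map K.subtype with hB
  have hAH : A ≤ H := Subgroup.map_subtype_le _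
  have hBK : B ≤ K := Subgroup.map_subtype_le _
  have hsub : (A : Set G) * (B : Set G) ⊆ ((R : Subgroup G) : Set G) := by
    rintro _ ⟨a, ha, b, hb, rfl⟩
    exact Subgroup.mul_mem _ (hPR ha) (hQR hb)
  apply Eq.symm
  apply Set.eq_of_subset_of_ncard_le hsub
  -- the count
  have hHKuniv : (H : Set G) * (K : Set G) = Set.univ := by
    ext g
    simp only [Set.mem_univ, iff_true]
    obtain ⟨a, ha, b, hb, rfl⟩ := hHK g
    exact Set.mul_mem_mul ha hb
  have h1 := card_mul_set H K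
  rw [hHKuniv, Nat.card_congr (Equiv.Set.univ G)] at h1
  have h2 := card_mul_set A B
  have hcA : Nat.card A = Nat.card (P : Subgroup H) :=
    (Nat.card_congr (Subgroup.equivMapOfInjective _ H.subtype H.subtype_injective).toEquiv).symm
  have hcB : Nat.card B = Nat.card (Q : Subgroup K) :=
    (Nat.card_congr (Subgroup.equivMapOfInjective _ K.subtype K.subtype_injective).toEquiv).symm
  have hcP := Sylow.card_eq_multiplicity P
  have hcQ := Sylow.card_eq_multiplicity Q
  have hcR := Sylow.card_eq_multiplicity R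
  have hD : IsPGroup p (A ⊓ B : Subgroup G) := R.isPGroup'.to_le (inf_le_left.trans hPR)
  obtain ⟨d, hd⟩ := IsPGroup.iff_card.1 hD
  have hDdvd : Nat.card (A ⊓ B : Subgroup G) ∣ Nat.card (H ⊓ K : Subgroup G) :=
    Subgroup.card_dvd_of_le (inf_le_inf hAH hBK)
  have hG0 : Nat.card G ≠ 0 := Nat.card_pos.ne'
  have hH0 : Nat.card H ≠ 0 := Nat.card_pos.ne'
  have hK0 : Nat.card K ≠ 0 := Nat.card_pos.ne'
  have hI0 : Nat.card (H ⊓ K : Subgroup G) ≠ 0 := Nat.card_pos.ne'
  have hv : (Nat.card H).factorization p + (Nat.card K).factorization p =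
      (Nat.card G).factorization p + (Nat.card (H ⊓ K : Subgroup G)).factorization p := by
    have := congrArg (fun n => n.factorization p) h1
    rw [Nat.factorization_mul hH0 hK0, Nat.factorization_mul hG0 hI0] at this
    exact this
  have hdle : d ≤ (Nat.card (H ⊓ K : Subgroup G)).factorization p := by
    rw [hd] at hDdvd
    exact (Nat.Prime.pow_dvd_iff_le_factorization hpp hI0).1 hDdvd
  rw [hcA, hcB, hcP, hcQ, hd, ← pow_add] at h2
  rw [← Nat.card_coe_set_eq, ← Nat.card_coe_set_eq]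
  have hRc : Nat.card ↥((R : Subgroup G) : Set G) = p ^ (Nat.card G).factorization p := hcR
  rw [hRc]
  have hpos : 0 < p ^ d := pow_pos hpp.pos _
  have h3 : p ^ (Nat.card G).factorization p * p ^ d ≤ Nat.card ↥((A : Set G) * (B : Set G)) * p ^ d := by
    rw [← h2, ← pow_add]
    apply Nat.pow_le_pow_right hpp.pos
    omega
  exact Nat.le_of_mul_le_mul_right h3 hpos

end Cfsg.Agent.S0560
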