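import Cfsg.Statements.S0562
import Mathlib

set_option autoImplicit false
open Cfsg

namespace Cfsg.Agent.S0562

/-- Let the finite group G be the product HK of subgroups, A normal in H, B normal in K, and L the normalizer of the subgroup generated by A and B. Then every element of L is a product of an element of L ∩ H and an element of L ∩ K. -/
theorem result {G : Type*} [Group G] [Finite G] (H K A B : Subgroup G) (hHK : ∀ g : G, ∃ h ∈ H, ∃ k ∈ K, g = h * k) (hA : A ≤ H) (hAn : (A.subgroupOf H).Normal) (hB : B ≤ K) (hBn : (B.subgroupOf K).Normal) : ∀ g ∈ Subgroup.normalizer ((A ⊔ B : Subgroup G) : Set G), ∃ h ∈ Subgroup.normalizer ((A ⊔ B : Subgroup G) : Set G) ⊓ H, ∃ k ∈ Subgroup.normalizer ((A ⊔ B : Subgroup G) : Set G) ⊓ K, g = h * k := by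
  classical
  intro g hg
  obtain ⟨h, hh, k, hk, rfl⟩ := hHK g
  obtain ⟨J, hJ⟩ : ∃ J, J = A ⊔ B := ⟨_, rfl⟩
  rw [← hJ] at hg ⊢
  have hAnorm : H ≤ Subgroup.normalizer (A : Set G) := (Subgroup.normal_subgroupOf_iff_le_normalizer hA).mp hAn
  have hBnorm : K ≤ Subgroup.normalizer (B : Set G) := (Subgroup.normal_subgroupOf_iff_le_normalizer hB).mp hBn
  -- `X = h⁻¹ J h = k J k⁻¹`
  let f : G ≃* G := MulAut.conj (h⁻¹)
  let X : Subgroup G := J.map f.toMonoidHom
  have hcard : Nat.card X = Nat.card J := Subgroup.card_map_of_injective f.injective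
  have hXk : ∀ z, z ∈ X ↔ k⁻¹ * z * k ∈ J := by
    intro z
    constructor
    · rintro ⟨w, hw, rfl⟩
      have h1 := (Subgroup.mem_normalizer_iff.mp hg w).mp hw
      have h2 : k⁻¹ * (f w) * k = (h * k)⁻¹ * w * (h * k) := by
        simp [f, MulAut.conj_apply]
        group
      show k⁻¹ * f w * k ∈ J
      rw [h2]
      have h3 := (Subgroup.mem_normalizer_iff.mp (Subgroup.inv_mem _ hg) w).mp hw
      simpa using h3
    · intro hz
      refine ⟨h * z * h⁻¹, ?_, ?_⟩
      · have h3 := (Subgroup.mem_normalizer_iff.mp hg (k⁻¹ * z * k)).mp hz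
        have h4 : h * k * (k⁻¹ * z * k) * (h * k)⁻¹ = h * z * h⁻¹ := by group
        rwa [h4] at h3
      · simp [f, MulAut.conj_apply]
        group
  have hAJ : A ≤ J := hJ ▸ le_sup_left
  have hBJ : B ≤ J := hJ ▸ le_sup_right
  have hJX : J ≤ X := by
    rw [hJ]
    refine sup_le ?_ ?_
    · intro a ha
      refine ⟨h * a * h⁻¹, ?_, ?_⟩
      · exact hAJ ((Subgroup.mem_normalizer_iff.mp (hAnorm hh) a).mp ha)
      · simp [f, MulAut.conj_apply]
        group
    · intro b hb
      rw [hXk]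
      apply hBJ
      have h1 := (Subgroup.mem_normalizer_iff.mp (hBnorm (K.inv_mem hk)) b).mp hb
      simpa using h1
  have hXeq : J = X := Subgroup.eq_of_le_of_card_ge hJX hcard.le
  have hhinv : h⁻¹ ∈ Subgroup.normalizer (J : Set G) := by
    rw [Subgroup.mem_normalizer_iff]
    intro z
    constructor
    · intro hz
      rw [hXeq]
      exact ⟨z, hz, rfl⟩
    · intro hz
      rw [hXeq] at hz
      obtain ⟨w, hw, e⟩ := hz
      have : w = z := f.injective e
      rw [← this]
      exact hw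
  have hhN : h ∈ Subgroup.normalizer (J : Set G) := by
    simpa using Subgroup.inv_mem _ hhinv
  have hkN : k ∈ Subgroup.normalizer (J : Set G) := by
    have h1 := Subgroup.mul_mem _ (Subgroup.inv_mem _ hhN) hg
    simpa using h1
  exact ⟨h, ⟨hhN, hh⟩, k, ⟨hkN, hk⟩, rfl⟩

end Cfsg.Agent.S0562
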