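import Cfsg.Statements.S0567
import Cfsg.Agent.Lib.SubnormalJoin

set_option autoImplicit false
open scoped commutatorElement
open Cfsg

namespace Cfsg.Agent.S0567

open Cfsg.Agent.Lib.SubnormalJoin

/-- A subgroup H of a group G is subnormal exactly when, for some m, the subgroup obtained from G by taking the commutator with H m times in succession is contained in H. -/
theorem result {G : Type*} [Group G] (H : Subgroup G) : H.IsSubnormal ↔ ∃ m : ℕ, (fun K : Subgroup G => ⁅K, H⁆)^[m] ⊤ ≤ H := by
  classical
  constructor
  · intro hH
    have hSN := isSubnormal_iff_SN.mp hH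
    have key : ∀ {H : Subgroup G}, SN ⊤ H → ∃ m : ℕ, (fun K : Subgroup G => ⁅K, H⁆)^[m] ⊤ ≤ H := by
      intro H hH
      induction hH with
      | refl => exact ⟨0, le_rfl⟩
      | @step H L hHL _ hn ih =>
        obtain ⟨m, hm⟩ := ih
        refine ⟨m + 1, ?_⟩
        have hmono : ∀ k : ℕ, (fun K : Subgroup G => ⁅K, H⁆)^[k] ⊤ ≤ (fun K : Subgroup G => ⁅K, L⁆)^[k] ⊤ := by
          intro k
          induction k with
          | zero => exact le_rfl
          | succ k ihk =>
            rw [Function.iterate_succ_apply', Function.iterate_succ_apply']
            exact Subgroup.commutator_mono ihk hHL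
        rw [Function.iterate_succ_apply']
        rw [Subgroup.commutator_le]
        intro a ha b hb
        have h1 : a ∈ L := hm (hmono m ha)
        have h2 : a * b * a⁻¹ ∈ H := conj_mem_of_le_normalizer hn h1 hb
        rw [commutatorElement_def]
        exact H.mul_mem h2 (H.inv_mem hb)
    exact key hSN
  · rintro ⟨m, hm⟩
    rw [isSubnormal_iff_SN]
    let T : ℕ → Subgroup G := fun i => (fun K : Subgroup G => ⁅K, H⁆)^[i] ⊤
    have hT : ∀ i, T (i + 1) = ⁅T i, H⁆ := fun i => Function.iterate_succ_apply' _ _ _
    -- `H` normalizes each `T i`
    have hHT : ∀ i, H ≤ Subgroup.normalizer (T i : Set G) := by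
      intro i
      induction i with
      | zero =>
        show H ≤ Subgroup.normalizer ((⊤ : Subgroup G) : Set G)
        rw [Subgroup.normalizer_eq_top_iff.mpr inferInstance]
        exact le_top
      | succ i ih =>
        apply le_normalizer_of_conj
        intro h hh x hx
        rw [hT] at hx ⊢
        have h1 : ⁅T i, H⁆ ≤ (⁅T i, H⁆).comap (MulAut.conj h).toMonoidHom := by
          rw [Subgroup.commutator_le]
          intro a ha b hb
          show h * ⁅a, b⁆ * h⁻¹ ∈ ⁅T i, H⁆
          have h2 : h * ⁅a, b⁆ * h⁻¹ = ⁅h * a * h⁻¹, h * b * h⁻¹⁆ := by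
            simp only [commutatorElement_def]
            group
          rw [h2]
          exact Subgroup.commutator_mem_commutator (conj_mem_of_le_normalizer ih hh ha)
            (H.mul_mem (H.mul_mem hh hb) (H.inv_mem hh))
        exact h1 hx
    have hTle : ∀ i, T (i + 1) ≤ T i := by
      intro i
      rw [hT, Subgroup.commutator_le]
      intro a ha b hb
      have h1 : b * a⁻¹ * b⁻¹ ∈ T i := conj_mem_of_le_normalizer (hHT i) hb ((T i).inv_mem ha)
      have h2 : ⁅a, b⁆ = a * (b * a⁻¹ * b⁻¹) := by
        rw [commutatorElement_def]
        group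
      rw [h2]
      exact (T i).mul_mem ha h1
    have hchain : ∀ i, SN ⊤ (H ⊔ T i) := by
      intro i
      induction i with
      | zero =>
        have : H ⊔ T 0 = ⊤ := by
          show H ⊔ ⊤ = ⊤
          exact sup_top_eq _
        rw [this]
        exact SN.refl
      | succ i ih =>
        refine SN.step (sup_le_sup_left (hTle i) H) ih (sup_le ?_ ?_)
        · apply le_normalizer_of_conj
          intro h hh x hx
          have h1 : H ⊔ T (i + 1) ≤ (H ⊔ T (i + 1)).comap (MulAut.conj h).toMonoidHom := by
            refine sup_le ?_ ?_
            · intro z hz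
              exact Subgroup.mem_sup_left (H.mul_mem (H.mul_mem hh hz) (H.inv_mem hh))
            · intro z hz
              exact Subgroup.mem_sup_right (conj_mem_of_le_normalizer (hHT (i + 1)) hh hz)
          exact h1 hx
        · apply le_normalizer_of_conj
          intro t ht x hx
          have h1 : H ⊔ T (i + 1) ≤ (H ⊔ T (i + 1)).comap (MulAut.conj t).toMonoidHom := by
            refine sup_le ?_ ?_
            · intro z hz
              show t * z * t⁻¹ ∈ H ⊔ T (i + 1)
              have h2 : t * z * t⁻¹ = ⁅t, z⁆ * z := by
                rw [commutatorElement_def]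
                group
              rw [h2]
              refine (H ⊔ T (i + 1)).mul_mem (Subgroup.mem_sup_right ?_) (Subgroup.mem_sup_left hz)
              rw [hT]
              exact Subgroup.commutator_mem_commutator ht hz
            · intro z hz
              refine Subgroup.mem_sup_right ?_
              rw [hT] at hz ⊢
              have h3 : ⁅T i, H⁆ ≤ (⁅T i, H⁆).comap (MulAut.conj t).toMonoidHom := by
                rw [Subgroup.commutator_le]
                intro a ha b hb
                show t * ⁅a, b⁆ * t⁻¹ ∈ ⁅T i, H⁆
                have h4 : t * ⁅a, b⁆ * t⁻¹ = ⁅t * a, b⁆ * ⁅t, b⁆⁻¹ := by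
                  simp only [commutatorElement_def]
                  group
                rw [h4]
                exact Subgroup.mul_mem _ (Subgroup.commutator_mem_commutator ((T i).mul_mem ht ha) hb)
                  (Subgroup.inv_mem _ (Subgroup.commutator_mem_commutator ht hb))
              exact h3 hz
          exact h1 hx
    have := hchain m
    rwa [sup_eq_left.mpr hm] at this

end Cfsg.Agent.S0567
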