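import Cfsg.Statements.S0572
import Mathlib

set_option autoImplicit false
open scoped commutatorElement
open Cfsg

namespace Cfsg.Agent.S0572

open scoped commutatorElement in
/-- The key identity. -/
theorem key_comm {G : Type*} [Group G] (A B : Subgroup G) [IsMulCommutative A] [IsMulCommutative B]
    (hAB : ∀ g : G, ∃ a ∈ A, ∃ b ∈ B, g = a * b) {a b a₁ b₁ : G} (ha : a ∈ A) (hb : b ∈ B)
    (ha₁ : a₁ ∈ A) (hb₁ : b₁ ∈ B) :
    (a₁ * b₁) * ⁅a, b⁆ * (a₁ * b₁)⁻¹ = (b₁ * a₁) * ⁅a, b⁆ * (b₁ * a₁)⁻¹ ∧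
    ∃ a₃ ∈ A, ∃ b₂ ∈ B, (a₁ * b₁) * ⁅a, b⁆ * (a₁ * b₁)⁻¹ = ⁅a₃, b₂⁆ := by
  have hcA : ∀ x ∈ A, ∀ y ∈ A, x * y = y * x := fun x hx y hy => by
    have := mul_comm' (⟨x, hx⟩ : A) ⟨y, hy⟩
    exact congrArg Subtype.val this
  have hcB : ∀ x ∈ B, ∀ y ∈ B, x * y = y * x := fun x hx y hy => by
    have := mul_comm' (⟨x, hx⟩ : B) ⟨y, hy⟩
    exact congrArg Subtype.val this
  have hBA : ∀ g : G, ∃ b ∈ B, ∃ a ∈ A, g = b * a := by
    intro g
    obtain ⟨a', ha', b', hb', e⟩ := hAB g⁻¹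
    refine ⟨b'⁻¹, B.inv_mem hb', a'⁻¹, A.inv_mem ha', ?_⟩
    rw [← mul_inv_rev, ← e, inv_inv]
  obtain ⟨b₂, hb₂, a₂, ha₂, e1⟩ := hBA (a₁ * b * a₁⁻¹)
  obtain ⟨a₃, ha₃, b₃, hb₃, e2⟩ := hAB (b₁ * a * b₁⁻¹)
  -- conjugation of commutators
  have hconj : ∀ g x y : G, g * ⁅x, y⁆ * g⁻¹ = ⁅g * x * g⁻¹, g * y * g⁻¹⁆ := by
    intro g x y
    simp only [commutatorElement_def]
    group
  have hfix : ∀ {g x : G}, g * x = x * g → g * x * g⁻¹ = x := by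
    intro g x h
    rw [h]
    group
  -- the two reductions
  have L1 : ∀ {u v w : G}, v * u = u * v → ⁅u, w * v⁆ = ⁅u, w⁆ := by
    intro u v w h
    have h1 : v * u⁻¹ = u⁻¹ * v := by
      have := (Commute.inv_right (show Commute v u from h)).eq
      exact this
    simp only [commutatorElement_def]
    calc u * (w * v) * u⁻¹ * (w * v)⁻¹ = u * w * (v * u⁻¹) * v⁻¹ * w⁻¹ := by group
      _ = u * w * (u⁻¹ * v) * v⁻¹ * w⁻¹ := by rw [h1]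
      _ = u * w * u⁻¹ * w⁻¹ := by group
  have L2 : ∀ {u v w : G}, v * w = w * v → ⁅u * v, w⁆ = ⁅u, w⁆ := by
    intro u v w h
    simp only [commutatorElement_def]
    calc u * v * w * (u * v)⁻¹ * w⁻¹ = u * (v * w) * v⁻¹ * u⁻¹ * w⁻¹ := by group
      _ = u * (w * v) * v⁻¹ * u⁻¹ * w⁻¹ := by rw [h]
      _ = u * w * u⁻¹ * w⁻¹ := by group
  have hval1 : (a₁ * b₁) * ⁅a, b⁆ * (a₁ * b₁)⁻¹ = ⁅a₃, b₂⁆ := by
    have h1 : (a₁ * b₁) * ⁅a, b⁆ * (a₁ * b₁)⁻¹ = a₁ * (b₁ * ⁅a, b⁆ * b₁⁻¹) * a₁⁻¹ := by group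
    rw [h1, hconj b₁ a b, hfix (hcB b₁ hb₁ b hb), e2, L2 (hcB b₃ hb₃ b hb), hconj a₁ a₃ b,
      hfix (hcA a₁ ha₁ a₃ ha₃), e1, L1 (hcA a₂ ha₂ a₃ ha₃)]
  have hval2 : (b₁ * a₁) * ⁅a, b⁆ * (b₁ * a₁)⁻¹ = ⁅a₃, b₂⁆ := by
    have h1 : (b₁ * a₁) * ⁅a, b⁆ * (b₁ * a₁)⁻¹ = b₁ * (a₁ * ⁅a, b⁆ * a₁⁻¹) * b₁⁻¹ := by group
    rw [h1, hconj a₁ a b, hfix (hcA a₁ ha₁ a ha), e1, L1 (hcA a₂ ha₂ a ha), hconj b₁ a b₂,
      hfix (hcB b₁ hb₁ b₂ hb₂), e2, L2 (hcB b₃ hb₃ b₂ hb₂)]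
  exact ⟨hval1.trans hval2.symm, a₃, ha₃, b₂, hb₂, hval1⟩

/-- Itô's Theorem: if a group G is the product AB of two abelian subgroups, then the commutator subgroup of G is abelian, i.e. the second term of the derived series is trivial. -/
theorem result {G : Type*} [Group G] (A B : Subgroup G) [IsMulCommutative A] [IsMulCommutative B] (hAB : ∀ g : G, ∃ a ∈ A, ∃ b ∈ B, g = a * b) : derivedSeries G 2 = ⊥ := by
  classical
  let S : Set G := {x | ∃ a ∈ A, ∃ b ∈ B, x = ⁅a, b⁆}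
  let N : Subgroup G := Subgroup.closure S
  -- normality
  have hN : N.Normal := by
    constructor
    intro x hx g
    have h1 : N ≤ N.comap (MulAut.conj g).toMonoidHom := by
      rw [Subgroup.closure_le]
      rintro _ ⟨a, ha, b, hb, rfl⟩
      obtain ⟨a₁, ha₁, b₁, hb₁, rfl⟩ := hAB g
      obtain ⟨_, a₃, ha₃, b₂, hb₂, e⟩ := key_comm A B hAB ha hb ha₁ hb₁
      show (a₁ * b₁) * ⁅a, b⁆ * (a₁ * b₁)⁻¹ ∈ N
      rw [e]
      exact Subgroup.subset_closure ⟨a₃, ha₃, b₂, hb₂, rfl⟩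
    exact h1 hx
  -- the quotient is abelian
  have hG' : commutator G ≤ N := by
    rw [commutator_def, Subgroup.commutator_le]
    intro x _ y _
    let π := QuotientGroup.mk' N
    have hcab : ∀ a ∈ A, ∀ b ∈ B, π a * π b = π b * π a := by
      intro a ha b hb
      have h1 : ⁅a, b⁆ ∈ N := Subgroup.subset_closure ⟨a, ha, b, hb, rfl⟩
      have h2 : π ⁅a, b⁆ = 1 := (QuotientGroup.eq_one_iff _).mpr h1
      rw [map_commutatorElement, commutatorElement_eq_one_iff_mul_comm] at h2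
      exact h2
    have hcA : ∀ u ∈ A, ∀ v ∈ A, π u * π v = π v * π u := fun u hu v hv => by
      have := mul_comm' (⟨u, hu⟩ : A) ⟨v, hv⟩
      have h2 : u * v = v * u := congrArg Subtype.val this
      rw [← map_mul, ← map_mul, h2]
    have hcB : ∀ u ∈ B, ∀ v ∈ B, π u * π v = π v * π u := fun u hu v hv => by
      have := mul_comm' (⟨u, hu⟩ : B) ⟨v, hv⟩
      have h2 : u * v = v * u := congrArg Subtype.val this
      rw [← map_mul, ← map_mul, h2]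
    obtain ⟨a, ha, b, hb, rfl⟩ := hAB x
    obtain ⟨c, hc, d, hd, rfl⟩ := hAB y
    have h3 : π ⁅a * b, c * d⁆ = 1 := by
      rw [map_commutatorElement, commutatorElement_eq_one_iff_mul_comm, map_mul, map_mul]
      have c1 : Commute (π a) (π c) := hcA a ha c hc
      have c2 : Commute (π a) (π d) := hcab a ha d hd
      have c3 : Commute (π b) (π c) := (hcab c hc b hb).symm
      have c4 : Commute (π b) (π d) := hcB b hb d hd
      exact ((c1.mul_right c2).mul_left (c3.mul_right c4)).eq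
    exact (QuotientGroup.eq_one_iff _).mp h3
  -- generators commute
  have hSS : ∀ x ∈ S, ∀ y ∈ S, x * y = y * x := by
    rintro _ ⟨a, ha, b, hb, rfl⟩ _ ⟨a₁, ha₁, b₁, hb₁, rfl⟩
    obtain ⟨e, _⟩ := key_comm A B hAB ha hb (A.inv_mem ha₁) (B.inv_mem hb₁)
    -- `⁅a₁, b₁⁆ = (b₁⁻¹ * a₁⁻¹)⁻¹ * (a₁⁻¹ * b₁⁻¹)`
    have h1 : ⁅a₁, b₁⁆ = (b₁⁻¹ * a₁⁻¹)⁻¹ * (a₁⁻¹ * b₁⁻¹) := by
      rw [commutatorElement_def]
      group
    generalize ⁅a, b⁆ = u at e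
    rw [h1]
    generalize hX : a₁⁻¹ * b₁⁻¹ = X at e
    generalize hY : b₁⁻¹ * a₁⁻¹ = Y at e
    calc u * (Y⁻¹ * X) = Y⁻¹ * (Y * u * Y⁻¹) * X := by group
      _ = Y⁻¹ * (X * u * X⁻¹) * X := by rw [e]
      _ = (Y⁻¹ * X) * u := by group
  have hcomm : N ≤ Subgroup.centralizer (N : Set G) := by
    have h1 : Subgroup.centralizer ((N : Set G)) = Subgroup.centralizer S := Subgroup.centralizer_closure S
    rw [h1, Subgroup.closure_le]
    intro x hx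
    show x ∈ Subgroup.centralizer S
    rw [Subgroup.mem_centralizer_iff]
    intro y hy
    exact hSS y hy x hx
  have hbot : ⁅N, N⁆ = ⊥ := (Subgroup.commutator_eq_bot_iff_le_centralizer).mpr hcomm
  have h2 : derivedSeries G 2 = ⁅commutator G, commutator G⁆ := by
    simp [derivedSeries_succ, commutator_def]
  rw [h2]
  exact le_bot_iff.mp (hbot ▸ Subgroup.commutator_mono hG' hG')

end Cfsg.Agent.S0572
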