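import Cfsg.Statements.S0573
import Mathlib
import Cfsg.Agent.Lib.Hall
import Cfsg.Agent.Lib.PResidual
import Cfsg.Agent.Lib.PGroupBasic
import Cfsg.Agent.S0572

set_option autoImplicit false
open Cfsg

namespace Cfsg.Agent.S0573

open scoped commutatorElement

theorem fix_nontrivial {G : Type*} [Group G] [Finite G] {p : ℕ} [hp : Fact p.Prime] (M : Subgroup G)
    [hMn : M.Normal] (hM : M ≠ ⊥) (hMp : IsPGroup p M) (x : G) (k : ℕ) (hx : x ^ (p ^ k) = 1) :
    ∃ y ∈ M, y ≠ 1 ∧ x * y = y * x := by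
  classical
  have hxp : IsPGroup p (Subgroup.zpowers x) := by
    rw [IsPGroup.iff_card, Nat.card_zpowers]
    obtain ⟨j, -, hj⟩ := (Nat.dvd_prime_pow hp.out).mp (orderOf_dvd_of_pow_eq_one hx)
    exact ⟨j, hj⟩
  set L := Subgroup.zpowers x ⊔ M with hL
  have hLp : IsPGroup p L := by
    exact IsPGroup.to_sup_of_normal_right' hxp hMp (by
      rw [Subgroup.normalizer_eq_top_iff.mpr hMn]; exact le_top)
  have hML : M ≤ L := le_sup_right
  haveI : (M.subgroupOf L).Normal := Subgroup.Normal.subgroupOf hMn L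
  have hne : M.subgroupOf L ≠ ⊥ := by
    intro h
    rw [Subgroup.subgroupOf_eq_bot] at h
    apply hM
    rw [eq_bot_iff]
    intro y hy
    have : y ∈ M ⊓ L := ⟨hy, hML hy⟩
    have h2 : Disjoint M L := h
    rw [h2.eq_bot] at this
    exact this
  obtain ⟨y, hyN, hy1, hyc⟩ := Cfsg.Agent.Lib.PGroupBasic.exists_ne_one_mem_center_of_normal hLp
    (M.subgroupOf L) hne
  refine ⟨y.1, hyN, fun h => hy1 (Subtype.ext h), ?_⟩
  have hxL : x ∈ L := (le_sup_left : Subgroup.zpowers x ≤ L) (Subgroup.mem_zpowers x)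
  have := Subgroup.mem_center_iff.mp hyc ⟨x, hxL⟩
  exact congrArg Subtype.val this

theorem main {G : Type*} [Group G] [Finite G] [Nontrivial G] (A B : Subgroup G)
    (hAc : ∀ x ∈ A, ∀ y ∈ A, x * y = y * x) (hBc : ∀ x ∈ B, ∀ y ∈ B, x * y = y * x)
    (hAB : ∀ g : G, ∃ a ∈ A, ∃ b ∈ B, g = a * b)
    (hder : derivedSeries G 2 = ⊥) :
    ∃ N : Subgroup G, N.Normal ∧ N ≠ ⊥ ∧ (N ≤ A ∨ N ≤ B) := by
  classical
  by_contra hno
  push Not at hno
  have hno' : ∀ N : Subgroup G, N.Normal → N ≠ ⊥ → ¬ (N ≤ A ∨ N ≤ B) := by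
    intro N hN hne h
    rcases h with h | h
    · exact (hno N hN hne).1 h
    · exact (hno N hN hne).2 h
  -- elements of `A` commuting with `B` vanish
  have hcen : ∀ x : G, (∀ g : G, x * g = g * x) → (x ∈ A ∨ x ∈ B) → x = 1 := by
    intro x hx hm
    by_contra hx1
    have hn : (Subgroup.zpowers x).Normal := ⟨fun n hn g => by
      obtain ⟨k, rfl⟩ := Subgroup.mem_zpowers_iff.mp hn
      have h2 : g * x ^ k * g⁻¹ = x ^ k := by
        have h3 : Commute g x := (hx g).symm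
        rw [(h3.zpow_right k).eq]; group
      rw [h2]
      exact Subgroup.zpow_mem _ (Subgroup.mem_zpowers x) k⟩
    have hne : Subgroup.zpowers x ≠ ⊥ := by
      rwa [Ne, Subgroup.zpowers_eq_bot]
    apply hno' _ hn hne
    rcases hm with h | h
    · exact Or.inl (Subgroup.zpowers_le.mpr h)
    · exact Or.inr (Subgroup.zpowers_le.mpr h)
  have hAB1 : ∀ x ∈ A, (∀ y ∈ B, x * y = y * x) → x = 1 := by
    intro x hx h
    refine hcen x (fun g => ?_) (Or.inl hx)
    obtain ⟨a, ha, b, hb, rfl⟩ := hAB g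
    rw [← mul_assoc, hAc x hx a ha, mul_assoc, h b hb, mul_assoc]
  have hBA1 : ∀ x ∈ B, (∀ y ∈ A, x * y = y * x) → x = 1 := by
    intro x hx h
    refine hcen x (fun g => ?_) (Or.inr hx)
    obtain ⟨a, ha, b, hb, rfl⟩ := hAB g
    rw [← mul_assoc, h a ha, mul_assoc, hBc x hx b hb, mul_assoc]
  -- self-centralizing
  have hCA : ∀ x : G, (∀ y ∈ A, x * y = y * x) → x ∈ A := by
    intro x hx
    obtain ⟨a, ha, b, hb, rfl⟩ := hAB x
    have h1 : b = 1 := by
      refine hBA1 b hb (fun y hy => ?_)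
      have h2 := hx y hy
      have h3 := hAc a ha y hy
      apply mul_left_cancel (a := a)
      calc a * (b * y) = a * b * y := by group
        _ = y * (a * b) := h2
        _ = (y * a) * b := by group
        _ = (a * y) * b := by rw [h3]
        _ = a * (y * b) := by group
    rw [h1, mul_one]; exact ha
  have hCB : ∀ x : G, (∀ y ∈ B, x * y = y * x) → x ∈ B := by
    intro x hx
    obtain ⟨a, ha, b, hb, rfl⟩ := hAB x
    have h1 : a = 1 := by
      refine hAB1 a ha (fun y hy => ?_)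
      have h2 := hx y hy
      have h3 := hBc b hb y hy
      apply mul_right_cancel (b := b)
      calc a * y * b = a * (y * b) := by group
        _ = a * (b * y) := by rw [h3]
        _ = a * b * y := by group
        _ = y * (a * b) := h2
        _ = y * a * b := by group
    rw [h1, one_mul]; exact hb
  -- the derived subgroup is abelian
  set H := commutator G with hH
  have hHc : ∀ x ∈ H, ∀ y ∈ H, x * y = y * x := by
    intro x hx y hy
    have h1 : ⁅x, y⁆ ∈ derivedSeries G 2 := by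
      have h2 : derivedSeries G 2 = ⁅derivedSeries G 1, derivedSeries G 1⁆ := rfl
      have h3 : derivedSeries G 1 = H := by
        show ⁅derivedSeries G 0, derivedSeries G 0⁆ = _
        rfl
      rw [h2, h3]
      exact Subgroup.commutator_mem_commutator hx hy
    rw [hder, Subgroup.mem_bot] at h1
    exact commutatorElement_eq_one_iff_mul_comm.mp h1
  have hcomm_mem : ∀ x y : G, ⁅x, y⁆ ∈ H := fun x y =>
    Subgroup.commutator_mem_commutator (Subgroup.mem_top x) (Subgroup.mem_top y)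
  have hHne : H ≠ ⊥ := by
    intro h
    have hc : ∀ x y : G, x * y = y * x := by
      intro x y
      have := hcomm_mem x y
      rw [h, Subgroup.mem_bot] at this
      exact commutatorElement_eq_one_iff_mul_comm.mp this
    obtain ⟨x, hx⟩ := exists_ne (1 : G)
    apply hx
    obtain ⟨a, ha, b, hb, rfl⟩ := hAB x
    rw [hAB1 a ha (fun y _ => hc a y), hBA1 b hb (fun y _ => hc b y), one_mul]
  -- `B ∩ H = 1`
  have hBH : ∀ x ∈ B, x ∈ H → x = 1 := by
    intro x hxB hxH
    set L := B ⊔ H with hL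
    haveI hLn : L.Normal := by
      constructor
      intro n hn g
      have h1 : g * n * g⁻¹ * n⁻¹ ∈ H := hcomm_mem g n
      have h2 : g * n * g⁻¹ = (g * n * g⁻¹ * n⁻¹) * n := by group
      rw [h2]
      exact L.mul_mem ((le_sup_right : H ≤ L) h1) hn
    have hle : L ≤ Subgroup.centralizer ({x} : Set G) := by
      apply sup_le
      · intro y hy
        rw [Subgroup.mem_centralizer_singleton_iff]
        exact hBc y hy x hxB
      · intro y hy
        rw [Subgroup.mem_centralizer_singleton_iff]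
        exact hHc y hy x hxH
    set W := L ⊓ Subgroup.centralizer (L : Set G) with hW
    haveI hWn : W.Normal := by
      haveI : (Subgroup.centralizer (L : Set G)).Normal := Subgroup.normal_centralizer
      exact Subgroup.normal_inf_normal _ _
    have hWB : W ≤ B := by
      intro w hw
      apply hCB
      intro y hy
      exact ((Subgroup.mem_centralizer_iff.mp hw.2) y ((le_sup_left : B ≤ L) hy)).symm
    have hxW : x ∈ W := by
      refine ⟨(le_sup_left : B ≤ L) hxB, Subgroup.mem_centralizer_iff.mpr (fun y hy => ?_)⟩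
      have := hle hy
      rw [Subgroup.mem_centralizer_singleton_iff] at this
      exact this
    by_contra hx1
    exact hno' W hWn (fun h => hx1 (by rw [h] at hxW; exact hxW)) (Or.inr hWB)
  -- a prime dividing the derived subgroup
  obtain ⟨p, hp, hpd⟩ : ∃ p : ℕ, p.Prime ∧ p ∣ Nat.card H := by
    refine Nat.exists_prime_and_dvd ?_
    intro h
    apply hHne
    exact (Subgroup.card_eq_one).mp h
  haveI fp : Fact p.Prime := ⟨hp⟩
  -- the two parts of `H`
  let P : Subgroup G :=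
    { carrier := {y | y ∈ H ∧ ∃ k : ℕ, y ^ (p ^ k) = 1}
      mul_mem' := by
        rintro a b ⟨ha, k, hk⟩ ⟨hb, l, hl⟩
        refine ⟨H.mul_mem ha hb, k + l, ?_⟩
        have hcomm : Commute a b := hHc a ha b hb
        rw [hcomm.mul_pow, pow_add, pow_mul, hk, one_pow, mul_comm (p ^ k), pow_mul, hl, one_pow, one_mul]
      one_mem' := ⟨H.one_mem, 0, by simp⟩
      inv_mem' := by
        rintro a ⟨ha, k, hk⟩
        exact ⟨H.inv_mem ha, k, by rw [inv_pow, hk, inv_one]⟩ }
  let R : Subgroup G :=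
    { carrier := {y | y ∈ H ∧ ∃ n : ℕ, ¬ p ∣ n ∧ y ^ n = 1}
      mul_mem' := by
        rintro a b ⟨ha, k, hk, hk'⟩ ⟨hb, l, hl, hl'⟩
        refine ⟨H.mul_mem ha hb, k * l, ?_, ?_⟩
        · intro h
          rcases hp.dvd_mul.mp h with h | h
          · exact hk h
          · exact hl h
        · have hcomm : Commute a b := hHc a ha b hb
          rw [hcomm.mul_pow, pow_mul, hk', one_pow, mul_comm k, pow_mul, hl', one_pow, one_mul]
      one_mem' := ⟨H.one_mem, 1, by simpa using hp.one_lt.ne', by simp⟩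
      inv_mem' := by
        rintro a ⟨ha, k, hk, hk'⟩
        exact ⟨H.inv_mem ha, k, hk, by rw [inv_pow, hk', inv_one]⟩ }
  have hPn : P.Normal := ⟨by
    rintro n ⟨hn, k, hk⟩ g
    refine ⟨(inferInstance : H.Normal).conj_mem n hn g, k, ?_⟩
    rw [conj_pow, hk]; group⟩
  have hRn : R.Normal := ⟨by
    rintro n ⟨hn, k, hk, hk'⟩ g
    refine ⟨(inferInstance : H.Normal).conj_mem n hn g, k, hk, ?_⟩
    rw [conj_pow, hk']; group⟩
  have hPR : ∀ y ∈ P, y ∈ R → y = 1 := by
    rintro y ⟨-, k, hk⟩ ⟨-, n, hn, hn'⟩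
    have h1 : orderOf y ∣ p ^ k := orderOf_dvd_of_pow_eq_one hk
    have h2 : orderOf y ∣ n := orderOf_dvd_of_pow_eq_one hn'
    obtain ⟨j, -, hj⟩ := (Nat.dvd_prime_pow hp).mp h1
    rw [hj] at h2
    have hj0 : j = 0 := by
      by_contra h
      exact hn ((dvd_pow_self p h).trans h2)
    rw [hj0, pow_zero, orderOf_eq_one_iff] at hj
    exact hj
  have hPne : P ≠ ⊥ := by
    obtain ⟨x, hx⟩ := exists_prime_orderOf_dvd_card' (G := H) p hpd
    intro h
    have h1 : (x : G) ∈ P := ⟨x.2, 1, by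
      rw [pow_one]
      have := pow_orderOf_eq_one x
      rw [hx] at this
      exact congrArg Subtype.val this⟩
    rw [h, Subgroup.mem_bot] at h1
    have h2 : x = 1 := Subtype.ext h1
    rw [h2, orderOf_one] at hx
    exact hp.one_lt.ne hx
  -- a minimal normal subgroup inside `P`
  obtain ⟨M, hMmin⟩ := Set.Finite.exists_minimal (Set.toFinite {N : Subgroup G | N.Normal ∧ N ≠ ⊥ ∧ N ≤ P})
    ⟨P, hPn, hPne, le_rfl⟩
  obtain ⟨⟨hMn, hMne, hMP⟩, hmin⟩ := hMmin
  have hMp : IsPGroup p M := by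
    rw [IsPGroup.iff_orderOf]
    rintro ⟨y, hy⟩
    obtain ⟨-, k, hk⟩ := hMP hy
    obtain ⟨j, -, hj⟩ := (Nat.dvd_prime_pow hp).mp (orderOf_dvd_of_pow_eq_one hk)
    refine ⟨j, ?_⟩
    rw [Subgroup.orderOf_mk]; exact hj
  -- `p`-elements centralize `M`
  have hpel : ∀ x : G, ∀ k : ℕ, x ^ (p ^ k) = 1 → ∀ y ∈ M, x * y = y * x := by
    intro x k hk
    obtain ⟨y₀, hy₀, hy₀1, hy₀c⟩ := fix_nontrivial M hMne hMp x k hk
    set C := M ⊓ Subgroup.centralizer ({x} : Set G) with hC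
    have hCn : C.Normal := by
      constructor
      intro y hyC g
      have hy := hyC.1
      have hyx := Subgroup.mem_centralizer_singleton_iff.1 hyC.2
      refine ⟨hMn.conj_mem y hy g, Subgroup.mem_centralizer_singleton_iff.2 ?_⟩
      have hyH : y ∈ H := (hMP hy).1
      have h1 : g⁻¹ * x * g * x⁻¹ ∈ H := by
        have := hcomm_mem g⁻¹ x
        simpa [commutatorElement_def] using this
      have h2 := hHc _ h1 y hyH
      -- `y` commutes with `g⁻¹ x g`
      have h3 : (g⁻¹ * x * g) * y = y * (g⁻¹ * x * g) := by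
        have e : g⁻¹ * x * g = (g⁻¹ * x * g * x⁻¹) * x := by group
        rw [e]
        calc (g⁻¹ * x * g * x⁻¹) * x * y = (g⁻¹ * x * g * x⁻¹) * (x * y) := by group
          _ = (g⁻¹ * x * g * x⁻¹) * (y * x) := by rw [hyx]
          _ = ((g⁻¹ * x * g * x⁻¹) * y) * x := by group
          _ = (y * (g⁻¹ * x * g * x⁻¹)) * x := by rw [h2]
          _ = y * ((g⁻¹ * x * g * x⁻¹) * x) := by group
      calc g * y * g⁻¹ * x = g * (y * (g⁻¹ * x * g)) * g⁻¹ := by group
        _ = g * ((g⁻¹ * x * g) * y) * g⁻¹ := by rw [h3]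
        _ = x * (g * y * g⁻¹) := by group
    have hCne : C ≠ ⊥ := by
      intro h
      have h1 : y₀ ∈ C := ⟨hy₀, Subgroup.mem_centralizer_singleton_iff.2 hy₀c.symm⟩
      rw [h, Subgroup.mem_bot] at h1
      exact hy₀1 h1
    have hCM : C ≤ M := inf_le_left
    have hCeq : M ≤ C := hmin ⟨hCn, hCne, hCM.trans hMP⟩ hCM
    intro y hy
    have := Subgroup.mem_centralizer_singleton_iff.1 (hCeq hy).2
    exact this.symm
  -- solvability, Hall subgroups
  haveI hsolv : Group.IsSolvable G := by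
    rw [Group.isSolvable_def]
    exact ⟨2, hder⟩
  have hcommR : ∀ a' ∈ A, ∀ b' ∈ B, (orderOf a').Coprime p → (orderOf b').Coprime p → ⁅b', a'⁆ ∈ R := by
    intro a' ha' b' hb' hoa hob
    have hcard : Nat.card G = ordCompl[p] (Nat.card G) * ordProj[p] (Nat.card G) := by
      rw [mul_comm]; exact (Nat.ordProj_mul_ordCompl_eq_self _ _).symm
    have hco : (ordCompl[p] (Nat.card G)).Coprime (ordProj[p] (Nat.card G)) := by
      apply Nat.Coprime.pow_right
      exact (Nat.coprime_ordCompl hp Nat.card_pos.ne').symm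
    obtain ⟨E₀, hE₀⟩ := Cfsg.Agent.Lib.Hall.hall_exists _ G _ _ rfl hcard hco
    have hzc : ∀ z : G, (orderOf z).Coprime p → (Nat.card (Subgroup.zpowers z)).Coprime (ordProj[p] (Nat.card G)) := by
      intro z hz
      rw [Nat.card_zpowers]
      exact Nat.Coprime.pow_right _ hz
    obtain ⟨g₁, hg₁⟩ := Cfsg.Agent.Lib.Hall.hall_conj _ G _ _ rfl hcard hco E₀ (Subgroup.zpowers a') hE₀ (hzc a' hoa)
    set E := E₀.map (MulAut.conj g₁).toMonoidHom with hE
    have hEc : Nat.card E = ordCompl[p] (Nat.card G) := by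
      rw [hE, ← hE₀]
      exact Nat.card_congr ((MulAut.conj g₁).subgroupMap E₀).symm.toEquiv
    have ha'E : a' ∈ E := hg₁ (Subgroup.mem_zpowers a')
    obtain ⟨g₂, hg₂⟩ := Cfsg.Agent.Lib.Hall.hall_conj _ G _ _ rfl hcard hco E (Subgroup.zpowers b') hEc (hzc b' hob)
    obtain ⟨a₂, ha₂, b₂, hb₂, hg₂'⟩ := hAB g₂⁻¹
    have h1 : b' ∈ E.map (MulAut.conj g₂).toMonoidHom := hg₂ (Subgroup.mem_zpowers b')
    obtain ⟨e, he, hee⟩ := h1
    have hee' : g₂ * e * g₂⁻¹ = b' := hee
    have h2 : a₂ * b' * a₂⁻¹ = e := by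
      have h3 : e = g₂⁻¹ * b' * g₂ := by rw [← hee']; group
      have h4 : g₂ = (a₂ * b₂)⁻¹ := by rw [← hg₂']; group
      rw [h3, h4, inv_inv, mul_inv_rev]
      have h5 : b₂ * b' * b₂⁻¹ = b' := by
        rw [hBc b₂ hb₂ b' hb']; group
      calc a₂ * b' * a₂⁻¹ = a₂ * (b₂ * b' * b₂⁻¹) * a₂⁻¹ := by rw [h5]
        _ = _ := by group
    have h3 : a₂ * a' * a₂⁻¹ = a' := by
      rw [hAc a₂ ha₂ a' ha']; group
    have hc : a₂ * ⁅b', a'⁆ * a₂⁻¹ ∈ E := by
      have h4 : a₂ * ⁅b', a'⁆ * a₂⁻¹ = ⁅e, a'⁆ := by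
        have h6 : ⁅a₂ * b' * a₂⁻¹, a₂ * a' * a₂⁻¹⁆ = a₂ * ⁅b', a'⁆ * a₂⁻¹ := by
          simp only [commutatorElement_def]
          group
        rw [h2, h3] at h6
        exact h6.symm
      rw [h4]
      simp only [commutatorElement_def]
      exact E.mul_mem (E.mul_mem (E.mul_mem he ha'E) (E.inv_mem he)) (E.inv_mem ha'E)
    have h5 : (a₂ * ⁅b', a'⁆ * a₂⁻¹) ^ (ordCompl[p] (Nat.card G)) = 1 := by
      have h6 := pow_card_eq_one' (G := E) (x := ⟨_, hc⟩)
      rw [hEc] at h6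
      exact congrArg Subtype.val h6
    rw [conj_pow] at h5
    refine ⟨hcomm_mem b' a', ordCompl[p] (Nat.card G), Nat.not_dvd_ordCompl hp Nat.card_pos.ne', ?_⟩
    have h7 : ⁅b', a'⁆ ^ ordCompl[p] (Nat.card G) = a₂⁻¹ * (a₂ * ⁅b', a'⁆ ^ ordCompl[p] (Nat.card G) * a₂⁻¹) * a₂ := by group
    rw [h7, h5]; group
  have hcoprimeA : ∀ a' ∈ A, (orderOf a').Coprime p → ∀ y ∈ M, a' * y = y * a' := by
    intro a' ha' hoa y hy
    obtain ⟨a, ha, b, hb, rfl⟩ := hAB y
    set y := a * b with hyd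
    set w := y⁻¹ * (a' * y * a'⁻¹) with hw
    have hwM : w ∈ M := M.mul_mem (M.inv_mem hy) (hMn.conj_mem y hy a')
    set u := a' * b * a'⁻¹ with hu
    have hwu : w = b⁻¹ * u := by
      rw [hw, hu, hyd]
      have h1 : a' * a = a * a' := hAc a' ha' a ha
      calc (a * b)⁻¹ * (a' * (a * b) * a'⁻¹) = b⁻¹ * a⁻¹ * ((a' * a) * b * a'⁻¹) := by group
        _ = b⁻¹ * a⁻¹ * ((a * a') * b * a'⁻¹) := by rw [h1]
        _ = _ := by group
    have hwfix : ∀ b' ∈ B, (orderOf b').Coprime p → b' * w * b'⁻¹ = w := by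
      intro b' hb' hob
      have hc := hcommR a' ha' b' hb' hoa hob
      set c₁ := ⁅b', a'⁆ with hc₁
      have hc₁e : b' * a' = c₁ * (a' * b') := by
        rw [hc₁, commutatorElement_def]; group
      have hbb : b' * b = b * b' := hBc b' hb' b hb
      have h1 : b' * u * b'⁻¹ = c₁ * u * c₁⁻¹ := by
        rw [hu]
        calc b' * (a' * b * a'⁻¹) * b'⁻¹ = (b' * a') * b * (b' * a')⁻¹ := by group
          _ = (c₁ * (a' * b')) * b * (c₁ * (a' * b'))⁻¹ := by rw [hc₁e]
          _ = c₁ * a' * (b' * b) * b'⁻¹ * a'⁻¹ * c₁⁻¹ := by group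
          _ = c₁ * a' * (b * b') * b'⁻¹ * a'⁻¹ * c₁⁻¹ := by rw [hbb]
          _ = _ := by group
      have h2 : b' * b⁻¹ * b'⁻¹ = b⁻¹ := by
        have : b' * b⁻¹ = b⁻¹ * b' := by
          have h3 := hBc b' hb' b⁻¹ (B.inv_mem hb)
          exact h3
        rw [this]; group
      have h3 : b' * w * b'⁻¹ = b⁻¹ * (c₁ * u * c₁⁻¹) := by
        rw [hwu, ← h1]
        calc b' * (b⁻¹ * u) * b'⁻¹ = (b' * b⁻¹ * b'⁻¹) * (b' * u * b'⁻¹) := by group
          _ = _ := by rw [h2]
      have h4 : w⁻¹ * (b' * w * b'⁻¹) = (u⁻¹ * c₁ * u) * c₁⁻¹ := by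
        rw [h3, hwu]; group
      have h5 : (u⁻¹ * c₁ * u) * c₁⁻¹ ∈ R := by
        refine R.mul_mem ?_ (R.inv_mem hc)
        have := hRn.conj_mem c₁ hc u⁻¹
        simpa using this
      have h6 : w⁻¹ * (b' * w * b'⁻¹) ∈ M := M.mul_mem (M.inv_mem hwM) (hMn.conj_mem w hwM b')
      rw [h4] at h6
      have h7 := hPR _ (hMP h6) h5
      rw [← h4] at h7
      have h8 := eq_of_inv_mul_eq_one h7
      exact h8.symm
    have hwB : w ∈ B := by
      apply hCB
      intro b₀ hb₀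
      obtain ⟨y₁, z₁, hyz, -, hy₁, ⟨k, hk⟩, hy₁m, hz₁m⟩ := Cfsg.Agent.Lib.PResidual.exists_decomp (p := p) b₀
      have hy₁B : y₁ ∈ B := (Subgroup.zpowers_le.mpr hb₀) hy₁m
      have hz₁B : z₁ ∈ B := (Subgroup.zpowers_le.mpr hb₀) hz₁m
      have h1 : y₁ * w = w * y₁ := by
        have := hwfix y₁ hy₁B hy₁
        calc y₁ * w = (y₁ * w * y₁⁻¹) * y₁ := by group
          _ = w * y₁ := by rw [this]
      have h2 : z₁ * w = w * z₁ := hpel z₁ k (by rw [← hk]; exact pow_orderOf_eq_one z₁) w hwM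
      rw [hyz]
      calc w * (y₁ * z₁) = (w * y₁) * z₁ := by group
        _ = (y₁ * w) * z₁ := by rw [h1]
        _ = y₁ * (w * z₁) := by group
        _ = y₁ * (z₁ * w) := by rw [h2]
        _ = y₁ * z₁ * w := by group
    have hw1 : w = 1 := hBH w hwB (hMP hwM).1
    have h1 : a' * y * a'⁻¹ = y := (eq_of_inv_mul_eq_one hw1).symm
    calc a' * y = (a' * y * a'⁻¹) * a' := by group
      _ = y * a' := by rw [h1]
  have hMA : M ≤ A := by
    intro y hy
    apply hCA
    intro a₀ ha₀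
    obtain ⟨y₁, z₁, hyz, -, hy₁, ⟨k, hk⟩, hy₁m, hz₁m⟩ := Cfsg.Agent.Lib.PResidual.exists_decomp (p := p) a₀
    have hy₁A : y₁ ∈ A := (Subgroup.zpowers_le.mpr ha₀) hy₁m
    have h1 : y₁ * y = y * y₁ := hcoprimeA y₁ hy₁A hy₁ y hy
    have h2 : z₁ * y = y * z₁ := hpel z₁ k (by rw [← hk]; exact pow_orderOf_eq_one z₁) y hy
    rw [hyz]
    calc y * (y₁ * z₁) = (y * y₁) * z₁ := by group
      _ = (y₁ * y) * z₁ := by rw [h1]
      _ = y₁ * (y * z₁) := by group
      _ = y₁ * (z₁ * y) := by rw [h2]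
      _ = y₁ * z₁ * y := by group
  exact hno' M hMn hMne (Or.inl hMA)

/-- If a nontrivial finite group G is the product AB of abelian subgroups A and B, then some nontrivial normal subgroup of G is contained in A or in B. -/
theorem result {G : Type*} [Group G] [Finite G] [Nontrivial G] (A B : Subgroup G) [IsMulCommutative A] [IsMulCommutative B] (hAB : ∀ g : G, ∃ a ∈ A, ∃ b ∈ B, g = a * b) : ∃ N : Subgroup G, N.Normal ∧ N ≠ ⊥ ∧ (N ≤ A ∨ N ≤ B) := by
  have hAc : ∀ x ∈ A, ∀ y ∈ A, x * y = y * x := by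
    intro x hx y hy
    have := (inferInstance : IsMulCommutative A).is_comm.comm (⟨x, hx⟩ : A) ⟨y, hy⟩
    exact congrArg Subtype.val this
  have hBc : ∀ x ∈ B, ∀ y ∈ B, x * y = y * x := by
    intro x hx y hy
    have := (inferInstance : IsMulCommutative B).is_comm.comm (⟨x, hx⟩ : B) ⟨y, hy⟩
    exact congrArg Subtype.val this
  exact main A B hAc hBc hAB (Cfsg.Agent.S0572.result A B hAB)

end Cfsg.Agent.S0573
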