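import Cfsg.Statements.S0571
import Mathlib
import Cfsg.Agent.Lib.Supersolvable
import Cfsg.Agent.S0573

set_option autoImplicit false
open Cfsg

namespace Cfsg.Agent.S0571

open Cfsg.Agent.Lib.Supersolvable

universe u

theorem aux : ∀ (n : ℕ) (G : Type u) [Group G] [Finite G] (A B : Subgroup G) [IsCyclic A] [IsCyclic B]
    (_ : ∀ g : G, ∃ a ∈ A, ∃ b ∈ B, g = a * b) (_ : Nat.card G = n), Cfsg.IsSupersolvable G := by
  intro n
  induction n using Nat.strong_induction_on with
  | _ n ih =>
  intro G _ _ A B _ _ hAB hn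
  by_cases hnt : Nontrivial G
  swap
  · rw [not_nontrivial_iff_subsingleton] at hnt
    refine ⟨0, fun _ => ⊤, ?_, rfl, fun _ => inferInstance, fun i => i.elim0⟩
    exact Subsingleton.elim _ _
  haveI hAc : IsMulCommutative A := IsCyclic.isMulCommutative
  haveI hBc : IsMulCommutative B := IsCyclic.isMulCommutative
  obtain ⟨N, hNn, hNe, hNle⟩ := Cfsg.Agent.S0573.result A B hAB
  haveI hNc : IsCyclic N := by
    rcases hNle with h | h
    · exact isCyclic_of_injective (Subgroup.inclusion h) (Subgroup.inclusion_injective h)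
    · exact isCyclic_of_injective (Subgroup.inclusion h) (Subgroup.inclusion_injective h)
  apply super_ext N
  let π := QuotientGroup.mk' N
  haveI h1 : IsCyclic (A.map π) := isCyclic_of_surjective (π.subgroupMap A) (π.subgroupMap_surjective A)
  haveI h2 : IsCyclic (B.map π) := isCyclic_of_surjective (π.subgroupMap B) (π.subgroupMap_surjective B)
  have hcard : Nat.card (G ⧸ N) < n := by
    have h3 := N.card_mul_index
    have h4 : 1 < Nat.card N := by
      have : Nontrivial N := (Subgroup.nontrivial_iff_ne_bot N).mpr hNe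
      exact Finite.one_lt_card
    have h5 : 0 < N.index := Nat.pos_of_ne_zero Subgroup.FiniteIndex.index_ne_zero
    have h6 : N.index = Nat.card (G ⧸ N) := rfl
    rw [← hn, ← h6, ← h3]
    nlinarith
  refine ih _ hcard (G ⧸ N) (A.map π) (B.map π) ?_ rfl
  intro y
  obtain ⟨x, rfl⟩ := QuotientGroup.mk'_surjective N y
  obtain ⟨a, ha, b, hb, rfl⟩ := hAB x
  exact ⟨π a, ⟨a, ha, rfl⟩, π b, ⟨b, hb, rfl⟩, map_mul π a b⟩

/-- If a finite group G is the product AB of two cyclic subgroups (every element is a product ab), then G is supersolvable. -/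
theorem result {G : Type*} [Group G] [Finite G] (A B : Subgroup G) [IsCyclic A] [IsCyclic B] (hAB : ∀ g : G, ∃ a ∈ A, ∃ b ∈ B, g = a * b) : Cfsg.IsSupersolvable G := by
  exact aux _ G A B hAB rfl

end Cfsg.Agent.S0571
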