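import Cfsg.Statements.S0575
import Mathlib

set_option autoImplicit false
open Cfsg

namespace Cfsg.Agent.S0575

/-- If H is a normal subgroup of a finite group G, then the Frattini subgroup of H, viewed in G, lies in the Frattini subgroup of G. -/
theorem result {G : Type*} [Group G] [Finite G] (H : Subgroup G) [H.Normal] : (frattini ↥H).map H.subtype ≤ frattini G := by
  classical
  -- the Frattini subgroup of `H` is normal in `G`
  haveI hn : ((frattini ↥H).map H.subtype).Normal := inferInstance
  by_contra hcon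
  -- a maximal subgroup not containing it
  have h1 : ∃ M : Subgroup G, IsCoatom M ∧ ¬ (frattini ↥H).map H.subtype ≤ M := by
    by_contra h2
    push Not at h2
    apply hcon
    exact le_iInf₂ fun M hM => h2 M hM
  obtain ⟨M, hM, hnot⟩ := h1
  have hsup : M ⊔ (frattini ↥H).map H.subtype = ⊤ :=
    hM.2 _ (lt_of_le_of_ne le_sup_left fun h => hnot (by rw [h]; exact le_sup_right))
  -- `H = (M ∩ H) Φ(H)`
  have hH : (M.subgroupOf H) ⊔ frattini ↥H = ⊤ := by
    rw [eq_top_iff]
    intro x _
    have hx : (x : G) ∈ ((M ⊔ (frattini ↥H).map H.subtype : Subgroup G) : Set G) := by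
      rw [hsup]
      trivial
    rw [Subgroup.mul_normal] at hx
    obtain ⟨m, hm, f, hf, e⟩ := Set.mem_mul.mp hx
    obtain ⟨f', hf', rfl⟩ := hf
    have hmH : m ∈ H := by
      have h3 : m = (x : G) * (f' : G)⁻¹ := by
        rw [← e]
        simp
      rw [h3]
      exact H.mul_mem x.2 (H.inv_mem f'.2)
    have h4 : x = (⟨m, hmH⟩ : H) * f' := Subtype.ext e.symm
    rw [h4]
    exact Subgroup.mul_mem_sup (Subgroup.mem_subgroupOf.mpr hm) hf'
  have hH2 := frattini_nongenerating hH
  have hHM : H ≤ M := Subgroup.subgroupOf_eq_top.mp hH2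
  apply hnot
  rintro _ ⟨f, _, rfl⟩
  exact hHM f.2

end Cfsg.Agent.S0575
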