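import Cfsg.Statements.S0576
import Mathlib

set_option autoImplicit false
set_option linter.style.haveILetI false
set_option linter.unusedVariables false
open scoped ComplexConjugate
open Cfsg

namespace Cfsg.Agent.S0576

/-- Let H be a normal subgroup of a finite group G with H contained in the Frattini subgroup of G. Then the group of inner automorphisms of H is contained in the Frattini subgroup of the automorphism group of H. -/
theorem result {G : Type*} [Group G] [Finite G] (H : Subgroup G) [H.Normal] (hH : H ≤ frattini G) : (MulAut.conj : ↥H →* MulAut ↥H).range ≤ frattini (MulAut ↥H) := by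
  classical
  simp only [frattini, Order.radical]
  refine le_iInf fun K => le_iInf fun hK => ?_
  by_contra hn
  let φ : G →* MulAut H := MulAut.conjNormal
  have hφ : ∀ h : H, φ (h : G) = MulAut.conj h := by
    intro h
    ext x
    simp [φ, MulAut.conjNormal_apply]
  have hRn : (MulAut.conj : H →* MulAut H).range.Normal := by
    refine ⟨?_⟩
    rintro _ ⟨h, rfl⟩ ψ
    refine ⟨ψ h, ?_⟩
    ext x
    simp [MulAut.conj_apply, MulAut.mul_apply]
  have hsup : (MulAut.conj : H →* MulAut H).range ⊔ K = ⊤ := hK.2 _ (lt_of_le_of_ne le_sup_right (fun h => hn (by rw [h]; exact le_sup_left)))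
  let U : Subgroup G := K.comap φ
  have hHU : U ⊔ H = ⊤ := by
    rw [eq_top_iff]
    intro g _
    have h1 : φ g ∈ (MulAut.conj : H →* MulAut H).range ⊔ K := by rw [hsup]; trivial
    rw [← SetLike.mem_coe, Subgroup.normal_mul] at h1
    obtain ⟨_, ⟨h, rfl⟩, k, hk, he⟩ := h1
    have h2 : (h : G)⁻¹ * g ∈ U := by
      show φ ((h : G)⁻¹ * g) ∈ K
      rw [map_mul, map_inv, hφ, ← he]
      simpa using hk
    have h4 : g = ((h : G)) * ((h : G)⁻¹ * g) := by group
    rw [h4, sup_comm]
    exact Subgroup.mul_mem_sup h.2 h2
  have hU : U = ⊤ := by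
    apply frattini_nongenerating
    rw [eq_top_iff, ← hHU]
    exact sup_le_sup_left hH _
  apply hn
  rintro _ ⟨h, rfl⟩
  have h5 : (h : G) ∈ U := by rw [hU]; trivial
  have h6 : φ (h : G) ∈ K := h5
  rwa [hφ] at h6

end Cfsg.Agent.S0576
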