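import Cfsg.Statements.S0578
import Mathlib

set_option autoImplicit false
open scoped commutatorElement
open Cfsg

namespace Cfsg.Agent.S0578

/-- Sylow subgroups are abelian under the hypothesis: a minimal non-abelian subgroup of a `p`-group would
have an abelian subgroup of index `p`. -/
theorem pgroup_comm {G : Type*} [Group G] [Finite G]
    (h : ∀ A : Subgroup G, IsMulCommutative A → Subgroup.normalizer (A : Set G) = Subgroup.centralizer (A : Set G))
    (p : ℕ) [Fact p.Prime] (n : ℕ) : ∀ Q : Subgroup G, IsPGroup p Q → Nat.card Q = n → IsMulCommutative Q := by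
  induction n using Nat.strong_induction_on with
  | _ n ih =>
  intro Q hQ hn
  by_cases hnt : Nontrivial Q
  · obtain ⟨M, hM⟩ : ∃ M : Subgroup Q, IsCoatom M := by
      obtain ⟨M, hM, _⟩ := (eq_top_or_exists_le_coatom (⊥ : Subgroup Q)).resolve_left bot_ne_top
      exact ⟨M, hM⟩
    haveI : Group.IsNilpotent Q := hQ.isNilpotent
    have hMn : M.Normal := by
      have q := (Group.isNilpotent_of_finite_tfae (G := Q)).out 0 2
      exact (q.mp inferInstance) M hM
    let M' : Subgroup G := M.map Q.subtype
    have hM'Q : M' ≤ Q := by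
      rintro _ ⟨x, _, rfl⟩
      exact x.2
    have hcard : Nat.card M' < n := by
      rw [← hn]
      by_contra hcon
      have h1 : M' = Q := Subgroup.eq_of_le_of_card_ge hM'Q (not_lt.mp hcon)
      apply hM.1
      rw [eq_top_iff]
      intro x _
      have h2 : (x : G) ∈ M' := by
        rw [h1]
        exact x.2
      obtain ⟨y, hy, e⟩ := h2
      rw [← Subtype.ext e]
      exact hy
    have hM'c := ih _ hcard M' (hQ.to_le hM'Q) rfl
    have hnorm : Q ≤ Subgroup.normalizer (M' : Set G) := by
      intro x hx
      rw [Subgroup.mem_normalizer_iff]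
      intro y
      constructor
      · rintro ⟨z, hz, rfl⟩
        exact ⟨⟨x, hx⟩ * z * ⟨x, hx⟩⁻¹, hMn.conj_mem z hz _, rfl⟩
      · rintro ⟨z, hz, e⟩
        have h3 := hMn.conj_mem z hz (⟨x, hx⟩ : Q)⁻¹
        refine ⟨_, h3, ?_⟩
        have e' : (z : G) = x * y * x⁻¹ := e
        simp [e', mul_assoc]
    rw [h M' hM'c] at hnorm
    -- every element of `M` is central in `Q`
    have hMcen : ∀ m ∈ M, ∀ y : Q, y * m = m * y := by
      intro m hm y
      have h3 : (m : G) ∈ M' := ⟨m, hm, rfl⟩
      have h4 := Subgroup.mem_centralizer_iff.mp (hnorm y.2) (m : G) h3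
      exact Subtype.ext h4.symm
    rw [isMulCommutative_iff]
    intro a b
    by_cases hb : b ∈ M
    · exact (hMcen b hb a)
    · let C : Subgroup Q := Subgroup.centralizer {b}
      have hMC : M ≤ C := by
        intro m hm
        show m ∈ Subgroup.centralizer {b}
        rw [Subgroup.mem_centralizer_iff]
        intro y hy
        rw [Set.mem_singleton_iff] at hy
        rw [hy]
        exact hMcen m hm b
      have hbC : b ∈ C := by
        show b ∈ Subgroup.centralizer {b}
        rw [Subgroup.mem_centralizer_iff]
        intro y hy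
        rw [Set.mem_singleton_iff] at hy
        rw [hy]
      have hCtop : C = ⊤ := hM.2 C (lt_of_le_of_ne hMC fun e => hb (by rw [e]; exact hbC))
      have ha : a ∈ C := by rw [hCtop]; trivial
      have h5 : a ∈ Subgroup.centralizer {b} := ha
      rw [Subgroup.mem_centralizer_iff] at h5
      exact (h5 b rfl).symm
  · rw [not_nontrivial_iff_subsingleton] at hnt
    exact ⟨⟨fun a b => Subsingleton.elim _ _⟩⟩

/-- If in a finite group the normalizer of each abelian subgroup coincides with its centralizer, then the group is abelian. -/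
theorem result {G : Type*} [Group G] [Finite G] (h : ∀ A : Subgroup G, IsMulCommutative A → Subgroup.normalizer (A : Set G) = Subgroup.centralizer (A : Set G)) : IsMulCommutative G := by
  classical
  have hcomm : ∀ (p : ℕ) [Fact p.Prime] (P : Sylow p G), IsMulCommutative (P : Subgroup G) := fun p _ P =>
    pgroup_comm h p _ P P.isPGroup' rfl
  have hcard : Nat.card (commutator G) = 1 := by
    by_contra hcon
    obtain ⟨p, hp, hpd⟩ := Nat.exists_prime_and_dvd hcon
    haveI : Fact p.Prime := ⟨hp⟩
    let P : Sylow p G := default
    haveI hPc := hcomm p P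
    have hN : Subgroup.normalizer ((P : Subgroup G) : Set G) ≤ Subgroup.centralizer ((P : Subgroup G) : Set G) :=
      (h P hPc).le
    have h1 := MonoidHom.not_dvd_card_ker_transferSylow (P : Sylow p G) hN
    apply h1
    have h2 : commutator G ≤ (MonoidHom.transferSylow P hN).ker := by
      rw [commutator_def, Subgroup.commutator_le]
      intro x _ y _
      rw [MonoidHom.mem_ker, map_commutatorElement, commutatorElement_eq_one_iff_mul_comm]
      exact mul_comm' _ _
    exact hpd.trans (Subgroup.card_dvd_of_le h2)
  rw [isMulCommutative_iff]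
  intro a b
  have h1 : ⁅a, b⁆ ∈ commutator G := Subgroup.commutator_mem_commutator (Subgroup.mem_top a) (Subgroup.mem_top b)
  have h2 := Subgroup.card_eq_one.mp hcard
  rw [h2, Subgroup.mem_bot, commutatorElement_eq_one_iff_mul_comm] at h1
  exact h1

end Cfsg.Agent.S0578
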