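import Cfsg.Statements.S0583
import Cfsg.Agent.Lib.FitCore

set_option autoImplicit false
open Cfsg

namespace Cfsg.Agent.S0583

open scoped commutatorElement in
theorem exists_mem_center_of_normal {F : Type*} [Group F] [hF : Group.IsNilpotent F] (K : Subgroup F) [hK : K.Normal]
    (hne : K ≠ ⊥) : ∃ z ∈ K, z ≠ 1 ∧ z ∈ Subgroup.center F := by
  classical
  obtain ⟨n, hn⟩ := hF.nilpotent'
  obtain ⟨x, hx, hx1⟩ := (Subgroup.ne_bot_iff_exists_ne_one.mp hne).elim (fun a ha => (⟨a.1, a.2, fun h => ha (Subtype.ext h)⟩ : ∃ x ∈ K, x ≠ 1))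
  have hex : ∃ m, ∃ z ∈ K, z ≠ 1 ∧ z ∈ Subgroup.upperCentralSeries F m :=
    ⟨n, x, hx, hx1, by rw [hn]; trivial⟩
  let m := Nat.find hex
  obtain ⟨z, hzK, hz1, hzm⟩ := Nat.find_spec hex
  have hm0 : m ≠ 0 := by
    intro h0
    have : z ∈ Subgroup.upperCentralSeries F 0 := by
      have h1 : m = 0 := h0
      rw [← h1]
      exact hzm
    rw [Subgroup.upperCentralSeries_zero, Subgroup.mem_bot] at this
    exact hz1 this
  obtain ⟨k, hk⟩ := Nat.exists_eq_succ_of_ne_zero hm0
  refine ⟨z, hzK, hz1, ?_⟩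
  rw [Subgroup.mem_center_iff]
  intro y
  have h2 : z ∈ Subgroup.upperCentralSeries F (k + 1) := by
    have : m = k + 1 := hk
    rw [← this]
    exact hzm
  rw [Subgroup.mem_upperCentralSeries_succ_iff] at h2
  have h3 := h2 y
  have h4 : ⁅z, y⁆ ∈ K := by
    rw [commutatorElement_def]
    have h7 : z * y * z⁻¹ * y⁻¹ = z * (y * z⁻¹ * y⁻¹) := by group
    rw [h7]
    exact K.mul_mem hzK (hK.conj_mem _ (K.inv_mem hzK) y)
  by_contra hcon
  have h5 : ⁅z, y⁆ ≠ 1 := by
    intro h6
    rw [commutatorElement_eq_one_iff_mul_comm] at h6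
    exact hcon h6.symm
  have h6 : m ≤ k := Nat.find_min' hex ⟨_, h4, h5, h3⟩
  have : m = k + 1 := hk
  omega

/-- In a finite group the Fitting subgroup is contained in the centralizer of each minimal normal subgroup. -/
theorem result {G : Type*} [Group G] [Finite G] (M : Subgroup G) [M.Normal] (hM : M ≠ ⊥) (hmin : ∀ K : Subgroup G, K.Normal → K ≤ M → K = ⊥ ∨ K = M) : Cfsg.fittingSubgroup G ≤ Subgroup.centralizer (M : Set G) := by
  classical
  haveI hFn : (Cfsg.fittingSubgroup G).Normal := Cfsg.Agent.Lib.FitCore.fitting_normal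
  haveI hFnil : Group.IsNilpotent (Cfsg.fittingSubgroup G) := Cfsg.Agent.Lib.FitCore.fitting_isNilpotent
  obtain ⟨F, hF⟩ : ∃ F, F = Cfsg.fittingSubgroup G := ⟨_, rfl⟩
  rw [← hF] at hFn hFnil ⊢
  have hmi := hmin (M ⊓ F) inferInstance inf_le_left
  rcases hmi with h0 | h1
  · intro x hx
    rw [Subgroup.mem_centralizer_iff]
    intro y hy
    have h2 : y * x * y⁻¹ * x⁻¹ ∈ M ⊓ F := by
      constructor
      · have h3 := hFn.conj_mem
        have h4 := ‹M.Normal›.conj_mem y hy x
        have h5 : y * x * y⁻¹ * x⁻¹ = y * (x * y⁻¹ * x⁻¹) := by group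
        rw [h5]
        exact M.mul_mem hy (‹M.Normal›.conj_mem _ (M.inv_mem hy) x)
      · exact F.mul_mem (hFn.conj_mem x hx y) (F.inv_mem hx)
    rw [h0, Subgroup.mem_bot] at h2
    have h3 : y * x = x * y := by
      calc y * x = (y * x * y⁻¹ * x⁻¹) * (x * y) := by group
        _ = x * y := by rw [h2, one_mul]
    exact h3
  · have hMF : M ≤ F := inf_eq_left.mp h1
    -- `M` meets the centre of `F`
    let K : Subgroup F := M.subgroupOf F
    haveI : K.Normal := inferInstance
    have hKne : K ≠ ⊥ := by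
      intro hK
      apply hM
      rw [eq_bot_iff]
      intro y hy
      have h2 : (⟨y, hMF hy⟩ : F) ∈ K := Subgroup.mem_subgroupOf.mpr hy
      rw [hK, Subgroup.mem_bot] at h2
      exact Subgroup.mem_bot.mpr (congrArg Subtype.val h2)
    obtain ⟨z, hzK, hz1, hzc⟩ := exists_mem_center_of_normal K hKne
    -- the elements of `M` central in `F`
    let D : Subgroup G := M ⊓ Subgroup.centralizer (F : Set G)
    haveI hDn : D.Normal := by
      haveI : (Subgroup.centralizer (F : Set G)).Normal := Subgroup.normal_centralizer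
      exact Subgroup.normal_inf_normal _ _
    have hzD : (z : G) ∈ D := by
      refine ⟨Subgroup.mem_subgroupOf.mp hzK, ?_⟩
      show (z : G) ∈ Subgroup.centralizer (F : Set G)
      rw [Subgroup.mem_centralizer_iff]
      intro y hy
      have := Subgroup.mem_center_iff.mp hzc ⟨y, hy⟩
      exact congrArg Subtype.val this
    have hDne : D ≠ ⊥ := by
      intro h
      rw [h, Subgroup.mem_bot] at hzD
      exact hz1 (Subtype.ext hzD)
    have hDM : D = M := (hmin D hDn inf_le_left).resolve_left hDne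
    intro x hx
    rw [Subgroup.mem_centralizer_iff]
    intro y hy
    have h2 : y ∈ D := by rw [hDM]; exact hy
    exact ((Subgroup.mem_centralizer_iff.mp h2.2 x hx)).symm

end Cfsg.Agent.S0583
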