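import Cfsg.Statements.S0584
import Mathlib

set_option autoImplicit false
open Cfsg

namespace Cfsg.Agent.S0584

/-- Let B ≤ A be normal subgroups of a finite group G with B contained in the Frattini subgroup of G. If A modulo B is nilpotent then A is nilpotent. -/
theorem result {G : Type*} [Group G] [Finite G] (A B : Subgroup G) [A.Normal] [B.Normal] (hBA : B ≤ A) (hB : B ≤ frattini G) (h : Group.IsNilpotent (↥A ⧸ B.subgroupOf A)) : Group.IsNilpotent A := by
  classical
  have q := (Group.isNilpotent_of_finite_tfae (G := A)).out 0 3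
  rw [q]; clear q
  intro p _ P
  let B' : Subgroup A := B.subgroupOf A
  let π : A →* A ⧸ B' := QuotientGroup.mk' B'
  have hπ : Function.Surjective π := QuotientGroup.mk'_surjective B'
  let R : Sylow p (A ⧸ B') := P.mapSurjective hπ
  have hRn : (R : Subgroup (A ⧸ B')).Normal := by
    have q2 := (Group.isNilpotent_of_finite_tfae (G := A ⧸ B')).out 0 3
    exact (q2.mp h) p inferInstance R
  have hRcoe : (R : Subgroup (A ⧸ B')) = (P : Subgroup A).map π := rfl
  -- `p`-subgroups of the quotient lie in `R`
  have hple : ∀ X : Subgroup (A ⧸ B'), IsPGroup p X → X ≤ (R : Subgroup (A ⧸ B')) := by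
    intro X hX
    obtain ⟨S, hS⟩ := hX.exists_le_sylow
    obtain ⟨g, hg⟩ := MulAction.exists_smul_eq (A ⧸ B') R S
    haveI : (R : Subgroup (A ⧸ B')).Normal := hRn
    have h1 : g • R = R := Sylow.smul_eq_of_normal
    rw [h1] at hg
    rw [hg]
    exact hS
  let P' : Subgroup G := (P : Subgroup A).map A.subtype
  let T : Subgroup G := P' ⊔ B
  have hP'A : P' ≤ A := by
    rintro _ ⟨x, _, rfl⟩
    exact x.2
  have hTA : T ≤ A := sup_le hP'A hBA
  have hTn : T.Normal := by
    constructor
    intro x hx g
    have h1 : T ≤ T.comap (MulAut.conj g).toMonoidHom := by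
      refine sup_le ?_ ?_
      · rintro _ ⟨y, hy, rfl⟩
        show g * (y : G) * g⁻¹ ∈ T
        let σ : A ≃* A := MulAut.conjNormal g
        let X : Subgroup A := (P : Subgroup A).map σ.toMonoidHom
        have hX : IsPGroup p X := P.isPGroup'.map _
        have hX2 : IsPGroup p (X.map π) := hX.map _
        have h2 : π (σ y) ∈ (R : Subgroup (A ⧸ B')) := hple _ hX2 ⟨σ y, ⟨y, hy, rfl⟩, rfl⟩
        rw [hRcoe] at h2
        obtain ⟨y₂, hy₂, e⟩ := h2
        have h3 : y₂⁻¹ * σ y ∈ B' := by
          have h4 : π (y₂⁻¹ * σ y) = 1 := by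
            rw [map_mul, map_inv, ← e]
            group
          exact (QuotientGroup.eq_one_iff _).mp h4
        have h5 : g * (y : G) * g⁻¹ = (y₂ : G) * ((y₂⁻¹ * σ y : A) : G) := by
          have h6 : ((σ y : A) : G) = g * (y : G) * g⁻¹ := by simp [σ]
          simp [h6]
        rw [h5]
        exact Subgroup.mul_mem_sup ⟨y₂, hy₂, rfl⟩ (Subgroup.mem_subgroupOf.mp h3)
      · intro b hb
        exact Subgroup.mem_sup_right (‹B.Normal›.conj_mem b hb g)
    exact h1 hx
  -- `P'` is Sylow in `T`
  have hp1 : IsPGroup p (P'.subgroupOf T) :=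
    (P.isPGroup'.map A.subtype).comap_of_injective T.subtype T.subtype_injective
  have hp2 : ¬ p ∣ (P'.subgroupOf T).index := by
    intro hdvd
    have h1 := Subgroup.relIndex_mul_relIndex P' T A le_sup_left hTA
    have h2 : P'.relIndex A = (P : Subgroup A).index := by
      rw [Subgroup.relIndex]
      congr 1
      exact Subgroup.comap_map_eq_self_of_injective A.subtype_injective _
    have h3 : p ∣ (P : Subgroup A).index := by
      rw [← h2, ← h1]
      exact Dvd.dvd.mul_right hdvd _
    exact P.not_dvd_index h3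
  let P₂ : Sylow p T := hp1.toSylow hp2
  have hF := Sylow.normalizer_sup_eq_top P₂
  have hmap : (P₂ : Subgroup T).map T.subtype = P' := by
    show (P'.subgroupOf T).map T.subtype = P'
    rw [Subgroup.subgroupOf_map_subtype, inf_of_le_left le_sup_left]
  have hF2 : Subgroup.normalizer (P' : Set G) ⊔ frattini G = ⊤ := by
    rw [eq_top_iff, ← hF]
    refine sup_le ?_ ?_
    · rw [hmap]
      exact le_sup_left
    · refine sup_le ?_ (hB.trans le_sup_right)
      exact (Subgroup.le_normalizer).trans le_sup_left
  have hN := frattini_nongenerating hF2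
  have hP'n : P'.Normal := Subgroup.normalizer_eq_top_iff.mp hN
  exact hP'n.of_map_subtype

end Cfsg.Agent.S0584
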