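import Cfsg.Statements.S0585
import Mathlib

set_option autoImplicit false
open Cfsg

namespace Cfsg.Agent.S0585

/-- If the Frattini subgroup of a finite group G is trivial, then every abelian normal subgroup of G has a complement in G. -/
theorem result {G : Type*} [Group G] [Finite G] (hΦ : frattini G = ⊥) (A : Subgroup G) [A.Normal] [IsMulCommutative A] : ∃ H : Subgroup G, Subgroup.IsComplement' A H := by
  classical
  -- a subgroup `H` minimal with `A H = G`
  have hex : ∃ H : Subgroup G, A ⊔ H = ⊤ ∧ ∀ K : Subgroup G, K < H → A ⊔ K ≠ ⊤ := by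
    by_contra hcon
    push Not at hcon
    have hwf : WellFoundedLT (Subgroup G) := inferInstance
    have key : ∀ H : Subgroup G, A ⊔ H ≠ ⊤ := by
      intro H
      induction H using hwf.induction with
      | _ H ih =>
        intro hH
        obtain ⟨K, hK, hK2⟩ := hcon H hH
        exact ih K hK hK2
    exact key ⊤ (by simp)
  obtain ⟨H, hH, hmin⟩ := hex
  refine ⟨H, ?_⟩
  -- `D = A ∩ H` is normal in `G`
  let D : Subgroup G := A ⊓ H
  have hcA : ∀ x ∈ A, ∀ y ∈ A, x * y = y * x := fun x hx y hy => by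
    have := mul_comm' (⟨x, hx⟩ : A) ⟨y, hy⟩
    exact congrArg Subtype.val this
  have hDn : D.Normal := by
    constructor
    intro x hx g
    have hg : g ∈ ((A ⊔ H : Subgroup G) : Set G) := by rw [hH]; trivial
    rw [Subgroup.normal_mul] at hg
    obtain ⟨a, ha, h, hh, rfl⟩ := Set.mem_mul.mp hg
    have e : (a * h) * x * (a * h)⁻¹ = a * (h * x * h⁻¹) * a⁻¹ := by group
    have hhx : h * x * h⁻¹ ∈ A := ‹A.Normal›.conj_mem x hx.1 h
    have h1 : a * (h * x * h⁻¹) * a⁻¹ = h * x * h⁻¹ := by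
      rw [hcA a ha _ hhx]
      group
    rw [e, h1]
    exact ⟨hhx, H.mul_mem (H.mul_mem hh hx.2) (H.inv_mem hh)⟩
  -- `D ≤ M` for each maximal subgroup of `G`, so `D ≤ Φ(G) = 1`
  have hD : D ≤ frattini G := by
    apply le_iInf₂
    intro M hM
    by_contra hDM
    have hsup : M ⊔ D = ⊤ := hM.2 _ (lt_of_le_of_ne le_sup_left fun h => hDM (by rw [h]; exact le_sup_right))
    -- `H = (H ∩ M) D`
    have hH2 : (H ⊓ M) ⊔ D = H := by
      apply le_antisymm (sup_le inf_le_left inf_le_right)
      intro h hh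
      have hx : h ∈ ((M ⊔ D : Subgroup G) : Set G) := by rw [hsup]; trivial
      rw [Subgroup.mul_normal] at hx
      obtain ⟨m, hm, d, hd, rfl⟩ := Set.mem_mul.mp hx
      have hmH : m ∈ H := by
        have e : m = (m * d) * d⁻¹ := by group
        rw [e]
        exact H.mul_mem hh (H.inv_mem hd.2)
      exact Subgroup.mul_mem_sup ⟨hmH, hm⟩ hd
    -- then `A (H ∩ M) = G`
    have h3 : A ⊔ (H ⊓ M) = ⊤ := by
      rw [eq_top_iff, ← hH]
      refine sup_le le_sup_left ?_
      have h4 : (H ⊓ M) ⊔ D ≤ A ⊔ (H ⊓ M) := sup_le le_sup_right (inf_le_left.trans le_sup_left)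
      rwa [hH2] at h4
    by_cases hHM : H ⊓ M = H
    · have hHle : H ≤ M := inf_eq_left.mp hHM
      exact hDM (inf_le_right.trans hHle)
    · exact hmin _ (lt_of_le_of_ne inf_le_left hHM) h3
  rw [hΦ, le_bot_iff] at hD
  refine Subgroup.isComplement'_of_disjoint_and_mul_eq_univ ?_ ?_
  · rw [Subgroup.disjoint_def]
    intro x hx hy
    have : x ∈ D := ⟨hx, hy⟩
    rwa [hD, Subgroup.mem_bot] at this
  · rw [← Subgroup.normal_mul, hH, Subgroup.coe_top]

end Cfsg.Agent.S0585
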