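import Cfsg.Statements.S0586
import Mathlib
import Cfsg.Agent.Lib.FitCore

set_option autoImplicit false
set_option linter.style.haveILetI false
set_option linter.unusedVariables false
open scoped ComplexConjugate
open scoped Pointwise
open Cfsg

namespace Cfsg.Agent.S0586

/-- If the Frattini subgroup of a finite group G is trivial, then the Fitting subgroup of G equals the join of all abelian minimal normal subgroups of G. -/
theorem result {G : Type*} [Group G] [Finite G] (hΦ : frattini G = ⊥) : Cfsg.fittingSubgroup G = sSup {N : Subgroup G | N.Normal ∧ N ≠ ⊥ ∧ IsMulCommutative N ∧ ∀ K : Subgroup G, K.Normal → K ≤ N → K = ⊥ ∨ K = N} := by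
  classical
  haveI hFn : (Cfsg.fittingSubgroup G).Normal := Cfsg.Agent.Lib.FitCore.fitting_normal
  have hFnil : Group.IsNilpotent (Cfsg.fittingSubgroup G) := Cfsg.Agent.Lib.FitCore.fitting_isNilpotent
  have key : ∀ D : Subgroup G, (∀ M, IsCoatom M → D ≤ M) → D = ⊥ := by
    intro D h
    rw [eq_bot_iff, ← hΦ]
    simp only [frattini, Order.radical]
    exact le_iInf fun K => le_iInf fun hK => h K hK
  set F := Cfsg.fittingSubgroup G with hFdef
  -- F is abelian
  have hcomY : ∀ Y : Subgroup F, IsCoatom Y → commutator F ≤ Y := by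
    intro Y hY
    haveI hYn : Y.Normal := Subgroup.NormalizerCondition.normal_of_coatom Y (normalizerCondition_of_isNilpotent (G := F)) hY
    obtain ⟨g, hg⟩ : ∃ g, g ∉ Y := by
      by_contra hall
      push_neg at hall
      exact hY.1 (eq_top_iff.2 fun g _ => hall g)
    have hsup : Y ⊔ Subgroup.zpowers g = ⊤ :=
      hY.2 _ (lt_of_le_of_ne le_sup_left (fun h => hg (by
        rw [h]; exact Subgroup.mem_sup_right (Subgroup.mem_zpowers g))))
    have hdec : ∀ x : F, ∃ a ∈ Y, ∃ i : ℤ, x = a * g ^ i := by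
      intro x
      have hx : x ∈ (Y : Set F) * (Subgroup.zpowers g : Subgroup F) := by
        rw [← Subgroup.normal_mul, hsup]; trivial
      obtain ⟨a, ha, b, hb, he⟩ := hx
      obtain ⟨i, rfl⟩ := Subgroup.mem_zpowers_iff.1 hb
      exact ⟨a, ha, i, he.symm⟩
    rw [commutator_def, Subgroup.commutator_le]
    intro x _ y _
    obtain ⟨a, ha, i, rfl⟩ := hdec x
    obtain ⟨b, hb, j, rfl⟩ := hdec y
    let π : F →* F ⧸ Y := QuotientGroup.mk' Y
    have hπ1 : ∀ c ∈ Y, π c = 1 := fun c hc => (QuotientGroup.eq_one_iff c).2 hc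
    rw [← QuotientGroup.eq_one_iff]
    show π _ = 1
    rw [map_commutatorElement, commutatorElement_eq_one_iff_mul_comm]
    simp only [map_mul, hπ1 a ha, hπ1 b hb, one_mul, map_zpow]
    exact (Commute.refl (π g)).zpow_zpow i j
  have hD : ⁅F, F⁆ = ⊥ := by
    apply key
    intro M hMc
    by_contra hnot
    haveI hDn : (⁅F, F⁆).Normal := Subgroup.commutator_normal F F
    have hsup : ⁅F, F⁆ ⊔ M = ⊤ :=
      hMc.2 _ (lt_of_le_of_ne le_sup_right (fun h => hnot (by rw [h]; exact le_sup_left)))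
    have hDF : ⁅F, F⁆ ≤ F := Subgroup.commutator_le_left F F
    have hFM : F ≤ M := by
      by_contra hFM
      have hX : M.subgroupOf F ≠ ⊤ := by
        intro h
        exact hFM (Subgroup.subgroupOf_eq_top.1 h)
      obtain ⟨Y, hY, hXY⟩ := (eq_top_or_exists_le_coatom (M.subgroupOf F)).resolve_left hX
      apply hY.1
      rw [eq_top_iff]
      rintro ⟨x, hxF⟩ _
      have hx : x ∈ ((⁅F, F⁆ : Subgroup G) : Set G) * (M : Set G) := by
        rw [← Subgroup.normal_mul, hsup]; trivial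
      obtain ⟨d, hd, m, hm, he⟩ := hx
      have hmF : m ∈ F := by
        have := F.mul_mem (F.inv_mem (hDF hd)) hxF
        rw [← he] at this
        simpa using this
      have hm' : (⟨m, hmF⟩ : F) ∈ Y := hXY (by simpa [Subgroup.mem_subgroupOf] using hm)
      have hd' : (⟨d, hDF hd⟩ : F) ∈ Y := by
        apply hcomY Y hY
        have h1 : d ∈ (commutator F).map F.subtype := by
          rw [Subgroup.map_subtype_commutator]; exact hd
        obtain ⟨c, hc, hce⟩ := h1
        have : c = ⟨d, hDF hd⟩ := Subtype.ext hce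
        rw [← this]; exact hc
      have : (⟨x, hxF⟩ : F) = ⟨d, hDF hd⟩ * ⟨m, hmF⟩ := Subtype.ext he.symm
      rw [this]
      exact Y.mul_mem hd' hm'
    exact hnot (hDF.trans hFM)
  have hFab : ∀ x ∈ F, ∀ y ∈ F, x * y = y * x := by
    intro x hx y hy
    have h1 : x * y * x⁻¹ * y⁻¹ ∈ ⁅F, F⁆ := Subgroup.commutator_mem_commutator hx hy
    rw [hD, Subgroup.mem_bot] at h1
    calc x * y = x * y * x⁻¹ * y⁻¹ * (y * x) := by group
      _ = y * x := by rw [h1, one_mul]
  -- complements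
  have hcomp : ∀ A : Subgroup G, A.Normal → A ≤ F → ∃ B : Subgroup G, B.Normal ∧ B ≤ F ∧ A ⊔ B = F ∧ A ⊓ B = ⊥ := by
    intro A hAn hAF
    haveI := hAn
    let S : Set (Subgroup G) := {K | A ⊔ K = ⊤}
    have hS : S.Nonempty := ⟨⊤, sup_top_eq _⟩
    obtain ⟨K, hK⟩ := Set.Finite.exists_minimal (Set.toFinite S) hS
    have hKs : A ⊔ K = ⊤ := hK.1
    have hdec : ∀ g : G, ∃ a ∈ A, ∃ k ∈ K, g = a * k := by
      intro g
      have hg : g ∈ (A : Set G) * (K : Set G) := by
        rw [← Subgroup.normal_mul, hKs]; trivial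
      obtain ⟨a, ha, k, hk, he⟩ := hg
      exact ⟨a, ha, k, hk, he.symm⟩
    have hDn : (A ⊓ K).Normal := by
      refine ⟨fun x hx g => ?_⟩
      obtain ⟨a, ha, k, hk, rfl⟩ := hdec g
      have h1 : k * x * k⁻¹ ∈ A := hAn.conj_mem x hx.1 k
      have h2 : a * k * x * (a * k)⁻¹ = k * x * k⁻¹ := by
        calc a * k * x * (a * k)⁻¹ = a * (k * x * k⁻¹) * a⁻¹ := by group
          _ = k * x * k⁻¹ := by rw [hFab a (hAF ha) _ (hAF h1)]; group
      rw [h2]
      exact ⟨h1, K.mul_mem (K.mul_mem hk hx.2) (K.inv_mem hk)⟩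
    have hDb : A ⊓ K = ⊥ := by
      apply key
      intro M hMc
      by_contra hnot
      have hsup : (A ⊓ K) ⊔ M = ⊤ :=
        hMc.2 _ (lt_of_le_of_ne le_sup_right (fun h => hnot (by rw [h]; exact le_sup_left)))
      have hmem : K ⊓ M ∈ S := by
        show A ⊔ (K ⊓ M) = ⊤
        rw [eq_top_iff]
        intro g _
        obtain ⟨a, ha, k, hk, rfl⟩ := hdec g
        have hk2 : k ∈ ((A ⊓ K : Subgroup G) : Set G) * (M : Set G) := by
          rw [← Subgroup.normal_mul, hsup]; trivial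
        obtain ⟨d, hd, m, hm, he⟩ := hk2
        have hmK : m ∈ K := by
          have := K.mul_mem (K.inv_mem hd.2) hk
          rw [← he] at this
          simpa using this
        rw [← he, ← mul_assoc]
        exact Subgroup.mul_mem_sup (A.mul_mem ha hd.1) ⟨hmK, hm⟩
      have hle : K ≤ K ⊓ M := hK.2 hmem inf_le_left
      exact hnot (inf_le_right.trans (hle.trans inf_le_right))
    refine ⟨F ⊓ K, ?_, inf_le_left, ?_, ?_⟩
    · refine ⟨fun x hx g => ?_⟩
      obtain ⟨a, ha, k, hk, rfl⟩ := hdec g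
      have h1 : k * x * k⁻¹ ∈ F := hFn.conj_mem x hx.1 k
      have h2 : a * k * x * (a * k)⁻¹ = k * x * k⁻¹ := by
        calc a * k * x * (a * k)⁻¹ = a * (k * x * k⁻¹) * a⁻¹ := by group
          _ = k * x * k⁻¹ := by rw [hFab a (hAF ha) _ h1]; group
      rw [h2]
      exact ⟨h1, K.mul_mem (K.mul_mem hk hx.2) (K.inv_mem hk)⟩
    · apply le_antisymm (sup_le hAF inf_le_left)
      intro x hx
      obtain ⟨a, ha, k, hk, rfl⟩ := hdec x
      have hkF : k ∈ F := by
        have := F.mul_mem (F.inv_mem (hAF ha)) hx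
        simpa using this
      exact Subgroup.mul_mem_sup ha ⟨hkF, hk⟩
    · rw [eq_bot_iff, ← hDb]
      exact inf_le_inf_left _ inf_le_right
  -- final
  set T : Set (Subgroup G) := {N : Subgroup G | N.Normal ∧ N ≠ ⊥ ∧ IsMulCommutative N ∧ ∀ K : Subgroup G, K.Normal → K ≤ N → K = ⊥ ∨ K = N} with hT
  have hTn : (sSup T).Normal := Subgroup.sSup_normal T (fun N hN => hN.1)
  have hTF : sSup T ≤ F := by
    apply sSup_le
    rintro N ⟨hNn, -, hNc, -⟩
    apply Cfsg.Agent.Lib.FitCore.le_fitting N hNn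
    letI : CommGroup N := { (inferInstance : Group N) with mul_comm := mul_comm' }
    exact (inferInstance : Group.IsNilpotent N)
  apply le_antisymm _ hTF
  obtain ⟨B, hBn, hBF, hsup, hinf⟩ := hcomp (sSup T) hTn hTF
  suffices hB : B = ⊥ by
    rw [hB, sup_bot_eq] at hsup
    exact hsup.ge
  by_contra hne
  let S : Set (Subgroup G) := {N | N.Normal ∧ N ≠ ⊥ ∧ N ≤ B}
  have hS : S.Nonempty := ⟨B, hBn, hne, le_rfl⟩
  obtain ⟨N, hN⟩ := Set.Finite.exists_minimal (Set.toFinite S) hS
  obtain ⟨hNn, hNb, hNB⟩ := hN.1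
  have hNT : N ∈ T := by
    refine ⟨hNn, hNb, ⟨⟨fun a b => Subtype.ext (hFab a (hBF (hNB a.2)) b (hBF (hNB b.2)))⟩⟩, ?_⟩
    intro K hKn hKN
    by_cases hb : K = ⊥
    · exact Or.inl hb
    · exact Or.inr (le_antisymm hKN (hN.2 ⟨hKn, hb, hKN.trans hNB⟩ hKN))
  have : N ≤ sSup T ⊓ B := le_inf (le_sSup hNT) hNB
  rw [hinf, le_bot_iff] at this
  exact hNb this

end Cfsg.Agent.S0586
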