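import Cfsg.Statements.S0588
import Mathlib

set_option autoImplicit false
open Cfsg

namespace Cfsg.Agent.S0588

/-- If a subgroup H of a finite group G contains the centralizer of every non-identity element of H, then the order of H is coprime to its index. -/
theorem result {G : Type*} [Group G] [Finite G] (H : Subgroup G) (h : ∀ x ∈ H, x ≠ 1 → Subgroup.centralizer ({x} : Set G) ≤ H) : (Nat.card H).Coprime H.index := by
  classical
  by_contra hcop
  obtain ⟨p, hp, hp1, hp2⟩ := Nat.Prime.not_coprime_iff_dvd.mp hcop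
  haveI : Fact p.Prime := ⟨hp⟩
  -- a Sylow subgroup of `H`
  let P : Sylow p H := default
  have hPne : Nontrivial P := by
    obtain ⟨k, hk⟩ := P.isPGroup'.exists_card_eq
    have h1 : p ∣ Nat.card P := P.dvd_card_of_dvd_card hp1
    rw [← Finite.one_lt_card_iff_nontrivial]
    have := Nat.le_of_dvd Nat.card_pos h1
    have := hp.two_le
    omega
  haveI := P.isPGroup'.center_nontrivial
  obtain ⟨z0, hz0⟩ := exists_ne (1 : Subgroup.center P)
  let z : G := (((z0 : P) : H) : G)
  have hzH : z ∈ H := ((z0 : P) : H).2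
  have hz1 : z ≠ 1 := by
    intro h
    apply hz0
    apply Subtype.ext
    apply Subtype.ext
    apply Subtype.ext
    exact h
  -- `P` inside a Sylow subgroup of `G`
  let P' : Subgroup G := (P : Subgroup H).map H.subtype
  have hP'p : IsPGroup p P' := P.isPGroup'.map H.subtype
  obtain ⟨R, hR⟩ := hP'p.exists_le_sylow
  have hzP' : z ∈ P' := ⟨(z0 : P), (z0 : P).2, rfl⟩
  have hzR : z ∈ (R : Subgroup G) := hR hzP'
  -- the centre of `R`
  have hRnt : Nontrivial (R : Subgroup G) := by
    refine ⟨⟨⟨z, hzR⟩, 1, fun h => hz1 (congrArg Subtype.val h)⟩⟩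
  haveI := R.isPGroup'.center_nontrivial
  obtain ⟨y0, hy0⟩ := exists_ne (1 : Subgroup.center (R : Subgroup G))
  let y : G := ((y0 : (R : Subgroup G)) : G)
  have hy1 : y ≠ 1 := by
    intro h
    apply hy0
    apply Subtype.ext
    apply Subtype.ext
    exact h
  have hyR : y ∈ (R : Subgroup G) := (y0 : (R : Subgroup G)).2
  have hyc : ∀ r ∈ (R : Subgroup G), r * y = y * r := by
    intro r hr
    have := Subgroup.mem_center_iff.mp y0.2 ⟨r, hr⟩
    exact congrArg Subtype.val this
  have hyH : y ∈ H := by
    apply h z hzH hz1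
    rw [Subgroup.mem_centralizer_iff]
    intro w hw
    rw [Set.mem_singleton_iff] at hw
    rw [hw]
    exact (hyc z hzR)
  have hRH : (R : Subgroup G) ≤ H := by
    intro r hr
    apply h y hyH hy1
    rw [Subgroup.mem_centralizer_iff]
    intro w hw
    rw [Set.mem_singleton_iff] at hw
    rw [hw]
    exact (hyc r hr).symm
  have hdvd : H.index ∣ (R : Subgroup G).index := Subgroup.index_dvd_of_le hRH
  exact R.not_dvd_index (hp2.trans hdvd)

end Cfsg.Agent.S0588
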