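import Cfsg.Statements.S0589
import Mathlib
import Cfsg.Agent.S0034
import Cfsg.Agent.S0035
import Cfsg.Agent.S0042
import Cfsg.Agent.Lib.SchurZ

set_option autoImplicit false
set_option linter.style.haveILetI false
set_option linter.unusedVariables false
open Pointwise
open scoped ComplexConjugate
open scoped Pointwise
open Cfsg

namespace Cfsg.Agent.S0589

/-- Let H be a Frobenius complement in a finite group G and L a subgroup of G whose order divides the order of H. Then L is contained in some conjugate of H. -/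
theorem result {G : Type*} [Group G] [Finite G] (H : Subgroup G) (hH : Cfsg.IsFrobeniusComplement H) (L : Subgroup G) (hL : Nat.card L ∣ Nat.card H) : ∃ x : G, L ≤ MulAut.conj x • H := by
  classical
  obtain ⟨N, hNs, hNn, hc⟩ := Cfsg.Agent.S0035.result H hH
  obtain ⟨N', hNs', -, hnil⟩ := Cfsg.Agent.S0042.result H hH
  have hNN' : N' = N := by
    apply SetLike.coe_injective
    rw [hNs', hNs]
  subst hNN'
  haveI := hNn
  have hmod := (Cfsg.Agent.S0034.result H hH).2
  have hidx : H.index = Nat.card N' := hc.index_eq_card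
  have hcop : (Nat.card N').Coprime (Nat.card H) := by
    rw [← hidx]
    have h1 : Nat.gcd H.index (Nat.card H) = Nat.gcd 1 (Nat.card H) := Nat.ModEq.gcd_eq hmod
    rw [Nat.gcd_one_left] at h1
    exact h1
  have hcopL : (Nat.card N').Coprime (Nat.card L) := Nat.Coprime.coprime_dvd_right hL hcop
  have hdisjL : N' ⊓ L = ⊥ := by
    rw [eq_bot_iff]
    rintro x ⟨h1, h2⟩
    have h3 : orderOf (⟨x, h1⟩ : N') ∣ Nat.card N' := orderOf_dvd_natCard _
    have h4 : orderOf (⟨x, h2⟩ : L) ∣ Nat.card L := orderOf_dvd_natCard _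
    rw [Subgroup.orderOf_mk] at h3 h4
    exact orderOf_eq_one_iff.1 (Nat.eq_one_of_dvd_coprimes hcopL h3 h4)
  let T : Subgroup G := N' ⊔ L
  let H₁ : Subgroup G := H ⊓ T
  have hsupT : N' ⊔ H₁ = T := by
    refine le_antisymm (sup_le le_sup_left inf_le_right) ?_
    intro t ht
    have hx : t ∈ ((N' ⊔ H : Subgroup G) : Set G) := by
      rw [hc.sup_eq_top]; trivial
    rw [Subgroup.normal_mul] at hx
    obtain ⟨n, hn, h, hh, he⟩ := hx
    have he' : n * h = t := he
    have hhT : h ∈ T := by
      have : h = n⁻¹ * t := by rw [← he']; group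
      rw [this]
      exact mul_mem (inv_mem (Subgroup.mem_sup_left hn)) ht
    rw [← he']
    exact Subgroup.mul_mem_sup hn ⟨hh, hhT⟩
  have hdisjH : N' ⊓ H₁ = ⊥ := by
    have h1 := disjoint_iff.1 hc.disjoint
    rw [eq_bot_iff, ← h1]
    exact inf_le_inf_left _ inf_le_left
  have hc1 := Cfsg.Agent.Lib.SchurZ.card_sup_of_disjoint N' L hdisjL
  have hc2 := Cfsg.Agent.Lib.SchurZ.card_sup_of_disjoint N' H₁ hdisjH
  rw [hsupT] at hc2
  have hcardeq : Nat.card L = Nat.card H₁ :=
    Nat.eq_of_mul_eq_mul_left (Nat.card_pos (α := N')) (hc1.symm.trans hc2)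
  obtain ⟨n, -, hn⟩ := Cfsg.Agent.Lib.SchurZ.sz_conj_ambient N' H₁ L
    (by
      rw [Subgroup.normalizer_eq_top_iff.2 hNn]
      exact le_top)
    (by rw [hsupT]; exact le_sup_right) hcardeq
    (by rw [← hcardeq]; exact hcopL) (Or.inl inferInstance)
  refine ⟨n, ?_⟩
  rw [← hn]
  exact Subgroup.map_mono inf_le_left

end Cfsg.Agent.S0589
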