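import Cfsg.Statements.S0590

set_option autoImplicit false
open Cfsg

namespace Cfsg.Agent.S0590

open scoped commutatorElement

lemma fixed_d {G : Type*} [Group G] {V H : Subgroup G} (hq : ⁅⁅V, H⁆, H⁆ = ⊥) {v a b : G}
    (hv : v ∈ V) (ha : a ∈ H) (hb : b ∈ H) : b * (v⁻¹ * (a * v * a⁻¹)) * b⁻¹ = v⁻¹ * (a * v * a⁻¹) := by
  have h1 : ⁅v⁻¹, a⁆ ∈ ⁅V, H⁆ := Subgroup.commutator_mem_commutator (V.inv_mem hv) ha
  have h2 : ⁅⁅v⁻¹, a⁆, b⁆ ∈ ⁅⁅V, H⁆, H⁆ := Subgroup.commutator_mem_commutator h1 hb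
  rw [hq, Subgroup.mem_bot, commutatorElement_eq_one_iff_mul_comm] at h2
  have h3 : ⁅v⁻¹, a⁆ = v⁻¹ * (a * v * a⁻¹) := by
    rw [commutatorElement_def]
    group
  rw [h3] at h2
  calc b * (v⁻¹ * (a * v * a⁻¹)) * b⁻¹ = (v⁻¹ * (a * v * a⁻¹)) * b * b⁻¹ := by rw [h2]
    _ = _ := by group

/-- Quadratic action on an elementary abelian p-group forces the acting group modulo the kernel of the action to be elementary abelian. -/
theorem result {G : Type*} [Group G] [Finite G] {p : ℕ} [Fact p.Prime] (V H : Subgroup G) (hV : Cfsg.IsElementaryAbelian p V) (hHV : H ≤ Subgroup.normalizer (V : Set G)) (hq : ⁅⁅V, H⁆, H⁆ = ⊥) : ⁅H, H⁆ ≤ Subgroup.centralizer (V : Set G) ∧ ∀ a ∈ H, a ^ p ∈ Subgroup.centralizer (V : Set G) := by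
  classical
  have hnorm : ∀ a ∈ H, ∀ v ∈ V, a * v * a⁻¹ ∈ V := fun a ha v hv =>
    (Subgroup.mem_normalizer_iff.mp (hHV ha) v).mp hv
  have hcm : ∀ x ∈ V, ∀ y ∈ V, x * y = y * x := fun x hx y hy =>
    congrArg Subtype.val (hV.1.1.1 ⟨x, hx⟩ ⟨y, hy⟩)
  have hd : ∀ a ∈ H, ∀ v ∈ V, v⁻¹ * (a * v * a⁻¹) ∈ V := fun a ha v hv =>
    V.mul_mem (V.inv_mem hv) (hnorm a ha v hv)
  have hact : ∀ a ∈ H, ∀ v ∈ V, a * v * a⁻¹ = v * (v⁻¹ * (a * v * a⁻¹)) := by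
    intro a _ v _
    group
  constructor
  · rw [Subgroup.commutator_le]
    intro a ha b hb
    have key : ∀ w ∈ V, (a * b) * w * (a * b)⁻¹ = (b * a) * w * (b * a)⁻¹ := by
      intro w hw
      have h1 : (a * b) * w * (a * b)⁻¹ = a * (b * w * b⁻¹) * a⁻¹ := by group
      have h2 : (b * a) * w * (b * a)⁻¹ = b * (a * w * a⁻¹) * b⁻¹ := by group
      rw [h1, h2, hact b hb w hw, hact a ha w hw]
      have h3 : a * (w * (w⁻¹ * (b * w * b⁻¹))) * a⁻¹ = (a * w * a⁻¹) * (a * (w⁻¹ * (b * w * b⁻¹)) * a⁻¹) := by group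
      have h4 : b * (w * (w⁻¹ * (a * w * a⁻¹))) * b⁻¹ = (b * w * b⁻¹) * (b * (w⁻¹ * (a * w * a⁻¹)) * b⁻¹) := by group
      rw [h3, h4, fixed_d hq hw hb ha, fixed_d hq hw ha hb]
      have hX := hnorm a ha w hw
      have hY := hnorm b hb w hw
      have hw' := V.inv_mem hw
      calc (a * w * a⁻¹) * (w⁻¹ * (b * w * b⁻¹)) = ((a * w * a⁻¹) * w⁻¹) * (b * w * b⁻¹) := by group
        _ = (w⁻¹ * (a * w * a⁻¹)) * (b * w * b⁻¹) := by rw [hcm _ hX _ hw']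
        _ = w⁻¹ * ((a * w * a⁻¹) * (b * w * b⁻¹)) := by group
        _ = w⁻¹ * ((b * w * b⁻¹) * (a * w * a⁻¹)) := by rw [hcm _ hX _ hY]
        _ = (w⁻¹ * (b * w * b⁻¹)) * (a * w * a⁻¹) := by group
        _ = ((b * w * b⁻¹) * w⁻¹) * (a * w * a⁻¹) := by rw [hcm _ hw' _ hY]
        _ = _ := by group
    rw [Subgroup.mem_centralizer_iff]
    intro v hv
    have hw : (b * a)⁻¹ * v * (b * a) ∈ V := by
      have := hnorm (b * a)⁻¹ (H.inv_mem (H.mul_mem hb ha)) v hv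
      simpa using this
    have h5 := key _ hw
    have h6 : (b * a) * ((b * a)⁻¹ * v * (b * a)) * (b * a)⁻¹ = v := by group
    rw [h6] at h5
    have h7 : a * b * a⁻¹ * b⁻¹ = (a * b) * (b * a)⁻¹ := by group
    have h7' : ⁅a, b⁆ = (a * b) * (b * a)⁻¹ := by
      rw [commutatorElement_def, h7]
    rw [h7']
    calc v * (a * b * (b * a)⁻¹) = ((a * b) * ((b * a)⁻¹ * v * (b * a)) * (a * b)⁻¹) * (a * b * (b * a)⁻¹) := by rw [h5]
      _ = _ := by group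
  · intro a ha
    rw [Subgroup.mem_centralizer_iff]
    intro v hv
    have hpow : ∀ n : ℕ, a ^ n * v * (a ^ n)⁻¹ = v * (v⁻¹ * (a * v * a⁻¹)) ^ n := by
      intro n
      induction n with
      | zero => simp
      | succ n ih =>
        have hfix : a * (v⁻¹ * (a * v * a⁻¹)) ^ n * a⁻¹ = (v⁻¹ * (a * v * a⁻¹)) ^ n := by
          have h1 : ∀ k : ℕ, a * (v⁻¹ * (a * v * a⁻¹)) ^ k * a⁻¹ = (a * (v⁻¹ * (a * v * a⁻¹)) * a⁻¹) ^ k := by
            intro k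
            exact (conj_pow).symm
          rw [h1, fixed_d hq hv ha ha]
        calc a ^ (n + 1) * v * (a ^ (n + 1))⁻¹ = a * (a ^ n * v * (a ^ n)⁻¹) * a⁻¹ := by
              rw [pow_succ']
              group
          _ = a * (v * (v⁻¹ * (a * v * a⁻¹)) ^ n) * a⁻¹ := by rw [ih]
          _ = (a * v * a⁻¹) * (a * (v⁻¹ * (a * v * a⁻¹)) ^ n * a⁻¹) := by group
          _ = (a * v * a⁻¹) * (v⁻¹ * (a * v * a⁻¹)) ^ n := by rw [hfix]
          _ = v * (v⁻¹ * (a * v * a⁻¹)) * (v⁻¹ * (a * v * a⁻¹)) ^ n := by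
              rw [← hact a ha v hv]
          _ = v * (v⁻¹ * (a * v * a⁻¹)) ^ (n + 1) := by
              rw [pow_succ', mul_assoc]
    have h := hpow p
    rw [hV.2 _ (hd a ha v hv), mul_one] at h
    calc v * a ^ p = (a ^ p * v * (a ^ p)⁻¹) * a ^ p := by rw [h]
      _ = a ^ p * v := by group

end Cfsg.Agent.S0590
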