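import Cfsg.Statements.S0591

set_option autoImplicit false
open Cfsg

namespace Cfsg.Agent.S0591

open scoped commutatorElement

lemma fixed_d {G : Type*} [Group G] {V : Subgroup G} {a : G} (hq : ⁅⁅V, Subgroup.zpowers a⁆, Subgroup.zpowers a⁆ = ⊥) {v : G}
    (hv : v ∈ V) : a * (v⁻¹ * (a * v * a⁻¹)) = (v⁻¹ * (a * v * a⁻¹)) * a := by
  have ha : a ∈ Subgroup.zpowers a := Subgroup.mem_zpowers a
  have h1 : ⁅v⁻¹, a⁆ ∈ ⁅V, Subgroup.zpowers a⁆ := Subgroup.commutator_mem_commutator (V.inv_mem hv) ha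
  have h2 : ⁅⁅v⁻¹, a⁆, a⁆ ∈ ⁅⁅V, Subgroup.zpowers a⁆, Subgroup.zpowers a⁆ := Subgroup.commutator_mem_commutator h1 ha
  rw [hq, Subgroup.mem_bot, commutatorElement_eq_one_iff_mul_comm] at h2
  have h3 : ⁅v⁻¹, a⁆ = v⁻¹ * (a * v * a⁻¹) := by
    rw [commutatorElement_def]
    group
  rw [h3] at h2
  exact h2.symm

/-- For a quadratically acting element a on an elementary abelian p-group V, the fixed points C_V(a) have order at least the square root of the order of V. -/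
theorem result {G : Type*} [Group G] [Finite G] {p : ℕ} [Fact p.Prime] (V : Subgroup G) (hV : Cfsg.IsElementaryAbelian p V) (a : G) (ha : a ∈ Subgroup.normalizer (V : Set G)) (hq : ⁅⁅V, Subgroup.zpowers a⁆, Subgroup.zpowers a⁆ = ⊥) : Nat.card V ≤ Nat.card ↥(V ⊓ Subgroup.centralizer (Subgroup.zpowers a : Set G)) ^ 2 := by
  classical
  have hnorm : ∀ v ∈ V, a * v * a⁻¹ ∈ V := fun v hv =>
    (Subgroup.mem_normalizer_iff.mp ha v).mp hv
  have hcm : ∀ x ∈ V, ∀ y ∈ V, x * y = y * x := fun x hx y hy =>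
    congrArg Subtype.val (hV.1.1.1 ⟨x, hx⟩ ⟨y, hy⟩)
  let f : V →* V := MonoidHom.mk' (fun v => ⟨v.1⁻¹ * (a * v.1 * a⁻¹), V.mul_mem (V.inv_mem v.2) (hnorm _ v.2)⟩) (by
    intro x y
    apply Subtype.ext
    show (x.1 * y.1)⁻¹ * (a * (x.1 * y.1) * a⁻¹) = x.1⁻¹ * (a * x.1 * a⁻¹) * (y.1⁻¹ * (a * y.1 * a⁻¹))
    have h1 : a * (x.1 * y.1) * a⁻¹ = (a * x.1 * a⁻¹) * (a * y.1 * a⁻¹) := by group
    rw [h1, mul_inv_rev]
    have h2 := hcm _ (V.inv_mem x.2) _ (V.inv_mem y.2)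
    have h3 := hcm _ (hnorm _ x.2) _ (V.inv_mem y.2)
    calc y.1⁻¹ * x.1⁻¹ * ((a * x.1 * a⁻¹) * (a * y.1 * a⁻¹))
        = x.1⁻¹ * y.1⁻¹ * ((a * x.1 * a⁻¹) * (a * y.1 * a⁻¹)) := by rw [h2]
      _ = x.1⁻¹ * (y.1⁻¹ * (a * x.1 * a⁻¹)) * (a * y.1 * a⁻¹) := by group
      _ = x.1⁻¹ * ((a * x.1 * a⁻¹) * y.1⁻¹) * (a * y.1 * a⁻¹) := by rw [h3]
      _ = _ := by group)
  have hcen : ∀ v : V, (v.1 ∈ V ⊓ Subgroup.centralizer (Subgroup.zpowers a : Set G)) ↔ a * v.1 = v.1 * a := by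
    intro v
    constructor
    · intro h
      have := (Subgroup.mem_inf.mp h).2
      rw [Subgroup.mem_centralizer_iff] at this
      exact this a (Subgroup.mem_zpowers a)
    · intro h
      refine Subgroup.mem_inf.mpr ⟨v.2, ?_⟩
      rw [Subgroup.mem_centralizer_iff]
      rintro _ ⟨n, rfl⟩
      exact (Commute.zpow_left (show Commute a v.1 from h) n)
  have hker : Nat.card f.ker ≤ Nat.card ↥(V ⊓ Subgroup.centralizer (Subgroup.zpowers a : Set G)) := by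
    refine Nat.card_le_card_of_injective (fun x : f.ker => (⟨x.1.1, (hcen x.1).mpr ?_⟩ : ↥(V ⊓ Subgroup.centralizer (Subgroup.zpowers a : Set G)))) ?_
    · have h := congrArg Subtype.val (MonoidHom.mem_ker.mp x.2)
      have h' : x.1.1⁻¹ * (a * x.1.1 * a⁻¹) = 1 := h
      have h2 : a * x.1.1 * a⁻¹ = x.1.1 := by
        rwa [inv_mul_eq_one, eq_comm] at h'
      calc a * x.1.1 = (a * x.1.1 * a⁻¹) * a := by group
        _ = _ := by rw [h2]
    · intro x y hxy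
      have h := congrArg Subtype.val hxy
      exact Subtype.ext (Subtype.ext h)
  have hran : Nat.card f.range ≤ Nat.card ↥(V ⊓ Subgroup.centralizer (Subgroup.zpowers a : Set G)) := by
    refine Nat.card_le_card_of_injective (fun x : f.range => (⟨x.1.1, (hcen x.1).mpr ?_⟩ : ↥(V ⊓ Subgroup.centralizer (Subgroup.zpowers a : Set G)))) ?_
    · obtain ⟨y, hy⟩ := x.2
      rw [← hy]
      exact fixed_d hq y.2
    · intro x y hxy
      have h := congrArg Subtype.val hxy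
      exact Subtype.ext (Subtype.ext h)
  have h1 := Subgroup.card_mul_index f.ker
  rw [Subgroup.index_ker] at h1
  rw [← h1, sq]
  exact Nat.mul_le_mul hker hran

end Cfsg.Agent.S0591
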