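import Cfsg.Statements.S0592
import Mathlib
import Cfsg.Agent.Lib.QuadCore

set_option autoImplicit false
open Cfsg

namespace Cfsg.Agent.S0592

open Cfsg.Agent.Lib.QuadCore

/-- Two quadratically acting generators of a linear group that is not a p-group, with the p'-part of the order of their product dividing q - 1, give a homomorphism onto a subgroup of SL(2, q) that is not a p-group. -/
theorem result {K : Type*} [Field K] [Fintype K] {p : ℕ} [Fact p.Prime] [CharP K p] {W : Type*} [AddCommGroup W] [Module K W] [FiniteDimensional K W] [Finite W] [Nontrivial W] (H : Subgroup (W ≃ₗ[K] W)) (a b : W ≃ₗ[K] W) (hH : H = Subgroup.closure {a, b}) (ha : ∀ w : W, a (a w - w) = a w - w) (hb : ∀ w : W, b (b w - w) = b w - w) (hnp : ¬ IsPGroup p H) (hk : ∃ e k : ℕ, orderOf (a * b) = p ^ e * k ∧ k ∣ Fintype.card K - 1) : ∃ φ : H →* Matrix.SpecialLinearGroup (Fin 2) K, ¬ IsPGroup p φ.range := by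
  classical
  subst hH
  obtain ⟨θ, φ, hθ, h1, h2⟩ := exists_phi (p := p) a b ha hb hnp hk
  refine ⟨φ, ?_⟩
  have hamem : a ∈ Subgroup.closure ({a, b} : Set (W ≃ₗ[K] W)) := Subgroup.subset_closure (by simp)
  have hbmem : b ∈ Subgroup.closure ({a, b} : Set (W ≃ₗ[K] W)) := Subgroup.subset_closure (by simp)
  apply not_pgroup_of p θ hθ φ.range
  · exact ⟨⟨a, hamem⟩, h1 hamem⟩
  · exact ⟨⟨b, hbmem⟩, h2 hbmem⟩

end Cfsg.Agent.S0592
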