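import Cfsg.Statements.S0594
import Cfsg.Agent.Lib.QuadAct
import Cfsg.Agent.Lib.ThompsonBasic
import Cfsg.Agent.Lib.PCore
-- import your own Cfsg.Agent.* helpers here

set_option autoImplicit false
open Cfsg

namespace Cfsg.Agent.S0594

/-- For odd p, two quadratic generators of a faithful group that is not a p-group, one of which acts nontrivially on a normal subgroup of order prime to p, force p = 3 and a section isomorphic to SL(2,3). -/
theorem result {G : Type*} [Group G] [Finite G] {p : ℕ} [Fact p.Prime] (hp : p ≠ 2) (V H : Subgroup G) (hV : Cfsg.IsElementaryAbelian p V) (hHV : H ≤ Subgroup.normalizer (V : Set G)) (hf : H ⊓ Subgroup.centralizer (V : Set G) = ⊥) (a b : G) (hab : H = Subgroup.closure {a, b}) (ha : ⁅⁅V, Subgroup.zpowers a⁆, Subgroup.zpowers a⁆ = ⊥) (hb : ⁅⁅V, Subgroup.zpowers b⁆, Subgroup.zpowers b⁆ = ⊥) (hnp : ¬ IsPGroup p H) (Q : Subgroup G) (hQH : Q ≤ H) (hQn : H ≤ Subgroup.normalizer (Q : Set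 G)) (hQ : (Nat.card Q).Coprime p) (hQa : ⁅Q, Subgroup.zpowers a⁆ ≠ ⊥) : p = 3 ∧ ∃ (K L : Subgroup G) (hL : (L.subgroupOf K).Normal), K ≤ H ∧ Nonempty ((K ⧸ L.subgroupOf K) ≃* Matrix.SpecialLinearGroup (Fin 2) (ZMod 3)) := by
  classical
  have hpp : p.Prime := Fact.out
  have haH : a ∈ H := by
    rw [hab]
    exact Subgroup.subset_closure (by simp)
  -- `a` has order dividing `p`
  letI := Cfsg.Agent.Lib.QuadAct.commOf hV.1
  have hB : ∀ v : V, v ^ p = 1 := fun v => Subtype.ext (hV.2 v.1 v.2)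
  have hap : a ^ p = 1 := by
    letI := Cfsg.Agent.Lib.QuadAct.modOf hB
    have h1 := Cfsg.Agent.Lib.QuadRep.pow_of_quad (p := p)
      (Cfsg.Agent.Lib.QuadAct.rhoOf (p := p) (Cfsg.Agent.Lib.QuadAct.kap V H hHV))
      (Cfsg.Agent.Lib.QuadAct.rhoOf_inj (p := p) _ (Cfsg.Agent.Lib.QuadAct.kap_inj V H hHV hf)) ⟨a, haH⟩
      (Cfsg.Agent.Lib.QuadAct.rhoOf_quad (p := p) _ _ (Cfsg.Agent.Lib.QuadAct.kap_quad V H hHV ⟨a, haH⟩ ha))
    exact congrArg Subtype.val h1
  obtain ⟨A, hA⟩ : ∃ A : Subgroup G, A = Subgroup.zpowers a := ⟨_, rfl⟩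
  have hAH : A ≤ H := by
    rw [hA, Subgroup.zpowers_le]
    exact haH
  have hAp : IsPGroup p A := by
    apply IsPGroup.iff_card.mpr
    rw [hA, Nat.card_zpowers]
    obtain ⟨k, -, hk⟩ := (Nat.dvd_prime_pow hpp).1 (show orderOf a ∣ p ^ 1 by
      rw [pow_one]
      exact orderOf_dvd_of_pow_eq_one hap)
    exact ⟨k, hk⟩
  obtain ⟨H', hH'⟩ : ∃ H' : Subgroup G, H' = Q ⊔ A := ⟨_, rfl⟩
  have hH'H : H' ≤ H := by
    rw [hH']
    exact sup_le hQH hAH
  have hQH' : Q ≤ H' := by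
    rw [hH']
    exact le_sup_left
  have hAH' : A ≤ H' := by
    rw [hH']
    exact le_sup_right
  have haH' : a ∈ H' := by
    apply hAH'
    rw [hA]
    exact Subgroup.mem_zpowers a
  have hf' : H' ⊓ Subgroup.centralizer (V : Set G) = ⊥ := by
    rw [eq_bot_iff, ← hf]
    exact inf_le_inf_right _ hH'H
  have hHV' : H' ≤ Subgroup.normalizer (V : Set G) := hH'H.trans hHV
  have hQconj : ∀ z ∈ H', ∀ x ∈ Q, z * x * z⁻¹ ∈ Q := fun z hz x hx =>
    (Subgroup.mem_normalizer_iff.1 (hQn (hH'H hz)) x).1 hx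
  have hQ'n : (Q.subgroupOf H').Normal := by
    constructor
    intro n hn g
    rw [Subgroup.mem_subgroupOf] at hn ⊢
    exact hQconj g.1 g.2 n.1 hn
  have hsep : Cfsg.IsPSolvable p H' := by
    have hAn : A ≤ Subgroup.normalizer (Q : Set G) := hAH.trans hQn
    have hc := Cfsg.Agent.Lib.ThompsonBasic.card_sup_mul_card_inf Q A hAn
    rw [← hH'] at hc
    have hidx : (Q.subgroupOf H').index ∣ Nat.card A := by
      have h1 : Nat.card (Q.subgroupOf H') = Nat.card Q := Nat.card_congr (Subgroup.subgroupOfEquivOfLe hQH').toEquiv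
      have h2 := Subgroup.card_mul_index (Q.subgroupOf H')
      rw [h1] at h2
      refine ⟨Nat.card ↥(Q ⊓ A), ?_⟩
      have hpos : 0 < Nat.card Q := Nat.card_pos
      apply Nat.eq_of_mul_eq_mul_left hpos
      rw [← hc, ← h2]
      ring
    refine ⟨2, ![⊥, Q.subgroupOf H', ⊤], rfl, rfl, ?_, ?_, ?_⟩
    · intro i j hij
      fin_cases i <;> fin_cases j <;> simp_all
    · intro i
      fin_cases i
      · exact Subgroup.normal_bot
      · exact hQ'n
      · exact Subgroup.normal_top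
    · intro i
      fin_cases i
      · right
        show ((⊥ : Subgroup H').relIndex (Q.subgroupOf H')).Coprime p
        rw [Subgroup.relIndex_bot_left, Nat.card_congr (Subgroup.subgroupOfEquivOfLe hQH').toEquiv]
        exact hQ
      · left
        show ∃ m, (Q.subgroupOf H').relIndex ⊤ = p ^ m
        rw [Subgroup.relIndex_top_right]
        obtain ⟨k, hk⟩ := IsPGroup.iff_card.mp hAp
        rw [hk] at hidx
        obtain ⟨m, -, hm⟩ := (Nat.dvd_prime_pow hpp).1 hidx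
        exact ⟨m, hm⟩
  have hna : a ∉ (Cfsg.pCore p H').map H'.subtype := by
    intro hmem
    apply hQa
    have hAO : Subgroup.zpowers a ≤ (Cfsg.pCore p H').map H'.subtype := by
      rw [Subgroup.zpowers_le]
      exact hmem
    have hOn := Cfsg.Agent.Lib.PCore.pCore_normal p H'
    have hOp := Cfsg.Agent.Lib.PCore.isPGroup_pCore p H'
    rw [eq_bot_iff, Subgroup.commutator_le]
    intro x hx z hz
    obtain ⟨y, hy, rfl⟩ := hAO hz
    have hxH' := hQH' hx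
    obtain ⟨c, hc⟩ : ∃ c : G, c = x * y.1 * x⁻¹ * y.1⁻¹ := ⟨_, rfl⟩
    have h1 : c ∈ Q := by
      rw [hc]
      have h2 := hQconj y.1 y.2 x⁻¹ (Q.inv_mem hx)
      have h3 : x * y.1 * x⁻¹ * y.1⁻¹ = x * (y.1 * x⁻¹ * y.1⁻¹) := by group
      rw [h3]
      exact Q.mul_mem hx h2
    have h2 : (⟨c, by rw [hc]; exact H'.mul_mem (H'.mul_mem (H'.mul_mem hxH' y.2) (H'.inv_mem hxH')) (H'.inv_mem y.2)⟩ : H') ∈ Cfsg.pCore p H' := by
      have h3 : (⟨c, by rw [hc]; exact H'.mul_mem (H'.mul_mem (H'.mul_mem hxH' y.2) (H'.inv_mem hxH')) (H'.inv_mem y.2)⟩ : H') = ((⟨x, hxH'⟩ : H') * y * (⟨x, hxH'⟩ : H')⁻¹) * y⁻¹ := by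
        apply Subtype.ext
        exact hc
      rw [h3]
      exact Subgroup.mul_mem _ (hOn.conj_mem y hy ⟨x, hxH'⟩) (Subgroup.inv_mem _ hy)
    obtain ⟨m, hm⟩ := IsPGroup.iff_card.mp hOp
    have h5 := Subgroup.orderOf_dvd_natCard _ h2
    rw [hm] at h5
    have h6 : orderOf c ∣ p ^ m := by
      have h61 : orderOf c = orderOf (⟨c, by rw [hc]; exact H'.mul_mem (H'.mul_mem (H'.mul_mem hxH' y.2) (H'.inv_mem hxH')) (H'.inv_mem y.2)⟩ : H') :=
        (Subgroup.orderOf_mk c _).symm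
      rw [h61]
      exact h5
    have h7 : orderOf c ∣ Nat.card Q := Subgroup.orderOf_dvd_natCard _ h1
    have h8 : Nat.Coprime (Nat.card Q) (p ^ m) := Nat.Coprime.pow_right m hQ
    have h9 : orderOf c = 1 := Nat.eq_one_of_dvd_coprimes h8 h7 h6
    rw [orderOf_eq_one_iff] at h9
    show x * y.1 * x⁻¹ * y.1⁻¹ ∈ ⊥
    rw [← hc, Subgroup.mem_bot]
    exact h9
  have hq3 : ⁅⁅V, Subgroup.zpowers a⁆, Subgroup.zpowers a⁆ = ⊥ := ha
  obtain ⟨h3, K, L, hL, hK, hiso⟩ := Cfsg.Agent.Lib.QuadAct.main_596 V H' hp hV hHV' hf' hsep a haH' hq3 hna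
  exact ⟨h3, K, L, hL, hK.trans hH'H, hiso⟩

end Cfsg.Agent.S0594
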