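import Cfsg.Statements.S0597
import Cfsg.Agent.Lib.CharP
import Cfsg.Agent.Lib.SubnormalJoin
import Cfsg.Agent.Lib.PCore

set_option autoImplicit false
open Cfsg

namespace Cfsg.Agent.S0597

open scoped commutatorElement

/-- If two subnormal subgroups of a faithful group on an elementary abelian p-group satisfy [V, E₁, E₂] = 1, then their commutator lies in the largest normal p-subgroup. -/
theorem result {G : Type*} [Group G] [Finite G] {p : ℕ} [Fact p.Prime] (V H : Subgroup G) (hV : Cfsg.IsElementaryAbelian p V) (hHV : H ≤ Subgroup.normalizer (V : Set G)) (hf : H ⊓ Subgroup.centralizer (V : Set G) = ⊥) (E₁ E₂ : Subgroup G) (h₁ : E₁ ≤ H) (h₂ : E₂ ≤ H) (hs₁ : (E₁.subgroupOf H).IsSubnormal) (hs₂ : (E₂.subgroupOf H).IsSubnormal) (hc : ⁅⁅V, E₁⁆, E₂⁆ = ⊥) : ⁅E₁, E₂⁆ ≤ (Cfsg.pCore p H).map H.subtype := by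
  classical
  have hnV : ∀ h ∈ H, ∀ v ∈ V, h * v * h⁻¹ ∈ V := fun h hh v hv =>
    (Subgroup.mem_normalizer_iff.mp (hHV hh) v).mp hv
  have hcm : ∀ x ∈ V, ∀ y ∈ V, x * y = y * x := fun x hx y hy =>
    congrArg Subtype.val (hV.1.1.1 ⟨x, hx⟩ ⟨y, hy⟩)
  set W := ⁅V, E₁⁆ with hWdef
  have hWV : W ≤ V := by
    rw [hWdef, Subgroup.commutator_le]
    intro v hv e he
    rw [commutatorElement_def]
    have h0 : v * e * v⁻¹ * e⁻¹ = v * (e * v⁻¹ * e⁻¹) := by group
    rw [h0]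
    exact V.mul_mem hv (hnV e (h₁ he) _ (V.inv_mem hv))
  have he_mod : ∀ e ∈ E₁, ∀ v ∈ V, e * v * e⁻¹ * v⁻¹ ∈ W := by
    intro e he v hv
    have h1 : ⁅v, e⁆ ∈ W := Subgroup.commutator_mem_commutator hv he
    have h2 := W.inv_mem h1
    rw [commutatorElement_def] at h2
    have h3 : (v * e * v⁻¹ * e⁻¹)⁻¹ = e * v * e⁻¹ * v⁻¹ := by group
    rwa [h3] at h2
  have hf_W : ∀ f ∈ E₂, ∀ w ∈ W, f * w = w * f := by
    intro f hf w hw
    have h1 : ⁅w, f⁆ ∈ ⁅W, E₂⁆ := Subgroup.commutator_mem_commutator hw hf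
    rw [hc, Subgroup.mem_bot, commutatorElement_eq_one_iff_mul_comm] at h1
    exact h1.symm
  have he_W : ∀ e ∈ E₁, ∀ w ∈ W, e * w * e⁻¹ ∈ W := by
    intro e he w hw
    have h1 := W.mul_mem (he_mod e he w (hWV hw)) hw
    simpa using h1
  have heinv_W : ∀ e ∈ E₁, ∀ w ∈ W, e⁻¹ * w * e ∈ W := by
    intro e he w hw
    have := he_W e⁻¹ (E₁.inv_mem he) w hw
    simpa using this
  have hK_W : E₁ ⊔ E₂ ≤ Subgroup.normalizer (W : Set G) := by
    refine sup_le ?_ ?_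
    · intro e he
      rw [Subgroup.mem_normalizer_iff]
      intro w
      constructor
      · exact he_W e he w
      · intro h
        have := heinv_W e he _ h
        simpa [mul_assoc] using this
    · intro f hf
      rw [Subgroup.mem_normalizer_iff]
      intro w
      constructor
      · intro hw
        rw [hf_W f hf w hw]
        simpa using hw
      · intro h
        have h2 := hf_W f⁻¹ (E₂.inv_mem hf) _ h
        have h3 := hf_W f hf _ h
        have h7 : w = f * w * f⁻¹ := by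
          calc w = f⁻¹ * (f * w * f⁻¹) * f := by group
            _ = (f * w * f⁻¹) * f⁻¹ * f := by rw [h2]
            _ = _ := by group
        rw [h7]
        exact h
  let T : Subgroup G :=
    { carrier := {g | g ∈ H ∧ (∀ w ∈ W, g * w = w * g) ∧ ∀ v ∈ V, g * v * g⁻¹ * v⁻¹ ∈ W}
      one_mem' := ⟨H.one_mem, fun w _ => by simp, fun v _ => by simp [W.one_mem]⟩
      mul_mem' := by
        rintro g h ⟨hg, hg1, hg2⟩ ⟨hh, hh1, hh2⟩
        refine ⟨H.mul_mem hg hh, fun w hw => ?_, fun v hv => ?_⟩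
        · rw [mul_assoc, hh1 w hw, ← mul_assoc, hg1 w hw, mul_assoc]
        · have h1 := hh2 v hv
          have h2 := hg2 v hv
          have h3 : g * (h * v * h⁻¹ * v⁻¹) * g⁻¹ = h * v * h⁻¹ * v⁻¹ := by
            rw [hg1 _ h1]
            group
          have h4 : g * h * v * (g * h)⁻¹ * v⁻¹ = (g * (h * v * h⁻¹ * v⁻¹) * g⁻¹) * (g * v * g⁻¹ * v⁻¹) := by group
          rw [h4, h3]
          exact W.mul_mem h1 h2
      inv_mem' := by
        rintro g ⟨hg, hg1, hg2⟩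
        refine ⟨H.inv_mem hg, fun w hw => ?_, fun v hv => ?_⟩
        · have h1 := hg1 w hw
          calc g⁻¹ * w = g⁻¹ * (w * g) * g⁻¹ := by group
            _ = g⁻¹ * (g * w) * g⁻¹ := by rw [h1]
            _ = w * g⁻¹ := by group
        · have hx : g⁻¹ * v * g ∈ V := by
            have := hnV g⁻¹ (H.inv_mem hg) v hv
            simpa using this
          have h1 := hg2 _ hx
          have h2 := W.inv_mem h1
          have h3 : (g * (g⁻¹ * v * g) * g⁻¹ * (g⁻¹ * v * g)⁻¹)⁻¹ = g⁻¹ * v * g⁻¹⁻¹ * v⁻¹ := by group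
          rwa [h3] at h2 }
  have hTexp : ∀ g ∈ T, g ^ p = 1 := by
    rintro g ⟨hg, hg1, hg2⟩
    have hC : g ^ p ∈ H ⊓ Subgroup.centralizer (V : Set G) := by
      refine Subgroup.mem_inf.mpr ⟨H.pow_mem hg p, ?_⟩
      rw [Subgroup.mem_centralizer_iff]
      intro v hv
      have hd := hg2 v hv
      set d := g * v * g⁻¹ * v⁻¹ with hd'
      have hdg := hg1 d hd
      have hpow : ∀ n : ℕ, g ^ n * v * (g ^ n)⁻¹ = d ^ n * v := by
        intro n
        induction n with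
        | zero => simp
        | succ n ih =>
          have hdn : g * d ^ n * g⁻¹ = d ^ n := by
            have : Commute g d := hdg
            rw [(this.pow_right n).eq]
            group
          calc g ^ (n + 1) * v * (g ^ (n + 1))⁻¹ = g * (g ^ n * v * (g ^ n)⁻¹) * g⁻¹ := by
                rw [pow_succ']
                group
            _ = g * (d ^ n * v) * g⁻¹ := by rw [ih]
            _ = (g * d ^ n * g⁻¹) * (g * v * g⁻¹) := by group
            _ = d ^ n * (d * v) := by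
                rw [hdn, hd']
                group
            _ = d ^ (n + 1) * v := by
                rw [pow_succ]
                group
      have h1 := hpow p
      rw [hV.2 d (hWV hd), one_mul] at h1
      calc v * g ^ p = (g ^ p * v * (g ^ p)⁻¹) * g ^ p := by rw [h1]
        _ = g ^ p * v := by group
    rw [hf, Subgroup.mem_bot] at hC
    exact hC
  let K : Subgroup H := E₁.subgroupOf H ⊔ E₂.subgroupOf H
  have hKsub : K.IsSubnormal := Cfsg.Agent.Lib.SubnormalJoin.isSubnormal_sup hs₁ hs₂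
  have hKle : ∀ k : K, ((k : H) : G) ∈ E₁ ⊔ E₂ := by
    have hle : K ≤ (E₁ ⊔ E₂).subgroupOf H := by
      refine sup_le ?_ ?_
      · intro x hx
        exact Subgroup.mem_sup_left hx
      · intro x hx
        exact Subgroup.mem_sup_right hx
    intro k
    exact hle k.2
  let N : Subgroup K := T.comap (H.subtype.comp K.subtype)
  have hNn : N.Normal := by
    constructor
    rintro n ⟨hn0, hn1', hn2'⟩ k
    have hn1 : ∀ w ∈ W, ((n : H) : G) * w = w * ((n : H) : G) := hn1'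
    have hn2 : ∀ v ∈ V, ((n : H) : G) * v * ((n : H) : G)⁻¹ * v⁻¹ ∈ W := hn2'
    have hkW := hK_W (hKle k)
    have hkH : ((k : H) : G) ∈ H := (k : H).2
    set k₀ : G := ((k : H) : G) with hk₀
    set n₀ : G := ((n : H) : G) with hn₀
    have hW1 : ∀ w ∈ W, k₀⁻¹ * w * k₀ ∈ W := by
      intro w hw
      have := (Subgroup.mem_normalizer_iff.mp (Subgroup.inv_mem _ hkW) w).mp hw
      simpa using this
    have hW2 : ∀ w ∈ W, k₀ * w * k₀⁻¹ ∈ W := fun w hw => (Subgroup.mem_normalizer_iff.mp hkW w).mp hw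
    show k₀ * n₀ * k₀⁻¹ ∈ T
    refine ⟨H.mul_mem (H.mul_mem hkH hn0) (H.inv_mem hkH), fun w hw => ?_, fun v hv => ?_⟩
    · have h1 := hn1 _ (hW1 w hw)
      calc k₀ * n₀ * k₀⁻¹ * w = k₀ * (n₀ * (k₀⁻¹ * w * k₀)) * k₀⁻¹ := by group
        _ = k₀ * ((k₀⁻¹ * w * k₀) * n₀) * k₀⁻¹ := by rw [h1]
        _ = _ := by group
    · have hv' : k₀⁻¹ * v * k₀ ∈ V := by
        have := hnV k₀⁻¹ (H.inv_mem hkH) v hv
        simpa using this
      have h1 := hn2 _ hv'
      have h2 := hW2 _ h1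
      have h3 : k₀ * (n₀ * (k₀⁻¹ * v * k₀) * n₀⁻¹ * (k₀⁻¹ * v * k₀)⁻¹) * k₀⁻¹ =
          k₀ * n₀ * k₀⁻¹ * v * (k₀ * n₀ * k₀⁻¹)⁻¹ * v⁻¹ := by group
      rwa [h3] at h2
  have hNp : IsPGroup p N := by
    intro x
    refine ⟨1, ?_⟩
    apply Subtype.ext
    apply Subtype.ext
    apply Subtype.ext
    rw [pow_one]
    exact hTexp _ x.2
  have hNcore : N ≤ Cfsg.pCore p K := Cfsg.Agent.Lib.PCore.le_pCore hNn hNp
  have hKcore := Cfsg.Agent.Lib.CharP.map_pCore_le_of_subnormal (p := p) hKsub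
  rw [Subgroup.commutator_le]
  intro e he f hf'
  have hg : ⁅e, f⁆ ∈ T := by
    refine ⟨?_, fun w hw => ?_, fun v hv => ?_⟩
    · rw [commutatorElement_def]
      exact H.mul_mem (H.mul_mem (H.mul_mem (h₁ he) (h₂ hf')) (H.inv_mem (h₁ he))) (H.inv_mem (h₂ hf'))
    · rw [commutatorElement_def]
      have hw' := heinv_W e he w hw
      have h1 := hf_W f hf' _ hw'
      have h2 : f⁻¹ * w = w * f⁻¹ := by
        have := hf_W f hf' w hw
        calc f⁻¹ * w = f⁻¹ * (w * f) * f⁻¹ := by group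
          _ = f⁻¹ * (f * w) * f⁻¹ := by rw [this]
          _ = w * f⁻¹ := by group
      calc e * f * e⁻¹ * f⁻¹ * w = e * f * e⁻¹ * (f⁻¹ * w) := by group
        _ = e * f * e⁻¹ * (w * f⁻¹) := by rw [h2]
        _ = e * (f * (e⁻¹ * w * e)) * e⁻¹ * f⁻¹ := by group
        _ = e * ((e⁻¹ * w * e) * f) * e⁻¹ * f⁻¹ := by rw [h1]
        _ = _ := by group
    · rw [commutatorElement_def]
      have hx : f⁻¹ * v * f ∈ V := by
        have := hnV f⁻¹ (H.inv_mem (h₂ hf')) v hv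
        simpa using this
      have hw₁ := he_mod e⁻¹ (E₁.inv_mem he) _ hx
      have hw₂ := he_mod e he v hv
      set x := f⁻¹ * v * f with hxdef
      set w₁ := e⁻¹ * x * e⁻¹⁻¹ * x⁻¹ with hw₁def
      have hf1 := hf_W f hf' w₁ hw₁
      have hy : f * e⁻¹ * f⁻¹ * v * f * e * f⁻¹ = w₁ * v := by
        have h3 : f * e⁻¹ * f⁻¹ * v * f * e * f⁻¹ = f * (e⁻¹ * x * e⁻¹⁻¹ * x⁻¹) * x * f⁻¹ := by
          rw [hxdef]
          group
        rw [h3, ← hw₁def, hf1]
        rw [hxdef]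
        group
      have h5 : e * f * e⁻¹ * f⁻¹ * v * (e * f * e⁻¹ * f⁻¹)⁻¹ * v⁻¹ =
          (e * w₁ * e⁻¹) * (e * v * e⁻¹ * v⁻¹) := by
        have h6 : e * f * e⁻¹ * f⁻¹ * v * (e * f * e⁻¹ * f⁻¹)⁻¹ = e * (f * e⁻¹ * f⁻¹ * v * f * e * f⁻¹) * e⁻¹ := by group
        rw [h6, hy]
        group
      rw [h5]
      exact W.mul_mem (he_W e he _ hw₁) hw₂
  have hgK : (⟨⁅e, f⁆, hg.1⟩ : H) ∈ K := by
    have h1 : (⟨e, h₁ he⟩ : H) ∈ K := Subgroup.mem_sup_left he
    have h2 : (⟨f, h₂ hf'⟩ : H) ∈ K := Subgroup.mem_sup_right hf'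
    have h3 := K.mul_mem (K.mul_mem (K.mul_mem h1 h2) (K.inv_mem h1)) (K.inv_mem h2)
    have h4 : (⟨⁅e, f⁆, hg.1⟩ : H) = (⟨e, h₁ he⟩ : H) * ⟨f, h₂ hf'⟩ * (⟨e, h₁ he⟩ : H)⁻¹ * (⟨f, h₂ hf'⟩ : H)⁻¹ := by
      apply Subtype.ext
      show ⁅e, f⁆ = _
      rw [commutatorElement_def]
      rfl
    rw [h4]
    exact h3
  have hmemK : (⟨⟨⁅e, f⁆, hg.1⟩, hgK⟩ : K) ∈ N := hg
  have h6 : (⟨⁅e, f⁆, hg.1⟩ : H) ∈ Cfsg.pCore p H := hKcore ⟨_, hNcore hmemK, rfl⟩
  exact ⟨_, h6, rfl⟩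


end Cfsg.Agent.S0597
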