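import Cfsg.Statements.S0600
import Cfsg.Agent.Lib.PCore

set_option autoImplicit false
open Cfsg

namespace Cfsg.Agent.S0600

/-- A normal elementary abelian p-subgroup generated by the fixed points of the Sylow p-subgroups admits no nontrivial normal p-subgroup of G modulo its centralizer. -/
theorem result {G : Type*} [Group G] [Finite G] {p : ℕ} [Fact p.Prime] (V : Subgroup G) [V.Normal] (hV : Cfsg.IsElementaryAbelian p V) (hgen : V = ⨆ S : Sylow p G, V ⊓ Subgroup.centralizer ((S : Subgroup G) : Set G)) : Cfsg.pCore p (G ⧸ Subgroup.centralizer (V : Set G)) = ⊥ := by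
  classical
  rw [eq_bot_iff]
  intro x hx
  rw [Subgroup.mem_bot]
  obtain ⟨d, rfl⟩ := QuotientGroup.mk'_surjective (Subgroup.centralizer (V : Set G)) x
  rw [QuotientGroup.mk'_apply, QuotientGroup.eq_one_iff, Subgroup.mem_centralizer_iff]
  have hle : V ≤ Subgroup.centralizer ({d} : Set G) := by
    rw [hgen]
    refine iSup_le fun S => ?_
    intro v hv
    rw [Subgroup.mem_centralizer_singleton_iff]
    have hv1 := (Subgroup.mem_inf.mp hv).1
    have hv2 := (Subgroup.mem_inf.mp hv).2
    let S' := S.mapSurjective (QuotientGroup.mk'_surjective (Subgroup.centralizer (V : Set G)))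
    have hmem := Cfsg.Agent.Lib.PCore.pCore_le_sylow S' hx
    have hS' : (S' : Subgroup _) = (S : Subgroup G).map (QuotientGroup.mk' (Subgroup.centralizer (V : Set G))) := rfl
    rw [hS'] at hmem
    obtain ⟨s, hs, hsd⟩ := hmem
    have hc : s⁻¹ * d ∈ Subgroup.centralizer (V : Set G) := by
      rw [← QuotientGroup.eq]
      exact hsd
    rw [Subgroup.mem_centralizer_iff] at hc hv2
    have h1 := hc v hv1
    have h2 := hv2 s hs
    calc v * d = v * s * (s⁻¹ * d) := by group
      _ = s * v * (s⁻¹ * d) := by rw [h2]
      _ = s * (v * (s⁻¹ * d)) := by group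
      _ = s * ((s⁻¹ * d) * v) := by rw [h1]
      _ = d * v := by group
  intro v hv
  have := hle hv
  rw [Subgroup.mem_centralizer_singleton_iff] at this
  exact this

end Cfsg.Agent.S0600
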