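import Cfsg.Statements.S0601
import Cfsg.Agent.Lib.PCore
import Cfsg.Agent.Lib.ThompsonBasic
import Cfsg.Agent.S0600

set_option autoImplicit false
open Cfsg

namespace Cfsg.Agent.S0601

/-- When O_p(G) contains its centralizer, the normal closure of Ω₁(Z(S)) is elementary abelian and G has no nontrivial normal p-subgroup modulo its centralizer. -/
theorem result {G : Type*} [Group G] [Finite G] {p : ℕ} [Fact p.Prime] (hc : Subgroup.centralizer (Cfsg.pCore p G : Set G) ≤ Cfsg.pCore p G) : (⨆ S : Sylow p G, Cfsg.omegaOne p (((S : Subgroup G)) ⊓ Subgroup.centralizer ((S : Subgroup G) : Set G))).Normal ∧ Cfsg.IsElementaryAbelian p (⨆ S : Sylow p G, Cfsg.omegaOne p (((S : Subgroup G)) ⊓ Subgroup.centralizer ((S : Subgroup G) : Set G))) ∧ ∀ D : Subgroup G, D.Normal → Subgroup.centralizer ((⨆ S : Sylow p G, Cfsg.omegaOne p (((S : Subgroup G)) ⊓ Subgroup.centralizer ((S : Subgroup G) : Set G)) : Subgroup G) : Set G) ≤ D → (∃ k : ℕ, (Subgroup.centralizer ((⨆ S : Sylow p G, Cfsg.omegaOne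 p (((S : Subgroup G)) ⊓ Subgroup.centralizer ((S : Subgroup G) : Set G)) : Subgroup G) : Set G)).relIndex D = p ^ k) → D = Subgroup.centralizer ((⨆ S : Sylow p G, Cfsg.omegaOne p (((S : Subgroup G)) ⊓ Subgroup.centralizer ((S : Subgroup G) : Set G)) : Subgroup G) : Set G) := by
  classical
  set V : Subgroup G := ⨆ S : Sylow p G, Cfsg.omegaOne p (((S : Subgroup G)) ⊓ Subgroup.centralizer ((S : Subgroup G) : Set G)) with hVdef
  have hZ : ∀ S : Sylow p G, ∀ z ∈ (S : Subgroup G) ⊓ Subgroup.centralizer ((S : Subgroup G) : Set G),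
      z ∈ Cfsg.pCore p G ∧ z ∈ Subgroup.centralizer (Cfsg.pCore p G : Set G) := by
    intro S z hz
    have hz1 := (Subgroup.mem_inf.mp hz).2
    have hO : Cfsg.pCore p G ≤ S := Cfsg.Agent.Lib.PCore.pCore_le_sylow S
    have hz2 : z ∈ Subgroup.centralizer (Cfsg.pCore p G : Set G) := by
      rw [Subgroup.mem_centralizer_iff] at hz1 ⊢
      intro h hh
      exact hz1 h (hO hh)
    exact ⟨hc hz2, hz2⟩
  -- V lies in the abelian group Z(O_p)
  have hVle : V ≤ Cfsg.pCore p G ⊓ Subgroup.centralizer (Cfsg.pCore p G : Set G) := by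
    refine iSup_le fun S => ?_
    unfold Cfsg.omegaOne
    rw [Subgroup.closure_le]
    rintro z ⟨hz, -⟩
    exact Subgroup.mem_inf.mpr (hZ S z hz)
  have hVcomm : ∀ x ∈ V, ∀ y ∈ V, x * y = y * x := by
    intro x hx y hy
    have h1 := Subgroup.mem_inf.mp (hVle hx)
    have h2 := Subgroup.mem_inf.mp (hVle hy)
    rw [Subgroup.mem_centralizer_iff] at h2
    exact (h2.2 x h1.1)
  have hVpow : ∀ x ∈ V, x ^ p = 1 := by
    intro x hx
    have hcl : V = Subgroup.closure (⋃ S : Sylow p G, {x : G | x ∈ (S : Subgroup G) ⊓ Subgroup.centralizer ((S : Subgroup G) : Set G) ∧ x ^ p = 1}) := by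
      rw [hVdef]
      unfold Cfsg.omegaOne
      rw [Subgroup.closure_iUnion]
    have hx' := hx
    rw [hcl] at hx'
    induction hx' using Subgroup.closure_induction with
    | mem z hz =>
      obtain ⟨S, hS⟩ := Set.mem_iUnion.mp hz
      exact hS.2
    | one => exact one_pow _
    | mul a b ha hb ih1 ih2 =>
      have ha' : a ∈ V := by rw [hcl]; exact ha
      have hb' : b ∈ V := by rw [hcl]; exact hb
      have hcm : Commute a b := hVcomm a ha' b hb'
      rw [hcm.mul_pow, ih1 ha', ih2 hb', one_mul]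
    | inv a ha ih =>
      have ha' : a ∈ V := by rw [hcl]; exact ha
      rw [inv_pow, ih ha', inv_one]
  have hVea : Cfsg.IsElementaryAbelian p V := Cfsg.Agent.Lib.ThompsonBasic.ea_of_comm hVcomm hVpow
  have hVn : V.Normal := by
    constructor
    intro n hn g
    have hmap : V.map (MulAut.conj g).toMonoidHom ≤ V := by
      rw [hVdef]
      rw [Subgroup.map_iSup]
      refine iSup_le fun S => ?_
      refine le_trans ?_ (le_iSup _ (g • S))
      unfold Cfsg.omegaOne
      rw [MonoidHom.map_closure]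
      apply Subgroup.closure_mono
      rintro _ ⟨z, ⟨hz, hzp⟩, rfl⟩
      refine ⟨?_, ?_⟩
      · obtain ⟨hz1, hz2⟩ := Subgroup.mem_inf.mp hz
        refine Subgroup.mem_inf.mpr ⟨⟨z, hz1, rfl⟩, ?_⟩
        rw [Subgroup.mem_centralizer_iff] at hz2 ⊢
        rintro _ ⟨s, hs, rfl⟩
        have := hz2 s hs
        show g * s * g⁻¹ * (g * z * g⁻¹) = g * z * g⁻¹ * (g * s * g⁻¹)
        calc g * s * g⁻¹ * (g * z * g⁻¹) = g * (s * z) * g⁻¹ := by group
          _ = g * (z * s) * g⁻¹ := by rw [this]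
          _ = _ := by group
      · show (g * z * g⁻¹) ^ p = 1
        rw [conj_pow, hzp]
        group
    exact hmap ⟨n, hn, rfl⟩
  refine ⟨hVn, hVea, ?_⟩
  intro D hDn hCD hk
  have hgen : V = ⨆ S : Sylow p G, V ⊓ Subgroup.centralizer ((S : Subgroup G) : Set G) := by
    apply le_antisymm
    · refine iSup_le fun S => ?_
      refine le_trans ?_ (le_iSup _ S)
      refine le_inf (le_iSup (fun S : Sylow p G => Cfsg.omegaOne p (((S : Subgroup G)) ⊓ Subgroup.centralizer ((S : Subgroup G) : Set G))) S) ?_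
      unfold Cfsg.omegaOne
      rw [Subgroup.closure_le]
      rintro z ⟨hz, -⟩
      exact (Subgroup.mem_inf.mp hz).2
    · exact iSup_le fun S => inf_le_left
  haveI := hVn
  have hcore := Cfsg.Agent.S0600.result V hVea hgen
  apply le_antisymm _ hCD
  -- D / C_G(V) is a normal p-subgroup of the quotient
  let C := Subgroup.centralizer (V : Set G)
  have hDC : (D.map (QuotientGroup.mk' C)) ≤ Cfsg.pCore p (G ⧸ C) := by
    apply Cfsg.Agent.Lib.PCore.le_pCore (hDn.map _ (QuotientGroup.mk'_surjective C))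
    obtain ⟨k, hk⟩ := hk
    refine IsPGroup.of_card (n := k) ?_
    rw [← hk]
    have hψ : ((QuotientGroup.mk' C).comp D.subtype).ker = C.subgroupOf D := by
      ext x
      simp [Subgroup.mem_subgroupOf, MonoidHom.mem_ker]
    have hr : ((QuotientGroup.mk' C).comp D.subtype).range = D.map (QuotientGroup.mk' C) := by
      rw [MonoidHom.range_comp, Subgroup.range_subtype]
    show Nat.card (D.map (QuotientGroup.mk' C)) = (C.subgroupOf D).index
    rw [← hψ, Subgroup.index_ker, hr]
  intro d hd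
  have h1 : QuotientGroup.mk' C d ∈ Cfsg.pCore p (G ⧸ C) := hDC ⟨d, hd, rfl⟩
  rw [hcore, Subgroup.mem_bot, QuotientGroup.mk'_apply, QuotientGroup.eq_one_iff] at h1
  exact h1

end Cfsg.Agent.S0601
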