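import Cfsg.Statements.S0608
import Cfsg.Agent.Lib.PCore
import Cfsg.Agent.Lib.ThompsonBasic
import Cfsg.Agent.Lib.SylowIdx

set_option autoImplicit false
open Cfsg

namespace Cfsg.Agent.S0608

open Cfsg Cfsg.Agent.Lib.ThompsonBasic
open scoped Pointwise

lemma omega_le {G : Type*} [Group G] {p : ℕ} (S : Subgroup G) :
    omegaOne p (S ⊓ Subgroup.centralizer (S : Set G)) ≤ S ⊓ Subgroup.centralizer (S : Set G) := by
  unfold omegaOne
  rw [Subgroup.closure_le]
  rintro z ⟨hz, -⟩
  exact hz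

lemma V_normal {G : Type*} [Group G] [Finite G] {p : ℕ} [Fact p.Prime] :
    (⨆ S : Sylow p G, omegaOne p (((S : Subgroup G)) ⊓ Subgroup.centralizer ((S : Subgroup G) : Set G))).Normal := by
  constructor
  intro n hn g
  have hmap : (⨆ S : Sylow p G, omegaOne p (((S : Subgroup G)) ⊓ Subgroup.centralizer ((S : Subgroup G) : Set G))).map (MulAut.conj g).toMonoidHom ≤ ⨆ S : Sylow p G, omegaOne p (((S : Subgroup G)) ⊓ Subgroup.centralizer ((S : Subgroup G) : Set G)) := by
    rw [Subgroup.map_iSup]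
    refine iSup_le fun S => ?_
    refine le_trans ?_ (le_iSup _ (g • S))
    unfold omegaOne
    rw [MonoidHom.map_closure]
    apply Subgroup.closure_mono
    rintro _ ⟨z, ⟨hz, hzp⟩, rfl⟩
    refine ⟨?_, ?_⟩
    · obtain ⟨hz1, hz2⟩ := Subgroup.mem_inf.mp hz
      refine Subgroup.mem_inf.mpr ⟨⟨z, hz1, rfl⟩, ?_⟩
      rw [Subgroup.mem_centralizer_iff] at hz2 ⊢
      rintro _ ⟨s, hs, rfl⟩
      have := hz2 s hs
      show g * s * g⁻¹ * (g * z * g⁻¹) = g * z * g⁻¹ * (g * s * g⁻¹)
      calc g * s * g⁻¹ * (g * z * g⁻¹) = g * (s * z) * g⁻¹ := by group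
        _ = g * (z * s) * g⁻¹ := by rw [this]
        _ = _ := by group
    · show (g * z * g⁻¹) ^ p = 1
      rw [conj_pow, hzp]
      group
  exact hmap ⟨n, hn, rfl⟩

/-- With trivial p'-core, Thompson factorizability is equivalent to J(G) centralizing the subgroup generated by all Ω₁(Z(S)), S Sylow. -/
theorem result {G : Type*} [Group G] [Finite G] {p : ℕ} [Fact p.Prime] (hO : Cfsg.pPrimeCore p G = ⊥) : Cfsg.IsThompsonFactorizable p G ↔ Cfsg.thompsonSubgroup p G ≤ Subgroup.centralizer ((⨆ S : Sylow p G, Cfsg.omegaOne p (((S : Subgroup G)) ⊓ Subgroup.centralizer ((S : Subgroup G) : Set G)) : Subgroup G) : Set G) := by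
  classical
  constructor
  · intro hT
    rw [thompson_eq_iSup_sylow]
    refine iSup_le fun T => ?_
    intro y hy
    rw [Subgroup.mem_centralizer_iff]
    have hle : (⨆ S : Sylow p G, omegaOne p (((S : Subgroup G)) ⊓ Subgroup.centralizer ((S : Subgroup G) : Set G))) ≤ Subgroup.centralizer ({y} : Set G) := by
      refine iSup_le fun S => ?_
      intro z hz
      rw [Subgroup.mem_centralizer_singleton_iff]
      obtain ⟨h, hh⟩ := MulAction.exists_smul_eq G S T
      obtain ⟨x, hx, c, hc, n, hn, hfac⟩ := hT S h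
      rw [hO, Subgroup.mem_bot] at hx
      subst hx
      have hTS : (T : Subgroup G) = (S : Subgroup G).map (MulAut.conj h).toMonoidHom := by
        rw [← hh]; rfl
      have hy' : y ∈ (thompsonSubgroupOf p (S : Subgroup G)).map (MulAut.conj h).toMonoidHom := by
        rw [thompsonOf_map, ← hTS]
        exact hy
      obtain ⟨y₀, hy₀, rfl⟩ := hy'
      have hy₁ : n * y₀ * n⁻¹ ∈ thompsonSubgroupOf p (S : Subgroup G) :=
        (Subgroup.mem_normalizer_iff.mp hn y₀).mp hy₀
      have hy₂ : n * y₀ * n⁻¹ ∈ (S : Subgroup G) := by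
        obtain ⟨w, _, hw⟩ := hy₁
        rw [← hw]
        exact w.2
      have hz2 := omega_le (S : Subgroup G) hz
      obtain ⟨hz3, hz4⟩ := Subgroup.mem_inf.mp hz2
      rw [Subgroup.mem_centralizer_iff] at hz4
      have h1 := hz4 _ hy₂
      have h2 : c * z = z * c := by
        have := hc
        rw [Subgroup.mem_centralizer_iff] at this
        exact (this z hz).symm
      have hconj : (MulAut.conj h).toMonoidHom y₀ = c * (n * y₀ * n⁻¹) * c⁻¹ := by
        show h * y₀ * h⁻¹ = _
        rw [hfac]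
        group
      rw [hconj]
      have h3 : c⁻¹ * z = z * c⁻¹ := by
        have : c⁻¹ * (c * z) * c⁻¹ = c⁻¹ * (z * c) * c⁻¹ := by rw [h2]
        exact (by simpa [mul_assoc] using this : z * c⁻¹ = c⁻¹ * z).symm
      symm
      calc c * (n * y₀ * n⁻¹) * c⁻¹ * z = c * (n * y₀ * n⁻¹) * (c⁻¹ * z) := by group
        _ = c * (n * y₀ * n⁻¹) * (z * c⁻¹) := by rw [h3]
        _ = c * ((n * y₀ * n⁻¹) * z) * c⁻¹ := by group
        _ = c * (z * (n * y₀ * n⁻¹)) * c⁻¹ := by rw [h1]
        _ = (c * z) * (n * y₀ * n⁻¹) * c⁻¹ := by group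
        _ = (z * c) * (n * y₀ * n⁻¹) * c⁻¹ := by rw [h2]
        _ = _ := by group
    intro h hh
    have := hle hh
    rw [Subgroup.mem_centralizer_singleton_iff] at this
    exact this
  · intro hJ S g
    set V := ⨆ S : Sylow p G, omegaOne p (((S : Subgroup G)) ⊓ Subgroup.centralizer ((S : Subgroup G) : Set G)) with hV
    haveI hVn : V.Normal := V_normal
    let C := Subgroup.centralizer (V : Set G)
    obtain ⟨R, hR⟩ := Cfsg.Agent.Lib.SylowIdx.exists_sylow_inf S C
    have hRmap : (R : Subgroup C).map C.subtype = (S : Subgroup G) ⊓ C := by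
      rw [hR, Subgroup.subgroupOf_map_subtype]
      exact inf_eq_left.mpr inf_le_right
    have hfr := Sylow.normalizer_sup_eq_top R
    rw [hRmap] at hfr
    have hg : g⁻¹ ∈ Subgroup.normalizer (((S : Subgroup G) ⊓ C : Subgroup G) : Set G) ⊔ C := by
      rw [hfr]
      trivial
    obtain ⟨n, hn, c, hc, hnc⟩ : ∃ n ∈ Subgroup.normalizer (((S : Subgroup G) ⊓ C : Subgroup G) : Set G), ∃ c ∈ C, n * c = g⁻¹ := by
      have hg' : g⁻¹ ∈ ((Subgroup.normalizer (((S : Subgroup G) ⊓ C : Subgroup G) : Set G) : Set G) * (C : Set G)) := by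
        rw [← Subgroup.mul_normal]
        exact hg
      obtain ⟨n, hn, c, hc, h⟩ := Set.mem_mul.mp hg'
      exact ⟨n, hn, c, hc, h⟩
    have hJS : thompsonSubgroupOf p (S : Subgroup G) ≤ (S : Subgroup G) ⊓ C := by
      refine le_inf ?_ ((thompsonOf_sylow_le S).trans hJ)
      exact Subgroup.map_subtype_le _
    have hJeq := thompsonOf_eq_of_le (p := p) (inf_le_left : (S : Subgroup G) ⊓ C ≤ S) hJS
    refine ⟨1, one_mem _, c⁻¹, ?_, n⁻¹, ?_, ?_⟩
    · have hle : omegaOne p (((S : Subgroup G)) ⊓ Subgroup.centralizer ((S : Subgroup G) : Set G)) ≤ V :=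
        le_iSup (fun S : Sylow p G => omegaOne p (((S : Subgroup G)) ⊓ Subgroup.centralizer ((S : Subgroup G) : Set G))) S
      have hc' := C.inv_mem hc
      rw [Subgroup.mem_centralizer_iff] at hc' ⊢
      intro z hz
      exact hc' z (hle hz)
    · rw [← hJeq]
      exact normalizer_thompsonOf _ (Subgroup.inv_mem _ hn)
    · have : g = (n * c)⁻¹ := by rw [hnc, inv_inv]
      rw [this]
      group

end Cfsg.Agent.S0608
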