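import Cfsg.Statements.S0609
import Mathlib
import Cfsg.Agent.Lib.ThompsonBasic
import Cfsg.Agent.Lib.PComps
import Cfsg.Agent.Lib.FitCore

set_option autoImplicit false
open Cfsg

namespace Cfsg.Agent.S0609

section Lifts

variable {G : Type*} [Group G] [Finite G] {p : ℕ} [hp : Fact p.Prime]

theorem inf_core_eq_bot (A : Subgroup G) (hA : IsPGroup p A) : A ⊓ Cfsg.pPrimeCore p G = ⊥ := by
  have hpO : ¬ p ∣ Nat.card (Cfsg.pPrimeCore p G) := Cfsg.Agent.Lib.FitCore.not_dvd_card_pPrimeCore p hp.out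
  obtain ⟨a, ha⟩ := IsPGroup.iff_card.1 hA
  have hcop : Nat.Coprime (Nat.card A) (Nat.card (Cfsg.pPrimeCore p G)) := by
    rw [ha]
    exact Nat.Coprime.pow_left _ ((Nat.Prime.coprime_iff_not_dvd hp.out).2 hpO)
  exact (Subgroup.disjoint_of_coprime_natCard hcop).eq_bot

theorem eq_of_mk_eq (A : Subgroup G) (hA : IsPGroup p A) {x y : G} (hx : x ∈ A) (hy : y ∈ A)
    (h : QuotientGroup.mk' (Cfsg.pPrimeCore p G) x = QuotientGroup.mk' (Cfsg.pPrimeCore p G) y) : x = y := by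
  have h1 : x⁻¹ * y ∈ Cfsg.pPrimeCore p G := QuotientGroup.eq.1 h
  have h2 : x⁻¹ * y ∈ A ⊓ Cfsg.pPrimeCore p G := ⟨A.mul_mem (A.inv_mem hx) hy, h1⟩
  rw [inf_core_eq_bot A hA, Subgroup.mem_bot] at h2
  exact (inv_mul_eq_one.1 h2)

theorem lift_norm (J : Subgroup G) (hJ : IsPGroup p J) (n₀ : G)
    (h : ∀ j ∈ J, QuotientGroup.mk' (Cfsg.pPrimeCore p G) (n₀ * j * n₀⁻¹) ∈ J.map (QuotientGroup.mk' (Cfsg.pPrimeCore p G))) :
    ∃ o ∈ Cfsg.pPrimeCore p G, o * n₀ ∈ Subgroup.normalizer (J : Set G) := by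
  classical
  set O := Cfsg.pPrimeCore p G with hOdef
  have hOn : O.Normal := Cfsg.Agent.Lib.FitCore.pPrimeCore_normal p
  have hpO : ¬ p ∣ Nat.card O := Cfsg.Agent.Lib.FitCore.not_dvd_card_pPrimeCore p hp.out
  let T : Subgroup G := O ⊔ J
  let J₂ : Subgroup G := J.map (MulAut.conj n₀).toMonoidHom
  have hJT : J ≤ T := le_sup_right
  have hJ₂T : J₂ ≤ T := by
    rintro _ ⟨j, hj, rfl⟩
    obtain ⟨j', hj', hjj⟩ := h j hj
    have h1 : j'⁻¹ * (n₀ * j * n₀⁻¹) ∈ O := QuotientGroup.eq.1 hjj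
    have h2 : n₀ * j * n₀⁻¹ = j' * (j'⁻¹ * (n₀ * j * n₀⁻¹)) := by group
    show n₀ * j * n₀⁻¹ ∈ T
    rw [h2]
    exact T.mul_mem (hJT hj') (le_sup_left (a := O) h1)
  have hcardJ₂ : Nat.card J₂ = Nat.card J :=
    (Nat.card_congr (Subgroup.equivMapOfInjective J _ (MulAut.conj n₀).injective).toEquiv).symm
  have hT : Nat.card T = Nat.card O * Nat.card J := by
    have h1 := Cfsg.Agent.Lib.ThompsonBasic.card_sup_mul_card_inf O J (by
      rw [Subgroup.normalizer_eq_top]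
      exact le_top)
    rw [inf_comm, inf_core_eq_bot J hJ] at h1
    simpa using h1
  obtain ⟨a, ha⟩ := IsPGroup.iff_card.1 hJ
  have hvT : (Nat.card T).factorization p = a := by
    rw [hT, ha, Nat.factorization_mul Nat.card_pos.ne' (pow_pos hp.out.pos _).ne']
    simp [Nat.factorization_eq_zero_of_not_dvd hpO, hp.out.factorization_pow]
  let Q₁ : Sylow p T := Sylow.ofCard (J.subgroupOf T) (by
    rw [Cfsg.Agent.Lib.ThompsonBasic.card_subgroupOf_of_le hJT, ha, hvT])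
  let Q₂ : Sylow p T := Sylow.ofCard (J₂.subgroupOf T) (by
    rw [Cfsg.Agent.Lib.ThompsonBasic.card_subgroupOf_of_le hJ₂T, hcardJ₂, ha, hvT])
  obtain ⟨t, ht⟩ := MulAction.exists_smul_eq T Q₁ Q₂
  have h1 : (t : G) ∈ ((O ⊔ J : Subgroup G) : Set G) := t.2
  rw [Subgroup.normal_mul] at h1
  obtain ⟨o, ho, j₀, hj₀, hoj⟩ := Set.mem_mul.1 h1
  have key : ∀ x ∈ J, ∃ y ∈ J, o * x * o⁻¹ = n₀ * y * n₀⁻¹ := by
    intro x hx
    have hz : j₀⁻¹ * x * j₀ ∈ J := J.mul_mem (J.mul_mem (J.inv_mem hj₀) hx) hj₀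
    let z : T := ⟨j₀⁻¹ * x * j₀, hJT hz⟩
    let w : T := t * z * t⁻¹
    have hw : w ∈ ((t • Q₁ : Sylow p T) : Subgroup T) := by
      rw [Sylow.coe_subgroup_smul, Subgroup.mem_pointwise_smul_iff_inv_smul_mem]
      have : (MulAut.conj t)⁻¹ • w = z := by
        simp [MulAut.smul_def, w]
        group
      rw [this]
      exact hz
    rw [ht] at hw
    obtain ⟨y, hy, hyw⟩ : (w : G) ∈ J₂ := hw
    refine ⟨y, hy, ?_⟩
    have hwv : (w : G) = o * x * o⁻¹ := by
      show (t : G) * (j₀⁻¹ * x * j₀) * (t : G)⁻¹ = _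
      rw [← hoj]
      group
    rw [← hwv, ← hyw]
    rfl
  let m : G := n₀⁻¹ * o
  have hm : ∀ x ∈ J, m * x * m⁻¹ ∈ J := by
    intro x hx
    obtain ⟨y, hy, hxy⟩ := key x hx
    have : m * x * m⁻¹ = n₀⁻¹ * (o * x * o⁻¹) * n₀ := by
      simp only [m]; group
    rw [this, hxy]
    have : n₀⁻¹ * (n₀ * y * n₀⁻¹) * n₀ = y := by group
    rwa [this]
  have hmap : J.map (MulAut.conj m).toMonoidHom = J := by
    apply Subgroup.eq_of_le_of_card_ge
    · rintro _ ⟨x, hx, rfl⟩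
      exact hm x hx
    · exact (Nat.card_congr (Subgroup.equivMapOfInjective J _ (MulAut.conj m).injective).toEquiv).le
  have hmN : m ∈ Subgroup.normalizer (J : Set G) := by
    rw [Subgroup.mem_normalizer_iff]
    intro x
    constructor
    · exact hm x
    · intro hx
      have h2 : m * x * m⁻¹ ∈ J.map (MulAut.conj m).toMonoidHom := by rw [hmap]; exact hx
      obtain ⟨u, hu, huv⟩ := h2
      have h3 : u = x := by
        apply (MulAut.conj m).injective
        exact huv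
      exact h3 ▸ hu
  refine ⟨o⁻¹, O.inv_mem ho, ?_⟩
  have : o⁻¹ * n₀ = m⁻¹ := by
    simp only [m]; group
  rw [this]
  exact Subgroup.inv_mem _ hmN

theorem lift_cent (A : Subgroup G) (hA : IsPGroup p A) (c₀ : G)
    (h : ∀ a ∈ A, QuotientGroup.mk' (Cfsg.pPrimeCore p G) c₀ * QuotientGroup.mk' (Cfsg.pPrimeCore p G) a =
      QuotientGroup.mk' (Cfsg.pPrimeCore p G) a * QuotientGroup.mk' (Cfsg.pPrimeCore p G) c₀) :
    ∃ o ∈ Cfsg.pPrimeCore p G, o * c₀ ∈ Subgroup.centralizer (A : Set G) := by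
  classical
  set π := QuotientGroup.mk' (Cfsg.pPrimeCore p G) with hπ
  obtain ⟨o, ho, hN⟩ := lift_norm A hA c₀ (by
    intro a ha
    refine ⟨a, ha, ?_⟩
    show π a = π (c₀ * a * c₀⁻¹)
    rw [map_mul, map_mul, map_inv, h a ha, mul_inv_cancel_right])
  refine ⟨o, ho, ?_⟩
  rw [Subgroup.mem_centralizer_iff]
  intro a ha
  have h1 : (o * c₀) * a * (o * c₀)⁻¹ ∈ A := (Subgroup.mem_normalizer_iff.1 hN a).1 ha
  have ho1 : π o = 1 := by
    rw [hπ, QuotientGroup.mk'_apply, QuotientGroup.eq_one_iff]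
    exact ho
  have h2 : π ((o * c₀) * a * (o * c₀)⁻¹) = π a := by
    rw [map_mul, map_mul, map_inv, map_mul, ho1, one_mul, h a ha]
    group
  have h3 := eq_of_mk_eq A hA h1 ha h2
  rw [mul_inv_eq_iff_eq_mul] at h3
  exact h3.symm

theorem omega_map (S : Subgroup G) (hS : IsPGroup p S) :
    (Cfsg.omegaOne p (S ⊓ Subgroup.centralizer (S : Set G))).map (QuotientGroup.mk' (Cfsg.pPrimeCore p G)) =
      Cfsg.omegaOne p (S.map (QuotientGroup.mk' (Cfsg.pPrimeCore p G)) ⊓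
        Subgroup.centralizer ((S.map (QuotientGroup.mk' (Cfsg.pPrimeCore p G)) : Subgroup _) : Set (G ⧸ Cfsg.pPrimeCore p G))) := by
  classical
  set π := QuotientGroup.mk' (Cfsg.pPrimeCore p G) with hπ
  unfold Cfsg.omegaOne
  rw [MonoidHom.map_closure]
  congr 1
  ext y
  constructor
  · rintro ⟨x, ⟨⟨hxS, hxC⟩, hxp⟩, rfl⟩
    refine ⟨⟨⟨x, hxS, rfl⟩, Subgroup.mem_centralizer_iff.2 ?_⟩, by rw [← map_pow, hxp, map_one]⟩
    rintro _ ⟨s, hs, rfl⟩
    rw [← map_mul, ← map_mul, Subgroup.mem_centralizer_iff.1 hxC s hs]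
  · rintro ⟨⟨⟨s, hs, rfl⟩, hC⟩, hp1⟩
    refine ⟨s, ⟨⟨hs, Subgroup.mem_centralizer_iff.2 ?_⟩, ?_⟩, rfl⟩
    · intro s' hs'
      have h1 := Subgroup.mem_centralizer_iff.1 hC (π s') ⟨s', hs', rfl⟩
      rw [← map_mul, ← map_mul] at h1
      exact eq_of_mk_eq S hS (S.mul_mem hs' hs) (S.mul_mem hs hs') h1
    · have h2 : π (s ^ p) = π 1 := by rw [map_pow, hp1, map_one]
      exact eq_of_mk_eq S hS (S.pow_mem hs p) S.one_mem h2

theorem thompson_map (S : Subgroup G) (hS : IsPGroup p S) :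
    (Cfsg.thompsonSubgroupOf p S).map (QuotientGroup.mk' (Cfsg.pPrimeCore p G)) =
      Cfsg.thompsonSubgroupOf p (S.map (QuotientGroup.mk' (Cfsg.pPrimeCore p G))) := by
  classical
  set π := QuotientGroup.mk' (Cfsg.pPrimeCore p G) with hπ
  let f : S →* S.map π := π.subgroupMap S
  have hf : Function.Bijective f := by
    refine ⟨?_, π.subgroupMap_surjective S⟩
    intro a b hab
    apply Subtype.ext
    exact eq_of_mk_eq S hS a.2 b.2 (congrArg Subtype.val hab)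
  let e : S ≃* S.map π := MulEquiv.ofBijective f hf
  have h1 := Cfsg.Agent.Lib.ThompsonBasic.thompson_map_equiv (p := p) e
  unfold Cfsg.thompsonSubgroupOf
  rw [← h1, Subgroup.map_map, Subgroup.map_map]
  rfl

end Lifts

/-- Thompson factorizability passes to and from the quotient by the largest normal subgroup of order prime to p. -/
theorem result {G : Type*} [Group G] [Finite G] {p : ℕ} [Fact p.Prime] : Cfsg.IsThompsonFactorizable p G ↔ Cfsg.IsThompsonFactorizable p (G ⧸ Cfsg.pPrimeCore p G) := by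
  classical
  set O := Cfsg.pPrimeCore p G with hOdef
  haveI hOn : O.Normal := Cfsg.Agent.Lib.FitCore.pPrimeCore_normal p
  set π := QuotientGroup.mk' O with hπ
  have hπs : Function.Surjective π := QuotientGroup.mk'_surjective O
  have hker : ∀ x ∈ O, π x = 1 := by
    intro x hx
    rw [hπ, QuotientGroup.mk'_apply, QuotientGroup.eq_one_iff]
    exact hx
  have hSmap : ∀ S : Sylow p G, ((S.mapSurjective hπs : Sylow p (G ⧸ O)) : Subgroup (G ⧸ O)) = (S : Subgroup G).map π :=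
    fun S => Sylow.coe_mapSurjective hπs S
  constructor
  · intro hT Sb gb
    obtain ⟨S, rfl⟩ := Sylow.mapSurjective_surjective hπs p Sb
    obtain ⟨g, rfl⟩ := hπs gb
    obtain ⟨x, hx, c, hc, n, hn, rfl⟩ := hT S g
    refine ⟨1, Subgroup.one_mem _, π c, ?_, π n, ?_, ?_⟩
    · rw [hSmap, ← omega_map (S : Subgroup G) S.isPGroup']
      rw [Subgroup.mem_centralizer_iff]
      rintro _ ⟨a, ha, rfl⟩
      rw [← map_mul, ← map_mul, Subgroup.mem_centralizer_iff.1 hc a ha]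
    · rw [hSmap, ← thompson_map (S : Subgroup G) S.isPGroup']
      rw [Subgroup.mem_normalizer_iff]
      intro y
      obtain ⟨y', rfl⟩ := hπs y
      constructor
      · rintro ⟨j, hj, hjy⟩
        refine ⟨n * j * n⁻¹, (Subgroup.mem_normalizer_iff.1 hn j).1 hj, ?_⟩
        rw [map_mul, map_mul, map_inv, hjy]
      · rintro ⟨j, hj, hjy⟩
        refine ⟨n⁻¹ * j * n, ?_, ?_⟩
        · have h1 := (Subgroup.mem_normalizer_iff.1 (Subgroup.inv_mem _ hn) j).1 hj
          simpa using h1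
        · have hjy' : π j = π n * π y' * (π n)⁻¹ := hjy
          show π (n⁻¹ * j * n) = π y'
          rw [map_mul, map_mul, map_inv, hjy']
          group
    · rw [map_mul, map_mul, hker x hx]
  · intro hT S g
    obtain ⟨xb, hxb, cb, hcb, nb, hnb, hg⟩ := hT (S.mapSurjective hπs) (π g)
    have hxb1 : xb = 1 := by
      have h0 : Cfsg.pPrimeCore p (G ⧸ O) = ⊥ := Cfsg.Agent.Lib.PComps.pPrimeCore_quotient_eq_bot
      rw [h0, Subgroup.mem_bot] at hxb
      exact hxb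
    rw [hSmap, ← omega_map (S : Subgroup G) S.isPGroup'] at hcb
    rw [hSmap, ← thompson_map (S : Subgroup G) S.isPGroup'] at hnb
    obtain ⟨c₀, rfl⟩ := hπs cb
    obtain ⟨n₀, rfl⟩ := hπs nb
    have hAS : Cfsg.omegaOne p ((S : Subgroup G) ⊓ Subgroup.centralizer ((S : Subgroup G) : Set G)) ≤ (S : Subgroup G) := by
      unfold Cfsg.omegaOne
      apply (Subgroup.closure_le _).2
      rintro x ⟨hx, -⟩
      exact hx.1
    have hJS : Cfsg.thompsonSubgroupOf p (S : Subgroup G) ≤ (S : Subgroup G) := by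
      unfold Cfsg.thompsonSubgroupOf
      exact Subgroup.map_subtype_le _
    obtain ⟨o₁, ho₁, hc⟩ := lift_cent _ (S.isPGroup'.to_le hAS) c₀ (by
      intro a ha
      exact (Subgroup.mem_centralizer_iff.1 hcb (π a) ⟨a, ha, rfl⟩).symm)
    obtain ⟨o₂, ho₂, hn⟩ := lift_norm _ (S.isPGroup'.to_le hJS) n₀ (by
      intro j hj
      have h1 := (Subgroup.mem_normalizer_iff.1 hnb (π j)).1 ⟨j, hj, rfl⟩
      rw [map_mul, map_mul, map_inv]
      exact h1)
    refine ⟨g * (o₁ * c₀ * (o₂ * n₀))⁻¹, ?_, o₁ * c₀, hc, o₂ * n₀, hn, by group⟩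
    have h2 : π (g * (o₁ * c₀ * (o₂ * n₀))⁻¹) = 1 := by
      rw [map_mul, map_inv, map_mul, map_mul, map_mul, hker o₁ ho₁, hker o₂ ho₂, hg, hxb1]
      group
    rw [hπ, QuotientGroup.mk'_apply, QuotientGroup.eq_one_iff] at h2
    exact h2

end Cfsg.Agent.S0609
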