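import Cfsg.Statements.S0611
import Cfsg.Agent.Lib.BestOff
-- import your own Cfsg.Agent.* helpers here

set_option autoImplicit false
open Cfsg

namespace Cfsg.Agent.S0611

/-- Minimal nontrivially-acting best offenders in such a faithful group have order p, commutator [V, B] of order p and fixed points of index p. -/
theorem result {G : Type*} [Group G] [Finite G] {p : ℕ} [Fact p.Prime] (V H : Subgroup G) (hV : Cfsg.IsElementaryAbelian p V) (hHV : H ≤ Subgroup.normalizer (V : Set G)) (hf : H ⊓ Subgroup.centralizer (V : Set G) = ⊥) (hS1 : Subgroup.centralizer (Cfsg.pPrimeCore p ↥H : Set ↥H) ≤ Cfsg.pPrimeCore p ↥H) (hS3 : H = ⨆ A : {A : Subgroup G // A ≤ H ∧ Cfsg.IsBestOffenderOn p V A}, (A : Subgroup G)) (hH1 : H ≠ ⊥) (A : Subgroup G) (hAH : A ≤ H) (hA : Cfsg.IsBestOffenderOn p V A) (hAV : ⁅V, A⁆ ≠ ⊥) (hmin : ∀ B : Subgroup G, B ≤ A → Cfsg.IsBestOffenderOn p V B → ⁅V, B⁆ ≠ ⊥ → B = A) : Nat.card A = p ∧ Nat.card ↥(⁅V, A⁆) = p ∧ ((V ⊓ Subgroup.centralizer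 (A : Set G))).relIndex V = p := by
  have hS := Cfsg.Agent.Lib.BestOff.setup_of (p := p) V H hV hHV hf hS1
  have hEl := Cfsg.Agent.Lib.BestOff.el_of (p := p) V H A hf hAH hA
  have hd : Cfsg.Agent.Lib.BestOff.dl V A = Nat.card V := by
    apply le_antisymm (hS.dl_le hEl)
    have := hA.1 ⊥ bot_le
    rw [← Cfsg.Agent.Lib.BestOff.dl_bot]
    exact this
  have hc := hS.card_min hEl hA hAV hmin
  have hrel : (V ⊓ Subgroup.centralizer (A : Set G)).relIndex V = p := by
    have hp : p.Prime := Fact.out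
    have h1 := Subgroup.relIndex_mul_relIndex (⊥ : Subgroup G) (V ⊓ Subgroup.centralizer (A : Set G)) V bot_le inf_le_left
    rw [Subgroup.relIndex_bot_left, Subgroup.relIndex_bot_left] at h1
    unfold Cfsg.Agent.Lib.BestOff.dl at hd
    rw [hc] at hd
    rw [← hd, mul_comm p] at h1
    exact Nat.eq_of_mul_eq_mul_left Nat.card_pos h1
  exact ⟨hc, hS.card_comm hEl hc hrel hAV, hrel⟩

end Cfsg.Agent.S0611
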