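import Cfsg.Statements.S0612
import Cfsg.Agent.Lib.BestOff
-- import your own Cfsg.Agent.* helpers here

set_option autoImplicit false
open Cfsg

namespace Cfsg.Agent.S0612

/-- In such a faithful group every nontrivial best offender decomposes as a direct product of minimal nontrivially-acting best offenders. -/
theorem result {G : Type*} [Group G] [Finite G] {p : ℕ} [Fact p.Prime] (V H : Subgroup G) (hV : Cfsg.IsElementaryAbelian p V) (hHV : H ≤ Subgroup.normalizer (V : Set G)) (hf : H ⊓ Subgroup.centralizer (V : Set G) = ⊥) (hS1 : Subgroup.centralizer (Cfsg.pPrimeCore p ↥H : Set ↥H) ≤ Cfsg.pPrimeCore p ↥H) (hS3 : H = ⨆ A : {A : Subgroup G // A ≤ H ∧ Cfsg.IsBestOffenderOn p V A}, (A : Subgroup G)) (hH1 : H ≠ ⊥) (A : Subgroup G) (hAH : A ≤ H) (hA : Cfsg.IsBestOffenderOn p V A) (hA1 : A ≠ ⊥) : ∃ (k : ℕ) (B : Fin k → Subgroup G), (∀ i, B i ≤ A ∧ Cfsg.IsBestOffenderOn p V (B i) ∧ ⁅V, B i⁆ ≠ ⊥ ∧ ∀ C : Subgroup G, C ≤ B i → Cfsg.IsBestOffenderOn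 p V C → ⁅V, C⁆ ≠ ⊥ → C = B i) ∧ iSupIndep B ∧ ⨆ i, B i = A := by
  classical
  have hS := Cfsg.Agent.Lib.BestOff.setup_of (p := p) V H hV hHV hf hS1
  have hEl := Cfsg.Agent.Lib.BestOff.el_of (p := p) V H A hf hAH hA
  have hd : Cfsg.Agent.Lib.BestOff.dl V A = Nat.card V := by
    apply le_antisymm (hS.dl_le hEl)
    have := hA.1 ⊥ bot_le
    rw [← Cfsg.Agent.Lib.BestOff.dl_bot]
    exact this
  obtain ⟨s, hs, hsi, hss⟩ := hS.decomp hEl hd
  haveI : Finite s := Set.toFinite _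
  let e := Finite.equivFin s
  refine ⟨Nat.card s, fun i => (e.symm i).1, ?_, ?_, ?_⟩
  · intro i
    obtain ⟨h1, h2, h3⟩ := hs _ (e.symm i).2
    have hp : p.Prime := Fact.out
    have hne : ((e.symm i).1) ≠ ⊥ := by
      intro h
      rw [h, Subgroup.card_bot] at h3
      exact hp.one_lt.ne h3
    have hEl2 := hEl.mono h1
    refine ⟨h1, hS.bestOff_of hEl2 h2, hS.comm_ne_bot hEl2.le hne, ?_⟩
    intro C hC _ hCV
    apply hS.eq_of_card_prime h3 hC
    rintro rfl
    exact hCV (Subgroup.commutator_bot_right _)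
  · have h1 : iSupIndep (fun x : s => (x : Subgroup G)) := (sSupIndep_iff s).1 hsi
    exact h1.comp e.symm.injective
  · rw [← hss, sSup_eq_iSup']
    exact e.symm.iSup_comp (g := fun x : s => (x : Subgroup G))

end Cfsg.Agent.S0612
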