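import Cfsg.Statements.S0618
import Cfsg.Agent.Lib.FacFail
import Cfsg.Agent.Lib.CharBlockPSolv
import Cfsg.Agent.S0601
import Cfsg.Agent.S0608
-- import your own Cfsg.Agent.* helpers here

set_option autoImplicit false
open Cfsg

namespace Cfsg.Agent.S0618

/-- A p-separable group with trivial p'-core in which the Thompson factorization fails has p = 2 or 3, and J(G) induces on the normal closure of Ω₁(Z(S)) a group containing a normal SL(2, p). -/
theorem result {G : Type*} [Group G] [Finite G] {p : ℕ} [Fact p.Prime] (hsep : Cfsg.IsPSolvable p G) (hO : Cfsg.pPrimeCore p G = ⊥) (hnf : ¬ Cfsg.IsThompsonFactorizable p G) : (p = 2 ∨ p = 3) ∧ ∃ E : Subgroup G, Subgroup.centralizer ((⨆ S : Sylow p G, Cfsg.omegaOne p ((S : Subgroup G) ⊓ Subgroup.centralizer ((S : Subgroup G) : Set G))) : Set G) ≤ E ∧ E ≤ Cfsg.thompsonSubgroup p G ⊔ Subgroup.centralizer ((⨆ S : Sylow p G, Cfsg.omegaOne p ((S : Subgroup G) ⊓ Subgroup.centralizer ((S : Subgroup G) : Set G))) : Set G) ∧ Cfsg.thompsonSubgroup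 p G ⊔ Subgroup.centralizer ((⨆ S : Sylow p G, Cfsg.omegaOne p ((S : Subgroup G) ⊓ Subgroup.centralizer ((S : Subgroup G) : Set G))) : Set G) ≤ Subgroup.normalizer (E : Set G) ∧ ∃ hn : ((Subgroup.centralizer ((⨆ S : Sylow p G, Cfsg.omegaOne p ((S : Subgroup G) ⊓ Subgroup.centralizer ((S : Subgroup G) : Set G))) : Set G)).subgroupOf E).Normal, Nonempty ((↥E ⧸ (Subgroup.centralizer ((⨆ S : Sylow p G, Cfsg.omegaOne p ((S : Subgroup G) ⊓ Subgroup.centralizer ((S : Subgroup G) : Set G))) : Set G)).subgroupOf E) ≃* Matrix.SpecialLinearGroup (Fin 2) (ZMod p)) := by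
  classical
  obtain ⟨V, hVd⟩ : ∃ V : Subgroup G, V = ⨆ S : Sylow p G, Cfsg.omegaOne p ((S : Subgroup G) ⊓ Subgroup.centralizer ((S : Subgroup G) : Set G)) := ⟨_, rfl⟩
  have hCeq : Subgroup.centralizer ((⨆ S : Sylow p G, Cfsg.omegaOne p ((S : Subgroup G) ⊓ Subgroup.centralizer ((S : Subgroup G) : Set G))) : Set G) = Subgroup.centralizer (V : Set G) := by
    apply le_antisymm
    · intro x hx
      have hV : V ≤ Subgroup.centralizer ({x} : Set G) := by
        rw [hVd]
        refine iSup_le fun S y hy => ?_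
        rw [Subgroup.mem_centralizer_iff]
        rintro z rfl
        have h1 := Subgroup.mem_centralizer_iff.mp hx y (Set.mem_iUnion.mpr ⟨S, hy⟩)
        exact h1.symm
      rw [Subgroup.mem_centralizer_iff]
      intro y hy
      have h1 := Subgroup.mem_centralizer_iff.mp (hV hy) x rfl
      exact h1.symm
    · apply Subgroup.centralizer_le
      rw [hVd]
      intro y hy
      obtain ⟨S, hS⟩ := Set.mem_iUnion.mp hy
      exact (le_iSup (fun S : Sylow p G => Cfsg.omegaOne p ((S : Subgroup G) ⊓ Subgroup.centralizer ((S : Subgroup G) : Set G))) S) hS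
  rw [hCeq]
  have hc : Subgroup.centralizer (Cfsg.pCore p G : Set G) ≤ Cfsg.pCore p G :=
    Cfsg.Agent.Lib.CharBlockPSolv.centralizer_pCore_le_of_pSolvable hsep hO
  obtain ⟨hVn, hVe, hD⟩ := Cfsg.Agent.S0601.result hc
  rw [← hVd] at hVn hVe hD
  have hJ : ¬ Cfsg.thompsonSubgroup p G ≤ Subgroup.centralizer (V : Set G) := by
    intro h
    apply hnf
    rw [Cfsg.Agent.S0608.result hO, ← hVd]
    exact h
  haveI := hVn
  haveI hCn : (Subgroup.centralizer (V : Set G)).Normal := Subgroup.normal_centralizer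
  haveI hJc : (Cfsg.thompsonSubgroup p G).Characteristic := Cfsg.Agent.Lib.ThompsonBasic.thompson_characteristic
  haveI hJn : (Cfsg.thompsonSubgroup p G).Normal := inferInstance
  have hOq : Cfsg.pCore p (G ⧸ Subgroup.centralizer (V : Set G)) = ⊥ := Cfsg.Agent.Lib.FacFail.pCore_quot_eq_bot _ hD
  exact Cfsg.Agent.Lib.FacFail.main V _ rfl hVe hsep hOq hJn hJ

end Cfsg.Agent.S0618
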