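import Cfsg.Statements.S0620
import Cfsg.Agent.Lib.FacGen
import Cfsg.Agent.Lib.CharBlockPSolv
import Cfsg.Agent.S0601
-- import your own Cfsg.Agent.* helpers here

set_option autoImplicit false
open Cfsg

namespace Cfsg.Agent.S0620

/-- Under coprime action of an elementary abelian q-group X on a p-separable group K with trivial p'-core, K is generated by the normalizer of J(S), the centralizer of Ω₁(Z(S)) and the fixed points of X. -/
theorem result {G : Type*} [Group G] [Finite G] {p : ℕ} [Fact p.Prime] {q : ℕ} [Fact q.Prime] (K X : Subgroup G) (hXK : X ≤ Subgroup.normalizer (K : Set G)) (hX : Cfsg.IsElementaryAbelian q X) (hq : ¬ q ∣ Nat.card K) (hsep : Cfsg.IsPSolvable p ↥K) (hO : Cfsg.pPrimeCore p ↥K = ⊥) (S : Sylow p ↥K) : (Subgroup.normalizer (Cfsg.thompsonSubgroupOf p (S : Subgroup ↥K) : Set ↥K) ⊔ Subgroup.centralizer (Cfsg.omegaOne p ((S : Subgroup ↥K) ⊓ Subgroup.centralizer ((S : Subgroup ↥K) : Set ↥K))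 : Set ↥K) ⊔ (Subgroup.centralizer (X : Set G)).subgroupOf K) = ⊤ := by
  classical
  obtain ⟨V, hVd⟩ : ∃ V : Subgroup ↥K, V = ⨆ S : Sylow p ↥K, Cfsg.omegaOne p ((S : Subgroup ↥K) ⊓ Subgroup.centralizer ((S : Subgroup ↥K) : Set ↥K)) := ⟨_, rfl⟩
  have hc : Subgroup.centralizer (Cfsg.pCore p ↥K : Set ↥K) ≤ Cfsg.pCore p ↥K :=
    Cfsg.Agent.Lib.CharBlockPSolv.centralizer_pCore_le_of_pSolvable hsep hO
  obtain ⟨hVn, hVe, hD⟩ := Cfsg.Agent.S0601.result hc
  rw [← hVd] at hVn hVe hD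
  haveI := hVn
  have hOq : Cfsg.pCore p (↥K ⧸ Subgroup.centralizer (V : Set ↥K)) = ⊥ := Cfsg.Agent.Lib.FacFail.pCore_quot_eq_bot _ hD
  exact Cfsg.Agent.Lib.FacGen.s0620_main K X hXK hX hq hsep V hVd hVe hOq S

end Cfsg.Agent.S0620
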