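import Cfsg.Statements.S0621
import Cfsg.Agent.Lib.FacDiag
import Cfsg.Agent.Lib.CharBlockPSolv
import Cfsg.Agent.S0601
import Cfsg.Agent.S0608
-- import your own Cfsg.Agent.* helpers here

set_option autoImplicit false
open Cfsg

namespace Cfsg.Agent.S0621

/-- Let K be p-separable with O_p'(K) = 1, normalized by an elementary abelian q-group X for a prime q not dividing the order of K. If the Thompson factorization fails in K, then p is 2 or 3 and the fixed points of X contain a plane W of order p² and a subgroup inducing SL(2, p) on it. -/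
theorem result {G : Type*} [Group G] [Finite G] {p : ℕ} [Fact p.Prime] {q : ℕ} [Fact q.Prime] (K X : Subgroup G) (hXK : X ≤ Subgroup.normalizer (K : Set G)) (hX : Cfsg.IsElementaryAbelian q X) (hq : ¬ q ∣ Nat.card K) (hsep : Cfsg.IsPSolvable p ↥K) (hO : Cfsg.pPrimeCore p ↥K = ⊥) (hnf : ¬ Cfsg.IsThompsonFactorizable p ↥K) : (p = 2 ∨ p = 3) ∧ ∃ W D : Subgroup G, W ≤ K ⊓ Subgroup.centralizer (X : Set G) ∧ D ≤ K ⊓ Subgroup.centralizer (X : Set G) ∧ Cfsg.IsElementaryAbelian p W ∧ Nat.card W = p ^ 2 ∧ D ≤ Subgroup.normalizer (W : Set G) ∧ ∃ hn : ((Subgroup.centralizer (W : Set G)).subgroupOf D).Normal, Nonempty ((↥D ⧸ (Subgroup.centralizer (W : Set G)).subgroupOf D) ≃* Matrix.SpecialLinearGroup (Fin 2) (ZMod p)) := by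
  classical
  obtain ⟨V, hVd⟩ : ∃ V : Subgroup ↥K, V = ⨆ S : Sylow p ↥K, Cfsg.omegaOne p ((S : Subgroup ↥K) ⊓ Subgroup.centralizer ((S : Subgroup ↥K) : Set ↥K)) := ⟨_, rfl⟩
  have hc : Subgroup.centralizer (Cfsg.pCore p ↥K : Set ↥K) ≤ Cfsg.pCore p ↥K :=
    Cfsg.Agent.Lib.CharBlockPSolv.centralizer_pCore_le_of_pSolvable hsep hO
  obtain ⟨hVn, hVe, hD⟩ := Cfsg.Agent.S0601.result hc
  rw [← hVd] at hVn hVe hD
  have hJ : ¬ Cfsg.thompsonSubgroup p ↥K ≤ Subgroup.centralizer (V : Set ↥K) := by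
    intro h
    apply hnf
    rw [Cfsg.Agent.S0608.result hO, ← hVd]
    exact h
  haveI := hVn
  have hOq : Cfsg.pCore p (↥K ⧸ Subgroup.centralizer (V : Set ↥K)) = ⊥ := Cfsg.Agent.Lib.FacFail.pCore_quot_eq_bot _ hD
  exact Cfsg.Agent.Lib.FacDiag.s0621_main K X hXK hX hq hsep V hVd hVe hOq hJ

end Cfsg.Agent.S0621
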