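import Cfsg.Statements.S0627
import Mathlib
import Cfsg.Agent.Lib.WNormal
import Cfsg.Agent.Lib.ActStable
import Cfsg.Agent.Lib.StrongEmb
import Cfsg.Agent.Lib.SylowIn
import Cfsg.Agent.Lib.SolvCore
import Cfsg.Agent.Lib.CharBlockPSolv
import Cfsg.Agent.Lib.UpperP

set_option autoImplicit false
open Cfsg

namespace Cfsg.Agent.S0627

open Cfsg Cfsg.Agent.Lib.WNormal

theorem card_p_le {G : Type*} [Group G] [Finite G] {p : ℕ} [hpF : Fact p.Prime] {O W M : Subgroup G}
    (hM : M = O ⊔ W) (hOW : O ≤ Subgroup.normalizer (W : Set G) ∨ W ≤ Subgroup.normalizer (O : Set G))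
    (hO : ¬ p ∣ Nat.card O) (hW : IsPGroup p W) (T : Subgroup G) (hT : T ≤ M) (hTp : IsPGroup p T) :
    Nat.card T ≤ Nat.card W := by
  have hpp : p.Prime := hpF.out
  have hinf : O ⊓ W = ⊥ := by
    obtain ⟨m, hm⟩ := IsPGroup.iff_card.1 hW
    have hc : Nat.Coprime (Nat.card O) (Nat.card W) := by
      rw [hm]
      exact Nat.Coprime.pow_right _ ((Nat.Prime.coprime_iff_not_dvd hpp).2 hO).symm
    exact (Subgroup.disjoint_of_coprime_natCard hc).eq_bot
  have hcard : Nat.card M = Nat.card O * Nat.card W := by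
    rcases hOW with h | h
    · have := Cfsg.Agent.Lib.ThompsonBasic.card_sup_mul_card_inf W O h
      rw [sup_comm, inf_comm, hinf, Subgroup.card_bot, mul_one, ← hM, mul_comm (Nat.card W)] at this
      exact this
    · have := Cfsg.Agent.Lib.ThompsonBasic.card_sup_mul_card_inf O W h
      rw [hinf, Subgroup.card_bot, mul_one, ← hM] at this
      exact this
  have hdvd : Nat.card T ∣ Nat.card O * Nat.card W := by
    rw [← hcard]
    exact Subgroup.card_dvd_of_le hT
  obtain ⟨k, hk⟩ := IsPGroup.iff_card.1 hTp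
  have hcop : Nat.Coprime (Nat.card T) (Nat.card O) := by
    rw [hk]
    exact Nat.Coprime.pow_left _ ((Nat.Prime.coprime_iff_not_dvd hpp).2 hO)
  have h2 := hcop.dvd_of_dvd_mul_left hdvd
  exact Nat.le_of_dvd Nat.card_pos h2

/-- In a p-separable group with p at least 5, the normalizer of W(S) supplements the largest normal subgroup of order prime to p. -/
theorem result {G : Type*} [Group G] [Finite G] {p : ℕ} [Fact p.Prime] (hp : 5 ≤ p) (hsep : Cfsg.IsPSolvable p G) (S : Sylow p G) : Cfsg.pPrimeCore p G ⊔ Subgroup.normalizer (((Cfsg.stableNormalClosure p ↥(S : Subgroup G)).map (S : Subgroup G).subtype) : Set G) = ⊤ := by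
  classical
  have hpp : p.Prime := Fact.out
  set O := Cfsg.pPrimeCore p G with hOdef
  haveI hOn : O.Normal := Cfsg.pPrimeCore_normal p G
  have hOp : ¬ p ∣ Nat.card O := Cfsg.Agent.Lib.FitCore.not_dvd_card_pPrimeCore p hpp
  let f := QuotientGroup.mk' O
  have hf : Function.Surjective f := QuotientGroup.mk'_surjective O
  have hker : f.ker = O := QuotientGroup.ker_mk' O
  have hSO : (S : Subgroup G) ⊓ O = ⊥ := by
    obtain ⟨m, hm⟩ := IsPGroup.iff_card.1 S.isPGroup'
    have hc : Nat.Coprime (Nat.card (S : Subgroup G)) (Nat.card O) := by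
      rw [hm]
      exact Nat.Coprime.pow_left _ ((Nat.Prime.coprime_iff_not_dvd hpp).2 hOp)
    exact (Subgroup.disjoint_of_coprime_natCard hc).eq_bot
  -- the quotient
  have hsepQ : Cfsg.IsPSolvable p (G ⧸ O) := Cfsg.Agent.Lib.UpperP.isPSolvable_quotient hsep O
  have hOQ : Cfsg.pPrimeCore p (G ⧸ O) = ⊥ := Cfsg.Agent.Lib.SolvCore.pPrimeCore_quot_eq_bot
  have hcQ := Cfsg.Agent.Lib.CharBlockPSolv.centralizer_pCore_le_of_pSolvable hsepQ hOQ
  have hst := Cfsg.Agent.Lib.ActStable.main_sep hp hsepQ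
  let Sb : Sylow p (G ⧸ O) := S.mapSurjective hf
  have hSb : (Sb : Subgroup (G ⧸ O)) = (S : Subgroup G).map f := rfl
  have hN := Cfsg.Agent.Lib.WNormal.main hst hcQ Sb
  -- the isomorphism
  have hinj : Function.Injective (f.subgroupMap (S : Subgroup G)) := by
    rw [injective_iff_map_eq_one]
    rintro ⟨x, hx⟩ h
    have h1 : f x = 1 := congrArg Subtype.val h
    have h2 : x ∈ O := by
      rw [← hker]
      exact h1
    have h3 : x ∈ (S : Subgroup G) ⊓ O := ⟨hx, h2⟩
    rw [hSO] at h3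
    exact Subtype.ext (Subgroup.mem_bot.1 h3)
  let η : ↥(S : Subgroup G) ≃* ↥(Sb : Subgroup (G ⧸ O)) :=
    MulEquiv.ofBijective (f.subgroupMap (S : Subgroup G)) ⟨hinj, f.subgroupMap_surjective _⟩
  have hη := (Cfsg.Agent.S0622.result (p := p) (S := ↥(S : Subgroup G)) S.isPGroup').2.2.2.2 _ η
  set W := (Cfsg.stableNormalClosure p ↥(S : Subgroup G)).map (S : Subgroup G).subtype with hWdef
  have hWf : W.map f = WW Sb := by
    rw [WW, ← hη, Subgroup.map_map, Subgroup.map_map]
    rfl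
  have hWS : W ≤ (S : Subgroup G) := Subgroup.map_subtype_le _
  have hWp : IsPGroup p W := S.isPGroup'.to_le hWS
  -- the normal subgroup
  let M : Subgroup G := (W.map f).comap f
  have hMn : M.Normal := by
    haveI : (W.map f).Normal := by rw [hWf]; exact hN
    exact Subgroup.Normal.comap inferInstance f
  have hMeq : M = O ⊔ W := by
    ext x
    constructor
    · rintro ⟨w, hw, he⟩
      have h1 : f (w⁻¹ * x) = 1 := by
        rw [map_mul, map_inv, he, inv_mul_cancel]
      have h2 : w⁻¹ * x ∈ O := by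
        rw [← hker]
        exact h1
      have h3 : x = (x * (w⁻¹ * x)⁻¹ ) * (w⁻¹ * x) := by group
      have h4 : x = w * (w⁻¹ * x) := by group
      rw [h4, sup_comm]
      exact Subgroup.mul_mem_sup hw h2
    · intro hx
      rw [Subgroup.mem_sup_of_normal_left] at hx
      obtain ⟨u, hu, w, hw, rfl⟩ := hx
      refine ⟨w, hw, ?_⟩
      have h1 : f u = 1 := by
        have : u ∈ f.ker := by
          rw [hker]
          exact hu
        exact this
      show f w = f (u * w)
      rw [map_mul, h1, one_mul]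
  have hcardle := card_p_le (p := p) hMeq (Or.inr (by
    rw [Subgroup.normalizer_eq_top_iff.2 hOn]
    exact le_top)) hOp hWp
  have hWM : W ≤ M := fun w hw => ⟨w, hw, rfl⟩
  rw [eq_top_iff]
  intro g _
  let Wg := W.map (MulAut.conj g).toMonoidHom
  have hWgM : Wg ≤ M := by
    rintro _ ⟨w, hw, rfl⟩
    exact hMn.conj_mem _ (hWM hw) g
  have hSyl1 : Cfsg.Agent.Lib.SylowIn.IsSylowIn p W M :=
    Cfsg.Agent.Lib.SylowIn.isSylowIn_of_card hWM hWp hcardle
  have hSyl2 : Cfsg.Agent.Lib.SylowIn.IsSylowIn p Wg M := by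
    refine Cfsg.Agent.Lib.SylowIn.isSylowIn_of_card hWgM (hWp.map _) ?_
    intro T hT hTp
    rw [Cfsg.Agent.Lib.SylowIn.card_map_conj]
    exact hcardle T hT hTp
  obtain ⟨k, hk, hke⟩ := Cfsg.Agent.Lib.StrongEmb.IsSylowIn.exists_conj hSyl1 hSyl2 hWM hWgM
  have hk' : k ∈ O ⊔ W := hMeq ▸ hk
  rw [Subgroup.mem_sup_of_normal_left] at hk'
  obtain ⟨u, hu, w, hw, rfl⟩ := hk'
  have hn : u⁻¹ * g ∈ Subgroup.normalizer (W : Set G) := by
    apply Subgroup.mem_normalizer_fintype
    intro x hx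
    have h1 : g * x * g⁻¹ ∈ Wg := ⟨x, hx, rfl⟩
    rw [hke] at h1
    obtain ⟨y, hy, hye⟩ := h1
    have hye' : (u * w) * y * (u * w)⁻¹ = g * x * g⁻¹ := hye
    have h2 : (u⁻¹ * g) * x * (u⁻¹ * g)⁻¹ = w * y * w⁻¹ := by
      calc (u⁻¹ * g) * x * (u⁻¹ * g)⁻¹ = u⁻¹ * (g * x * g⁻¹) * u := by group
        _ = u⁻¹ * ((u * w) * y * (u * w)⁻¹) * u := by rw [hye']
        _ = _ := by group
    rw [h2]
    exact mul_mem (mul_mem hw hy) (inv_mem hw)
  have h3 : g = u * (u⁻¹ * g) := by group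
  rw [h3]
  exact Subgroup.mul_mem_sup hu hn

end Cfsg.Agent.S0627
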