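import Cfsg.Statements.S0638
import Cfsg.Agent.Lib.NormalPP

set_option autoImplicit false
open Cfsg

namespace Cfsg.Agent.S0638

open Cfsg.Agent.Lib.NormalPP

lemma card_le_of_pow {Q : Type*} [Group Q] [Finite Q] [IsCyclic Q] {n : ℕ} (hn : 0 < n) (H : Subgroup Q)
    (h : ∀ z ∈ H, z ^ n = 1) : Nat.card H ≤ n := by
  classical
  haveI := Fintype.ofFinite Q
  have h1 := IsCyclic.card_pow_eq_one_le (α := Q) hn
  have h4 : (Finset.univ.filter (fun a : Q => a ∈ H)).card = Nat.card H := by
    rw [Nat.card_eq_fintype_card, Fintype.card_subtype]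
  rw [← h4]
  refine le_trans (Finset.card_le_card ?_) h1
  intro a ha
  simp only [Finset.mem_filter, Finset.mem_univ, true_and] at ha ⊢
  exact h a ha

lemma cyclic_pow_mem {Q : Type*} [Group Q] [Finite Q] [IsCyclic Q] {n : ℕ} (hn : 0 < n) (H : Subgroup Q)
    (hH : n ≤ Nat.card H) (h : ∀ z ∈ H, z ^ n = 1) : ∀ z : Q, z ^ n = 1 → z ∈ H := by
  classical
  haveI := Fintype.ofFinite Q
  have h1 := IsCyclic.card_pow_eq_one_le (α := Q) hn
  intro z hz
  by_contra hzH
  have h2 : (Finset.univ.filter (fun a : Q => a ∈ H)) ⊂ (Finset.univ.filter (fun a : Q => a ^ n = 1)) := by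
    rw [Finset.ssubset_iff_of_subset]
    · exact ⟨z, by simpa using hz, by simpa using hzH⟩
    · intro a ha
      simp only [Finset.mem_filter, Finset.mem_univ, true_and] at ha ⊢
      exact h a ha
  have h3 := Finset.card_lt_card h2
  have h4 : (Finset.univ.filter (fun a : Q => a ∈ H)).card = Nat.card H := by
    rw [Nat.card_eq_fintype_card, Fintype.card_subtype]
  omega

/-- For odd p, in a non-cyclic metacyclic p-group the elements of order dividing p generate an elementary abelian subgroup of order p². -/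
theorem result {R : Type*} [Group R] [Finite R] {p : ℕ} [Fact p.Prime] (hp : p ≠ 2) (hR : IsPGroup p R) (hm : Cfsg.IsMetacyclic R) (hnc : ¬ IsCyclic R) : Cfsg.IsElementaryAbelian p (Cfsg.omegaOne p (⊤ : Subgroup R)) ∧ Nat.card ↥(Cfsg.omegaOne p (⊤ : Subgroup R)) = p ^ 2 := by
  classical
  obtain ⟨N, hNn, hNc, hQc⟩ := hm
  haveI := hNn
  haveI := hNc
  haveI := hQc
  have hpp : p.Prime := Fact.out
  have hnc' : ¬ IsCyclic (⊤ : Subgroup R) := fun h =>
    hnc (isCyclic_of_surjective (Subgroup.topEquiv : (⊤ : Subgroup R) ≃* R) (Subgroup.topEquiv.surjective))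
  obtain ⟨A, -, hAn, hAe, hAc⟩ := main hp hR ⊤ hnc'
  let f := QuotientGroup.mk' N
  -- some element of A lies outside N
  obtain ⟨x, hxA, hxN⟩ : ∃ x ∈ A, x ∉ N := by
    by_contra hcon
    push Not at hcon
    have hle := card_le_of_pow (Q := N) hpp.pos (A.subgroupOf N) (fun z hz => by
      apply Subtype.ext
      exact hAe.2 _ hz)
    have hcc : Nat.card (A.subgroupOf N) = Nat.card A :=
      Nat.card_congr (Subgroup.subgroupOfEquivOfLe (fun a ha => hcon a ha)).toEquiv
    rw [hcc, hAc, sq] at hle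
    have := hpp.two_le
    nlinarith
  have hx1 : x ^ p = 1 := hAe.2 x hxA
  have hox : orderOf (f x) = p := by
    apply orderOf_eq_prime
    · rw [← map_pow, hx1, map_one]
    · intro h
      exact hxN ((QuotientGroup.eq_one_iff x).mp h)
  obtain ⟨u₀, hu₀⟩ := (inferInstance : IsCyclic N).exists_generator
  let u : R := u₀
  have hUz : N = Subgroup.zpowers u := by
    apply le_antisymm
    · intro y hy
      obtain ⟨k, hk⟩ := hu₀ ⟨y, hy⟩
      exact ⟨k, congrArg Subtype.val hk⟩
    · rw [Subgroup.zpowers_le]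
      exact u₀.2
  have hxuU : x * u * x⁻¹ ∈ Subgroup.zpowers u := by
    rw [← hUz]
    exact hNn.conj_mem _ u₀.2 x
  have hfacts := comm_facts hp ((IsPGroup.iff_orderOf.mp hR) u) hxuU (by rw [hx1, one_mul, mul_one])
  have hhom := hom_of_gens hp rfl hfacts.1 hfacts.2.1 hfacts.2.2
  have hzp : ∀ z : R ⧸ N, z ^ p = 1 → z ∈ Subgroup.zpowers (f x) :=
    cyclic_pow_mem hpp.pos _ (by rw [Nat.card_zpowers, hox]) (by
      rintro _ ⟨k, rfl⟩
      show (f x ^ k) ^ p = 1
      rw [← zpow_natCast, ← zpow_mul, mul_comm, zpow_mul, zpow_natCast, ← hox, pow_orderOf_eq_one, one_zpow])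
  have hAN : p ≤ Nat.card (A.subgroupOf N) := by
    let g : A →* R ⧸ N := f.comp A.subtype
    have h1 := Subgroup.card_mul_index g.ker
    rw [Subgroup.index_ker, hAc] at h1
    have hran : Nat.card g.range ≤ p := by
      have hle : g.range ≤ Subgroup.zpowers (f x) := by
        rintro _ ⟨a, rfl⟩
        apply hzp
        show (f a.1) ^ p = 1
        rw [← map_pow, hAe.2 a.1 a.2, map_one]
      have := Subgroup.card_le_of_le hle
      rwa [Nat.card_zpowers, hox] at this
    have hker : Nat.card g.ker ≤ Nat.card (A.subgroupOf N) := by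
      refine Nat.card_le_card_of_injective
        (fun k : g.ker => (⟨⟨k.1.1, (QuotientGroup.eq_one_iff _).mp (MonoidHom.mem_ker.mp k.2)⟩, k.1.2⟩ : A.subgroupOf N)) ?_
      intro a b hab
      have h3 := congrArg (fun z : A.subgroupOf N => ((z : N) : R)) hab
      exact Subtype.ext (Subtype.ext h3)
    have h4 : p * p ≤ Nat.card (A.subgroupOf N) * p := by
      calc p * p = p ^ 2 := (sq p).symm
        _ = Nat.card g.ker * Nat.card g.range := h1.symm
        _ ≤ Nat.card (A.subgroupOf N) * p := Nat.mul_le_mul hker hran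
    exact Nat.le_of_mul_le_mul_right h4 hpp.pos
  have key : ∀ y : R, y ^ p = 1 → y ∈ A := by
    intro y hy
    have h1 : f y ∈ Subgroup.zpowers (f x) := hzp _ (by rw [← map_pow, hy, map_one])
    obtain ⟨j, hj⟩ := h1
    have hj' : (f x) ^ j = f y := hj
    have hvN : y * (x ^ j)⁻¹ ∈ N := by
      apply (QuotientGroup.eq_one_iff _).mp
      show f (y * (x ^ j)⁻¹) = 1
      rw [map_mul, map_inv, map_zpow, hj']
      simp
    have hvK : y * (x ^ j)⁻¹ ∈ Subgroup.closure ({u, x} : Set R) := by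
      have : Subgroup.zpowers u ≤ Subgroup.closure ({u, x} : Set R) := by
        rw [Subgroup.zpowers_le]
        exact Subgroup.subset_closure (by simp)
      exact this (hUz ▸ hvN)
    have hxK : x ∈ Subgroup.closure ({u, x} : Set R) := Subgroup.subset_closure (by simp)
    have hxjK : x ^ j ∈ Subgroup.closure ({u, x} : Set R) := Subgroup.zpow_mem _ hxK j
    have h2 := hhom ⟨_, hvK⟩ ⟨_, hxjK⟩
    have h3 : (y * (x ^ j)⁻¹ * x ^ j) ^ p = (y * (x ^ j)⁻¹) ^ p * (x ^ j) ^ p := congrArg Subtype.val h2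
    have h4 : (x ^ j) ^ p = 1 := by
      rw [← zpow_natCast, ← zpow_mul, mul_comm, zpow_mul, zpow_natCast, hx1, one_zpow]
    rw [h4, mul_one, inv_mul_cancel_right, hy] at h3
    have h5 := cyclic_pow_mem (Q := N) hpp.pos (A.subgroupOf N) hAN (fun z hz => by
      apply Subtype.ext
      exact hAe.2 _ hz) ⟨_, hvN⟩ (by
      apply Subtype.ext
      exact h3.symm)
    have h6 : y * (x ^ j)⁻¹ ∈ A := h5
    have h7 := A.mul_mem h6 (A.zpow_mem hxA j)
    simpa using h7
  have hΩ : Cfsg.omegaOne p (⊤ : Subgroup R) = A := by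
    apply le_antisymm
    · unfold Cfsg.omegaOne
      rw [Subgroup.closure_le]
      rintro y ⟨-, hy⟩
      exact key y hy
    · intro a ha
      exact Subgroup.subset_closure ⟨trivial, hAe.2 a ha⟩
  rw [hΩ]
  exact ⟨hAe, hAc⟩

end Cfsg.Agent.S0638
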