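import Cfsg.Statements.S0641
import Cfsg.Agent.Lib.H6Regular

set_option autoImplicit false
open Cfsg

namespace Cfsg.Agent.S0641

/-- Regularity of a p-group passes to quotient groups. -/
theorem result {G : Type*} [Group G] {p : ℕ} [Fact p.Prime] (hG : Cfsg.IsRegularPGroup p G) (N : Subgroup G) [N.Normal] : Cfsg.IsRegularPGroup p (G ⧸ N) := by
  refine ⟨hG.1.to_quotient N, ?_⟩
  intro a b n
  obtain ⟨a', rfl⟩ := QuotientGroup.mk'_surjective N a
  obtain ⟨b', rfl⟩ := QuotientGroup.mk'_surjective N b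
  obtain ⟨c, hc, he⟩ := hG.2 a' b' n
  refine ⟨QuotientGroup.mk' N c, ?_, ?_⟩
  · have h1 : (Subgroup.closure ({a', b'} : Set G)).map (QuotientGroup.mk' N) =
        Subgroup.closure ({QuotientGroup.mk' N a', QuotientGroup.mk' N b'} : Set (G ⧸ N)) := by
      rw [MonoidHom.map_closure]
      congr 1
      ext y
      simp [eq_comm]
    rw [← h1, ← Subgroup.map_commutator, ← Cfsg.Agent.Lib.H6Regular.powerClosure_map]
    exact ⟨c, hc, rfl⟩
  · have := congrArg (QuotientGroup.mk' N) he
    simpa using this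

end Cfsg.Agent.S0641
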