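import Cfsg.Statements.S0642
import Cfsg.Agent.Lib.H6Regular

set_option autoImplicit false
open Cfsg

namespace Cfsg.Agent.S0642

universe u

open scoped commutatorElement

lemma quot_reg {G : Type*} [Group G] {p : ℕ} (hG : Cfsg.IsRegularPGroup p G) (N : Subgroup G) [N.Normal] : Cfsg.IsRegularPGroup p (G ⧸ N) := by
  refine ⟨hG.1.to_quotient N, ?_⟩
  intro a b n
  obtain ⟨a', rfl⟩ := QuotientGroup.mk'_surjective N a
  obtain ⟨b', rfl⟩ := QuotientGroup.mk'_surjective N b
  obtain ⟨c, hc, he⟩ := hG.2 a' b' n
  refine ⟨QuotientGroup.mk' N c, ?_, ?_⟩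
  · have h1 : (Subgroup.closure ({a', b'} : Set G)).map (QuotientGroup.mk' N) =
        Subgroup.closure ({QuotientGroup.mk' N a', QuotientGroup.mk' N b'} : Set (G ⧸ N)) := by
      rw [MonoidHom.map_closure]
      congr 1
      ext y
      simp [eq_comm]
    rw [← h1, ← Subgroup.map_commutator, ← Cfsg.Agent.Lib.H6Regular.powerClosure_map]
    exact ⟨c, hc, rfl⟩
  · have := congrArg (QuotientGroup.mk' N) he
    simpa using this

theorem key : ∀ (N : ℕ) (G : Type u) [Group G] [Finite G], Nat.card G = N → Cfsg.IsRegularPGroup 2 G →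
    ∀ a b : G, a * b = b * a := by
  intro N
  induction N using Nat.strong_induction_on with
  | _ N ih =>
    intro G _ _ hN hreg a b
    haveI : Fact (Nat.Prime 2) := ⟨Nat.prime_two⟩
    by_cases hnt : Nontrivial G
    · have hp := hreg.1
      haveI hcn := hp.center_nontrivial
      have hpc : IsPGroup 2 (Subgroup.center G) := hp.to_subgroup _
      obtain ⟨k, hk, hcard⟩ := hpc.nontrivial_iff_card.mp hcn
      have hdvd : 2 ∣ Nat.card (Subgroup.center G) := by
        rw [hcard]
        exact dvd_pow_self 2 (by omega)
      obtain ⟨x, hx⟩ := exists_prime_orderOf_dvd_card' 2 hdvd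
      have hz : orderOf (x : G) = 2 := by
        rw [Subgroup.orderOf_coe]
        exact hx
      have hzc : ∀ g : G, g * (x : G) = x * g := fun g => (Subgroup.mem_center_iff.mp x.2 g)
      let Z := Subgroup.zpowers (x : G)
      haveI hZn : Z.Normal := by
        constructor
        rintro _ ⟨k, rfl⟩ g
        have : Commute g (x : G) := hzc g
        have h2 : g * ((x : G) ^ k) * g⁻¹ = (x : G) ^ k := by
          rw [(this.zpow_right k).eq]
          group
        show g * ((x : G) ^ k) * g⁻¹ ∈ Z
        rw [h2]
        exact ⟨k, rfl⟩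
      have hcZ : Nat.card Z = 2 := by
        show Nat.card (Subgroup.zpowers (x : G)) = 2
        rw [Nat.card_zpowers, hz]
      have hcq : Nat.card (G ⧸ Z) * 2 = Nat.card G := by
        rw [← hcZ]
        exact (Subgroup.card_eq_card_quotient_mul_card_subgroup Z).symm
      have hlt : Nat.card (G ⧸ Z) < N := by
        have hpos : 0 < Nat.card G := Nat.card_pos
        omega
      have habq := ih _ hlt (G ⧸ Z) rfl (quot_reg hreg Z)
      have hcomm : ∀ u v : G, ⁅u, v⁆ ∈ Z := by
        intro u v
        rw [← QuotientGroup.eq_one_iff]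
        have h1 := habq (u : G ⧸ Z) (v : G ⧸ Z)
        rw [commutatorElement_def]
        simp only [QuotientGroup.mk_mul, QuotientGroup.mk_inv]
        rw [h1]
        group
      have hsq : ∀ y ∈ Z, y ^ 2 = 1 := by
        rintro _ ⟨k, rfl⟩
        show ((x : G) ^ k) ^ 2 = 1
        rw [← zpow_natCast, ← zpow_mul, mul_comm, zpow_mul, zpow_natCast, ← hz, pow_orderOf_eq_one, one_zpow]
      obtain ⟨c, hc, he⟩ := hreg.2 a b 1
      have hc1 : c = 1 := by
        have hle : Cfsg.powerClosure 2 1 ⁅Subgroup.closure ({a, b} : Set G), Subgroup.closure ({a, b} : Set G)⁆ ≤ ⊥ := by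
          unfold Cfsg.powerClosure
          rw [Subgroup.closure_le]
          rintro y ⟨w, hw, rfl⟩
          have hwZ : w ∈ Z := by
            have : ⁅Subgroup.closure ({a, b} : Set G), Subgroup.closure ({a, b} : Set G)⁆ ≤ Z := by
              rw [Subgroup.commutator_le]
              intro u _ v _
              exact hcomm u v
            exact this hw
          have := hsq w hwZ
          simpa using this
        exact Subgroup.mem_bot.mp (hle hc)
      rw [hc1, mul_one, pow_one, sq, sq, sq] at he
      have h3 : a * (b * a) * b = a * (a * b) * b := by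
        calc a * (b * a) * b = a * b * (a * b) := by group
          _ = a * a * (b * b) := he
          _ = _ := by group
      exact (mul_left_cancel (mul_right_cancel h3)).symm
    · rw [not_nontrivial_iff_subsingleton] at hnt
      exact Subsingleton.elim _ _

/-- Among finite 2-groups the regular ones are exactly the abelian ones. -/
theorem result {G : Type*} [Group G] [Finite G] (hG : IsPGroup 2 G) : Cfsg.IsRegularPGroup 2 G ↔ ∀ a b : G, a * b = b * a := by
  constructor
  · intro h a b
    exact key _ G rfl h a b
  · intro h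
    refine ⟨hG, fun a b n => ⟨1, one_mem _, ?_⟩⟩
    rw [mul_one]
    exact (show Commute a b from h a b).mul_pow _

end Cfsg.Agent.S0642
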