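import Cfsg.Statements.S0645
import Cfsg.Agent.Lib.NormalPP
import Cfsg.Agent.Lib.ThompsonBasic

set_option autoImplicit false
open Cfsg

namespace Cfsg.Agent.S0645

open Cfsg.Agent.Lib.NormalPP

/-- Classification of p-groups with a cyclic maximal subgroup, odd p: a non-abelian one of order p^n has generators a of order p^(n-1) and b of order p, b outside the cyclic subgroup generated by a, with b a b⁻¹ = a^(1 + p^(n-2)). -/
theorem result {G : Type*} [Group G] [Finite G] {p : ℕ} [Fact p.Prime] (hp : p ≠ 2) (n : ℕ) (hn : 3 ≤ n) (hG : Nat.card G = p ^ n) (C : Subgroup G) (hC : IsCyclic C) (hCi : C.index = p) (hna : ∃ x y : G, x * y ≠ y * x) : ∃ a b : G, orderOf a = p ^ (n - 1) ∧ orderOf b = p ∧ b ∉ Subgroup.zpowers a ∧ b * a * b⁻¹ = a ^ (1 + p ^ (n - 2)) := by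
  classical
  have hpp : p.Prime := Fact.out
  have hcG : IsPGroup p G := IsPGroup.of_card hG
  have hnC : C.Normal := by
    apply Subgroup.normal_of_index_eq_minFac_card
    rw [hCi, hG, Nat.Prime.pow_minFac hpp (by omega)]
  obtain ⟨u₀, hu₀⟩ := hC.exists_generator
  let u : G := u₀
  have hCz : C = Subgroup.zpowers u := by
    apply le_antisymm
    · intro y hy
      obtain ⟨k, hk⟩ := hu₀ ⟨y, hy⟩
      exact ⟨k, congrArg Subtype.val hk⟩
    · rw [Subgroup.zpowers_le]
      exact u₀.2
  have huC : u ∈ C := u₀.2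
  have hcardC : Nat.card C = p ^ (n - 1) := by
    have h1 := Subgroup.card_mul_index C
    rw [hCi, hG] at h1
    have h2 : p ^ n = p ^ (n - 1) * p := by
      rw [← pow_succ]
      congr 1
      omega
    rw [h2] at h1
    exact Nat.eq_of_mul_eq_mul_right hpp.pos h1
  have hou : orderOf u = p ^ (n - 1) := by
    rw [← Nat.card_zpowers, ← hCz, hcardC]
  obtain ⟨x, hx⟩ : ∃ x, x ∉ C := by
    by_contra hcon
    push Not at hcon
    have : C = ⊤ := eq_top_iff.mpr fun x _ => hcon x
    rw [this, Subgroup.index_top] at hCi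
    exact hpp.one_lt.ne hCi
  have hxp : x ^ p ∈ C := by
    rw [← QuotientGroup.eq_one_iff]
    have : Nat.card (G ⧸ C) = p := hCi
    have h1 := pow_card_eq_one' (x := (x : G ⧸ C))
    rw [this] at h1
    exact h1
  have hcC : ∀ z ∈ C, ∀ t ∈ C, z * t = t * z := by
    rw [hCz]
    rintro _ ⟨m, rfl⟩ _ ⟨k, rfl⟩
    show u ^ m * u ^ k = u ^ k * u ^ m
    rw [← zpow_add, ← zpow_add, add_comm]
  have hconjC : ∀ g : G, g * u * g⁻¹ ∈ Subgroup.zpowers u := by
    intro g
    rw [← hCz]
    exact hnC.conj_mem _ huC g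
  have hfacts := comm_facts hp ⟨n - 1, hou⟩ (hconjC x) (hcC _ hxp _ huC)
  have hhom := hom_of_gens hp rfl hfacts.1 hfacts.2.1 hfacts.2.2
  have htop1 : ∀ z : G, z ∉ C → Subgroup.closure ({u, z} : Set G) = ⊤ := by
    intro z hz
    have h1 := sup_eq_top_of_index hpp hCi hz
    rw [hCz, Subgroup.zpowers_eq_closure, Subgroup.zpowers_eq_closure, ← Subgroup.closure_union] at h1
    exact h1
  have hcl := htop1 x hx
  have hHom : ∀ a b : G, (a * b) ^ p = a ^ p * b ^ p := by
    intro a b
    have h1 := hhom ⟨a, by rw [hcl]; trivial⟩ ⟨b, by rw [hcl]; trivial⟩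
    exact congrArg Subtype.val h1
  have hnc : ¬ IsCyclic G := by
    intro hcyc
    obtain ⟨a, b, hab⟩ := hna
    letI := hcyc.commGroup
    exact hab (mul_comm a b)
  obtain ⟨K, hK, hKc⟩ := card_ker_pow_gt hcG hnc hHom
  haveI hcycC : IsCyclic C := hC
  obtain ⟨y, hyK, hyC⟩ : ∃ y ∈ K, y ∉ C := by
    by_contra hcon
    push Not at hcon
    have hle := card_le_of_pow (Q := C) hpp.pos (K.subgroupOf C) (fun z hz => by
      apply Subtype.ext
      exact (hK _).mp hz)
    have hcc : Nat.card (K.subgroupOf C) = Nat.card K :=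
      Nat.card_congr (Subgroup.subgroupOfEquivOfLe (fun a ha => hcon a ha)).toEquiv
    omega
  have hyp : y ^ p = 1 := (hK y).mp hyK
  obtain ⟨hc1, hc2, hc3⟩ := comm_facts hp ⟨n - 1, hou⟩ (hconjC y) (by rw [hyp, one_mul, mul_one])
  set c := y * u * y⁻¹ * u⁻¹ with hc
  have hcmem : c ∈ C := C.mul_mem (hnC.conj_mem _ huC y) (C.inv_mem huC)
  have hcne : c ≠ 1 := by
    intro h1
    have h2 : y * u = u * y := by
      have h3 : y * u * y⁻¹ * u⁻¹ = 1 := h1
      calc y * u = (y * u * y⁻¹ * u⁻¹) * (u * y) := by group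
        _ = u * y := by rw [h3, one_mul]
    have h4 : ∀ a ∈ C, a * y = y * a := by
      rw [hCz]
      rintro _ ⟨m, rfl⟩
      exact (Commute.zpow_left (show Commute u y from h2.symm) m)
    have hcomm := Cfsg.Agent.Lib.ThompsonBasic.sup_comm_of_comm (B := Subgroup.zpowers y) hcC (by
      rintro _ ⟨m, rfl⟩ _ ⟨k, rfl⟩
      show y ^ m * y ^ k = y ^ k * y ^ m
      rw [← zpow_add, ← zpow_add, add_comm]) (by
      rintro a ha _ ⟨k, rfl⟩
      exact (Commute.zpow_right (h4 a ha) k))
    rw [sup_eq_top_of_index hpp hCi hyC] at hcomm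
    obtain ⟨a, b, hab⟩ := hna
    exact hab (hcomm a trivial b trivial)
  have hoc : orderOf c = p := orderOf_eq_prime hc1 hcne
  -- the element `w`
  set w := u ^ (p ^ (n - 2)) with hw
  have hwp : w ^ p = 1 := by
    rw [hw, ← pow_mul, ← pow_succ, show n - 2 + 1 = n - 1 by omega, ← hou]
    exact pow_orderOf_eq_one u
  have hwne : w ≠ 1 := by
    intro h1
    have h2 := orderOf_dvd_of_pow_eq_one h1
    rw [hou] at h2
    have h3 := (Nat.pow_dvd_pow_iff_le_right hpp.one_lt).mp h2
    omega
  have hwC : w ∈ C := C.pow_mem huC _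
  have hwc : w ∈ Subgroup.zpowers c := by
    have hle : Subgroup.zpowers c ≤ C := by
      rw [Subgroup.zpowers_le]
      exact hcmem
    have h1 := cyclic_pow_mem (Q := C) hpp.pos ((Subgroup.zpowers c).subgroupOf C) (by
      have hcc : Nat.card ((Subgroup.zpowers c).subgroupOf C) = Nat.card (Subgroup.zpowers c) :=
        Nat.card_congr (Subgroup.subgroupOfEquivOfLe hle).toEquiv
      rw [hcc, Nat.card_zpowers, hoc]) (by
      intro z hz
      apply Subtype.ext
      obtain ⟨m, hm⟩ := hz
      have hm' : c ^ m = (z : G) := hm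
      show ((z : G)) ^ p = 1
      rw [← hm', ← zpow_natCast, ← zpow_mul, mul_comm, zpow_mul, zpow_natCast, hc1, one_zpow]) ⟨w, hwC⟩ (by
      apply Subtype.ext
      exact hwp)
    exact h1
  have hwc' : w ∈ Submonoid.powers c := by
    rw [mem_powers_iff_mem_zpowers]
    exact hwc
  obtain ⟨j, hj⟩ := hwc'
  have hj' : c ^ j = w := hj
  have hconj : ∀ i : ℕ, y ^ i * u * (y ^ i)⁻¹ = c ^ i * u := by
    intro i
    induction i with
    | zero => simp
    | succ i ih =>
      have h5 : y * c ^ i * y⁻¹ = c ^ i := by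
        have : Commute c y := hc3
        rw [(this.pow_left i).symm.eq]
        group
      calc y ^ (i + 1) * u * (y ^ (i + 1))⁻¹ = y * (y ^ i * u * (y ^ i)⁻¹) * y⁻¹ := by
            rw [pow_succ']
            group
        _ = y * (c ^ i * u) * y⁻¹ := by rw [ih]
        _ = (y * c ^ i * y⁻¹) * (y * u * y⁻¹) := by group
        _ = c ^ i * (c * u) := by
            rw [h5]
            congr 1
            rw [hc]
            group
        _ = c ^ (i + 1) * u := by
            rw [pow_succ]
            group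
  have hbconj : y ^ j * u * (y ^ j)⁻¹ = w * u := by rw [hconj, hj']
  refine ⟨u, y ^ j, hou, ?_, ?_, ?_⟩
  · apply orderOf_eq_prime
    · rw [← pow_mul, mul_comm, pow_mul, hyp, one_pow]
    · intro h1
      rw [h1] at hbconj
      simp at hbconj
      exact hwne hbconj
  · intro hmem
    have h1 : y ^ j ∈ C := by rw [hCz]; exact hmem
    have h2 := hcC _ h1 _ huC
    have h3 : y ^ j * u * (y ^ j)⁻¹ = u := by rw [h2]; group
    rw [h3] at hbconj
    apply hwne
    have : 1 * u = w * u := by rw [one_mul]; exact hbconj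
    exact (mul_right_cancel this).symm
  · rw [hbconj, pow_add, pow_one, hw, ← pow_succ']
    rw [show p ^ (n - 2) + 1 = 1 + p ^ (n - 2) by ring, pow_add, pow_one]
    exact (Commute.pow_left (Commute.refl u) _).eq

end Cfsg.Agent.S0645
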