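import Cfsg.Statements.S0646
import Cfsg.Agent.Lib.NormalPP
import Cfsg.Agent.Lib.ThompsonBasic

set_option autoImplicit false
open Cfsg

namespace Cfsg.Agent.S0646

open Cfsg.Agent.Lib.NormalPP

/-- Solutions of `k² ≡ 1`. -/
lemma classify (Q k : ℤ) (hQ : ∃ e : ℕ, Q = 2 ^ e) (h : 4 * Q ∣ 1 - k * k) :
    (∃ f, k = 1 + 4 * Q * f) ∨ (∃ f, k = 1 + 2 * Q + 4 * Q * f) ∨ (∃ f, k = -1 + 4 * Q * f) ∨
      (∃ f, k = -1 + 2 * Q + 4 * Q * f) := by
  obtain ⟨e, hQe⟩ := hQ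
  have hodd : Odd k := by
    by_contra hk
    rw [Int.not_odd_iff_even] at hk
    obtain ⟨l, rfl⟩ := hk
    obtain ⟨c, hc⟩ := h
    have h3 : (1 : ℤ) = 4 * (l * l + Q * c) := by linarith
    omega
  obtain ⟨j, rfl⟩ := hodd
  have h1 : 4 * Q ∣ 4 * (-(j * (j + 1))) := by
    have : 1 - (2 * j + 1) * (2 * j + 1) = 4 * (-(j * (j + 1))) := by ring
    rwa [this] at h
  have h2 : Q ∣ j * (j + 1) := by
    have := Int.dvd_of_mul_dvd_mul_left (by norm_num) h1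
    exact (dvd_neg).mp this
  have hcop : ∀ y : ℤ, Odd y → IsCoprime Q y := by
    rintro y ⟨i, rfl⟩
    rw [hQe]
    apply IsCoprime.pow_left
    exact ⟨-i, 1, by ring⟩
  rcases Int.even_or_odd j with hj | hj
  · have h3 : Odd (j + 1) := hj.add_one
    have h4 : Q ∣ j := (hcop _ h3).dvd_of_dvd_mul_right h2
    obtain ⟨e', rfl⟩ := h4
    rcases Int.even_or_odd e' with ⟨f, rfl⟩ | ⟨f, rfl⟩
    · exact Or.inl ⟨f, by ring⟩
    · exact Or.inr (Or.inl ⟨f, by ring⟩)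
  · have h4 : Q ∣ j + 1 := (hcop _ hj).dvd_of_dvd_mul_left h2
    obtain ⟨e', he'⟩ := h4
    have hj' : j = Q * e' - 1 := by linarith
    subst hj'
    rcases Int.even_or_odd e' with ⟨f, rfl⟩ | ⟨f, rfl⟩
    · exact Or.inr (Or.inr (Or.inl ⟨f, by ring⟩))
    · exact Or.inr (Or.inr (Or.inr ⟨f, by ring⟩))

/-- Classification of non-abelian 2-groups with a cyclic maximal subgroup: dihedral, generalized quaternion, and for order at least 16 the modular group and the semidihedral group, each given by generators a (of index 2) and b with the stated relations. -/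
theorem result {G : Type*} [Group G] [Finite G] (n : ℕ) (hn : 3 ≤ n) (hG : Nat.card G = 2 ^ n) (C : Subgroup G) (hC : IsCyclic C) (hCi : C.index = 2) (hna : ∃ x y : G, x * y ≠ y * x) : ∃ a b : G, orderOf a = 2 ^ (n - 1) ∧ b ∉ Subgroup.zpowers a ∧ ((b ^ 2 = 1 ∧ b * a * b⁻¹ = a⁻¹) ∨ (b ^ 2 = a ^ (2 ^ (n - 2)) ∧ b * a * b⁻¹ = a⁻¹) ∨ (4 ≤ n ∧ b ^ 2 = 1 ∧ b * a * b⁻¹ = a ^ (1 + 2 ^ (n - 2))) ∨ (4 ≤ n ∧ b ^ 2 = 1 ∧ b * a * b⁻¹ = a ^ (2 ^ (n - 2) - 1))) := by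
  classical
  have hpp : Nat.Prime 2 := Nat.prime_two
  haveI : Fact (Nat.Prime 2) := ⟨hpp⟩
  have hnC : C.Normal := by
    apply Subgroup.normal_of_index_eq_minFac_card
    rw [hCi, hG, Nat.Prime.pow_minFac hpp (by omega)]
  obtain ⟨u₀, hu₀⟩ := hC.exists_generator
  let u : G := u₀
  have hCz : C = Subgroup.zpowers u := by
    apply le_antisymm
    · intro y hy
      obtain ⟨k, hk⟩ := hu₀ ⟨y, hy⟩
      exact ⟨k, congrArg Subtype.val hk⟩
    · rw [Subgroup.zpowers_le]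
      exact u₀.2
  have huC : u ∈ C := u₀.2
  have hcardC : Nat.card C = 2 ^ (n - 1) := by
    have h1 := Subgroup.card_mul_index C
    rw [hCi, hG] at h1
    have h2 : 2 ^ n = 2 ^ (n - 1) * 2 := by
      rw [← pow_succ]
      congr 1
      omega
    rw [h2] at h1
    exact Nat.eq_of_mul_eq_mul_right hpp.pos h1
  have hou : orderOf u = 2 ^ (n - 1) := by
    rw [← Nat.card_zpowers, ← hCz, hcardC]
  obtain ⟨x, hx⟩ : ∃ x, x ∉ C := by
    by_contra hcon
    push Not at hcon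
    have : C = ⊤ := eq_top_iff.mpr fun x _ => hcon x
    rw [this, Subgroup.index_top] at hCi
    omega
  have hxp : x ^ 2 ∈ C := by
    rw [← QuotientGroup.eq_one_iff]
    have : Nat.card (G ⧸ C) = 2 := hCi
    have h1 := pow_card_eq_one' (x := (x : G ⧸ C))
    rw [this] at h1
    exact h1
  have hcC : ∀ z ∈ C, ∀ t ∈ C, z * t = t * z := by
    rw [hCz]
    rintro _ ⟨m, rfl⟩ _ ⟨k, rfl⟩
    show u ^ m * u ^ k = u ^ k * u ^ m
    rw [← zpow_add, ← zpow_add, add_comm]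
  -- integer exponents
  obtain ⟨e3, he3⟩ : ∃ e3, n = e3 + 3 := ⟨n - 3, by omega⟩
  subst he3
  set Q : ℤ := 2 ^ e3 with hQ
  have hP : ((2 : ℤ) ^ (e3 + 3 - 2)) = 2 * Q := by
    rw [show e3 + 3 - 2 = e3 + 1 by omega, pow_succ, hQ]
    ring
  have hN : ((orderOf u : ℕ) : ℤ) = 4 * Q := by
    rw [hou, show e3 + 3 - 1 = e3 + 2 by omega]
    push_cast
    rw [hQ]
    ring
  have hzeq : ∀ a b : ℤ, u ^ a = u ^ b ↔ 4 * Q ∣ b - a := by
    intro a b
    rw [zpow_eq_zpow_iff_modEq, Int.modEq_iff_dvd, hN]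
  have hQpos : Q ≠ 0 := by
    rw [hQ]
    positivity
  have hxu : x * u * x⁻¹ ∈ Subgroup.zpowers u := by
    rw [← hCz]
    exact hnC.conj_mem _ huC x
  obtain ⟨k, hk⟩ := hxu
  have hk' : u ^ k = x * u * x⁻¹ := hk
  have hxz : x ^ 2 ∈ Subgroup.zpowers u := by
    rw [← hCz]
    exact hxp
  obtain ⟨t, ht⟩ := hxz
  have ht' : u ^ t = x ^ 2 := ht
  have hconjz : ∀ r : ℤ, x * u ^ r * x⁻¹ = u ^ (k * r) := by
    intro r
    rw [zpow_mul, hk', ← conj_zpow]
  -- F3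
  have hF3 : 4 * Q ∣ 1 - k * k := by
    rw [← hzeq]
    have h1 : x ^ 2 * u = u * x ^ 2 := hcC _ hxp _ huC
    have h2 : x * (x * u * x⁻¹) * x⁻¹ = u := by
      calc x * (x * u * x⁻¹) * x⁻¹ = (x ^ 2 * u) * (x ^ 2)⁻¹ := by
            rw [sq]
            group
        _ = u := by rw [h1]; group
    rw [← hk', hconjz] at h2
    rw [h2]
    simp
  -- F4
  have hF4 : 4 * Q ∣ t - k * t := by
    rw [← hzeq, ← hconjz, ht']
    rw [sq]
    group
  -- F5
  have hF5 : ∀ r : ℤ, (x * u ^ r) ^ 2 = u ^ (t + r * (k + 1)) := by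
    intro r
    have h1 : (x * u ^ r) ^ 2 = (x * u ^ r * x⁻¹) * x ^ 2 * u ^ r := by
      rw [sq, sq]
      group
    rw [h1, hconjz, ← ht', ← zpow_add, ← zpow_add]
    congr 1
    ring
  -- conjugation by `x * u ^ r`
  have hbconj : ∀ r : ℤ, (x * u ^ r) * u * (x * u ^ r)⁻¹ = u ^ k := by
    intro r
    have h1 : u ^ r * u * (u ^ r)⁻¹ = u := by
      have : Commute (u ^ r) u := (Commute.refl u).zpow_left r
      rw [this.eq]
      group
    calc (x * u ^ r) * u * (x * u ^ r)⁻¹ = x * (u ^ r * u * (u ^ r)⁻¹) * x⁻¹ := by group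
      _ = u ^ k := by rw [h1, hk']
  have hbnot : ∀ r : ℤ, x * u ^ r ∉ Subgroup.zpowers u := by
    intro r hmem
    apply hx
    rw [hCz]
    have h1 := Subgroup.mul_mem _ hmem (Subgroup.inv_mem _ (Subgroup.zpow_mem _ (Subgroup.mem_zpowers u) r))
    simpa using h1
  have hord' : orderOf u = 2 ^ (e3 + 3 - 1) := hou
  have hF6 : ¬ (4 * Q ∣ k - 1) := by
    intro hdvd
    have h1 : u ^ k = u ^ (1 : ℤ) := by
      rw [hzeq]
      have := (dvd_neg).mpr hdvd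
      simpa using this
    have h2 : x * u = u * x := by
      have h3 : x * u * x⁻¹ = u := by
        rw [← hk', h1, zpow_one]
      calc x * u = (x * u * x⁻¹) * x := by group
        _ = u * x := by rw [h3]
    have h4 : ∀ a ∈ C, a * x = x * a := by
      rw [hCz]
      rintro _ ⟨m, rfl⟩
      exact (Commute.zpow_left (show Commute u x from h2.symm) m)
    have hcomm := Cfsg.Agent.Lib.ThompsonBasic.sup_comm_of_comm (B := Subgroup.zpowers x) hcC (by
      rintro _ ⟨m, rfl⟩ _ ⟨l, rfl⟩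
      show x ^ m * x ^ l = x ^ l * x ^ m
      rw [← zpow_add, ← zpow_add, add_comm]) (by
      rintro a ha _ ⟨l, rfl⟩
      exact (Commute.zpow_right (h4 a ha) l))
    rw [sup_eq_top_of_index hpp hCi hx] at hcomm
    obtain ⟨a, b, hab⟩ := hna
    exact hab (hcomm a trivial b trivial)
  have hcast : (((2 : ℕ) ^ (e3 + 3 - 2) : ℕ) : ℤ) = 2 * Q := by
    rw [Nat.cast_pow, Nat.cast_ofNat]
    exact hP
  -- the three cases
  have hone : ∀ z : ℤ, 4 * Q ∣ z → u ^ z = 1 := by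
    intro z hz
    have : u ^ z = u ^ (0 : ℤ) := by
      rw [hzeq]
      simpa using hz
    rw [this, zpow_zero]
  have hcaseA : ∀ g, k = -1 + 4 * Q * g → ∃ a b : G, orderOf a = 2 ^ (e3 + 3 - 1) ∧ b ∉ Subgroup.zpowers a ∧ ((b ^ 2 = 1 ∧ b * a * b⁻¹ = a⁻¹) ∨ (b ^ 2 = a ^ (2 ^ (e3 + 3 - 2)) ∧ b * a * b⁻¹ = a⁻¹) ∨ (4 ≤ e3 + 3 ∧ b ^ 2 = 1 ∧ b * a * b⁻¹ = a ^ (1 + 2 ^ (e3 + 3 - 2))) ∨ (4 ≤ e3 + 3 ∧ b ^ 2 = 1 ∧ b * a * b⁻¹ = a ^ (2 ^ (e3 + 3 - 2) - 1))) := by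
    intro g hg
    have hinv : u ^ k = u⁻¹ := by
      have : u ^ k = u ^ (-1 : ℤ) := by
        rw [hzeq]
        exact ⟨-g, by rw [hg]; ring⟩
      rw [this, zpow_neg_one]
    have h1 : (x * u ^ (0 : ℤ)) ^ 2 = u ^ t := by
      rw [hF5]
      simp
    have h2 : (x * u ^ (0 : ℤ)) * u * (x * u ^ (0 : ℤ))⁻¹ = u⁻¹ := by
      rw [hbconj, hinv]
    have h3 : 2 * (2 * Q) ∣ 2 * t := by
      obtain ⟨c, hc⟩ := hF4
      exact ⟨c + g * t, by rw [hg] at hc; linarith⟩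
    have h4 : 2 * Q ∣ t := Int.dvd_of_mul_dvd_mul_left (by norm_num) h3
    obtain ⟨h, rfl⟩ := h4
    refine ⟨u, x * u ^ (0 : ℤ), hord', hbnot 0, ?_⟩
    rcases Int.even_or_odd h with ⟨h', rfl⟩ | ⟨h', rfl⟩
    · left
      refine ⟨?_, h2⟩
      rw [h1]
      exact hone _ ⟨h', by ring⟩
    · right
      left
      refine ⟨?_, h2⟩
      rw [h1, ← zpow_natCast u, hzeq, hcast]
      refine ⟨-h', ?_⟩
      ring
  have hcoprime : ∀ y : ℤ, Odd y → IsCoprime y (2 * Q) := by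
    rintro y ⟨i, rfl⟩
    have h2 : 2 * Q = 2 ^ (e3 + 1) := by
      rw [hQ, pow_succ]
      ring
    rw [h2]
    apply IsCoprime.pow_right
    exact ⟨1, -i, by ring⟩
  obtain hc1 | hc2 | hc3 | hc4 := classify Q k ⟨e3, hQ⟩ hF3
  · obtain ⟨f, hf⟩ := hc1
    exact absurd ⟨f, by rw [hf]; ring⟩ hF6
  · obtain ⟨f, hf⟩ := hc2
    rcases Nat.eq_zero_or_pos e3 with he | he
    · apply hcaseA (f + 1)
      have hQ1 : Q = 1 := by rw [hQ, he, pow_zero]
      rw [hf, hQ1]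
      ring
    · obtain ⟨e4, rfl⟩ : ∃ e4, e3 = e4 + 1 := ⟨e3 - 1, by omega⟩
      have hQ2 : Q = 2 * 2 ^ e4 := by
        rw [hQ, pow_succ]
        ring
      -- `t` is even
      have h3 : 2 * Q * 2 ∣ 2 * Q * t := by
        obtain ⟨c, hc⟩ := hF4
        refine ⟨-c - f * t, ?_⟩
        rw [hf] at hc
        linarith
      have h4 : (2 : ℤ) ∣ t := Int.dvd_of_mul_dvd_mul_left (by positivity) h3
      obtain ⟨s, rfl⟩ := h4
      obtain ⟨a', b', hab⟩ := hcoprime (1 + Q) (by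
        rw [hQ2]
        exact ⟨2 ^ e4, by ring⟩)
      refine ⟨u, x * u ^ (-s * a'), hord', hbnot _, ?_⟩
      right; right; left
      refine ⟨by omega, ?_, ?_⟩
      · rw [hF5]
        apply hone
        refine ⟨s * b' + f * (-s * a'), ?_⟩
        rw [hf]
        have : 1 = a' * (1 + Q) + b' * (2 * Q) := hab.symm
        linear_combination (2 * s) * this
      · rw [hbconj, ← zpow_natCast u, hzeq, Nat.cast_add, Nat.cast_one, hcast]
        refine ⟨-f, ?_⟩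
        rw [hf]
        ring
  · obtain ⟨f, hf⟩ := hc3
    exact hcaseA f hf
  · obtain ⟨f, hf⟩ := hc4
    rcases Nat.eq_zero_or_pos e3 with he | he
    · exfalso
      apply hF6
      have hQ1 : Q = 1 := by rw [hQ, he, pow_zero]
      exact ⟨f, by rw [hf, hQ1]; ring⟩
    · obtain ⟨e4, rfl⟩ : ∃ e4, e3 = e4 + 1 := ⟨e3 - 1, by omega⟩
      have hQ2 : Q = 2 * 2 ^ e4 := by
        rw [hQ, pow_succ]
        ring
      have h3 : (2 * Q) ∣ t * (1 - Q) := by
        have h5 : 2 * (2 * Q) ∣ 2 * (t * (1 - Q)) := by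
          obtain ⟨c, hc⟩ := hF4
          refine ⟨c + f * t, ?_⟩
          rw [hf] at hc
          linarith
        exact Int.dvd_of_mul_dvd_mul_left (by norm_num) h5
      have h4 : 2 * Q ∣ t := by
        have hcp : IsCoprime (2 * Q) (1 - Q) := (hcoprime (1 - Q) (by
          rw [hQ2]
          exact ⟨-2 ^ e4, by ring⟩)).symm
        exact hcp.dvd_of_dvd_mul_right h3
      obtain ⟨h, rfl⟩ := h4
      have hk2 : u ^ k = u ^ ((2 : ℕ) ^ (e4 + 1 + 3 - 2) - 1) := by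
        rw [← zpow_natCast u, hzeq]
        refine ⟨-f, ?_⟩
        have h6 : (1 : ℕ) ≤ 2 ^ (e4 + 1 + 3 - 2) := Nat.one_le_two_pow
        rw [Nat.cast_sub h6, hcast, Nat.cast_one, hf]
        ring
      rcases Int.even_or_odd h with ⟨h', rfl⟩ | ⟨h', rfl⟩
      · refine ⟨u, x * u ^ (0 : ℤ), hord', hbnot 0, ?_⟩
        right; right; right
        refine ⟨by omega, ?_, ?_⟩
        · rw [hF5]
          apply hone
          exact ⟨h', by ring⟩
        · rw [hbconj, hk2]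
      · refine ⟨u, x * u ^ (1 : ℤ), hord', hbnot 1, ?_⟩
        right; right; right
        refine ⟨by omega, ?_, ?_⟩
        · rw [hF5]
          apply hone
          refine ⟨h' + f + 1, ?_⟩
          rw [hf]
          ring
        · rw [hbconj, hk2]

end Cfsg.Agent.S0646
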