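import Cfsg.Statements.S0656
import Cfsg.Agent.Lib.QuadAct
-- import your own Cfsg.Agent.* helpers here

set_option autoImplicit false
open Cfsg

namespace Cfsg.Agent.S0656

/-- For odd p, a faithful group on an elementary abelian p-group with no nontrivial normal p-subgroup in which some nontrivial p-element acts quadratically has a section isomorphic to SL(2, p). -/
theorem result {G : Type*} [Group G] [Finite G] {p : ℕ} [Fact p.Prime] (hp : p ≠ 2) (V H : Subgroup G) (hV : Cfsg.IsElementaryAbelian p V) (hHV : H ≤ Subgroup.normalizer (V : Set G)) (hf : H ⊓ Subgroup.centralizer (V : Set G) = ⊥) (hO : Cfsg.pCore p ↥H = ⊥) (x : G) (hxH : x ∈ H) (hx1 : x ≠ 1) (hxp : ∃ k : ℕ, orderOf x = p ^ k) (hq : ⁅⁅V, Subgroup.zpowers x⁆, Subgroup.zpowers x⁆ = ⊥) : ∃ (K L : Subgroup G) (hL : (L.subgroupOf K).Normal), K ≤ H ∧ Nonempty ((K ⧸ L.subgroupOf K) ≃* Matrix.SpecialLinearGroup (Fin 2) (ZMod p)) := by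
  classical
  letI := Cfsg.Agent.Lib.QuadAct.commOf hV.1
  have hxH' : x ∈ H := hxH
  have hO' : (⟨x, hxH⟩ : H) ∉ Cfsg.pCore p H := by
    rw [hO, Subgroup.mem_bot]
    intro h
    exact hx1 (congrArg Subtype.val h)
  have hB : ∀ v : V, v ^ p = 1 := fun v => Subtype.ext (hV.2 v.1 v.2)
  obtain ⟨K₂, τ, hτ⟩ := Cfsg.Agent.Lib.QuadAct.exists_section' hp (B := V) hB (Cfsg.Agent.Lib.QuadAct.kap V _ hHV) (Cfsg.Agent.Lib.QuadAct.kap_inj V _ hHV hf)
    ⟨x, hxH⟩ (Cfsg.Agent.Lib.QuadAct.kap_quad V _ hHV ⟨x, hxH⟩ hq) hO'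
  let e : K₂ ≃* K₂.map H.subtype := K₂.equivMapOfInjective H.subtype (Subgroup.subtype_injective H)
  obtain ⟨L, hL, hiso⟩ := Cfsg.Agent.Lib.QuadAct.section_of_hom (K₂.map H.subtype) (τ.comp e.symm.toMonoidHom) (hτ.comp e.symm.surjective)
  exact ⟨K₂.map H.subtype, L, hL, Subgroup.map_subtype_le K₂, hiso⟩

end Cfsg.Agent.S0656
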