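import Cfsg.Statements.S0657
import Cfsg.Agent.Lib.QdControl
import Cfsg.Agent.Lib.FitCore
-- import your own Cfsg.Agent.* helpers here

set_option autoImplicit false
open Cfsg

namespace Cfsg.Agent.S0657

/-- For odd p, a group that fails to be p-stable modulo its largest normal subgroup of order prime to p, and whose upper p-series does not stop there, has a section isomorphic to SL(2, p). -/
theorem result {G : Type*} [Group G] [Finite G] {p : ℕ} [Fact p.Prime] (hp : p ≠ 2) (hO : Cfsg.pPrimeCore p G < Cfsg.pPrimePCore p G) (hns : ¬ Cfsg.IsPStable p (G ⧸ Cfsg.pPrimeCore p G)) : ∃ (K L : Subgroup G) (hL : (L.subgroupOf K).Normal), K ≤ ⊤ ∧ Nonempty ((K ⧸ L.subgroupOf K) ≃* Matrix.SpecialLinearGroup (Fin 2) (ZMod p)) := by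
  classical
  haveI hOn : (Cfsg.pPrimeCore p G).Normal := Cfsg.Agent.Lib.FitCore.pPrimeCore_normal p
  have hcore : Cfsg.pCore p (G ⧸ Cfsg.pPrimeCore p G) ≠ ⊥ := by
    intro h0
    apply hO.ne
    rw [Cfsg.pPrimePCore, h0]
    ext x
    simp [QuotientGroup.eq_one_iff]
  have hnst : ¬ Cfsg.IsNormalizerPStable p (G ⧸ Cfsg.pPrimeCore p G) := by
    intro hst
    apply hns
    refine ⟨(Fact.out : p.Prime).odd_of_ne_two hp, hcore, ?_⟩
    intro A P _ hP _ _ _ hq
    rintro _ ⟨y, hy, rfl⟩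
    have hyA : (y : G ⧸ Cfsg.pPrimeCore p G) ∈ A := hy
    refine hst P hP y y.2 ?_
    rw [eq_bot_iff, ← hq]
    have hz : Subgroup.zpowers (y : G ⧸ Cfsg.pPrimeCore p G) ≤ A := by
      rw [Subgroup.zpowers_le]
      exact hyA
    exact Subgroup.commutator_mono (Subgroup.commutator_mono le_rfl hz) hz
  have hinv := (Cfsg.Agent.Lib.QdStable.invTo_of_not_stable hp hnst).of_quot
  obtain ⟨K₀, Θ, hΘ⟩ := hinv
  obtain ⟨D⟩ := Cfsg.Agent.Lib.QdControl.qdData_qd (p := p) hp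
  obtain ⟨K, L, hL, e⟩ := (Cfsg.Agent.Lib.QdSection.involves_iff).2 ⟨K₀, D.τ.comp Θ, D.hτ.comp hΘ⟩
  exact ⟨K, L, hL, le_top, e⟩

end Cfsg.Agent.S0657
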