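import Cfsg.Statements.S0658
import Cfsg.Agent.Lib.ZJControl
-- import your own Cfsg.Agent.* helpers here

set_option autoImplicit false
open Cfsg

namespace Cfsg.Agent.S0658

/-- In a group of characteristic p type all of whose p-locals are p-stable (p odd), the normalizer of Z(J(P)) contains the normalizer of every nontrivial subgroup of the Sylow p-subgroup P. -/
theorem result {G : Type*} [Group G] [Finite G] {p : ℕ} [Fact p.Prime] (hp : p ≠ 2) (hloc : ∀ Q : Subgroup G, IsPGroup p Q → Q ≠ ⊥ → Cfsg.pPrimeCore p ↥(Subgroup.normalizer (Q : Set G)) = ⊥ ∧ Cfsg.IsPConstrained p ↥(Subgroup.normalizer (Q : Set G)) ∧ Cfsg.IsPStable p ↥(Subgroup.normalizer (Q : Set G))) (P : Sylow p G) (Q : Subgroup G) (hQP : Q ≤ (P : Subgroup G)) (hQ1 : Q ≠ ⊥) : Subgroup.normalizer (Q : Set G) ≤ Subgroup.normalizer (Cfsg.centerThompsonAOf ((P : Subgroup G)) : Set G) := by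
  classical
  refine Cfsg.Agent.Lib.ZJControl.local_le_normalizer (Cfsg.Agent.Lib.ZJGood.goodA hp) P
    (fun V hV hne => ?_) Q hQP hQ1
  obtain ⟨h0, hcn, hs⟩ := hloc V (P.isPGroup'.to_le hV) hne
  haveI hOn : (Cfsg.pPrimeCore p ↥(Subgroup.normalizer (V : Set G))).Normal :=
    Cfsg.Agent.Lib.FitCore.pPrimeCore_normal p
  exact ⟨h0, Cfsg.Agent.Lib.ZJLift.centralizer_quot hcn, fun B hB hBp =>
    Cfsg.Agent.Lib.ZJLift.stabOn_quot
      (Cfsg.Agent.Lib.FitCore.not_dvd_card_pPrimeCore p Fact.out)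
      (Cfsg.Agent.Lib.ZJLift.stabHyp_of_pStable hs) hB hBp⟩

end Cfsg.Agent.S0658
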