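import Cfsg.Statements.S0660
import Cfsg.Agent.Lib.CoprimeMaschke

set_option autoImplicit false
open Cfsg

namespace Cfsg.Agent.S0660

/-- Under a coprime action on an abelian group, an invariant subgroup that is complemented admits an invariant complement. -/
theorem result {G : Type*} [Group G] [Finite G] (V A U : Subgroup G) (hVab : IsMulCommutative V) (hAV : A ≤ Subgroup.normalizer (V : Set G)) (hcop : (Nat.card A).Coprime (Nat.card V)) (hUV : U ≤ V) (hAU : A ≤ Subgroup.normalizer (U : Set G)) (W : Subgroup G) (hWV : W ≤ V) (hUW : U ⊓ W = ⊥) (hUWV : U ⊔ W = V) : ∃ W' : Subgroup G, W' ≤ V ∧ A ≤ Subgroup.normalizer (W' : Set G) ∧ U ⊓ W' = ⊥ ∧ U ⊔ W' = V := by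
  classical
  haveI : Fintype A := Fintype.ofFinite A
  letI cg : CommGroup V := { (inferInstance : Group V) with mul_comm := fun x y => hVab.1.1 x y }
  let φ : A →* MulAut V := (Subgroup.normalizerMonoidHom V).comp (Subgroup.inclusion hAV)
  have hφ : ∀ (a : A) (v : V), ((φ a v : V) : G) = a.1 * v.1 * a.1⁻¹ := fun a v => rfl
  have hcop' : (Fintype.card A).Coprime (Nat.card V) := by
    rw [← Nat.card_eq_fintype_card]
    exact hcop
  have hUinv : ∀ a : A, ∀ u ∈ U.subgroupOf V, φ a u ∈ U.subgroupOf V := by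
    intro a u hu
    rw [Subgroup.mem_subgroupOf] at hu ⊢
    rw [hφ]
    exact (Subgroup.mem_normalizer_iff.mp (hAU a.2) _).mp hu
  have h1 : U.subgroupOf V ⊓ W.subgroupOf V = ⊥ := by
    rw [eq_bot_iff]
    intro x hx
    obtain ⟨h3, h4⟩ := Subgroup.mem_inf.mp hx
    have : (x : G) ∈ U ⊓ W := Subgroup.mem_inf.mpr ⟨h3, h4⟩
    rw [hUW, Subgroup.mem_bot] at this
    exact Subgroup.mem_bot.mpr (Subtype.ext this)
  have h2 : U.subgroupOf V ⊔ W.subgroupOf V = ⊤ := by
    rw [← Subgroup.subgroupOf_sup hUV hWV, hUWV]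
    exact Subgroup.subgroupOf_self V
  obtain ⟨W₀, hW1, hW2, hW3⟩ := Cfsg.Agent.Lib.CoprimeMaschke.exists_invariant_complement φ hcop' _ _ hUinv h1 h2
  refine ⟨W₀.map V.subtype, Subgroup.map_subtype_le _, ?_, ?_, ?_⟩
  · intro a ha
    have hain : ∀ b : A, ∀ x, x ∈ W₀.map V.subtype → b.1 * x * b.1⁻¹ ∈ W₀.map V.subtype := by
      rintro b _ ⟨w, hw, rfl⟩
      exact ⟨φ b w, hW1 b w hw, rfl⟩
    rw [Subgroup.mem_normalizer_iff]
    intro h
    constructor
    · exact hain ⟨a, ha⟩ h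
    · intro hh
      have := hain ⟨a, ha⟩⁻¹ _ hh
      simpa [mul_assoc] using this
  · rw [eq_bot_iff]
    intro x hx
    obtain ⟨h3, ⟨w, hw, rfl⟩⟩ := Subgroup.mem_inf.mp hx
    have : w ∈ U.subgroupOf V ⊓ W₀ := Subgroup.mem_inf.mpr ⟨h3, hw⟩
    rw [hW2, Subgroup.mem_bot] at this
    rw [this]
    simp
  · apply le_antisymm
    · exact sup_le hUV (Subgroup.map_subtype_le _)
    · intro v hv
      have h3 : (⟨v, hv⟩ : V) ∈ U.subgroupOf V ⊔ W₀ := by rw [hW3]; trivial
      obtain ⟨u, hu, w, hw, huw⟩ := Subgroup.mem_sup.mp h3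
      have h4 : (u : G) * w = v := congrArg Subtype.val huw
      rw [← h4]
      exact Subgroup.mul_mem _ (Subgroup.mem_sup_left hu) (Subgroup.mem_sup_right ⟨w, hw, rfl⟩)

end Cfsg.Agent.S0660
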