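import Mathlib
import Cfsg.Statements.S0662

set_option autoImplicit false
set_option linter.all false
open Cfsg

namespace Cfsg.Agent.S0662

/-- The number of subgroups of order `p` in a group of order `p²` and exponent `p`. -/
theorem card_sub_p {T : Type*} [Group T] [Finite T] {p : ℕ} (hpp : p.Prime) (hT : Nat.card T = p ^ 2)
    (hexp : ∀ x : T, x ^ p = 1) : Nat.card {U : Subgroup T // Nat.card U = p} = p + 1 := by
  classical
  haveI := Fintype.ofFinite T
  haveI : Fact p.Prime := ⟨hpp⟩
  have hord : ∀ x : T, x ≠ 1 → orderOf x = p := fun x hx => orderOf_eq_prime (hexp x) hx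
  let f : {x : T // x ≠ 1} → {U : Subgroup T // Nat.card U = p} := fun x =>
    ⟨Subgroup.zpowers x.1, by rw [Nat.card_zpowers, hord x.1 x.2]⟩
  have hfib : ∀ U : {U : Subgroup T // Nat.card U = p}, Nat.card {x : {x : T // x ≠ 1} // f x = U} = p - 1 := by
    intro U
    let e : {x : {x : T // x ≠ 1} // f x = U} ≃ {u : U.1 // u ≠ 1} :=
      { toFun := fun x => ⟨⟨x.1.1, by
            have h1 : Subgroup.zpowers x.1.1 = U.1 := congrArg Subtype.val x.2
            rw [← h1]
            exact Subgroup.mem_zpowers _⟩, fun h => x.1.2 (congrArg Subtype.val h)⟩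
        invFun := fun u => ⟨⟨u.1.1, fun h => u.2 (Subtype.ext h)⟩, by
            apply Subtype.ext
            apply Subgroup.eq_of_le_of_card_ge
            · rw [Subgroup.zpowers_le]; exact u.1.2
            · change Nat.card U.1 ≤ Nat.card (Subgroup.zpowers u.1.1)
              rw [U.2, Nat.card_zpowers, hord u.1.1 (fun h => u.2 (Subtype.ext h))]⟩
        left_inv := fun x => rfl
        right_inv := fun u => rfl }
    rw [Nat.card_congr e]
    haveI : Fintype U.1 := Fintype.ofFinite _
    rw [Nat.card_eq_fintype_card, Fintype.card_subtype]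
    have h2 : (Finset.univ.filter (fun u : U.1 => u ≠ 1)) = Finset.univ.erase 1 := by
      ext u
      simp
    rw [h2, Finset.card_erase_of_mem (Finset.mem_univ _), Finset.card_univ, ← Nat.card_eq_fintype_card, U.2]
  haveI : Fintype {U : Subgroup T // Nat.card U = p} := Fintype.ofFinite _
  have hsum : Nat.card {x : T // x ≠ 1} = Nat.card {U : Subgroup T // Nat.card U = p} * (p - 1) := by
    rw [← Nat.card_congr (Equiv.sigmaFiberEquiv f), Nat.card_sigma]
    simp only [hfib]
    rw [Finset.sum_const, Finset.card_univ, ← Nat.card_eq_fintype_card, smul_eq_mul]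
  have hcard1 : Nat.card {x : T // x ≠ 1} = p ^ 2 - 1 := by
    rw [Nat.card_eq_fintype_card, Fintype.card_subtype]
    have h2 : (Finset.univ.filter (fun u : T => u ≠ 1)) = Finset.univ.erase 1 := by
      ext u
      simp
    rw [h2, Finset.card_erase_of_mem (Finset.mem_univ _), Finset.card_univ, ← Nat.card_eq_fintype_card, hT]
  rw [hcard1] at hsum
  have hp1 : 0 < p - 1 := by have := hpp.two_le; omega
  have h3 : p ^ 2 - 1 = (p + 1) * (p - 1) := by
    obtain ⟨q, rfl⟩ : ∃ q, p = q + 1 := ⟨p - 1, by have := hpp.pos; omega⟩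
    simp only [Nat.add_sub_cancel]
    have : (q + 1) ^ 2 = (q + 1 + 1) * q + 1 := by ring
    omega
  rw [h3] at hsum
  exact (Nat.eq_of_mul_eq_mul_right hp1 hsum).symm



open Subgroup
open scoped commutatorElement

variable {G : Type*} [Group G] [Finite G] {p : ℕ} [hp : Fact p.Prime]

abbrev LL (G : Type*) [Group G] (i : ℕ) : Subgroup G := (⊤ : Subgroup G).lowerCentralSeries i

theorem strict (hG : IsPGroup p G) (i : ℕ) (hi : LL G i ≠ ⊥) : LL G (i + 1) ≠ LL G i := by
  haveI := hG.isNilpotent
  intro h
  have hall : ∀ k, LL G (i + k) = LL G i := by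
    intro k
    induction k with
    | zero => rfl
    | succ k ih =>
      rw [← add_assoc]
      show ⁅LL G (i + k), ⊤⁆ = _
      rw [ih]; exact h
  obtain ⟨c, hc⟩ := _root_.nilpotent_iff_lowerCentralSeries.mp this
  apply hi
  rw [← hall c]
  apply bot_unique
  rw [← hc]
  exact Subgroup.lowerCentralSeries_antitone _ (Nat.le_add_left _ _)

theorem card_step (hG : IsPGroup p G) (i : ℕ) (hi : LL G i ≠ ⊥) :
    p * Nat.card (LL G (i + 1)) ∣ Nat.card (LL G i) := by
  have hle : LL G (i + 1) ≤ LL G i := Subgroup.lowerCentralSeries_antitone _ (Nat.le_succ i)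
  have hne := strict hG i hi
  obtain ⟨a, ha⟩ := IsPGroup.iff_card.mp (hG.to_subgroup (LL G i))
  have hd : Nat.card (LL G (i + 1)) ∣ Nat.card (LL G i) := Subgroup.card_dvd_of_le hle
  rw [ha] at hd ⊢
  obtain ⟨b, hb, hbe⟩ := (Nat.dvd_prime_pow hp.out).1 hd
  rw [hbe]
  have hba : b ≠ a := by
    intro hab
    apply hne
    apply Subgroup.eq_of_le_of_card_ge hle
    rw [ha, hbe, hab]
  have : b + 1 ≤ a := by omega
  rw [← pow_succ']
  exact pow_dvd_pow p this

theorem cyclic_ab (hG : IsPGroup p G) [hcy : IsCyclic (G ⧸ commutator G)] : LL G 1 = ⊥ := by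
  haveI hn1 : (LL G 1).Normal := by
    show ((⊤ : Subgroup G).lowerCentralSeries 1).Normal
    infer_instance
  haveI hn2 : (LL G 2).Normal := by
    show ((⊤ : Subgroup G).lowerCentralSeries 2).Normal
    infer_instance
  have hL1 : LL G 1 = commutator G := Subgroup.top_lowerCentralSeries_one
  have hle : LL G 2 ≤ (commutator G).comap (MonoidHom.id G) := by
    intro x hx
    show x ∈ commutator G
    rw [← hL1]
    exact Subgroup.lowerCentralSeries_antitone _ (Nat.le_succ 1) hx
  let f : G ⧸ LL G 2 →* G ⧸ commutator G := QuotientGroup.map (LL G 2) (commutator G) (MonoidHom.id G) hle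
  have hker : f.ker ≤ Subgroup.center (G ⧸ LL G 2) := by
    intro q hq
    induction q using QuotientGroup.induction_on with
    | H x =>
      rw [MonoidHom.mem_ker] at hq
      have hx : x ∈ commutator G := by
        have : ((x : G) : G ⧸ commutator G) = 1 := hq
        exact (QuotientGroup.eq_one_iff x).1 this
      rw [← hL1] at hx
      rw [Subgroup.mem_center_iff]
      intro g
      induction g using QuotientGroup.induction_on with
      | H y =>
        rw [← QuotientGroup.mk_mul, ← QuotientGroup.mk_mul, QuotientGroup.eq]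
        have h1 : ⁅x⁻¹, y⁻¹⁆ ∈ LL G 2 :=
          Subgroup.commutator_mem_commutator ((LL G 1).inv_mem hx) (Subgroup.mem_top _)
        have e : (y * x)⁻¹ * (x * y) = ⁅x⁻¹, y⁻¹⁆ := by
          simp [commutatorElement_def, mul_assoc]
        rw [e]; exact h1
  have hcomm := commutative_of_cyclic_center_quotient f hker
  have hab : IsMulCommutative (G ⧸ LL G 2) := ⟨⟨hcomm⟩⟩
  have hle2 : commutator G ≤ LL G 2 := Subgroup.Normal.quotient_commutative_iff_commutator_le.1 hab
  by_contra hne
  apply strict hG 1 hne
  apply le_antisymm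
  · exact Subgroup.lowerCentralSeries_antitone _ (Nat.le_succ 1)
  · rw [hL1]; exact hle2

theorem dvd_index (hG : IsPGroup p G) (hne : LL G 1 ≠ ⊥) : p ^ 2 * Nat.card (LL G 1) ∣ Nat.card G := by
  have hL1 : LL G 1 = commutator G := Subgroup.top_lowerCentralSeries_one
  have hmul := Subgroup.card_mul_index (LL G 1)
  rw [← hmul, mul_comm]
  apply mul_dvd_mul_left
  have hi : (LL G 1).index ∣ Nat.card G := Subgroup.index_dvd_card _
  obtain ⟨a, ha⟩ := IsPGroup.iff_card.mp hG
  rw [ha] at hi
  obtain ⟨b, hb, hbe⟩ := (Nat.dvd_prime_pow hp.out).1 hi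
  rw [hbe]
  apply pow_dvd_pow
  by_contra hb2
  apply hne
  have hcard : Nat.card (G ⧸ commutator G) = p ^ b := by
    rw [← hL1]; exact hbe
  have hb' : b = 0 ∨ b = 1 := by omega
  haveI : IsCyclic (G ⧸ commutator G) := by
    rcases hb' with rfl | rfl
    · rw [pow_zero] at hcard
      haveI : Subsingleton (G ⧸ commutator G) := (Nat.card_eq_one_iff_unique.1 hcard).1
      infer_instance
    · rw [pow_one] at hcard
      exact isCyclic_of_prime_card hcard
  exact cyclic_ab hG

theorem upper (hG : IsPGroup p G) (r : ℕ) (hc : Nat.card G = p ^ r) (i : ℕ) (hi : 1 ≤ i) :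
    LL G i ≠ ⊥ → p ^ (i + 1) * Nat.card (LL G i) ∣ p ^ r := by
  induction i, hi using Nat.le_induction with
  | base =>
    intro h
    rw [← hc]
    exact dvd_index hG h
  | succ i hi ih =>
    intro h
    have hne : LL G i ≠ ⊥ := by
      intro h0
      apply h
      apply bot_unique
      rw [← h0]
      exact Subgroup.lowerCentralSeries_antitone _ (Nat.le_succ i)
    have h1 := ih hne
    have h2 := card_step hG i hne
    refine dvd_trans ?_ h1
    rw [pow_succ p (i + 1), mul_assoc]
    exact mul_dvd_mul_left _ h2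

theorem bot_of_card (hG : IsPGroup p G) (r : ℕ) (hr : 2 ≤ r) (hc : Nat.card G = p ^ r) : LL G (r - 1) = ⊥ := by
  by_contra hne
  have h1 := upper hG r hc (r - 1) (by omega) hne
  have e : r - 1 + 1 = r := by omega
  rw [e] at h1
  have hpos : 0 < p ^ r := pow_pos hp.out.pos r
  have h2 := Nat.le_of_dvd hpos h1
  have h3 : Nat.card (LL G (r - 1)) ≤ 1 := by
    have : p ^ r * Nat.card (LL G (r - 1)) ≤ p ^ r * 1 := by rwa [mul_one]
    exact Nat.le_of_mul_le_mul_left this hpos
  have h4 : Nat.card (LL G (r - 1)) = 1 := by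
    have : 0 < Nat.card (LL G (r - 1)) := Nat.card_pos
    omega
  exact hne (Subgroup.eq_bot_of_card_eq _ h4)

theorem lower (hG : IsPGroup p G) (c : ℕ) (hcl : ∀ i < c, LL G i ≠ ⊥) (k : ℕ) :
    k ≤ c → p ^ k ∣ Nat.card (LL G (c - k)) := by
  induction k with
  | zero => intro _; simp
  | succ k ih =>
    intro hk
    have h1 := ih (by omega)
    have hi : c - (k + 1) < c := by omega
    have h2 := card_step hG (c - (k + 1)) (hcl _ hi)
    have e : c - (k + 1) + 1 = c - k := by omega
    rw [e] at h2
    refine dvd_trans ?_ h2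
    rw [pow_succ']
    exact mul_dvd_mul_left _ h1

theorem card_L (hG : IsPGroup p G) (n : ℕ) (hcard : Nat.card G = p ^ n)
    (hcl : Group.nilpotencyClass G = n - 1) (hn : 3 ≤ n) (i : ℕ) (hi1 : 1 ≤ i) (hi2 : i ≤ n - 1) :
    Nat.card (LL G i) = p ^ (n - 1 - i) := by
  haveI := hG.isNilpotent
  have hbot : ∀ m, LL G m = ⊥ ↔ n - 1 ≤ m := by
    intro m
    rw [← hcl]
    exact _root_.lowerCentralSeries_eq_bot_iff_nilpotencyClass_le
  have hlow := lower hG (n - 1) (fun m hm h0 => by
    have := (hbot m).1 h0
    omega) (n - 1 - i) (by omega)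
  have e : n - 1 - (n - 1 - i) = i := by omega
  rw [e] at hlow
  by_cases hic : i = n - 1
  · subst hic
    have : LL G (n - 1) = ⊥ := (hbot _).2 le_rfl
    rw [this]
    simp
  · have hne : LL G i ≠ ⊥ := fun h0 => by
      have := (hbot i).1 h0
      omega
    have hup := upper hG n hcard i hi1 hne
    obtain ⟨a, ha⟩ := IsPGroup.iff_card.mp (hG.to_subgroup (LL G i))
    rw [ha] at hup hlow ⊢
    rw [← pow_add] at hup
    have h1 := (Nat.pow_dvd_pow_iff_le_right hp.out.one_lt).1 hup
    have h2 := (Nat.pow_dvd_pow_iff_le_right hp.out.one_lt).1 hlow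
    congr 1
    omega

/-- In a p-group of maximal class of order at least p³ the normal subgroups of index at least p² are exactly the terms of the lower central series, and there are exactly p + 1 normal subgroups of index p. -/
theorem result {G : Type*} [Group G] [Finite G] {p : ℕ} [Fact p.Prime] (n : ℕ) (hG : Nat.card G = p ^ n) (hcl : Group.nilpotencyClass G = n - 1) (hn : 3 ≤ n) : (∀ (N : Subgroup G) [N.Normal] (r : ℕ), 2 ≤ r → N.index = p ^ r → N = (⊤ : Subgroup G).lowerCentralSeries (r - 1)) ∧ Nat.card {N : Subgroup G // N.Normal ∧ N.index = p} = p + 1 := by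
  have hG' : IsPGroup p G := IsPGroup.of_card hG
  have hpr : p.Prime := Fact.out
  have hLc := card_L hG' n hG hcl hn
  refine ⟨?_, ?_⟩
  · intro N _ r hr hNi
    have hr' : r ≤ n := by
      have h1 : N.index ∣ Nat.card G := Subgroup.index_dvd_card _
      rw [hNi, hG] at h1
      exact (Nat.pow_dvd_pow_iff_le_right hpr.one_lt).1 h1
    have hQc : Nat.card (G ⧸ N) = p ^ r := hNi
    have hQ : IsPGroup p (G ⧸ N) := IsPGroup.of_card hQc
    have hbot := bot_of_card hQ r hr hQc
    have hle : LL G (r - 1) ≤ N := by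
      have h2 : (LL G (r - 1)).map (QuotientGroup.mk' N) = LL (G ⧸ N) (r - 1) := by
        show ((⊤ : Subgroup G).lowerCentralSeries (r - 1)).map _ = _
        rw [Subgroup.map_lowerCentralSeries, Subgroup.map_top_of_surjective _ (QuotientGroup.mk'_surjective N)]
      rw [hbot, Subgroup.map_eq_bot_iff, QuotientGroup.ker_mk'] at h2
      exact h2
    symm
    apply Subgroup.eq_of_le_of_card_ge hle
    have hcN : Nat.card N = p ^ (n - r) := by
      have h1 := Subgroup.card_mul_index N
      rw [hNi, hG] at h1
      have e : p ^ n = p ^ (n - r) * p ^ r := by rw [← pow_add]; congr 1; omega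
      rw [e] at h1
      exact Nat.eq_of_mul_eq_mul_right (pow_pos hpr.pos r) h1
    rw [hcN, hLc (r - 1) (by omega) (by omega)]
    apply le_of_eq
    congr 1
    omega
  · have hL1 : LL G 1 = commutator G := Subgroup.top_lowerCentralSeries_one
    have hcL1 : Nat.card (commutator G) = p ^ (n - 2) := by
      rw [← hL1, hLc 1 (le_refl 1) (by omega)]
      congr 1
    have hidx : (commutator G).index = p ^ 2 := by
      have h1 := Subgroup.card_mul_index (commutator G)
      rw [hcL1, hG] at h1
      have e : p ^ n = p ^ (n - 2) * p ^ 2 := by rw [← pow_add]; congr 1; omega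
      rw [e] at h1
      exact Nat.eq_of_mul_eq_mul_left (pow_pos hpr.pos (n - 2)) h1
    have hne1 : LL G 1 ≠ ⊥ := by
      haveI := hG'.isNilpotent
      intro h0
      have := (_root_.lowerCentralSeries_eq_bot_iff_nilpotencyClass_le).1 h0
      omega
    have hTc : Nat.card (G ⧸ commutator G) = p ^ 2 := hidx
    have hexp : ∀ x : G ⧸ commutator G, x ^ p = 1 := by
      intro x
      have h1 : orderOf x ∣ p ^ 2 := by
        rw [← hTc]; exact orderOf_dvd_natCard x
      obtain ⟨j, hj, hje⟩ := (Nat.dvd_prime_pow hpr).1 h1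
      have hj2 : j ≠ 2 := by
        rintro rfl
        apply hne1
        haveI : IsCyclic (G ⧸ commutator G) := isCyclic_of_orderOf_eq_card x (by rw [hje, hTc])
        exact cyclic_ab hG'
      apply orderOf_dvd_iff_pow_eq_one.1
      rw [hje]
      calc p ^ j ∣ p ^ 1 := pow_dvd_pow p (by omega)
        _ = p := pow_one p
    have hcount := card_sub_p hpr hTc hexp
    rw [← hcount]
    let π : G →* G ⧸ commutator G := QuotientGroup.mk' (commutator G)
    have hπ : Function.Surjective π := QuotientGroup.mk'_surjective _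
    have hker : π.ker = commutator G := QuotientGroup.ker_mk' _
    have hcomm : ∀ a b : G ⧸ commutator G, a * b = b * a := by
      have hab : IsMulCommutative (G ⧸ commutator G) :=
        Subgroup.Normal.quotient_commutative_iff_commutator_le.2 le_rfl
      exact hab.is_comm.comm
    have hcomle : ∀ N : Subgroup G, N.Normal → N.index = p → commutator G ≤ N := by
      intro N hN hi
      haveI := hN
      have hc : Nat.card (G ⧸ N) = p := hi
      haveI : IsCyclic (G ⧸ N) := isCyclic_of_prime_card hc
      exact Subgroup.Normal.quotient_commutative_iff_commutator_le.1 IsCyclic.commutative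
    refine Nat.card_congr ⟨fun N => ⟨N.1.map π, ?_⟩, fun U => ⟨U.1.comap π, ?_, ?_⟩, ?_, ?_⟩
    · have hle := hcomle N.1 N.2.1 N.2.2
      have h1 : (N.1.map π).comap π = N.1 := Subgroup.comap_map_eq_self (by rw [hker]; exact hle)
      have h2 : (N.1.map π).index = p := by
        rw [← Subgroup.index_comap_of_surjective _ hπ, h1]; exact N.2.2
      have h3 := Subgroup.card_mul_index (N.1.map π)
      rw [h2, hTc, pow_two] at h3
      exact Nat.eq_of_mul_eq_mul_right hpr.pos h3
    · haveI : U.1.Normal := ⟨fun x hx g => by rw [hcomm g x, mul_inv_cancel_right]; exact hx⟩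
      exact Subgroup.Normal.comap inferInstance π
    · rw [Subgroup.index_comap_of_surjective _ hπ]
      have h3 := Subgroup.card_mul_index U.1
      rw [U.2, hTc, pow_two] at h3
      exact Nat.eq_of_mul_eq_mul_left hpr.pos h3
    · intro N
      apply Subtype.ext
      exact Subgroup.comap_map_eq_self (by rw [hker]; exact hcomle N.1 N.2.1 N.2.2)
    · intro U
      apply Subtype.ext
      exact Subgroup.map_comap_eq_self_of_surjective hπ _

end Cfsg.Agent.S0662
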