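import Cfsg.Statements.S0666
import Mathlib
import Cfsg.Agent.Lib.FrobThm
import Cfsg.Agent.Lib.CoprimeSylow

set_option autoImplicit false
open Cfsg

namespace Cfsg.Agent.S0666

open Cfsg
open scoped Pointwise

theorem frob_core {A F : Type*} [CommGroup A] [Group F] [Finite F] [Finite A] [MulDistribMulAction F A]
    (N H : Subgroup F) [hNn : N.Normal]
    (hCN : ∀ v : A, (∀ n ∈ N, n • v = v) → v = 1) (hCH : ∀ v : A, (∀ h ∈ H, h • v = v) → v = 1)
    (hinj : ∀ h ∈ H, h ≠ 1 → ∀ n m : N, (n : F) * h * (n : F)⁻¹ = (m : F) * h * (m : F)⁻¹ → n = m)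
    (hcop : (Nat.card A).Coprime (Nat.card N)) : ∀ v : A, v = 1 := by
  classical
  haveI := Fintype.ofFinite F
  haveI : Fintype N := Fintype.ofFinite N
  haveI : Fintype H := Fintype.ofFinite H
  let φ : F → A →* A := fun f => MulDistribMulAction.toMonoidHom A f
  have hφ : ∀ f (w : A), φ f w = f • w := fun f w => rfl
  have hTN : ∀ w : A, ∏ n : N, ((n : F) • w) = 1 := by
    intro w
    apply hCN
    intro n₀ hn₀
    rw [← hφ, map_prod]
    apply Fintype.prod_equiv (Equiv.mulLeft (⟨n₀, hn₀⟩ : N))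
    intro n
    simp [hφ, mul_smul]
  have hTH : ∀ w : A, ∏ h : H, ((h : F) • w) = 1 := by
    intro w
    apply hCH
    intro n₀ hn₀
    rw [← hφ, map_prod]
    apply Fintype.prod_equiv (Equiv.mulLeft (⟨n₀, hn₀⟩ : H))
    intro n
    simp [hφ, mul_smul]
  intro v
  have h1 : ∏ n : N, ∏ h : H, (((n : F) * h * (n : F)⁻¹) • v) = 1 := by
    apply Finset.prod_eq_one
    intro n _
    have h2 := hTH ((n : F)⁻¹ • v)
    have h3 : (n : F) • ∏ h : H, ((h : F) • ((n : F)⁻¹ • v)) = 1 := by
      rw [h2, smul_one]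
    rw [← h3, ← hφ, map_prod]
    apply Finset.prod_congr rfl
    intro h _
    simp [hφ, mul_smul]
  rw [Finset.prod_comm] at h1
  have h4 : ∀ h : H, h ≠ 1 → ∏ n : N, (((n : F) * h * (n : F)⁻¹) • v) = 1 := by
    intro h hh
    have hh' : (h : F) ≠ 1 := fun e => hh (Subtype.ext e)
    let σ : N → N := fun n => ⟨(n : F) * h * (n : F)⁻¹ * (h : F)⁻¹, by
      have e : (n : F) * h * (n : F)⁻¹ * (h : F)⁻¹ = (n : F) * ((h : F) * (n : F)⁻¹ * (h : F)⁻¹) := by group
      rw [e]
      exact N.mul_mem n.2 (hNn.conj_mem _ (N.inv_mem n.2) h)⟩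
    have hσ : Function.Injective σ := by
      intro n m hnm
      apply hinj h h.2 hh' n m
      have := congrArg Subtype.val hnm
      exact mul_right_cancel this
    have hσb : Function.Bijective σ := Finite.injective_iff_bijective.1 hσ
    let e : N ≃ N := Equiv.ofBijective σ hσb
    have h5 := hTN ((h : F) • v)
    rw [← h5]
    apply Fintype.prod_equiv e
    intro n
    show _ = ((σ n : N) : F) • ((h : F) • v)
    rw [← mul_smul]
    congr 1
    show (n : F) * h * (n : F)⁻¹ = (n : F) * h * (n : F)⁻¹ * (h : F)⁻¹ * h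
    group
  rw [Finset.prod_eq_single (1 : H) (fun h _ hh => h4 h hh) (fun hn => absurd (Finset.mem_univ _) hn)] at h1
  have h6 : ∀ n : N, (((n : F) * ((1 : H) : F) * (n : F)⁻¹) • v) = v := by
    intro n
    simp
  simp only [h6, Finset.prod_const, Finset.card_univ] at h1
  rw [← Nat.card_eq_fintype_card] at h1
  have h7 : orderOf v ∣ Nat.card N := orderOf_dvd_of_pow_eq_one h1
  have h8 : orderOf v ∣ Nat.card A := orderOf_dvd_natCard v
  have h9 := Nat.Coprime.eq_one_of_dvd (hcop.coprime_dvd_left h8) h7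
  exact orderOf_eq_one_iff.1 h9

/-- A Frobenius group acting on a nontrivial abelian group of order prime to that of its kernel, with the kernel acting without nontrivial fixed points, has a complement with a nontrivial fixed point. -/
theorem result {G : Type*} [Group G] [Finite G] (V F : Subgroup G) (hVab : IsMulCommutative V) (hV1 : V ≠ ⊥) (hFV : F ≤ Subgroup.normalizer (V : Set G)) (H : Subgroup ↥F) (hH : Cfsg.IsFrobeniusComplement H) (hcop : (Nat.card V).Coprime (Nat.card (Cfsg.frobeniusKernel H))) (hCK : V ⊓ Subgroup.centralizer (Subtype.val '' Cfsg.frobeniusKernel H : Set G) = ⊥) : V ⊓ Subgroup.centralizer ((H.map F.subtype : Subgroup G) : Set G) ≠ ⊥ := by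
  classical
  intro hbot
  apply hV1
  haveI : Fintype F := Fintype.ofFinite F
  obtain ⟨N, hNs, hNn⟩ := Cfsg.Agent.Lib.FrobThm.exists_normal_eq_kernel H hH
  haveI := hNn
  have hVcomm : ∀ a b : V, a * b = b * a := hVab.is_comm.comm
  letI : CommGroup V := { (inferInstance : Group V) with mul_comm := hVcomm }
  have hact : ∀ a ∈ F, ∀ l ∈ V, a * l * a⁻¹ ∈ V := fun a ha l hl =>
    (Subgroup.mem_normalizer_iff.1 (hFV ha) l).1 hl
  letI := Cfsg.Agent.Lib.CoprimeSylow.conjOn F V hact
  have hsmul : ∀ (f : F) (v : V), ((f • v : V) : G) = f.1 * v.1 * f.1⁻¹ := fun _ _ => rfl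
  have hcard : Nat.card (frobeniusKernel H) = Nat.card N := by
    rw [← hNs]
    rfl
  have hNk : ∀ n : F, n ∈ N ↔ n ∈ frobeniusKernel H := fun n => by
    rw [← hNs]
    rfl
  have hcop' : (Nat.card V).Coprime (Nat.card N) := by
    rw [← hcard]
    exact hcop
  have hfix : ∀ (f : F) (v : V), f • v = v → f.1 * v.1 = v.1 * f.1 := by
    intro f v hfv
    have h1 : f.1 * v.1 * f.1⁻¹ = v.1 := by
      rw [← hsmul, hfv]
    calc f.1 * v.1 = f.1 * v.1 * f.1⁻¹ * f.1 := by group
      _ = v.1 * f.1 := by rw [h1]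
  have hall := frob_core (A := V) (F := F) N H ?_ ?_ ?_ hcop'
  · rw [Subgroup.eq_bot_iff_forall]
    intro v hv
    exact congrArg Subtype.val (hall ⟨v, hv⟩)
  · intro v hv
    have h1 : v.1 ∈ V ⊓ Subgroup.centralizer (Subtype.val '' frobeniusKernel H : Set G) := by
      refine Subgroup.mem_inf.2 ⟨v.2, ?_⟩
      rw [Subgroup.mem_centralizer_iff]
      rintro _ ⟨n, hn, rfl⟩
      exact hfix n v (hv n ((hNk n).2 hn))
    rw [hCK] at h1
    exact Subtype.ext (Subgroup.mem_bot.1 h1)
  · intro v hv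
    have h1 : v.1 ∈ V ⊓ Subgroup.centralizer ((H.map F.subtype : Subgroup G) : Set G) := by
      refine Subgroup.mem_inf.2 ⟨v.2, ?_⟩
      rw [Subgroup.mem_centralizer_iff]
      rintro _ ⟨n, hn, rfl⟩
      exact hfix n v (hv n hn)
    rw [hbot] at h1
    exact Subtype.ext (Subgroup.mem_bot.1 h1)
  · intro h hhH hh1 n m hnm
    by_contra hne
    set c : F := (m : F)⁻¹ * n with hc
    have hcN : c ∈ N := N.mul_mem (N.inv_mem m.2) n.2
    have hc1 : c ≠ 1 := by
      intro e
      apply hne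
      apply Subtype.ext
      rw [hc, inv_mul_eq_one] at e
      exact e.symm
    have hcH : c ∉ H := by
      rcases (hNk c).1 hcN with h3 | h3
      · exact absurd h3 hc1
      · intro hh
        apply h3 1
        simpa using hh
    have h4 := hH.2.2 c hcH
    have h5 : c * h * c⁻¹ = h := by
      have e : c * h * c⁻¹ = (m : F)⁻¹ * ((n : F) * h * (n : F)⁻¹) * m := by
        rw [hc]
        group
      rw [e, hnm]
      group
    have h6 : h ∈ H ⊓ (MulAut.conj c • H) := by
      refine ⟨hhH, ?_⟩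
      have h7 : MulAut.conj c • h ∈ MulAut.conj c • H := Subgroup.smul_mem_pointwise_smul _ _ _ hhH
      have h8 : MulAut.conj c • h = h := by
        rw [MulAut.smul_def, MulAut.conj_apply, h5]
      rw [h8] at h7
      exact h7
    rw [h4] at h6
    exact hh1 (Subgroup.mem_bot.1 h6)

end Cfsg.Agent.S0666
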