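import Cfsg.Statements.S0667
import Cfsg.Agent.Lib.ZJLift
-- import your own Cfsg.Agent.* helpers here

set_option autoImplicit false
open Cfsg

namespace Cfsg.Agent.S0667

/-- Glauberman's Theorem in the p-constrained, p-stable vocabulary: for odd p such a group is the product of its largest normal subgroup of order prime to p with the normalizer of Z(J(P)), and Z(J(P)) is normal when that p'-subgroup is trivial. -/
theorem result {G : Type*} [Group G] [Finite G] {p : ℕ} [Fact p.Prime] (hp : p ≠ 2) (hc : Cfsg.IsPConstrained p G) (hs : Cfsg.IsPStable p G) (P : Sylow p G) : Cfsg.pPrimeCore p G ⊔ Subgroup.normalizer (Cfsg.centerThompsonAOf ((P : Subgroup G)) : Set G) = ⊤ ∧ (Cfsg.pPrimeCore p G = ⊥ → (Cfsg.centerThompsonAOf ((P : Subgroup G))).Normal) := by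
  classical
  haveI hOn : (Cfsg.pPrimeCore p G).Normal := Cfsg.Agent.Lib.FitCore.pPrimeCore_normal p
  have hO : ¬ p ∣ Nat.card (Cfsg.pPrimeCore p G) := Cfsg.Agent.Lib.FitCore.not_dvd_card_pPrimeCore p Fact.out
  have hQC := Cfsg.Agent.Lib.ZJLift.centralizer_quot hc
  have hst : ∀ B : Subgroup (G ⧸ Cfsg.pPrimeCore p G), B.Normal → IsPGroup p B → Cfsg.Agent.Lib.ZJ.StabOn p B :=
    fun B hB hBp => Cfsg.Agent.Lib.ZJLift.stabOn_quot hO (Cfsg.Agent.Lib.ZJLift.stabHyp_of_pStable hs) hB hBp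
  have hfac := Cfsg.Agent.Lib.ZJQuot.zj_quot_A hp P (Cfsg.Agent.Lib.ZJFunctor.stronglyClosed_self _) hO hQC hst
  constructor
  · rw [eq_top_iff]
    intro g _
    obtain ⟨o, ho, n, hn, rfl⟩ := hfac g
    exact Subgroup.mul_mem _ (Subgroup.mem_sup_left ho) (Subgroup.mem_sup_right hn)
  · intro hbot
    rw [← Subgroup.normalizer_eq_top_iff, eq_top_iff]
    intro g _
    obtain ⟨o, ho, n, hn, rfl⟩ := hfac g
    rw [hbot, Subgroup.mem_bot] at ho
    rw [ho, one_mul]
    exact hn

end Cfsg.Agent.S0667
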