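import Cfsg.Statements.S0668
import Mathlib

set_option autoImplicit false
open Cfsg

namespace Cfsg.Agent.S0668

/-- The equivariant linear maps between the permutation modules of two finite `G`-sets form a space whose dimension is the number of `G`-orbits on the product of the two sets. -/
theorem result {G : Type*} [Group G] {K : Type*} [Field K] {Ω₁ Ω₂ : Type*} [Fintype Ω₁] [Fintype Ω₂] [MulAction G Ω₁] [MulAction G Ω₂] : Module.finrank K ((Cfsg.permRep K G Ω₁).linHom (Cfsg.permRep K G Ω₂)).invariants = Nat.card (MulAction.orbitRel.Quotient G (Ω₁ × Ω₂)) := by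
  classical
  set ρ₁ := Cfsg.permRep K G Ω₁ with hρ₁
  set ρ₂ := Cfsg.permRep K G Ω₂ with hρ₂
  haveI : Fintype (MulAction.orbitRel.Quotient G (Ω₁ × Ω₂)) := Fintype.ofFinite _
  -- matrix of an orbit function
  let mat : (MulAction.orbitRel.Quotient G (Ω₁ × Ω₂) → K) → Matrix Ω₂ Ω₁ K :=
    fun f i j => f (Quotient.mk _ (j, i))
  have hmat : ∀ f (g : G) i j, mat f (g • i) (g • j) = mat f i j := by
    intro f g i j
    show f _ = f _
    congr 1
    apply Quotient.sound
    exact ⟨g, rfl⟩
  have hinv : ∀ M : Matrix Ω₂ Ω₁ K, (∀ (g : G) i j, M (g • i) (g • j) = M i j) →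
      Matrix.toLin' M ∈ (ρ₁.linHom ρ₂).invariants := by
    intro M hM g
    apply LinearMap.ext
    intro f
    funext i
    rw [Representation.linHom_apply]
    show (Matrix.toLin' M (ρ₁ g⁻¹ f)) (g⁻¹ • i) = Matrix.toLin' M f i
    rw [Matrix.toLin'_apply, Matrix.toLin'_apply]
    show ∑ j, M (g⁻¹ • i) j * (ρ₁ g⁻¹ f) j = ∑ j, M i j * f j
    refine Fintype.sum_equiv (MulAction.toPerm g) _ _ (fun j => ?_)
    have h1 : (ρ₁ g⁻¹ f) j = f (g • j) := by
      show f ((g⁻¹)⁻¹ • j) = _
      rw [inv_inv]
    rw [h1]
    show M (g⁻¹ • i) j * f (g • j) = M i (g • j) * f (g • j)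
    congr 1
    have := hM g (g⁻¹ • i) j
    rw [smul_inv_smul] at this
    exact this.symm
  let Ψ : (MulAction.orbitRel.Quotient G (Ω₁ × Ω₂) → K) →ₗ[K] (ρ₁.linHom ρ₂).invariants :=
    { toFun := fun f => ⟨Matrix.toLin' (mat f), hinv _ (hmat f)⟩
      map_add' := by
        intro f f'
        apply Subtype.ext
        show Matrix.toLin' _ = Matrix.toLin' _ + Matrix.toLin' _
        rw [← map_add]
        rfl
      map_smul' := by
        intro c f
        apply Subtype.ext
        show Matrix.toLin' _ = c • Matrix.toLin' _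
        rw [← map_smul]
        rfl }
  have hbij : Function.Bijective Ψ := by
    constructor
    · intro f f' h
      have h1 : Matrix.toLin' (mat f) = Matrix.toLin' (mat f') := congrArg Subtype.val h
      have h2 : mat f = mat f' := Matrix.toLin'.injective h1
      funext q
      induction q using Quotient.inductionOn with | _ p => ?_
      obtain ⟨j, i⟩ := p
      exact congrFun (congrFun h2 i) j
    · rintro ⟨T, hT⟩
      set M := LinearMap.toMatrix' T with hM
      have hM' : ∀ (g : G) i j, M (g • i) (g • j) = M i j := by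
        intro g i j
        have h1 := hT g
        rw [Representation.linHom_apply] at h1
        have h2 : M (g • i) (g • j) = T (Pi.single (g • j) 1) (g • i) := by
          rw [hM, LinearMap.toMatrix'_apply]
        have h3 : M i j = T (Pi.single j 1) i := by
          rw [hM, LinearMap.toMatrix'_apply]
        rw [h2, h3]
        have h4 := congrFun (congrArg (fun L => L (Pi.single (g • j) 1)) h1) (g • i)
        rw [← h4]
        show T (ρ₁ g⁻¹ (Pi.single (g • j) 1)) (g⁻¹ • g • i) = _
        rw [inv_smul_smul]
        have h5 : ρ₁ g⁻¹ (Pi.single (g • j) 1) = Pi.single j 1 := by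
          funext x
          show (Pi.single (g • j) (1 : K) : Ω₁ → K) ((g⁻¹)⁻¹ • x) = _
          rw [inv_inv]
          simp only [Pi.single_apply, smul_left_cancel_iff]
        rw [h5]
      let f : MulAction.orbitRel.Quotient G (Ω₁ × Ω₂) → K :=
        Quotient.lift (fun p : Ω₁ × Ω₂ => M p.2 p.1) (by
          rintro ⟨a, b⟩ ⟨c, d⟩ ⟨g, hg⟩
          have h1 : g • c = a := congrArg Prod.fst hg
          have h2 : g • d = b := congrArg Prod.snd hg
          show M b a = M d c
          rw [← h1, ← h2]
          exact hM' g d c)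
      refine ⟨f, ?_⟩
      apply Subtype.ext
      show Matrix.toLin' (mat f) = T
      have : mat f = M := by
        ext i j
        rfl
      rw [this, hM, Matrix.toLin'_toMatrix']
  let e := LinearEquiv.ofBijective Ψ hbij
  rw [← e.finrank_eq, Module.finrank_fintype_fun_eq_card, Nat.card_eq_fintype_card]

end Cfsg.Agent.S0668
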