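import Cfsg.Statements.S0669

set_option autoImplicit false
open Cfsg

namespace Cfsg.Agent.S0669

theorem card_aux {G : Type*} [Group G] {Ω : Type*} [MulAction G Ω] [MulAction.IsPretransitive G Ω] (a : Ω) :
    Nonempty (MulAction.orbitRel.Quotient (MulAction.stabilizer G a) Ω ≃ MulAction.orbitRel.Quotient G (Ω × Ω)) := by
  let f : Ω → MulAction.orbitRel.Quotient G (Ω × Ω) := fun y => Quotient.mk _ (a, y)
  have hf : ∀ y z, (MulAction.orbitRel (MulAction.stabilizer G a) Ω).r y z → f y = f z := by
    intro y z h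
    obtain ⟨g, rfl⟩ := h
    apply Quotient.sound
    refine ⟨g.1, ?_⟩
    show (g.1 • a, g.1 • z) = (a, g • z)
    rw [g.2]
    rfl
  let F : MulAction.orbitRel.Quotient (MulAction.stabilizer G a) Ω → MulAction.orbitRel.Quotient G (Ω × Ω) :=
    Quotient.lift f (fun y z h => hf y z h)
  refine ⟨Equiv.ofBijective F ⟨?_, ?_⟩⟩
  · intro x y
    induction x using Quotient.inductionOn with | _ x => ?_
    induction y using Quotient.inductionOn with | _ y => ?_
    intro h
    have h2 : (MulAction.orbitRel G (Ω × Ω)).r (a, x) (a, y) := Quotient.exact h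
    obtain ⟨g, hg⟩ := h2
    have h3 : g • a = a := congrArg Prod.fst hg
    have h4 : g • y = x := congrArg Prod.snd hg
    apply Quotient.sound
    exact ⟨⟨g, h3⟩, h4⟩
  · intro q
    induction q using Quotient.inductionOn with | _ p => ?_
    obtain ⟨x, y⟩ := p
    obtain ⟨g, hg⟩ := MulAction.exists_smul_eq G x a
    refine ⟨Quotient.mk _ (g • y), ?_⟩
    apply Quotient.sound
    refine ⟨g, ?_⟩
    show (g • x, g • y) = (a, g • y)
    rw [hg]

/-- The rank of a transitive action: orbits on ordered pairs correspond to orbits of a point stabiliser. -/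
theorem result {G : Type*} [Group G] {Ω : Type*} [Finite Ω] [MulAction G Ω] [MulAction.IsPretransitive G Ω] (a : Ω) : Nat.card (MulAction.orbitRel.Quotient G (Ω × Ω)) = Nat.card (MulAction.orbitRel.Quotient (MulAction.stabilizer G a) Ω) := by
  obtain ⟨e⟩ := card_aux (G := G) (Ω := Ω) a
  exact (Nat.card_congr e).symm

end Cfsg.Agent.S0669
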