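import Cfsg.Statements.S0670
import Mathlib
import Cfsg.Agent.Lib.OrbitCount

set_option autoImplicit false
open Cfsg

namespace Cfsg.Agent.S0670

theorem card_set_modEq' {A α : Type*} [Group A] [MulAction A α] {p : ℕ} [Fact p.Prime] (hP : IsPGroup p A) (O : Set α)
    [Finite O] (hO : ∀ (g : A), ∀ y ∈ O, g • y ∈ O) :
    Nat.card O ≡ Nat.card ↥(O ∩ MulAction.fixedPoints A α) [MOD p] := by
  let S : SubMulAction A α := ⟨O, fun g {y} hy => hO g y hy⟩
  haveI : Finite S := inferInstanceAs (Finite O)
  have h1 : Nat.card S ≡ Nat.card (MulAction.fixedPoints A S) [MOD p] := hP.card_modEq_card_fixedPoints S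
  have e1 : Nat.card S = Nat.card O := rfl
  let e2 : MulAction.fixedPoints A S ≃ ↥(O ∩ MulAction.fixedPoints A α) :=
    { toFun := fun y => ⟨y.1.1, y.1.2, fun g => congrArg Subtype.val (y.2 g)⟩
      invFun := fun y => ⟨⟨y.1, y.2.1⟩, fun g => Subtype.ext (y.2.2 g)⟩
      left_inv := fun y => rfl
      right_inv := fun y => rfl }
  rw [e1, Nat.card_congr e2] at h1
  exact h1

/-- A Sylow subgroup of a transitive group of degree a power of `p` is transitive. -/
theorem sylow_transitive {G : Type*} [Group G] [Finite G] {p f : ℕ} [hp : Fact p.Prime] {Ω : Type*} [Fintype Ω]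
    [MulAction G Ω] [MulAction.IsPretransitive G Ω] (hcard : Fintype.card Ω = p ^ f) (P : Sylow p G) (x : Ω) :
    ∀ y : Ω, y ∈ MulAction.orbit (P : Subgroup G) x := by
  classical
  have hppos : 0 < p := hp.out.pos
  have hKpos : 0 < Nat.card (MulAction.stabilizer G x) := Nat.card_pos
  have h1 : Nat.card G = p ^ f * Nat.card (MulAction.stabilizer G x) := by
    have h2 := Cfsg.Agent.Lib.OrbitCount.card_orbit_mul (A := G) x
    rw [MulAction.orbit_eq_univ, Nat.card_univ, Nat.card_eq_fintype_card, hcard] at h2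
    exact h2.symm
  set v := (Nat.card (MulAction.stabilizer G x)).factorization p with hv
  have hP : Nat.card (P : Subgroup G) = p ^ (f + v) := by
    rw [Sylow.card_eq_multiplicity, h1, Nat.factorization_mul (pow_ne_zero _ hppos.ne') hKpos.ne',
      Nat.Prime.factorization_pow hp.out]
    simp [hv]
  have h3 := Cfsg.Agent.Lib.OrbitCount.card_orbit_mul (A := (P : Subgroup G)) x
  rw [hP] at h3
  have h4 : Nat.card (MulAction.stabilizer (P : Subgroup G) x) ∣ p ^ (f + v) := ⟨_, by rw [← h3, mul_comm]⟩
  obtain ⟨b, hb, hbe⟩ := (Nat.dvd_prime_pow hp.out).1 h4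
  have h5 : Nat.card (MulAction.stabilizer (P : Subgroup G) x) ∣ Nat.card (MulAction.stabilizer G x) := by
    have hinj : Function.Injective (fun π : MulAction.stabilizer (P : Subgroup G) x =>
        (⟨(π : (P : Subgroup G)), π.2⟩ : MulAction.stabilizer G x)) := by
      intro π π' h
      apply Subtype.ext
      apply Subtype.ext
      exact congrArg (fun z : MulAction.stabilizer G x => (z : G)) h
    let f' : MulAction.stabilizer (P : Subgroup G) x →* MulAction.stabilizer G x :=
      { toFun := fun π => ⟨(π : (P : Subgroup G)), π.2⟩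
        map_one' := rfl
        map_mul' := fun _ _ => rfl }
    exact Subgroup.card_dvd_of_injective f' hinj
  rw [hbe] at h5 h3
  have hbv : b ≤ v := (hp.out.pow_dvd_iff_le_factorization hKpos.ne').1 h5
  have h6 : Nat.card (MulAction.orbit (P : Subgroup G) x) = p ^ (f + v - b) := by
    have h7 : p ^ (f + v) = p ^ (f + v - b) * p ^ b := by
      rw [← pow_add]
      congr 1
      omega
    rw [h7] at h3
    exact Nat.eq_of_mul_eq_mul_right (pow_pos hppos _) h3
  have h8 : Nat.card (Set.univ : Set Ω) ≤ Nat.card (MulAction.orbit (P : Subgroup G) x) := by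
    rw [Nat.card_univ, Nat.card_eq_fintype_card, hcard, h6]
    exact Nat.pow_le_pow_right hppos (by omega)
  have h9 := Set.eq_of_subset_of_ncard_le (s := MulAction.orbit (P : Subgroup G) x) (t := Set.univ)
    (Set.subset_univ _) (by exact h8)
  intro y
  rw [h9]
  trivial

/-- In characteristic `p`, the permutation module of a transitive action of degree `p ^ f` has the line of constant functions as its only irreducible submodule: every non-zero subrepresentation contains it. -/
theorem result {G : Type*} [Group G] [Finite G] {K : Type*} [Field K] {p f : ℕ} [Fact p.Prime] [CharP K p] {Ω : Type*} [Fintype Ω] [MulAction G Ω] [MulAction.IsPretransitive G Ω] (hf : 1 ≤ f) (hcard : Fintype.card Ω = p ^ f) (W : Subrepresentation (Cfsg.permRep K G Ω)) (hW : W.toSubmodule ≠ ⊥) : (Cfsg.permConstants K G Ω).toSubmodule ≤ W.toSubmodule := by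
  classical
  haveI hp' := (Fact.out : p.Prime)
  obtain ⟨P⟩ : Nonempty (Sylow p G) := inferInstance
  have hΩ : Nonempty Ω := by
    rw [← Fintype.card_pos_iff, hcard]
    exact pow_pos (Fact.out : p.Prime).pos _
  obtain ⟨x₀⟩ := hΩ
  obtain ⟨v, hvW, hv0⟩ := Submodule.exists_mem_ne_zero_of_ne_bot hW
  letI : Algebra (ZMod p) K := ZMod.algebra K p
  let ρ := Cfsg.permRep K G Ω
  let A : Submodule (ZMod p) (Ω → K) := Submodule.span (ZMod p) (Set.range (fun π : (P : Subgroup G) => ρ π v))
  haveI : Finite (P : Subgroup G) := inferInstance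
  haveI hAf : Module.Finite (ZMod p) A := Module.Finite.iff_fg.2 (Submodule.fg_span (Set.finite_range _))
  haveI : Finite A := Module.finite_of_finite (ZMod p)
  letI act : MulAction (P : Subgroup G) (Ω → K) :=
    { smul := fun π f => ρ π f
      one_smul := fun f => by
        show ρ ((1 : (P : Subgroup G)) : G) f = f
        simp
      mul_smul := fun π π' f => by
        show ρ ((π * π' : (P : Subgroup G)) : G) f = ρ π (ρ π' f)
        simp }
  have hsmul : ∀ (π : (P : Subgroup G)) (f : Ω → K), π • f = ρ π f := fun _ _ => rfl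
  have hlin : ∀ (π : (P : Subgroup G)) (c : ZMod p) (f : Ω → K), ρ π (c • f) = c • ρ π f := by
    intro π c f
    funext y
    rfl
  have hAinv : ∀ (π : (P : Subgroup G)), ∀ y ∈ (A : Set (Ω → K)), π • y ∈ (A : Set (Ω → K)) := by
    intro π y hy
    rw [hsmul]
    induction hy using Submodule.span_induction with
    | mem z hz =>
      obtain ⟨π', rfl⟩ := hz
      apply Submodule.subset_span
      refine ⟨π * π', ?_⟩
      show ρ ((π * π' : (P : Subgroup G)) : G) v = ρ π (ρ π' v)
      simp
    | zero =>
      rw [map_zero]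
      exact A.zero_mem
    | add a b _ _ ha hb =>
      rw [map_add]
      exact A.add_mem ha hb
    | smul c a _ ha =>
      rw [hlin]
      exact A.smul_mem c ha
  have hAW : ∀ y ∈ A, y ∈ W.toSubmodule := by
    intro y hy
    induction hy using Submodule.span_induction with
    | mem z hz =>
      obtain ⟨π', rfl⟩ := hz
      exact W.apply_mem_toSubmodule _ hvW
    | zero => exact W.toSubmodule.zero_mem
    | add a b _ _ ha hb => exact W.toSubmodule.add_mem ha hb
    | smul c a _ ha =>
      have : c • a = (algebraMap (ZMod p) K c) • a := by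
        funext y
        simp [Algebra.smul_def]
      rw [this]
      exact W.toSubmodule.smul_mem _ ha
  have hvA : v ∈ A := by
    apply Submodule.subset_span
    refine ⟨1, ?_⟩
    show ρ ((1 : (P : Subgroup G)) : G) v = v
    simp
  have hPp : IsPGroup p (P : Subgroup G) := P.isPGroup'
  haveI : Finite (A : Set (Ω → K)) := inferInstanceAs (Finite A)
  have hmod := card_set_modEq' hPp (A : Set (Ω → K)) hAinv
  have hAcard : p ∣ Nat.card (A : Set (Ω → K)) := by
    haveI : Nontrivial A := ⟨⟨⟨v, hvA⟩, 0, fun h => hv0 (congrArg Subtype.val h)⟩⟩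
    have h1 : Nat.card A = Nat.card (ZMod p) ^ Module.finrank (ZMod p) A := Module.natCard_eq_pow_finrank
    have h2 : 0 < Module.finrank (ZMod p) A := Module.finrank_pos
    have h3 : Nat.card (A : Set (Ω → K)) = Nat.card A := rfl
    rw [h3, h1, Nat.card_zmod]
    exact dvd_pow_self _ h2.ne'
  obtain ⟨w, hwA, hwf, hw0⟩ : ∃ w ∈ (A : Set (Ω → K)), w ∈ MulAction.fixedPoints (P : Subgroup G) (Ω → K) ∧ w ≠ 0 := by
    by_contra hn
    push Not at hn
    have hsingle : (A : Set (Ω → K)) ∩ MulAction.fixedPoints (P : Subgroup G) (Ω → K) = {0} := by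
      ext y
      simp only [Set.mem_inter_iff, Set.mem_singleton_iff]
      constructor
      · rintro ⟨h1, h2⟩
        exact hn y h1 h2
      · rintro rfl
        refine ⟨A.zero_mem, fun π => ?_⟩
        rw [hsmul, map_zero]
    rw [hsingle] at hmod
    have h1 : Nat.card ({0} : Set (Ω → K)) = 1 := by simp
    rw [h1] at hmod
    have h2 := (Nat.modEq_zero_iff_dvd.2 hAcard).symm.trans hmod
    have h3 : p ∣ 1 := Nat.modEq_zero_iff_dvd.1 h2.symm
    exact (Fact.out : p.Prime).one_lt.ne' (Nat.dvd_one.1 h3)
  -- `w` is constant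
  have hwconst : ∀ y, w y = w x₀ := by
    intro y
    obtain ⟨π, rfl⟩ := sylow_transitive hcard P x₀ y
    have h1 : π⁻¹ • w = w := hwf π⁻¹
    have h2 := congrFun h1 x₀
    have h3 : (π⁻¹ • w) x₀ = w (π • x₀) := by
      show w (((π⁻¹ : (P : Subgroup G)) : G)⁻¹ • x₀) = _
      have : ((π⁻¹ : (P : Subgroup G)) : G)⁻¹ = (π : G) := by simp
      rw [this]
      rfl
    rw [← h3, h2]
  have hc : w x₀ ≠ 0 := by
    intro h
    apply hw0
    funext y
    rw [hwconst y, h]
    rfl
  show Submodule.span K {fun _ => (1 : K)} ≤ W.toSubmodule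
  rw [Submodule.span_le, Set.singleton_subset_iff]
  have hone : (fun _ : Ω => (1 : K)) = (w x₀)⁻¹ • w := by
    funext y
    simp [hwconst y, hc]
  rw [hone]
  exact W.toSubmodule.smul_mem _ (hAW w hwA)

end Cfsg.Agent.S0670
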