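import Cfsg.Statements.S0671
import Mathlib
import Cfsg.Agent.S0670

set_option autoImplicit false
open Cfsg

namespace Cfsg.Agent.S0671

/-- a subrepresentation with an element of non-zero sum is everything -/
theorem eq_top_of_sum_ne {G : Type*} [Group G] [Finite G] {K : Type*} [Field K] {p f : ℕ} [Fact p.Prime] [CharP K p]
    {Ω : Type*} [Fintype Ω] [MulAction G Ω] [MulAction.IsPretransitive G Ω] (hf : 1 ≤ f) (hcard : Fintype.card Ω = p ^ f)
    (U : Subrepresentation (Cfsg.permRep K G Ω)) (u : Ω → K) (hu : u ∈ U.toSubmodule) (hs : ∑ x, u x ≠ 0) :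
    U.toSubmodule = ⊤ := by
  classical
  by_contra hne
  obtain ⟨φ, hφ0, hφ⟩ := Submodule.exists_le_ker_of_lt_top _ (lt_top_iff_ne_top.2 hne)
  let h : Ω → K := fun x => φ (Pi.single x 1)
  have hφh : ∀ v : Ω → K, φ v = ∑ x, v x * h x := by
    intro v
    rw [LinearMap.pi_apply_eq_sum_univ φ v]
    simp only [smul_eq_mul, h]
    apply Finset.sum_congr rfl
    intro x _
    congr 2
    funext y
    simp [Pi.single_apply, eq_comm]
  have hh0 : h ≠ 0 := by
    intro h0
    apply hφ0
    ext x
    have := congrFun h0 x
    simpa [h] using this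
  let Z : Submodule K (Ω → K) :=
    { carrier := {w | ∀ v ∈ U.toSubmodule, ∑ x, v x * w x = 0}
      add_mem' := by
        intro a b ha hb v hv
        have h1 := ha v hv
        have h2 := hb v hv
        simp only [Pi.add_apply, mul_add, Finset.sum_add_distrib, h1, h2, add_zero]
      zero_mem' := by
        intro v _
        simp
      smul_mem' := by
        intro c a ha v hv
        have h1 := ha v hv
        simp only [Pi.smul_apply, smul_eq_mul]
        calc ∑ x, v x * (c * a x) = c * ∑ x, v x * a x := by
              rw [Finset.mul_sum]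
              exact Finset.sum_congr rfl (fun x _ => by ring)
          _ = 0 := by rw [h1, mul_zero] }
  let Zr : Subrepresentation (Cfsg.permRep K G Ω) :=
    { toSubmodule := Z
      apply_mem_toSubmodule := by
        intro g w hw v hv
        have h1 := hw _ (U.apply_mem_toSubmodule g⁻¹ hv)
        rw [← h1]
        have e := Equiv.sum_comp (MulAction.toPerm g : Equiv.Perm Ω) (fun x => v x * (Cfsg.permRep K G Ω g w) x)
        rw [← e]
        apply Finset.sum_congr rfl
        intro x _
        show v (g • x) * w (g⁻¹ • (g • x)) = v ((g⁻¹)⁻¹ • x) * w x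
        rw [inv_inv, inv_smul_smul] }
  have hZ0 : Zr.toSubmodule ≠ ⊥ := by
    intro h0
    apply hh0
    have : h ∈ Z := by
      intro v hv
      rw [← hφh]
      exact hφ hv
    have h2 : h ∈ Zr.toSubmodule := this
    rw [h0] at h2
    exact (Submodule.mem_bot K).1 h2
  have h1 := Cfsg.Agent.S0670.result hf hcard Zr hZ0
  have h2 : (fun _ => (1 : K)) ∈ Zr.toSubmodule := h1 (Submodule.mem_span_singleton_self _)
  apply hs
  have h3 := h2 u hu
  simpa using h3

/-- If the heart of the permutation module in characteristic `p` of a transitive action of degree `p ^ f` has no trivial composition factor, the action is doubly transitive. The hypothesis is phrased without composition series: no invariant subspaces `W < W'` between the constants and the sum-zero functions with trivial action on the quotient. -/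
theorem result {G : Type*} [Group G] [Finite G] {K : Type*} [Field K] {p f : ℕ} [Fact p.Prime] [CharP K p] {Ω : Type*} [Fintype Ω] [MulAction G Ω] [MulAction.IsPretransitive G Ω] (hf : 1 ≤ f) (hcard : Fintype.card Ω = p ^ f) (h : ∀ W W' : Subrepresentation (Cfsg.permRep K G Ω), (Cfsg.permConstants K G Ω).toSubmodule ≤ W.toSubmodule → W.toSubmodule < W'.toSubmodule → W'.toSubmodule ≤ (Cfsg.permSumZero K G Ω).toSubmodule → ∃ g : G, ∃ v ∈ W'.toSubmodule, Cfsg.permRep K G Ω g v - v ∉ W.toSubmodule) : MulAction.IsMultiplyPretransitive G Ω 2 := by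
  classical
  by_contra hcon
  rw [MulAction.is_two_pretransitive_iff] at hcon
  push Not at hcon
  obtain ⟨a, b, c, d, hab, hcd, hno⟩ := hcon
  let O : Ω → Ω → Prop := fun x y => ∃ g : G, g • a = x ∧ g • b = y
  have hOinv : ∀ (g : G) x y, O x y → O (g • x) (g • y) := by
    rintro g _ _ ⟨g', rfl, rfl⟩
    exact ⟨g * g', mul_smul _ _ _, mul_smul _ _ _⟩
  have hOinv' : ∀ (g : G) x y, O (g • x) (g • y) ↔ O x y := by
    intro g x y
    refine ⟨fun h => ?_, hOinv g x y⟩
    have := hOinv g⁻¹ _ _ h
    simpa using this
  let cnt : Ω → ℕ := fun x => (Finset.univ.filter (fun y => O x y)).card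
  let cnt' : Ω → ℕ := fun y => (Finset.univ.filter (fun x => O x y)).card
  have hcnt : ∀ x, cnt x = cnt a := by
    intro x
    obtain ⟨g, rfl⟩ := MulAction.exists_smul_eq G a x
    apply Finset.card_bij (fun y _ => g⁻¹ • y)
    · intro y hy
      simp only [Finset.mem_filter, Finset.mem_univ, true_and] at hy ⊢
      have := hOinv g⁻¹ _ _ hy
      simpa using this
    · intro y _ z _ h
      exact MulAction.injective g⁻¹ h
    · intro y hy
      simp only [Finset.mem_filter, Finset.mem_univ, true_and] at hy
      refine ⟨g • y, ?_, by simp⟩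
      simp only [Finset.mem_filter, Finset.mem_univ, true_and]
      exact hOinv g _ _ hy
  have hcnt' : ∀ y, cnt' y = cnt' a := by
    intro x
    obtain ⟨g, rfl⟩ := MulAction.exists_smul_eq G a x
    apply Finset.card_bij (fun y _ => g⁻¹ • y)
    · intro y hy
      simp only [Finset.mem_filter, Finset.mem_univ, true_and] at hy ⊢
      have := hOinv g⁻¹ _ _ hy
      simpa using this
    · intro y _ z _ h
      exact MulAction.injective g⁻¹ h
    · intro y hy
      simp only [Finset.mem_filter, Finset.mem_univ, true_and] at hy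
      refine ⟨g • y, ?_, by simp⟩
      simp only [Finset.mem_filter, Finset.mem_univ, true_and]
      exact hOinv g _ _ hy
  have hpos : 0 < Fintype.card Ω := Fintype.card_pos_iff.2 ⟨a⟩
  have hkk : cnt a = cnt' a := by
    have h1 : ∑ x, cnt x = ∑ y, cnt' y := by
      simp only [cnt, cnt', Finset.card_filter]
      rw [Finset.sum_comm]
    rw [Finset.sum_congr rfl (fun x _ => hcnt x), Finset.sum_congr rfl (fun y _ => hcnt' y)] at h1
    simp only [Finset.sum_const, Finset.card_univ, smul_eq_mul] at h1
    exact Nat.eq_of_mul_eq_mul_left hpos h1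
  set k : K := (cnt a : K) with hk
  -- the operator
  let B : (Ω → K) →ₗ[K] (Ω → K) :=
    { toFun := fun f x => ∑ y, (if O x y then f y else 0) - k * f x
      map_add' := by
        intro f f'
        funext x
        simp only [Pi.add_apply]
        have h1 : (∑ y, if O x y then f y + f' y else 0) = (∑ y, if O x y then f y else 0) + (∑ y, if O x y then f' y else 0) := by
          rw [← Finset.sum_add_distrib]
          apply Finset.sum_congr rfl
          intro y _
          split_ifs <;> simp
        rw [h1]
        ring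
      map_smul' := by
        intro c f
        funext x
        simp only [Pi.smul_apply, smul_eq_mul, RingHom.id_apply]
        rw [mul_sub, Finset.mul_sum]
        congr 1
        · apply Finset.sum_congr rfl
          intro y _
          split_ifs <;> simp
        · ring }
  have hBa : ∀ f x, B f x = ∑ y, (if O x y then f y else 0) - k * f x := fun f x => rfl
  have hBcomm : ∀ (g : G) f, B (Cfsg.permRep K G Ω g f) = Cfsg.permRep K G Ω g (B f) := by
    intro g f
    funext x
    show B (Cfsg.permRep K G Ω g f) x = B f (g⁻¹ • x)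
    rw [hBa, hBa]
    congr 1
    rw [← Equiv.sum_comp (MulAction.toPerm g : Equiv.Perm Ω)]
    apply Finset.sum_congr rfl
    intro y _
    have h1 : O x (g • y) ↔ O (g⁻¹ • x) y := by
      rw [← hOinv' g (g⁻¹ • x) y]
      simp
    show (if O x (g • y) then f (g⁻¹ • (g • y)) else 0) = _
    rw [inv_smul_smul]
    simp only [h1]
  have hBsum : ∀ f, ∑ x, B f x = 0 := by
    intro f
    simp only [hBa]
    rw [Finset.sum_sub_distrib, Finset.sum_comm, ← Finset.mul_sum]
    have h1 : ∀ y, ∑ x, (if O x y then f y else 0) = k * f y := by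
      intro y
      rw [← Finset.sum_filter, Finset.sum_const, nsmul_eq_mul]
      show (cnt' y : K) * f y = _
      rw [hcnt' y, ← hkk]
    rw [Finset.sum_congr rfl (fun y _ => h1 y), ← Finset.mul_sum, sub_self]
  -- the two subrepresentations
  let SZ := Cfsg.permSumZero K G Ω
  have hSZ : ∀ v, v ∈ SZ.toSubmodule ↔ ∑ x, v x = 0 := fun v => Iff.rfl
  let W' : Subrepresentation (Cfsg.permRep K G Ω) :=
    { toSubmodule := LinearMap.range B
      apply_mem_toSubmodule := by
        rintro g _ ⟨f, rfl⟩
        exact ⟨_, hBcomm g f⟩ }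
  let W : Subrepresentation (Cfsg.permRep K G Ω) :=
    { toSubmodule := SZ.toSubmodule.map B
      apply_mem_toSubmodule := by
        rintro g _ ⟨f, hf', rfl⟩
        exact ⟨_, SZ.apply_mem_toSubmodule g hf', hBcomm g f⟩ }
  have hdelta : ∀ y y' : Ω, (Pi.single y (1 : K) - Pi.single y' 1 : Ω → K) ∈ SZ.toSubmodule := by
    intro y y'
    rw [hSZ]
    simp [Finset.sum_sub_distrib]
  -- `B` does not vanish on the sum-zero functions
  have hWne : W.toSubmodule ≠ ⊥ := by
    intro hbot
    have hzero : ∀ v ∈ SZ.toSubmodule, B v = 0 := by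
      intro v hv
      have : B v ∈ W.toSubmodule := ⟨v, hv, rfl⟩
      rw [hbot] at this
      exact (Submodule.mem_bot K).1 this
    -- then the orbital is everything off the diagonal
    have hconst : ∀ x y y', y ≠ x → y' ≠ x → (O x y ↔ O x y') := by
      intro x y y' hy hy'
      have h1 := congrFun (hzero _ (hdelta y y')) x
      rw [hBa] at h1
      simp only [Pi.sub_apply, Pi.zero_apply] at h1
      rw [Pi.single_eq_of_ne hy.symm, Pi.single_eq_of_ne hy'.symm] at h1
      simp only [sub_zero, mul_zero] at h1
      have h2 : ∀ y0 : Ω, ∑ z, (if O x z then ((Pi.single y0 (1 : K) : Ω → K) z) else 0) = if O x y0 then 1 else 0 := by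
        intro y0
        rw [Finset.sum_eq_single y0]
        · simp
        · intro z _ hz
          simp [Pi.single_eq_of_ne hz]
        · simp
      have h3 : ∑ z, (if O x z then ((Pi.single y (1 : K) - Pi.single y' 1 : Ω → K) z) else 0) =
          (∑ z, (if O x z then ((Pi.single y (1 : K) : Ω → K) z) else 0)) - ∑ z, (if O x z then ((Pi.single y' (1 : K) : Ω → K) z) else 0) := by
        rw [← Finset.sum_sub_distrib]
        apply Finset.sum_congr rfl
        intro z _
        split_ifs <;> simp
      have h4 : ∑ z, (if O x z then ((Pi.single y (1 : K) - Pi.single y' 1 : Ω → K) z) else 0) = 0 := by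
        simpa using h1
      rw [h3, h2, h2, sub_eq_zero] at h4
      by_cases hq : O x y <;> by_cases hq' : O x y' <;> simp [hq, hq'] at h4 ⊢
    have hOab : O a b := ⟨1, one_smul _ _, one_smul _ _⟩
    obtain ⟨g, rfl⟩ := MulAction.exists_smul_eq G a c
    have hd' : g⁻¹ • d ≠ a := by
      intro he
      apply hcd
      rw [← he]
      simp
    have h5 : O a (g⁻¹ • d) := (hconst a b (g⁻¹ • d) hab.symm hd').1 hOab
    obtain ⟨g', h6, h7⟩ := h5
    apply hno (g * g')
    · rw [mul_smul, h6]
    · rw [mul_smul, h7]
      simp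
  have hconstW : (Cfsg.permConstants K G Ω).toSubmodule ≤ W.toSubmodule :=
    Cfsg.Agent.S0670.result hf hcard W hWne
  have hW'le : W'.toSubmodule ≤ SZ.toSubmodule := by
    rintro _ ⟨f, rfl⟩
    exact hBsum f
  have hWlt : W.toSubmodule < W'.toSubmodule := by
    refine lt_of_le_of_ne ?_ ?_
    · rintro _ ⟨f, _, rfl⟩
      exact ⟨f, rfl⟩
    · intro he
      -- an element of the kernel with non-zero sum
      have h1 : B (Pi.single a 1) ∈ W.toSubmodule := by
        rw [he]
        exact ⟨_, rfl⟩
      obtain ⟨s, hs, hse⟩ := h1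
      let KerB : Subrepresentation (Cfsg.permRep K G Ω) :=
        { toSubmodule := LinearMap.ker B
          apply_mem_toSubmodule := by
            intro g v hv
            rw [LinearMap.mem_ker] at hv ⊢
            rw [hBcomm, hv, map_zero] }
      have hu : (Pi.single a 1 - s) ∈ KerB.toSubmodule := by
        show B _ = 0
        rw [map_sub, hse, sub_self]
      have hsum : ∑ x, ((Pi.single a (1 : K) : Ω → K) - s) x ≠ 0 := by
        have hs' : ∑ x, s x = 0 := hs
        simp [Finset.sum_sub_distrib, hs']
      have htop := eq_top_of_sum_ne hf hcard KerB _ hu hsum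
      apply hWne
      rw [eq_bot_iff]
      rintro _ ⟨f, _, rfl⟩
      have : f ∈ KerB.toSubmodule := by rw [htop]; trivial
      exact this
  obtain ⟨g, v, hv, hgv⟩ := h W W' hconstW hWlt hW'le
  apply hgv
  obtain ⟨f, rfl⟩ := hv
  refine ⟨Cfsg.permRep K G Ω g f - f, ?_, ?_⟩
  · show ∑ x, (Cfsg.permRep K G Ω g f - f) x = 0
    have h1 : ∑ x, (Cfsg.permRep K G Ω g f) x = ∑ x, f x :=
      Equiv.sum_comp (MulAction.toPerm g⁻¹ : Equiv.Perm Ω) f
    simp [Finset.sum_sub_distrib, h1]
  · show B _ = _
    rw [map_sub, hBcomm]

end Cfsg.Agent.S0671
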