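import Cfsg.Statements.S0672
import Mathlib

set_option autoImplicit false
open Cfsg

namespace Cfsg.Agent.S0672

open scoped Pointwise

theorem reduce_three {G Ω : Type*} [Group G] [MulAction G Ω]
    (h2 : MulAction.IsMultiplyPretransitive G Ω 2)
    (h : ∀ a b c d : Ω, a ≠ b → c ≠ a → c ≠ b → d ≠ a → d ≠ b → ∃ g : G, g • a = a ∧ g • b = b ∧ g • c = d) :
    MulAction.IsMultiplyPretransitive G Ω 3 := by
  rw [MulAction.is_two_pretransitive_iff] at h2
  refine ⟨fun x y => ?_⟩
  have hx : x 0 ≠ x 1 := fun he => absurd (x.injective he) (by decide)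
  have hy : y 0 ≠ y 1 := fun he => absurd (y.injective he) (by decide)
  obtain ⟨g, hg0, hg1⟩ := h2 hx hy
  have hc1 : g • x 2 ≠ y 0 := by
    rw [← hg0]
    intro he
    exact absurd (x.injective (MulAction.injective g he)) (by decide)
  have hc2 : g • x 2 ≠ y 1 := by
    rw [← hg1]
    intro he
    exact absurd (x.injective (MulAction.injective g he)) (by decide)
  have hd1 : y 2 ≠ y 0 := fun he => absurd (y.injective he) (by decide)
  have hd2 : y 2 ≠ y 1 := fun he => absurd (y.injective he) (by decide)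
  obtain ⟨k, hk0, hk1, hk2⟩ := h (y 0) (y 1) (g • x 2) (y 2) hy hc1 hc2 hd1 hd2
  refine ⟨k * g, ?_⟩
  ext i
  show (k * g) • x i = y i
  rw [mul_smul]
  fin_cases i
  · show k • (g • x 0) = y 0
    rw [hg0, hk0]
  · show k • (g • x 1) = y 1
    rw [hg1, hk1]
  · exact hk2

/-- Let a finite group act faithfully and doubly transitively with point stabilisers of even order, and let `K` have characteristic `p` dividing the degree. If the heart of the permutation module admits no non-zero equivariant map to the permutation module on unordered pairs (phrased: every intertwining map from the sum-zero functions vanishing on the constants is zero), the action is triply transitive. -/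
theorem result {G : Type*} [Group G] [Finite G] {K : Type*} [Field K] {p : ℕ} [Fact p.Prime] [CharP K p] {Ω : Type*} [Fintype Ω] [DecidableEq Ω] [MulAction G Ω] [FaithfulSMul G Ω] (h2 : MulAction.IsMultiplyPretransitive G Ω 2) (hp : p ∣ Fintype.card Ω) (heven : ∀ a : Ω, Even (Nat.card (MulAction.stabilizer G a))) (h : ∀ f : Representation.IntertwiningMap (Cfsg.permSumZero K G Ω).toRepresentation (Cfsg.permRep K G (Set.powersetCard Ω 2)), (∀ v : (Cfsg.permSumZero K G Ω).toSubmodule, (v : Ω → K) ∈ (Cfsg.permConstants K G Ω).toSubmodule → f v = 0) → f = 0) : MulAction.IsMultiplyPretransitive G Ω 3 := by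
  classical
  by_contra hcon
  have hex : ∃ a b c d : Ω, a ≠ b ∧ c ≠ a ∧ c ≠ b ∧ d ≠ a ∧ d ≠ b ∧ ∀ g : G, g • a = a → g • b = b → g • c ≠ d := by
    by_contra hn
    push Not at hn
    exact hcon (reduce_three h2 (fun a b c d h1 h3 h4 h5 h6 => by
      obtain ⟨g, hg1, hg2, hg3⟩ := hn a b c d h1 h3 h4 h5 h6
      exact ⟨g, hg1, hg2, hg3⟩))
  obtain ⟨a, b, c, d, hab, hca, hcb, hda, hdb, hno⟩ := hex
  have h2' : ∀ {a b c d : Ω}, a ≠ b → c ≠ d → ∃ g : G, g • a = c ∧ g • b = d :=
    MulAction.is_two_pretransitive_iff.1 h2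
  -- an involution swapping `a`, `b` and fixing a point
  obtain ⟨t, z, hta, htb, htz, hza, hzb⟩ : ∃ (t : G) (z : Ω), t • a = b ∧ t • b = a ∧ t • z = z ∧ z ≠ a ∧ z ≠ b := by
    have he := heven a
    haveI : Fact (Nat.Prime 2) := ⟨Nat.prime_two⟩
    obtain ⟨i, hi1, hi3, hia⟩ : ∃ i : G, i ≠ 1 ∧ i ^ 2 = 1 ∧ i • a = a := by
      obtain ⟨i, hi⟩ := exists_prime_orderOf_dvd_card' (G := MulAction.stabilizer G a) 2 (even_iff_two_dvd.1 he)
      refine ⟨i, ?_, ?_, i.2⟩
      · intro h1
        have : i = 1 := Subtype.ext h1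
        rw [this, orderOf_one] at hi
        omega
      · have h3 : i ^ 2 = 1 := by rw [← hi]; exact pow_orderOf_eq_one i
        exact congrArg Subtype.val h3
    obtain ⟨y, hy⟩ : ∃ y : Ω, i • y ≠ y := by
      by_contra hn
      push Not at hn
      apply hi1
      apply FaithfulSMul.eq_of_smul_eq_smul (α := Ω)
      intro w
      rw [hn w, one_smul]
    have hi2 : i • (i • y) = y := by
      rw [← mul_smul, ← pow_two, hi3, one_smul]
    obtain ⟨g, hg1, hg2⟩ := h2' (a := y) (b := i • y) (c := a) (d := b) hy.symm hab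
    refine ⟨g * i * g⁻¹, g • a, ?_, ?_, ?_, ?_, ?_⟩
    · rw [← hg1, mul_smul, mul_smul, inv_smul_smul, hg2]
    · rw [← hg2, mul_smul, mul_smul, inv_smul_smul, hi2, hg1]
    · rw [mul_smul, mul_smul, inv_smul_smul, hia]
    · intro he
      have h3 : a = y := MulAction.injective g (he.trans hg1.symm)
      rw [← h3] at hy
      exact hy hia
    · intro he
      have h3 : a = i • y := MulAction.injective g (he.trans hg2.symm)
      apply hy
      have h4 : i • a = y := by rw [h3, hi2]
      rw [hia] at h4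
      rw [← h4, hia]
  -- the orbital
  let pair : Set.powersetCard Ω 2 := Set.powersetCard.ofCard (Finset.card_pair hab)
  have hpv : ((pair : Set.powersetCard Ω 2) : Finset Ω) = {a, b} := rfl
  let T : Set.powersetCard Ω 2 → Ω → Prop := fun s w => ∃ g : G, g • pair = s ∧ g • z = w
  have hTinv : ∀ (g : G) s w, T s w → T (g • s) (g • w) := by
    rintro g _ _ ⟨g', rfl, rfl⟩
    exact ⟨g * g', mul_smul _ _ _, mul_smul _ _ _⟩
  have hTinv' : ∀ (g : G) s w, T (g • s) (g • w) ↔ T s w := by
    intro g s w
    refine ⟨fun h => ?_, hTinv g s w⟩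
    have := hTinv g⁻¹ _ _ h
    simpa using this
  have hsp : ∀ s : Set.powersetCard Ω 2, ∃ g : G, g • pair = s := by
    intro s
    obtain ⟨x, y, hxy, hs⟩ := Finset.card_eq_two.1 s.2
    obtain ⟨g, hg1, hg2⟩ := h2' hab hxy
    refine ⟨g, Subtype.ext ?_⟩
    show g • ({a, b} : Finset Ω) = (s : Finset Ω)
    rw [hs, Finset.smul_finset_insert, Finset.smul_finset_singleton, hg1, hg2]
  -- the multiplicity
  let Γ : Set.powersetCard Ω 2 → Finset Ω := fun s => Finset.univ.filter (fun w => T s w)
  have hΓc : ∀ s, (Γ s).card = (Γ pair).card := by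
    intro s
    obtain ⟨g, rfl⟩ := hsp s
    apply Finset.card_bij (fun y _ => g⁻¹ • y)
    · intro y hy
      simp only [Γ, Finset.mem_filter, Finset.mem_univ, true_and] at hy ⊢
      have := hTinv g⁻¹ _ _ hy
      simpa using this
    · intro y _ w _ h
      exact MulAction.injective g⁻¹ h
    · intro y hy
      simp only [Γ, Finset.mem_filter, Finset.mem_univ, true_and] at hy
      refine ⟨g • y, ?_, by simp⟩
      simp only [Γ, Finset.mem_filter, Finset.mem_univ, true_and]
      exact hTinv g _ _ hy
  -- the maps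
  have key : ∀ α β : K, α * ((Γ pair).card : K) + β * 2 = 0 → ∀ v : Ω → K, ∑ x, v x = 0 →
      α * ∑ w ∈ Γ pair, v w + β * ∑ x ∈ ((pair : Set.powersetCard Ω 2) : Finset Ω), v x = 0 := by
    intro α β hαβ v hv
    let L : (Ω → K) →ₗ[K] (Set.powersetCard Ω 2 → K) :=
      { toFun := fun v s => α * ∑ w ∈ Γ s, v w + β * ∑ x ∈ (s : Finset Ω), v x
        map_add' := by
          intro u v
          funext s
          simp only [Pi.add_apply, Finset.sum_add_distrib, mul_add]
          ring
        map_smul' := by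
          intro c u
          funext s
          simp only [Pi.smul_apply, smul_eq_mul, RingHom.id_apply, ← Finset.mul_sum]
          ring }
    have hL : ∀ u (s : Set.powersetCard Ω 2), L u s = α * ∑ w ∈ Γ s, u w + β * ∑ x ∈ (s : Finset Ω), u x := fun _ _ => rfl
    have hLg : ∀ (g : G) (u : Ω → K), L (Cfsg.permRep K G Ω g u) = Cfsg.permRep K G (Set.powersetCard Ω 2) g (L u) := by
      intro g u
      funext s
      show L (Cfsg.permRep K G Ω g u) s = L u (g⁻¹ • s)
      rw [hL, hL]
      have e1 : ∑ w ∈ Γ s, (Cfsg.permRep K G Ω g u) w = ∑ w ∈ Γ (g⁻¹ • s), u w := by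
        apply Finset.sum_bij (fun y _ => g⁻¹ • y)
        · intro y hy
          simp only [Γ, Finset.mem_filter, Finset.mem_univ, true_and] at hy ⊢
          exact hTinv g⁻¹ _ _ hy
        · intro y _ w _ h
          exact MulAction.injective g⁻¹ h
        · intro y hy
          simp only [Γ, Finset.mem_filter, Finset.mem_univ, true_and] at hy
          refine ⟨g • y, ?_, by simp⟩
          simp only [Γ, Finset.mem_filter, Finset.mem_univ, true_and]
          have := hTinv g _ _ hy
          simpa using this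
        · intro y _
          rfl
      have e2 : ∑ x ∈ (s : Finset Ω), (Cfsg.permRep K G Ω g u) x = ∑ x ∈ ((g⁻¹ • s : Set.powersetCard Ω 2) : Finset Ω), u x := by
        show _ = ∑ x ∈ g⁻¹ • (s : Finset Ω), u x
        rw [Finset.smul_finset_def, Finset.sum_image (fun x _ y _ h => MulAction.injective g⁻¹ h)]
        rfl
      rw [e1, e2]
    let F : Representation.IntertwiningMap (Cfsg.permSumZero K G Ω).toRepresentation (Cfsg.permRep K G (Set.powersetCard Ω 2)) :=
      { toLinearMap := L.comp (Cfsg.permSumZero K G Ω).toSubmodule.subtype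
        isIntertwining' := fun g => LinearMap.ext fun u => hLg g u.1 }
    have hF0 : ∀ u : (Cfsg.permSumZero K G Ω).toSubmodule, (u : Ω → K) ∈ (Cfsg.permConstants K G Ω).toSubmodule → F u = 0 := by
      intro u hu
      obtain ⟨c, hc⟩ := Submodule.mem_span_singleton.1 hu
      funext s
      show L u.1 s = 0
      rw [hL, ← hc]
      simp only [Pi.smul_apply, smul_eq_mul, mul_one, Finset.sum_const, nsmul_eq_mul, s.2.out]
      rw [hΓc s]
      have : ((2 : ℕ) : K) = 2 := by norm_cast
      rw [this]
      calc α * (((Γ pair).card : K) * c) + β * (2 * c) = (α * ((Γ pair).card : K) + β * 2) * c := by ring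
        _ = 0 := by rw [hαβ, zero_mul]
    have hF := h F hF0
    have h3 : F ⟨v, hv⟩ pair = 0 := by rw [hF]; rfl
    exact h3
  -- the point
  have hΓ : ∀ w, T pair w → ∃ g : G, g • a = a ∧ g • b = b ∧ g • z = w := by
    rintro w ⟨g, hg, rfl⟩
    have hg' : g • ({a, b} : Finset Ω) = {a, b} := congrArg Subtype.val hg
    have hga : g • a ∈ ({a, b} : Finset Ω) := by
      rw [← hg']
      exact Finset.smul_mem_smul_finset (by simp)
    have hgb : g • b ∈ ({a, b} : Finset Ω) := by
      rw [← hg']
      exact Finset.smul_mem_smul_finset (by simp)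
    have hne : g • a ≠ g • b := fun h => hab (MulAction.injective g h)
    simp only [Finset.mem_insert, Finset.mem_singleton] at hga hgb
    rcases hga with h1 | h1 <;> rcases hgb with h1' | h1'
    · exact absurd (h1.trans h1'.symm) hne
    · exact ⟨g, h1, h1', rfl⟩
    · refine ⟨g * t, ?_, ?_, ?_⟩
      · rw [mul_smul, hta, h1']
      · rw [mul_smul, htb, h1]
      · rw [mul_smul, htz]
    · exact absurd (h1.trans h1'.symm) hne
  have hTz : T pair z := ⟨1, one_smul _ _, one_smul _ _⟩
  obtain ⟨e, hea, heb, heT⟩ : ∃ e : Ω, e ≠ a ∧ e ≠ b ∧ ¬ T pair e := by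
    by_cases hc : T pair c
    · by_cases hd : T pair d
      · exfalso
        obtain ⟨g1, h1a, h1b, h1c⟩ := hΓ c hc
        obtain ⟨g2, h2a, h2b, h2c⟩ := hΓ d hd
        refine hno (g2 * g1⁻¹) ?_ ?_ ?_
        · rw [mul_smul, inv_smul_eq_iff.2 h1a.symm, h2a]
        · rw [mul_smul, inv_smul_eq_iff.2 h1b.symm, h2b]
        · rw [mul_smul, ← h1c, inv_smul_smul, h2c]
      · exact ⟨d, hda, hdb, hd⟩
    · exact ⟨c, hca, hcb, hc⟩
  have hez : e ≠ z := fun he => heT (he ▸ hTz)
  have hmemz : z ∈ Γ pair := by simp [Γ, hTz]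
  have hmeme : e ∉ Γ pair := by simp [Γ, heT]
  by_cases h20 : (2 : K) = 0
  · -- characteristic two
    have := key 0 1 (by rw [h20]; ring) (fun w => (if w = a then 1 else 0) - (if w = z then 1 else 0)) (by
      rw [Finset.sum_sub_distrib, Finset.sum_ite_eq' , Finset.sum_ite_eq']
      simp)
    rw [hpv] at this
    rw [zero_mul, zero_add, one_mul, Finset.sum_pair hab] at this
    have hba : b ≠ a := hab.symm
    simp [hab, hba, hza.symm, hzb.symm] at this
  · have := key 1 (-((Γ pair).card : K) / 2) (by field_simp; ring) (fun w => (if w = z then 1 else 0) - (if w = e then 1 else 0)) (by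
      rw [Finset.sum_sub_distrib, Finset.sum_ite_eq', Finset.sum_ite_eq']
      simp)
    rw [hpv, Finset.sum_pair hab, Finset.sum_sub_distrib, Finset.sum_ite_eq', Finset.sum_ite_eq', if_pos hmemz, if_neg hmeme] at this
    simp [hza.symm, hzb.symm, hea.symm, heb.symm] at this

end Cfsg.Agent.S0672
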