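import Cfsg.Statements.S0676
import Mathlib
import Cfsg.Agent.S0672
import Cfsg.Agent.Lib.PrimeDeg4

set_option autoImplicit false
open Cfsg

namespace Cfsg.Agent.S0676

open scoped Pointwise

/-- A non-solvable transitive permutation group of prime degree `p` whose Sylow `p`-normaliser has even order is triply transitive. -/
theorem result {α : Type*} [Fintype α] [DecidableEq α] {p : ℕ} [Fact p.Prime] (hα : Fintype.card α = p) (G : Subgroup (Equiv.Perm α)) [MulAction.IsPretransitive G α] (hG : ¬ Group.IsSolvable G) (P : Sylow p G) (heven : Even (Nat.card (Subgroup.normalizer ((P : Subgroup G) : Set G)))) : MulAction.IsMultiplyPretransitive G α 3 := by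
  classical
  have hpp : p.Prime := Fact.out
  have hp2 : p ≠ 2 := by
    rintro rfl
    apply hG
    have h1 : Nat.card (Equiv.Perm α) = 2 := by
      rw [Nat.card_eq_fintype_card, Fintype.card_perm, hα]
      rfl
    haveI : IsCyclic (Equiv.Perm α) := isCyclic_of_prime_card h1
    have hcomm : ∀ a b : Equiv.Perm α, a * b = b * a := fun a b => IsCyclic.isMulCommutative.is_comm.comm a b
    exact Group.isSolvable_of_comm (fun a b => Subtype.ext (hcomm a b))
  obtain ⟨τ, hτP, hτo, hgen⟩ := Cfsg.Agent.Lib.PrimeDeg4.exists_gen hα G P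
  obtain ⟨ι, hι⟩ := Cfsg.Agent.Lib.PrimeDeg4.label_of hα G τ hτo
  haveI : Fact (Nat.Prime 2) := ⟨Nat.prime_two⟩
  obtain ⟨s, hs1, hs2, hsN⟩ : ∃ s : G, s ≠ 1 ∧ s ^ 2 = 1 ∧ s ∈ Subgroup.normalizer ((P : Subgroup G) : Set G) := by
    obtain ⟨s0, hs0⟩ := exists_prime_orderOf_dvd_card' (G := Subgroup.normalizer ((P : Subgroup G) : Set G)) 2 (even_iff_two_dvd.1 heven)
    refine ⟨s0, ?_, ?_, s0.2⟩
    · intro h1
      have : s0 = 1 := Subtype.ext h1
      rw [this, orderOf_one] at hs0
      omega
    · have h3 : s0 ^ 2 = 1 := by rw [← hs0]; exact pow_orderOf_eq_one s0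
      exact congrArg Subtype.val h3
  obtain ⟨k, hk⟩ : ∃ k : ℕ, s * τ * s⁻¹ = τ ^ k := hgen _ ((Subgroup.mem_normalizer_iff.1 hsN τ).1 hτP)
  obtain ⟨b, hb⟩ := Cfsg.Agent.Lib.PrimeDeg4.inverting hp2 G τ ι hι s hs1 hs2 k hk
  have h2ne : (2 : ZMod p) ≠ 0 := by
    intro h
    have h3 : ((2 : ℕ) : ZMod p) = 0 := by exact_mod_cast h
    rw [ZMod.natCast_eq_zero_iff] at h3
    exact hp2 ((Nat.prime_dvd_prime_iff_eq hpp Nat.prime_two).1 h3)
  have hτs : ∀ j, τ • ι j = ι (j + 1) := hι
  have hss : ∀ j, s • ι j = ι (b - j) := hb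
  have hsinv : s⁻¹ = s := by
    rw [inv_eq_iff_mul_eq_one, ← pow_two, hs2]
  have heven' : ∀ a : α, Even (Nat.card (MulAction.stabilizer G a)) := by
    intro a
    rw [Cfsg.Agent.Lib.PrimeDeg4.card_stab_eq G a (ι (b / 2))]
    have hfix : s • ι (b / 2) = ι (b / 2) := by
      rw [hss]
      congr 1
      field_simp
      ring
    let s' : MulAction.stabilizer G (ι (b / 2)) := ⟨s, hfix⟩
    have hs'2 : orderOf s' = 2 := by
      apply orderOf_eq_prime
      · exact Subtype.ext hs2
      · intro h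
        exact hs1 (congrArg Subtype.val h)
    rw [even_iff_two_dvd, ← hs'2]
    exact orderOf_dvd_natCard s'
  have h2 : MulAction.IsMultiplyPretransitive G α 2 := (Cfsg.Agent.Lib.PrimeDeg3.burnside hα G).resolve_left hG
  refine Cfsg.Agent.S0672.result (K := ZMod p) (p := p) h2 (by rw [hα]) heven' ?_
  intro f hf0
  -- the coordinate function
  let x : α → ZMod p := fun a => ι.symm a
  have hx : ∀ j, x (ι j) = j := fun j => by simp [x]
  have hsum : ∑ a, x a = 0 := by
    have h1 : ∑ a, x a = ∑ j : ZMod p, j := by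
      rw [← Equiv.sum_comp ι]
      exact Finset.sum_congr rfl (fun j _ => hx j)
    have h3 : ∑ j : ZMod p, j = - ∑ j : ZMod p, j := by
      rw [← Finset.sum_neg_distrib]
      exact (Equiv.sum_comp (Equiv.neg (ZMod p)) (fun j => j)).symm
    rw [h1]
    have h4 : 2 * ∑ j : ZMod p, j = 0 := by linear_combination h3
    exact (mul_eq_zero.1 h4).resolve_left h2ne
  let X : (Cfsg.permSumZero (ZMod p) G α).toSubmodule := ⟨x, hsum⟩
  have hsumc : ∀ c : ZMod p, (fun _ : α => c) ∈ (Cfsg.permSumZero (ZMod p) G α).toSubmodule := by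
    intro c
    show ∑ _a : α, c = 0
    simp [hα]
  let C : ZMod p → (Cfsg.permSumZero (ZMod p) G α).toSubmodule := fun c => ⟨fun _ => c, hsumc c⟩
  have hfC : ∀ c, f (C c) = 0 := by
    intro c
    apply hf0
    apply Submodule.mem_span_singleton.2
    refine ⟨c, ?_⟩
    funext a
    simp [C]
  have hρ : ∀ (g : G) (v : (Cfsg.permSumZero (ZMod p) G α).toSubmodule) (S : Set.powersetCard α 2),
      f ((Cfsg.permSumZero (ZMod p) G α).toRepresentation g v) S = f v (g⁻¹ • S) := by
    intro g v S
    have h1 := LinearMap.congr_fun (f.isIntertwining' g) v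
    exact congrFun h1 S
  -- invariance under τ
  have hτX : (Cfsg.permSumZero (ZMod p) G α).toRepresentation τ X = X - C 1 := by
    apply Subtype.ext
    funext a
    obtain ⟨j, rfl⟩ := ι.surjective a
    have h1 : τ⁻¹ • ι j = ι (j - 1) := by
      rw [inv_smul_eq_iff, hτs]
      simp
    show x (τ⁻¹ • ι j) = x (ι j) - 1
    rw [h1, hx, hx]
  have hsX : (Cfsg.permSumZero (ZMod p) G α).toRepresentation s X = C b - X := by
    apply Subtype.ext
    funext a
    obtain ⟨j, rfl⟩ := ι.surjective a
    show x (s⁻¹ • ι j) = b - x (ι j)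
    rw [hsinv, hss, hx, hx]
  have hu1 : ∀ S, f X (τ⁻¹ • S) = f X S := by
    intro S
    rw [← hρ, hτX, map_sub, hfC, sub_zero]
  have hu2 : ∀ S, f X (s⁻¹ • S) = - f X S := by
    intro S
    rw [← hρ, hsX, map_sub, hfC]
    simp
  have hu3 : ∀ (n : ℕ) S, f X ((τ ^ n : G) • S) = f X S := by
    intro n
    induction n with
    | zero => simp
    | succ n ih =>
      intro S
      rw [pow_succ, mul_smul, ih]
      have := hu1 (τ • S)
      rw [inv_smul_smul] at this
      exact this.symm
  have hτk : ∀ (n : ℕ) j, (τ ^ n : G) • ι j = ι (j + n) := by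
    intro n j
    induction n with
    | zero => simp
    | succ n ih =>
      rw [pow_succ', mul_smul, ih, hτs]
      push_cast
      ring_nf
  have hu0 : f X = 0 := by
    funext S
    obtain ⟨y, z, hyz, hS⟩ := Finset.card_eq_two.1 S.2
    obtain ⟨i, rfl⟩ := ι.surjective y
    obtain ⟨j, rfl⟩ := ι.surjective z
    let m : ℕ := (b - i - j).val
    have hm : ((m : ℕ) : ZMod p) = b - i - j := by
      simp [m]
    have hSS : s⁻¹ • S = (τ ^ m : G) • S := by
      apply Subtype.ext
      show s⁻¹ • (S : Finset α) = (τ ^ m : G) • (S : Finset α)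
      rw [hS, Finset.smul_finset_insert, Finset.smul_finset_singleton, Finset.smul_finset_insert, Finset.smul_finset_singleton, hsinv, hss, hss, hτk, hτk, hm, Finset.pair_comm]
      congr 2
      · congr 1
        ring
      · congr 2
        ring
    have h1 := hu2 S
    rw [hSS, hu3] at h1
    have h3 : 2 * f X S = 0 := by linear_combination h1
    exact (mul_eq_zero.1 h3).resolve_left h2ne
  -- the kernel
  let W : Subrepresentation (Cfsg.permRep (ZMod p) G α) :=
    { toSubmodule := (LinearMap.ker f.toLinearMap).map (Cfsg.permSumZero (ZMod p) G α).toSubmodule.subtype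
      apply_mem_toSubmodule := by
        rintro g _ ⟨v, hv, rfl⟩
        refine ⟨(Cfsg.permSumZero (ZMod p) G α).toRepresentation g v, ?_, rfl⟩
        have h1 : f v = 0 := hv
        have h3 := LinearMap.congr_fun (f.isIntertwining' g) v
        show f ((Cfsg.permSumZero (ZMod p) G α).toRepresentation g v) = 0
        have h4 : f ((Cfsg.permSumZero (ZMod p) G α).toRepresentation g v) = (Cfsg.permRep (ZMod p) G (Set.powersetCard α 2)) g (f v) := h3
        rw [h4, h1, map_zero] }
  have hW1 : (Cfsg.permConstants (ZMod p) G α).toSubmodule ≤ W.toSubmodule := by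
    intro v hv
    obtain ⟨c, rfl⟩ := Submodule.mem_span_singleton.1 hv
    refine ⟨C c, hfC c, ?_⟩
    funext a
    simp [C]
  have hW2 : W.toSubmodule ≤ (Cfsg.permSumZero (ZMod p) G α).toSubmodule := by
    rintro _ ⟨v, _, rfl⟩
    exact v.2
  rcases Cfsg.Agent.Lib.PrimeDeg2.heart_irreducible hα G hG W hW1 hW2 with hW | hW
  · exfalso
    have h1 : x ∈ W.toSubmodule := ⟨X, hu0, rfl⟩
    rw [hW] at h1
    obtain ⟨c, hc⟩ := Submodule.mem_span_singleton.1 h1
    have h3 := congrFun hc (ι 0)
    have h4 := congrFun hc (ι 1)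
    simp only [hx, Pi.smul_apply, smul_eq_mul] at h3 h4
    have : (0 : ZMod p) = 1 := h3.symm.trans h4
    exact zero_ne_one this
  · apply DFunLike.ext
    intro v
    have h1 : (v : α → ZMod p) ∈ W.toSubmodule := by
      rw [hW]
      exact v.2
    obtain ⟨v', hv', he⟩ := h1
    have h3 : v' = v := Subtype.ext he
    rw [← h3]
    exact hv'

end Cfsg.Agent.S0676
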