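import Cfsg.Statements.S0677
import Mathlib
import Cfsg.Agent.Lib.PrimeDeg5

set_option autoImplicit false
open Cfsg

namespace Cfsg.Agent.S0677

open Cfsg.Agent.Lib.PrimeDeg4 Cfsg.Agent.Lib.PrimeDeg5

theorem label_act {A Γ : Type*} [Group A] [MulAction A Γ] [Fintype Γ] [DecidableEq Γ] {p : ℕ} [Fact p.Prime]
    (hc : Fintype.card Γ = p) (τ : A) (hτp : τ ^ p = 1) (c₁ : Γ) (h1 : τ • c₁ ≠ c₁) :
    ∃ ι : ZMod p ≃ Γ, ∀ j, τ • ι j = ι (j + 1) := by
  classical
  let σ : (⊤ : Subgroup (Equiv.Perm Γ)) := ⟨MulAction.toPermHom A Γ τ, trivial⟩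
  have hσ : orderOf σ = p := by
    apply orderOf_eq_prime
    · apply Subtype.ext
      show MulAction.toPermHom A Γ τ ^ p = 1
      rw [← map_pow, hτp, map_one]
    · intro h
      apply h1
      have h2 : MulAction.toPermHom A Γ τ = 1 := congrArg Subtype.val h
      have h3 := congrArg (fun q : Equiv.Perm Γ => q c₁) h2
      exact h3
  obtain ⟨ι, hι⟩ := label_of hc _ σ hσ
  exact ⟨ι, hι⟩

theorem invert_coord {A Γ : Type*} [Group A] [MulAction A Γ] {p : ℕ} [Fact p.Prime] (τ s : A) (ι : ZMod p ≃ Γ)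
    (hι : ∀ j, τ • ι j = ι (j + 1)) (hs : s * τ * s⁻¹ = τ⁻¹) : ∃ b : ZMod p, ∀ j, s • ι j = ι (b - j) := by
  classical
  let φ : ZMod p → ZMod p := fun j => ι.symm (s • ι j)
  have hφ : ∀ j, s • ι j = ι (φ j) := fun j => by simp [φ]
  have hτi : ∀ j, τ⁻¹ • ι j = ι (j - 1) := by
    intro j
    rw [inv_smul_eq_iff, hι]
    simp
  have step : ∀ j, φ (j + 1) = φ j + (-1) := by
    intro j
    apply ι.injective
    rw [← hφ, ← hι, ← sub_eq_add_neg, ← hτi, ← hφ, ← hs, ← mul_smul, ← mul_smul]
    simp
  have hlin := lin_of_step φ (-1) step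
  refine ⟨φ 0, fun j => ?_⟩
  rw [hφ, hlin j]
  congr 1
  ring

theorem even_card_invol {β : Type*} [DecidableEq β] (C : Finset β) (g : β → β) (hmem : ∀ x ∈ C, g x ∈ C)
    (hinv : ∀ x ∈ C, g (g x) = x) (hne : ∀ x ∈ C, g x ≠ x) : Even C.card := by
  classical
  have h1 : ∑ x ∈ C, (1 : ZMod 2) = 0 := by
    apply Finset.sum_involution (fun x _ => g x)
    · intro a _
      decide
    · intro a ha _
      exact hne a ha
    · intro a ha
      exact hmem a ha
    · intro a ha
      exact hinv a ha
  rw [Finset.sum_const, nsmul_eq_mul, mul_one] at h1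
  exact (ZMod.natCast_eq_zero_iff_even).1 h1

theorem exists_odd_orbit {A Ω : Type*} [Group A] [MulAction A Ω] [Finite Ω] (h : ¬ 2 ∣ Nat.card Ω) :
    ∃ a : Ω, ¬ 2 ∣ Nat.card (MulAction.orbit A a) := by
  classical
  by_contra hn
  push Not at hn
  apply h
  haveI : Fintype (MulAction.orbitRel.Quotient A Ω) := Fintype.ofFinite _
  rw [Nat.card_congr (MulAction.selfEquivSigmaOrbits' A Ω), Nat.card_sigma]
  apply Finset.dvd_sum
  intro ω _
  induction ω using Quotient.inductionOn' with
  | h a =>
    have h1 := hn a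
    have h2 : MulAction.orbitRel.Quotient.orbit (Quotient.mk'' a : MulAction.orbitRel.Quotient A Ω) = MulAction.orbit A a :=
      MulAction.orbitRel.Quotient.orbit_mk a
    show 2 ∣ Nat.card ↥(MulAction.orbitRel.Quotient.orbit (Quotient.mk'' a : MulAction.orbitRel.Quotient A Ω))
    rw [h2]
    exact h1

theorem two_trans_case {α : Type*} [Fintype α] [DecidableEq α] {p : ℕ} [Fact p.Prime] (hα : Fintype.card α = p)
    (G : Subgroup (Equiv.Perm α)) [MulAction.IsPretransitive G α] (hp2 : p ≠ 2)
    (h2 : MulAction.IsMultiplyPretransitive G α 2) (P : Sylow p G)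
    (heven : Even (Nat.card (Subgroup.normalizer ((P : Subgroup G) : Set G)))) (H : Subgroup G) (hH : H.index = p) :
    ∃ a : α, H = MulAction.stabilizer G a := by
  classical
  have hpp : p.Prime := Fact.out
  have h2' : ∀ {a b c d : α}, a ≠ b → c ≠ d → ∃ g : G, g • a = c ∧ g • b = d :=
    MulAction.is_two_pretransitive_iff.1 h2
  have hpH := not_dvd_of_index hα G H hH
  obtain ⟨τ, hτP, hτo, hgen⟩ := exists_gen hα G P
  obtain ⟨ι, hι⟩ := label_of hα G τ hτo
  have hτs : ∀ j, τ • ι j = ι (j + 1) := hι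
  haveI : Fact (Nat.Prime 2) := ⟨Nat.prime_two⟩
  obtain ⟨s, hs1, hs2, hsN⟩ : ∃ s : G, s ≠ 1 ∧ s ^ 2 = 1 ∧ s ∈ Subgroup.normalizer ((P : Subgroup G) : Set G) := by
    obtain ⟨s0, hs0⟩ := exists_prime_orderOf_dvd_card' (G := Subgroup.normalizer ((P : Subgroup G) : Set G)) 2 (even_iff_two_dvd.1 heven)
    refine ⟨s0, ?_, ?_, s0.2⟩
    · intro h1
      have : s0 = 1 := Subtype.ext h1
      rw [this, orderOf_one] at hs0
      omega
    · have h3 : s0 ^ 2 = 1 := by rw [← hs0]; exact pow_orderOf_eq_one s0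
      exact congrArg Subtype.val h3
  obtain ⟨k, hk⟩ : ∃ k : ℕ, s * τ * s⁻¹ = τ ^ k := hgen _ ((Subgroup.mem_normalizer_iff.1 hsN τ).1 hτP)
  obtain ⟨b, hb⟩ := inverting hp2 G τ ι hι s hs1 hs2 k hk
  have hss : ∀ j, s • ι j = ι (b - j) := hb
  have hsinv : s⁻¹ = s := by
    rw [inv_eq_iff_mul_eq_one, ← pow_two, hs2]
  have hs' : ∀ x : α, s • (s • x) = x := by
    intro x
    rw [← mul_smul, ← pow_two, hs2, one_smul]
  have h2ne : (2 : ZMod p) ≠ 0 := by
    intro h
    have h3 : ((2 : ℕ) : ZMod p) = 0 := by exact_mod_cast h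
    rw [ZMod.natCast_eq_zero_iff] at h3
    exact hp2 ((Nat.prime_dvd_prime_iff_eq hpp Nat.prime_two).1 h3)
  -- `s` inverts `τ`
  have hsτ : s * τ * s⁻¹ = τ⁻¹ := by
    apply Subtype.ext
    ext w
    obtain ⟨j, rfl⟩ := ι.surjective w
    have h3 : τ⁻¹ • ι j = ι (j - 1) := by
      rw [inv_smul_eq_iff, hτs]
      simp
    show (s * τ * s⁻¹) • ι j = τ⁻¹ • ι j
    rw [h3, mul_smul, mul_smul, hsinv, hss, hτs, hss]
    congr 1
    ring
  -- the unique fixed point on the cosets
  let Γ := G ⧸ H
  letI : Fintype Γ := Fintype.ofFinite _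
  have hcΓ : Fintype.card Γ = p := by
    rw [← Nat.card_eq_fintype_card]
    exact hH
  have hτΓ : ∀ c : Γ, τ • c ≠ c := by
    intro c
    induction c using QuotientGroup.induction_on with
    | H g =>
      intro he
      have h3 : g⁻¹ * (τ * g) ∈ H := by
        have h4 : ((τ * g : G) : G ⧸ H) = (g : G ⧸ H) := he
        have h5 := QuotientGroup.eq.1 h4.symm
        exact h5
      have h6 : orderOf (g⁻¹ * τ * g) = p := by
        apply orderOf_eq_prime
        · have : (g⁻¹ * τ * g) ^ p = g⁻¹ * τ ^ p * g := by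
            have h7 := conj_pow (a := g⁻¹) (b := τ) (i := p)
            simpa using h7
          rw [this, ← hτo, pow_orderOf_eq_one]
          group
        · intro h7
          have h8 : τ = 1 := by
            have h9 : τ = g * (g⁻¹ * τ * g) * g⁻¹ := by group
            rw [h9, h7]
            group
          rw [h8, orderOf_one] at hτo
          exact hpp.one_lt.ne hτo
      apply hpH
      rw [← h6, ← mul_assoc] at *
      rw [← Subgroup.orderOf_mk _ h3]
      exact orderOf_dvd_natCard _
  have hτp : τ ^ p = 1 := by rw [← hτo]; exact pow_orderOf_eq_one τ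
  obtain ⟨ι', hι'⟩ := label_act hcΓ τ hτp ((1 : G) : G ⧸ H) (hτΓ _)
  obtain ⟨b', hb'⟩ := invert_coord τ s ι' hι' hsτ
  let x₀ : α := ι (b / 2)
  let c₀ : Γ := ι' (b' / 2)
  have hhalf : ∀ t : ZMod p, t - t / 2 = t / 2 := by
    intro t
    field_simp
    ring
  have hx₀ : s • x₀ = x₀ := by
    show s • ι (b / 2) = ι (b / 2)
    rw [hss, hhalf]
  have hc₀ : s • c₀ = c₀ := by
    show s • ι' (b' / 2) = ι' (b' / 2)
    rw [hb', hhalf]
  have hx₀u : ∀ x, s • x = x → x = x₀ := by
    intro x hx
    obtain ⟨j, rfl⟩ := ι.surjective x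
    rw [hss] at hx
    have h3 := ι.injective hx
    show ι j = ι (b / 2)
    congr 1
    have h4 : 2 * j = b := by linear_combination (-1 : ZMod p) * h3
    rw [← h4]
    field_simp
  have hc₀u : ∀ c : Γ, s • c = c → c = c₀ := by
    intro c hc
    obtain ⟨j, rfl⟩ := ι'.surjective c
    rw [hb'] at hc
    have h3 := ι'.injective hc
    show ι' j = ι' (b' / 2)
    congr 1
    have h4 : 2 * j = b' := by linear_combination (-1 : ZMod p) * h3
    rw [← h4]
    field_simp
  -- an orbit of odd length
  obtain ⟨a₁, ha₁⟩ := exists_odd_orbit (A := H) (Ω := α) (by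
    rw [Nat.card_eq_fintype_card, hα]
    intro h
    exact hp2 ((Nat.prime_dvd_prime_iff_eq Nat.prime_two hpp).1 h).symm)
  let Ω₁ : Set α := MulAction.orbit H a₁
  have hΩH : ∀ h ∈ H, ∀ x, x ∈ Ω₁ → h • x ∈ Ω₁ := by
    intro h hh x hx
    have : (⟨h, hh⟩ : H) • x ∈ MulAction.orbit H a₁ := MulAction.mem_orbit_of_mem_orbit _ hx
    exact this
  -- the incidence relation
  let R : Γ → α → Prop := fun c x => ∃ g : G, (g : G ⧸ H) = c ∧ g⁻¹ • x ∈ Ω₁
  have hRg : ∀ (g : G) x, R (g : G ⧸ H) x ↔ g⁻¹ • x ∈ Ω₁ := by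
    intro g x
    constructor
    · rintro ⟨g', hg', hx⟩
      have h3 : g'⁻¹ * g ∈ H := QuotientGroup.eq.1 hg'
      have h4 := hΩH _ (H.inv_mem h3) _ hx
      have h5 : (g'⁻¹ * g)⁻¹ • g'⁻¹ • x = g⁻¹ • x := by
        rw [← mul_smul]
        congr 1
        group
      rw [h5] at h4
      exact h4
    · intro h
      exact ⟨g, rfl, h⟩
  have hReq : ∀ (k : G) c x, R c x → R (k • c) (k • x) := by
    rintro k c x ⟨g, rfl, hx⟩
    refine ⟨k * g, rfl, ?_⟩
    have h5 : (k * g)⁻¹ • k • x = g⁻¹ • x := by
      rw [← mul_smul]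
      congr 1
      group
    rw [h5]
    exact hx
  -- sizes
  let B : Γ → Finset α := fun c => Finset.univ.filter (fun x => R c x)
  let m := Nat.card (MulAction.orbit H a₁)
  have hBc : ∀ c, (B c).card = m := by
    intro c
    induction c using QuotientGroup.induction_on with
    | H g =>
      have h3 : m = (Finset.univ.filter (fun x => x ∈ Ω₁)).card := by
        show Nat.card ↥Ω₁ = _
        rw [Nat.card_eq_fintype_card]
        exact Fintype.card_subtype _
      rw [h3]
      apply Finset.card_bij (fun x _ => g⁻¹ • x)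
      · intro x hx
        simp only [B, Finset.mem_filter, Finset.mem_univ, true_and] at hx ⊢
        exact (hRg g x).1 hx
      · intro x _ y _ he
        exact MulAction.injective g⁻¹ he
      · intro y hy
        simp only [Finset.mem_filter, Finset.mem_univ, true_and] at hy
        refine ⟨g • y, ?_, by simp⟩
        simp only [B, Finset.mem_filter, Finset.mem_univ, true_and]
        rw [hRg, inv_smul_smul]
        exact hy
  -- the pair count
  let C : α → α → Finset Γ := fun x y => Finset.univ.filter (fun c => R c x ∧ R c y)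
  have hCc : ∀ x y x' y', x ≠ y → x' ≠ y' → (C x y).card = (C x' y').card := by
    intro x y x' y' hxy hxy'
    obtain ⟨k, hk1, hk2⟩ := h2' hxy hxy'
    apply Finset.card_bij (fun c _ => k • c)
    · intro c hc
      simp only [C, Finset.mem_filter, Finset.mem_univ, true_and] at hc ⊢
      rw [← hk1, ← hk2]
      exact ⟨hReq k _ _ hc.1, hReq k _ _ hc.2⟩
    · intro c _ d _ he
      exact MulAction.injective k he
    · intro d hd
      simp only [C, Finset.mem_filter, Finset.mem_univ, true_and] at hd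
      refine ⟨k⁻¹ • d, ?_, by simp⟩
      simp only [C, Finset.mem_filter, Finset.mem_univ, true_and]
      have h3 := hReq k⁻¹ _ _ hd.1
      have h4 := hReq k⁻¹ _ _ hd.2
      rw [← hk1, inv_smul_smul] at h3
      rw [← hk2, inv_smul_smul] at h4
      exact ⟨h3, h4⟩
  have hsΓ : ∀ c : Γ, s • (s • c) = c := by
    intro c
    rw [← mul_smul, ← pow_two, hs2, one_smul]
  have hRs : ∀ c x, R c x → R (s • c) (s • x) := fun c x h => hReq s c x h
  -- parity on the pair `x, s x`
  have hodd : ∀ x, x ≠ x₀ → (Even (C x (s • x)).card ↔ ¬ R c₀ x) := by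
    intro x hx
    have hc0mem : c₀ ∈ C x (s • x) ↔ R c₀ x := by
      simp only [C, Finset.mem_filter, Finset.mem_univ, true_and]
      constructor
      · exact fun h => h.1
      · intro h
        refine ⟨h, ?_⟩
        have h3 := hRs _ _ h
        rw [hc₀] at h3
        exact h3
    have hmem : ∀ c ∈ C x (s • x), s • c ∈ C x (s • x) := by
      intro c hc
      simp only [C, Finset.mem_filter, Finset.mem_univ, true_and] at hc ⊢
      refine ⟨?_, hRs _ _ hc.1⟩
      have h3 := hRs _ _ hc.2
      rw [hs'] at h3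
      exact h3
    by_cases hR : R c₀ x
    · have h3 := even_card_invol ((C x (s • x)).erase c₀) (fun c => s • c) (by
        intro c hc
        rw [Finset.mem_erase] at hc ⊢
        refine ⟨?_, hmem c hc.2⟩
        intro he
        apply hc.1
        have h4 := congrArg (fun d => s • d) he
        simp only [hsΓ, hc₀] at h4
        exact h4) (fun c _ => hsΓ c) (by
        intro c hc he
        rw [Finset.mem_erase] at hc
        exact hc.1 (hc₀u c he))
      rw [Finset.card_erase_of_mem (hc0mem.2 hR)] at h3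
      have hpos : 0 < (C x (s • x)).card := Finset.card_pos.2 ⟨c₀, hc0mem.2 hR⟩
      constructor
      · intro he
        exfalso
        rcases he with ⟨u, hu⟩
        rcases h3 with ⟨v, hv⟩
        omega
      · intro h
        exact absurd hR h
    · have h3 := even_card_invol (C x (s • x)) (fun c => s • c) hmem (fun c _ => hsΓ c) (by
        intro c hc he
        rw [hc₀u c he] at hc
        exact hR (hc0mem.1 hc))
      exact ⟨fun _ => hR, fun _ => h3⟩
  -- a second point
  obtain ⟨x₁, hx₁⟩ : ∃ x₁ : α, x₁ ≠ x₀ := by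
    haveI : Nontrivial α := Fintype.one_lt_card_iff_nontrivial.1 (by rw [hα]; exact hpp.one_lt)
    exact exists_ne x₀
  have hsne : ∀ x, x ≠ x₀ → x ≠ s • x := fun x hx he => hx (hx₀u x he.symm)
  have hall : ∀ x, x ≠ x₀ → (C x (s • x)).card = (C x₁ (s • x₁)).card :=
    fun x hx => hCc _ _ _ _ (hsne x hx) (hsne x₁ hx₁)
  have hmcard : (B c₀).card = m := hBc c₀
  have hmodd : ¬ 2 ∣ m := ha₁
  have hfix1 : m = 1 := by
    by_cases hev : Even (C x₁ (s • x₁)).card
    · -- no point except `x₀`
      have h3 : B c₀ ⊆ {x₀} := by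
        intro x hx
        simp only [B, Finset.mem_filter, Finset.mem_univ, true_and] at hx
        by_contra hne
        have hne' : x ≠ x₀ := fun he => hne (by simp [he])
        have h4 := (hodd x hne').1 (by rw [hall x hne']; exact hev)
        exact h4 hx
      have h4 := Finset.card_le_card h3
      rw [hmcard, Finset.card_singleton] at h4
      omega
    · exfalso
      have h3 : Finset.univ.erase x₀ ⊆ B c₀ := by
        intro x hx
        have hne' := (Finset.mem_erase.1 hx).1
        simp only [B, Finset.mem_filter, Finset.mem_univ, true_and]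
        by_contra hR
        have h4 := (hodd x hne').2 hR
        rw [hall x hne'] at h4
        exact hev h4
      have h4 := Finset.card_le_card h3
      rw [hmcard, Finset.card_erase_of_mem (Finset.mem_univ _), Finset.card_univ, hα] at h4
      have h5 : m ≤ p := by
        rw [← hmcard, ← hα]
        exact Finset.card_le_univ _
      have hoddp : ¬ 2 ∣ p := by
        intro h
        exact hp2 ((Nat.prime_dvd_prime_iff_eq Nat.prime_two hpp).1 h).symm
      have h6 : m = p := by omega
      apply hpH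
      have h7 := Cfsg.Agent.Lib.OrbitCount.card_orbit_mul (A := H) a₁
      have h8 : Nat.card (MulAction.orbit H a₁) = p := h6
      rw [h8] at h7
      exact ⟨_, h7.symm⟩
  refine ⟨a₁, eq_stab_of_le hα G H hH a₁ ?_⟩
  intro h hh
  have h3 : Nat.card (MulAction.orbit H a₁) = 1 := hfix1
  obtain ⟨hsub, _⟩ := Nat.card_eq_one_iff_unique.1 h3
  have h4 : (⟨h • a₁, (⟨h, hh⟩ : H), rfl⟩ : MulAction.orbit H a₁) = ⟨a₁, MulAction.mem_orbit_self a₁⟩ := Subsingleton.elim _ _
  exact congrArg Subtype.val h4

/-- In a transitive permutation group of prime degree `p` whose Sylow `p`-normaliser has even order, the point stabilisers are the only subgroups of index `p`. -/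
theorem result {α : Type*} [Fintype α] [DecidableEq α] {p : ℕ} [Fact p.Prime] (hα : Fintype.card α = p) (G : Subgroup (Equiv.Perm α)) [MulAction.IsPretransitive G α] (P : Sylow p G) (heven : Even (Nat.card (Subgroup.normalizer ((P : Subgroup G) : Set G)))) (H : Subgroup G) (hH : H.index = p) : ∃ a : α, H = MulAction.stabilizer G a := by
  classical
  have hpp : p.Prime := Fact.out
  by_cases hs : Group.IsSolvable G
  · exact solvable_case hα G hs H hH
  · have hp2 : p ≠ 2 := by
      rintro rfl
      apply hs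
      have h1 : Nat.card (Equiv.Perm α) = 2 := by
        rw [Nat.card_eq_fintype_card, Fintype.card_perm, hα]
        rfl
      haveI : IsCyclic (Equiv.Perm α) := isCyclic_of_prime_card h1
      have hcomm : ∀ a b : Equiv.Perm α, a * b = b * a := fun a b => IsCyclic.isMulCommutative.is_comm.comm a b
      exact Group.isSolvable_of_comm (fun a b => Subtype.ext (hcomm a b))
    exact two_trans_case hα G hp2 ((Cfsg.Agent.Lib.PrimeDeg3.burnside hα G).resolve_left hs) P heven H hH

end Cfsg.Agent.S0677
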