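import Cfsg.Statements.S0680
import Mathlib
import Cfsg.Agent.Lib.OrbitCount

set_option autoImplicit false
open Cfsg

namespace Cfsg.Agent.S0680

open Finset in
/-- The core of the argument: the fixed-point-free elements together with `1` form a normal abelian regular subgroup. -/
theorem sharp_core {α : Type*} [Fintype α] [DecidableEq α] (G : Subgroup (Equiv.Perm α))
    [hT : MulAction.IsMultiplyPretransitive G α 2]
    (hsharp : ∀ x : Fin 2 ↪ α, MulAction.stabilizer G x = ⊥) (h2 : 2 ≤ Fintype.card α) :
    Nat.card G = Fintype.card α * (Fintype.card α - 1) ∧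
    ∃ N : Subgroup G, N.Normal ∧ (∀ m ∈ N, ∀ m' ∈ N, m * m' = m' * m) ∧ (∀ g : G, g ∈ N ↔ g = 1 ∨ ∀ a : α, g • a ≠ a) ∧
      Nat.card N = Fintype.card α ∧ (∀ a b : α, ∃ m ∈ N, m • a = b) ∧
      (∀ y ∈ N, y ≠ 1 → ∀ y' ∈ N, y' ≠ 1 → ∃ g : G, g * y * g⁻¹ = y') := by
  classical
  letI : Fintype G := Fintype.ofFinite _
  set n := Fintype.card α with hn
  have h2' : ∀ {a b c d : α}, a ≠ b → c ≠ d → ∃ g : G, g • a = c ∧ g • b = d :=
    MulAction.is_two_pretransitive_iff.1 hT
  have hfix2 : ∀ (g : G) (a b : α), a ≠ b → g • a = a → g • b = b → g = 1 := by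
    intro g a b hab ha hb
    let x : Fin 2 ↪ α := ⟨![a, b], by
      intro i j h
      fin_cases i <;> fin_cases j <;> simp_all⟩
    have h1 : g ∈ MulAction.stabilizer G x := by
      show g • x = x
      ext i
      fin_cases i
      · exact ha
      · exact hb
    rw [hsharp x] at h1
    exact Subgroup.mem_bot.1 h1
  obtain ⟨a₀, b₀, hab₀⟩ : ∃ a b : α, a ≠ b := by
    haveI : Nontrivial α := Fintype.one_lt_card_iff_nontrivial.1 (by omega)
    exact exists_pair_ne α
  have hne : ∀ a : α, ∃ b : α, b ≠ a := by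
    intro a
    haveI : Nontrivial α := Fintype.one_lt_card_iff_nontrivial.1 (by omega)
    exact exists_ne a
  -- orders
  have htrans : ∀ a b : α, ∃ g : G, g • a = b := by
    intro a b
    obtain ⟨c, hc⟩ := hne a
    obtain ⟨d, hd⟩ := hne b
    obtain ⟨g, hg, -⟩ := h2' hc.symm hd.symm
    exact ⟨g, hg⟩
  have hcardG : Nat.card G = n * (n - 1) := by
    let x : Fin 2 ↪ α := ⟨![a₀, b₀], by
      intro i j h
      fin_cases i <;> fin_cases j <;> simp_all⟩
    have hbij : Function.Bijective (fun g : G => g • x) := by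
      constructor
      · intro g g' he
        have h0 := DFunLike.congr_fun he 0
        have h1 := DFunLike.congr_fun he 1
        have h0' : g • a₀ = g' • a₀ := h0
        have h1' : g • b₀ = g' • b₀ := h1
        have h3 : g'⁻¹ * g = 1 := by
          apply hfix2 _ a₀ b₀ hab₀
          · rw [mul_smul, h0', inv_smul_smul]
          · rw [mul_smul, h1', inv_smul_smul]
        exact (inv_mul_eq_one.1 h3).symm
      · intro y
        exact hT.exists_smul_eq x y
    have h1 := Nat.card_congr (Equiv.ofBijective _ hbij)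
    rw [h1, Nat.card_eq_fintype_card (α := Fin 2 ↪ α), Fintype.card_embedding_eq, Fintype.card_fin, Nat.descFactorial_eq_prod_range]
    simp [Finset.prod_range_succ, hn]
  have hstabc : ∀ a : α, Nat.card (MulAction.stabilizer G a) * n = Nat.card G := by
    intro a
    have h1 := Cfsg.Agent.Lib.OrbitCount.card_orbit_mul (A := G) a
    haveI : MulAction.IsPretransitive G α := ⟨htrans⟩
    rw [MulAction.orbit_eq_univ, Nat.card_univ, Nat.card_eq_fintype_card, ← hn] at h1
    rw [← h1, mul_comm]
  have hnpos : 0 < n := by omega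
  have hstabc' : ∀ a : α, (univ.filter (fun g : G => g • a = a)).card = n - 1 := by
    intro a
    have h1 := hstabc a
    rw [hcardG, mul_comm n] at h1
    have h3 := Nat.eq_of_mul_eq_mul_right hnpos h1
    rw [← h3, Nat.card_eq_fintype_card, Fintype.card_subtype]
    rfl
  -- the number of fixed-point-free elements
  let F : Finset G := univ.filter (fun g : G => ∀ a : α, g • a ≠ a)
  have h1F : (1 : G) ∉ F := by
    simp only [F, mem_filter, mem_univ, true_and, not_forall, not_not]
    exact ⟨a₀, one_smul _ _⟩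
  have hFc : F.card = n - 1 := by
    have hdc : ∑ g : G, (univ.filter (fun a : α => g • a = a)).card = ∑ a : α, (univ.filter (fun g : G => g • a = a)).card := by
      have := Finset.sum_card_bipartiteAbove_eq_sum_card_bipartiteBelow (s := (univ : Finset G)) (t := (univ : Finset α)) (fun g a => g • a = a)
      exact this
    rw [Finset.sum_congr rfl (fun a _ => hstabc' a), sum_const, card_univ, ← hn, smul_eq_mul] at hdc
    have hsplit : ∑ g : G, (univ.filter (fun a : α => g • a = a)).card =
        n + ∑ g ∈ univ.erase (1 : G), (univ.filter (fun a : α => g • a = a)).card := by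
      rw [← Finset.add_sum_erase _ _ (mem_univ (1 : G))]
      congr 1
      simp [hn]
    have hval : ∀ g ∈ univ.erase (1 : G), (univ.filter (fun a : α => g • a = a)).card = if g ∈ F then 0 else 1 := by
      intro g hg
      have hg1 : g ≠ 1 := (mem_erase.1 hg).1
      by_cases hgF : g ∈ F
      · rw [if_pos hgF, card_eq_zero, filter_eq_empty_iff]
        intro a _
        exact (mem_filter.1 hgF).2 a
      · rw [if_neg hgF]
        simp only [F, mem_filter, mem_univ, true_and, not_forall, not_not] at hgF
        obtain ⟨a, ha⟩ := hgF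
        rw [card_eq_one]
        refine ⟨a, ?_⟩
        ext b
        simp only [mem_filter, mem_univ, true_and, mem_singleton]
        constructor
        · intro hb
          by_contra hab
          exact hg1 (hfix2 g b a hab hb ha)
        · rintro rfl
          exact ha
    rw [Finset.sum_congr rfl hval] at hsplit
    have hcount : ∑ g ∈ univ.erase (1 : G), (if g ∈ F then 0 else 1) = (univ.erase (1 : G)).card - F.card := by
      rw [Finset.sum_ite, sum_const_zero, zero_add, sum_const, smul_eq_mul, mul_one]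
      have hsub : F ⊆ univ.erase (1 : G) := by
        intro g hg
        refine mem_erase.2 ⟨?_, mem_univ _⟩
        rintro rfl
        exact h1F hg
      have h3 : (univ.erase (1 : G)).filter (fun g => ¬ g ∈ F) = (univ.erase (1 : G)) \ F := by
        ext g
        simp
      rw [h3, card_sdiff_of_subset hsub]
    rw [hcount, card_erase_of_mem (mem_univ _), card_univ, ← Nat.card_eq_fintype_card, hcardG] at hsplit
    have hFle : F.card ≤ n * (n - 1) - 1 := by
      have hsub : F ⊆ univ.erase (1 : G) := by
        intro g hg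
        refine mem_erase.2 ⟨?_, mem_univ _⟩
        rintro rfl
        exact h1F hg
      have h3 := card_le_card hsub
      rwa [card_erase_of_mem (mem_univ _), card_univ, ← Nat.card_eq_fintype_card, hcardG] at h3
    obtain ⟨u, hu⟩ : ∃ u, n = u + 2 := ⟨n - 2, by omega⟩
    have hnn : n * (n - 1) = (u + 2) * (u + 1) := by
      rw [hu]
      rfl
    rw [hnn] at hdc hsplit hFle
    rw [hu] at hsplit ⊢
    have hpos : 1 ≤ (u + 2) * (u + 1) := Nat.mul_pos (by omega) (by omega)
    have hdc' := hdc.symm.trans hsplit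
    generalize (u + 2) * (u + 1) = T at hdc' hFle hpos
    omega
  -- centralisers
  have hcentfix : ∀ y ∈ F, ∀ c : G, c * y = y * c → ∀ a : α, c • a = a → c = 1 := by
    intro y hy c hc a ha
    have hya := (mem_filter.1 hy).2 a
    refine hfix2 c a (y • a) (Ne.symm hya) ha ?_
    rw [← mul_smul, hc, mul_smul, ha]
  have hconjF : ∀ y ∈ F, ∀ g : G, g * y * g⁻¹ ∈ F := by
    intro y hy g
    refine mem_filter.2 ⟨mem_univ _, fun a he => ?_⟩
    apply (mem_filter.1 hy).2 (g⁻¹ • a)
    rw [mul_smul, mul_smul] at he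
    exact eq_inv_smul_iff.2 he
  have hmain : ∀ y ∈ F, (univ.image (fun g : G => g * y * g⁻¹) = F) ∧
      (univ.filter (fun c : G => c * y = y * c)).card = n := by
    intro y hy
    let Cy : Finset G := univ.filter (fun c : G => c * y = y * c)
    have hfib : ∀ z ∈ univ.image (fun g : G => g * y * g⁻¹), (univ.filter (fun g : G => g * y * g⁻¹ = z)).card = Cy.card := by
      intro z hz
      obtain ⟨g₀, -, rfl⟩ := mem_image.1 hz
      symm
      apply card_bij (fun c _ => g₀ * c)
      · intro c hc
        have hc' : c * y = y * c := (mem_filter.1 hc).2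
        refine mem_filter.2 ⟨mem_univ _, ?_⟩
        calc g₀ * c * y * (g₀ * c)⁻¹ = g₀ * (c * y) * c⁻¹ * g₀⁻¹ := by group
          _ = g₀ * (y * c) * c⁻¹ * g₀⁻¹ := by rw [hc']
          _ = g₀ * y * g₀⁻¹ := by group
      · intro c _ c' _ he
        exact mul_left_cancel he
      · intro g hg
        have hg' : g * y * g⁻¹ = g₀ * y * g₀⁻¹ := (mem_filter.1 hg).2
        refine ⟨g₀⁻¹ * g, mem_filter.2 ⟨mem_univ _, ?_⟩, by group⟩
        have h3 : g₀⁻¹ * (g * y * g⁻¹) * g₀ = y := by rw [hg']; group
        calc g₀⁻¹ * g * y = (g₀⁻¹ * (g * y * g⁻¹) * g₀) * (g₀⁻¹ * g) := by group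
          _ = y * (g₀⁻¹ * g) := by rw [h3]
    have hsum : (univ : Finset G).card = (univ.image (fun g : G => g * y * g⁻¹)).card * Cy.card := by
      rw [Finset.card_eq_sum_card_image (fun g : G => g * y * g⁻¹) univ, Finset.sum_congr rfl hfib, sum_const, smul_eq_mul]
    have hCy : Cy.card ≤ n := by
      rw [hn, ← card_univ]
      apply card_le_card_of_injOn (fun c => c • a₀) (fun _ _ => mem_univ _)
      intro c hc c' hc' he
      have hc1 : c * y = y * c := (mem_filter.1 hc).2
      have hc2 : c' * y = y * c' := (mem_filter.1 hc').2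
      have he' : c • a₀ = c' • a₀ := he
      have h3 : c'⁻¹ * c = 1 := by
        apply hcentfix y hy _ _ a₀
        · rw [mul_smul, he', inv_smul_smul]
        · calc c'⁻¹ * c * y = c'⁻¹ * (y * c) := by rw [mul_assoc, hc1]
            _ = c'⁻¹ * y * c := by group
            _ = y * c'⁻¹ * c := by
              congr 1
              rw [inv_mul_eq_iff_eq_mul, ← mul_assoc, hc2, mul_assoc, mul_inv_cancel, mul_one]
            _ = y * (c'⁻¹ * c) := by group
      exact (inv_mul_eq_one.1 h3).symm
    have hsub : univ.image (fun g : G => g * y * g⁻¹) ⊆ F := by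
      intro z hz
      obtain ⟨g, -, rfl⟩ := mem_image.1 hz
      exact hconjF y hy g
    have himg := card_le_card hsub
    rw [hFc] at himg
    rw [card_univ, ← Nat.card_eq_fintype_card, hcardG] at hsum
    set A := (univ.image (fun g : G => g * y * g⁻¹)).card with hA
    set B := Cy.card with hB
    have hn1 : 0 < n - 1 := by omega
    have hB' : B = n := by
      by_contra hne'
      have hlt : B < n := lt_of_le_of_ne hCy hne'
      have : A * B < n * (n - 1) := by
        calc A * B ≤ (n - 1) * B := Nat.mul_le_mul_right _ himg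
          _ < (n - 1) * n := Nat.mul_lt_mul_of_pos_left hlt hn1
          _ = n * (n - 1) := mul_comm _ _
      omega
    have hA' : A = n - 1 := by
      by_contra hne'
      have hlt : A < n - 1 := lt_of_le_of_ne himg hne'
      have : A * B < n * (n - 1) := by
        rw [hB', mul_comm A n]
        exact Nat.mul_lt_mul_of_pos_left hlt hnpos
      omega
    refine ⟨eq_of_subset_of_card_le hsub (by rw [hFc]; exact hA'.ge), hB'⟩
  -- pick a fixed-point-free element
  have hFpos : 0 < F.card := by omega
  obtain ⟨y₀, hy₀⟩ := card_pos.1 hFpos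
  -- the centraliser as a set is `F ∪ {1}`
  have hcent : ∀ y ∈ F, ∀ c : G, c * y = y * c ↔ (c = 1 ∨ c ∈ F) := by
    intro y hy c
    have h1 : univ.filter (fun c : G => c * y = y * c) ⊆ insert 1 F := by
      intro c hc
      have hc' := (mem_filter.1 hc).2
      by_cases hc1 : c = 1
      · simp [hc1]
      · refine mem_insert_of_mem (mem_filter.2 ⟨mem_univ _, fun a ha => hc1 ?_⟩)
        exact hcentfix y hy c hc' a ha
    have h3 := (hmain y hy).2
    have h4 : (insert 1 F : Finset G).card = n := by
      rw [card_insert_of_notMem h1F, hFc]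
      omega
    have h5 := eq_of_subset_of_card_le h1 (by rw [h3, h4])
    constructor
    · intro h
      have : c ∈ insert 1 F := h1 (mem_filter.2 ⟨mem_univ _, h⟩)
      simpa using this
    · intro h
      have : c ∈ univ.filter (fun c : G => c * y = y * c) := by
        rw [h5]
        rcases h with rfl | h
        · simp
        · exact mem_insert_of_mem h
      exact (mem_filter.1 this).2
  let N : Subgroup G := Subgroup.centralizer ({y₀} : Set G)
  have hNmem : ∀ g : G, g ∈ N ↔ (g = 1 ∨ g ∈ F) := by
    intro g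
    rw [← hcent y₀ hy₀ g, Subgroup.mem_centralizer_singleton_iff]
  have hNmem' : ∀ g : G, g ∈ N ↔ g = 1 ∨ ∀ a : α, g • a ≠ a := by
    intro g
    rw [hNmem]
    simp [F]
  have hNcomm : ∀ m ∈ N, ∀ m' ∈ N, m * m' = m' * m := by
    intro m hm m' hm'
    rcases (hNmem m).1 hm with rfl | hmF
    · simp
    · exact (hcent m hmF m').2 ((hNmem m').1 hm') |>.symm
  have hNcard : Nat.card N = n := by
    have h3 := (hmain y₀ hy₀).2
    rw [← h3, Nat.card_eq_fintype_card, Fintype.card_subtype]
    congr 1
    ext g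
    simp only [mem_filter, mem_univ, true_and]
    rw [hNmem, ← hcent y₀ hy₀ g]
  refine ⟨hcardG, N, ?_, hNcomm, hNmem', hNcard, ?_, ?_⟩
  · refine ⟨fun g hg k => ?_⟩
    rcases (hNmem g).1 hg with rfl | hgF
    · simp [N.one_mem]
    · exact (hNmem _).2 (Or.inr (hconjF g hgF k))
  · -- transitivity
    have hinj : Function.Injective (fun m : N => (m : G) • a₀) := by
      intro m m' he
      have he' : (m : G) • a₀ = (m' : G) • a₀ := he
      have h3 : ((m' : G)⁻¹ * m) = 1 := by
        rcases (hNmem' _).1 (N.mul_mem (N.inv_mem m'.2) m.2) with h | h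
        · exact h
        · exact absurd (by rw [mul_smul, he', inv_smul_smul]) (h a₀)
      exact Subtype.ext (inv_mul_eq_one.1 h3).symm
    have hbij : Function.Bijective (fun m : N => (m : G) • a₀) := by
      rw [Nat.bijective_iff_injective_and_card]
      exact ⟨hinj, by rw [hNcard, Nat.card_eq_fintype_card]⟩
    have hmov : ∀ b : α, ∃ m ∈ N, m • a₀ = b := by
      intro b
      obtain ⟨m, hm⟩ := hbij.2 b
      exact ⟨m, m.2, hm⟩
    intro a b
    obtain ⟨m, hm, rfl⟩ := hmov a
    obtain ⟨m', hm', rfl⟩ := hmov b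
    refine ⟨m' * m⁻¹, N.mul_mem hm' (N.inv_mem hm), ?_⟩
    rw [mul_smul, inv_smul_smul]
  · intro y hy hy1 y' hy' hy'1
    have hyF : y ∈ F := ((hNmem y).1 hy).resolve_left hy1
    have hyF' : y' ∈ F := ((hNmem y').1 hy').resolve_left hy'1
    have h3 := (hmain y hyF).1
    rw [← h3] at hyF'
    obtain ⟨g, -, hg⟩ := mem_image.1 hyF'
    exact ⟨g, hg⟩

/-- A finite sharply doubly transitive permutation group has degree a prime power `p ^ j`; a Sylow `p`-subgroup is normal, elementary abelian and regular, and consists of the identity together with the elements without fixed points. (Frobenius' Theorem is not needed.) -/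
theorem result {α : Type*} [Fintype α] [DecidableEq α] (G : Subgroup (Equiv.Perm α)) [MulAction.IsMultiplyPretransitive G α 2] (hsharp : ∀ x : Fin 2 ↪ α, MulAction.stabilizer G x = ⊥) (h2 : 2 ≤ Fintype.card α) : ∃ p j : ℕ, p.Prime ∧ 1 ≤ j ∧ Fintype.card α = p ^ j ∧ ∀ (hp : Fact p.Prime) (P : Sylow p G), (P : Subgroup G).Normal ∧ IsMulCommutative (P : Subgroup G) ∧ (∀ x ∈ (P : Subgroup G), x ^ p = 1) ∧ MulAction.IsPretransitive (P : Subgroup G) α ∧ (∀ a : α, MulAction.stabilizer (P : Subgroup G) a = ⊥) ∧ ∀ g : G, g ∈ (P : Subgroup G) ↔ g = 1 ∨ ∀ a : α, g • a ≠ a := by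
  classical
  obtain ⟨hcardG, N, hNn, hNcomm, hNmem, hNcard, hNt, hNc⟩ := sharp_core G hsharp h2
  set n := Fintype.card α with hn
  have hn1 : n ≠ 1 := by omega
  obtain ⟨p, hp, hpn⟩ := Nat.exists_prime_and_dvd hn1
  haveI hpF : Fact p.Prime := ⟨hp⟩
  obtain ⟨x, hx⟩ := exists_prime_orderOf_dvd_card' (G := N) p (by rw [hNcard]; exact hpn)
  have hx1 : (x : G) ≠ 1 := by
    intro h
    have h2 : x = 1 := Subtype.ext h
    rw [h2, orderOf_one] at hx
    exact hp.one_lt.ne hx
  have hxp : (x : G) ^ p = 1 := by
    have h1 : x ^ p = 1 := by rw [← hx]; exact pow_orderOf_eq_one x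
    exact congrArg Subtype.val h1
  have hexp : ∀ m ∈ N, m ^ p = 1 := by
    intro m hm
    by_cases hm1 : m = 1
    · simp [hm1]
    · obtain ⟨g, hg⟩ := hNc x x.2 hx1 m hm hm1
      rw [← hg, conj_pow, hxp]
      group
  have hNp : IsPGroup p N := by
    intro g
    refine ⟨1, ?_⟩
    apply Subtype.ext
    simp only [pow_one]
    exact hexp g g.2
  obtain ⟨j, hj⟩ := IsPGroup.iff_card.1 hNp
  rw [hNcard] at hj
  have hj1 : 1 ≤ j := by
    rcases Nat.eq_zero_or_pos j with h0 | h
    · rw [h0, pow_zero] at hj
      omega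
    · exact h
  refine ⟨p, j, hp, hj1, hj, ?_⟩
  intro hp' P
  have hNP : N ≤ P := hNp.le_sylow_of_normal P
  have hPN : (P : Subgroup G) = N := by
    symm
    apply Subgroup.eq_of_le_of_card_ge hNP
    rw [hNcard]
    have hPp : IsPGroup p (P : Subgroup G) := P.isPGroup'
    obtain ⟨i, hi⟩ := IsPGroup.iff_card.1 hPp
    have hPd : Nat.card (P : Subgroup G) ∣ Nat.card G := Subgroup.card_subgroup_dvd_card _
    rw [hi, hcardG, hj] at hPd
    have hcop : Nat.Coprime (p ^ i) (p ^ j - 1) := by
      apply Nat.Coprime.pow_left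
      rw [Nat.Prime.coprime_iff_not_dvd hp]
      intro hd
      have h3 : p ∣ p ^ j := dvd_pow_self p (by omega)
      have h4 : p ∣ 1 := by
        have h5 := (Nat.dvd_sub h3 hd)
        have h6 : p ^ j - (p ^ j - 1) = 1 := by
          have : 0 < p ^ j := pow_pos hp.pos j
          omega
        rwa [h6] at h5
      exact hp.one_lt.ne' (Nat.dvd_one.1 h4)
    have h7 : p ^ i ∣ p ^ j := hcop.dvd_of_dvd_mul_right hPd
    rw [hi, hj]
    exact Nat.le_of_dvd (pow_pos hp.pos j) h7
  rw [hPN]
  refine ⟨hNn, ⟨⟨?_⟩⟩, hexp, ?_, ?_, hNmem⟩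
  · intro a b
    exact Subtype.ext (hNcomm a a.2 b b.2)
  · refine ⟨fun a b => ?_⟩
    obtain ⟨m, hm, hma⟩ := hNt a b
    exact ⟨⟨m, hm⟩, hma⟩
  · intro a
    rw [eq_bot_iff]
    intro s hs
    have hs' : (s : G) • a = a := hs
    rw [Subgroup.mem_bot]
    apply Subtype.ext
    rcases (hNmem s).1 s.2 with h | h
    · exact h
    · exact absurd hs' (h a)

end Cfsg.Agent.S0680
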