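import Cfsg.Statements.S0681
import Mathlib

set_option autoImplicit false
open Cfsg

namespace Cfsg.Agent.S0681

variable {F : Type*} [Cfsg.NearField F]

theorem zero_mul' (c : F) : (0 : F) * c = 0 := by
  have h := Cfsg.NearField.right_distrib (0 : F) 0 c
  rw [add_zero] at h
  exact (add_eq_left.1 h.symm)

theorem neg_mul' (x c : F) : (-x) * c = -(x * c) := by
  have h := Cfsg.NearField.right_distrib (-x) x c
  rw [neg_add_cancel, zero_mul'] at h
  exact (neg_eq_of_add_eq_zero_left h.symm).symm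

theorem mul_ne_zero' {a b : F} (ha : a ≠ 0) (hb : b ≠ 0) : a * b ≠ 0 := by
  intro h
  obtain ⟨c, hc1, hc2⟩ := Cfsg.NearField.exists_inv a ha
  apply hb
  have : c * (a * b) = b := by rw [← mul_assoc, hc2, one_mul]
  rw [← this, h, Cfsg.NearField.mul_zero]

noncomputable def inv' (a : F) (ha : a ≠ 0) : F := (Cfsg.NearField.exists_inv a ha).choose

theorem mul_inv'' (a : F) (ha : a ≠ 0) : a * inv' a ha = 1 := (Cfsg.NearField.exists_inv a ha).choose_spec.1
theorem inv_mul'' (a : F) (ha : a ≠ 0) : inv' a ha * a = 1 := (Cfsg.NearField.exists_inv a ha).choose_spec.2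

theorem inv_ne_zero' (a : F) (ha : a ≠ 0) : inv' a ha ≠ 0 := by
  intro h
  have := mul_inv'' a ha
  rw [h, Cfsg.NearField.mul_zero] at this
  exact Cfsg.NearField.zero_ne_one this

noncomputable def aff (a b : F) (ha : a ≠ 0) : Equiv.Perm F where
  toFun x := x * a + b
  invFun y := (y + -b) * inv' a ha
  left_inv x := by
    show (x * a + b + -b) * inv' a ha = x
    rw [add_neg_cancel_right, mul_assoc, mul_inv'', mul_one]
  right_inv y := by
    show (y + -b) * inv' a ha * a + b = y
    rw [mul_assoc, inv_mul'', mul_one, neg_add_cancel_right]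

def affSub (F : Type*) [Cfsg.NearField F] : Subgroup (Equiv.Perm F) where
  carrier := {σ | ∃ a b : F, a ≠ 0 ∧ ∀ x : F, σ x = x * a + b}
  one_mem' := ⟨1, 0, fun h => Cfsg.NearField.zero_ne_one h.symm, fun x => by simp⟩
  mul_mem' := by
    rintro σ τ ⟨a, b, ha, hσ⟩ ⟨c, d, hc, hτ⟩
    refine ⟨c * a, d * a + b, mul_ne_zero' hc ha, fun x => ?_⟩
    show σ (τ x) = _
    rw [hτ, hσ, Cfsg.NearField.right_distrib, mul_assoc, add_assoc]
  inv_mem' := by
    rintro σ ⟨a, b, ha, hσ⟩
    refine ⟨inv' a ha, (-b) * inv' a ha, inv_ne_zero' a ha, fun x => ?_⟩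
    have h : σ⁻¹ x = (x + -b) * inv' a ha := by
      rw [Equiv.Perm.inv_eq_iff_eq, hσ, mul_assoc, inv_mul'', mul_one, neg_add_cancel_right]
    rw [h, Cfsg.NearField.right_distrib]

/-- The affine maps `x ↦ x * a + b`, `a ≠ 0`, of a near-field form a sharply doubly transitive permutation group. -/
theorem result {F : Type*} [Cfsg.NearField F] : ∃ H : Subgroup (Equiv.Perm F), (∀ σ : Equiv.Perm F, σ ∈ H ↔ ∃ a b : F, a ≠ 0 ∧ ∀ x : F, σ x = x * a + b) ∧ MulAction.IsMultiplyPretransitive H F 2 ∧ ∀ x : Fin 2 ↪ F, MulAction.stabilizer H x = ⊥ := by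
  classical
  refine ⟨affSub F, fun σ => Iff.rfl, ?_, ?_⟩
  · rw [MulAction.is_two_pretransitive_iff]
    intro x y u v hxy huv
    -- slope
    have hd0 : y + -x ≠ 0 := fun h => hxy (add_neg_eq_zero.1 h).symm
    have he0 : v + -u ≠ 0 := fun h => huv (add_neg_eq_zero.1 h).symm
    set a : F := inv' _ hd0 * (v + -u) with ha
    have ha0 : a ≠ 0 := mul_ne_zero' (inv_ne_zero' _ hd0) he0
    have hda : (y + -x) * a = v + -u := by
      rw [ha, ← mul_assoc, mul_inv'', one_mul]
    set b : F := -(x * a) + u with hb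
    refine ⟨⟨aff a b ha0, a, b, ha0, fun z => rfl⟩, ?_, ?_⟩
    · show x * a + b = u
      rw [hb, add_neg_cancel_left]
    · show y * a + b = v
      rw [Cfsg.NearField.right_distrib, neg_mul'] at hda
      rw [hb, ← add_assoc, hda, neg_add_cancel_right]
  · intro x
    rw [eq_bot_iff]
    intro g hg
    rw [Subgroup.mem_bot]
    obtain ⟨a, b, ha, hσ⟩ := g.2
    have hx : ∀ i, (g : Equiv.Perm F) (x i) = x i := fun i => by
      have := congrArg (fun f : Fin 2 ↪ F => f i) (show g • x = x from hg)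
      exact this
    have h0 := hx 0
    have h1 := hx 1
    rw [hσ] at h0 h1
    have hd0 : x 1 + -x 0 ≠ 0 := fun h => by
      have h3 : x 1 = x 0 := add_neg_eq_zero.1 h
      have := x.injective h3
      exact absurd this (by decide)
    have hda : (x 1 + -x 0) * a = x 1 + -x 0 := by
      rw [Cfsg.NearField.right_distrib, neg_mul']
      conv_rhs => rw [← h0, ← h1]
      rw [neg_add_rev, add_assoc, ← add_assoc b, add_neg_cancel, zero_add]
    have ha1 : a = 1 := by
      have h5 : inv' _ hd0 * ((x 1 + -x 0) * a) = inv' _ hd0 * (x 1 + -x 0) := by rw [hda]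
      rw [← mul_assoc, inv_mul'', one_mul] at h5
      exact h5
    have hb0 : b = 0 := by
      rw [ha1, mul_one] at h0
      exact add_eq_left.1 h0
    apply Subtype.ext
    ext z
    rw [hσ, ha1, hb0, mul_one, add_zero]
    rfl

end Cfsg.Agent.S0681
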