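import Cfsg.Statements.S0682
import Mathlib

set_option autoImplicit false
open Cfsg

namespace Cfsg.Agent.S0682

variable {F : Type*} [Cfsg.NearField F]

theorem zero_mul' (c : F) : (0 : F) * c = 0 := by
  have h := Cfsg.NearField.right_distrib (0 : F) 0 c
  rw [add_zero] at h
  exact (add_eq_left.1 h.symm)

/-- right multiplication is additive -/
noncomputable def rmul (c : F) : Multiplicative F →* Multiplicative F where
  toFun x := Multiplicative.ofAdd ((Multiplicative.toAdd x) * c)
  map_one' := by
    show Multiplicative.ofAdd ((0 : F) * c) = 1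
    rw [zero_mul']
    rfl
  map_mul' x y := by
    show Multiplicative.ofAdd ((Multiplicative.toAdd x + Multiplicative.toAdd y) * c) = _
    rw [Cfsg.NearField.right_distrib]
    rfl

theorem transfer {a b : F} (ha : a ≠ 0) : ∃ c : F, a * c = b ∧ ∃ d : F, c * d = 1 ∧ d * c = 1 ∨ b = 0 := by
  obtain ⟨i, hi1, hi2⟩ := Cfsg.NearField.exists_inv a ha
  exact ⟨i * b, by rw [← mul_assoc, hi1, one_mul], by
    by_cases hb : b = 0
    · exact ⟨0, Or.inr hb⟩
    · obtain ⟨j, hj1, hj2⟩ := Cfsg.NearField.exists_inv b hb
      refine ⟨j * a, Or.inl ⟨?_, ?_⟩⟩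
      · rw [mul_assoc, ← mul_assoc b, hj1, one_mul, hi2]
      · rw [mul_assoc, ← mul_assoc a, hi1, one_mul, hj2]⟩

/-- A finite near-field has prime-power order; its additive group is commutative of prime exponent. -/
theorem result {F : Type*} [Cfsg.NearField F] [Finite F] : ∃ p j : ℕ, p.Prime ∧ 1 ≤ j ∧ Nat.card F = p ^ j ∧ (∀ x y : F, x + y = y + x) ∧ ∀ x : F, p • x = 0 := by
  classical
  -- Cauchy
  have hcard : 1 < Nat.card F := by
    haveI : Nontrivial F := ⟨0, 1, Cfsg.NearField.zero_ne_one⟩
    exact Finite.one_lt_card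
  obtain ⟨p, hp, hdvd⟩ := Nat.exists_prime_and_dvd (ne_of_gt hcard)
  haveI : Fact p.Prime := ⟨hp⟩
  have hcardM : Nat.card (Multiplicative F) = Nat.card F := rfl
  have hdvd' : p ∣ Nat.card (Multiplicative F) := by rw [hcardM]; exact hdvd
  obtain ⟨z, hz⟩ := exists_prime_orderOf_dvd_card' (G := Multiplicative F) p hdvd'
  have hz1 : z ≠ 1 := by
    rintro rfl
    rw [orderOf_one] at hz
    exact hp.one_lt.ne hz
  have hz0 : Multiplicative.toAdd z ≠ 0 := fun h => hz1 h
  -- every element has exponent `p`
  have hexp : ∀ x : Multiplicative F, x ^ p = 1 := by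
    intro x
    by_cases hx : Multiplicative.toAdd x = 0
    · have : x = 1 := hx
      rw [this, one_pow]
    · obtain ⟨c, hc, -⟩ := transfer (b := Multiplicative.toAdd x) hz0
      have h1 : rmul c z = x := hc
      rw [← h1, ← map_pow, ← hz, pow_orderOf_eq_one, map_one]
  have hpg : IsPGroup p (Multiplicative F) := fun x => ⟨1, by rw [pow_one]; exact hexp x⟩
  haveI : Nontrivial (Multiplicative F) := ⟨⟨z, 1, hz1⟩⟩
  haveI := hpg.center_nontrivial
  obtain ⟨w, hw⟩ := exists_ne (1 : Subgroup.center (Multiplicative F))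
  have hw0 : Multiplicative.toAdd (w : Multiplicative F) ≠ 0 := fun h => hw (Subtype.ext h)
  -- everything is central
  have hcentral : ∀ x : Multiplicative F, x ∈ Subgroup.center (Multiplicative F) := by
    intro x
    by_cases hx : Multiplicative.toAdd x = 0
    · have : x = 1 := hx
      rw [this]
      exact Subgroup.one_mem _
    · obtain ⟨c, hc, d, hd | hd⟩ := transfer (b := Multiplicative.toAdd x) hw0
      · rw [Subgroup.mem_center_iff]
        intro y
        have h1 : rmul c (w : Multiplicative F) = x := hc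
        have h2 : rmul c (rmul d y) = y := by
          show Multiplicative.ofAdd (Multiplicative.toAdd y * d * c) = y
          rw [mul_assoc, hd.2, mul_one]
          rfl
        rw [← h1, ← h2, ← map_mul, ← map_mul]
        congr 1
        exact (Subgroup.mem_center_iff.1 w.2 _)
      · exact absurd hd hx
  obtain ⟨j, hj⟩ := IsPGroup.iff_card.1 hpg
  refine ⟨p, j, hp, ?_, ?_, ?_, ?_⟩
  · by_contra h
    have : j = 0 := by omega
    rw [this, pow_zero] at hj
    rw [hcardM] at hj
    omega
  · exact hj
  · intro x y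
    have := Subgroup.mem_center_iff.1 (hcentral (Multiplicative.ofAdd x)) (Multiplicative.ofAdd y)
    exact this.symm
  · intro x
    have := hexp (Multiplicative.ofAdd x)
    exact this

end Cfsg.Agent.S0682
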