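import Cfsg.Statements.S0683
import Mathlib
import Cfsg.Agent.S0680

set_option autoImplicit false
open Cfsg

namespace Cfsg.Agent.S0683

/-- A finite sharply doubly transitive permutation group is the affine group of a near-field: the permuted set carries a near-field structure for which the group consists exactly of the maps `x ↦ x * a + b` with `a ≠ 0`. -/
theorem result {α : Type*} [Fintype α] [DecidableEq α] (H : Subgroup (Equiv.Perm α)) [MulAction.IsMultiplyPretransitive H α 2] (hsharp : ∀ x : Fin 2 ↪ α, MulAction.stabilizer H x = ⊥) (h2 : 2 ≤ Fintype.card α) : ∃ _ : Cfsg.NearField α, ∀ σ : Equiv.Perm α, σ ∈ H ↔ ∃ a b : α, a ≠ 0 ∧ ∀ x : α, σ x = x * a + b := by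
  classical
  obtain ⟨-, N, hNn, hNcomm, hNmem, hNcard, hNt, -⟩ := Cfsg.Agent.S0680.sharp_core H hsharp h2
  rename_i hT
  have h2' : ∀ {a b c d : α}, a ≠ b → c ≠ d → ∃ g : H, g • a = c ∧ g • b = d :=
    MulAction.is_two_pretransitive_iff.1 hT
  have hfix2 : ∀ (g : H) (a b : α), a ≠ b → g • a = a → g • b = b → g = 1 := by
    intro g a b hab ha hb
    let x : Fin 2 ↪ α := ⟨![a, b], by
      intro i j h
      fin_cases i <;> fin_cases j <;> simp_all⟩
    have h1 : g ∈ MulAction.stabilizer H x := by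
      show g • x = x
      ext i
      fin_cases i
      · exact ha
      · exact hb
    rw [hsharp x] at h1
    exact Subgroup.mem_bot.1 h1
  obtain ⟨o, e, hoe⟩ : ∃ a b : α, a ≠ b := by
    haveI : Nontrivial α := Fintype.one_lt_card_iff_nontrivial.1 (by omega)
    exact exists_pair_ne α
  -- translations
  have hτex : ∀ y : α, ∃ m : H, m ∈ N ∧ m • o = y := fun y => by
    obtain ⟨m, hm, hmy⟩ := hNt o y
    exact ⟨m, hm, hmy⟩
  choose τ hτN hτo using hτex
  have hNu : ∀ m ∈ N, ∀ m' ∈ N, m • o = m' • o → m = m' := by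
    intro m hm m' hm' he
    have h3 : m'⁻¹ * m = 1 := by
      rcases (hNmem _).1 (N.mul_mem (N.inv_mem hm') hm) with h | h
      · exact h
      · exact absurd (by rw [mul_smul, he, inv_smul_smul]) (h o)
    exact (inv_mul_eq_one.1 h3).symm
  have hτu : ∀ m ∈ N, ∀ y, m • o = y → m = τ y := by
    intro m hm y hy
    exact hNu m hm _ (hτN y) (by rw [hy, hτo])
  have hτ0 : τ o = 1 := (hτu 1 N.one_mem o (one_smul _ _)).symm
  have hτcomp : ∀ y z : α, τ (τ z • y) = τ z * τ y := by
    intro y z
    symm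
    apply hτu _ (N.mul_mem (hτN z) (hτN y))
    rw [mul_smul, hτo]
  -- multiplications
  have hρex : ∀ a : α, a ≠ o → ∃ g : H, g • o = o ∧ g • e = a := by
    intro a ha
    obtain ⟨g, h1, h2⟩ := h2' hoe (Ne.symm ha)
    exact ⟨g, h1, h2⟩
  choose! ρ hρo hρe using hρex
  have hρu : ∀ (g : H) (a : α), a ≠ o → g • o = o → g • e = a → g = ρ a := by
    intro g a ha h1 h3
    have h4 : (ρ a)⁻¹ * g = 1 := by
      apply hfix2 _ o e hoe
      · rw [mul_smul, h1, inv_smul_eq_iff, hρo a ha]
      · rw [mul_smul, h3, inv_smul_eq_iff, hρe a ha]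
    exact (inv_mul_eq_one.1 h4).symm
  have hρ1 : ρ e = 1 := (hρu 1 e hoe.symm (one_smul _ _) (one_smul _ _)).symm
  have hρne : ∀ a b : α, a ≠ o → b ≠ o → ρ b • a ≠ o := by
    intro a b ha hb h
    apply ha
    have h3 : ρ b • a = ρ b • o := by rw [h, hρo b hb]
    exact MulAction.injective _ h3
  have hρcomp : ∀ a b : α, a ≠ o → b ≠ o → ρ (ρ b • a) = ρ b * ρ a := by
    intro a b ha hb
    symm
    apply hρu _ _ (hρne a b ha hb)
    · rw [mul_smul, hρo a ha, hρo b hb]
    · rw [mul_smul, hρe a ha]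
  let add : α → α → α := fun x y => τ y • x
  let mul : α → α → α := fun x a => if a = o then o else ρ a • x
  have hmulne : ∀ x a, a ≠ o → mul x a = ρ a • x := fun x a ha => if_neg ha
  have hmul0 : ∀ x, mul x o = o := fun x => if_pos rfl
  have h0mul : ∀ a, mul o a = o := by
    intro a
    by_cases ha : a = o
    · rw [ha, hmul0]
    · rw [hmulne _ _ ha, hρo a ha]
  have hadd_assoc : ∀ a b c, add (add a b) c = add a (add b c) := by
    intro a b c
    show τ c • τ b • a = τ (τ c • b) • a
    rw [hτcomp, mul_smul]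
  have hzero_add : ∀ a, add o a = a := fun a => hτo a
  have hadd_zero : ∀ a, add a o = a := fun a => by
    show τ o • a = a
    rw [hτ0, one_smul]
  have hneg_add : ∀ a, add ((τ a)⁻¹ • o) a = o := fun a => smul_inv_smul _ _
  have hmul_assoc : ∀ x a b, mul (mul x a) b = mul x (mul a b) := by
    intro x a b
    by_cases hb : b = o
    · rw [hb, hmul0, hmul0, hmul0]
    by_cases ha : a = o
    · rw [ha, hmul0, h0mul, hmul0]
    · rw [hmulne _ _ hb, hmulne a b hb, hmulne _ _ ha, hmulne _ _ (hρne a b ha hb), hρcomp a b ha hb, mul_smul]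
  have hone_mul : ∀ a, mul e a = a := by
    intro a
    by_cases ha : a = o
    · rw [ha, hmul0]
    · rw [hmulne _ _ ha, hρe a ha]
  have hmul_one : ∀ a, mul a e = a := by
    intro a
    rw [hmulne _ _ hoe.symm, hρ1, one_smul]
  have hdistrib : ∀ a b c, mul (add a b) c = add (mul a c) (mul b c) := by
    intro a b c
    by_cases hc : c = o
    · rw [hc, hmul0, hmul0, hmul0]
      exact (hadd_zero o).symm
    · rw [hmulne _ _ hc, hmulne _ _ hc, hmulne _ _ hc]
      show ρ c • τ b • a = τ (ρ c • b) • ρ c • a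
      have h3 : ρ c * τ b * (ρ c)⁻¹ = τ (ρ c • b) := by
        apply hτu _ (hNn.conj_mem _ (hτN b) _)
        rw [mul_smul, mul_smul, inv_smul_eq_iff.2 (hρo c hc).symm, hτo]
      rw [← h3, ← mul_smul, ← mul_smul]
      congr 1
      group
  have hinv : ∀ a, a ≠ o → ∃ b, mul a b = e ∧ mul b a = e := by
    intro a ha
    let b := (ρ a)⁻¹ • e
    have hb : b ≠ o := by
      intro h
      apply hoe
      have h3 : e = ρ a • b := by simp [b]
      rw [h, hρo a ha] at h3
      exact h3.symm
    have h3 : mul b a = e := by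
      rw [hmulne _ _ ha]
      simp [b]
    refine ⟨b, ?_, h3⟩
    have h4 : ρ (ρ a • b) = ρ a * ρ b := hρcomp b a hb ha
    have h5 : ρ a • b = e := by simp [b]
    rw [h5, hρ1] at h4
    have h6 : ρ b = (ρ a)⁻¹ := (eq_inv_of_mul_eq_one_right h4.symm)
    rw [hmulne _ _ hb, h6, inv_smul_eq_iff, hρe a ha]
  letI i1 : Add α := ⟨add⟩
  letI i2 : Zero α := ⟨o⟩
  letI i3 : Neg α := ⟨fun a => (τ a)⁻¹ • o⟩
  letI iG : AddGroup α := AddGroup.ofLeftAxioms hadd_assoc hzero_add hneg_add
  refine ⟨{ toAddGroup := iG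
            mul := mul
            mul_assoc := fun x a b => hmul_assoc x a b
            one := e
            one_mul := hone_mul
            mul_one := hmul_one
            right_distrib := hdistrib
            mul_zero := hmul0
            zero_ne_one := hoe
            exists_inv := hinv }, ?_⟩
  intro σ
  constructor
  · intro hσ
    let g : H := ⟨σ, hσ⟩
    let b := g • o
    let a := ((τ b)⁻¹ * g) • e
    have hk : ((τ b)⁻¹ * g) • o = o := by
      rw [mul_smul, inv_smul_eq_iff, hτo]
    have ha : a ≠ o := by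
      intro h
      have h3 : ((τ b)⁻¹ * g) • e = ((τ b)⁻¹ * g) • o := by
        rw [hk]
        exact h
      exact hoe (MulAction.injective _ h3).symm
    refine ⟨a, b, ha, fun x => ?_⟩
    show σ x = τ b • mul x a
    rw [hmulne _ _ ha, ← hρu _ a ha hk rfl, ← mul_smul, mul_inv_cancel_left]
    rfl
  · rintro ⟨a, b, ha, h⟩
    have ha' : a ≠ o := ha
    have h1 : σ = ((τ b * ρ a : H) : Equiv.Perm α) := by
      ext x
      have h3 : σ x = τ b • mul x a := h x
      rw [h3, hmulne _ _ ha']
      rfl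
    rw [h1]
    exact (τ b * ρ a).2

end Cfsg.Agent.S0683
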