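import Cfsg.Statements.S0684
import Cfsg.Agent.Lib.RegLin
-- import your own Cfsg.Agent.* helpers here

set_option autoImplicit false
open Cfsg

namespace Cfsg.Agent.S0684

/-- Point stabiliser of a sharply doubly transitive group not of semilinear type: a maximal normal abelian subgroup `A` of a linear group `H` that is regular on non-zero vectors and has no irreducible cyclic normal subgroup is cyclic and reducible, and the order of `A` divides `p ^ k - 1` for `k` the dimension of a minimal `A`-invariant subspace. -/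
theorem result {p : ℕ} [Fact p.Prime] {V : Type*} [AddCommGroup V] [Module (ZMod p) V] [Finite V] (H : Subgroup (V ≃ₗ[ZMod p] V)) (hreg : ∀ v w : V, v ≠ 0 → w ≠ 0 → ∃! h : H, (h : V ≃ₗ[ZMod p] V) v = w) (hI : ∀ A : Subgroup H, A.Normal → IsCyclic A → ∃ W : Submodule (ZMod p) V, W ≠ ⊥ ∧ W ≠ ⊤ ∧ ∀ a ∈ A, ∀ v ∈ W, ((a : H) : V ≃ₗ[ZMod p] V) v ∈ W) (A : Subgroup H) (hAn : A.Normal) (hAc : IsMulCommutative A) (hAmax : ∀ B : Subgroup H, B.Normal → IsMulCommutative B → A ≤ B → B = A) : IsCyclic A ∧ ∃ W : Submodule (ZMod p) V, W ≠ ⊥ ∧ W ≠ ⊤ ∧ (∀ a ∈ A, ∀ v ∈ W, ((a : H) : V ≃ₗ[ZMod p] V) v ∈ W) ∧ (∀ W' : Submodule (ZMod p) V, W' ≤ W → (∀ a ∈ A, ∀ v ∈ W', ((a : H) : V ≃ₗ[ZMod p] V) v ∈ W') → W' = ⊥ ∨ W' = W) ∧ Nat.card A ∣ p ^ Module.finrank (ZMod p) W - 1 := by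
  classical
  haveI : Finite (V ≃ₗ[ZMod p] V) := Finite.of_injective (fun e : V ≃ₗ[ZMod p] V => (e : V → V)) DFunLike.coe_injective
  let ρ : A →* (V ≃ₗ[ZMod p] V) := H.subtype.comp A.subtype
  have hρ : ∀ a : A, ρ a = ((a : H) : V ≃ₗ[ZMod p] V) := fun a => rfl
  have hfree : ∀ (a : A) (v : V), v ≠ 0 → ρ a v = v → a = 1 := by
    intro a v hv he
    have h1 := (hreg v v hv hv).unique (y₁ := (a : H)) (y₂ := 1) he rfl
    exact Subtype.ext h1
  have hcomm : ∀ a b : A, ρ a * ρ b = ρ b * ρ a := by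
    intro a b
    rw [← map_mul, ← map_mul, hAc.is_comm.comm a b]
  have hbt : (⊥ : Submodule (ZMod p) V) ≠ ⊤ := by
    obtain ⟨W, h1, h2, -⟩ := hI ⊥ Subgroup.normal_bot (by infer_instance)
    intro e
    apply h1
    rw [eq_bot_iff, e]
    exact le_top
  obtain ⟨W₁, -, hW₁, hW₁i, hW₁m⟩ := Cfsg.Agent.Lib.RegLin.exists_min (fun a : A => ρ a) ⊤ hbt.symm (fun _ _ _ => Submodule.mem_top)
  have hcyc : IsCyclic A := Cfsg.Agent.Lib.RegLin.cyclic_of_min ρ hcomm hfree W₁ hW₁ hW₁i hW₁m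
  refine ⟨hcyc, ?_⟩
  obtain ⟨W₀, h1, h2, h3⟩ := hI A hAn hcyc
  obtain ⟨W, hWle, hW, hWi, hWm⟩ := Cfsg.Agent.Lib.RegLin.exists_min (fun a : A => ρ a) W₀ h1 (fun a v hv => h3 a.1 a.2 v hv)
  refine ⟨W, hW, ?_, fun a ha v hv => hWi ⟨a, ha⟩ v hv, ?_, ?_⟩
  · intro e
    apply h2
    rw [eq_top_iff, ← e]
    exact hWle
  · intro W' hW' hinv
    exact hWm W' hW' (fun a v hv => hinv a.1 a.2 v hv)
  · exact Cfsg.Agent.Lib.RegLin.card_dvd ρ hfree W hWi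

end Cfsg.Agent.S0684
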