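import Cfsg.Statements.S0685
import Cfsg.Agent.Lib.RegLin
-- import your own Cfsg.Agent.* helpers here

set_option autoImplicit false
open Cfsg

namespace Cfsg.Agent.S0685

/-- In a linear group over the prime field that is regular on non-zero vectors and has no irreducible cyclic normal subgroup, a maximal normal abelian subgroup is properly contained in its centraliser, which is non-abelian. -/
theorem result {p : ℕ} [Fact p.Prime] {V : Type*} [AddCommGroup V] [Module (ZMod p) V] [Finite V] (H : Subgroup (V ≃ₗ[ZMod p] V)) (hreg : ∀ v w : V, v ≠ 0 → w ≠ 0 → ∃! h : H, (h : V ≃ₗ[ZMod p] V) v = w) (hI : ∀ A : Subgroup H, A.Normal → IsCyclic A → ∃ W : Submodule (ZMod p) V, W ≠ ⊥ ∧ W ≠ ⊤ ∧ ∀ a ∈ A, ∀ v ∈ W, ((a : H) : V ≃ₗ[ZMod p] V) v ∈ W) (A : Subgroup H) (hAn : A.Normal) (hAc : IsMulCommutative A) (hAmax : ∀ B : Subgroup H, B.Normal → IsMulCommutative B → A ≤ B → B = A) : A < Subgroup.centralizer (A : Set H) ∧ ¬ IsMulCommutative (Subgroup.centralizer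 (A : Set H)) := by
  classical
  haveI : Finite (V ≃ₗ[ZMod p] V) := Finite.of_injective (fun e : V ≃ₗ[ZMod p] V => (e : V → V)) DFunLike.coe_injective
  let ρ : A →* (V ≃ₗ[ZMod p] V) := H.subtype.comp A.subtype
  have hρ : ∀ a : A, ρ a = ((a : H) : V ≃ₗ[ZMod p] V) := fun a => rfl
  have hfree : ∀ (a : A) (v : V), v ≠ 0 → ρ a v = v → a = 1 := by
    intro a v hv he
    have h1 := (hreg v v hv hv).unique (y₁ := (a : H)) (y₂ := 1) he rfl
    exact Subtype.ext h1
  have hcomm : ∀ a b : A, ρ a * ρ b = ρ b * ρ a := by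
    intro a b
    rw [← map_mul, ← map_mul, hAc.is_comm.comm a b]
  have hbt : (⊥ : Submodule (ZMod p) V) ≠ ⊤ := by
    obtain ⟨W, h1, h2, -⟩ := hI ⊥ Subgroup.normal_bot (by infer_instance)
    intro e
    apply h1
    rw [eq_bot_iff, e]
    exact le_top
  obtain ⟨W₁, -, hW₁, hW₁i, hW₁m⟩ := Cfsg.Agent.Lib.RegLin.exists_min (fun a : A => ρ a) ⊤ hbt.symm (fun _ _ _ => Submodule.mem_top)
  have hcyc : IsCyclic A := Cfsg.Agent.Lib.RegLin.cyclic_of_min ρ hcomm hfree W₁ hW₁ hW₁i hW₁m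
  obtain ⟨W₀, h1, h2, h3⟩ := hI A hAn hcyc
  obtain ⟨W, hWle, hW, hWi, hWm⟩ := Cfsg.Agent.Lib.RegLin.exists_min (fun a : A => ρ a) W₀ h1 (fun a v hv => h3 a.1 a.2 v hv)
  have hWtop : W ≠ ⊤ := by
    intro e
    apply h2
    rw [eq_top_iff, ← e]
    exact hWle
  have hcard := Cfsg.Agent.Lib.RegLin.card_dvd ρ hfree W hWi
  have hle : A ≤ Subgroup.centralizer (A : Set H) := by
    intro a ha
    rw [Subgroup.mem_centralizer_iff]
    intro b hb
    have := hAc.is_comm.comm (⟨b, hb⟩ : A) ⟨a, ha⟩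
    exact congrArg Subtype.val this
  have hCn : (Subgroup.centralizer (A : Set H)).Normal := by
    constructor
    intro n hn g
    rw [Subgroup.mem_centralizer_iff] at hn ⊢
    intro x hx
    have h4 := hn (g⁻¹ * x * g) (by
      have := hAn.conj_mem x hx g⁻¹
      rwa [inv_inv] at this)
    calc x * (g * n * g⁻¹) = g * ((g⁻¹ * x * g) * n) * g⁻¹ := by group
      _ = g * (n * (g⁻¹ * x * g)) * g⁻¹ := by rw [h4]
      _ = g * n * g⁻¹ * x := by group
  have key : Subgroup.centralizer (A : Set H) ≠ A := by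
    intro hCA
    obtain ⟨a₀, ha₀⟩ := hcyc
    -- the order of `H`
    have hcardH : Nat.card H ≤ Nat.card A * Nat.card A := by
      have hmem : ∀ h : H, h * (a₀ : H) * h⁻¹ ∈ A := fun h => hAn.conj_mem _ a₀.2 h
      let f : H → A := fun h => ⟨h * (a₀ : H) * h⁻¹, hmem h⟩
      let base : A → H := fun y => if h : ∃ x, f x = y then h.choose else 1
      have hbase : ∀ h : H, f (base (f h)) = f h := by
        intro h
        have h5 : ∃ x, f x = f h := ⟨h, rfl⟩
        have h6 : base (f h) = h5.choose := dif_pos h5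
        rw [h6]
        exact h5.choose_spec
      have hcen : ∀ c : H, c * (a₀ : H) * c⁻¹ = (a₀ : H) → c ∈ A := by
        intro c hc
        rw [← hCA, Subgroup.mem_centralizer_iff]
        intro x hx
        obtain ⟨n, hn⟩ := Subgroup.mem_zpowers_iff.1 (ha₀ ⟨x, hx⟩)
        have hn' : (a₀ : H) ^ n = x := congrArg Subtype.val hn
        rw [← hn']
        have hc' : Commute c (a₀ : H) := by
          show c * (a₀ : H) = (a₀ : H) * c
          calc c * (a₀ : H) = (c * (a₀ : H) * c⁻¹) * c := by group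
            _ = (a₀ : H) * c := by rw [hc]
        exact ((hc'.zpow_right n).eq).symm
      have hmem2 : ∀ h : H, (base (f h))⁻¹ * h ∈ A := by
        intro h
        apply hcen
        have h5 : (base (f h)) * (a₀ : H) * (base (f h))⁻¹ = h * (a₀ : H) * h⁻¹ := congrArg Subtype.val (hbase h)
        calc (base (f h))⁻¹ * h * (a₀ : H) * ((base (f h))⁻¹ * h)⁻¹ = (base (f h))⁻¹ * (h * (a₀ : H) * h⁻¹) * (base (f h)) := by group
          _ = (base (f h))⁻¹ * ((base (f h)) * (a₀ : H) * (base (f h))⁻¹) * (base (f h)) := by rw [h5]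
          _ = (a₀ : H) := by group
      have h7 : Nat.card H ≤ Nat.card (A × A) := by
        refine Nat.card_le_card_of_injective (fun h => (f h, ⟨_, hmem2 h⟩)) ?_
        intro h h' hh
        have h8 : f h = f h' := congrArg Prod.fst hh
        have h9 : (base (f h))⁻¹ * h = (base (f h'))⁻¹ * h' := congrArg (fun z : A × A => (z.2 : H)) hh
        rw [← h8] at h9
        exact mul_left_cancel h9
      rwa [Nat.card_prod] at h7
    -- a second copy of `W`
    obtain ⟨w₀, hw₀, hw₀1⟩ := Submodule.exists_mem_ne_zero_of_ne_bot hW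
    obtain ⟨v₁, hv₁⟩ : ∃ v₁ : V, v₁ ∉ W := by
      by_contra hc
      push Not at hc
      exact hWtop (eq_top_iff.2 fun x _ => hc x)
    have hv₁0 : v₁ ≠ 0 := by
      rintro rfl
      exact hv₁ W.zero_mem
    obtain ⟨h₀, hh₀, -⟩ := hreg w₀ v₁ hw₀1 hv₁0
    obtain ⟨e, he⟩ : ∃ e : V ≃ₗ[ZMod p] V, e = (h₀ : V ≃ₗ[ZMod p] V) := ⟨_, rfl⟩
    rw [← he] at hh₀
    obtain ⟨W', hW'⟩ : ∃ W' : Submodule (ZMod p) V, W' = W.map (e : V →ₗ[ZMod p] V) := ⟨_, rfl⟩
    have hv₁W' : v₁ ∈ W' := by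
      rw [hW']
      exact ⟨w₀, hw₀, hh₀⟩
    have hW'inv : ∀ (a : A), ∀ v ∈ W', ρ a v ∈ W' := by
      intro a v hv
      rw [hW'] at hv ⊢
      obtain ⟨x, hx, rfl⟩ := hv
      have h5 : (h₀⁻¹ * (a : H) * h₀⁻¹⁻¹) ∈ A := hAn.conj_mem _ a.2 h₀⁻¹
      refine ⟨((⟨_, h5⟩ : A) : H).1 x, hWi ⟨_, h5⟩ x hx, ?_⟩
      show e (((h₀⁻¹ * (a : H) * h₀⁻¹⁻¹ : H) : V ≃ₗ[ZMod p] V) x) = ((a : H) : V ≃ₗ[ZMod p] V) (e x)
      rw [he, inv_inv]
      show (h₀ * (h₀⁻¹ * (a : H) * h₀) : H).1 x = ((a : H) * h₀ : H).1 x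
      congr 2
      group
    have hcardW' : Nat.card W' = Nat.card W := by
      rw [hW']
      exact (Nat.card_congr (LinearEquiv.submoduleMap e W).toEquiv).symm
    have hinf : W ⊓ W' = ⊥ := by
      rcases hWm (W ⊓ W') inf_le_left (fun a v hv => ⟨hWi a v hv.1, hW'inv a v hv.2⟩) with h5 | h5
      · exact h5
      · exfalso
        have h6 : W ≤ W' := inf_eq_left.1 h5
        have h7 : (W : Set V) = (W' : Set V) := by
          apply Set.eq_of_subset_of_ncard_le h6 _ (Set.toFinite _)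
          rw [← Nat.card_coe_set_eq, ← Nat.card_coe_set_eq]
          exact hcardW'.le
        apply hv₁
        have h8 : v₁ ∈ (W' : Set V) := hv₁W'
        rw [← h7] at h8
        exact h8
    have hVge : Nat.card W * Nat.card W' ≤ Nat.card V := by
      rw [← Nat.card_prod]
      refine Nat.card_le_card_of_injective (fun z : W × W' => (z.1 : V) + z.2) ?_
      rintro ⟨x, y⟩ ⟨x', y'⟩ hz
      have hz' : (x : V) + y = x' + y' := hz
      have h5 : (x : V) - x' ∈ W ⊓ W' := by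
        refine ⟨W.sub_mem x.2 x'.2, ?_⟩
        have h6 : (x : V) - x' = y' - y := by
          rw [sub_eq_sub_iff_add_eq_add, hz', add_comm]
        show (x : V) - x' ∈ W'
        rw [h6]
        exact W'.sub_mem y'.2 y.2
      rw [hinf, Submodule.mem_bot] at h5
      have h6 : (x : V) = x' := sub_eq_zero.1 h5
      have h7 : (y : V) = y' := by
        rw [h6] at hz'
        exact add_left_cancel hz'
      rw [Subtype.ext h6, Subtype.ext h7]
    have hVH : Nat.card V ≤ Nat.card H + 1 := by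
      have h5 : Nat.card {v : V // v ≠ 0} ≤ Nat.card H := by
        refine Nat.card_le_card_of_surjective (fun h : H => (⟨(h : V ≃ₗ[ZMod p] V) w₀, fun e' => hw₀1 ((map_eq_zero_iff _ (h : V ≃ₗ[ZMod p] V).injective).1 e')⟩ : {v : V // v ≠ 0})) ?_
        rintro ⟨v, hv⟩
        obtain ⟨h, hh, -⟩ := hreg w₀ v hw₀1 hv
        exact ⟨h, Subtype.ext hh⟩
      haveI : Fintype V := Fintype.ofFinite _
      rw [Nat.card_eq_fintype_card (α := {v : V // v ≠ 0}), Fintype.card_subtype_compl] at h5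
      have h6 : Fintype.card {x : V // x = 0} = 1 := by simp
      have h7 : 0 < Fintype.card V := Fintype.card_pos
      rw [h6] at h5
      rw [Nat.card_eq_fintype_card]
      omega
    have hcW : Nat.card W = p ^ Module.finrank (ZMod p) W := by
      rw [Module.natCard_eq_pow_finrank (K := ZMod p), Nat.card_zmod]
    obtain ⟨q, hq⟩ : ∃ q : ℕ, q = Nat.card W := ⟨_, rfl⟩
    have hq2 : 2 ≤ q := by
      rw [hq]
      haveI : Nontrivial W := ⟨⟨⟨w₀, hw₀⟩, 0, fun e' => hw₀1 (congrArg Subtype.val e')⟩⟩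
      exact Finite.one_lt_card
    have hAq : Nat.card A ≤ q - 1 := by
      rw [hq, hcW]
      apply Nat.le_of_dvd _ hcard
      rw [← hcW, ← hq]
      omega
    rw [hcardW', ← hq] at hVge
    have h5 : Nat.card H ≤ (q - 1) * (q - 1) := hcardH.trans (Nat.mul_le_mul hAq hAq)
    obtain ⟨r, rfl⟩ : ∃ r, q = r + 2 := ⟨q - 2, by omega⟩
    have h6 : r + 2 - 1 = r + 1 := rfl
    rw [h6] at h5
    nlinarith
  refine ⟨lt_of_le_of_ne hle key.symm, ?_⟩
  intro hcomm'
  exact key (hAmax _ hCn hcomm' hle)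

end Cfsg.Agent.S0685
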