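import Cfsg.Statements.S0691
import Mathlib
import Cfsg.Agent.Lib.SharpMat

set_option autoImplicit false
open Cfsg

namespace Cfsg.Agent.S0691

open Cfsg.Agent.Lib.SharpMat

instance : Fact (Nat.Prime 5) := ⟨by norm_num⟩

def gs : List (T 5) := [(2, 0, 0, 3), (0, 4, 1, 0), (1, 2, 1, 3)]

def t₀ : List (T 5) := [(2, 0, 0, 3), (0, 4, 1, 0), (1, 2, 1, 3), (4, 0, 0, 4), (0, 2, 2, 0), (2, 1, 2, 4), (0, 3, 3, 0), (2, 4, 3, 4), (4, 2, 1, 2), (3, 3, 4, 1), (3, 0, 0, 2), (0, 1, 4, 0), (4, 3, 4, 2), (3, 1, 2, 1), (1, 4, 3, 3), (1, 3, 4, 3), (3, 2, 1, 1), (3, 4, 3, 1), (1, 1, 2, 3), (2, 2, 1, 4), (2, 3, 4, 4), (4, 4, 3, 2), (4, 1, 2, 2)]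

theorem c1 : closedB gs (tone :: t₀) = true := by decide +kernel
theorem c2 : reachB gs [tone] t₀ = true := by decide +kernel
theorem c3 : ((tone :: t₀).all fun t => detT t == 1) = true := by decide +kernel
theorem c4 : fpfB (1 : ZMod 5) 1 (tone :: t₀) = true := by decide +kernel
theorem c5 : nodupB (tone :: t₀) = true := by decide +kernel

/-- An exceptional sharply doubly transitive group of degree 5^2: the listed matrices generate a subgroup of GL(2,5) of order 24 acting regularly on the non-zero vectors. -/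
theorem result (A : Matrix.GeneralLinearGroup (Fin 2) (ZMod 5)) (B : Matrix.GeneralLinearGroup (Fin 2) (ZMod 5)) (C : Matrix.GeneralLinearGroup (Fin 2) (ZMod 5)) (hA : (A : Matrix (Fin 2) (Fin 2) (ZMod 5)) = !![2, 0; 0, -2]) (hB : (B : Matrix (Fin 2) (Fin 2) (ZMod 5)) = !![0, -1; 1, 0]) (hC : (C : Matrix (Fin 2) (Fin 2) (ZMod 5)) = !![1, 2; 1, -2]) : Nat.card (Subgroup.closure ({A, B, C} : Set (Matrix.GeneralLinearGroup (Fin 2) (ZMod 5)))) = 24 ∧ ∀ v w : Fin 2 → ZMod 5, v ≠ 0 → w ≠ 0 → ∃! h : Subgroup.closure ({A, B, C} : Set (Matrix.GeneralLinearGroup (Fin 2) (ZMod 5))), Matrix.mulVec ((h : Matrix.GeneralLinearGroup (Fin 2) (ZMod 5)) : Matrix (Fin 2) (Fin 2) (ZMod 5)) v = w := by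
  have h1 := Cfsg.Agent.Lib.SharpMat.main2 (p := 5) ({A, B, C} : Set (Matrix.GeneralLinearGroup (Fin 2) (ZMod 5))) gs t₀ 1 1
    (by norm_num)
    (by
      intro g hg
      left
      rcases hg with rfl | rfl | rfl
      · rw [hA]; decide +kernel
      · rw [hB]; decide +kernel
      · rw [hC]; decide +kernel)
    (by
      intro t ht
      simp only [gs, List.mem_cons, List.not_mem_nil, or_false] at ht
      rcases ht with rfl | rfl | rfl
      · exact ⟨A, by simp, by rw [hA]; decide +kernel⟩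
      · exact ⟨B, by simp, by rw [hB]; decide +kernel⟩
      · exact ⟨C, by simp, by rw [hC]; decide +kernel⟩)
    ⟨1, Subgroup.one_mem _, by rw [sm_one, toM_one]; rfl⟩
    c1 c2 (by norm_num) c3 (by decide +kernel) c4 c5 (by decide +kernel)
  simpa using h1

end Cfsg.Agent.S0691
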