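import Cfsg.Statements.S0692
import Mathlib
import Cfsg.Agent.Lib.SharpMat

set_option autoImplicit false
open Cfsg

namespace Cfsg.Agent.S0692

open Cfsg.Agent.Lib.SharpMat

instance : Fact (Nat.Prime 11) := ⟨by norm_num⟩

def gs : List (T 11) := [(0, 10, 1, 0), (2, 4, 1, 8)]

def t₀ : List (T 11) := [(0, 10, 1, 0), (2, 4, 1, 8), (10, 0, 0, 10), (4, 9, 8, 10), (10, 3, 2, 4), (8, 7, 10, 2), (0, 1, 10, 0), (9, 7, 10, 3), (3, 1, 4, 9), (7, 3, 2, 1), (6, 0, 4, 2), (1, 9, 8, 7), (7, 2, 3, 1), (1, 8, 9, 7), (3, 4, 1, 9), (0, 5, 2, 7), (9, 10, 7, 3), (7, 9, 6, 0), (6, 8, 5, 5), (1, 2, 10, 10), (8, 10, 7, 2), (4, 8, 9, 10), (5, 0, 7, 9), (10, 2, 3, 4), (9, 4, 0, 5), (8, 5, 5, 6), (2, 10, 10, 1), (5, 7, 0, 9), (6, 6, 6, 8), (1, 1, 1, 2), (9, 0, 4, 5), (0, 6, 9, 4), (2, 1, 4, 8), (4, 2, 5, 0), (5, 3, 6, 6), (10, 9, 1, 1), (7, 6, 9, 0), (6, 5, 8, 5), (1, 10,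 2, 10), (0, 2, 5, 7), (10, 6, 5, 2), (3, 0, 10, 4), (6, 10, 9, 6), (2, 7, 0, 6), (3, 6, 6, 5), (9, 1, 1, 10), (6, 4, 0, 2), (5, 5, 5, 3), (10, 10, 10, 9), (2, 0, 7, 6), (6, 1, 2, 6), (0, 8, 4, 1), (10, 5, 6, 2), (6, 9, 10, 6), (1, 7, 3, 0), (2, 5, 6, 10), (4, 0, 1, 3), (4, 5, 2, 0), (5, 6, 3, 6), (10, 1, 9, 1), (0, 9, 6, 4), (1, 5, 6, 9), (8, 0, 1, 7), (5, 1, 2, 5), (9, 5, 6, 1), (7, 10, 0, 8), (5, 9, 10, 5), (0, 7, 3, 10), (8, 9, 9, 2), (3, 3, 3, 7), (10, 8, 4, 0), (5, 10, 9, 5), (0, 3, 7, 10), (1, 6, 5, 9), (5, 2, 1, 5), (10, 4, 8, 0), (9, 6, 5, 1), (7, 0, 10, 8), (9, 3, 2, 2), (3, 8, 7, 8), (8, 1, 0, 7), (2, 9, 8, 9), (8, 4, 3, 3), (7, 1, 5, 4), (3, 5, 9, 8), (2, 6, 5, 10), (4, 1, 0, 3), (6, 2, 1, 6), (0, 4, 8, 1), (3, 2, 2, 9), (8, 8, 8, 4), (1, 3, 7, 0), (9, 9, 9, 3), (4, 3, 3, 8), (1, 4, 4, 6), (5, 8, 8, 2), (3, 10, 0, 4), (6, 7, 7, 1), (2,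 3, 3, 5), (2, 8, 9, 9), (8, 3, 4, 3), (9, 2, 3, 2), (3, 7, 8, 8), (4, 10, 6, 7), (8, 6, 2, 3), (7, 5, 1, 4), (3, 9, 5, 8), (6, 3, 3, 9), (7, 7, 7, 4), (5, 4, 4, 10), (2, 2, 2, 8), (7, 8, 8, 3), (10, 7, 7, 5), (9, 8, 8, 6), (7, 4, 4, 4), (4, 6, 10, 7), (8, 2, 6, 3), (4, 7, 7, 7), (4, 4, 4, 7)]

theorem c1 : closedB gs (tone :: t₀) = true := by decide +kernel
theorem c2 : reachB gs [tone] t₀ = true := by decide +kernel
theorem c3 : ((tone :: t₀).all fun t => detT t == 1) = true := by decide +kernel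
theorem c4 : fpfB (1 : ZMod 11) 1 (tone :: t₀) = true := by decide +kernel
theorem c5 : nodupB (tone :: t₀) = true := by decide +kernel

/-- An exceptional sharply doubly transitive group of degree 11^2: the listed matrices generate a subgroup of GL(2,11) of order 120 acting regularly on the non-zero vectors. -/
theorem result (A : Matrix.GeneralLinearGroup (Fin 2) (ZMod 11)) (B : Matrix.GeneralLinearGroup (Fin 2) (ZMod 11)) (hA : (A : Matrix (Fin 2) (Fin 2) (ZMod 11)) = !![0, -1; 1, 0]) (hB : (B : Matrix (Fin 2) (Fin 2) (ZMod 11)) = !![2, 4; 1, -3]) : Nat.card (Subgroup.closure ({A, B} : Set (Matrix.GeneralLinearGroup (Fin 2) (ZMod 11)))) = 120 ∧ ∀ v w : Fin 2 → ZMod 11, v ≠ 0 → w ≠ 0 → ∃! h : Subgroup.closure ({A, B} : Set (Matrix.GeneralLinearGroup (Fin 2) (ZMod 11))), Matrix.mulVec ((h : Matrix.GeneralLinearGroup (Fin 2) (ZMod 11)) : Matrix (Fin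 2) (Fin 2) (ZMod 11)) v = w := by
  have h1 := Cfsg.Agent.Lib.SharpMat.main2 (p := 11) ({A, B} : Set (Matrix.GeneralLinearGroup (Fin 2) (ZMod 11))) gs t₀ 1 1
    (by norm_num)
    (by
      intro g hg
      left
      rcases hg with rfl | rfl
      · rw [hA]; decide +kernel
      · rw [hB]; decide +kernel)
    (by
      intro t ht
      simp only [gs, List.mem_cons, List.not_mem_nil, or_false] at ht
      rcases ht with rfl | rfl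
      · exact ⟨A, by simp, by rw [hA]; decide +kernel⟩
      · exact ⟨B, by simp, by rw [hB]; decide +kernel⟩)
    ⟨1, Subgroup.one_mem _, by rw [sm_one, toM_one]; rfl⟩
    c1 c2 (by norm_num) c3 (by decide +kernel) c4 c5 (by decide +kernel)
  simpa using h1

end Cfsg.Agent.S0692
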