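import Cfsg.Statements.S0694
import Mathlib

set_option autoImplicit false
open Cfsg

namespace Cfsg.Agent.S0694

theorem val_odd {q s i : ℕ} (hq : 2 ≤ q) (hs : s.Prime) (hodd : Odd s) (hsq : s ∣ q - 1) (hi : i ≠ 0) :
    (q ^ i - 1).factorization s = (q - 1).factorization s + i.factorization s := by
  haveI := Fact.mk hs
  have hx : ¬ s ∣ q := by
    intro h
    have h1 : s ∣ q - (q - 1) := Nat.dvd_sub h hsq
    have h2 : q - (q - 1) = 1 := by omega
    rw [h2] at h1
    exact hs.one_lt.ne' (Nat.dvd_one.1 h1)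
  rw [Nat.factorization_def _ hs, Nat.factorization_def _ hs, Nat.factorization_def _ hs]
  have := padicValNat.pow_sub_pow hodd (x := q) (y := 1) (by omega) hsq hx hi
  simpa using this

theorem val_four {q i : ℕ} (hq : 2 ≤ q) (h4 : 4 ∣ q - 1) (hi : i ≠ 0) :
    (q ^ i - 1).factorization 2 = (q - 1).factorization 2 + i.factorization 2 := by
  have hx : ¬ (2 : ℤ) ∣ (q : ℤ) := by
    intro h
    have h1 : (2 : ℕ) ∣ q := by exact_mod_cast h
    omega
  have h4' : (4 : ℤ) ∣ (q : ℤ) - (1 : ℤ) := by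
    have : ((q - 1 : ℕ) : ℤ) = (q : ℤ) - 1 := by push_cast [Nat.cast_sub (by omega : 1 ≤ q)]; ring
    rw [← this]
    exact_mod_cast h4
  have h := Int.two_pow_sub_pow' (x := (q : ℤ)) (y := (1 : ℤ)) i h4' hx
  have hp1 : 1 ≤ q ^ i := Nat.one_le_pow _ _ (by omega)
  have hp2 : q ^ i - 1 ≠ 0 := by
    have : 2 ^ 1 ≤ q ^ i := (Nat.pow_le_pow_left hq 1).trans (Nat.pow_le_pow_right (by omega) (by omega))
    omega
  have e1 : (q : ℤ) ^ i - 1 ^ i = ((q ^ i - 1 : ℕ) : ℤ) := by
    rw [Nat.cast_sub hp1]; push_cast; ring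
  have e2 : (q : ℤ) - 1 = ((q - 1 : ℕ) : ℤ) := by
    rw [Nat.cast_sub (by omega : 1 ≤ q)]; push_cast; ring
  rw [e1, e2] at h
  have c1 : emultiplicity (2 : ℤ) ((q ^ i - 1 : ℕ) : ℤ) = emultiplicity 2 (q ^ i - 1) := by
    exact_mod_cast Int.natCast_emultiplicity 2 (q ^ i - 1)
  have c2 : emultiplicity (2 : ℤ) ((q - 1 : ℕ) : ℤ) = emultiplicity 2 (q - 1) := by
    exact_mod_cast Int.natCast_emultiplicity 2 (q - 1)
  have c3 : emultiplicity (2 : ℤ) (i : ℤ) = emultiplicity 2 i := by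
    exact_mod_cast Int.natCast_emultiplicity 2 i
  rw [c1, c2, c3] at h
  have hq0 : q - 1 ≠ 0 := by omega
  haveI : Fact (Nat.Prime 2) := ⟨Nat.prime_two⟩
  rw [← padicValNat_eq_emultiplicity hp2, ← padicValNat_eq_emultiplicity hq0,
    ← padicValNat_eq_emultiplicity hi] at h
  rw [Nat.factorization_def _ Nat.prime_two, Nat.factorization_def _ Nat.prime_two,
    Nat.factorization_def _ Nat.prime_two]
  exact_mod_cast h

theorem pow_mod_four {q : ℕ} (h3 : q % 4 = 3) (i : ℕ) : q ^ i % 4 = if 2 ∣ i then 1 else 3 := by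
  induction i with
  | zero => simp
  | succ i ih =>
    rw [pow_succ, Nat.mul_mod, ih, h3]
    by_cases h : 2 ∣ i
    · have h' : ¬ 2 ∣ i + 1 := by omega
      simp [h, h']
    · have h' : 2 ∣ i + 1 := by omega
      simp [h, h']

theorem val_iff {q n : ℕ} (hq : 2 ≤ q) (hn : n ≠ 0) (h1 : ∀ r : ℕ, r.Prime → r ∣ n → r ∣ q - 1)
    (h2 : 4 ∣ n → 4 ∣ q - 1) {i : ℕ} (hi : i ≠ 0) (s : ℕ) (hs : s.Prime) :
    (n * (q - 1)).factorization s ≤ (q ^ i - 1).factorization s ↔ n.factorization s ≤ i.factorization s := by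
  have hq0 : q - 1 ≠ 0 := by omega
  rw [Nat.factorization_mul hn hq0]
  simp only [Finsupp.coe_add, Pi.add_apply]
  have hp2 : q ^ i - 1 ≠ 0 := by
    have : 2 ^ 1 ≤ q ^ i := (Nat.pow_le_pow_left hq 1).trans (Nat.pow_le_pow_right (by omega) (by omega))
    omega
  by_cases hsq : s ∣ q - 1
  · by_cases hsodd : Odd s
    · rw [val_odd hq hs hsodd hsq hi]
      omega
    · have hs2 : s = 2 := by
        rcases hs.eq_two_or_odd' with h | h
        · exact h
        · exact absurd h hsodd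
      subst hs2
      by_cases h4 : 4 ∣ q - 1
      · rw [val_four hq h4 hi]
        omega
      · have hv1 : (q - 1).factorization 2 = 1 := by
          have ha : 2 ^ 1 ∣ q - 1 := by simpa using hsq
          have hb : ¬ 2 ^ 2 ∣ q - 1 := by simpa using h4
          rw [Nat.Prime.pow_dvd_iff_le_factorization Nat.prime_two hq0] at ha hb
          omega
        have hv2 : n.factorization 2 ≤ 1 := by
          have hb : ¬ 2 ^ 2 ∣ n := fun h => h4 (h2 (by simpa using h))
          rw [Nat.Prime.pow_dvd_iff_le_factorization Nat.prime_two hn] at hb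
          omega
        rw [hv1]
        have hq3 : q % 4 = 3 := by omega
        have hmod := pow_mod_four hq3 i
        have hA : (2 ≤ (q ^ i - 1).factorization 2) ↔ 2 ∣ i := by
          rw [← Nat.Prime.pow_dvd_iff_le_factorization Nat.prime_two hp2]
          have : 0 < q ^ i := Nat.pos_of_ne_zero (by positivity)
          by_cases h : 2 ∣ i
          · simp only [h, if_true] at hmod
            constructor
            · intro _; exact h
            · intro _; omega
          · simp only [h, if_false] at hmod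
            constructor
            · intro h5; omega
            · intro h5; exact absurd h5 h
        have hB : (1 ≤ i.factorization 2) ↔ 2 ∣ i := by
          rw [← Nat.Prime.pow_dvd_iff_le_factorization Nat.prime_two hi]
          simp
        have hC : 1 ≤ (q ^ i - 1).factorization 2 := by
          rw [← Nat.Prime.pow_dvd_iff_le_factorization Nat.prime_two hp2]
          have h6 : q - 1 ∣ q ^ i - 1 := by
            have := Nat.sub_dvd_pow_sub_pow q 1 i
            simpa using this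
          simpa using hsq.trans h6
        rcases (by omega : n.factorization 2 = 0 ∨ n.factorization 2 = 1) with h0 | h0
        · rw [h0]; constructor
          · intro _; omega
          · intro _; omega
        · rw [h0]; constructor
          · intro h7; have := hA.1 (by omega); have := hB.2 this; omega
          · intro h7; have := hB.1 h7; have := hA.2 this; omega
  · have hsn : ¬ s ∣ n := fun h => hsq (h1 s hs h)
    have h0 : n.factorization s = 0 := Nat.factorization_eq_zero_of_not_dvd hsn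
    have h0' : (q - 1).factorization s = 0 := Nat.factorization_eq_zero_of_not_dvd hsq
    rw [h0, h0']
    simp

theorem forward {q n : ℕ} (hq : 2 ≤ q) (hn : 1 < n) (h1 : ∀ r : ℕ, r.Prime → r ∣ n → r ∣ q - 1)
    (h2 : 4 ∣ n → 4 ∣ q - 1) {i : ℕ} (hi : i ≠ 0) : n * (q - 1) ∣ q ^ i - 1 ↔ n ∣ i := by
  have hn0 : n ≠ 0 := by omega
  have hq0 : q - 1 ≠ 0 := by omega
  have hp2 : q ^ i - 1 ≠ 0 := by
    have : 2 ^ 1 ≤ q ^ i := (Nat.pow_le_pow_left hq 1).trans (Nat.pow_le_pow_right (by omega) (by omega))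
    omega
  rw [← Nat.factorization_prime_le_iff_dvd (mul_ne_zero hn0 hq0) hp2,
    ← Nat.factorization_prime_le_iff_dvd hn0 hi]
  exact forall₂_congr fun s hs => val_iff hq hn0 h1 h2 hi s hs

theorem modEq_iff {q N i : ℕ} (hq : 2 ≤ q) : q ^ i ≡ 1 [MOD N] ↔ N ∣ q ^ i - 1 := by
  have hp1 : 1 ≤ q ^ i := Nat.one_le_pow _ _ (by omega)
  constructor
  · intro h
    exact (Nat.modEq_iff_dvd' hp1).1 h.symm
  · intro h
    exact ((Nat.modEq_iff_dvd' hp1).2 h).symm

theorem dvd_iff_cast (k s : ℕ) (hk : 1 ≤ k) : s ∣ k - 1 ↔ (k : ZMod s) = 1 := by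
  rw [← ZMod.natCast_eq_zero_iff, Nat.cast_sub hk, sub_eq_zero, Nat.cast_one]

theorem pow_lift {r y : ℕ} (hy : 1 ≤ y) (h : r ∣ y - 1) (b : ℕ) : r ^ (b + 1) ∣ y ^ r ^ b - 1 := by
  have h1 : ((r : ℕ) : ℤ) ∣ (y : ℤ) - (1 : ℤ) := by
    have : ((y - 1 : ℕ) : ℤ) = (y : ℤ) - 1 := by rw [Nat.cast_sub hy]; simp
    rw [← this]
    exact_mod_cast h
  have h2 := dvd_sub_pow_of_dvd_sub h1 b
  have hy' : 1 ≤ y ^ r ^ b := Nat.one_le_pow _ _ hy
  have : ((y ^ r ^ b - 1 : ℕ) : ℤ) = (y : ℤ) ^ r ^ b - 1 ^ r ^ b := by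
    rw [Nat.cast_sub hy']; simp
  rw [← this] at h2
  exact_mod_cast h2

theorem geom_fact (x r : ℕ) (hx : 1 ≤ x) : x ^ r - 1 = (∑ j ∈ Finset.range r, x ^ j) * (x - 1) := by
  obtain ⟨y, rfl⟩ : ∃ y, x = y + 1 := ⟨x - 1, by omega⟩
  have := geom_sum_mul_add y r
  simp only [Nat.add_sub_cancel]
  omega

theorem part1 {q n : ℕ} (hq : 2 ≤ q) (hn : 1 < n) (hN : n * (q - 1) ∣ q ^ n - 1)
    (hmin : ∀ i : ℕ, 0 < i → i < n → ¬ n * (q - 1) ∣ q ^ i - 1) :
    ∀ r : ℕ, r.Prime → r ∣ n → r ∣ q - 1 := by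
  classical
  by_contra hcon
  push Not at hcon
  obtain ⟨r₀, hr₀, hr₀n, hr₀q⟩ := hcon
  have hn0 : n ≠ 0 := by omega
  have hq0 : q - 1 ≠ 0 := by omega
  let S := n.primeFactors.filter (fun s => ¬ s ∣ q - 1)
  have hSne : S.Nonempty := ⟨r₀, Finset.mem_filter.2 ⟨Nat.mem_primeFactors.2 ⟨hr₀, hr₀n, hn0⟩, hr₀q⟩⟩
  let r := S.max' hSne
  have hrS : r ∈ S := S.max'_mem hSne
  have hrmax : ∀ s : ℕ, s.Prime → s ∣ n → ¬ s ∣ q - 1 → s ≤ r := fun s hs hsn hsq =>
    S.le_max' s (Finset.mem_filter.2 ⟨Nat.mem_primeFactors.2 ⟨hs, hsn, hn0⟩, hsq⟩)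
  have hr : r.Prime := Nat.prime_of_mem_primeFactors (Finset.mem_filter.1 hrS).1
  have hrn : r ∣ n := Nat.dvd_of_mem_primeFactors (Finset.mem_filter.1 hrS).1
  have hrq : ¬ r ∣ q - 1 := (Finset.mem_filter.1 hrS).2
  obtain ⟨a, n', hn'r, hnn'⟩ := Nat.exists_eq_pow_mul_and_not_dvd hn0 r hr.ne_one
  have hn'0 : n' ≠ 0 := by
    rintro rfl
    exact hn0 (by simpa using hnn')
  have ha0 : a ≠ 0 := by
    rintro rfl
    rw [pow_zero, one_mul] at hnn'
    exact hn'r (hnn' ▸ hrn)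
  obtain ⟨b, rfl⟩ : ∃ b, a = b + 1 := ⟨a - 1, by omega⟩
  let m := r ^ b * n'
  have hnm : n = r * m := by
    rw [hnn', pow_succ]; simp only [m]; ring
  have hm0 : 0 < m := Nat.pos_of_ne_zero (mul_ne_zero (pow_ne_zero _ hr.ne_zero) hn'0)
  have hmn : m < n := by
    rw [hnm]
    have := hr.two_le
    nlinarith
  let x := q ^ m
  have hx1 : 1 ≤ x := Nat.one_le_pow _ _ (by omega)
  have hxr : x ^ r = q ^ n := by
    simp only [x]
    rw [← pow_mul, hnm, mul_comm]
  have hqn1 : 1 ≤ q ^ n := Nat.one_le_pow _ _ (by omega)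
  -- the `r`-part
  have hA : r ^ (b + 1) ∣ x - 1 := by
    haveI := Fact.mk hr
    have hrN : r ∣ q ^ n - 1 := (hrn.trans (dvd_mul_right _ _)).trans hN
    have hc1 : (q : ZMod r) ^ n = 1 := by
      have := (dvd_iff_cast _ r hqn1).1 hrN
      simpa using this
    have hq_ne : (q : ZMod r) ≠ 0 := by
      intro h
      rw [h, zero_pow hn0] at hc1
      exact zero_ne_one hc1
    have hc2 : (q : ZMod r) ^ (r - 1) = 1 := ZMod.pow_card_sub_one_eq_one hq_ne
    have hc3 : (q : ZMod r) ^ (n.gcd (r - 1)) = 1 := pow_gcd_eq_one.2 ⟨hc1, hc2⟩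
    set e := n.gcd (r - 1) with he
    have hen : e ∣ n := Nat.gcd_dvd_left _ _
    have her : e ∣ r - 1 := Nat.gcd_dvd_right _ _
    have hr1 : r - 1 ≠ 0 := by have := hr.two_le; omega
    have hcop : Nat.Coprime e r := by
      rw [Nat.coprime_comm, Nat.Prime.coprime_iff_not_dvd hr]
      intro h
      have h2 := Nat.le_of_dvd (Nat.pos_of_ne_zero hr1) (h.trans her)
      have := hr.two_le
      omega
    have hen' : e ∣ n' := by
      rw [hnn'] at hen
      exact (hcop.pow_right _).dvd_of_dvd_mul_left hen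
    obtain ⟨k, hk⟩ := hen'
    have hqe1 : 1 ≤ q ^ e := Nat.one_le_pow _ _ (by omega)
    have hy : r ∣ q ^ e - 1 := (dvd_iff_cast _ r hqe1).2 (by simpa using hc3)
    have h1 := pow_lift hqe1 hy b
    have h2 : x = ((q ^ e) ^ r ^ b) ^ k := by
      simp only [x, m]
      rw [hk, ← pow_mul, ← pow_mul]
      congr 1
      ring
    rw [h2]
    refine h1.trans ?_
    have := Nat.sub_dvd_pow_sub_pow ((q ^ e) ^ r ^ b) 1 k
    simpa using this
  -- the rest
  have hB : n' * (q - 1) ∣ x - 1 := by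
    have hfact := geom_fact x r hx1
    rw [hxr] at hfact
    have h1 : n' * (q - 1) ∣ (∑ j ∈ Finset.range r, x ^ j) * (x - 1) := by
      rw [← hfact]
      refine Dvd.dvd.trans ?_ hN
      rw [hnn']
      exact mul_dvd_mul_right (dvd_mul_left _ _) _
    refine Nat.Coprime.dvd_of_dvd_mul_left ?_ h1
    apply Nat.coprime_of_dvd
    intro s hs hs1 hs2
    haveI := Fact.mk hs
    haveI := Fact.mk hr
    have hsr : s ≠ r := by
      rintro rfl
      rcases (Nat.Prime.dvd_mul hs).1 hs1 with h | h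
      · exact hn'r h
      · exact hrq h
    have hsN : s ∣ x ^ r - 1 := by
      rw [hxr]
      have hn'n : n' ∣ n := by rw [hnn']; exact dvd_mul_left _ _
      exact (hs1.trans (mul_dvd_mul_right hn'n _)).trans hN
    have hX : (x : ZMod s) ^ r = 1 := by
      have := (dvd_iff_cast _ s (Nat.one_le_pow _ _ hx1)).1 hsN
      simpa using this
    have hX1 : (x : ZMod s) = 1 := by
      by_contra hne
      have hord : orderOf (x : ZMod s) = r := orderOf_eq_prime hX hne
      have hX0 : (x : ZMod s) ≠ 0 := by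
        intro h
        rw [h, zero_pow hr.ne_zero] at hX
        exact zero_ne_one hX
      have h2 : r ∣ s - 1 := hord ▸ ZMod.orderOf_dvd_card_sub_one hX0
      have hs1' : s - 1 ≠ 0 := by have := hs.two_le; omega
      have hlt : r < s := by
        have := Nat.le_of_dvd (Nat.pos_of_ne_zero hs1') h2
        omega
      have hsq : s ∣ q - 1 := by
        rcases (Nat.Prime.dvd_mul hs).1 hs1 with h | h
        · by_contra hns
          have hsn : s ∣ n := by
            rw [hnn']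
            exact h.trans (dvd_mul_left _ _)
          have := hrmax s hs hsn hns
          omega
        · exact h
      apply hne
      have hq1 : (q : ZMod s) = 1 := (dvd_iff_cast q s (by omega)).1 hsq
      simp only [x]
      rw [Nat.cast_pow, hq1, one_pow]
    have hG : ((∑ j ∈ Finset.range r, x ^ j : ℕ) : ZMod s) = (r : ZMod s) := by
      rw [Nat.cast_sum]
      simp [hX1]
    have hG0 : ((∑ j ∈ Finset.range r, x ^ j : ℕ) : ZMod s) = 0 :=
      (ZMod.natCast_eq_zero_iff _ _).2 hs2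
    rw [hG0] at hG
    have : s ∣ r := (ZMod.natCast_eq_zero_iff _ _).1 hG.symm
    exact hsr ((Nat.prime_dvd_prime_iff_eq hs hr).1 this)
  apply hmin m hm0 hmn
  have hcop : Nat.Coprime (r ^ (b + 1)) (n' * (q - 1)) := by
    apply Nat.Coprime.pow_left
    rw [Nat.Prime.coprime_iff_not_dvd hr]
    intro h
    rcases (Nat.Prime.dvd_mul hr).1 h with h | h
    · exact hn'r h
    · exact hrq h
  have := Nat.Coprime.mul_dvd_of_dvd_of_dvd hcop hA hB
  rw [hnn', mul_assoc]
  exact this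

theorem two_lift {q : ℕ} (hq : Odd q) (j : ℕ) : 2 ^ (j + 3) ∣ (q ^ 2) ^ 2 ^ j - 1 := by
  induction j with
  | zero =>
    simpa using Nat.eight_dvd_sq_sub_one_of_odd hq
  | succ j ih =>
    set z := (q ^ 2) ^ 2 ^ j with hz
    have hz2 : (q ^ 2) ^ 2 ^ (j + 1) = z ^ 2 := by
      rw [hz, ← pow_mul, ← pow_mul, pow_succ 2 j]
      ring
    rw [hz2]
    have hzo : Odd z := (hq.pow).pow
    have h1 : z ^ 2 - 1 = (z + 1) * (z - 1) := by
      have := Nat.sq_sub_sq z 1
      simpa using this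
    rw [h1, pow_succ, mul_comm (2 ^ (j + 3)) 2]
    exact mul_dvd_mul (by obtain ⟨w, hw⟩ := hzo; omega) ih

theorem part2 {q n : ℕ} (hq : 2 ≤ q) (hn : 1 < n) (hN : n * (q - 1) ∣ q ^ n - 1)
    (hmin : ∀ i : ℕ, 0 < i → i < n → ¬ n * (q - 1) ∣ q ^ i - 1)
    (hpr : ∀ r : ℕ, r.Prime → r ∣ n → r ∣ q - 1) (h4 : 4 ∣ n) : 4 ∣ q - 1 := by
  by_contra hcon
  have hn0 : n ≠ 0 := by omega
  have h2q : 2 ∣ q - 1 := hpr 2 Nat.prime_two (by omega)
  have hq3 : q % 4 = 3 := by omega
  obtain ⟨a, n', hn'2, hnn'⟩ := Nat.exists_eq_pow_mul_and_not_dvd hn0 2 (by norm_num)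
  have hn'0 : n' ≠ 0 := by
    rintro rfl
    exact hn0 (by simpa using hnn')
  have ha : 2 ≤ a := by
    have h1 : 2 ^ 2 ∣ 2 ^ a * n' := by
      rw [← hnn']; simpa using h4
    have hc : Nat.Coprime (2 ^ 2) n' := Nat.Coprime.pow_left _ ((Nat.Prime.coprime_iff_not_dvd Nat.prime_two).2 hn'2)
    have h2 := hc.dvd_of_dvd_mul_right h1
    exact (Nat.pow_dvd_pow_iff_le_right (by norm_num)).1 h2
  obtain ⟨c, rfl⟩ : ∃ c, a = c + 2 := ⟨a - 2, by omega⟩
  let m := 2 ^ (c + 1) * n'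
  have hnm : n = 2 * m := by
    rw [hnn']; simp only [m]; ring
  have hm0 : 0 < m := Nat.pos_of_ne_zero (mul_ne_zero (pow_ne_zero _ (by norm_num)) hn'0)
  have hmn : m < n := by omega
  let x := q ^ m
  have hx1 : 1 ≤ x := Nat.one_le_pow _ _ (by omega)
  have hxr : x ^ 2 = q ^ n := by
    simp only [x]
    rw [← pow_mul, hnm, mul_comm]
  obtain ⟨t, ht⟩ : ∃ t, q - 1 = 2 * t := h2q
  have htodd : ¬ 2 ∣ t := by omega
  have hqodd : Odd q := by
    rw [Nat.odd_iff]; omega
  have hA : 2 ^ (c + 3) ∣ x - 1 := by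
    have h1 := two_lift hqodd c
    have h2 : x = ((q ^ 2) ^ 2 ^ c) ^ n' := by
      simp only [x, m]
      rw [← pow_mul, ← pow_mul, pow_succ 2 c]
      congr 1
      ring
    rw [h2]
    refine h1.trans ?_
    have := Nat.sub_dvd_pow_sub_pow ((q ^ 2) ^ 2 ^ c) 1 n'
    simpa using this
  have hB : n' * t ∣ x - 1 := by
    have h1 : x ^ 2 - 1 = (x + 1) * (x - 1) := by
      have := Nat.sq_sub_sq x 1
      simpa using this
    have h2 : n' * t ∣ (x + 1) * (x - 1) := by
      rw [← h1, hxr]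
      refine Dvd.dvd.trans ?_ hN
      rw [ht, hnn']
      refine ⟨2 ^ (c + 2) * 2, by ring⟩
    refine Nat.Coprime.dvd_of_dvd_mul_left ?_ h2
    apply Nat.coprime_of_dvd
    intro s hs hs1 hs2
    haveI := Fact.mk hs
    have hs_ne : s ≠ 2 := by
      rintro rfl
      rcases (Nat.Prime.dvd_mul hs).1 hs1 with h | h
      · exact hn'2 h
      · exact htodd h
    have hsq : s ∣ q - 1 := by
      rcases (Nat.Prime.dvd_mul hs).1 hs1 with h | h
      · exact hpr s hs (by rw [hnn']; exact h.trans (dvd_mul_left _ _))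
      · rw [ht]; exact h.trans (dvd_mul_left _ _)
    have hq1 : (q : ZMod s) = 1 := (dvd_iff_cast q s (by omega)).1 hsq
    have hX1 : (x : ZMod s) = 1 := by
      simp only [x]
      rw [Nat.cast_pow, hq1, one_pow]
    have h3 : ((x + 1 : ℕ) : ZMod s) = 0 := (ZMod.natCast_eq_zero_iff _ _).2 hs2
    rw [Nat.cast_add, hX1, Nat.cast_one] at h3
    have h4' : ((2 : ℕ) : ZMod s) = 0 := by
      push_cast
      rw [← h3]
      norm_num
    have h5 : s ∣ 2 := (ZMod.natCast_eq_zero_iff _ _).1 h4'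
    exact hs_ne ((Nat.prime_dvd_prime_iff_eq hs Nat.prime_two).1 h5)
  apply hmin m hm0 hmn
  have hcop : Nat.Coprime (2 ^ (c + 3)) (n' * t) := by
    apply Nat.Coprime.pow_left
    rw [Nat.Prime.coprime_iff_not_dvd Nat.prime_two]
    intro h
    rcases (Nat.Prime.dvd_mul Nat.prime_two).1 h with h | h
    · exact hn'2 h
    · exact htodd h
  have := Nat.Coprime.mul_dvd_of_dvd_of_dvd hcop hA hB
  rw [hnn', ht]
  convert this using 1
  ring

/-- The Dickson pair condition: for a prime power `q` and `n > 1`, (every prime factor of `n` divides `q - 1`, and `4 ∣ n → 4 ∣ q - 1`) holds exactly when `q ^ n ≡ 1` modulo `n * (q - 1)` but `q ^ i` is not, for `0 < i < n`. -/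
theorem result (q n : ℕ) (hq : IsPrimePow q) (hn : 1 < n) : ((∀ r : ℕ, r.Prime → r ∣ n → r ∣ q - 1) ∧ (4 ∣ n → 4 ∣ q - 1)) ↔ (q ^ n ≡ 1 [MOD n * (q - 1)] ∧ ∀ i : ℕ, 0 < i → i < n → ¬ q ^ i ≡ 1 [MOD n * (q - 1)]) := by
  have hq2 : 2 ≤ q := hq.two_le
  have hn0 : n ≠ 0 := by omega
  constructor
  · rintro ⟨h1, h2⟩
    refine ⟨(modEq_iff hq2).2 ((forward hq2 hn h1 h2 hn0).2 dvd_rfl), ?_⟩
    intro i hi hin hmod
    have h3 := (forward hq2 hn h1 h2 hi.ne').1 ((modEq_iff hq2).1 hmod)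
    exact absurd (Nat.le_of_dvd hi h3) (by omega)
  · rintro ⟨h1, h2⟩
    have hN := (modEq_iff hq2).1 h1
    have hmin : ∀ i : ℕ, 0 < i → i < n → ¬ n * (q - 1) ∣ q ^ i - 1 :=
      fun i hi hin h => h2 i hi hin ((modEq_iff hq2).2 h)
    have hp := part1 hq2 hn hN hmin
    exact ⟨hp, part2 hq2 hn hN hmin hp⟩

end Cfsg.Agent.S0694
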