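import Cfsg.Statements.S0695
import Mathlib

set_option autoImplicit false
open Cfsg

namespace Cfsg.Agent.S0695

open scoped Pointwise

/-- A regular normal subgroup of a doubly primitive group of finite degree at least 2 is an elementary abelian 2-group (and the degree is a power of 2), unless the degree is 3. -/
theorem result {G : Type*} [Group G] {X : Type*} [Fintype X] [MulAction G X] (hX : 2 ≤ Fintype.card X) (h2 : MulAction.IsMultiplyPreprimitive G X 2) (N : Subgroup G) [N.Normal] (htrans : MulAction.IsPretransitive N X) (hreg : ∀ x : X, MulAction.stabilizer N x = ⊥) : Fintype.card X = 3 ∨ (IsMulCommutative N ∧ (∀ n ∈ N, n ^ 2 = 1) ∧ ∃ m : ℕ, Fintype.card X = 2 ^ m) := by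
  classical
  obtain ⟨x₀⟩ : Nonempty X := by
    rw [← Fintype.card_pos_iff]
    omega
  have hNinj : ∀ m ∈ N, ∀ m' ∈ N, m • x₀ = m' • x₀ → m = m' := by
    intro m hm m' hm' he
    have h1 : (⟨m'⁻¹ * m, N.mul_mem (N.inv_mem hm') hm⟩ : N) ∈ MulAction.stabilizer N x₀ := by
      show (m'⁻¹ * m) • x₀ = x₀
      rw [mul_smul, he, inv_smul_smul]
    rw [hreg x₀, Subgroup.mem_bot] at h1
    have h2 : m'⁻¹ * m = 1 := congrArg Subtype.val h1
    exact (inv_mul_eq_one.1 h2).symm
  by_cases hsq : ∀ n ∈ N, n ^ 2 = 1
  · right
    have hcomm : ∀ a ∈ N, ∀ b ∈ N, a * b = b * a := by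
      intro a ha b hb
      have h1 : a * b * (a * b) = 1 := by
        have := hsq _ (N.mul_mem ha hb)
        rwa [pow_two] at this
      have h2 : a * a = 1 := by
        have := hsq _ ha
        rwa [pow_two] at this
      have h3 : b * b = 1 := by
        have := hsq _ hb
        rwa [pow_two] at this
      calc a * b = a * b * (b * a * (b * a)) := by
            have : b * a * (b * a) = 1 := by
              have := hsq _ (N.mul_mem hb ha)
              rwa [pow_two] at this
            rw [this, mul_one]
        _ = a * (b * b) * a * (b * a) := by group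
        _ = b * a := by rw [h3, mul_one, h2, one_mul]
    refine ⟨⟨⟨fun a b => Subtype.ext (hcomm a a.2 b b.2)⟩⟩, hsq, ?_⟩
    have hbij : Function.Bijective (fun m : N => (m : G) • x₀) := by
      constructor
      · intro m m' he
        exact Subtype.ext (hNinj m m.2 m' m'.2 he)
      · intro y
        obtain ⟨m, hm⟩ := MulAction.exists_smul_eq N x₀ y
        exact ⟨m, hm⟩
    have hc : Nat.card N = Fintype.card X := by
      rw [Nat.card_congr (Equiv.ofBijective _ hbij), Nat.card_eq_fintype_card]
    haveI : Finite N := Nat.finite_of_card_ne_zero (by rw [hc]; omega)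
    have hp : IsPGroup 2 N := by
      intro g
      refine ⟨1, ?_⟩
      apply Subtype.ext
      simp only [pow_one]
      exact hsq g g.2
    obtain ⟨m, hm⟩ := IsPGroup.iff_card.1 hp
    exact ⟨m, by rw [← hc, hm]⟩
  · left
    push Not at hsq
    obtain ⟨u, huN, hu⟩ := hsq
    have hu1 : u ≠ 1 := by
      rintro rfl
      simp at hu
    have huu : u ≠ u⁻¹ := by
      intro h
      apply hu
      rw [pow_two]
      nth_rw 2 [h]
      simp
    have hprim : MulAction.IsPreprimitive (fixingSubgroup G ({x₀} : Set X)) (SubMulAction.ofFixingSubgroup G ({x₀} : Set X)) := MulAction.IsMultiplyPreprimitive.isPreprimitive_ofFixingSubgroup G 2 (by simp; norm_num)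
    have hmem : ∀ n ∈ N, n ≠ 1 → n • x₀ ∈ SubMulAction.ofFixingSubgroup G ({x₀} : Set X) := by
      intro n hn hn1
      rw [SubMulAction.mem_ofFixingSubgroup_iff]
      intro h
      apply hn1
      apply hNinj n hn 1 N.one_mem
      rw [one_smul]
      exact h
    let y₁ : SubMulAction.ofFixingSubgroup G ({x₀} : Set X) := ⟨u • x₀, hmem u huN hu1⟩
    let y₂ : SubMulAction.ofFixingSubgroup G ({x₀} : Set X) := ⟨u⁻¹ • x₀, hmem u⁻¹ (N.inv_mem huN) (by simpa using hu1)⟩
    let B : Set (SubMulAction.ofFixingSubgroup G ({x₀} : Set X)) := {y₁, y₂}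
    have hgfix : ∀ g : fixingSubgroup G ({x₀} : Set X), (g : G) • x₀ = x₀ := by
      intro g
      exact (mem_fixingSubgroup_iff G).1 g.2 x₀ rfl
    have hact : ∀ (g : fixingSubgroup G ({x₀} : Set X)) (n : G), (g : G) • (n • x₀) = ((g : G) * n * (g : G)⁻¹) • x₀ := by
      intro g n
      rw [mul_smul, mul_smul, inv_smul_eq_iff.2 (hgfix g).symm]
    have hB : MulAction.IsBlock (fixingSubgroup G ({x₀} : Set X)) B := by
      rw [MulAction.isBlock_iff_smul_eq_or_disjoint]
      intro g
      let v := (g : G) * u * (g : G)⁻¹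
      have hvN : v ∈ N := (inferInstance : N.Normal).conj_mem u huN g
      have hv1 : v ≠ 1 := by simpa [v] using hu1
      have hg1 : g • y₁ = ⟨v • x₀, hmem v hvN hv1⟩ := Subtype.ext (hact g u)
      have hg2 : g • y₂ = ⟨v⁻¹ • x₀, hmem v⁻¹ (N.inv_mem hvN) (inv_ne_one.2 hv1)⟩ := by
        apply Subtype.ext
        show (g : G) • (u⁻¹ • x₀) = v⁻¹ • x₀
        rw [hact]
        congr 1
        simp [v, mul_assoc]
      have hgB : g • B = {g • y₁, g • y₂} := by
        simp only [B, Set.smul_set_insert, Set.smul_set_singleton]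
      rw [hgB, hg1, hg2]
      by_cases h1 : v = u
      · left
        simp only [h1]
        rfl
      by_cases h2 : v = u⁻¹
      · left
        simp only [h2, inv_inv]
        exact Set.pair_comm _ _
      · right
        rw [Set.disjoint_left]
        intro w hw hw'
        rcases hw with rfl | hw
        · rcases hw' with hw' | hw'
          · exact h1 (hNinj v hvN u huN (congrArg Subtype.val hw'))
          · exact h2 (hNinj v hvN u⁻¹ (N.inv_mem huN) (congrArg Subtype.val hw'))
        · rw [Set.mem_singleton_iff] at hw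
          subst hw
          rcases hw' with hw' | hw'
          · have := hNinj v⁻¹ (N.inv_mem hvN) u huN (congrArg Subtype.val hw')
            exact h2 (by rw [← this, inv_inv])
          · have := hNinj v⁻¹ (N.inv_mem hvN) u⁻¹ (N.inv_mem huN) (congrArg Subtype.val hw')
            exact h1 (inv_injective this)
    have hy : y₁ ≠ y₂ := by
      intro h
      exact huu (hNinj u huN u⁻¹ (N.inv_mem huN) (congrArg Subtype.val h))
    rcases hprim.isTrivialBlock_of_isBlock hB with hs | hB'
    · exfalso
      exact hy (hs (by simp [B]) (by simp [B]))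
    · have hall : ∀ z : X, z = x₀ ∨ z = u • x₀ ∨ z = u⁻¹ • x₀ := by
        intro z
        by_cases hz : z = x₀
        · exact Or.inl hz
        · right
          have hz' : z ∈ SubMulAction.ofFixingSubgroup G ({x₀} : Set X) := by
            rw [SubMulAction.mem_ofFixingSubgroup_iff]
            exact hz
          have h1 : (⟨z, hz'⟩ : SubMulAction.ofFixingSubgroup G ({x₀} : Set X)) ∈ B := by
            rw [hB']
            trivial
          rcases h1 with h1 | h1
          · exact Or.inl (congrArg Subtype.val h1)
          · rw [Set.mem_singleton_iff] at h1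
            exact Or.inr (congrArg Subtype.val h1)
      have h3 : (Finset.univ : Finset X) = {x₀, u • x₀, u⁻¹ • x₀} := by
        ext z
        simpa using hall z
      rw [← Finset.card_univ, h3]
      apply Finset.card_eq_three.2
      refine ⟨x₀, u • x₀, u⁻¹ • x₀, ?_, ?_, ?_, rfl⟩
      · exact fun h => hu1 (hNinj u huN 1 N.one_mem (by rw [one_smul]; exact h.symm))
      · exact fun h => (inv_ne_one.2 hu1) (hNinj u⁻¹ (N.inv_mem huN) 1 N.one_mem (by rw [one_smul]; exact h.symm))
      · intro h
        exact huu (hNinj u huN u⁻¹ (N.inv_mem huN) h)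

end Cfsg.Agent.S0695
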