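import Cfsg.Statements.S0696
import Mathlib
import Cfsg.Agent.S0695

set_option autoImplicit false
open Cfsg

namespace Cfsg.Agent.S0696

open scoped Pointwise

/-- A triply primitive group of degree at least 3 having a regular normal subgroup has degree 3 or 4. -/
theorem result {G : Type*} [Group G] {X : Type*} [Fintype X] [MulAction G X] (hX : 3 ≤ Fintype.card X) (h3 : MulAction.IsMultiplyPreprimitive G X 3) (N : Subgroup G) [N.Normal] (htrans : MulAction.IsPretransitive N X) (hreg : ∀ x : X, MulAction.stabilizer N x = ⊥) : Fintype.card X = 3 ∨ Fintype.card X = 4 := by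
  classical
  have h2 : MulAction.IsMultiplyPreprimitive G X 2 :=
    MulAction.isMultiplyPreprimitive_of_le G X h3 (by norm_num) (by
      rw [ENat.card_eq_coe_fintype_card]
      exact_mod_cast hX)
  rcases Cfsg.Agent.S0695.result (by omega) h2 N htrans hreg with h | ⟨hab, hsq, -⟩
  · exact Or.inl h
  have hcomm : ∀ a ∈ N, ∀ b ∈ N, a * b = b * a := by
    intro a ha b hb
    have := hab.is_comm.comm ⟨a, ha⟩ ⟨b, hb⟩
    exact congrArg Subtype.val this
  obtain ⟨x₀⟩ : Nonempty X := by
    rw [← Fintype.card_pos_iff]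
    omega
  have hNinj : ∀ m ∈ N, ∀ m' ∈ N, m • x₀ = m' • x₀ → m = m' := by
    intro m hm m' hm' he
    have h1 : (⟨m'⁻¹ * m, N.mul_mem (N.inv_mem hm') hm⟩ : N) ∈ MulAction.stabilizer N x₀ := by
      show (m'⁻¹ * m) • x₀ = x₀
      rw [mul_smul, he, inv_smul_smul]
    rw [hreg x₀, Subgroup.mem_bot] at h1
    have h2 : m'⁻¹ * m = 1 := congrArg Subtype.val h1
    exact (inv_mul_eq_one.1 h2).symm
  have hmove : ∀ y : X, ∃ m ∈ N, m • x₀ = y := by
    intro y
    obtain ⟨m, hm⟩ := MulAction.exists_smul_eq N x₀ y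
    exact ⟨m.1, m.2, hm⟩
  -- a second and a third point
  obtain ⟨y₁, hy₁⟩ : ∃ y : X, y ≠ x₀ := by
    haveI : Nontrivial X := Fintype.one_lt_card_iff_nontrivial.1 (by omega)
    exact exists_ne x₀
  obtain ⟨u, huN, rfl⟩ := hmove y₁
  have hu1 : u ≠ 1 := by
    rintro rfl
    exact hy₁ (one_smul _ _)
  have huu : u * u = 1 := by
    have := hsq u huN
    rwa [pow_two] at this
  obtain ⟨z, hz⟩ : ∃ z, z ∉ ({x₀, u • x₀} : Finset X) := by
    by_contra hn
    push Not at hn
    have h1 : (Finset.univ : Finset X) ⊆ {x₀, u • x₀} := fun x _ => hn x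
    have h2 := Finset.card_le_card h1
    have h3 : ({x₀, u • x₀} : Finset X).card ≤ 2 := Finset.card_le_two
    rw [Finset.card_univ] at h2
    omega
  simp only [Finset.mem_insert, Finset.mem_singleton, not_or] at hz
  obtain ⟨v, hvN, rfl⟩ := hmove z
  have hv1 : v ≠ 1 := by
    rintro rfl
    exact hz.1 (one_smul _ _)
  have hvu : v ≠ u := by
    rintro rfl
    exact hz.2 rfl
  let s : Set X := {x₀, u • x₀}
  have hs : s.encard + 1 = ((3 : ℕ) : ℕ∞) := by
    have h1 : s.encard = 2 := Set.encard_pair (Ne.symm hy₁)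
    rw [h1]
    norm_num
  have hprim : MulAction.IsPreprimitive (fixingSubgroup G s) (SubMulAction.ofFixingSubgroup G s) :=
    MulAction.IsMultiplyPreprimitive.isPreprimitive_ofFixingSubgroup G 3 hs
  have hmem : ∀ n ∈ N, n ≠ 1 → n ≠ u → n • x₀ ∈ SubMulAction.ofFixingSubgroup G s := by
    intro n hn hn1 hnu
    rw [SubMulAction.mem_ofFixingSubgroup_iff]
    rintro (h | h)
    · apply hn1
      apply hNinj n hn 1 N.one_mem
      rw [one_smul]
      exact h
    · exact hnu (hNinj n hn u huN h)
  have hvu1 : v * u ≠ 1 := by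
    intro h
    apply hvu
    have h1 : v = u⁻¹ := eq_inv_of_mul_eq_one_left h
    rw [h1, inv_eq_of_mul_eq_one_left huu]
  have hvu2 : v * u ≠ u := by
    intro h
    exact hv1 (by simpa using h)
  let z₁ : SubMulAction.ofFixingSubgroup G s := ⟨v • x₀, hmem v hvN hv1 hvu⟩
  let z₂ : SubMulAction.ofFixingSubgroup G s := ⟨(v * u) • x₀, hmem (v * u) (N.mul_mem hvN huN) hvu1 hvu2⟩
  let B : Set (SubMulAction.ofFixingSubgroup G s) := {z₁, z₂}
  have hgfix : ∀ g : fixingSubgroup G s, (g : G) • x₀ = x₀ := by
    intro g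
    exact (mem_fixingSubgroup_iff G).1 g.2 x₀ (by simp [s])
  have hgfix' : ∀ g : fixingSubgroup G s, (g : G) • (u • x₀) = u • x₀ := by
    intro g
    exact (mem_fixingSubgroup_iff G).1 g.2 _ (by simp [s])
  have hact : ∀ (g : fixingSubgroup G s) (n : G), (g : G) • (n • x₀) = ((g : G) * n * (g : G)⁻¹) • x₀ := by
    intro g n
    rw [mul_smul, mul_smul, inv_smul_eq_iff.2 (hgfix g).symm]
  have hconjN : ∀ (g : fixingSubgroup G s) (n : G), n ∈ N → (g : G) * n * (g : G)⁻¹ ∈ N :=
    fun g n hn => (inferInstance : N.Normal).conj_mem n hn g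
  have hcu : ∀ g : fixingSubgroup G s, (g : G) * u * (g : G)⁻¹ = u := by
    intro g
    apply hNinj _ (hconjN g u huN) _ huN
    rw [← hact, hgfix']
  have hB : MulAction.IsBlock (fixingSubgroup G s) B := by
    rw [MulAction.isBlock_iff_smul_eq_or_disjoint]
    intro g
    let w := (g : G) * v * (g : G)⁻¹
    have hwN : w ∈ N := hconjN g v hvN
    have hw1 : w ≠ 1 := by simpa [w] using hv1
    have hwu : w ≠ u := by
      intro h
      apply hvu
      have h1 : (g : G) * v * (g : G)⁻¹ = (g : G) * u * (g : G)⁻¹ := by rw [hcu g]; exact h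
      exact mul_left_cancel (mul_right_cancel h1)
    have hwu1 : w * u ≠ 1 := by
      intro h
      apply hwu
      have h1 : w = u⁻¹ := eq_inv_of_mul_eq_one_left h
      rw [h1, inv_eq_of_mul_eq_one_left huu]
    have hwu2 : w * u ≠ u := by
      intro h
      exact hw1 (by simpa using h)
    have hg1 : g • z₁ = ⟨w • x₀, hmem w hwN hw1 hwu⟩ := Subtype.ext (hact g v)
    have hg2 : g • z₂ = ⟨(w * u) • x₀, hmem (w * u) (N.mul_mem hwN huN) hwu1 hwu2⟩ := by
      apply Subtype.ext
      show (g : G) • ((v * u) • x₀) = (w * u) • x₀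
      rw [hact]
      congr 1
      calc (g : G) * (v * u) * (g : G)⁻¹ = ((g : G) * v * (g : G)⁻¹) * ((g : G) * u * (g : G)⁻¹) := by group
        _ = w * u := by rw [hcu g]
    have hgB : g • B = {g • z₁, g • z₂} := by
      simp only [B, Set.smul_set_insert, Set.smul_set_singleton]
    rw [hgB, hg1, hg2]
    by_cases h1 : w = v
    · left
      simp only [h1]
      rfl
    by_cases h2 : w = v * u
    · left
      simp only [h2]
      have h5 : v * u * u = v := by rw [mul_assoc, huu, mul_one]
      simp only [h5]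
      exact Set.pair_comm _ _
    · right
      rw [Set.disjoint_left]
      intro t ht ht'
      rcases ht with rfl | ht
      · rcases ht' with ht' | ht'
        · exact h1 (hNinj w hwN v hvN (congrArg Subtype.val ht'))
        · exact h2 (hNinj w hwN (v * u) (N.mul_mem hvN huN) (congrArg Subtype.val ht'))
      · rw [Set.mem_singleton_iff] at ht
        subst ht
        rcases ht' with ht' | ht'
        · have h5 := hNinj (w * u) (N.mul_mem hwN huN) v hvN (congrArg Subtype.val ht')
          apply h2
          rw [← h5, mul_assoc, huu, mul_one]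
        · have h5 := hNinj (w * u) (N.mul_mem hwN huN) (v * u) (N.mul_mem hvN huN) (congrArg Subtype.val ht')
          exact h1 (mul_right_cancel h5)
  have hz12 : z₁ ≠ z₂ := by
    intro h
    have h1 := hNinj v hvN (v * u) (N.mul_mem hvN huN) (congrArg Subtype.val h)
    exact hu1 (by simpa using h1)
  rcases hprim.isTrivialBlock_of_isBlock hB with hs' | hB'
  · exfalso
    exact hz12 (hs' (by simp [B]) (by simp [B]))
  · have hall : ∀ t : X, t = x₀ ∨ t = u • x₀ ∨ t = v • x₀ ∨ t = (v * u) • x₀ := by
      intro t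
      by_cases ht : t ∈ s
      · rcases ht with ht | ht
        · exact Or.inl ht
        · exact Or.inr (Or.inl ht)
      · right; right
        have ht' : t ∈ SubMulAction.ofFixingSubgroup G s := by
          rw [SubMulAction.mem_ofFixingSubgroup_iff]
          exact ht
        have h1 : (⟨t, ht'⟩ : SubMulAction.ofFixingSubgroup G s) ∈ B := by
          rw [hB']
          trivial
        rcases h1 with h1 | h1
        · exact Or.inl (congrArg Subtype.val h1)
        · rw [Set.mem_singleton_iff] at h1
          exact Or.inr (congrArg Subtype.val h1)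
    have h3' : (Finset.univ : Finset X) ⊆ {x₀, u • x₀, v • x₀, (v * u) • x₀} := by
      intro t _
      simpa using hall t
    have h4 := Finset.card_le_card h3'
    have h5 : ({x₀, u • x₀, v • x₀, (v * u) • x₀} : Finset X).card ≤ 4 := Finset.card_le_four
    rw [Finset.card_univ] at h4
    omega

end Cfsg.Agent.S0696
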