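import Cfsg.Statements.S0697
import Mathlib
import Cfsg.Agent.Lib.MultTrans

set_option autoImplicit false
open Cfsg

namespace Cfsg.Agent.S0697

open Cfsg.Agent.Lib.MultTrans MulAction
open scoped Pointwise

/-- In a `k`-primitive permutation group which is not the whole symmetric group, a non-trivial non-regular normal subgroup is `k`-transitive. -/
theorem result {α : Type*} [Fintype α] [DecidableEq α] (G : Subgroup (Equiv.Perm α)) {k : ℕ} (hk : 1 ≤ k) (hkn : k ≤ Fintype.card α) (hG : MulAction.IsMultiplyPreprimitive G α k) (htop : G ≠ ⊤) (H : Subgroup G) [H.Normal] (hH : H ≠ ⊥) (hnr : ∃ a : α, MulAction.stabilizer H a ≠ ⊥) : MulAction.IsMultiplyPretransitive H α k := by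
  classical
  haveI hNn : H.Normal := inferInstance
  have hTk : IsMultiplyPretransitive G α k := IsMultiplyPreprimitive.isMultiplyPretransitive G α k
  have hfaith : ∀ g : G, (∀ x : α, g • x = x) → g = 1 := by
    intro g hg
    apply Subtype.ext
    ext x
    exact hg x
  have hprimS : ∀ (j : ℕ), j + 1 ≤ k → ∀ s : Finset α, s.card = j →
      IsPreprimitive (fixingSubgroup G (s : Set α)) (SubMulAction.ofFixingSubgroup G (s : Set α)) := by
    intro j hj s hs
    have h1 : IsMultiplyPreprimitive G α (j + 1) :=
      isMultiplyPreprimitive_of_le G α hG hj (by
        rw [ENat.card_eq_coe_fintype_card]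
        exact_mod_cast hkn)
    exact IsMultiplyPreprimitive.isPreprimitive_ofFixingSubgroup G (j + 1) (by
      rw [Set.encard_coe_eq_coe_finsetCard, hs]
      norm_cast)
  have hinduct : ∀ j, j ≤ k → IsMultiplyPretransitive H α j := by
    intro j
    induction j with
    | zero =>
      intro _
      exact is_zero_pretransitive
    | succ j ih =>
      intro hj1
      have hj := ih (by omega)
      have hjn : j ≤ Fintype.card α := by omega
      by_cases hsharp : ∃ s₀ : Finset α, s₀.card = j ∧ ∀ n : H, (∀ x ∈ s₀, n • x = x) → n = 1
      · exfalso
        obtain ⟨s₀, hs₀, h₀⟩ := hsharp
        have hsp := sharp_spread hj hjn s₀ hs₀ h₀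
        rcases Nat.lt_or_ge j 2 with hj2 | hj2
        · interval_cases j
          · apply hH
            rw [eq_bot_iff]
            intro n hn
            have h1 := hsp ∅ rfl ⟨n, hn⟩ (by simp)
            exact congrArg Subtype.val h1
          · obtain ⟨a, ha⟩ := hnr
            obtain ⟨n, hn, hn1⟩ := (Subgroup.bot_or_exists_ne_one _).resolve_left ha
            have hn' : n • a = a := hn
            exact hn1 (hsp {a} (by simp) n (by simpa using hn'))
        · obtain ⟨S, -, hS⟩ := Finset.exists_subset_card_eq (s := (Finset.univ : Finset α)) (n := j) (by rw [Finset.card_univ]; omega)
          obtain ⟨a, ha, b, hb, hab⟩ := Finset.one_lt_card.1 (show 1 < S.card by omega)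
          obtain ⟨h, hh⟩ := lift_map hj hjn S hS.le (Equiv.swap a b) ((Equiv.swap a b).injective.injOn)
          have hha : (h : G) • a = b := by
            have := hh a ha
            rw [Equiv.swap_apply_left] at this
            exact this
          have hh1 : h ≠ 1 := by
            rintro rfl
            exact hab (by simpa using hha)
          have hmemS : ∀ x ∈ S, Equiv.swap a b x ∈ S := by
            intro x hx
            rw [Equiv.swap_apply_def]
            split_ifs
            · exact hb
            · exact ha
            · exact hx
          have hhS : ∀ x ∈ S, (h : G) • x ∈ S := by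
            intro x hx
            have h1 : (h : G) • x = Equiv.swap a b x := hh x hx
            rw [h1]
            exact hmemS x hx
          have hhS' : ∀ x, (h : G) • x ∈ S → x ∈ S := by
            intro x h1
            have h3 : (h : G) • ((h : G) • x) = Equiv.swap a b ((h : G) • x) := hh _ h1
            have h4 : Equiv.swap a b (Equiv.swap a b ((h : G) • x)) = (h : G) • x := by simp
            have h5 : (h : G) • (Equiv.swap a b ((h : G) • x)) = Equiv.swap a b (Equiv.swap a b ((h : G) • x)) :=
              hh _ (hmemS _ h1)
            rw [h4] at h5
            have h6 := MulAction.injective _ h5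
            rw [← h6]
            exact hmemS _ h1
          have hcomm : ∀ g : G, (∀ x ∈ S, g • x = x) → g * h = h * g := by
            intro g hg
            have hN' : (h : G)⁻¹ * (g * h * g⁻¹) ∈ H := H.mul_mem (H.inv_mem h.2) (hNn.conj_mem _ h.2 g)
            have h1 : (⟨_, hN'⟩ : H) = 1 := by
              apply hsp S hS
              intro x hx
              show ((h : G)⁻¹ * (g * h * g⁻¹)) • x = x
              have h2 : g⁻¹ • x = x := by rw [inv_smul_eq_iff, hg x hx]
              rw [mul_smul, mul_smul, mul_smul, h2, hg _ (hhS x hx), inv_smul_smul]
            have h3 : (h : G)⁻¹ * (g * h * g⁻¹) = 1 := congrArg Subtype.val h1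
            have h4 : g * h * g⁻¹ = h := (inv_mul_eq_one.1 h3).symm
            calc g * h = (g * h * g⁻¹) * g := by group
              _ = h * g := by rw [h4]
          have hhsq : (h : G) * (h : G) = 1 := by
            have h1 : h * h = 1 := by
              apply hsp S hS
              intro x hx
              show (h : G) • ((h : G) • x) = x
              have h3 : (h : G) • ((h : G) • x) = Equiv.swap a b ((h : G) • x) := hh _ (hhS x hx)
              have h4 : (h : G) • x = Equiv.swap a b x := hh x hx
              rw [h3, h4]
              simp
            exact congrArg Subtype.val h1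
          have hsmulh : ∀ x : α, (h : G) • ((h : G) • x) = x := by
            intro x
            rw [← mul_smul, hhsq, one_smul]
          -- the action on the complement
          have hprim := hprimS j hj1 S hS
          have hmemW : ∀ x, x ∉ S → x ∈ SubMulAction.ofFixingSubgroup G (S : Set α) := by
            intro x hx
            rw [SubMulAction.mem_ofFixingSubgroup_iff]
            exact hx
          have hWc : Fintype.card α - j ≤ 2 := by
            by_contra hW3
            have hWc : 3 ≤ (Finset.univ \ S).card := by
              rw [Finset.card_sdiff_of_subset (Finset.subset_univ _), Finset.card_univ, hS]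
              omega
            by_cases hfix : ∃ x, x ∉ S ∧ (h : G) • x = x
            · obtain ⟨x, hxS, hx⟩ := hfix
              have hfixW : ∀ w, w ∉ S → (h : G) • w = w := by
                intro w hw
                obtain ⟨g, hg⟩ := exists_smul_eq (fixingSubgroup G (S : Set α))
                  (⟨x, hmemW x hxS⟩ : SubMulAction.ofFixingSubgroup G (S : Set α)) ⟨w, hmemW w hw⟩
                have hg1 : (g : G) • x = w := congrArg Subtype.val hg
                have hg0 : ∀ v ∈ S, (g : G) • v = v := fun v hv =>
                  (mem_fixingSubgroup_iff G).1 g.2 v hv
                rw [← hg1, ← mul_smul, ← hcomm _ hg0, mul_smul, hx]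
              obtain ⟨w₁, hw₁, w₂, hw₂, hww⟩ := Finset.one_lt_card.1 (show 1 < (Finset.univ \ S).card by omega)
              simp only [Finset.mem_sdiff, Finset.mem_univ, true_and] at hw₁ hw₂
              let T := insert w₁ (insert w₂ ((S.erase a).erase b))
              have hTc : T.card = j := by
                have h1 : ((S.erase a).erase b).card = j - 2 := by
                  rw [Finset.card_erase_of_mem (Finset.mem_erase.2 ⟨hab.symm, hb⟩), Finset.card_erase_of_mem ha, hS]
                  omega
                have h2 : w₂ ∉ (S.erase a).erase b := fun h => hw₂ (Finset.mem_of_mem_erase (Finset.mem_of_mem_erase h))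
                have h3 : w₁ ∉ insert w₂ ((S.erase a).erase b) := by
                  simp only [Finset.mem_insert, not_or]
                  exact ⟨hww, fun h => hw₁ (Finset.mem_of_mem_erase (Finset.mem_of_mem_erase h))⟩
                rw [Finset.card_insert_of_notMem h3, Finset.card_insert_of_notMem h2, h1]
                omega
              apply hh1
              apply hsp T hTc
              intro x hx
              simp only [T, Finset.mem_insert] at hx
              rcases hx with rfl | rfl | hx
              · exact hfixW _ hw₁
              · exact hfixW _ hw₂
              · have hx1 := Finset.mem_erase.1 hx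
                have hx2 := Finset.mem_erase.1 hx1.2
                have h1 : (h : G) • x = Equiv.swap a b x := hh x hx2.2
                rw [Equiv.swap_apply_of_ne_of_ne hx2.1 hx1.1] at h1
                exact h1
            · push Not at hfix
              obtain ⟨x, hx, -⟩ := Finset.one_lt_card.1 (show 1 < (Finset.univ \ S).card by omega)
              have hxS : x ∉ S := (Finset.mem_sdiff.1 hx).2
              have hx' : (h : G) • x ∉ S := fun h1 => hxS (hhS' x h1)
              let y₁ : SubMulAction.ofFixingSubgroup G (S : Set α) := ⟨x, hmemW x hxS⟩
              let y₂ : SubMulAction.ofFixingSubgroup G (S : Set α) := ⟨(h : G) • x, hmemW _ hx'⟩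
              let B : Set (SubMulAction.ofFixingSubgroup G (S : Set α)) := {y₁, y₂}
              have hB : IsBlock (fixingSubgroup G (S : Set α)) B := by
                rw [isBlock_iff_smul_eq_or_disjoint]
                intro g
                have hg0 : ∀ v ∈ S, (g : G) • v = v := fun v hv =>
                  (mem_fixingSubgroup_iff G).1 g.2 v hv
                have hgc := hcomm _ hg0
                have hgx : (g : G) • ((h : G) • x) = (h : G) • ((g : G) • x) := by
                  rw [← mul_smul, hgc, mul_smul]
                have hgB : g • B = {g • y₁, g • y₂} := by
                  simp only [B, Set.smul_set_insert, Set.smul_set_singleton]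
                rw [hgB]
                by_cases h1 : (g : G) • x = x
                · left
                  have e1 : g • y₁ = y₁ := Subtype.ext h1
                  have e2 : g • y₂ = y₂ := by
                    apply Subtype.ext
                    show (g : G) • ((h : G) • x) = (h : G) • x
                    rw [hgx, h1]
                  rw [e1, e2]
                by_cases h2 : (g : G) • x = (h : G) • x
                · left
                  have e1 : g • y₁ = y₂ := Subtype.ext h2
                  have e2 : g • y₂ = y₁ := by
                    apply Subtype.ext
                    show (g : G) • ((h : G) • x) = x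
                    rw [hgx, h2, hsmulh]
                  rw [e1, e2]
                  exact Set.pair_comm _ _
                · right
                  rw [Set.disjoint_left]
                  intro w hw hw'
                  have h3 : (h : G) • ((g : G) • x) ≠ x := fun he => h2 ((hsmulh _).symm.trans (congrArg (fun t => (h : G) • t) he))
                  have h4 : (h : G) • ((g : G) • x) ≠ (h : G) • x := fun he => h1 (MulAction.injective _ he)
                  rcases hw with rfl | hw
                  · rcases hw' with hw' | hw'
                    · exact h1 (congrArg Subtype.val hw')
                    · exact h2 (congrArg Subtype.val hw')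
                  · rw [Set.mem_singleton_iff] at hw
                    subst hw
                    have e : (((g • y₂ : SubMulAction.ofFixingSubgroup G (S : Set α))) : α) = (h : G) • ((g : G) • x) := hgx
                    rcases hw' with hw' | hw'
                    · apply h3
                      rw [← e, hw']
                    · apply h4
                      rw [Set.mem_singleton_iff] at hw'
                      rw [← e, hw']
              have hy : y₁ ≠ y₂ := fun he => hfix x hxS (congrArg Subtype.val he).symm
              rcases hprim.isTrivialBlock_of_isBlock hB with hs | hB'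
              · exact hy (hs (by simp [B]) (by simp [B]))
              · have hsub : Finset.univ \ S ⊆ {x, (h : G) • x} := by
                  intro w hw
                  have hwS : w ∉ S := (Finset.mem_sdiff.1 hw).2
                  have h1 : (⟨w, hmemW w hwS⟩ : SubMulAction.ofFixingSubgroup G (S : Set α)) ∈ B := by
                    rw [hB']
                    trivial
                  rcases h1 with h1 | h1
                  · have e : w = x := congrArg Subtype.val h1
                    rw [e]
                    simp
                  · rw [Set.mem_singleton_iff] at h1
                    have e : w = (h : G) • x := congrArg Subtype.val h1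
                    rw [e]
                    simp
                have h1 := Finset.card_le_card hsub
                have h2 : ({x, (h : G) • x} : Finset α).card ≤ 2 := Finset.card_le_two
                omega
          -- so `G` is everything
          apply htop
          apply Equiv.Perm.eq_top_of_isMultiplyPretransitive
          rw [Nat.card_eq_fintype_card]
          apply isMultiplyPretransitive_of_le (n := k)
          · omega
          · rwa [Nat.card_eq_fintype_card]
      · push Not at hsharp
        apply tuple_step hj
        intro s hs y z hy hz
        obtain ⟨n, hns, hn1⟩ := hsharp s hs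
        have hn1' : (n : G) ≠ 1 := fun h => hn1 (Subtype.ext h)
        obtain ⟨x, hx⟩ : ∃ x : α, (n : G) • x ≠ x := by
          by_contra hc
          push Not at hc
          exact hn1' (hfaith _ hc)
        have hxs : x ∉ s := fun h => hx (hns x h)
        have hprim := hprimS j hj1 s hs
        have hmemW : ∀ x, x ∉ s → x ∈ SubMulAction.ofFixingSubgroup G (s : Set α) := by
          intro x hx
          rw [SubMulAction.mem_ofFixingSubgroup_iff]
          exact hx
        let H' : Subgroup (fixingSubgroup G (s : Set α)) := H.comap (fixingSubgroup G (s : Set α)).subtype
        haveI : H'.Normal := hNn.comap _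
        let a₀ : SubMulAction.ofFixingSubgroup G (s : Set α) := ⟨x, hmemW x hxs⟩
        have hB := IsBlock.orbit_of_normal (G := fixingSubgroup G (s : Set α)) (N := H') a₀
        let n' : H' := ⟨⟨n, (mem_fixingSubgroup_iff G).2 (fun v hv => hns v hv)⟩, n.2⟩
        have ho : orbit H' a₀ = Set.univ := by
          rcases hprim.isTrivialBlock_of_isBlock hB with hs' | hs'
          · exfalso
            have h1 : a₀ ∈ orbit H' a₀ := mem_orbit_self a₀
            have h2 : n' • a₀ ∈ orbit H' a₀ := mem_orbit a₀ n'
            have h3 := hs' h1 h2
            exact hx (congrArg Subtype.val h3).symm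
          · exact hs'
        have hmove : ∀ w (hw : w ∉ s), ∃ m : H', (m : fixingSubgroup G (s : Set α)) • a₀ = ⟨w, hmemW w hw⟩ := by
          intro w hw
          have h1 : (⟨w, hmemW w hw⟩ : SubMulAction.ofFixingSubgroup G (s : Set α)) ∈ orbit H' a₀ := by
            rw [ho]
            trivial
          obtain ⟨m, hm⟩ := h1
          exact ⟨m, hm⟩
        obtain ⟨m₁, hm₁⟩ := hmove y hy
        obtain ⟨m₂, hm₂⟩ := hmove z hz
        have hm₁' : ((m₁ : fixingSubgroup G (s : Set α)) : G) • x = y := congrArg Subtype.val hm₁
        have hm₂' : ((m₂ : fixingSubgroup G (s : Set α)) : G) • x = z := congrArg Subtype.val hm₂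
        let m : H := ⟨((m₂ * m₁⁻¹ : H') : fixingSubgroup G (s : Set α)), (m₂ * m₁⁻¹).2⟩
        refine ⟨m, ?_, ?_⟩
        · intro v hv
          exact (mem_fixingSubgroup_iff G).1 ((m₂ * m₁⁻¹ : H') : fixingSubgroup G (s : Set α)).2 v hv
        · show (((m₂ : fixingSubgroup G (s : Set α)) : G) * ((m₁ : fixingSubgroup G (s : Set α)) : G)⁻¹) • y = z
          rw [mul_smul, inv_smul_eq_iff.2 hm₁'.symm, hm₂']
  exact hinduct k le_rfl

end Cfsg.Agent.S0697
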