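import Cfsg.Statements.S0698
import Mathlib
import Cfsg.Agent.Lib.MultTrans

set_option autoImplicit false
open Cfsg

namespace Cfsg.Agent.S0698

open Cfsg.Agent.Lib.MultTrans MulAction

/-- A regular normal subgroup of a 3-transitive group of degree at least 4 has exponent 2. -/
theorem reg_sq {α : Type*} [Fintype α] [DecidableEq α] {A : Type*} [Group A] [MulAction A α] {k : ℕ} (hk : 3 ≤ k) (hdeg : k < Fintype.card α)
    (hG : IsMultiplyPretransitive A α k) (N : Subgroup A) (hNn : N.Normal)
    (hreg : ∀ n ∈ N, ∀ a : α, n • a = a → n = 1) : ∀ u ∈ N, u ^ 2 = 1 := by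
  classical
  intro u hu
  by_contra hne
  have hne' : u * u ≠ 1 := by rwa [← pow_two]
  have hu1 : u ≠ 1 := by
    rintro rfl
    simp at hne'
  obtain ⟨a⟩ : Nonempty α := by
    rw [← Fintype.card_pos_iff]
    omega
  have h1 : u • a ≠ a := fun h => hu1 (hreg u hu a h)
  have h2 : u⁻¹ • a ≠ a := fun h => (inv_ne_one.2 hu1) (hreg _ (N.inv_mem hu) a h)
  have h3 : u⁻¹ • a ≠ u • a := by
    intro h
    apply hne'
    apply hreg _ (N.mul_mem hu hu) a
    rw [mul_smul, ← h, smul_inv_smul]
  obtain ⟨z, hz⟩ : ∃ z, z ∉ ({a, u • a, u⁻¹ • a} : Finset α) := by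
    by_contra hn
    push Not at hn
    have h4 : (Finset.univ : Finset α) ⊆ {a, u • a, u⁻¹ • a} := fun x _ => hn x
    have h5 := Finset.card_le_card h4
    have h6 : ({a, u • a, u⁻¹ • a} : Finset α).card ≤ 3 := Finset.card_le_three
    rw [Finset.card_univ] at h5
    omega
  simp only [Finset.mem_insert, Finset.mem_singleton, not_or] at hz
  obtain ⟨g, hg0, hg1, hg2⟩ := two_off hG hdeg.le {a} (by simpa using by omega) (u • a) (u⁻¹ • a) (u • a) z
    (by simpa using h1) (by simpa using h2) (by simpa using h1) (by simpa using hz.1) h3.symm (Ne.symm hz.2.1)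
  have hga : g • a = a := hg0 a (by simp)
  have hcomm : g * u * g⁻¹ = u := by
    have h4 : u⁻¹ * (g * u * g⁻¹) = 1 := by
      apply hreg _ (N.mul_mem (N.inv_mem hu) (hNn.conj_mem u hu g)) a
      rw [mul_smul, mul_smul, mul_smul, inv_smul_eq_iff.2 hga.symm, hg1, inv_smul_smul]
    exact (inv_mul_eq_one.1 h4).symm
  have hcomm' : g * u⁻¹ = u⁻¹ * g := by
    have h4 : g * u = u * g := by
      calc g * u = (g * u * g⁻¹) * g := by group
        _ = u * g := by rw [hcomm]
    calc g * u⁻¹ = u⁻¹ * (u * g) * u⁻¹ := by group
      _ = u⁻¹ * (g * u) * u⁻¹ := by rw [h4]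
      _ = u⁻¹ * g := by group
  apply hz.2.2
  rw [← hg2, ← mul_smul, hcomm', mul_smul, hga]

theorem comm_of_sq {A : Type*} [Group A] (N : Subgroup A) (hsq : ∀ n ∈ N, n ^ 2 = 1) : ∀ a ∈ N, ∀ b ∈ N, a * b = b * a := by
  intro a ha b hb
  have h2 : a * a = 1 := by
    have := hsq _ ha
    rwa [pow_two] at this
  have h3 : b * b = 1 := by
    have := hsq _ hb
    rwa [pow_two] at this
  have h4 : b * a * (b * a) = 1 := by
    have := hsq _ (N.mul_mem hb ha)
    rwa [pow_two] at this
  calc a * b = a * b * (b * a * (b * a)) := by rw [h4, mul_one]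
    _ = a * (b * b) * a * (b * a) := by group
    _ = b * a := by rw [h3, mul_one, h2, one_mul]

/-- A regular normal subgroup cannot live in a 4-transitive group of degree at least 5. -/
theorem reg_four {α : Type*} [Fintype α] [DecidableEq α] {A : Type*} [Group A] [MulAction A α] {k : ℕ} (hk : 4 ≤ k) (hdeg : k < Fintype.card α)
    (hG : IsMultiplyPretransitive A α k) (N : Subgroup A) (hNn : N.Normal)
    (hreg : ∀ n ∈ N, ∀ a : α, n • a = a → n = 1) (hmove : ∀ a b : α, ∃ n ∈ N, n • a = b) : False := by
  classical
  have hsq := reg_sq (by omega) hdeg hG N hNn hreg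
  have hcom := comm_of_sq N hsq
  obtain ⟨a⟩ : Nonempty α := by
    rw [← Fintype.card_pos_iff]
    omega
  obtain ⟨b, hb⟩ : ∃ b : α, b ≠ a := by
    haveI : Nontrivial α := Fintype.one_lt_card_iff_nontrivial.1 (by omega)
    exact exists_ne a
  obtain ⟨u, hu, rfl⟩ := hmove a b
  have hu1 : u ≠ 1 := by
    rintro rfl
    exact hb (one_smul _ _)
  obtain ⟨c, hc⟩ : ∃ c, c ∉ ({a, u • a} : Finset α) := by
    by_contra hn
    push Not at hn
    have h4 : (Finset.univ : Finset α) ⊆ {a, u • a} := fun x _ => hn x
    have h5 := Finset.card_le_card h4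
    have h6 : ({a, u • a} : Finset α).card ≤ 2 := Finset.card_le_two
    rw [Finset.card_univ] at h5
    omega
  simp only [Finset.mem_insert, Finset.mem_singleton, not_or] at hc
  obtain ⟨v, hv, rfl⟩ := hmove a c
  have hv1 : v ≠ 1 := by
    rintro rfl
    exact hc.1 (one_smul _ _)
  have hvu : v ≠ u := by
    rintro rfl
    exact hc.2 rfl
  have huu : u * u = 1 := by
    have := hsq u hu
    rwa [pow_two] at this
  have huv : u * v ≠ 1 := by
    intro h
    apply hvu
    have h1 : v = u⁻¹ := eq_inv_of_mul_eq_one_right h
    rw [h1, inv_eq_of_mul_eq_one_left huu]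
  have inj : ∀ m ∈ N, ∀ m' ∈ N, m • a = m' • a → m = m' := by
    intro m hm m' hm' he
    have h3 : m'⁻¹ * m = 1 := by
      apply hreg _ (N.mul_mem (N.inv_mem hm') hm) a
      rw [mul_smul, he, inv_smul_smul]
    exact (inv_mul_eq_one.1 h3).symm
  have h1 : (u * v) • a ≠ a := fun h => huv (hreg _ (N.mul_mem hu hv) a h)
  have h2 : (u * v) • a ≠ u • a := fun h => hv1 (by simpa using inj _ (N.mul_mem hu hv) _ hu h)
  have h3 : (u * v) • a ≠ v • a := fun h => hu1 (by simpa using inj _ (N.mul_mem hu hv) _ hv h)
  obtain ⟨t, ht⟩ : ∃ t, t ∉ ({a, u • a, v • a, (u * v) • a} : Finset α) := by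
    by_contra hn
    push Not at hn
    have h4 : (Finset.univ : Finset α) ⊆ {a, u • a, v • a, (u * v) • a} := fun x _ => hn x
    have h5 := Finset.card_le_card h4
    have h6 : ({a, u • a, v • a, (u * v) • a} : Finset α).card ≤ 4 := Finset.card_le_four
    rw [Finset.card_univ] at h5
    omega
  simp only [Finset.mem_insert, Finset.mem_singleton, not_or] at ht
  have hbne : a ≠ u • a := Ne.symm hb
  obtain ⟨g, hg0, hg1, hg2⟩ := two_off hG hdeg.le {a, u • a} (by
      have := Finset.card_le_two (a := a) (b := u • a)
      omega) (v • a) ((u * v) • a) (v • a) t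
    (by simpa using ⟨hc.1, hc.2⟩) (by simpa using ⟨h1, h2⟩) (by simpa using ⟨hc.1, hc.2⟩) (by simpa using ⟨ht.1, ht.2.1⟩) (Ne.symm h3) (Ne.symm ht.2.2.1)
  have hga : g • a = a := hg0 a (by simp)
  have hgu : g • (u • a) = u • a := hg0 _ (by simp)
  have key : ∀ w ∈ N, g • (w • a) = w • a → g * w = w * g := by
    intro w hw he
    have h4 : w⁻¹ * (g * w * g⁻¹) = 1 := by
      apply hreg _ (N.mul_mem (N.inv_mem hw) (hNn.conj_mem w hw g)) a
      rw [mul_smul, mul_smul, mul_smul, inv_smul_eq_iff.2 hga.symm, he, inv_smul_smul]
    have h5 : g * w * g⁻¹ = w := (inv_mul_eq_one.1 h4).symm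
    calc g * w = (g * w * g⁻¹) * g := by group
      _ = w * g := by rw [h5]
  have hc1 := key u hu hgu
  have hc2 := key v hv hg1
  apply ht.2.2.2
  rw [← hg2, mul_smul, ← mul_smul g u, hc1, mul_smul, ← mul_smul g v, hc2, mul_smul, hga]

/-- Jordan's Theorem on normal subgroups of multiply transitive groups: if `G` is `k`-transitive (`k > 1`) of degree greater than `k`, a non-trivial normal subgroup is `(k-1)`-transitive, except possibly for `k = 3` when it may be an elementary abelian 2-group. -/
theorem result {α : Type*} [Fintype α] [DecidableEq α] (G : Subgroup (Equiv.Perm α)) {k : ℕ} (hk : 1 < k) (hdeg : k < Fintype.card α) (hG : MulAction.IsMultiplyPretransitive G α k) (N : Subgroup G) [N.Normal] (hN : N ≠ ⊥) : MulAction.IsMultiplyPretransitive N α (k - 1) ∨ (k = 3 ∧ IsMulCommutative N ∧ ∀ n ∈ N, n ^ 2 = 1) := by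
  classical
  by_contra hcon
  push Not at hcon
  obtain ⟨hleft, hright⟩ := hcon
  haveI hNn : N.Normal := inferInstance
  have hfaith : ∀ g : G, (∀ x : α, g • x = x) → g = 1 := by
    intro g hg
    apply Subtype.ext
    ext x
    exact hg x
  have hinduct : ∀ j, j ≤ k - 1 → IsMultiplyPretransitive N α j := by
    intro j
    induction j with
    | zero =>
      intro _
      exact is_zero_pretransitive
    | succ j ih =>
      intro hj1
      have hj := ih (by omega)
      have hjk : j + 2 ≤ k := by omega
      have hjn : j ≤ Fintype.card α := by omega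
      by_cases hsharp : ∃ s₀ : Finset α, s₀.card = j ∧ ∀ n : N, (∀ x ∈ s₀, n • x = x) → n = 1
      · exfalso
        obtain ⟨s₀, hs₀, h₀⟩ := hsharp
        have hsp := sharp_spread hj hjn s₀ hs₀ h₀
        rcases Nat.lt_or_ge j 2 with hj2 | hj2
        · interval_cases j
          · -- j = 0
            apply hN
            rw [eq_bot_iff]
            intro n hn
            have h1 := hsp ∅ rfl ⟨n, hn⟩ (by simp)
            exact congrArg Subtype.val h1
          · -- regular case
            have hreg : ∀ n ∈ N, ∀ a : α, n • a = a → n = 1 := by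
              intro n hn a ha
              have h1 := hsp {a} (by simp) ⟨n, hn⟩ (by simpa using ha)
              exact congrArg Subtype.val h1
            have hmove : ∀ a b : α, ∃ n ∈ N, n • a = b := by
              intro a b
              haveI : IsPretransitive N α := is_one_pretransitive_iff.1 hj
              obtain ⟨n, hn⟩ := exists_smul_eq N a b
              exact ⟨n, n.2, hn⟩
            rcases Nat.lt_or_ge k 4 with hk4 | hk4
            · have hk3 : k = 3 := by omega
              have hsq := reg_sq (by omega) hdeg hG N hNn hreg
              have hcomm := comm_of_sq N hsq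
              obtain ⟨n, hn, hne⟩ := hright hk3 ⟨⟨fun a b => Subtype.ext (hcomm a a.2 b b.2)⟩⟩
              exact hne (hsq n hn)
            · exact reg_four hk4 hdeg hG N hNn hreg hmove
        · -- sharply `j`-transitive, `j ≥ 2`
          obtain ⟨S, -, hS⟩ := Finset.exists_subset_card_eq (s := (Finset.univ : Finset α)) (n := j) (by rw [Finset.card_univ]; omega)
          obtain ⟨a, ha, b, hb, hab⟩ := Finset.one_lt_card.1 (show 1 < S.card by omega)
          obtain ⟨h, hh⟩ := lift_map hj hjn S hS.le (Equiv.swap a b) ((Equiv.swap a b).injective.injOn)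
          have hha : (h : G) • a = b := by
            have := hh a ha
            rw [Equiv.swap_apply_left] at this
            exact this
          have hh1 : h ≠ 1 := by
            rintro rfl
            exact hab (by simpa using hha)
          have hhS : ∀ x ∈ S, (h : G) • x ∈ S := by
            intro x hx
            have h1 : (h : G) • x = Equiv.swap a b x := hh x hx
            rw [h1, Equiv.swap_apply_def]
            split_ifs
            · exact hb
            · exact ha
            · exact hx
          -- elements of G fixing S commute with h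
          have hcomm : ∀ g : G, (∀ x ∈ S, g • x = x) → g * h = h * g := by
            intro g hg
            have hN' : (h : G)⁻¹ * (g * h * g⁻¹) ∈ N := N.mul_mem (N.inv_mem h.2) (hNn.conj_mem _ h.2 g)
            have h1 : (⟨_, hN'⟩ : N) = 1 := by
              apply hsp S hS
              intro x hx
              show ((h : G)⁻¹ * (g * h * g⁻¹)) • x = x
              have h2 : g⁻¹ • x = x := by rw [inv_smul_eq_iff, hg x hx]
              rw [mul_smul, mul_smul, mul_smul, h2, hg _ (hhS x hx), inv_smul_smul]
            have h3 : (h : G)⁻¹ * (g * h * g⁻¹) = 1 := congrArg Subtype.val h1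
            have h4 : g * h * g⁻¹ = h := (inv_mul_eq_one.1 h3).symm
            calc g * h = (g * h * g⁻¹) * g := by group
              _ = h * g := by rw [h4]
          -- the complement
          have hWc : 3 ≤ (Finset.univ \ S).card := by
            rw [Finset.card_sdiff_of_subset (Finset.subset_univ _), Finset.card_univ, hS]
            omega
          by_cases hfixW : ∀ x, x ∉ S → (h : G) • x = x
          · -- h fixes the complement
            obtain ⟨w₁, hw₁, w₂, hw₂, hww⟩ := Finset.one_lt_card.1 (show 1 < (Finset.univ \ S).card by omega)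
            simp only [Finset.mem_sdiff, Finset.mem_univ, true_and] at hw₁ hw₂
            let T := insert w₁ (insert w₂ ((S.erase a).erase b))
            have hTc : T.card = j := by
              have h1 : ((S.erase a).erase b).card = j - 2 := by
                rw [Finset.card_erase_of_mem (Finset.mem_erase.2 ⟨hab.symm, hb⟩), Finset.card_erase_of_mem ha, hS]
                omega
              have h2 : w₂ ∉ (S.erase a).erase b := fun h => hw₂ (Finset.mem_of_mem_erase (Finset.mem_of_mem_erase h))
              have h3 : w₁ ∉ insert w₂ ((S.erase a).erase b) := by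
                simp only [Finset.mem_insert, not_or]
                exact ⟨hww, fun h => hw₁ (Finset.mem_of_mem_erase (Finset.mem_of_mem_erase h))⟩
              rw [Finset.card_insert_of_notMem h3, Finset.card_insert_of_notMem h2, h1]
              omega
            apply hh1
            apply hsp T hTc
            intro x hx
            simp only [T, Finset.mem_insert] at hx
            rcases hx with rfl | rfl | hx
            · exact hfixW _ hw₁
            · exact hfixW _ hw₂
            · have hx1 := Finset.mem_erase.1 hx
              have hx2 := Finset.mem_erase.1 hx1.2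
              have h1 : (h : G) • x = Equiv.swap a b x := hh x hx2.2
              rw [Equiv.swap_apply_of_ne_of_ne hx2.1 hx1.1] at h1
              exact h1
          · push Not at hfixW
            obtain ⟨x, hxS, hx⟩ := hfixW
            have hx' : (h : G) • x ∉ S := by
              intro h1
              have h2 := hhS _ h1
              -- `h` maps `S` to itself, injectively, so preimages stay in `S`
              have h3 : (h : G) • ((h : G) • x) = Equiv.swap a b ((h : G) • x) := hh _ h1
              have h4 : Equiv.swap a b (Equiv.swap a b ((h : G) • x)) = (h : G) • x := by simp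
              have h5 : (h : G) • (Equiv.swap a b ((h : G) • x)) = Equiv.swap a b (Equiv.swap a b ((h : G) • x)) := by
                apply hh
                rw [Equiv.swap_apply_def]
                split_ifs
                · exact hb
                · exact ha
                · exact h1
              rw [h4] at h5
              have h6 := MulAction.injective _ h5
              apply hxS
              rw [← h6, Equiv.swap_apply_def]
              split_ifs
              · exact hb
              · exact ha
              · exact h1
            obtain ⟨x'', hx''⟩ : ∃ y, y ∉ insert x (insert ((h : G) • x) S) := by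
              by_contra hn
              push Not at hn
              have h1 : (Finset.univ : Finset α) ⊆ insert x (insert ((h : G) • x) S) := fun y _ => hn y
              have h2 := Finset.card_le_card h1
              have h3 : (insert x (insert ((h : G) • x) S)).card ≤ j + 2 := by
                calc _ ≤ (insert ((h : G) • x) S).card + 1 := Finset.card_insert_le _ _
                  _ ≤ S.card + 1 + 1 := by
                    have := Finset.card_insert_le ((h : G) • x) S
                    omega
                  _ = j + 2 := by omega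
              rw [Finset.card_univ] at h2
              omega
            simp only [Finset.mem_insert, not_or] at hx''
            obtain ⟨g, hg0, hg1, hg2⟩ := two_off hG hdeg.le S (by omega) x ((h : G) • x) x x'' hxS hx' hxS hx''.2.2 (Ne.symm hx) (Ne.symm hx''.1)
            have h1 := hcomm g hg0
            apply hx''.2.1
            rw [← hg2, ← mul_smul, h1, mul_smul, hg1]
      · push Not at hsharp
        apply tuple_step hj
        intro s hs y z hy hz
        obtain ⟨n, hns, hn1⟩ := hsharp s hs
        have hn1' : (n : G) ≠ 1 := fun h => hn1 (Subtype.ext h)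
        obtain ⟨x, hx⟩ : ∃ x : α, (n : G) • x ≠ x := by
          by_contra hc
          push Not at hc
          exact hn1' (hfaith _ hc)
        obtain ⟨m, hmN, hm1, hm2⟩ := normal_step hG hdeg.le N hNn s (by omega) n n.2 hns x hx y z hy hz
        exact ⟨⟨m, hmN⟩, hm1, hm2⟩
  exact hleft (hinduct _ le_rfl)

end Cfsg.Agent.S0698
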