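import Cfsg.Statements.S0699
import Mathlib

set_option autoImplicit false
open Cfsg

namespace Cfsg.Agent.S0699

open MulAction

section abstract

variable {X Ω : Type*} [Group X] [Finite X] [MulAction X Ω] [Finite Ω]

private theorem exists_odd_orbit (h : Odd (Nat.card Ω)) : ∃ z : Ω, Odd (orbit X z).ncard := by
  haveI : Fact (Nat.Prime 2) := ⟨Nat.prime_two⟩
  obtain R : Sylow 2 X := default
  have h2 : ¬ 2 ∣ Nat.card Ω := by
    rcases h with ⟨k, hk⟩
    omega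
  obtain ⟨z, hz⟩ := R.2.nonempty_fixed_point_of_prime_not_dvd_card Ω h2
  refine ⟨z, ?_⟩
  have hle : (R : Subgroup X) ≤ stabilizer X z := by
    intro r hr
    exact hz ⟨r, hr⟩
  have h3 : (stabilizer X z).index ∣ (R : Subgroup X).index := Subgroup.index_dvd_of_le hle
  rw [index_stabilizer] at h3
  have h4 : ¬ 2 ∣ (orbit X z).ncard := fun h5 => R.not_dvd_index (h5.trans h3)
  exact Nat.not_even_iff_odd.1 (fun h5 => h4 h5.two_dvd)

private theorem core (A : Subgroup X) (hA : A.index = 2) (x y : Ω) (hy : y ∉ orbit X x)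
    (hox : Odd (orbit X x).ncard) (hoy : Odd (orbit X y).ncard)
    (hd : ∀ y' ∈ orbit X y, y' ≠ x → ∀ R : Subgroup X, (∀ r ∈ R, r • x = x ∧ r • y' = y') →
      Nat.card R ∣ Nat.card A) : False := by
  classical
  haveI : Fact (Nat.Prime 2) := ⟨Nat.prime_two⟩
  let St : Subgroup X := stabilizer X x
  obtain Rs : Sylow 2 St := default
  let R : Subgroup X := (Rs : Subgroup St).map St.subtype
  have hRp : IsPGroup 2 R := Rs.2.map _
  have hcard : ¬ 2 ∣ Nat.card (orbit X y) := by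
    rw [Nat.card_coe_set_eq]
    rcases hoy with ⟨k, hk⟩
    omega
  obtain ⟨⟨y', hy'⟩, hfix⟩ := hRp.nonempty_fixed_point_of_prime_not_dvd_card (orbit X y) hcard
  have hfix' : ∀ r ∈ R, r • y' = y' := by
    intro r hr
    have h1 := hfix ⟨r, hr⟩
    exact congrArg Subtype.val h1
  have hne : y' ≠ x := by
    rintro rfl
    apply hy
    exact mem_orbit_symm.1 hy'
  have hRs : ∀ r ∈ R, r • x = x := by
    intro r hr
    obtain ⟨r1, -, rfl⟩ := Subgroup.mem_map.1 hr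
    exact r1.2
  have hdv := hd y' hy' hne R (fun r hr => ⟨hRs r hr, hfix' r hr⟩)
  have hRc : Nat.card R = Nat.card Rs := Subgroup.card_map_of_injective (Subgroup.subtype_injective St)
  have e1 : Nat.card A * 2 = Nat.card X := by
    rw [← hA]
    exact Subgroup.card_mul_index A
  have e2 : Nat.card St * (orbit X x).ncard = Nat.card X := by
    rw [← index_stabilizer]
    exact Subgroup.card_mul_index _
  have e3 : Nat.card Rs * (Rs : Subgroup St).index = Nat.card St := Subgroup.card_mul_index _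
  have hi : ¬ 2 ∣ (Rs : Subgroup St).index := Rs.not_dvd_index
  obtain ⟨w, hw⟩ := hdv
  rw [hRc] at hw
  have hpos : 0 < Nat.card Rs := Nat.card_pos
  have e4 : Nat.card Rs * (w * 2) = Nat.card Rs * ((Rs : Subgroup St).index * (orbit X x).ncard) := by
    calc Nat.card Rs * (w * 2) = (Nat.card Rs * w) * 2 := by ring
      _ = Nat.card X := by rw [← hw, e1]
      _ = (Nat.card Rs * (Rs : Subgroup St).index) * (orbit X x).ncard := by rw [e3, e2]
      _ = _ := by ring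
  have e5 := Nat.eq_of_mul_eq_mul_left hpos e4
  have h6 : 2 ∣ (Rs : Subgroup St).index * (orbit X x).ncard := ⟨w, by rw [← e5]; ring⟩
  rcases (Nat.Prime.dvd_mul Nat.prime_two).1 h6 with h7 | h7
  · exact hi h7
  · rcases hox with ⟨k, hk⟩
    omega

end abstract

section perm

variable {α : Type*} [Fintype α] [DecidableEq α]

private theorem exists_not_mem (s : Finset α) (h : s.card < Fintype.card α) : ∃ d, d ∉ s := by
  by_contra hc
  push Not at hc
  have h1 : s = Finset.univ := Finset.eq_univ_iff_forall.2 hc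
  rw [h1] at h
  simp at h

private theorem conj_apply' (g k : Equiv.Perm α) (x y : α) (h : g x = y) : (g * k * g⁻¹) y = g (k x) := by
  have : g⁻¹ y = x := by rw [← h]; simp
  simp [Equiv.Perm.mul_apply, this]

/-- The swap subgroup. -/
private def swapSub (K : Subgroup (Equiv.Perm α)) (a b : α) : Subgroup (Equiv.Perm α) where
  carrier := {k | k ∈ K ∧ ((k a = a ∧ k b = b) ∨ (k a = b ∧ k b = a))}
  one_mem' := ⟨K.one_mem, Or.inl ⟨rfl, rfl⟩⟩
  mul_mem' := by
    rintro k l ⟨hk, hk1⟩ ⟨hl, hl1⟩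
    refine ⟨K.mul_mem hk hl, ?_⟩
    simp only [Equiv.Perm.mul_apply]
    rcases hk1 with ⟨h1, h2⟩ | ⟨h1, h2⟩ <;> rcases hl1 with ⟨h3, h4⟩ | ⟨h3, h4⟩
    · left; rw [h3, h4, h1, h2]; exact ⟨rfl, rfl⟩
    · right; rw [h3, h4, h1, h2]; exact ⟨rfl, rfl⟩
    · right; rw [h3, h4, h1, h2]; exact ⟨rfl, rfl⟩
    · left; rw [h3, h4, h1, h2]; exact ⟨rfl, rfl⟩
  inv_mem' := by
    rintro k ⟨hk, hk1⟩
    refine ⟨K.inv_mem hk, ?_⟩
    rcases hk1 with ⟨h1, h2⟩ | ⟨h1, h2⟩
    · left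
      exact ⟨by rw [Equiv.Perm.inv_eq_iff_eq]; exact h1.symm, by rw [Equiv.Perm.inv_eq_iff_eq]; exact h2.symm⟩
    · right
      exact ⟨by rw [Equiv.Perm.inv_eq_iff_eq]; exact h2.symm, by rw [Equiv.Perm.inv_eq_iff_eq]; exact h1.symm⟩

variable (G K : Subgroup (Equiv.Perm α))

private theorem mem_swapSub {a b : α} {k : Equiv.Perm α} :
    k ∈ swapSub K a b ↔ k ∈ K ∧ ((k a = a ∧ k b = b) ∨ (k a = b ∧ k b = a)) := Iff.rfl

section main

variable {G K}
variable (hK : ∀ g ∈ G, ∀ k ∈ K, g * k * g⁻¹ ∈ K)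
  (T3 : ∀ a b c a' b' c' : α, a ≠ b → a ≠ c → b ≠ c → a' ≠ b' → a' ≠ c' → b' ≠ c' →
    ∃ g ∈ G, g a = a' ∧ g b = b' ∧ g c = c')
  (hcard : 5 ≤ Fintype.card α) (hodd : Odd (Fintype.card α)) (hN : K ≠ ⊥)

include T3 hcard in
private theorem T2 (a b a' b' : α) (h : a ≠ b) (h' : a' ≠ b') : ∃ g ∈ G, g a = a' ∧ g b = b' := by
  obtain ⟨c, hc⟩ := exists_not_mem ({a, b} : Finset α) (lt_of_le_of_lt (Finset.card_le_two) (by omega))
  obtain ⟨c', hc'⟩ := exists_not_mem ({a', b'} : Finset α) (lt_of_le_of_lt (Finset.card_le_two) (by omega))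
  simp only [Finset.mem_insert, Finset.mem_singleton, not_or] at hc hc'
  obtain ⟨g, hg, h1, h2, -⟩ := T3 a b c a' b' c' h (Ne.symm hc.1) (Ne.symm hc.2) h' (Ne.symm hc'.1) (Ne.symm hc'.2)
  exact ⟨g, hg, h1, h2⟩

include hK T3 hcard hN in
private theorem ktrans (x y : α) (h : x ≠ y) : ∃ k ∈ K, k x = y := by
  obtain ⟨k, hk, hk1⟩ : ∃ k ∈ K, k ≠ 1 := by
    by_contra hc
    push Not at hc
    exact hN ((Subgroup.eq_bot_iff_forall K).2 hc)
  obtain ⟨a, ha⟩ : ∃ a, k a ≠ a := by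
    by_contra hc
    push Not at hc
    exact hk1 (Equiv.ext hc)
  obtain ⟨g, hg, h1, h2⟩ := T2 T3 hcard a (k a) x y (Ne.symm ha) h
  refine ⟨g * k * g⁻¹, hK g hg k hk, ?_⟩
  rw [conj_apply' g k a x h1, h2]

private theorem odd_fixed (k : Equiv.Perm α) (hodd : Odd (Fintype.card α)) (h1 : k ≠ 1) (h2 : k * k = 1) :
    ∃ z, k z = z := by
  haveI : Fact (Nat.Prime 2) := ⟨Nat.prime_two⟩
  have hp : IsPGroup 2 (Subgroup.zpowers k) := by
    rw [IsPGroup.iff_card]
    refine ⟨1, ?_⟩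
    rw [Nat.card_zpowers, pow_one]
    exact orderOf_eq_prime (by rw [pow_two]; exact h2) h1
  have h3 : ¬ 2 ∣ Nat.card α := by
    rw [Nat.card_eq_fintype_card]
    rcases hodd with ⟨m, hm⟩
    omega
  obtain ⟨z, hz⟩ := hp.nonempty_fixed_point_of_prime_not_dvd_card α h3
  exact ⟨z, hz ⟨k, Subgroup.mem_zpowers k⟩⟩

include hK T3 hcard hodd hN in
private theorem nonreg : ∃ h ∈ K, h ≠ 1 ∧ ∃ a, h a = a := by
  by_contra hreg
  push Not at hreg
  have hne : Nonempty α := Fintype.card_pos_iff.1 (by omega)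
  obtain ⟨a⟩ := hne
  obtain ⟨b, hb⟩ := exists_not_mem ({a} : Finset α) (by simp; omega)
  simp only [Finset.mem_singleton] at hb
  obtain ⟨k, hk, hka⟩ := ktrans hK T3 hcard hN a b (Ne.symm hb)
  have hk1 : k ≠ 1 := by
    rintro rfl
    exact hb hka.symm
  have hca : k⁻¹ a ≠ a := by
    intro h
    rw [Equiv.Perm.inv_eq_iff_eq] at h
    exact hb (hka.symm.trans h.symm)
  have hkk : k (k⁻¹ a) = a := by simp
  have hcb : k⁻¹ a ≠ b := by
    intro h
    have h2 : k * k = 1 := by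
      by_contra h3
      apply hreg (k * k) (K.mul_mem hk hk) h3 a
      rw [Equiv.Perm.mul_apply, hka, ← h, hkk]
    obtain ⟨z, hz⟩ := odd_fixed k hodd hk1 h2
    exact hreg k hk hk1 z hz
  obtain ⟨d, hd⟩ := exists_not_mem ({a, b, k⁻¹ a} : Finset α)
    (lt_of_le_of_lt (Finset.card_le_three) (by omega))
  simp only [Finset.mem_insert, Finset.mem_singleton, not_or] at hd
  obtain ⟨g, hg, h1, h2, h3⟩ := T3 a b (k⁻¹ a) a b d (Ne.symm hb) (Ne.symm hca) (Ne.symm hcb)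
    (Ne.symm hb) (Ne.symm hd.1) (Ne.symm hd.2.1)
  have hk' : (g * k * g⁻¹) a = b := by rw [conj_apply' g k a a h1, hka, h2]
  have hkm : k⁻¹ * (g * k * g⁻¹) = 1 := by
    by_contra h4
    apply hreg _ (K.mul_mem (K.inv_mem hk) (hK g hg k hk)) h4 a
    rw [Equiv.Perm.mul_apply, hk', Equiv.Perm.inv_eq_iff_eq]
    exact hka.symm
  have hgk : g * k = k * g := by
    have h5 : g * k * g⁻¹ = k := by
      have := congrArg (fun q => k * q) hkm
      simpa using this
    calc g * k = g * k * g⁻¹ * g := by group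
      _ = k * g := by rw [h5]
  apply hd.2.2
  rw [← h3]
  have h6 : g (k⁻¹ a) = k⁻¹ (g a) := by
    have h7 : g * k⁻¹ = k⁻¹ * g := (Commute.inv_right hgk).eq
    exact congrArg (fun q : Equiv.Perm α => q a) h7
  rw [h6, h1]

include hK T3 hcard hodd hN in
private theorem stab2 (a x y : α) (hax : a ≠ x) (hay : a ≠ y) (hxy : x ≠ y) : ∃ k ∈ K, k a = a ∧ k x = y := by
  obtain ⟨h, hh, hh1, a₀, ha₀⟩ := nonreg hK T3 hcard hodd hN
  obtain ⟨b₀, hb₀⟩ : ∃ b, h b ≠ b := by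
    by_contra hc
    push Not at hc
    exact hh1 (Equiv.ext hc)
  have h1 : a₀ ≠ b₀ := by
    rintro rfl
    exact hb₀ ha₀
  have h2 : a₀ ≠ h b₀ := by
    intro h3
    apply h1
    apply h.injective
    rw [ha₀]
    exact h3
  obtain ⟨g, hg, e1, e2, e3⟩ := T3 a₀ b₀ (h b₀) a x y h1 h2 (Ne.symm hb₀) hax hay hxy
  refine ⟨g * h * g⁻¹, hK g hg h hh, ?_, ?_⟩
  · rw [conj_apply' g h a₀ a e1, ha₀, e1]
  · rw [conj_apply' g h b₀ x e2, e3]

include hK T3 hcard hodd hN in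
private theorem ktrans2 (a b c d : α) (hab : a ≠ b) (hcd : c ≠ d) : ∃ k ∈ K, k a = c ∧ k b = d := by
  obtain ⟨k₁, hk₁, h1⟩ : ∃ k ∈ K, k a = c := by
    by_cases h : a = c
    · exact ⟨1, K.one_mem, h⟩
    · exact ktrans hK T3 hcard hN a c h
  have h2 : c ≠ k₁ b := by
    rw [← h1]
    exact fun h3 => hab (k₁.injective h3)
  by_cases h3 : k₁ b = d
  · exact ⟨k₁, hk₁, h1, h3⟩
  · obtain ⟨k₂, hk₂, e1, e2⟩ := stab2 hK T3 hcard hodd hN c (k₁ b) d h2 hcd h3
    refine ⟨k₂ * k₁, K.mul_mem hk₂ hk₁, ?_, ?_⟩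
    · rw [Equiv.Perm.mul_apply, h1, e1]
    · rw [Equiv.Perm.mul_apply, e2]

include hK T3 hcard hodd hN in
private theorem exists_invol : ∃ t ∈ K, t ≠ 1 ∧ t * t = 1 ∧ ∃ a, t a = a := by
  classical
  have hne : Nonempty α := Fintype.card_pos_iff.1 (by omega)
  obtain ⟨a⟩ := hne
  obtain ⟨x, hx⟩ := exists_not_mem ({a} : Finset α) (by simp; omega)
  simp only [Finset.mem_singleton] at hx
  let Ka : Subgroup (Equiv.Perm α) := K ⊓ stabilizer (Equiv.Perm α) a
  have horb : orbit Ka x = ({a} : Set α)ᶜ := by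
    ext y
    simp only [Set.mem_compl_iff, Set.mem_singleton_iff]
    constructor
    · rintro ⟨k, rfl⟩ h
      have h1 : (k : Equiv.Perm α) a = a := k.2.2
      have h2 : (k : Equiv.Perm α) x = a := h
      exact hx (k.1.injective (h2.trans h1.symm))
    · intro hy
      by_cases hxy : x = y
      · rw [hxy]
        exact mem_orbit_self y
      · obtain ⟨k, hk, h1, h2⟩ := stab2 hK T3 hcard hodd hN a x y (Ne.symm hx) (Ne.symm hy) hxy
        exact ⟨⟨k, hk, h1⟩, h2⟩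
  have hidx : (stabilizer Ka x).index = (({a} : Set α)ᶜ).ncard := by
    rw [index_stabilizer, horb]
  have hc := Set.ncard_add_ncard_compl ({a} : Set α)
  rw [Set.ncard_singleton, Nat.card_eq_fintype_card] at hc
  have h2 : 2 ∣ (stabilizer Ka x).index := by
    rw [hidx]
    rcases hodd with ⟨m, hm⟩
    exact ⟨m, by omega⟩
  have h3 : 2 ∣ Nat.card Ka := h2.trans (Subgroup.index_dvd_card _)
  obtain ⟨t, ht⟩ := exists_prime_orderOf_dvd_card' (G := Ka) 2 h3
  have ht1 : (t : Equiv.Perm α) ≠ 1 := by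
    intro h
    have : t = 1 := Subtype.ext h
    rw [this] at ht
    simp at ht
  have ht2 : (t : Equiv.Perm α) * t = 1 := by
    have h4 : t ^ 2 = 1 := by
      rw [← ht]
      exact pow_orderOf_eq_one t
    rw [pow_two] at h4
    exact congrArg Subtype.val h4
  exact ⟨t, t.2.1, ht1, ht2, a, t.2.2⟩

include hK T3 hcard hodd hN in
private theorem swap3 (z a b : α) (hza : z ≠ a) (hzb : z ≠ b) (hab : a ≠ b) :
    ∃ u ∈ K, u z = z ∧ u a = b ∧ u b = a := by
  obtain ⟨t, ht, ht1, ht2, a₀, ha₀⟩ := exists_invol hK T3 hcard hodd hN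
  obtain ⟨b₀, hb₀⟩ : ∃ b, t b ≠ b := by
    by_contra hc
    push Not at hc
    exact ht1 (Equiv.ext hc)
  have h1 : a₀ ≠ b₀ := by
    rintro rfl
    exact hb₀ ha₀
  have h2 : a₀ ≠ t b₀ := by
    intro h3
    apply h1
    apply t.injective
    rw [ha₀]
    exact h3
  have h3 : t (t b₀) = b₀ := by
    have := congrArg (fun q : Equiv.Perm α => q b₀) ht2
    simpa using this
  obtain ⟨g, hg, e1, e2, e3⟩ := T3 a₀ b₀ (t b₀) z a b h1 h2 (Ne.symm hb₀) hza hzb hab
  refine ⟨g * t * g⁻¹, hK g hg t ht, ?_, ?_, ?_⟩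
  · rw [conj_apply' g t a₀ z e1, ha₀, e1]
  · rw [conj_apply' g t b₀ a e2, e3]
  · rw [conj_apply' g t (t b₀) b e3, h3, e2]

include hK T3 hcard hodd hN in
private theorem stab_index (a b : α) (hab : a ≠ b) : (stabilizer (swapSub K a b) a).index = 2 := by
  rw [index_stabilizer]
  have h : orbit (swapSub K a b) a = {a, b} := by
    ext w
    simp only [Set.mem_insert_iff, Set.mem_singleton_iff]
    constructor
    · rintro ⟨k, rfl⟩
      rcases k.2.2 with ⟨h1, -⟩ | ⟨h1, -⟩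
      · exact Or.inl h1
      · exact Or.inr h1
    · rintro (rfl | rfl)
      · exact mem_orbit_self _
      · obtain ⟨z, hz⟩ := exists_not_mem ({a, w} : Finset α) (lt_of_le_of_lt (Finset.card_le_two) (by omega))
        simp only [Finset.mem_insert, Finset.mem_singleton, not_or] at hz
        obtain ⟨u, hu, h1, h2, h3⟩ := swap3 hK T3 hcard hodd hN z a w hz.1 hz.2 hab
        exact ⟨⟨u, hu, Or.inr ⟨h2, h3⟩⟩, h2⟩
  rw [h, Set.ncard_pair hab]

include hK T3 in
private theorem orbit_card_eq (a b x y : α) (hab : a ≠ b) (hxa : x ≠ a) (hxb : x ≠ b) (hya : y ≠ a) (hyb : y ≠ b) :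
    (orbit (swapSub K a b) x).ncard = (orbit (swapSub K a b) y).ncard := by
  obtain ⟨g, hg, e1, e2, e3⟩ := T3 a b x a b y hab (Ne.symm hxa) (Ne.symm hxb) hab (Ne.symm hya) (Ne.symm hyb)
  have hconj : ∀ g ∈ G, g a = a → g b = b → ∀ k ∈ swapSub K a b, g * k * g⁻¹ ∈ swapSub K a b := by
    intro g hg h1 h2 k hk
    refine ⟨hK g hg k hk.1, ?_⟩
    rcases hk.2 with ⟨h3, h4⟩ | ⟨h3, h4⟩
    · left
      rw [conj_apply' g k a a h1, conj_apply' g k b b h2, h3, h4, h1, h2]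
      exact ⟨rfl, rfl⟩
    · right
      rw [conj_apply' g k a a h1, conj_apply' g k b b h2, h3, h4, h1, h2]
      exact ⟨rfl, rfl⟩
  have himg : orbit (swapSub K a b) y = (g : α → α) '' orbit (swapSub K a b) x := by
    ext w
    constructor
    · rintro ⟨k, rfl⟩
      have hg1 : g⁻¹ a = a := by rw [Equiv.Perm.inv_eq_iff_eq]; exact e1.symm
      have hg2 : g⁻¹ b = b := by rw [Equiv.Perm.inv_eq_iff_eq]; exact e2.symm
      have h5 := hconj g⁻¹ (G.inv_mem hg) hg1 hg2 k k.2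
      rw [inv_inv] at h5
      refine ⟨_, ⟨⟨_, h5⟩, rfl⟩, ?_⟩
      show g ((g⁻¹ * (k : Equiv.Perm α) * g) x) = (k : Equiv.Perm α) y
      simp [Equiv.Perm.mul_apply, e3]
    · rintro ⟨_, ⟨k, rfl⟩, rfl⟩
      refine ⟨⟨_, hconj g hg e1 e2 k k.2⟩, ?_⟩
      exact conj_apply' g k x y e3
  rw [himg, Set.ncard_image_of_injective _ g.injective]

include hK T3 hcard hodd hN in
private theorem odd_orbit (a b x : α) (hab : a ≠ b) (hxa : x ≠ a) (hxb : x ≠ b) :
    Odd (orbit (swapSub K a b) x).ncard := by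
  have hc : Odd (Nat.card α) := by rw [Nat.card_eq_fintype_card]; exact hodd
  obtain ⟨z, hz⟩ := exists_odd_orbit (X := swapSub K a b) hc
  have h2 := stab_index hK T3 hcard hodd hN a b hab
  rw [index_stabilizer] at h2
  have hza : z ≠ a := by
    rintro rfl
    rw [h2] at hz
    exact absurd hz (by decide)
  have hzb : z ≠ b := by
    rintro rfl
    obtain ⟨w, hw⟩ := exists_not_mem ({a, z} : Finset α) (lt_of_le_of_lt (Finset.card_le_two) (by omega))
    simp only [Finset.mem_insert, Finset.mem_singleton, not_or] at hw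
    obtain ⟨u, hu, h1, h3, h4⟩ := swap3 hK T3 hcard hodd hN w a z hw.1 hw.2 hab
    have h5 : z ∈ orbit (swapSub K a z) a := ⟨⟨u, hu, Or.inr ⟨h3, h4⟩⟩, h3⟩
    rw [orbit_eq_iff.2 h5, h2] at hz
    exact absurd hz (by decide)
  rw [orbit_card_eq hK T3 a b x z hab hxa hxb hza hzb]
  exact hz

include hK T3 hcard hodd hN in
private theorem two_trans (a b x y : α) (hab : a ≠ b) (hxa : x ≠ a) (hxb : x ≠ b) (hya : y ≠ a) (hyb : y ≠ b) :
    ∃ k ∈ K, k a = a ∧ k b = b ∧ k x = y := by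
  classical
  by_cases hy : y ∈ orbit (swapSub K a b) x
  · obtain ⟨k, hk⟩ := hy
    have hk' : (k : Equiv.Perm α) x = y := hk
    rcases k.2.2 with ⟨h1, h2⟩ | ⟨h1, h2⟩
    · exact ⟨k, k.2.1, h1, h2, hk'⟩
    · obtain ⟨u, hu, e1, e2, e3⟩ := swap3 hK T3 hcard hodd hN x a b hxa hxb hab
      refine ⟨k * u, K.mul_mem k.2.1 hu, ?_, ?_, ?_⟩
      · rw [Equiv.Perm.mul_apply, e2, h2]
      · rw [Equiv.Perm.mul_apply, e3, h1]
      · rw [Equiv.Perm.mul_apply, e1, hk']
  · exfalso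
    refine core (stabilizer (swapSub K a b) a) (stab_index hK T3 hcard hodd hN a b hab) x y hy
      (odd_orbit hK T3 hcard hodd hN a b x hab hxa hxb) (odd_orbit hK T3 hcard hodd hN a b y hab hya hyb) ?_
    intro y' _ hne R hR
    obtain ⟨k₀, hk₀, e1, e2⟩ := ktrans2 hK T3 hcard hodd hN x y' a b (Ne.symm hne) hab
    let X := swapSub K a b
    let A : Subgroup X := stabilizer X a
    let R₂ : Subgroup (Equiv.Perm α) := (R.map X.subtype).map (MulAut.conj k₀).toMonoidHom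
    have hR₂ : Nat.card R₂ = Nat.card R := by
      show Nat.card ((R.map X.subtype).map (MulAut.conj k₀).toMonoidHom : Subgroup _) = _
      rw [Subgroup.card_map_of_injective (MulAut.conj k₀).injective,
        Subgroup.card_map_of_injective (Subgroup.subtype_injective X)]
    have hA₂ : Nat.card (A.map X.subtype) = Nat.card A :=
      Subgroup.card_map_of_injective (Subgroup.subtype_injective X)
    have hle : R₂ ≤ A.map X.subtype := by
      intro w hw
      obtain ⟨w1, hw1, rfl⟩ := Subgroup.mem_map.1 hw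
      obtain ⟨r, hr, rfl⟩ := Subgroup.mem_map.1 hw1
      obtain ⟨h1, h2⟩ := hR r hr
      have h1' : (r : Equiv.Perm α) x = x := h1
      have h2' : (r : Equiv.Perm α) y' = y' := h2
      have e3 : (k₀ * (r : Equiv.Perm α) * k₀⁻¹) a = a := by rw [conj_apply' k₀ _ x a e1, h1', e1]
      have e4 : (k₀ * (r : Equiv.Perm α) * k₀⁻¹) b = b := by rw [conj_apply' k₀ _ y' b e2, h2', e2]
      have hm : k₀ * (r : Equiv.Perm α) * k₀⁻¹ ∈ X :=
        ⟨K.mul_mem (K.mul_mem hk₀ r.2.1) (K.inv_mem hk₀), Or.inl ⟨e3, e4⟩⟩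
      refine Subgroup.mem_map.2 ⟨⟨_, hm⟩, e3, rfl⟩
    have h6 := Subgroup.card_dvd_of_le hle
    rw [hR₂, hA₂] at h6
    exact h6

include hK T3 hcard hodd hN in
private theorem three_trans (a b c a' b' c' : α) (hab : a ≠ b) (hac : a ≠ c) (hbc : b ≠ c)
    (hab' : a' ≠ b') (hac' : a' ≠ c') (hbc' : b' ≠ c') : ∃ k ∈ K, k a = a' ∧ k b = b' ∧ k c = c' := by
  obtain ⟨k₁, hk₁, e1, e2⟩ := ktrans2 hK T3 hcard hodd hN a b a' b' hab hab'
  have h1 : k₁ c ≠ a' := by
    rw [← e1]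
    exact fun h => hac (k₁.injective h).symm
  have h2 : k₁ c ≠ b' := by
    rw [← e2]
    exact fun h => hbc (k₁.injective h).symm
  obtain ⟨k₂, hk₂, e3, e4, e5⟩ := two_trans hK T3 hcard hodd hN a' b' (k₁ c) c' hab' h1 h2 (Ne.symm hac') (Ne.symm hbc')
  refine ⟨k₂ * k₁, K.mul_mem hk₂ hk₁, ?_, ?_, ?_⟩
  · rw [Equiv.Perm.mul_apply, e1, e3]
  · rw [Equiv.Perm.mul_apply, e2, e4]
  · rw [Equiv.Perm.mul_apply, e5]

end main

end perm

private def mk3 {α : Type*} (a b c : α) (hab : a ≠ b) (hac : a ≠ c) (hbc : b ≠ c) : Fin 3 ↪ α :=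
  ⟨![a, b, c], by
    intro i j h
    fin_cases i <;> fin_cases j <;> simp_all⟩

/-- Wagner's Theorem: a non-trivial normal subgroup of a triply transitive permutation group of odd degree at least 5 is triply transitive. -/
theorem result {α : Type*} [Fintype α] [DecidableEq α] (G : Subgroup (Equiv.Perm α)) (hodd : Odd (Fintype.card α)) (h5 : 5 ≤ Fintype.card α) (hG : MulAction.IsMultiplyPretransitive G α 3) (N : Subgroup G) [N.Normal] (hN : N ≠ ⊥) : MulAction.IsMultiplyPretransitive N α 3 := by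
  classical
  let K : Subgroup (Equiv.Perm α) := N.map G.subtype
  have hK : ∀ g ∈ G, ∀ k ∈ K, g * k * g⁻¹ ∈ K := by
    intro g hg k hk
    obtain ⟨n, hn, rfl⟩ := Subgroup.mem_map.1 hk
    exact Subgroup.mem_map.2 ⟨⟨g, hg⟩ * n * ⟨g, hg⟩⁻¹, ‹N.Normal›.conj_mem n hn _, rfl⟩
  have T3 : ∀ a b c a' b' c' : α, a ≠ b → a ≠ c → b ≠ c → a' ≠ b' → a' ≠ c' → b' ≠ c' →
      ∃ g ∈ G, g a = a' ∧ g b = b' ∧ g c = c' := by
    intro a b c a' b' c' h1 h2 h3 h4 h5 h6
    obtain ⟨g, hg⟩ := hG.exists_smul_eq (mk3 a b c h1 h2 h3) (mk3 a' b' c' h4 h5 h6)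
    refine ⟨g, g.2, ?_, ?_, ?_⟩
    · exact congrArg (fun f : Fin 3 ↪ α => f 0) hg
    · exact congrArg (fun f : Fin 3 ↪ α => f 1) hg
    · exact congrArg (fun f : Fin 3 ↪ α => f 2) hg
  have hKne : K ≠ ⊥ := by
    intro h
    apply hN
    exact (Subgroup.map_eq_bot_iff_of_injective _ (Subgroup.subtype_injective G)).1 h
  refine ⟨fun x y => ?_⟩
  have hx : ∀ i j, i ≠ j → x i ≠ x j := fun i j h h' => h (x.injective h')
  have hy : ∀ i j, i ≠ j → y i ≠ y j := fun i j h h' => h (y.injective h')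
  obtain ⟨k, hk, e0, e1, e2⟩ := three_trans hK T3 h5 hodd hKne (x 0) (x 1) (x 2) (y 0) (y 1) (y 2)
    (hx _ _ (by decide)) (hx _ _ (by decide)) (hx _ _ (by decide))
    (hy _ _ (by decide)) (hy _ _ (by decide)) (hy _ _ (by decide))
  obtain ⟨n, hn, rfl⟩ := Subgroup.mem_map.1 hk
  refine ⟨⟨n, hn⟩, ?_⟩
  ext i
  fin_cases i
  · exact e0
  · exact e1
  · exact e2

end Cfsg.Agent.S0699
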