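import Cfsg.Statements.S0701

set_option autoImplicit false
open Cfsg

namespace Cfsg.Agent.S0701

/-- The centraliser in the full symmetric group of a transitive permutation group `G` is semiregular, and it is transitive if and only if `G` is regular. -/
theorem result {α : Type*} (G : Subgroup (Equiv.Perm α)) [MulAction.IsPretransitive G α] : (∀ c ∈ Subgroup.centralizer (G : Set (Equiv.Perm α)), ∀ a : α, c a = a → c = 1) ∧ (MulAction.IsPretransitive (Subgroup.centralizer (G : Set (Equiv.Perm α))) α ↔ ∀ a : α, MulAction.stabilizer G a = ⊥) := by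
  have hcomm : ∀ c ∈ Subgroup.centralizer (G : Set (Equiv.Perm α)), ∀ g : G, ∀ x : α, c ((g : Equiv.Perm α) x) = (g : Equiv.Perm α) (c x) := by
    intro c hc g x
    have := Subgroup.mem_centralizer_iff.1 hc g g.2
    have h2 := congrArg (fun p : Equiv.Perm α => p x) this
    simpa using h2.symm
  refine ⟨?_, ?_⟩
  · intro c hc a ha
    ext x
    obtain ⟨g, hg⟩ := MulAction.exists_smul_eq G a x
    have h1 : (g : Equiv.Perm α) a = x := hg
    rw [← h1, hcomm c hc, ha]
    rfl
  · constructor
    · intro ht a
      rw [eq_bot_iff]
      intro g hg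
      rw [Subgroup.mem_bot]
      apply Subtype.ext
      ext x
      obtain ⟨c, hc⟩ := MulAction.exists_smul_eq (Subgroup.centralizer (G : Set (Equiv.Perm α))) a x
      have h1 : (c : Equiv.Perm α) a = x := hc
      have h2 : (g : Equiv.Perm α) a = a := hg
      rw [← h1, ← hcomm c c.2, h2]
      rfl
    · intro hr
      refine ⟨fun a b => ?_⟩
      have hbij : ∀ x : α, Function.Bijective (fun g : G => (g : Equiv.Perm α) x) := by
        intro x
        constructor
        · intro g h hgh
          have h1 : g⁻¹ * h ∈ MulAction.stabilizer G x := by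
            show (g⁻¹ * h : G) • x = x
            rw [mul_smul]
            show g⁻¹ • ((h : Equiv.Perm α) x) = x
            rw [← show (g : Equiv.Perm α) x = (h : Equiv.Perm α) x from hgh]
            exact inv_smul_smul g x
          rw [hr x, Subgroup.mem_bot] at h1
          exact (inv_mul_eq_one.1 h1)
        · intro y
          obtain ⟨g, hg⟩ := MulAction.exists_smul_eq G x y
          exact ⟨g, hg⟩
      let ea := Equiv.ofBijective _ (hbij a)
      let eb := Equiv.ofBijective _ (hbij b)
      let c : Equiv.Perm α := ea.symm.trans eb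
      have hc : c ∈ Subgroup.centralizer (G : Set (Equiv.Perm α)) := by
        rw [Subgroup.mem_centralizer_iff]
        intro g hg
        ext x
        obtain ⟨h, rfl⟩ := ea.surjective x
        have h1 : ∀ h : G, c (ea h) = eb h := fun h => by
          show eb (ea.symm (ea h)) = eb h
          rw [Equiv.symm_apply_apply]
        have h3 : (ea (⟨g, hg⟩ * h)) = g (ea h) := rfl
        simp only [Equiv.Perm.coe_mul, Function.comp_apply]
        rw [← h3, h1, h1]
        rfl
      refine ⟨⟨c, hc⟩, ?_⟩
      show c a = b
      have h4 : ea 1 = a := rfl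
      have h5 : eb 1 = b := rfl
      rw [← h4, ← h5]
      show eb (ea.symm (ea 1)) = eb 1
      rw [Equiv.symm_apply_apply]

end Cfsg.Agent.S0701
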