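import Cfsg.Statements.S0702
import Mathlib

set_option autoImplicit false
open Cfsg

namespace Cfsg.Agent.S0702

/-- For a transitive permutation group `G` on a finite set, the centraliser of `G` in the symmetric group is isomorphic to `N_G(G_ω)/G_ω`, and its orbit of `ω` is the set of fixed points of `G_ω`. -/
theorem result {α : Type*} [Finite α] (G : Subgroup (Equiv.Perm α)) [MulAction.IsPretransitive G α] (a : α) : Nonempty (Subgroup.centralizer (G : Set (Equiv.Perm α)) ≃* Subgroup.normalizer ((MulAction.stabilizer G a : Subgroup G) : Set G) ⧸ (MulAction.stabilizer G a).subgroupOf (Subgroup.normalizer ((MulAction.stabilizer G a : Subgroup G) : Set G))) ∧ MulAction.orbit (Subgroup.centralizer (G : Set (Equiv.Perm α))) a = MulAction.fixedPoints (MulAction.stabilizer G a) α := by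
  classical
  haveI : Finite (Equiv.Perm α) := inferInstance
  haveI : Finite G := inferInstance
  set K := MulAction.stabilizer G a with hK
  set N := Subgroup.normalizer ((K : Subgroup G) : Set G) with hN
  set C := Subgroup.centralizer (G : Set (Equiv.Perm α)) with hC
  have hrep : ∀ x : α, ∃ g : G, g • a = x := fun x => MulAction.exists_smul_eq G a x
  choose rep hrep' using hrep
  have hcomm : ∀ c ∈ C, ∀ g : G, ∀ x : α, c (g • x) = g • c x := by
    intro c hc g x
    have := Subgroup.mem_centralizer_iff.1 hc g g.2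
    have h2 := congrArg (fun p : Equiv.Perm α => p x) this
    exact h2.symm
  -- well definedness
  have hwd : ∀ n : N, ∀ g g' : G, g • a = g' • a → (g * (n : G)⁻¹) • a = (g' * (n : G)⁻¹) • a := by
    intro n g g' h
    have hk : g⁻¹ * g' ∈ K := by
      show (g⁻¹ * g') • a = a
      rw [mul_smul, ← h, inv_smul_smul]
    have hk2 : (n : G) * (g⁻¹ * g') * (n : G)⁻¹ ∈ K :=
      (Subgroup.mem_normalizer_iff.1 n.2 _).1 hk
    have hk3 : ((n : G) * (g⁻¹ * g') * (n : G)⁻¹) • a = a := hk2
    have e : g' * (n : G)⁻¹ = g * (n : G)⁻¹ * ((n : G) * (g⁻¹ * g') * (n : G)⁻¹) := by group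
    conv_rhs => rw [e, mul_smul, hk3]
  let cf : N → α → α := fun n x => (rep x * (n : G)⁻¹) • a
  have hcf : ∀ n g, cf n (g • a) = (g * (n : G)⁻¹) • a := fun n g => hwd n _ _ (hrep' _)
  have hcfmul : ∀ n m x, cf (n * m) x = cf n (cf m x) := by
    intro n m x
    obtain ⟨g, rfl⟩ := MulAction.exists_smul_eq G a x
    have h1 : cf (n * m) (g • a) = (g * ((n * m : N) : G)⁻¹) • a := hcf _ _
    have h2 : cf m (g • a) = (g * (m : G)⁻¹) • a := hcf _ _
    rw [h1, h2, hcf]
    congr 1
    try simp [mul_assoc]
  have hcfone : ∀ x, cf 1 x = x := by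
    intro x
    obtain ⟨g, rfl⟩ := MulAction.exists_smul_eq G a x
    rw [hcf]
    simp
  let cp : N → Equiv.Perm α := fun n =>
    { toFun := cf n
      invFun := cf n⁻¹
      left_inv := fun x => by rw [← hcfmul, inv_mul_cancel, hcfone]
      right_inv := fun x => by rw [← hcfmul, mul_inv_cancel, hcfone] }
  have hcpC : ∀ n, cp n ∈ C := by
    intro n
    rw [Subgroup.mem_centralizer_iff]
    intro g hg
    ext x
    obtain ⟨h, rfl⟩ := MulAction.exists_smul_eq G a x
    show g (cf n (h • a)) = cf n (g (h • a))
    have e : g (h • a) = ((⟨g, hg⟩ : G) * h) • a := by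
      rw [mul_smul]
      rfl
    rw [e, hcf, hcf, mul_assoc, mul_smul]
    rfl
  let φ : N →* C :=
    { toFun := fun n => ⟨cp n, hcpC n⟩
      map_one' := by
        apply Subtype.ext
        ext x
        exact hcfone x
      map_mul' := by
        intro n m
        apply Subtype.ext
        ext x
        exact hcfmul n m x }
  have hφa : ∀ n : N, ((φ n : C) : Equiv.Perm α) a = (n : G)⁻¹ • a := by
    intro n
    show cf n a = _
    have := hcf n 1
    rw [one_smul, one_mul] at this
    exact this
  -- normalizer criterion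
  have hnorm : ∀ h : G, (∀ k ∈ K, k • (h • a) = h • a) → h⁻¹ ∈ N := by
    intro h hfix
    have hsub : ∀ k ∈ K, h⁻¹ * k * h ∈ K := by
      intro k hk
      show (h⁻¹ * k * h) • a = a
      rw [mul_smul, mul_smul, hfix k hk, inv_smul_smul]
    rw [hN, Subgroup.mem_normalizer_iff]
    intro k
    constructor
    · intro hk
      have := hsub k hk
      simpa using this
    · intro hk
      -- surjectivity of conjugation on a finite group
      let f : K → K := fun y => ⟨h⁻¹ * y * h, hsub y y.2⟩
      have hinj : Function.Injective f := by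
        intro y y' hyy
        apply Subtype.ext
        have h3 : h⁻¹ * (y : G) * h = h⁻¹ * (y' : G) * h := congrArg Subtype.val hyy
        simpa using h3
      obtain ⟨y, hy⟩ := (Finite.injective_iff_surjective.1 hinj) ⟨h⁻¹ * k * (h⁻¹)⁻¹, hk⟩
      have h1 : h⁻¹ * (y : G) * h = h⁻¹ * k * h⁻¹⁻¹ := congrArg Subtype.val hy
      have h2 : (y : G) = k := by
        simpa using h1
      rw [← h2]
      exact y.2
  have hφsurj : Function.Surjective φ := by
    rintro ⟨c, hc⟩
    set b := c a with hb
    have hfix : ∀ k ∈ K, k • (rep b • a) = rep b • a := by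
      intro k hk
      rw [hrep', hb]
      have := hcomm c hc k a
      rw [show k • a = a from hk] at this
      exact this.symm
    have hn := hnorm (rep b) hfix
    refine ⟨⟨(rep b)⁻¹, hn⟩, ?_⟩
    apply Subtype.ext
    ext x
    obtain ⟨g, rfl⟩ := MulAction.exists_smul_eq G a x
    show cf ⟨(rep b)⁻¹, hn⟩ (g • a) = c (g • a)
    rw [hcf, hcomm c hc]
    simp only [inv_inv, mul_smul]
    rw [hrep']
  have hker : φ.ker = K.subgroupOf N := by
    ext n
    rw [MonoidHom.mem_ker, Subgroup.mem_subgroupOf]
    constructor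
    · intro h
      have h1 := hφa n
      rw [h] at h1
      have h2 : a = (n : G)⁻¹ • a := h1
      show (n : G) • a = a
      rw [eq_inv_smul_iff] at h2
      exact h2
    · intro h
      have h' : (n : G) • a = a := h
      apply Subtype.ext
      ext x
      obtain ⟨g, rfl⟩ := MulAction.exists_smul_eq G a x
      show cf n (g • a) = g • a
      rw [hcf, mul_smul, inv_smul_eq_iff.2 h'.symm]
  refine ⟨⟨(QuotientGroup.quotientMulEquivOfEq hker.symm |>.trans (QuotientGroup.quotientKerEquivOfSurjective φ hφsurj)).symm⟩, ?_⟩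
  ext x
  constructor
  · rintro ⟨c, rfl⟩
    rintro ⟨k, hk⟩
    have := hcomm c c.2 k a
    rw [show k • a = a from hk] at this
    exact this.symm
  · intro hx
    have hfix : ∀ k ∈ K, k • (rep x • a) = rep x • a := by
      intro k hk
      rw [hrep']
      exact hx ⟨k, hk⟩
    have hn := hnorm (rep x) hfix
    refine ⟨φ ⟨(rep x)⁻¹, hn⟩, ?_⟩
    show ((φ ⟨(rep x)⁻¹, hn⟩ : C) : Equiv.Perm α) a = x
    rw [hφa]
    simp only [inv_inv]
    exact hrep' x

end Cfsg.Agent.S0702
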