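import Cfsg.Statements.S0703
import Mathlib

set_option autoImplicit false
open Cfsg

namespace Cfsg.Agent.S0703

/-- An abelian transitive minimal normal subgroup `M` of a permutation group on a finite set is self-centralising in the symmetric group, regular, elementary abelian, and is the unique minimal normal subgroup. -/
theorem result {α : Type*} [Finite α] (G : Subgroup (Equiv.Perm α)) (M : Subgroup G) [M.Normal] (hM : M ≠ ⊥) (hmin : ∀ L : Subgroup G, L.Normal → L ≤ M → L = ⊥ ∨ L = M) (hab : IsMulCommutative M) (htrans : MulAction.IsPretransitive M α) : Subgroup.centralizer ((M.map G.subtype : Subgroup (Equiv.Perm α)) : Set (Equiv.Perm α)) = M.map G.subtype ∧ (∀ a : α, MulAction.stabilizer M a = ⊥) ∧ (∃ p : ℕ, p.Prime ∧ ∀ m ∈ M, m ^ p = 1) ∧ ∀ L : Subgroup G, L.Normal → L ≠ ⊥ → (∀ L' : Subgroup G, L'.Normal → L' ≤ L → L' = ⊥ ∨ L' = L) → L = M := by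
  classical
  have hcomm : ∀ m ∈ M, ∀ m' ∈ M, m * m' = m' * m := by
    intro m hm m' hm'
    have := hab.is_comm.comm ⟨m, hm⟩ ⟨m', hm'⟩
    exact congrArg Subtype.val this
  obtain ⟨y, hyM, hy1⟩ := M.bot_or_exists_ne_one.resolve_left hM
  have heq1 : ∀ g : G, (∀ x : α, g • x = x) → g = 1 := by
    intro g hg
    apply Subtype.ext
    ext x
    exact hg x
  obtain ⟨a₀, -⟩ : ∃ a₀ : α, y • a₀ ≠ a₀ := by
    by_contra hn
    push Not at hn
    exact hy1 (heq1 y hn)
  have hmove : ∀ x y : α, ∃ m ∈ M, m • x = y := by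
    intro x y
    obtain ⟨m, hm⟩ := MulAction.exists_smul_eq M x y
    exact ⟨m.1, m.2, hm⟩
  have hreg : ∀ a : α, MulAction.stabilizer M a = ⊥ := by
    intro a
    rw [eq_bot_iff]
    intro s hs
    have hs' : s • a = a := hs
    rw [Subgroup.mem_bot]
    apply Subtype.ext
    apply heq1
    intro x
    obtain ⟨m, hm, rfl⟩ := hmove a x
    have h1 : (s : G) * m = m * s := hcomm _ s.2 _ hm
    have h2 : (s : G) • (m • a) = ((s : G) * m) • a := (mul_smul _ _ _).symm
    show (s : G) • (m • a) = m • a
    rw [h2, h1, mul_smul]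
    congr 1
  have hcent : Subgroup.centralizer ((M.map G.subtype : Subgroup (Equiv.Perm α)) : Set (Equiv.Perm α)) = M.map G.subtype := by
    apply le_antisymm
    · intro c hc
      obtain ⟨m, hm, hma⟩ := hmove a₀ (c a₀)
      refine ⟨m, hm, ?_⟩
      show (m : Equiv.Perm α) = c
      ext x
      obtain ⟨m', hm', rfl⟩ := hmove a₀ x
      have h1 : (m' : Equiv.Perm α) * c = c * m' := Subgroup.mem_centralizer_iff.1 hc _ ⟨m', hm', rfl⟩
      have h2 : (m * m' : G) = m' * m := hcomm _ hm _ hm'
      have h3 : c (m' • a₀) = (m' : Equiv.Perm α) (c a₀) := (congrArg (fun q : Equiv.Perm α => q a₀) h1).symm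
      rw [h3, ← hma]
      have h4 := congrArg (fun g : G => (g : Equiv.Perm α) a₀) h2
      exact h4
    · rintro _ ⟨m, hm, rfl⟩
      apply Subgroup.mem_centralizer_iff.2
      rintro _ ⟨m', hm', rfl⟩
      exact congrArg Subtype.val (hcomm _ hm' _ hm)
  refine ⟨hcent, hreg, ?_, ?_⟩
  · -- exponent
    haveI : Finite G := inferInstance
    have hcard : Nat.card M ≠ 1 := by
      intro h
      apply hM
      exact Subgroup.eq_bot_of_card_eq M h
    obtain ⟨p, hp, hpd⟩ := Nat.exists_prime_and_dvd hcard
    haveI : Fact p.Prime := ⟨hp⟩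
    obtain ⟨x, hx⟩ := exists_prime_orderOf_dvd_card' p hpd
    refine ⟨p, hp, ?_⟩
    let L : Subgroup G :=
      { carrier := {g | g ∈ M ∧ g ^ p = 1}
        one_mem' := ⟨M.one_mem, one_pow _⟩
        mul_mem' := by
          rintro a b ⟨ha, ha'⟩ ⟨hb, hb'⟩
          refine ⟨M.mul_mem ha hb, ?_⟩
          have hc : Commute a b := hcomm a ha b hb
          rw [hc.mul_pow, ha', hb', one_mul]
        inv_mem' := by
          rintro a ⟨ha, ha'⟩
          exact ⟨M.inv_mem ha, by rw [inv_pow, ha', inv_one]⟩ }
    have hLn : L.Normal := by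
      refine ⟨fun g hg k => ⟨(inferInstance : M.Normal).conj_mem g hg.1 k, ?_⟩⟩
      rw [conj_pow, hg.2]
      group
    have hxL : (x : G) ∈ L := by
      refine ⟨x.2, ?_⟩
      have h1 : x ^ p = 1 := by rw [← hx]; exact pow_orderOf_eq_one x
      exact congrArg Subtype.val h1
    have hx1 : (x : G) ≠ 1 := by
      intro h
      have h2 : x = 1 := Subtype.ext h
      rw [h2, orderOf_one] at hx
      exact hp.one_lt.ne hx
    have hLM : L = M := by
      refine (hmin L hLn (fun g hg => hg.1)).resolve_left ?_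
      intro h
      rw [h] at hxL
      exact hx1 (Subgroup.mem_bot.1 hxL)
    intro m hm
    rw [← hLM] at hm
    exact hm.2
  · intro L hLn hL0 hLmin
    have hsup := hLmin (L ⊓ M) (Subgroup.normal_inf_normal L M) inf_le_left
    have hLM : L ≤ M := by
      rcases hsup with h | h
      · -- disjoint, so `L` centralises `M`
        have hdis : Disjoint L M := by
          rw [disjoint_iff]
          exact h
        intro l hl
        have hc : ∀ m ∈ M, l * m = m * l := by
          intro m hm
          exact (Subgroup.commute_of_normal_of_disjoint L M hLn inferInstance hdis l m hl hm)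
        have h1 : (l : Equiv.Perm α) ∈ Subgroup.centralizer ((M.map G.subtype : Subgroup (Equiv.Perm α)) : Set (Equiv.Perm α)) := by
          apply Subgroup.mem_centralizer_iff.2
          rintro _ ⟨m, hm, rfl⟩
          exact congrArg Subtype.val (hc m hm).symm
        rw [hcent] at h1
        obtain ⟨m, hm, he⟩ := h1
        have : m = l := Subtype.ext he
        rwa [← this]
      · rw [inf_eq_left] at h
        exact h
    exact (hmin L hLn hLM).resolve_left hL0

end Cfsg.Agent.S0703
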