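import Cfsg.Statements.S0704
import Mathlib

set_option autoImplicit false
open Cfsg

namespace Cfsg.Agent.S0704

theorem commute_bij {α : Type*} (G : Subgroup (Equiv.Perm α)) (M N : Subgroup G)
    (hc : ∀ m ∈ M, ∀ n ∈ N, m * n = n * m) (hMt : MulAction.IsPretransitive M α)
    (hNt : MulAction.IsPretransitive N α) :
    (∀ a : α, MulAction.stabilizer N a = ⊥) ∧
    Subgroup.centralizer ((M.map G.subtype : Subgroup (Equiv.Perm α)) : Set (Equiv.Perm α)) = N.map G.subtype := by
  classical
  have heq1 : ∀ g : G, (∀ x : α, g • x = x) → g = 1 := by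
    intro g hg
    apply Subtype.ext
    ext x
    exact hg x
  have hmoveM : ∀ x y : α, ∃ m ∈ M, m • x = y := by
    intro x y
    obtain ⟨m, hm⟩ := MulAction.exists_smul_eq M x y
    exact ⟨m.1, m.2, hm⟩
  have hmoveN : ∀ x y : α, ∃ m ∈ N, m • x = y := by
    intro x y
    obtain ⟨m, hm⟩ := MulAction.exists_smul_eq N x y
    exact ⟨m.1, m.2, hm⟩
  constructor
  · intro a
    rw [eq_bot_iff]
    intro s hs
    have hs' : s • a = a := hs
    rw [Subgroup.mem_bot]
    apply Subtype.ext
    apply heq1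
    intro x
    obtain ⟨m, hm, rfl⟩ := hmoveM a x
    have h1 : m * (s : G) = s * m := hc _ hm _ s.2
    have h2 : (s : G) • (m • a) = ((s : G) * m) • a := (mul_smul _ _ _).symm
    show (s : G) • (m • a) = m • a
    rw [h2, ← h1, mul_smul]
    congr 1
  · apply le_antisymm
    · intro c hc'
      by_cases hne : Nonempty α
      · obtain ⟨a⟩ := hne
        obtain ⟨n, hn, hna⟩ := hmoveN a (c a)
        refine ⟨n, hn, ?_⟩
        show (n : Equiv.Perm α) = c
        ext x
        obtain ⟨m, hm, rfl⟩ := hmoveM a x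
        have h1 : (m : Equiv.Perm α) * c = c * m := Subgroup.mem_centralizer_iff.1 hc' _ ⟨m, hm, rfl⟩
        have h2 : (m * n : G) = n * m := hc _ hm _ hn
        have h3 : c (m • a) = (m : Equiv.Perm α) (c a) := (congrArg (fun q : Equiv.Perm α => q a) h1).symm
        rw [h3, ← hna]
        have h4 := congrArg (fun g : G => (g : Equiv.Perm α) a) h2
        exact h4.symm
      · haveI : IsEmpty α := not_nonempty_iff.1 hne
        refine ⟨1, N.one_mem, ?_⟩
        ext x
        exact (IsEmpty.false x).elim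
    · rintro _ ⟨n, hn, rfl⟩
      apply Subgroup.mem_centralizer_iff.2
      rintro _ ⟨m, hm, rfl⟩
      exact congrArg Subtype.val (hc _ hm _ hn)

/-- Two distinct transitive minimal normal subgroups `M`, `N` of a permutation group are regular, non-abelian, isomorphic, each other's centraliser in the symmetric group, and the only minimal normal subgroups. -/
theorem result {α : Type*} (G : Subgroup (Equiv.Perm α)) (M N : Subgroup G) [M.Normal] [N.Normal] (hM : M ≠ ⊥) (hN : N ≠ ⊥) (hMmin : ∀ L : Subgroup G, L.Normal → L ≤ M → L = ⊥ ∨ L = M) (hNmin : ∀ L : Subgroup G, L.Normal → L ≤ N → L = ⊥ ∨ L = N) (hMN : M ≠ N) (hMt : MulAction.IsPretransitive M α) (hNt : MulAction.IsPretransitive N α) : (∀ a : α, MulAction.stabilizer M a = ⊥) ∧ (∀ a : α, MulAction.stabilizer N a = ⊥) ∧ ¬ IsMulCommutative M ∧ Nonempty (M ≃* N) ∧ Subgroup.centralizer ((M.map G.subtype : Subgroup (Equiv.Perm α)) : Set (Equiv.Perm α)) = N.map G.subtype ∧ Subgroup.centralizer ((N.map G.subtype : Subgroup (Equiv.Perm α)) :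 Set (Equiv.Perm α)) = M.map G.subtype ∧ ∀ L : Subgroup G, L.Normal → L ≠ ⊥ → (∀ L' : Subgroup G, L'.Normal → L' ≤ L → L' = ⊥ ∨ L' = L) → L = M ∨ L = N := by
  classical
  have hdis : M ⊓ N = ⊥ := by
    rcases hMmin (M ⊓ N) (Subgroup.normal_inf_normal M N) inf_le_left with h | h
    · exact h
    · exfalso
      rw [inf_eq_left] at h
      rcases hNmin M inferInstance h with h' | h'
      · exact hM h'
      · exact hMN h'
  have hdis' : Disjoint M N := disjoint_iff.2 hdis
  have hc : ∀ m ∈ M, ∀ n ∈ N, m * n = n * m := fun m hm n hn =>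
    Subgroup.commute_of_normal_of_disjoint M N inferInstance inferInstance hdis' m n hm hn
  have hc' : ∀ n ∈ N, ∀ m ∈ M, n * m = m * n := fun n hn m hm => (hc m hm n hn).symm
  obtain ⟨hNreg, hCM⟩ := commute_bij G M N hc hMt hNt
  obtain ⟨hMreg, hCN⟩ := commute_bij G N M hc' hNt hMt
  have heq1 : ∀ g : G, (∀ x : α, g • x = x) → g = 1 := by
    intro g hg
    apply Subtype.ext
    ext x
    exact hg x
  obtain ⟨y, hyM, hy1⟩ := M.bot_or_exists_ne_one.resolve_left hM
  obtain ⟨a₀, -⟩ : ∃ a₀ : α, y • a₀ ≠ a₀ := by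
    by_contra hn
    push Not at hn
    exact hy1 (heq1 y hn)
  have hmoveM : ∀ x y : α, ∃ m ∈ M, m • x = y := by
    intro x y
    obtain ⟨m, hm⟩ := MulAction.exists_smul_eq M x y
    exact ⟨m.1, m.2, hm⟩
  have hmoveN : ∀ x y : α, ∃ m ∈ N, m • x = y := by
    intro x y
    obtain ⟨m, hm⟩ := MulAction.exists_smul_eq N x y
    exact ⟨m.1, m.2, hm⟩
  have hregN : ∀ n ∈ N, n • a₀ = a₀ → n = 1 := by
    intro n hn h
    have h1 : (⟨n, hn⟩ : N) ∈ MulAction.stabilizer N a₀ := h
    rw [hNreg a₀] at h1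
    exact congrArg Subtype.val (Subgroup.mem_bot.1 h1)
  have hregM : ∀ n ∈ M, n • a₀ = a₀ → n = 1 := by
    intro n hn h
    have h1 : (⟨n, hn⟩ : M) ∈ MulAction.stabilizer M a₀ := h
    rw [hMreg a₀] at h1
    exact congrArg Subtype.val (Subgroup.mem_bot.1 h1)
  refine ⟨hMreg, hNreg, ?_, ?_, hCM, hCN, ?_⟩
  · intro hab
    have hcomm : ∀ m ∈ M, ∀ m' ∈ M, m * m' = m' * m := by
      intro m hm m' hm'
      have := hab.is_comm.comm ⟨m, hm⟩ ⟨m', hm'⟩
      exact congrArg Subtype.val this
    obtain ⟨hMself⟩ : Nonempty (N ≤ M) := by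
      refine ⟨fun n hn => ?_⟩
      obtain ⟨m, hm, hma⟩ := hmoveM a₀ (n • a₀)
      have h1 : n = m := by
        have h2 : m⁻¹ * n = 1 := by
          apply heq1
          intro x
          obtain ⟨m', hm', rfl⟩ := hmoveM a₀ x
          have h3 : (m⁻¹ * n) • m' • a₀ = (m⁻¹ * (n * m')) • a₀ := by
            simp only [mul_smul]
          have h4 : m⁻¹ * (n * m') = m⁻¹ * m' * n := by
            rw [hc' n hn m' hm']
            group
          have h5 : m⁻¹ * m' * m = m' := by
            rw [hcomm m⁻¹ (M.inv_mem hm) m' hm']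
            group
          rw [h3, h4, mul_smul, ← hma, ← mul_smul, h5]
        exact (inv_mul_eq_one.1 h2).symm
      rw [h1]
      exact hm
    rcases hMmin N inferInstance hMself with h' | h'
    · exact hN h'
    · exact hMN h'.symm
  · -- the isomorphism
    have hex : ∀ m : M, ∃ n : N, (n : G) • a₀ = (m : G) • a₀ := by
      intro m
      obtain ⟨n, hn, hna⟩ := hmoveN a₀ ((m : G) • a₀)
      exact ⟨⟨n, hn⟩, hna⟩
    choose φ hφ using hex
    have hφu : ∀ (m : M) (n : N), (n : G) • a₀ = (m : G) • a₀ → φ m = n := by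
      intro m n h
      have h1 : (n : G)⁻¹ * (φ m : G) = 1 := by
        apply hregN _ (N.mul_mem (N.inv_mem n.2) (φ m).2)
        rw [mul_smul, hφ, ← h, inv_smul_smul]
      apply Subtype.ext
      exact (inv_mul_eq_one.1 h1).symm
    have hmul : ∀ m m' : M, φ (m * m') = φ m' * φ m := by
      intro m m'
      apply hφu
      show ((φ m' : G) * (φ m : G)) • a₀ = ((m : G) * (m' : G)) • a₀
      rw [mul_smul, hφ, mul_smul, ← hφ m', ← mul_smul, ← mul_smul, hc _ m.2 _ (φ m').2]
    refine ⟨MulEquiv.ofBijective (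
      { toFun := fun m => (φ m)⁻¹
        map_one' := by
          have : φ 1 = 1 := by
            apply hφu
            simp
          simp [this]
        map_mul' := by
          intro m m'
          rw [hmul, mul_inv_rev] } : M →* N) ⟨?_, ?_⟩⟩
    · intro m m' h
      have h1 : φ m = φ m' := inv_injective h
      have h2 : (m : G) • a₀ = (m' : G) • a₀ := by rw [← hφ m, ← hφ m', h1]
      have h3 : (m' : G)⁻¹ * (m : G) = 1 := by
        apply hregM _ (M.mul_mem (M.inv_mem m'.2) m.2)
        rw [mul_smul, h2, inv_smul_smul]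
      apply Subtype.ext
      exact (inv_mul_eq_one.1 h3).symm
    · intro n
      obtain ⟨m, hm, hma⟩ := hmoveM a₀ ((n : G)⁻¹ • a₀)
      refine ⟨⟨m, hm⟩, ?_⟩
      show (φ ⟨m, hm⟩)⁻¹ = n
      have : φ ⟨m, hm⟩ = n⁻¹ := by
        apply hφu
        exact hma.symm
      rw [this, inv_inv]
  · intro L hLn hL0 hLmin
    rcases hLmin (L ⊓ M) (Subgroup.normal_inf_normal L M) inf_le_left with h | h
    · right
      have hdL : Disjoint L M := disjoint_iff.2 h
      have hLN : L ≤ N := by
        intro l hl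
        have h1 : (l : Equiv.Perm α) ∈ Subgroup.centralizer ((M.map G.subtype : Subgroup (Equiv.Perm α)) : Set (Equiv.Perm α)) := by
          apply Subgroup.mem_centralizer_iff.2
          rintro _ ⟨m, hm, rfl⟩
          exact congrArg Subtype.val (Subgroup.commute_of_normal_of_disjoint L M hLn inferInstance hdL l m hl hm).symm
        rw [hCM] at h1
        obtain ⟨n, hn, he⟩ := h1
        have : n = l := Subtype.ext he
        rwa [← this]
      exact (hNmin L hLn hLN).resolve_left hL0
    · left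
      rw [inf_eq_left] at h
      exact (hMmin L hLn h).resolve_left hL0

end Cfsg.Agent.S0704
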