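import Cfsg.Statements.S0705
import Mathlib
import Cfsg.Agent.Lib.TupleMove

set_option autoImplicit false
open scoped Pointwise
open Cfsg

namespace Cfsg.Agent.S0705

/-- A generously `k`-transitive permutation group (every `(k+1)`-subset has its full symmetric group induced by the setwise stabiliser) of degree greater than `k` is `k`-transitive, and for a `k`-subset the setwise and pointwise stabilisers have the same orbits outside it. -/
theorem result {α : Type*} [Fintype α] [DecidableEq α] (G : Subgroup (Equiv.Perm α)) {k : ℕ} (hk : k < Fintype.card α) (hgen : ∀ s : Finset α, s.card = k + 1 → ∀ σ : Equiv.Perm ↥s, ∃ g ∈ G, ∀ x : ↥s, g (x : α) = σ x) : MulAction.IsMultiplyPretransitive G α k ∧ ∀ s : Finset α, s.card = k → ∀ a b : α, a ∉ s → b ∉ s → (∃ g ∈ G, g • s = s ∧ g a = b) → ∃ g ∈ G, (∀ x ∈ s, g x = x) ∧ g a = b := by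
  classical
  refine ⟨?_, ?_⟩
  · apply Cfsg.Agent.Lib.TupleMove.tuple_transitive (by rwa [Nat.card_eq_fintype_card])
    intro x i v hv
    -- the `(k+1)`-set
    let s : Finset α := insert v (Finset.univ.image x)
    have hvs : v ∉ Finset.univ.image x := by
      intro h
      obtain ⟨w, -, hw⟩ := Finset.mem_image.1 h
      exact hv ⟨w, hw⟩
    have hs : s.card = k + 1 := by
      rw [Finset.card_insert_of_notMem hvs, Finset.card_image_of_injective _ x.injective]
      simp
    have hxi : x i ∈ s := Finset.mem_insert_of_mem (Finset.mem_image_of_mem _ (Finset.mem_univ _))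
    have hvm : v ∈ s := Finset.mem_insert_self _ _
    let σ : Equiv.Perm ↥s := Equiv.swap ⟨x i, hxi⟩ ⟨v, hvm⟩
    obtain ⟨g, hg, hgσ⟩ := hgen s hs σ
    refine ⟨⟨g, hg⟩, ?_, ?_⟩
    · intro i' hi'
      have hxi' : x i' ∈ s := Finset.mem_insert_of_mem (Finset.mem_image_of_mem _ (Finset.mem_univ _))
      have h1 := hgσ ⟨x i', hxi'⟩
      show g (x i') = x i'
      rw [show g (x i') = (σ ⟨x i', hxi'⟩ : α) from h1]
      rw [Equiv.swap_apply_of_ne_of_ne]
      · intro he
        exact hi' (x.injective (congrArg Subtype.val he))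
      · intro he
        exact hv ⟨i', congrArg Subtype.val he⟩
    · have h1 := hgσ ⟨x i, hxi⟩
      show g (x i) = v
      rw [show g (x i) = (σ ⟨x i, hxi⟩ : α) from h1]
      rw [Equiv.swap_apply_left]
  · intro s hs a b ha hb ⟨g, hg, hgs, hga⟩
    by_cases hab : a = b
    · exact ⟨1, G.one_mem, fun x _ => rfl, hab⟩
    -- the `(k+1)`-set `s ∪ {b}`
    let t : Finset α := insert b s
    have ht : t.card = k + 1 := by
      rw [Finset.card_insert_of_notMem hb, hs]
    have hgmaps : ∀ x ∈ s, g⁻¹ x ∈ s := by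
      intro x hx
      rw [← hgs] at hx
      obtain ⟨y, hy, rfl⟩ := Finset.mem_smul_finset.1 hx
      have : g⁻¹ (g • y) = y := by
        show g⁻¹ (g y) = y
        simp
      rwa [this]
    have hgmaps2 : ∀ x ∈ s, g x ∈ s := by
      intro x hx
      have : g • x ∈ g • s := Finset.smul_mem_smul_finset hx
      rw [hgs] at this
      exact this
    let f : ↥t → ↥t := fun x => if h : (x : α) ∈ s then
      ⟨g⁻¹ x, Finset.mem_insert_of_mem (hgmaps _ h)⟩ else x
    have hf1 : ∀ x : ↥t, (hx : (x : α) ∈ s) → (f x : α) = g⁻¹ x := by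
      intro x hx
      simp only [f, dif_pos hx]
    have hf2 : ∀ x : ↥t, (x : α) ∉ s → f x = x := by
      intro x hx
      simp only [f, dif_neg hx]
    have hinj : Function.Injective f := by
      intro x y hxy
      by_cases hx : (x : α) ∈ s <;> by_cases hy : (y : α) ∈ s
      · apply Subtype.ext
        have h1 := congrArg Subtype.val hxy
        rw [hf1 x hx, hf1 y hy] at h1
        exact g⁻¹.injective h1
      · exfalso
        have h1 := congrArg Subtype.val hxy
        rw [hf1 x hx, hf2 y hy] at h1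
        exact hy (h1 ▸ hgmaps _ hx)
      · exfalso
        have h1 := congrArg Subtype.val hxy
        rw [hf2 x hx, hf1 y hy] at h1
        exact hx (h1 ▸ hgmaps _ hy)
      · rw [hf2 x hx, hf2 y hy] at hxy
        exact hxy
    let σ : Equiv.Perm ↥t := Equiv.ofBijective f (Finite.injective_iff_bijective.1 hinj)
    obtain ⟨h, hh, hhσ⟩ := hgen t ht σ
    refine ⟨h * g, G.mul_mem hh hg, ?_, ?_⟩
    · intro x hx
      have hgx : g x ∈ s := hgmaps2 x hx
      have hmem : g x ∈ t := Finset.mem_insert_of_mem hgx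
      have h1 := hhσ ⟨g x, hmem⟩
      show h (g x) = x
      rw [show h (g x) = (σ ⟨g x, hmem⟩ : α) from h1]
      show (f ⟨g x, hmem⟩ : α) = x
      rw [hf1 ⟨g x, hmem⟩ hgx]
      simp
    · have hmem : b ∈ t := Finset.mem_insert_self _ _
      have h1 := hhσ ⟨b, hmem⟩
      show h (g a) = b
      rw [hga, show h b = (σ ⟨b, hmem⟩ : α) from h1]
      show (f ⟨b, hmem⟩ : α) = b
      rw [hf2 ⟨b, hmem⟩ hb]

end Cfsg.Agent.S0705
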