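import Mathlib
import Cfsg.Prelude
import Cfsg.Statements.S0706
-- import your own Cfsg.Agent.* helpers here

set_option autoImplicit false
open Cfsg

namespace Cfsg.Agent.S0706


section Gen

variable {H α : Type*} [Group H] [MulAction H α]

theorem map_conj_fix (g : H) (A B : Finset α) (h1 : ∀ x ∈ A, g • x ∈ B) (h2 : ∀ y ∈ B, ∃ x ∈ A, g • x = y) :
    (fixingSubgroup H (A : Set α)).map (MulAut.conj g).toMonoidHom = fixingSubgroup H (B : Set α) := by
  ext u
  constructor
  · rintro ⟨v, hv, rfl⟩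
    rw [mem_fixingSubgroup_iff]
    intro y hy
    obtain ⟨x, hx, rfl⟩ := h2 y (Finset.mem_coe.mp hy)
    have h3 := (mem_fixingSubgroup_iff H).mp hv x (Finset.mem_coe.mpr hx)
    show (g * v * g⁻¹) • (g • x) = g • x
    rw [mul_smul, mul_smul, inv_smul_smul, h3]
  · intro hu
    refine ⟨g⁻¹ * u * g, ?_, ?_⟩
    · rw [SetLike.mem_coe, mem_fixingSubgroup_iff]
      intro x hx
      have h3 := (mem_fixingSubgroup_iff H).mp hu (g • x) (Finset.mem_coe.mpr (h1 x (Finset.mem_coe.mp hx)))
      rw [mul_smul, mul_smul, h3, inv_smul_smul]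
    · show g * (g⁻¹ * u * g) * g⁻¹ = u
      group

variable [DecidableEq α] {k : ℕ}

theorem card_fix_eq (hgen : ∀ s : Finset α, s.card = k + 1 → ∀ σ : Equiv.Perm ↥s, ∃ g : H, ∀ x : ↥s, g • (x : α) = σ x) :
    ∀ (n : ℕ) (A B : Finset α), (A \ B).card = n → A.card = k → B.card = k →
      Nat.card (fixingSubgroup H (A : Set α)) = Nat.card (fixingSubgroup H (B : Set α)) := by
  intro n
  induction n with
  | zero =>
    intro A B h hA hB
    have h1 : A ⊆ B := Finset.sdiff_eq_empty_iff_subset.mp (Finset.card_eq_zero.mp h)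
    have h2 : A = B := Finset.eq_of_subset_of_card_le h1 (by omega)
    rw [h2]
  | succ n ih =>
    intro A B h hA hB
    obtain ⟨a, ha⟩ : (A \ B).Nonempty := Finset.card_pos.mp (by omega)
    have hBA : (B \ A).card = n + 1 := by
      have h1 := Finset.card_sdiff_add_card_inter A B
      have h2 := Finset.card_sdiff_add_card_inter B A
      rw [Finset.inter_comm] at h2
      omega
    obtain ⟨b, hb⟩ : (B \ A).Nonempty := Finset.card_pos.mp (by omega)
    rw [Finset.mem_sdiff] at ha hb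
    have hab : a ≠ b := by
      rintro rfl
      exact ha.2 hb.1
    have hs : (insert b A).card = k + 1 := by
      rw [Finset.card_insert_of_notMem hb.2, hA]
    have hτ1 : ∀ x, x ∈ insert b A → Equiv.swap a b x ∈ insert b A := by
      intro x hx
      rw [Equiv.swap_apply_def]
      split_ifs with h1 h2
      · exact Finset.mem_insert_self _ _
      · exact Finset.mem_insert_of_mem ha.1
      · exact hx
    have hτs : ∀ x, x ∈ insert b A ↔ Equiv.swap a b x ∈ insert b A := by
      intro x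
      refine ⟨hτ1 x, fun h1 => ?_⟩
      have := hτ1 _ h1
      rwa [Equiv.swap_apply_self] at this
    obtain ⟨g, hg⟩ := hgen _ hs ((Equiv.swap a b).subtypePerm (fun x => (hτs x).symm))
    have hg' : ∀ x ∈ insert b A, g • x = Equiv.swap a b x := fun x hx => hg ⟨x, hx⟩
    have hcard' : (insert b (A.erase a)).card = k := by
      rw [Finset.card_insert_of_notMem (fun h1 => hb.2 (Finset.mem_of_mem_erase h1)),
        Finset.card_erase_of_mem ha.1]
      have := Finset.card_pos.mpr ⟨a, ha.1⟩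
      omega
    have hsd : (insert b (A.erase a) \ B).card = n := by
      rw [Finset.insert_sdiff_of_mem _ hb.1, Finset.erase_sdiff_comm, Finset.card_erase_of_mem (Finset.mem_sdiff.mpr ha), h]
      rfl
    rw [← ih _ B hsd hcard' hB, ← map_conj_fix g A (insert b (A.erase a))]
    · exact (Nat.card_congr (Subgroup.equivMapOfInjective _ _ (MulAut.conj g).injective).toEquiv)
    · intro x hx
      rw [hg' x (Finset.mem_insert_of_mem hx)]
      by_cases hxa : x = a
      · subst hxa
        rw [Equiv.swap_apply_left]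
        exact Finset.mem_insert_self _ _
      · have hxb : x ≠ b := by
          rintro rfl
          exact hb.2 hx
        rw [Equiv.swap_apply_of_ne_of_ne hxa hxb]
        exact Finset.mem_insert_of_mem (Finset.mem_erase.mpr ⟨hxa, hx⟩)
    · intro y hy
      rcases Finset.mem_insert.mp hy with rfl | hy
      · exact ⟨a, ha.1, by rw [hg' a (Finset.mem_insert_of_mem ha.1), Equiv.swap_apply_left]⟩
      · have hy1 := Finset.mem_of_mem_erase hy
        have hya := Finset.ne_of_mem_erase hy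
        have hyb : y ≠ b := by
          rintro rfl
          exact hb.2 hy1
        exact ⟨y, hy1, by rw [hg' y (Finset.mem_insert_of_mem hy1), Equiv.swap_apply_of_ne_of_ne hya hyb]⟩

theorem gen_main [Finite H] [Fintype α]
    (hgen : ∀ s : Finset α, s.card = k + 1 → ∀ σ : Equiv.Perm ↥s, ∃ g : H, ∀ x : ↥s, g • (x : α) = σ x)
    {p : ℕ} (hp : p.Prime) (hpk : p ≤ k) (Γ : Finset α) (hΓ : Γ.card = k) (f : Fin p → α) (hf : ∀ i, f i ∉ Γ)
    (hdist : ∀ i j, i ≠ j → f j ∉ MulAction.orbit (fixingSubgroup H (Γ : Set α)) (f i)) :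
    ∃ i, p ∣ Nat.card (MulAction.orbit (fixingSubgroup H (Γ : Set α)) (f i)) := by
  classical
  by_contra hno
  push Not at hno
  haveI hpf : Fact p.Prime := ⟨hp⟩
  have hcardle : Fintype.card (ZMod p) ≤ Fintype.card ↥Γ := by
    rw [ZMod.card, Fintype.card_coe, hΓ]
    exact hpk
  obtain ⟨lem⟩ := Function.Embedding.nonempty_of_card_le hcardle
  let lam : ZMod p ↪ α := lem.trans (Function.Embedding.subtype _)
  have hlamΓ : ∀ i, lam i ∈ Γ := fun i => (lem i).2
  let τ : ZMod p → Equiv.Perm α := fun t => (Equiv.addRight t).viaFintypeEmbedding lam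
  have hτ1 : ∀ t i, τ t (lam i) = lam (i + t) := by
    intro t i
    exact Equiv.Perm.viaFintypeEmbedding_apply_image _ _ _
  have hτ2 : ∀ t x, x ∉ Set.range lam → τ t x = x := by
    intro t x hx
    exact Equiv.Perm.viaFintypeEmbedding_apply_notMem_range _ _ hx
  have hτΓ : ∀ t x, x ∈ Γ → τ t x ∈ Γ := by
    intro t x hx
    by_cases h1 : x ∈ Set.range lam
    · obtain ⟨i, rfl⟩ := h1
      rw [hτ1]
      exact hlamΓ _
    · rwa [hτ2 t x h1]
  have hτinv : ∀ t x, τ t (τ (-t) x) = x := by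
    intro t x
    by_cases h1 : x ∈ Set.range lam
    · obtain ⟨i, rfl⟩ := h1
      rw [hτ1, hτ1]
      simp
    · rw [hτ2 _ x h1, hτ2 _ x h1]
  let K : Subgroup H := fixingSubgroup H (Γ : Set α)
  have hKmem : ∀ u : H, u ∈ K ↔ ∀ x ∈ Γ, u • x = x := by
    intro u
    rw [mem_fixingSubgroup_iff]
    exact ⟨fun h x hx => h x (Finset.mem_coe.mpr hx), fun h x hx => h x (Finset.mem_coe.mp hx)⟩
  let M₀ : Subgroup H :=
    { carrier := {g | (∀ x ∈ Γ, x ∉ Set.range lam → g • x = x) ∧ ∃ t : ZMod p, ∀ i, g • lam i = lam (i + t)}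
      mul_mem' := by
        rintro g g' ⟨h1, t, h2⟩ ⟨h3, t', h4⟩
        refine ⟨fun x hx hr => ?_, t' + t, fun i => ?_⟩
        · rw [mul_smul, h3 x hx hr, h1 x hx hr]
        · rw [mul_smul, h4, h2, add_assoc]
      one_mem' := ⟨fun x _ _ => one_smul _ _, 0, fun i => by simp⟩
      inv_mem' := by
        rintro g ⟨h1, t, h2⟩
        refine ⟨fun x hx hr => ?_, -t, fun i => ?_⟩
        · rw [inv_smul_eq_iff, h1 x hx hr]
        · rw [inv_smul_eq_iff, h2]
          simp }
  have hKM : K ≤ M₀ := by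
    intro u hu
    have hu' := (hKmem u).mp hu
    exact ⟨fun x hx _ => hu' x hx, 0, fun i => by rw [hu' _ (hlamΓ i), add_zero]⟩
  let tt : ↥M₀ → ZMod p := fun g => Classical.choose g.2.2
  have htt : ∀ (g : ↥M₀) i, (g : H) • lam i = lam (i + tt g) := fun g => Classical.choose_spec g.2.2
  have httu : ∀ (g : ↥M₀) (t : ZMod p), (g : H) • lam 0 = lam t → tt g = t := by
    intro g t h1
    rw [htt] at h1
    have := lam.injective h1
    simpa using this
  let χ : ↥M₀ →* Multiplicative (ZMod p) := MonoidHom.mk' (fun g => Multiplicative.ofAdd (tt g)) (by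
    intro a b
    show Multiplicative.ofAdd (tt (a * b)) = Multiplicative.ofAdd (tt a + tt b)
    congr 1
    apply httu
    show ((a : H) * (b : H)) • lam 0 = _
    rw [mul_smul, htt, htt, zero_add, add_comm])
  -- shifts
  have hshift : ∀ (i : Fin p) (t : ZMod p), ∃ h : H, h ∈ M₀ ∧ h • f i = f i ∧ (∀ j, h • lam j = lam (j + t)) ∧
      ∀ u ∈ K, h * u * h⁻¹ ∈ K := by
    intro i t
    have hs : (insert (f i) Γ).card = k + 1 := by
      rw [Finset.card_insert_of_notMem (hf i), hΓ]
    have hfr : f i ∉ Set.range lam := by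
      rintro ⟨j, hj⟩
      exact hf i (hj ▸ hlamΓ j)
    have hτs : ∀ (t : ZMod p) x, x ∈ insert (f i) Γ → τ t x ∈ insert (f i) Γ := by
      intro t x hx
      rcases Finset.mem_insert.mp hx with rfl | hx
      · rw [hτ2 t _ hfr]
        exact Finset.mem_insert_self _ _
      · exact Finset.mem_insert_of_mem (hτΓ t x hx)
    have hτs' : ∀ x, x ∈ insert (f i) Γ ↔ τ t x ∈ insert (f i) Γ := by
      intro x
      refine ⟨hτs t x, fun h1 => ?_⟩
      have h2 := hτs (-t) _ h1
      have h3 : τ (-t) (τ t x) = x := by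
        have := hτinv (-t) x
        rwa [neg_neg] at this
      rwa [h3] at h2
    obtain ⟨h, hh⟩ := hgen _ hs ((τ t).subtypePerm (fun x => (hτs' x).symm))
    have hh' : ∀ x ∈ insert (f i) Γ, h • x = τ t x := fun x hx => hh ⟨x, hx⟩
    have hhΓ : ∀ x ∈ Γ, h • x = τ t x := fun x hx => hh' x (Finset.mem_insert_of_mem hx)
    refine ⟨h, ⟨fun x hx hr => ?_, t, fun j => ?_⟩, ?_, fun j => ?_, fun u hu => ?_⟩
    · rw [hhΓ x hx, hτ2 t x hr]
    · rw [hhΓ _ (hlamΓ j), hτ1]
    · rw [hh' _ (Finset.mem_insert_self _ _), hτ2 t _ hfr]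
    · rw [hhΓ _ (hlamΓ j), hτ1]
    · rw [hKmem]
      intro x hx
      have h1 : h⁻¹ • x = τ (-t) x := by
        rw [inv_smul_eq_iff, hhΓ _ (hτΓ _ _ hx), hτinv]
      have h2 := (hKmem u).mp hu _ (hτΓ (-t) x hx)
      rw [mul_smul, mul_smul, h1, h2, hhΓ _ (hτΓ _ _ hx), hτinv]
  have hχsurj : Function.Surjective χ := by
    intro t
    obtain ⟨h, h1, -, h3, -⟩ := hshift ⟨0, hp.pos⟩ (Multiplicative.toAdd t)
    refine ⟨⟨h, h1⟩, ?_⟩
    show Multiplicative.ofAdd (tt ⟨h, h1⟩) = t
    rw [httu ⟨h, h1⟩ (Multiplicative.toAdd t) (by rw [h3, zero_add])]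
    rfl
  have hχker : χ.ker = K.subgroupOf M₀ := by
    ext g
    rw [MonoidHom.mem_ker, Subgroup.mem_subgroupOf, hKmem]
    constructor
    · intro h1 x hx
      have h2 : tt g = 0 := Multiplicative.ofAdd.injective h1
      by_cases hr : x ∈ Set.range lam
      · obtain ⟨i, rfl⟩ := hr
        rw [htt, h2, add_zero]
      · exact g.2.1 x hx hr
    · intro h1
      have h2 := httu g 0 (h1 _ (hlamΓ 0))
      show Multiplicative.ofAdd (tt g) = 1
      rw [h2]
      rfl
  have hcardM : Nat.card M₀ = Nat.card K * p := by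
    have h1 := Subgroup.card_mul_index χ.ker
    have hcardZ : Nat.card (Multiplicative (ZMod p)) = p := Nat.card_zmod p
    rw [Subgroup.index_ker, MonoidHom.range_eq_top.mpr hχsurj, Subgroup.card_top, hcardZ, hχker] at h1
    rw [← h1]
    congr 1
    exact Nat.card_congr (Subgroup.subgroupOfEquivOfLe hKM).toEquiv
  -- orbits are invariant
  have horb : ∀ (i : Fin p) (g : H), g ∈ M₀ → ∀ x ∈ MulAction.orbit K (f i), g • x ∈ MulAction.orbit K (f i) := by
    rintro i g hg _ ⟨κ', rfl⟩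
    obtain ⟨h, h1, h2, h3, h4⟩ := hshift i (tt ⟨g, hg⟩)
    have hκ : g * h⁻¹ ∈ K := by
      have h5 : (⟨g, hg⟩ * (⟨h, h1⟩ : ↥M₀)⁻¹ : ↥M₀) ∈ χ.ker := by
        rw [MonoidHom.mem_ker, map_mul, map_inv]
        have h6 : χ ⟨h, h1⟩ = χ ⟨g, hg⟩ := by
          show Multiplicative.ofAdd (tt ⟨h, h1⟩) = Multiplicative.ofAdd (tt ⟨g, hg⟩)
          rw [httu ⟨h, h1⟩ (tt ⟨g, hg⟩) (by rw [h3, zero_add])]
        rw [h6, mul_inv_cancel]
      rw [hχker, Subgroup.mem_subgroupOf] at h5
      exact h5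
    have hκ'' := h4 _ κ'.2
    refine ⟨⟨g * h⁻¹, hκ⟩ * ⟨h * κ' * h⁻¹, hκ''⟩, ?_⟩
    show ((g * h⁻¹) * (h * (κ' : H) * h⁻¹)) • f i = g • ((κ' : H) • f i)
    have e : (g * h⁻¹) * (h * (κ' : H) * h⁻¹) = g * (κ' : H) * h⁻¹ := by group
    rw [e, mul_smul, mul_smul, inv_smul_eq_iff.mpr h2.symm]
  obtain ⟨P⟩ : Nonempty (Sylow p ↥M₀) := inferInstance
  have hPp : IsPGroup p ↥(P : Subgroup ↥M₀) := P.isPGroup'
  have hfixpt : ∀ i : Fin p, ∃ y ∈ MulAction.orbit K (f i), ∀ c : ↥(P : Subgroup ↥M₀), ((c : ↥M₀) : H) • y = y := by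
    intro i
    let O : SubMulAction ↥(P : Subgroup ↥M₀) α :=
      { carrier := MulAction.orbit K (f i)
        smul_mem' := fun c x hx => horb i _ (c : ↥M₀).2 x hx }
    have hmod := hPp.card_modEq_card_fixedPoints (α := ↥O)
    have hcO : Nat.card ↥O = Nat.card (MulAction.orbit K (f i)) := rfl
    by_contra hnf
    push Not at hnf
    have hemp : Nat.card (MulAction.fixedPoints ↥(P : Subgroup ↥M₀) ↥O) = 0 := by
      haveI : IsEmpty (MulAction.fixedPoints ↥(P : Subgroup ↥M₀) ↥O) := by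
        constructor
        rintro ⟨⟨y, hy⟩, hfy⟩
        obtain ⟨c, hc⟩ := hnf y hy
        apply hc
        have := hfy c
        exact congrArg Subtype.val this
      exact Nat.card_of_isEmpty
    rw [hemp, hcO] at hmod
    exact hno i ((Nat.modEq_zero_iff_dvd).mp hmod)
  choose y hyO hyP using hfixpt
  have hyΓ : ∀ i, y i ∉ Γ := by
    intro i hi
    obtain ⟨κ, hκ⟩ := hyO i
    apply hf i
    have h1 := (hKmem _).mp κ.2 _ hi
    have h2 : (κ : H) • f i = y i := hκ
    rw [← h2] at h1 hi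
    rw [smul_left_cancel_iff] at h1
    rwa [h1] at hi
  have hyinj : Function.Injective y := by
    intro i j hij
    by_contra hne
    apply hdist i j hne
    have h1 : MulAction.orbit K (y i) = MulAction.orbit K (f i) := MulAction.orbit_eq_iff.mpr (hyO i)
    have h2 : MulAction.orbit K (y j) = MulAction.orbit K (f j) := MulAction.orbit_eq_iff.mpr (hyO j)
    rw [← h1, hij, h2]
    exact MulAction.mem_orbit_self _
  let Λ : Finset α := Finset.univ.map lam
  have hΛΓ : Λ ⊆ Γ := by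
    intro x hx
    obtain ⟨i, -, rfl⟩ := Finset.mem_map.mp hx
    exact hlamΓ i
  let Γs : Finset α := (Γ \ Λ) ∪ Finset.univ.image y
  have hΓs : Γs.card = k := by
    rw [Finset.card_union_of_disjoint, Finset.card_sdiff_of_subset hΛΓ, hΓ, Finset.card_map, Finset.card_image_of_injective _ hyinj]
    · simp only [Finset.card_univ, ZMod.card, Fintype.card_fin]
      omega
    · rw [Finset.disjoint_left]
      intro x hx hx'
      obtain ⟨i, -, rfl⟩ := Finset.mem_image.mp hx'
      exact hyΓ i (Finset.mem_sdiff.mp hx).1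
  have hle : (P : Subgroup ↥M₀).map M₀.subtype ≤ fixingSubgroup H (Γs : Set α) := by
    rintro _ ⟨c, hc, rfl⟩
    rw [mem_fixingSubgroup_iff]
    intro x hx
    rcases Finset.mem_union.mp (Finset.mem_coe.mp hx) with hx | hx
    · obtain ⟨h1, h2⟩ := Finset.mem_sdiff.mp hx
      apply c.2.1 x h1
      rintro ⟨i, rfl⟩
      exact h2 (Finset.mem_map.mpr ⟨i, Finset.mem_univ _, rfl⟩)
    · obtain ⟨i, -, rfl⟩ := Finset.mem_image.mp hx
      exact hyP i ⟨c, hc⟩
  have hdvd : Nat.card (P : Subgroup ↥M₀) ∣ Nat.card K := by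
    have h1 := Subgroup.card_dvd_of_le hle
    have h2 : Nat.card ((P : Subgroup ↥M₀).map M₀.subtype) = Nat.card (P : Subgroup ↥M₀) :=
      (Nat.card_congr (Subgroup.equivMapOfInjective _ _ M₀.subtype_injective).toEquiv).symm
    have h3 : Nat.card (fixingSubgroup H (Γs : Set α)) = Nat.card K :=
      card_fix_eq hgen _ Γs Γ rfl hΓs hΓ
    rw [h2, h3] at h1
    exact h1
  have hK0 : Nat.card K ≠ 0 := Nat.card_pos.ne'
  have hcardP : Nat.card (P : Subgroup ↥M₀) = p ^ (Nat.card K).factorization p * p := by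
    rw [P.card_eq_multiplicity, hcardM, Nat.factorization_mul hK0 hp.ne_zero]
    simp [hp.factorization_self, pow_succ]
  rw [hcardP, ← pow_succ] at hdvd
  exact Nat.pow_succ_factorization_not_dvd hK0 hp hdvd

end Gen


/-- In a generously `k`-transitive permutation group, for a prime `p ≤ k` and a `k`-set `Γ`, there are no `p` points outside `Γ` lying in distinct orbits of the pointwise stabiliser of `Γ` all of length prime to `p` (at most `p - 1` such orbits). -/
theorem result {α : Type*} [Fintype α] [DecidableEq α] (G : Subgroup (Equiv.Perm α)) {k : ℕ} (hk : k < Fintype.card α) (hgen : ∀ s : Finset α, s.card = k + 1 → ∀ σ : Equiv.Perm ↥s, ∃ g ∈ G, ∀ x : ↥s, g (x : α) = σ x) {p : ℕ} (hp : p.Prime) (hpk : p ≤ k) (Γ : Finset α) (hΓ : Γ.card = k) (f : Fin p → α) (hf : ∀ i, f i ∉ Γ) (hdist : ∀ i j, i ≠ j → f j ∉ MulAction.orbit (fixingSubgroup G (Γ : Set α)) (f i)) : ∃ i, p ∣ Nat.card (MulAction.orbit (fixingSubgroup G (Γ : Set α)) (f i)) := by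
  classical
  haveI : Finite G := inferInstance
  refine gen_main (H := ↥G) (k := k) ?_ hp hpk Γ hΓ f hf hdist
  intro s hs σ
  obtain ⟨g, hg, h⟩ := hgen s hs σ
  exact ⟨⟨g, hg⟩, h⟩

end Cfsg.Agent.S0706
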