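import Mathlib
import Cfsg.Statements.S0707

set_option autoImplicit false
open Cfsg

namespace Cfsg.Agent.S0707

/-- In a primitive permutation group, distinct points have distinct stabilisers unless the group is regular of prime degree. -/
theorem result {α : Type*} (G : Subgroup (Equiv.Perm α)) [MulAction.IsPreprimitive G α] (h : ¬ (Nat.card α).Prime ∨ ∃ a : α, MulAction.stabilizer G a ≠ ⊥) {a b : α} (hab : a ≠ b) : MulAction.stabilizer G a ≠ MulAction.stabilizer G b := by
  classical
  intro he
  -- the relation "same stabiliser" is invariant, its classes are blocks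
  have hfaith : ∀ g : G, (∀ x : α, g • x = x) → g = 1 := by
    intro g hg
    apply Subtype.ext
    ext x
    exact hg x
  have hstab : ∀ (g : G) (x : α), MulAction.stabilizer G (g • x) = (MulAction.stabilizer G x).map (MulAut.conj g).toMonoidHom := by
    intro g x
    exact MulAction.stabilizer_smul_eq_stabilizer_map_conj g x
  let B : Set α := {x | MulAction.stabilizer G x = MulAction.stabilizer G a}
  have hB : MulAction.IsBlock G B := by
    rw [MulAction.isBlock_iff_smul_eq_or_disjoint]
    intro g
    by_cases hg : ∃ x ∈ B, g • x ∈ B
    · left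
      obtain ⟨x, hx, hgx⟩ := hg
      have h1 : (MulAction.stabilizer G a).map (MulAut.conj g).toMonoidHom = MulAction.stabilizer G a := by
        have hx' : MulAction.stabilizer G x = MulAction.stabilizer G a := hx
        have hgx' : MulAction.stabilizer G (g • x) = MulAction.stabilizer G a := hgx
        calc (MulAction.stabilizer G a).map (MulAut.conj g).toMonoidHom
            = (MulAction.stabilizer G x).map (MulAut.conj g).toMonoidHom := by rw [hx']
          _ = MulAction.stabilizer G (g • x) := (hstab g x).symm
          _ = MulAction.stabilizer G a := hgx'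
      have h2 : (MulAction.stabilizer G a).map (MulAut.conj g⁻¹).toMonoidHom = MulAction.stabilizer G a := by
        conv_lhs => rw [← h1]
        rw [Subgroup.map_map]
        convert Subgroup.map_id _
        ext y
        simp
      ext y
      constructor
      · rintro ⟨z, hz, rfl⟩
        have hz' : MulAction.stabilizer G z = MulAction.stabilizer G a := hz
        show MulAction.stabilizer G (g • z) = _
        rw [hstab, hz', h1]
      · intro hy
        have hy' : MulAction.stabilizer G y = MulAction.stabilizer G a := hy
        refine ⟨g⁻¹ • y, ?_, smul_inv_smul g y⟩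
        show MulAction.stabilizer G (g⁻¹ • y) = _
        rw [hstab, hy', h2]
    · right
      rw [Set.disjoint_left]
      rintro _ ⟨x, hx, rfl⟩ hx2
      exact hg ⟨x, hx, hx2⟩
  have haB : a ∈ B := rfl
  have hbB : b ∈ B := he.symm
  have htriv := MulAction.IsPreprimitive.isTrivialBlock_of_isBlock hB
  have hBtop : B = Set.univ := by
    rcases htriv with h | h
    · exact absurd (h haB hbB) hab
    · exact h
  have hbot : ∀ x : α, MulAction.stabilizer G x = ⊥ := by
    intro x
    have hall : ∀ y : α, MulAction.stabilizer G y = MulAction.stabilizer G x := by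
      intro y
      have h1 : y ∈ B := by rw [hBtop]; trivial
      have h2 : x ∈ B := by rw [hBtop]; trivial
      exact (show MulAction.stabilizer G y = _ from h1).trans (show MulAction.stabilizer G x = _ from h2).symm
    rw [eq_bot_iff]
    intro g hg
    rw [Subgroup.mem_bot]
    apply hfaith
    intro y
    have : g ∈ MulAction.stabilizer G y := by rw [hall y]; exact hg
    exact this
  have h3 : ¬ (Nat.card α).Prime := by
    rcases h with h | ⟨c, hc⟩
    · exact h
    · exact absurd (hbot c) hc
  apply h3
  -- the group is regular with no proper nontrivial subgroups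
  haveI : Nontrivial α := ⟨a, b, hab⟩
  have hcoat : IsCoatom (⊥ : Subgroup G) := by
    have := (MulAction.isCoatom_stabilizer_iff_preprimitive (G := G) (X := α) a).2 inferInstance
    rwa [hbot a] at this
  have hcard : Nat.card G = Nat.card α := by
    have hbij : Function.Bijective (fun g : G => g • a) := by
      constructor
      · intro g h hgh
        have h1 : g⁻¹ * h ∈ MulAction.stabilizer G a := by
          show (g⁻¹ * h : G) • a = a
          rw [mul_smul]
          have hgh' : g • a = h • a := hgh
          rw [← hgh']
          exact inv_smul_smul g a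
        rw [hbot a, Subgroup.mem_bot] at h1
        exact inv_mul_eq_one.1 h1
      · intro y
        exact MulAction.exists_smul_eq G a y
    exact Nat.card_congr (Equiv.ofBijective _ hbij)
  -- elements generate
  have hgen : ∀ x : G, x ≠ 1 → Subgroup.zpowers x = ⊤ := by
    intro x hx
    by_contra hne
    have hlt : (⊥ : Subgroup G) < Subgroup.zpowers x := by
      rw [bot_lt_iff_ne_bot]
      intro h
      exact hx (Subgroup.zpowers_eq_bot.1 h)
    exact hne (hcoat.2 _ hlt)
  have hg1 : ∃ x : G, x ≠ 1 := by
    by_contra hn
    push Not at hn
    have : (⊥ : Subgroup G) = ⊤ := by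
      ext x
      simp [hn x]
    exact hcoat.1 this
  obtain ⟨x, hx⟩ := hg1
  have hxfin : orderOf x ≠ 0 := by
    rw [orderOf_ne_zero_iff]
    by_cases hx2 : x ^ 2 = 1
    · exact isOfFinOrder_iff_pow_eq_one.2 ⟨2, by norm_num, hx2⟩
    · have h4 := hgen (x ^ 2) hx2
      have h5 : x ∈ Subgroup.zpowers (x ^ 2) := by rw [h4]; trivial
      obtain ⟨k, hk⟩ := Subgroup.mem_zpowers_iff.1 h5
      rw [← zpow_natCast, ← zpow_mul] at hk
      rw [isOfFinOrder_iff_zpow_eq_one]
      refine ⟨((2 : ℕ) : ℤ) * k - 1, by omega, ?_⟩
      rw [zpow_sub, zpow_one, hk, mul_inv_cancel]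
  have hcardG : Nat.card G = orderOf x := by
    rw [← Nat.card_zpowers, hgen x hx, Subgroup.card_top]
  rw [← hcard, hcardG, Nat.prime_def]
  refine ⟨?_, ?_⟩
  · have h1 : orderOf x ≠ 1 := by
      rw [Ne, orderOf_eq_one_iff]
      exact hx
    omega
  · intro d hd
    have hd0 : d ≠ 0 := by
      rintro rfl
      exact hxfin (Nat.eq_zero_of_zero_dvd hd)
    by_cases hy : x ^ d = 1
    · right
      exact Nat.dvd_antisymm hd (orderOf_dvd_of_pow_eq_one hy)
    · left
      have h1 := hgen (x ^ d) hy
      have h2 : Nat.card (Subgroup.zpowers (x ^ d)) = orderOf x := by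
        rw [h1, Subgroup.card_top, hcardG]
      rw [Nat.card_zpowers, orderOf_pow_of_dvd hd0 hd] at h2
      obtain ⟨e, he2⟩ := hd
      have hdpos : 0 < d := Nat.pos_of_ne_zero hd0
      have h7 : orderOf x / d = e := by
        rw [he2]
        exact Nat.mul_div_cancel_left e hdpos
      rw [h7] at h2
      have hepos : 0 < e := by
        rcases Nat.eq_zero_or_pos e with h | h
        · rw [h, mul_zero] at he2
          exact absurd he2 hxfin
        · exact h
      rw [he2] at h2
      have h8 : e * 1 = d * e := by rw [mul_one]; exact h2
      rw [mul_comm d e] at h8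
      exact (Nat.eq_of_mul_eq_mul_left hepos h8).symm

end Cfsg.Agent.S0707
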