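import Cfsg.Statements.S0709
import Cfsg.Agent.Lib.WittExt
-- import your own Cfsg.Agent.* helpers here

set_option autoImplicit false
open Cfsg

namespace Cfsg.Agent.S0709

/-- Witt's Lemma for constructing transitive extensions. Points `q 1, …, q t` (`t ≥ 2`) of a finite set are given; `G` fixes `q i` for `i ≥ 3` and is doubly transitive on the remaining points; `s 1 ∈ G` swaps `q 1, q 2`; for `2 ≤ i ≤ t-1`, `s i` swaps `q i, q (i+1)` and fixes the other `q j`; with `H` the stabiliser of `q 1, q 2` in `G`: `s i ^ 2 ∈ H`, `(s i * s (i+1)) ^ 3 ∈ H`, `(s i * s j) ^ 2 ∈ H` for `j ≥ i + 2`, and `s i` (`i ≥ 2`) normalises the stabiliser of `q 2` in `G`. Then `G` and the `s i` generate a `t`-transitive group whose pointwise stabiliser of the `q`'s is `H`. -/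
theorem result {α : Type*} [Fintype α] [DecidableEq α] (t : ℕ) (ht : 2 ≤ t) (q : ℕ → α) (hq : ∀ i j : ℕ, 1 ≤ i → i ≤ t → 1 ≤ j → j ≤ t → q i = q j → i = j) (G : Subgroup (Equiv.Perm α)) (hfix : ∀ g ∈ G, ∀ i : ℕ, 3 ≤ i → i ≤ t → g (q i) = q i) (h2 : ∀ a b c d : α, (∀ i, 3 ≤ i → i ≤ t → a ≠ q i ∧ b ≠ q i ∧ c ≠ q i ∧ d ≠ q i) → a ≠ b → c ≠ d → ∃ g ∈ G, g a = c ∧ g b = d) (s : ℕ → Equiv.Perm α) (hs1 : s 1 ∈ G) (hs1q : s 1 (q 1) = q 2 ∧ s 1 (q 2) = q 1) (hsq : ∀ i : ℕ, 2 ≤ i → i + 1 ≤ t → s i (q i) = q (i + 1) ∧ s i (q (i + 1)) = q i ∧ ∀ j : ℕ, 1 ≤ j → j ≤ t → j ≠ i → j ≠ i + 1 → s i (q j) = q j) (H : Subgroup (Equiv.Perm α)) (hH : H = G ⊓ MulAction.stabilizer (Equiv.Perm α) (q 1) ⊓ MulAction.stabilizer (Equiv.Perm α) (q 2)) (hsq2 : ∀ i : ℕ, 1 ≤ i → i + 1 ≤ t → s i ^ 2 ∈ H) (hbraid : ∀ i : ℕ, 1 ≤ i → i + 2 ≤ t → (s i * s (i + 1)) ^ 3 ∈ H) (hcomm : ∀ i j : ℕ,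 1 ≤ i → i + 2 ≤ j → j + 1 ≤ t → (s i * s j) ^ 2 ∈ H ∧ (s j * s i) ^ 2 ∈ H) (hnorm : ∀ i : ℕ, 2 ≤ i → i + 1 ≤ t → ∀ g ∈ G ⊓ MulAction.stabilizer (Equiv.Perm α) (q 2), s i * g * (s i)⁻¹ ∈ G ⊓ MulAction.stabilizer (Equiv.Perm α) (q 2)) : MulAction.IsMultiplyPretransitive ↥(Subgroup.closure ((G : Set (Equiv.Perm α)) ∪ {x | ∃ i : ℕ, 2 ≤ i ∧ i + 1 ≤ t ∧ x = s i})) α t ∧ Subgroup.closure ((G : Set (Equiv.Perm α)) ∪ {x | ∃ i : ℕ, 2 ≤ i ∧ i + 1 ≤ t ∧ x = s i}) ⊓ fixingSubgroup (Equiv.Perm α) {x | ∃ i : ℕ, 1 ≤ i ∧ i ≤ t ∧ x = q i} = H := by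
  have W : Cfsg.Agent.Lib.WittExt.Hyp t q G s H :=
    ⟨ht, hq, hfix, h2, hs1, hs1q, hsq, hH, hsq2, hbraid, hcomm, hnorm⟩
  have hKt : Subgroup.closure ((G : Set (Equiv.Perm α)) ∪ {x | ∃ i : ℕ, 2 ≤ i ∧ i + 1 ≤ t ∧ x = s i}) = Cfsg.Agent.Lib.WittExt.K G s t := rfl
  rw [hKt]
  have ht0 : 0 < t := by omega
  constructor
  · -- `t`-transitivity
    have hstd : ∀ x : Fin t ↪ α, ∃ k ∈ Cfsg.Agent.Lib.WittExt.K G s t, ∀ a : Fin t, k (x a) = q (a.1 + 1) := by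
      intro x
      let x' : ℕ → α := fun i => if h : 1 ≤ i ∧ i ≤ t then x ⟨i - 1, by omega⟩ else x ⟨0, ht0⟩
      have hx' : ∀ i (h1 : 1 ≤ i) (h2 : i ≤ t), x' i = x ⟨i - 1, by omega⟩ := by
        intro i h1 h2
        simp only [x']
        rw [dif_pos ⟨h1, h2⟩]
      obtain ⟨k, hk, hk2⟩ := W.tuple t ht le_rfl x' (by
        intro i j h1 h2 h3 h4 e
        rw [hx' i h1 h2, hx' j h3 h4] at e
        have h5 := x.injective e
        have h6 : i - 1 = j - 1 := congrArg Fin.val h5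
        omega) (by
        intro i h1 h2 j h3 h4
        omega)
      refine ⟨k, hk, fun a => ?_⟩
      have h5 := hk2 (a.1 + 1) (by omega) (by have := a.2; omega)
      rw [hx' (a.1 + 1) (by omega) (by have := a.2; omega)] at h5
      exact h5
    apply MulAction.isMultiplyPretransitive_iff.2
    intro x y
    obtain ⟨k₁, hk₁, h1⟩ := hstd x
    obtain ⟨k₂, hk₂, h2'⟩ := hstd y
    refine ⟨⟨k₂⁻¹ * k₁, Subgroup.mul_mem _ (Subgroup.inv_mem _ hk₂) hk₁⟩, ?_⟩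
    ext a
    show (k₂⁻¹ * k₁) (x a) = y a
    rw [Equiv.Perm.mul_apply, h1 a, ← h2' a]
    simp
  · -- the stabiliser
    apply le_antisymm
    · rintro x ⟨hx, hf⟩
      have hf' : ∀ i, 1 ≤ i → i ≤ t → x (q i) = q i := by
        intro i h1 h2
        exact (mem_fixingSubgroup_iff _).1 hf (q i) ⟨i, h1, h2, rfl⟩
      have hxG := W.down t ht le_rfl x hx (fun i h1 h2 => hf' i (by omega) h2)
      rw [hH]
      exact ⟨⟨hxG, hf' 1 (by omega) (by omega)⟩, hf' 2 (by omega) (by omega)⟩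
    · intro x hx
      have hxG := W.H_le hx
      refine ⟨Cfsg.Agent.Lib.WittExt.G_le _ hxG, ?_⟩
      rw [hH] at hx
      show x ∈ fixingSubgroup (Equiv.Perm α) {x | ∃ i : ℕ, 1 ≤ i ∧ i ≤ t ∧ x = q i}
      rw [mem_fixingSubgroup_iff]
      rintro y ⟨i, h1, h2, rfl⟩
      by_cases h3 : i = 1
      · subst h3
        exact hx.1.2
      · by_cases h4 : i = 2
        · subst h4
          exact hx.2
        · exact hfix x hxG i (by omega) h2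

end Cfsg.Agent.S0709
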