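import Cfsg.Statements.S0710
import Mathlib

set_option autoImplicit false
open Cfsg

namespace Cfsg.Agent.S0710

/-- No transitive permutation group on 13 points has order `13 * 12 * 11 * 10 * 9 * 8`. -/
theorem result {α : Type*} [Fintype α] [DecidableEq α] (hα : Fintype.card α = 13) (G : Subgroup (Equiv.Perm α)) [MulAction.IsPretransitive G α] : Nat.card G ≠ 13 * 12 * 11 * 10 * 9 * 8 := by
  classical
  intro hcard
  haveI hp13 : Fact (Nat.Prime 13) := ⟨by norm_num⟩
  haveI : Finite G := inferInstance
  have hn : Nat.card G = 13 * 95040 := by rw [hcard]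
  obtain ⟨P⟩ : Nonempty (Sylow 13 G) := inferInstance
  have hP13 : Nat.card (P : Subgroup G) = 13 := by
    rw [Sylow.card_eq_multiplicity, hn, Nat.factorization_mul (by norm_num) (by norm_num)]
    have h1 : (13 : ℕ).factorization 13 = 1 := Nat.Prime.factorization_self (by norm_num)
    have h2 : (95040 : ℕ).factorization 13 = 0 := Nat.factorization_eq_zero_of_not_dvd (by norm_num)
    simp [h1, h2]
  haveI : Fact (Nat.card (P : Subgroup G)).Prime := ⟨by rw [hP13]; norm_num⟩
  haveI hPcyc : IsCyclic (P : Subgroup G) := isCyclic_of_prime_card rfl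
  -- a moved point
  obtain ⟨x, hx⟩ : ∃ x : (P : Subgroup G), x ≠ 1 := by
    have : 1 < Nat.card (P : Subgroup G) := by rw [hP13]; norm_num
    haveI := (Finite.one_lt_card_iff_nontrivial).1 this
    exact exists_ne 1
  obtain ⟨b, hb⟩ : ∃ b : α, x • b ≠ b := by
    by_contra hn'
    push Not at hn'
    apply hx
    apply Subtype.ext
    apply Subtype.ext
    ext y
    exact hn' y
  have horb : Nat.card (MulAction.orbit (P : Subgroup G) b) = 13 := by
    have h1 : Nat.card (MulAction.orbit (P : Subgroup G) b) * Nat.card (MulAction.stabilizer (P : Subgroup G) b) = Nat.card (P : Subgroup G) := by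
      rw [← Nat.card_prod, Nat.card_congr (MulAction.orbitProdStabilizerEquivGroup (P : Subgroup G) b)]
    rw [hP13] at h1
    have h2 : Nat.card (MulAction.orbit (P : Subgroup G) b) ∣ 13 := ⟨_, h1.symm⟩
    rcases (Nat.dvd_prime (by norm_num)).1 h2 with h3 | h3
    · exfalso
      apply hb
      have hs : Nat.card (MulAction.orbit (P : Subgroup G) b) = 1 := h3
      rw [Nat.card_eq_one_iff_unique] at hs
      have h4 := hs.1.elim ⟨x • b, MulAction.mem_orbit b x⟩ ⟨b, MulAction.mem_orbit_self b⟩
      exact congrArg Subtype.val h4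
    · exact h3
  have htrans : ∀ y : α, y ∈ MulAction.orbit (P : Subgroup G) b := by
    intro y
    have h1 : Nat.card (MulAction.orbit (P : Subgroup G) b) = Nat.card (Set.univ : Set α) := by
      rw [horb, Nat.card_univ, Nat.card_eq_fintype_card, hα]
    have h2 := Set.eq_of_subset_of_ncard_le (s := MulAction.orbit (P : Subgroup G) b) (t := Set.univ) (Set.subset_univ _) (by
      show (Set.univ : Set α).ncard ≤ (MulAction.orbit (P : Subgroup G) b).ncard
      exact (h1.symm).le)
    rw [h2]
    trivial
  -- the centralizer has order `13`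
  set C := Subgroup.centralizer (((P : Subgroup G) : Set G)) with hC
  have hCinj : Function.Injective (fun c : C => (c : G) • b) := by
    intro c c' hcc
    apply Subtype.ext
    apply Subtype.ext
    ext y
    obtain ⟨π, rfl⟩ := htrans y
    have h1 : ∀ d : C, (d : G) • (π • b) = π • ((d : G) • b) := by
      intro d
      have h2 := Subgroup.mem_centralizer_iff.1 d.2 (π : G) π.2
      show (d : G) • ((π : G) • b) = (π : G) • ((d : G) • b)
      rw [← mul_smul, ← mul_smul, h2]
    have h3 := h1 c
    have h4 := h1 c'
    have h5 : (c : G) • b = (c' : G) • b := hcc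
    show (c : G) • (π • b) = (c' : G) • (π • b)
    rw [h3, h4, h5]
  have hCle : Nat.card C ≤ 13 := by
    have h := Nat.card_le_card_of_injective _ hCinj
    rwa [Nat.card_eq_fintype_card (α := α), hα] at h
  have hPC : (P : Subgroup G) ≤ C := by
    intro y hy
    rw [hC, Subgroup.mem_centralizer_iff]
    intro z hz
    have := (IsCyclic.isMulCommutative (α := (P : Subgroup G))).is_comm.comm ⟨z, hz⟩ ⟨y, hy⟩
    exact congrArg Subtype.val this
  have hCcard : Nat.card C = 13 := by
    have h1 := Subgroup.card_dvd_of_le hPC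
    rw [hP13] at h1
    exact le_antisymm hCle (Nat.le_of_dvd Nat.card_pos h1)
  -- the normalizer
  set N := Subgroup.normalizer (((P : Subgroup G) : Set G)) with hN
  have hCN : C ≤ N := Subgroup.centralizer_le_normalizer _
  let φ := (P : Subgroup G).normalizerMonoidHom
  have hker : Nat.card φ.ker = 13 := by
    rw [Subgroup.normalizerMonoidHom_ker]
    exact (Nat.card_congr (Subgroup.subgroupOfEquivOfLe hCN).toEquiv).trans hCcard
  have hrange : Nat.card φ.range ∣ 12 := by
    have h1 : Nat.card φ.range ∣ Nat.card (MulAut (P : Subgroup G)) := Subgroup.card_subgroup_dvd_card _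
    rw [IsCyclic.card_mulAut, hP13] at h1
    have : Nat.totient 13 = 12 := by decide
    rwa [this] at h1
  have hNcard : Nat.card N = 13 * Nat.card φ.range := by
    have h1 := Subgroup.card_eq_card_quotient_mul_card_subgroup φ.ker
    rw [hker, Nat.card_congr (QuotientGroup.quotientKerEquivRange φ).toEquiv, mul_comm] at h1
    exact h1
  have hsyl : Nat.card (Sylow 13 G) = N.index := Sylow.card_eq_index_normalizer P
  have hmod : Nat.card (Sylow 13 G) ≡ 1 [MOD 13] := card_sylow_modEq_one 13 G
  have hidx : N.index * Nat.card N = Nat.card G := Subgroup.index_mul_card N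
  rw [hNcard, hn, ← hsyl] at hidx
  have hd : Nat.card φ.range ∈ Nat.divisors 12 := Nat.mem_divisors.2 ⟨hrange, by norm_num⟩
  have hdiv : Nat.divisors 12 = {1, 2, 3, 4, 6, 12} := by decide
  rw [hdiv] at hd
  have hmul : Nat.card (Sylow 13 G) * Nat.card φ.range = 95040 := by
    have : 13 * (Nat.card (Sylow 13 G) * Nat.card φ.range) = 13 * 95040 := by
      rw [← hidx]
      ring
    exact Nat.eq_of_mul_eq_mul_left (by norm_num) this
  unfold Nat.ModEq at hmod
  simp only [Finset.mem_insert, Finset.mem_singleton] at hd
  rcases hd with h | h | h | h | h | h <;> rw [h] at hmul <;> omega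

end Cfsg.Agent.S0710
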