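import Cfsg.Statements.S0711
import Mathlib

set_option autoImplicit false
open Cfsg

namespace Cfsg.Agent.S0711

open Equiv Equiv.Perm MulAction

variable {α : Type*} [Fintype α] [DecidableEq α]

theorem transit (G : Subgroup (Equiv.Perm α)) {k : ℕ} (h : MulAction.IsMultiplyPretransitive G α k)
    (W : Finset α) (hW : W.card = k) (f : α → α) (hf : Set.InjOn f W) :
    ∃ b ∈ G, ∀ x ∈ W, b x = f x := by
  let e := W.equivFinOfCardEq hW
  let x : Fin k ↪ α := ⟨fun i => (e.symm i : α), fun i j hij => e.symm.injective (Subtype.ext hij)⟩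
  let y : Fin k ↪ α := ⟨fun i => f (e.symm i : α), fun i j hij =>
    e.symm.injective (Subtype.ext (hf (e.symm i).2 (e.symm j).2 hij))⟩
  obtain ⟨g, hg⟩ := h.exists_smul_eq x y
  refine ⟨g.1, g.2, ?_⟩
  intro w hw
  have h2 := DFunLike.congr_fun hg (e ⟨w, hw⟩)
  rw [Function.Embedding.smul_apply] at h2
  have h3 : x (e ⟨w, hw⟩) = w := by
    show ((e.symm (e ⟨w, hw⟩) : W) : α) = w
    rw [Equiv.symm_apply_apply]
  have h4 : y (e ⟨w, hw⟩) = f w := by
    show f ((e.symm (e ⟨w, hw⟩) : W) : α) = f w
    rw [Equiv.symm_apply_apply]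
  rw [h3, h4] at h2
  exact h2

theorem dvd_of_invariant (a : Equiv.Perm α)
    (hsr : ∀ x ∈ a.support, ∀ j, 0 < j → j < orderOf a → (a ^ j) x ≠ x) (U : Finset α) :
    U ⊆ a.support → (∀ y ∈ U, a y ∈ U) → orderOf a ∣ U.card := by
  induction U using Finset.strongInduction with
  | H U IH =>
    intro hU hinv
    by_cases hemp : U = ∅
    · simp [hemp]
    obtain ⟨x, hx⟩ := Finset.nonempty_iff_ne_empty.2 hemp
    have hℓ : 0 < orderOf a := orderOf_pos a
    have hpow : ∀ i : ℕ, (a ^ i) x ∈ U := by
      intro i
      induction i with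
      | zero => simpa using hx
      | succ i ih =>
        rw [pow_succ']
        exact hinv _ ih
    have hOU : (Finset.range (orderOf a)).image (fun i => (a ^ i) x) ⊆ U := by
      intro y hy
      obtain ⟨i, -, rfl⟩ := Finset.mem_image.1 hy
      exact hpow i
    have hOcard : ((Finset.range (orderOf a)).image (fun i => (a ^ i) x)).card = orderOf a := by
      rw [Finset.card_image_of_injOn, Finset.card_range]
      have key : ∀ i j : ℕ, i < j → j < orderOf a → (a ^ i) x ≠ (a ^ j) x := by
        intro i j hij hj e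
        apply hsr x (hU hx) (j - i) (by omega) (by omega)
        have e1 : a ^ j = a ^ i * a ^ (j - i) := by
          rw [← pow_add]
          congr 1
          omega
        rw [e1, Equiv.Perm.mul_apply] at e
        exact ((a ^ i).injective e).symm
      intro i hi j hj e
      have hi' : i < orderOf a := by simpa using hi
      have hj' : j < orderOf a := by simpa using hj
      by_contra hne
      rcases Nat.lt_or_gt_of_ne hne with h | h
      · exact key i j h hj' e
      · exact key j i h hi' e.symm
    have hxO : x ∈ (Finset.range (orderOf a)).image (fun i => (a ^ i) x) :=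
      Finset.mem_image.2 ⟨0, by simpa using hℓ, by simp⟩
    have hss : U \ (Finset.range (orderOf a)).image (fun i => (a ^ i) x) ⊂ U := by
      refine Finset.sdiff_ssubset hOU ⟨x, hxO⟩
    have hd := IH _ hss (Finset.sdiff_subset.trans hU) (by
      intro y hy
      obtain ⟨hy1, hy2⟩ := Finset.mem_sdiff.1 hy
      refine Finset.mem_sdiff.2 ⟨hinv y hy1, ?_⟩
      intro hO
      apply hy2
      obtain ⟨i, hi, e⟩ := Finset.mem_image.1 hO
      have hi' : i < orderOf a := by simpa using hi
      cases i with
      | zero =>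
        have e' : x = a y := by simpa using e
        refine Finset.mem_image.2 ⟨orderOf a - 1, by simpa using (by omega : orderOf a - 1 < orderOf a), ?_⟩
        rw [e']
        have e2 : a ^ (orderOf a - 1) * a = 1 := by
          rw [← pow_succ, Nat.sub_add_cancel hℓ, pow_orderOf_eq_one]
        show (a ^ (orderOf a - 1)) (a y) = y
        rw [← Equiv.Perm.mul_apply, e2]
        rfl
      | succ i =>
        refine Finset.mem_image.2 ⟨i, by simpa using (by omega : i < orderOf a), ?_⟩
        have e' : a ((a ^ i) x) = a y := by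
          rw [← e, pow_succ']
          rfl
        exact a.injective e')
    have hc := Finset.card_sdiff_add_card_eq_card hOU
    rw [hOcard] at hc
    rw [← hc]
    exact Nat.dvd_add hd (dvd_refl _)

theorem exists_r1 (a : Equiv.Perm α) : ∀ j, j ≤ a.support.card → ∃ V : Finset α, V ⊆ a.support ∧ V.card = j ∧
    ∀ x ∈ V, ∀ x' ∈ V, a x ∉ V → a x' ∉ V → x = x' := by
  intro j
  induction j with
  | zero =>
    intro _
    exact ⟨∅, by simp, by simp, by simp⟩
  | succ j ih =>
    intro hj
    obtain ⟨V, hV, hc, hex⟩ := ih (by omega)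
    by_cases h : ∀ x ∈ V, a x ∈ V
    · obtain ⟨y, hy, hy'⟩ := Finset.exists_mem_notMem_of_card_lt_card (s := V) (t := a.support) (by omega)
      refine ⟨insert y V, Finset.insert_subset hy hV, by rw [Finset.card_insert_of_notMem hy', hc], ?_⟩
      have key : ∀ x ∈ insert y V, a x ∉ insert y V → x = y := by
        intro x hx hax
        rcases Finset.mem_insert.1 hx with e | hxV
        · exact e
        · exact absurd (Finset.mem_insert_of_mem (h x hxV)) hax
      intro x hx x' hx' h1 h2
      rw [key x hx h1, key x' hx' h2]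
    · push Not at h
      obtain ⟨x₀, hx₀, hax₀⟩ := h
      refine ⟨insert (a x₀) V, Finset.insert_subset (Equiv.Perm.apply_mem_support.2 (hV hx₀)) hV,
        by rw [Finset.card_insert_of_notMem hax₀, hc], ?_⟩
      have key : ∀ x ∈ insert (a x₀) V, a x ∉ insert (a x₀) V → x = a x₀ := by
        intro x hx hax
        rcases Finset.mem_insert.1 hx with e | hxV
        · exact e
        · have hnot : a x ∉ V := fun hh => hax (Finset.mem_insert_of_mem hh)
          have := hex x hxV x₀ hx₀ hnot hax₀
          rw [this] at hax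
          exact absurd (Finset.mem_insert_self _ _) hax
      intro x hx x' hx' h1 h2
      rw [key x hx h1, key x' hx' h2]

theorem support_sub (a b : Equiv.Perm α) (U E : Finset α) (hU : U ⊆ a.support)
    (hbU : ∀ x ∈ U, b x = x) (hE : ∀ x ∈ U, a x ∈ U ∨ x ∈ E) :
    (a⁻¹ * (b * a * b⁻¹)).support ⊆ (a.support ∪ (a.support \ U).image b) \ (U \ E) := by
  intro x hx
  rw [Equiv.Perm.mem_support] at hx
  refine Finset.mem_sdiff.2 ⟨?_, ?_⟩
  · by_contra hcon
    rw [Finset.mem_union, not_or] at hcon
    obtain ⟨h1, h2⟩ := hcon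
    apply hx
    have e0 : b (b⁻¹ x) = x := by simp
    have hy : b⁻¹ x ∉ a.support := by
      intro hy
      by_cases hyU : b⁻¹ x ∈ U
      · have := hbU _ hyU
        rw [e0] at this
        rw [← this] at hy
        exact h1 hy
      · exact h2 (Finset.mem_image.2 ⟨b⁻¹ x, Finset.mem_sdiff.2 ⟨hy, hyU⟩, e0⟩)
    rw [Equiv.Perm.notMem_support] at hy
    have h1' : a x = x := Equiv.Perm.notMem_support.1 h1
    have h3 : a⁻¹ x = x := by
      rw [Equiv.Perm.inv_eq_iff_eq]
      exact h1'.symm
    simp only [Equiv.Perm.mul_apply]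
    rw [hy, e0, h3]
  · intro hcon
    obtain ⟨h1, h2⟩ := Finset.mem_sdiff.1 hcon
    apply hx
    have h3 : a x ∈ U := (hE x h1).resolve_right h2
    have h4 : b⁻¹ x = x := by
      rw [Equiv.Perm.inv_eq_iff_eq]
      exact (hbU x h1).symm
    simp only [Equiv.Perm.mul_apply]
    rw [h4, hbU _ h3]
    simp

theorem card_bound (a b : Equiv.Perm α) (U E : Finset α) (hU : U ⊆ a.support)
    (hbU : ∀ x ∈ U, b x = x) (hE : ∀ x ∈ U, a x ∈ U ∨ x ∈ E) (δ : ℕ)
    (hδ : δ ≤ (((a.support \ U).image b) ∩ a.support).card) :
    (a⁻¹ * (b * a * b⁻¹)).support.card + 2 * U.card + δ ≤ 2 * a.support.card + E.card := by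
  have h1 := Finset.card_le_card (support_sub a b U E hU hbU hE)
  have hR : ((a.support \ U).image b).card = a.support.card - U.card := by
    rw [Finset.card_image_of_injective _ b.injective, Finset.card_sdiff_of_subset hU]
  have hUT := Finset.card_le_card hU
  have h2 := Finset.card_sdiff_add_card_inter ((a.support \ U).image b) a.support
  have h3 : (a.support ∪ (a.support \ U).image b).card =
      a.support.card + ((a.support \ U).image b \ a.support).card := by
    rw [← Finset.union_sdiff_self_eq_union, Finset.card_union_of_disjoint Finset.disjoint_sdiff]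
  have hsub : U \ E ⊆ a.support ∪ (a.support \ U).image b :=
    (Finset.sdiff_subset.trans hU).trans Finset.subset_union_left
  have h4 := Finset.card_sdiff_of_subset hsub
  have h5 := Finset.le_card_sdiff E U
  have h6 := Finset.card_le_card hsub
  omega

theorem part1 (G : Subgroup (Equiv.Perm α)) {k : ℕ} (hkn : k ≤ Fintype.card α)
    (hG : MulAction.IsMultiplyPretransitive G α k) (g : Equiv.Perm α) (hg : g ∈ G) (hg1 : g ≠ 1)
    (hsupp : g.support.card < 2 * k - 2) : ∃ h : Equiv.Perm α, h ∈ G ∧ h ≠ 1 ∧ h.support.card ≤ 3 := by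
  classical
  by_contra hcon
  push Not at hcon
  have hex : ∃ n, ∃ h ∈ G, h ≠ 1 ∧ h.support.card = n := ⟨_, g, hg, hg1, rfl⟩
  obtain ⟨a, ha, ha1, ham⟩ := Nat.find_spec hex
  have hmin : ∀ h ∈ G, h ≠ 1 → Nat.find hex ≤ h.support.card :=
    fun h hh hh1 => Nat.find_min' hex ⟨h, hh, hh1, rfl⟩
  generalize Nat.find hex = m at ham hmin
  have hm4 : 4 ≤ m := by
    have := hcon a ha ha1
    omega
  have hmg := hmin g hg hg1
  have hk'k : (m + 4) / 2 ≤ k := by omega
  haveI := hG
  have hG' : MulAction.IsMultiplyPretransitive G α ((m + 4) / 2) :=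
    MulAction.isMultiplyPretransitive_of_le hk'k (by simpa [Nat.card_eq_fintype_card] using hkn)
  have hsr : ∀ x ∈ a.support, ∀ j, 0 < j → j < orderOf a → (a ^ j) x ≠ x := by
    intro x hx j hj hjl
    have h1 : a ^ j ≠ 1 := pow_ne_one_of_lt_orderOf hj.ne' hjl
    have h2 := hmin _ (G.pow_mem ha j) h1
    have h3 : (a ^ j).support ⊆ a.support := Equiv.Perm.support_pow_le a j
    have h4 := Finset.eq_of_subset_of_card_le h3 (by omega)
    rw [← h4] at hx
    exact Equiv.Perm.mem_support.1 hx
  have hℓ : 2 ≤ orderOf a := by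
    have h1 : orderOf a ≠ 1 := fun e => ha1 (orderOf_eq_one_iff.1 e)
    have h2 := orderOf_pos a
    omega
  obtain ⟨V, hV, hVc, hVex⟩ := exists_r1 a ((m + 4) / 2 - 1) (by omega)
  -- the set U, the exit point and the exit set
  obtain ⟨U, E, x₀, hU, hUc, hx₀, hax₀, hE, hEc⟩ : ∃ (U E : Finset α) (x₀ : α), U ⊆ a.support ∧
      U.card = (m + 4) / 2 - 1 ∧ x₀ ∈ U ∧ a x₀ ∉ U ∧ (∀ x ∈ U, a x ∈ U ∨ x ∈ E) ∧
      (E.card ≤ 1 ∨ (m % 2 = 0 ∧ 6 ≤ m ∧ E.card ≤ 2)) := by
    by_cases hinv : ∀ x ∈ V, a x ∈ V
    · have h1 := dvd_of_invariant a hsr V hV hinv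
      have h2 := dvd_of_invariant a hsr a.support (Finset.Subset.refl _) (fun y hy => Equiv.Perm.apply_mem_support.2 hy)
      rw [hVc] at h1
      rw [ham] at h2
      have hm : m % 2 = 0 ∧ 6 ≤ m := by
        by_contra hnot
        have hone : orderOf a ∣ 1 := by
          have h3 := Nat.dvd_sub (Nat.dvd_add h1 h1) h2
          by_cases hodd : m % 2 = 1
          · have : (m + 4) / 2 - 1 + ((m + 4) / 2 - 1) - m = 1 := by omega
            rwa [this] at h3
          · have h5 : m = 4 := by omega
            subst h5
            have h6 : orderOf a ∣ 4 - ((4 + 4) / 2 - 1) := Nat.dvd_sub h2 h1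
            simpa using h6
        have := Nat.le_of_dvd (by norm_num) hone
        omega
      obtain ⟨u, hu⟩ : V.Nonempty := by
        rw [← Finset.card_pos]
        omega
      obtain ⟨v, hv, hv'⟩ := Finset.exists_mem_notMem_of_card_lt_card (s := V) (t := a.support) (by omega)
      have himg : V.image a = V :=
        Finset.eq_of_subset_of_card_le (fun y hy => by
          obtain ⟨w, hw, rfl⟩ := Finset.mem_image.1 hy
          exact hinv w hw) (by rw [Finset.card_image_of_injective _ a.injective])
      have hav : a v ∉ V := by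
        intro hh
        rw [← himg] at hh
        obtain ⟨w, hw, e⟩ := Finset.mem_image.1 hh
        rw [a.injective e] at hw
        exact hv' hw
      have hvne : a v ≠ v := Equiv.Perm.mem_support.1 hv
      refine ⟨insert v (V.erase u), {a⁻¹ u, v}, v, ?_, ?_, Finset.mem_insert_self _ _, ?_, ?_, Or.inr ⟨hm.1, hm.2, ?_⟩⟩
      · exact Finset.insert_subset hv ((Finset.erase_subset _ _).trans hV)
      · rw [Finset.card_insert_of_notMem (fun hh => hv' (Finset.mem_of_mem_erase hh)),
          Finset.card_erase_of_mem hu, hVc]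
        omega
      · intro hh
        rcases Finset.mem_insert.1 hh with e | e
        · exact hvne e
        · exact hav (Finset.mem_of_mem_erase e)
      · intro x hx
        rcases Finset.mem_insert.1 hx with e | e
        · right
          rw [e]
          simp
        · have hxV := Finset.mem_of_mem_erase e
          by_cases heq : a x = u
          · right
            have : x = a⁻¹ u := by
              rw [← heq]
              simp
            rw [this]
            simp
          · left
            exact Finset.mem_insert_of_mem (Finset.mem_erase.2 ⟨heq, hinv x hxV⟩)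
      · exact Finset.card_le_two
    · push Not at hinv
      obtain ⟨x₀, hx₀, hax₀⟩ := hinv
      refine ⟨V, {x₀}, x₀, hV, hVc, hx₀, hax₀, ?_, Or.inl (by simp)⟩
      intro x hx
      by_cases h : a x ∈ V
      · exact Or.inl h
      · right
        rw [hVex x hx x₀ hx₀ h hax₀]
        simp
  have hUT := Finset.card_le_card hU
  have ht : a x₀ ∈ a.support := Equiv.Perm.apply_mem_support.2 (hU hx₀)
  -- building the conjugating element
  have hbuild : ∀ t' : α, t' ∉ U → t' ≠ a x₀ → ∃ b ∈ G, (∀ x ∈ U, b x = x) ∧ b (a x₀) = t' := by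
    intro t' ht'U ht'
    obtain ⟨b, hb, hbf⟩ := transit G hG' (insert (a x₀) U)
      (by rw [Finset.card_insert_of_notMem hax₀, hUc]; omega)
      (fun x => if x = a x₀ then t' else x) (by
        intro x hx y hy e
        have hx' : x ∈ insert (a x₀) U := hx
        have hy' : y ∈ insert (a x₀) U := hy
        by_cases h1 : x = a x₀
        · by_cases h2 : y = a x₀
          · rw [h1, h2]
          · simp only [h1, if_true, h2, if_false] at e
            exfalso
            apply ht'U
            rw [e]
            exact (Finset.mem_insert.1 hy').resolve_left h2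
        · by_cases h2 : y = a x₀
          · simp only [h1, if_false, h2, if_true] at e
            exfalso
            apply ht'U
            rw [← e]
            exact (Finset.mem_insert.1 hx').resolve_left h1
          · simpa [h1, h2] using e)
    refine ⟨b, hb, ?_, ?_⟩
    · intro x hx
      have hne : x ≠ a x₀ := fun e => hax₀ (e ▸ hx)
      have := hbf x (Finset.mem_insert_of_mem hx)
      simpa [hne] using this
    · have := hbf (a x₀) (Finset.mem_insert_self _ _)
      simpa using this
  -- `c` is a nonidentity element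
  have hcne : ∀ b : Equiv.Perm α, (∀ x ∈ U, b x = x) → b (a x₀) ≠ a x₀ → a⁻¹ * (b * a * b⁻¹) ≠ 1 := by
    intro b hb hne hc1
    have h1 : b * a * b⁻¹ = a := by
      have := congrArg (fun z => a * z) hc1
      simpa using this
    have h2 : b⁻¹ x₀ = x₀ := by
      rw [Equiv.Perm.inv_eq_iff_eq]
      exact (hb x₀ hx₀).symm
    have h3 := DFunLike.congr_fun h1 x₀
    simp only [Equiv.Perm.mul_apply] at h3
    rw [h2] at h3
    exact hne h3
  by_cases hδ : ∃ t' ∈ a.support \ U, t' ≠ a x₀
  · obtain ⟨t', ht'T, ht'⟩ := hδ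
    obtain ⟨ht'1, ht'2⟩ := Finset.mem_sdiff.1 ht'T
    obtain ⟨b, hb, hbU, hbt⟩ := hbuild t' ht'2 ht'
    have hc := hmin _ (G.mul_mem (G.inv_mem ha) (G.mul_mem (G.mul_mem hb ha) (G.inv_mem hb)))
      (hcne b hbU (by rw [hbt]; exact ht'))
    have hbd := card_bound a b U E hU hbU hE 1 (by
      rw [Nat.one_le_iff_ne_zero, ← Nat.pos_iff_ne_zero, Finset.card_pos]
      exact ⟨t', Finset.mem_inter.2 ⟨Finset.mem_image.2 ⟨a x₀, Finset.mem_sdiff.2 ⟨ht, hax₀⟩, hbt⟩, ht'1⟩⟩)
    omega
  · push Not at hδ
    have hsmall : (a.support \ U).card ≤ 1 := by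
      rw [Finset.card_le_one]
      intro p hp q hq
      rw [hδ p hp, hδ q hq]
    rw [Finset.card_sdiff_of_subset hU] at hsmall
    have hm : m = 4 := by omega
    subst hm
    by_cases hout : ∃ t', t' ∉ a.support
    · obtain ⟨t', ht'⟩ := hout
      have ht'U : t' ∉ U := fun h => ht' (hU h)
      have hne : t' ≠ a x₀ := fun e => ht' (e ▸ ht)
      obtain ⟨b, hb, hbU, hbt⟩ := hbuild t' ht'U hne
      have hc := hmin _ (G.mul_mem (G.inv_mem ha) (G.mul_mem (G.mul_mem hb ha) (G.inv_mem hb)))
        (hcne b hbU (by rw [hbt]; exact hne))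
      have hbd := card_bound a b U E hU hbU hE 0 (by simp)
      omega
    · push Not at hout
      -- `G` contains a swap
      have hIns : insert (a x₀) U = a.support := by
        apply Finset.eq_of_subset_of_card_le (Finset.insert_subset ht hU)
        rw [Finset.card_insert_of_notMem hax₀, hUc]
        omega
      have hpq : 1 < U.card := by
        rw [hUc]
        omega
      obtain ⟨p, hp, q, hq, hpqne⟩ := Finset.one_lt_card.1 hpq
      obtain ⟨b, hb, hbf⟩ := transit G hG' a.support (by rw [ham]) (Equiv.swap p q)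
        ((Equiv.swap p q).injective.injOn)
      have hbs : b = Equiv.swap p q := by
        ext x
        exact hbf x (hout x)
      have hbne : b ≠ 1 := by
        rw [hbs]
        intro e
        have h := DFunLike.congr_fun e p
        rw [Equiv.swap_apply_left, Equiv.Perm.one_apply] at h
        exact hpqne h.symm
      have h1 := hcon b hb hbne
      have h2 : b.support.card = 2 := by
        rw [hbs, Equiv.Perm.card_support_swap hpqne]
      omega

/-- A `k`-transitive permutation group (`k ≥ 3`) with a non-identity element of support smaller than `2k - 2` contains a non-identity element of support at most 3, and therefore contains the alternating group. -/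
theorem result {α : Type*} [Fintype α] [DecidableEq α] (G : Subgroup (Equiv.Perm α)) {k : ℕ} (hk : 3 ≤ k) (hkn : k ≤ Fintype.card α) (hG : MulAction.IsMultiplyPretransitive G α k) (g : Equiv.Perm α) (hg : g ∈ G) (hg1 : g ≠ 1) (hsupp : g.support.card < 2 * k - 2) : (∃ h : Equiv.Perm α, h ∈ G ∧ h ≠ 1 ∧ h.support.card ≤ 3) ∧ alternatingGroup α ≤ G := by
  classical
  have hfirst := part1 G hkn hG g hg hg1 hsupp
  refine ⟨hfirst, ?_⟩
  obtain ⟨h, hh, hh1, hhc⟩ := hfirst
  haveI := hG
  have h2 : MulAction.IsMultiplyPretransitive G α 2 :=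
    MulAction.isMultiplyPretransitive_of_le (m := 2) (n := k) (by omega) (by simpa [Nat.card_eq_fintype_card] using hkn)
  have hprim : MulAction.IsPreprimitive G α := MulAction.isPreprimitive_of_is_two_pretransitive h2
  have h0 : h.support.card ≠ 0 := by
    intro e
    exact hh1 (Equiv.Perm.support_eq_empty_iff.1 (Finset.card_eq_zero.1 e))
  have h1 : h.support.card ≠ 1 := Equiv.Perm.card_support_ne_one h
  have hcases : h.support.card = 2 ∨ h.support.card = 3 := by omega
  rcases hcases with h2' | h3'
  · have hs : h.IsSwap := Equiv.Perm.card_support_eq_two.1 h2'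
    have ht := Equiv.Perm.subgroup_eq_top_of_isPreprimitive_of_isSwap_mem hprim h hs hh
    rw [ht]
    exact le_top
  · have hs : h.IsThreeCycle := card_support_eq_three_iff.1 h3'
    exact Equiv.Perm.alternatingGroup_le_of_isPreprimitive_of_isThreeCycle_mem hprim hs hh

end Cfsg.Agent.S0711
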