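import Cfsg.Statements.S0712
import Mathlib

set_option autoImplicit false
open Cfsg

namespace Cfsg.Agent.S0712

theorem step {α G : Type*} [Finite α] [Group G] [MulAction G α] (s : Set α) {m : ℕ} (hsm : s.ncard = m)
    (hm : MulAction.IsMultiplyPretransitive G α m)
    (h2 : MulAction.IsMultiplyPretransitive (fixingSubgroup G s) (SubMulAction.ofFixingSubgroup G s) 2) :
    MulAction.IsMultiplyPretransitive G α (m + 2) := by
  classical
  haveI := Fintype.ofFinite α
  have hcard : Nat.card s = m := by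
    rw [← hsm]
    rfl
  -- enumeration of `s`
  let e0 : s ≃ Fin m := Finite.equivFinOfCardEq hcard
  let e : Fin m ↪ α := ⟨fun i => (e0.symm i : α), fun i j h => e0.symm.injective (Subtype.ext h)⟩
  have hes : ∀ i, e i ∈ s := fun i => (e0.symm i).2
  have hes2 : ∀ a ∈ s, ∃ i, e i = a := fun a ha => ⟨e0 ⟨a, ha⟩, by
    show ((e0.symm (e0 ⟨a, ha⟩) : s) : α) = a
    rw [Equiv.symm_apply_apply]⟩
  let ι : Fin m → Fin (m + 2) := Fin.castAdd 2
  have hι : Function.Injective ι := Fin.castAdd_injective _ _
  let p0 : Fin (m + 2) := ⟨m, by omega⟩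
  let p1 : Fin (m + 2) := ⟨m + 1, by omega⟩
  have hp01 : p0 ≠ p1 := by
    intro h
    have := congrArg Fin.val h
    simp [p0, p1] at this
  have hιp0 : ∀ i, ι i ≠ p0 := by
    intro i h
    have := congrArg Fin.val h
    simp [ι, p0] at this
    omega
  have hιp1 : ∀ i, ι i ≠ p1 := by
    intro i h
    have := congrArg Fin.val h
    simp [ι, p1] at this
    omega
  have hcases : ∀ i : Fin (m + 2), (∃ j, i = ι j) ∨ i = p0 ∨ i = p1 := by
    intro i
    by_cases h : i.val < m
    · left
      exact ⟨⟨i.val, h⟩, Fin.ext (by simp [ι])⟩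
    · right
      by_cases h' : i.val = m
      · left
        exact Fin.ext h'
      · right
        exact Fin.ext (by simp [p1]; omega)
  have hnf : ∀ x : Fin (m + 2) ↪ α, ∃ g : G, (∀ j, g • x (ι j) = e j) ∧ g • x p0 ∉ s ∧ g • x p1 ∉ s := by
    intro x
    let x₀ : Fin m ↪ α := ⟨fun j => x (ι j), fun i j h => hι (x.injective h)⟩
    obtain ⟨g, hg⟩ := MulAction.exists_smul_eq G x₀ e
    have hg' : ∀ j, g • x (ι j) = e j := fun j => by
      have := congrArg (fun f : Fin m ↪ α => f j) hg
      exact this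
    refine ⟨g, hg', ?_, ?_⟩
    · intro h
      obtain ⟨i, hi⟩ := hes2 _ h
      rw [← hg' i] at hi
      exact hιp0 i (x.injective (MulAction.injective g hi))
    · intro h
      obtain ⟨i, hi⟩ := hes2 _ h
      rw [← hg' i] at hi
      exact hιp1 i (x.injective (MulAction.injective g hi))
  rw [MulAction.is_two_pretransitive_iff] at h2
  refine ⟨fun x y => ?_⟩
  obtain ⟨g, hg1, hg2, hg3⟩ := hnf x
  obtain ⟨g', hg1', hg2', hg3'⟩ := hnf y
  have hne : g • x p0 ≠ g • x p1 := fun h => hp01 (x.injective (MulAction.injective g h))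
  have hne' : g' • y p0 ≠ g' • y p1 := fun h => hp01 (y.injective (MulAction.injective g' h))
  obtain ⟨h, hh1, hh2⟩ := h2 (a := ⟨g • x p0, hg2⟩) (b := ⟨g • x p1, hg3⟩)
    (c := ⟨g' • y p0, hg2'⟩) (d := ⟨g' • y p1, hg3'⟩)
    (fun he => hne (congrArg Subtype.val he)) (fun he => hne' (congrArg Subtype.val he))
  have hh1' : (h : G) • (g • x p0) = g' • y p0 := congrArg Subtype.val hh1
  have hh2' : (h : G) • (g • x p1) = g' • y p1 := congrArg Subtype.val hh2
  have hfix : ∀ a ∈ s, (h : G) • a = a := fun a ha => (mem_fixingSubgroup_iff G).1 h.2 a ha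
  refine ⟨g'⁻¹ * (h : G) * g, ?_⟩
  ext i
  show (g'⁻¹ * (h : G) * g) • x i = y i
  rw [mul_smul, mul_smul, inv_smul_eq_iff]
  rcases hcases i with ⟨j, rfl⟩ | rfl | rfl
  · rw [hg1, hg1', hfix _ (hes j)]
  · exact hh1'
  · exact hh2'

/-- Jordan: a primitive group in which the pointwise stabiliser of a set `s` is doubly transitive on the complement of `s` (which has at least 2 points) is `(|s| + 2)`-transitive. -/
theorem result {α : Type*} [Fintype α] [DecidableEq α] (G : Subgroup (Equiv.Perm α)) (hG : MulAction.IsPreprimitive G α) (s : Set α) {m : ℕ} (hsm : s.ncard = m) (hm : m + 2 ≤ Fintype.card α) (h2 : MulAction.IsMultiplyPretransitive (fixingSubgroup G s) (SubMulAction.ofFixingSubgroup G s) 2) : MulAction.IsMultiplyPretransitive G α (m + 2) := by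
  have hprim := MulAction.isPreprimitive_of_is_two_pretransitive h2
  apply step s hsm ?_ h2
  rcases m with _ | n
  · exact MulAction.is_zero_pretransitive'
  · have hcard : n + 2 < Nat.card α := by
      rw [Nat.card_eq_fintype_card]
      omega
    have h3 := hG.isMultiplyPreprimitive hsm hcard hprim
    haveI := h3.isMultiplyPretransitive
    exact MulAction.isMultiplyPretransitive_of_le (n := n + 2) (by omega) (by omega)

end Cfsg.Agent.S0712
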