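import Cfsg.Statements.S0713
import Mathlib

set_option autoImplicit false
open Cfsg

namespace Cfsg.Agent.S0713

open Equiv Equiv.Perm MulAction
open scoped Pointwise

theorem conj_of_order_p {K : Type*} [Group K] [Finite K] {p : ℕ} [hp : Fact p.Prime] (h2 : ¬ p ^ 2 ∣ Nat.card K)
    (a b : K) (ha : orderOf a = p) (hb : orderOf b = p) : ∃ w : K, w * b * w⁻¹ ∈ Subgroup.zpowers a := by
  classical
  have hpp := hp.out
  have hne : Nat.card K ≠ 0 := Nat.card_pos.ne'
  have hd : p ∣ Nat.card K := ha ▸ orderOf_dvd_natCard a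
  have hf : (Nat.card K).factorization p = 1 := by
    have h1 := hpp.factorization_pos_of_dvd hne hd
    have h3 : ¬ 2 ≤ (Nat.card K).factorization p := fun h => h2 ((hpp.pow_dvd_iff_le_factorization hne).2 h)
    omega
  let Qa : Sylow p K := Sylow.ofCard (Subgroup.zpowers a) (by rw [Nat.card_zpowers, ha, hf, pow_one])
  let Qb : Sylow p K := Sylow.ofCard (Subgroup.zpowers b) (by rw [Nat.card_zpowers, hb, hf, pow_one])
  obtain ⟨w, hw⟩ := MulAction.exists_smul_eq K Qb Qa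
  refine ⟨w, ?_⟩
  have h3 : MulAut.conj w • (Subgroup.zpowers b) = Subgroup.zpowers a := congrArg (fun Q : Sylow p K => (Q : Subgroup K)) hw
  rw [← h3]
  exact Subgroup.smul_mem_pointwise_smul b (MulAut.conj w) _ (Subgroup.mem_zpowers b)

/-- The pointwise stabiliser of the fixed points of a `p`-cycle has order not divisible by `p ^ 2`. -/
theorem not_sq_dvd {α : Type*} [Fintype α] [DecidableEq α] {p : ℕ} [hp : Fact p.Prime]
    (g : Perm α) (hgp : g.support.card = p) (K : Subgroup (Perm α)) (hK : ∀ c ∈ K, ∀ x, g x = x → c x = x) :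
    ¬ p ^ 2 ∣ Nat.card K := by
  classical
  have hpp := hp.out
  have hpres : ∀ c ∈ K, ∀ x, c x ∈ g.support ↔ x ∈ g.support := by
    intro c hc x
    simp only [Equiv.Perm.mem_support]
    constructor
    · intro h1 h2
      exact h1 (by rw [hK c hc x h2, h2])
    · intro h1 h2
      apply h1
      have h3 := hK c hc _ h2
      exact (c.injective h3) ▸ h2
  let φ : K →* Perm ↥g.support :=
    { toFun := fun c => Equiv.Perm.subtypePerm c.1 (hpres c.1 c.2)
      map_one' := by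
        ext x
        rfl
      map_mul' := by
        intro a b
        ext x
        rfl }
  have hφ : Function.Injective φ := by
    intro a b hab
    apply Subtype.ext
    ext x
    by_cases hx : g x = x
    · rw [hK a.1 a.2 x hx, hK b.1 b.2 x hx]
    · have h1 := congrArg (fun q : Perm ↥g.support => ((q ⟨x, Equiv.Perm.mem_support.2 hx⟩ : ↥g.support) : α)) hab
      exact h1
  have h1 := Subgroup.card_dvd_of_injective φ hφ
  rw [Nat.card_perm, Nat.card_eq_fintype_card (α := ↥g.support), Fintype.card_coe, hgp] at h1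
  intro h2
  have h3 := h2.trans h1
  have h4 : p.factorial = p * (p - 1).factorial := (Nat.mul_factorial_pred hpp.ne_zero).symm
  rw [h4, pow_two] at h3
  have h5 := Nat.dvd_of_mul_dvd_mul_left hpp.pos h3
  have h6 := (hpp.dvd_factorial).1 h5
  have := hpp.pos
  omega

theorem normalizer_lift {α : Type*} [Fintype α] [DecidableEq α] (G : Subgroup (Perm α)) {p m : ℕ} [hp : Fact p.Prime]
    (g : Perm α) (hgc : g.IsCycle) (hgp : g.support.card = p) (hg : g ∈ G)
    (hm : (Finset.univ.filter (fun x => g x = x)).card = m) (hT : MulAction.IsMultiplyPretransitive G α m)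
    (σ : Perm α) (hσ : ∀ x, g x = x → g (σ x) = σ x) (hσ' : ∀ x, g x = x → g (σ⁻¹ x) = σ⁻¹ x) :
    ∃ u ∈ G, (∀ x, g x = x → u x = σ x) ∧ ∃ a : ℤ, u * g * u⁻¹ = g ^ a := by
  classical
  have hpp := hp.out
  -- a lift
  obtain ⟨u₀, hu₀G, hu₀⟩ : ∃ u₀ ∈ G, ∀ x, g x = x → u₀ x = σ x := by
    let E := Finset.equivFinOfCardEq hm
    let e : Fin m ↪ α := ⟨fun i => (E.symm i).1, fun i j h => E.symm.injective (Subtype.ext h)⟩
    obtain ⟨u, hu⟩ := MulAction.exists_smul_eq G e (e.trans σ.toEmbedding)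
    refine ⟨u.1, u.2, fun x hx => ?_⟩
    have hxm : x ∈ Finset.univ.filter (fun x => g x = x) := by simp [hx]
    have h1 := DFunLike.congr_fun hu (E ⟨x, hxm⟩)
    have h2 : e (E ⟨x, hxm⟩) = x := by
      show ((E.symm (E ⟨x, hxm⟩)) : α) = x
      rw [Equiv.symm_apply_apply]
    have h3 : (u • e) (E ⟨x, hxm⟩) = u • (e (E ⟨x, hxm⟩)) := rfl
    rw [h3, h2] at h1
    have h4 : (e.trans σ.toEmbedding) (E ⟨x, hxm⟩) = σ (e (E ⟨x, hxm⟩)) := rfl
    rw [h4, h2] at h1
    exact h1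
  have hu₀i : ∀ x, g x = x → u₀⁻¹ x = σ⁻¹ x := by
    intro x hx
    rw [Equiv.Perm.inv_eq_iff_eq, hu₀ _ (hσ' x hx)]
    simp
  let K : Subgroup (Perm α) :=
    { carrier := {c | c ∈ G ∧ ∀ x, g x = x → c x = x}
      one_mem' := ⟨G.one_mem, fun _ _ => rfl⟩
      mul_mem' := by
        rintro a b ⟨ha, ha'⟩ ⟨hb, hb'⟩
        refine ⟨G.mul_mem ha hb, fun x hx => ?_⟩
        show a (b x) = x
        rw [hb' x hx, ha' x hx]
      inv_mem' := by
        rintro a ⟨ha, ha'⟩
        refine ⟨G.inv_mem ha, fun x hx => ?_⟩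
        rw [Equiv.Perm.inv_eq_iff_eq, ha' x hx] }
  have hgK : g ∈ K := ⟨hg, fun _ h => h⟩
  have hbK : u₀ * g * u₀⁻¹ ∈ K := by
    refine ⟨G.mul_mem (G.mul_mem hu₀G hg) (G.inv_mem hu₀G), fun x hx => ?_⟩
    show u₀ (g (u₀⁻¹ x)) = x
    rw [hu₀i x hx, hσ' x hx, ← hu₀i x hx]
    simp
  have hgo : orderOf g = p := by rw [hgc.orderOf, hgp]
  have h2 : ¬ p ^ 2 ∣ Nat.card K := not_sq_dvd g hgp K (fun c hc => hc.2)
  obtain ⟨w, hw⟩ := conj_of_order_p h2 (⟨g, hgK⟩ : K) (⟨u₀ * g * u₀⁻¹, hbK⟩ : K)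
    (by rw [Subgroup.orderOf_mk, hgo])
    (by
      rw [Subgroup.orderOf_mk]
      have := (MulAut.conj u₀).orderOf_eq g
      rw [hgo] at this
      exact this)
  obtain ⟨a, ha⟩ := Subgroup.mem_zpowers_iff.1 hw
  refine ⟨w.1 * u₀, G.mul_mem w.2.1 hu₀G, fun x hx => ?_, a, ?_⟩
  · show w.1 (u₀ x) = σ x
    rw [hu₀ x hx, w.2.2 _ (hσ x hx)]
  · have h3 := congrArg Subtype.val ha
    simp only [Subgroup.coe_zpow, Subgroup.coe_mul, Subgroup.coe_inv] at h3
    rw [h3]
    group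

/-- Jordan's Theorem: a primitive permutation group of degree `n ≥ 5` containing a `p`-cycle for a prime `p ≤ n - 3` contains the alternating group. -/
theorem result {α : Type*} [Fintype α] [DecidableEq α] (G : Subgroup (Equiv.Perm α)) (hG : MulAction.IsPreprimitive G α) {p : ℕ} (hp : p.Prime) (hn : 5 ≤ Fintype.card α) (hpn : p + 3 ≤ Fintype.card α) {g : Equiv.Perm α} (hgc : g.IsCycle) (hgp : g.support.card = p) (hg : g ∈ G) : alternatingGroup α ≤ G := by
  classical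
  have hpp := hp
  haveI : Fact p.Prime := ⟨hp⟩
  -- multiple transitivity
  have hcardS : (g.support : Finset α).card = p := hgp
  have hNat : Nat.card α = Fintype.card α := Nat.card_eq_fintype_card
  obtain ⟨n, hnn⟩ : ∃ n, Fintype.card α = p + (n + 1) := ⟨Fintype.card α - p - 1, by omega⟩
  have hFcard : (Finset.univ.filter (fun x => g x = x)).card = n + 1 := by
    have h1 : Finset.univ.filter (fun x => g x = x) = (g.support)ᶜ := by
      ext x
      simp
    rw [h1, Finset.card_compl, hgp, hnn]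
    omega
  have hn2 : 2 ≤ n := by omega
  have hmul : MulAction.IsMultiplyPreprimitive G α (n + 2) := by
    apply hG.isMultiplyPreprimitive (s := (g.supportᶜ : Set α))
    · apply Nat.add_left_cancel (n := p)
      have h1 := Set.ncard_add_ncard_compl (g.support : Set α)
      rw [Set.ncard_coe_finset, hgp, Nat.card_eq_fintype_card, hnn] at h1
      exact h1
    · rw [Nat.card_eq_fintype_card, hnn]
      have := hp.two_le
      omega
    have := Equiv.Perm.isPretransitive_of_isCycle_mem hgc hg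
    apply IsPreprimitive.of_prime_card
    convert! hp
    rw [Nat.card_eq_fintype_card, Fintype.card_subtype, ← hgp]
    apply congr_arg
    ext x
    simp [SubMulAction.mem_ofFixingSubgroup_iff]
  have hT : MulAction.IsMultiplyPretransitive G α (n + 1) := by
    have h1 : MulAction.IsMultiplyPretransitive G α (n + 2) := MulAction.IsMultiplyPreprimitive.isMultiplyPretransitive ..
    apply MulAction.isMultiplyPretransitive_of_le (n := n + 2) (by omega)
    rw [Nat.card_eq_fintype_card, hnn]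
    have := hp.two_le
    omega
  -- three fixed points
  obtain ⟨x, hx, y, hy, z, hz, hxy, hxz, hyz⟩ := Finset.two_lt_card.1 (show 2 < (Finset.univ.filter (fun x => g x = x)).card by omega)
  simp only [Finset.mem_filter, Finset.mem_univ, true_and] at hx hy hz
  have hswap : ∀ a b : α, g a = a → g b = b → ∀ w, g w = w → g (swap a b w) = swap a b w := by
    intro a b ha hb w hw
    rw [Equiv.swap_apply_def]
    split_ifs <;> assumption
  let σ₁ := swap x y
  let σ₂ := swap y z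
  have hσ₁ : ∀ w, g w = w → g (σ₁ w) = σ₁ w := hswap x y hx hy
  have hσ₂ : ∀ w, g w = w → g (σ₂ w) = σ₂ w := hswap y z hy hz
  have hσ₁i : σ₁⁻¹ = σ₁ := Equiv.swap_inv x y
  have hσ₂i : σ₂⁻¹ = σ₂ := Equiv.swap_inv y z
  obtain ⟨u₁, hu₁G, hu₁, a, ha⟩ := normalizer_lift G g hgc hgp hg hFcard hT σ₁ hσ₁ (by rw [hσ₁i]; exact hσ₁)
  obtain ⟨u₂, hu₂G, hu₂, b, hb⟩ := normalizer_lift G g hgc hgp hg hFcard hT σ₂ hσ₂ (by rw [hσ₂i]; exact hσ₂)
  let τ : Perm α := (σ₂ * σ₁)⁻¹ * (σ₁ * σ₂)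
  let c : Perm α := (u₂ * u₁)⁻¹ * (u₁ * u₂)
  have hcG : c ∈ G := G.mul_mem (G.inv_mem (G.mul_mem hu₂G hu₁G)) (G.mul_mem hu₁G hu₂G)
  -- `c` commutes with `g`
  have hconj : ∀ (u : Perm α) (e f : ℤ), u * g * u⁻¹ = g ^ e → u * g ^ f * u⁻¹ = g ^ (e * f) := by
    intro u e f h
    rw [← conj_zpow, h, zpow_mul]
  have h12 : (u₁ * u₂) * g * (u₁ * u₂)⁻¹ = g ^ (a * b) := by
    have : (u₁ * u₂) * g * (u₁ * u₂)⁻¹ = u₁ * (u₂ * g * u₂⁻¹) * u₁⁻¹ := by group
    rw [this, hb, hconj u₁ a b ha]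
  have h21 : (u₂ * u₁) * g * (u₂ * u₁)⁻¹ = g ^ (a * b) := by
    have : (u₂ * u₁) * g * (u₂ * u₁)⁻¹ = u₂ * (u₁ * g * u₁⁻¹) * u₂⁻¹ := by group
    rw [this, ha, hconj u₂ b a hb, mul_comm]
  have hcg : c * g = g * c := by
    have h1 : (u₁ * u₂) * g = g ^ (a * b) * (u₁ * u₂) := by
      rw [← h12]
      group
    have h2 : (u₂ * u₁) * g = g ^ (a * b) * (u₂ * u₁) := by
      rw [← h21]
      group
    have h3 : (u₂ * u₁)⁻¹ * g ^ (a * b) = g * (u₂ * u₁)⁻¹ := by
      rw [eq_mul_inv_iff_mul_eq, mul_assoc, ← h2]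
      group
    calc c * g = (u₂ * u₁)⁻¹ * ((u₁ * u₂) * g) := by simp [c, mul_assoc]
      _ = (u₂ * u₁)⁻¹ * (g ^ (a * b) * (u₁ * u₂)) := by rw [h1]
      _ = ((u₂ * u₁)⁻¹ * g ^ (a * b)) * (u₁ * u₂) := by group
      _ = (g * (u₂ * u₁)⁻¹) * (u₁ * u₂) := by rw [h3]
      _ = g * c := by simp [c, mul_assoc]
  -- `c` on the fixed points
  have hcF : ∀ w, g w = w → c w = τ w := by
    intro w hw
    show (u₂ * u₁)⁻¹ (u₁ (u₂ w)) = (σ₂ * σ₁)⁻¹ (σ₁ (σ₂ w))
    rw [hu₂ w hw, hu₁ _ (hσ₂ w hw), Equiv.Perm.inv_eq_iff_eq]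
    set w' := (σ₂ * σ₁)⁻¹ (σ₁ (σ₂ w)) with hw'
    have hw'F : g w' = w' := by
      have : w' = σ₁ (σ₂ (σ₁ (σ₂ w))) := by
        rw [hw', mul_inv_rev, hσ₁i, hσ₂i]
        rfl
      rw [this]
      exact hσ₁ _ (hσ₂ _ (hσ₁ _ (hσ₂ _ hw)))
    show σ₁ (σ₂ w) = u₂ (u₁ w')
    rw [hu₁ _ hw'F, hu₂ _ (hσ₁ _ hw'F)]
    show _ = (σ₂ * σ₁) w'
    rw [hw']
    simp
  -- a point in the support
  obtain ⟨a₀, ha₀, hcyc⟩ := hgc
  have hca₀ : g (c a₀) ≠ c a₀ := by
    intro h
    apply ha₀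
    have h1 : c (g a₀) = c a₀ := by
      have : (c * g) a₀ = (g * c) a₀ := by rw [hcg]
      exact this.trans h
    exact c.injective h1
  obtain ⟨t, ht⟩ := hcyc hca₀
  let d : Perm α := c * (g ^ t)⁻¹
  have hdG : d ∈ G := G.mul_mem hcG (G.inv_mem (G.zpow_mem hg t))
  have hcomm : Commute c g := hcg
  have hdg : Commute d g := by
    apply Commute.mul_left hcomm
    exact ((Commute.refl g).zpow_left t).inv_left
  have hda₀ : d a₀ = a₀ := by
    have h1 : Commute c ((g ^ t)⁻¹) := (hcomm.zpow_right t).inv_right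
    show (c * (g ^ t)⁻¹) a₀ = a₀
    rw [h1.eq]
    show (g ^ t)⁻¹ (c a₀) = a₀
    rw [← ht]
    simp
  have hdτ : d = τ := by
    ext w
    by_cases hw : g w = w
    · have h1 : (g ^ t)⁻¹ w = w := by
        have h2 : (g ^ t) w = w := by
          have : Function.IsFixedPt g w := hw
          exact (this.perm_zpow t)
        rw [Equiv.Perm.inv_eq_iff_eq, h2]
      show c ((g ^ t)⁻¹ w) = τ w
      rw [h1, hcF w hw]
    · obtain ⟨i, hi⟩ := hcyc hw
      have h1 : d w = w := by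
        rw [← hi]
        have h2 : Commute d (g ^ i) := hdg.zpow_right i
        have h3 : (d * g ^ i) a₀ = (g ^ i * d) a₀ := by rw [h2.eq]
        show (d * g ^ i) a₀ = _
        rw [h3]
        show (g ^ i) (d a₀) = _
        rw [hda₀]
      have hwx : w ≠ x := fun h => hw (h ▸ hx)
      have hwy : w ≠ y := fun h => hw (h ▸ hy)
      have hwz : w ≠ z := fun h => hw (h ▸ hz)
      have h2 : σ₁ w = w := Equiv.swap_apply_of_ne_of_ne hwx hwy
      have h3 : σ₂ w = w := Equiv.swap_apply_of_ne_of_ne hwy hwz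
      rw [h1]
      show w = (σ₂ * σ₁)⁻¹ (σ₁ (σ₂ w))
      rw [Equiv.Perm.eq_inv_iff_eq]
      show σ₂ (σ₁ w) = σ₁ (σ₂ w)
      rw [h2, h3, h2]
  have hτ3 : τ.IsThreeCycle := by
    have h1 : τ = (swap y x * swap y z) * (swap y x * swap y z) := by
      show (σ₂ * σ₁)⁻¹ * (σ₁ * σ₂) = _
      rw [mul_inv_rev, hσ₁i, hσ₂i]
      show swap x y * swap y z * (swap x y * swap y z) = _
      rw [Equiv.swap_comm x y]
    rw [h1]
    exact (Equiv.Perm.isThreeCycle_swap_mul_swap_same hxy.symm hyz hxz).isThreeCycle_sq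
  exact Equiv.Perm.alternatingGroup_le_of_isPreprimitive_of_isThreeCycle_mem hG hτ3 (hdτ ▸ hdG)

end Cfsg.Agent.S0713
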