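import Cfsg.Statements.S0714
import Mathlib

set_option autoImplicit false
open Cfsg

namespace Cfsg.Agent.S0714

open Equiv Equiv.Perm

theorem cyc {α : Type*} [Fintype α] [DecidableEq α] (a b c : α) (hab : a ≠ b) (hac : a ≠ c) (hbc : b ≠ c) :
    ∃ s : alternatingGroup α, s • a = b ∧ s • b = c ∧ s • c = a ∧ ∀ x, x ≠ a → x ≠ b → x ≠ c → s • x = x := by
  have h1 : (swap a c * swap a b).IsThreeCycle := isThreeCycle_swap_mul_swap_same hac hab hbc.symm
  refine ⟨⟨swap a c * swap a b, h1.mem_alternatingGroup⟩, ?_, ?_, ?_, ?_⟩
  · show (swap a c) (swap a b a) = b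
    rw [swap_apply_left, swap_apply_of_ne_of_ne hab.symm hbc]
  · show (swap a c) (swap a b b) = c
    rw [swap_apply_right, swap_apply_left]
  · show (swap a c) (swap a b c) = a
    rw [swap_apply_of_ne_of_ne hac.symm hbc.symm, swap_apply_right]
  · intro x hxa hxb hxc
    show (swap a c) (swap a b x) = x
    rw [swap_apply_of_ne_of_ne hxa hxb, swap_apply_of_ne_of_ne hxa hxc]

/-- Over any field, the permutation module of the alternating group of degree at least 5 has exactly four invariant subspaces: zero, the constant functions, the functions with coordinate sum zero, and everything. -/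
theorem result {α : Type*} [Fintype α] [DecidableEq α] (hα : 5 ≤ Fintype.card α) {K : Type*} [Field K] (W : Subrepresentation (Cfsg.permRep K (alternatingGroup α) α)) : W.toSubmodule = ⊥ ∨ W = Cfsg.permConstants K (alternatingGroup α) α ∨ W = Cfsg.permSumZero K (alternatingGroup α) α ∨ W.toSubmodule = ⊤ := by
  classical
  have hcard : 5 ≤ Finset.univ.card (α := α) := by rwa [Finset.card_univ]
  have hR : ∀ (g : alternatingGroup α) (v : α → K) (x : α), Cfsg.permRep K (alternatingGroup α) α g v x = v (g⁻¹ • x) := fun _ _ _ => rfl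
  have hinv : ∀ (g : alternatingGroup α) (x y : α), g • x = y → g⁻¹ • y = x := by
    intro g x y h
    rw [inv_smul_eq_iff, h]
  by_cases hconst : ∀ v ∈ W.toSubmodule, ∀ a b : α, v a = v b
  · by_cases hbot : W.toSubmodule = ⊥
    · exact Or.inl hbot
    · right; left
      apply Subrepresentation.toSubmodule_injective
      obtain ⟨v, hv, hv0⟩ := (Submodule.ne_bot_iff _).1 hbot
      obtain ⟨x₀, hx₀⟩ : ∃ x₀, v x₀ ≠ 0 := by
        by_contra hn
        push Not at hn
        exact hv0 (funext hn)
      have h1 : (fun _ : α => (1 : K)) ∈ W.toSubmodule := by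
        have h2 : (fun _ : α => (1 : K)) = (v x₀)⁻¹ • v := by
          funext y
          simp only [Pi.smul_apply, smul_eq_mul]
          rw [hconst v hv y x₀, inv_mul_cancel₀ hx₀]
        rw [h2]
        exact W.toSubmodule.smul_mem _ hv
      apply le_antisymm
      · intro u hu
        apply Submodule.mem_span_singleton.2
        obtain ⟨y₀⟩ : Nonempty α := by
          rw [← Fintype.card_pos_iff]
          omega
        refine ⟨u y₀, funext fun y => ?_⟩
        simp only [Pi.smul_apply, smul_eq_mul, mul_one]
        exact hconst u hu y₀ y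
      · exact (Submodule.span_singleton_le_iff_mem _ _).2 h1
  · push Not at hconst
    obtain ⟨v, hv, a, b, hab⟩ := hconst
    have hab' : a ≠ b := fun h => hab (h ▸ rfl)
    -- more points
    obtain ⟨c, hc⟩ : ∃ c, c ∉ ({a, b} : Finset α) := by
      by_contra hn
      push Not at hn
      have h1 : (Finset.univ : Finset α) ⊆ {a, b} := fun x _ => hn x
      have h2 := Finset.card_le_card h1
      have h3 : ({a, b} : Finset α).card ≤ 2 := Finset.card_le_two
      omega
    simp only [Finset.mem_insert, Finset.mem_singleton, not_or] at hc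
    have h1c : 1 < (Finset.univ \ ({a, b, c} : Finset α)).card := by
      have h1 : ({a, b, c} : Finset α).card ≤ 3 := Finset.card_le_three
      rw [Finset.card_sdiff_of_subset (Finset.subset_univ _)]
      omega
    obtain ⟨d, hd, e, he, hde⟩ := Finset.one_lt_card.1 h1c
    simp only [Finset.mem_sdiff, Finset.mem_univ, true_and, Finset.mem_insert, Finset.mem_singleton, not_or] at hd he
    obtain ⟨hda, hdb, hdc⟩ := hd
    obtain ⟨hea, heb, hec⟩ := he
    obtain ⟨s, hs1, hs2, hs3, hs4⟩ := cyc a b c hab' (Ne.symm hc.1) (Ne.symm hc.2)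
    obtain ⟨τ, hτ1, hτ2, hτ3, hτ4⟩ := cyc b d e (Ne.symm hdb) (Ne.symm heb) hde
    let w : α → K := v - Cfsg.permRep K (alternatingGroup α) α s v
    have hw : w ∈ W.toSubmodule := W.toSubmodule.sub_mem hv (W.apply_mem_toSubmodule s hv)
    have hw0 : ∀ x, x ≠ a → x ≠ b → x ≠ c → w x = 0 := by
      intro x h1 h2 h3
      show v x - v (s⁻¹ • x) = 0
      rw [hinv s x x (hs4 x h1 h2 h3), sub_self]
    have hwb : w b = v b - v a := by
      show v b - v (s⁻¹ • b) = _
      rw [hinv s a b hs1]
    let u : α → K := w - Cfsg.permRep K (alternatingGroup α) α τ w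
    have hu : u ∈ W.toSubmodule := W.toSubmodule.sub_mem hw (W.apply_mem_toSubmodule τ hw)
    have hwd : w d = 0 := hw0 d hda hdb hdc
    have hwe : w e = 0 := hw0 e hea heb hec
    let r : K := v b - v a
    have hr : r ≠ 0 := fun h => hab (sub_eq_zero.1 h).symm
    let δ : α → α → K := fun x y => if y = x then 1 else 0
    have hubd : u = r • (δ b - δ d) := by
      funext x
      show w x - w (τ⁻¹ • x) = r * (δ b x - δ d x)
      by_cases hxb : x = b
      · subst hxb
        rw [hinv τ e x hτ3, hwb, hwe]
        simp [δ, Ne.symm hdb, r]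
      by_cases hxd : x = d
      · subst hxd
        rw [hinv τ b x hτ1, hwb, hwd]
        simp [δ, hdb, r]
      by_cases hxe : x = e
      · subst hxe
        rw [hinv τ d x hτ2, hwd, hwe]
        simp [δ, hxb, hxd]
      · rw [hinv τ x x (hτ4 x hxb hxd hxe)]
        simp [δ, hxb, hxd]
    have hbd : δ b - δ d ∈ W.toSubmodule := by
      have h1 : δ b - δ d = r⁻¹ • u := by
        rw [hubd, smul_smul, inv_mul_cancel₀ hr, one_smul]
      rw [h1]
      exact W.toSubmodule.smul_mem _ hu
    -- double transitivity
    have h2tr : MulAction.IsMultiplyPretransitive (alternatingGroup α) α 2 := by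
      have h1 := alternatingGroup.isMultiplyPretransitive α
      apply MulAction.isMultiplyPretransitive_of_le (n := Nat.card α - 2)
      · rw [Nat.card_eq_fintype_card]
        omega
      · exact Nat.sub_le _ _
    have h2' : ∀ {a b c d : α}, a ≠ b → c ≠ d → ∃ g : alternatingGroup α, g • a = c ∧ g • b = d :=
      MulAction.is_two_pretransitive_iff.1 h2tr
    have hδ : ∀ x y, δ x - δ y ∈ W.toSubmodule := by
      intro x y
      by_cases hxy : x = y
      · subst hxy
        simp
      · obtain ⟨g, hg1, hg2⟩ := h2' (Ne.symm hdb) hxy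
        have h1 : δ x - δ y = Cfsg.permRep K (alternatingGroup α) α g (δ b - δ d) := by
          funext z
          show δ x z - δ y z = δ b (g⁻¹ • z) - δ d (g⁻¹ • z)
          simp only [δ]
          have e1 : g⁻¹ • z = b ↔ z = x := by
            rw [inv_smul_eq_iff, hg1]
          have e2 : g⁻¹ • z = d ↔ z = y := by
            rw [inv_smul_eq_iff, hg2]
          simp only [e1, e2]
        rw [h1]
        exact W.apply_mem_toSubmodule g hbd
    have hsz : (Cfsg.permSumZero K (alternatingGroup α) α).toSubmodule ≤ W.toSubmodule := by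
      intro f hf
      have hf' : ∑ x, f x = 0 := hf
      have h1 : f = ∑ x, f x • (δ x - δ a) := by
        funext z
        simp only [Finset.sum_apply, Pi.smul_apply, Pi.sub_apply, smul_eq_mul, mul_sub, Finset.sum_sub_distrib, ← Finset.sum_mul, hf', zero_mul, sub_zero]
        simp [δ]
      rw [h1]
      exact Submodule.sum_mem _ (fun x _ => W.toSubmodule.smul_mem _ (hδ x a))
    by_cases hle : W.toSubmodule ≤ (Cfsg.permSumZero K (alternatingGroup α) α).toSubmodule
    · right; right; left
      exact Subrepresentation.toSubmodule_injective (le_antisymm hle hsz)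
    · right; right; right
      obtain ⟨y, hy, hys⟩ := SetLike.not_le_iff_exists.1 hle
      have hys' : ∑ x, y x ≠ 0 := hys
      rw [eq_top_iff]
      intro f _
      let t : K := (∑ x, f x) / (∑ x, y x)
      have h1 : f = t • y + (f - t • y) := by
        simp
      rw [h1]
      apply W.toSubmodule.add_mem (W.toSubmodule.smul_mem _ hy)
      apply hsz
      show ∑ x, (f - t • y) x = 0
      simp only [Pi.sub_apply, Pi.smul_apply, smul_eq_mul, Finset.sum_sub_distrib, ← Finset.mul_sum]
      have h2 : t * ∑ x, y x = ∑ x, f x := div_mul_cancel₀ _ hys'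
      rw [h2, sub_self]

end Cfsg.Agent.S0714
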