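import Cfsg.Statements.S0715
import Cfsg.Agent.Lib.CharSuborbit

set_option autoImplicit false
set_option linter.style.haveILetI false
set_option linter.unusedVariables false
open Cfsg

namespace Cfsg.Agent.S0715

/-- If a natural number `f` divides the degree of every non-principal irreducible constituent of the permutation character of a transitive group, then `f` divides every non-trivial subdegree. -/
theorem result {G : Type*} [Group G] [Fintype G] {Ω : Type*} [Fintype Ω] [MulAction G Ω] [MulAction.IsPretransitive G Ω] (f : ℕ) (hf : ∀ χ : G → ℂ, Cfsg.IsIrrCharacter G χ → χ ≠ (fun _ => 1) → Cfsg.classInner (fun g : G => (Nat.card (MulAction.fixedBy Ω g) : ℂ)) χ ≠ 0 → ∃ m : ℕ, χ 1 = (f : ℂ) * m) (a b : Ω) (hab : b ≠ a) : f ∣ Nat.card (MulAction.orbit (MulAction.stabilizer G a) b) := by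
  classical
  open Cfsg.Agent.Lib.CharSuborbit Cfsg.Agent.Lib.CharOps Cfsg.Agent.Lib.CharIrr in
    let one : IrrCharacter G := ⟨fun _ => 1, Cfsg.Agent.Lib.CharIso.isIrr_one⟩
    have hsum := sum_degree_mul_beta (G := G) a b hab
    rw [← Finset.add_sum_erase _ _ (Finset.mem_univ one)] at hsum
    have h1 : (one : G → ℂ) 1 * beta (one : G → ℂ) a b = (Nat.card (MulAction.orbit (MulAction.stabilizer G a) b) : ℂ) := by
      rw [show (one : G → ℂ) 1 = 1 from rfl, one_mul]
      exact beta_one a b
    rw [h1] at hsum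
    have hw : ∀ χ : IrrCharacter G, χ ≠ one → ∃ w : ℂ, IsIntegral ℤ w ∧ (χ : G → ℂ) 1 * beta (χ : G → ℂ) a b = f * w := by
      intro χ hχ
      have hχc := IsIrrCharacter.isCharacter' χ.2
      by_cases h0 : classInner (fun g : G => (Nat.card (MulAction.fixedBy Ω g) : ℂ)) (χ : G → ℂ) = 0
      · refine ⟨0, isIntegral_zero, ?_⟩
        rw [beta_eq_zero hχc a b h0]
        simp
      · have hne : (χ : G → ℂ) ≠ fun _ => 1 := fun h => hχ (Subtype.ext h)
        obtain ⟨m, hm⟩ := hf χ χ.2 hne h0
        refine ⟨m * beta (χ : G → ℂ) a b, ?_, ?_⟩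
        · refine IsIntegral.mul ?_ (isIntegral_beta hχc a b)
          have h0 : IsIntegral ℤ ((m : ℤ) : ℂ) := isIntegral_algebraMap
          simpa using h0
        · rw [hm]
          ring
    choose! w hw1 hw2 using hw
    have h2 : (Nat.card (MulAction.orbit (MulAction.stabilizer G a) b) : ℂ) = f * (-∑ χ ∈ Finset.univ.erase one, w χ) := by
      have h3 : ∑ χ ∈ Finset.univ.erase one, (χ : G → ℂ) 1 * beta (χ : G → ℂ) a b = f * ∑ χ ∈ Finset.univ.erase one, w χ := by
        rw [Finset.mul_sum]
        exact Finset.sum_congr rfl fun χ hχ => hw2 χ (Finset.ne_of_mem_erase hχ)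
      rw [h3] at hsum
      linear_combination hsum
    have hW : IsIntegral ℤ (-∑ χ ∈ Finset.univ.erase one, w χ) :=
      (IsIntegral.sum _ fun χ hχ => hw1 χ (Finset.ne_of_mem_erase hχ)).neg
    by_cases hf0 : f = 0
    · subst hf0
      have h3 : (Nat.card (MulAction.orbit (MulAction.stabilizer G a) b) : ℂ) = 0 := by
        rw [h2]
        simp
      have h4 : Nat.card (MulAction.orbit (MulAction.stabilizer G a) b) = 0 := by exact_mod_cast h3
      rw [h4]
    · apply Cfsg.Agent.Lib.CharInt.dvd_of_isIntegral_div hf0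
      have hfc : (f : ℂ) ≠ 0 := by exact_mod_cast hf0
      rw [h2, mul_div_cancel_left₀ _ hfc]
      exact hW

end Cfsg.Agent.S0715
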