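import Cfsg.Statements.S0716
import Cfsg.Agent.S0715

set_option autoImplicit false
set_option linter.style.haveILetI false
set_option linter.unusedVariables false
open Cfsg

namespace Cfsg.Agent.S0716

/-- (a) If all non-principal irreducible constituents of the permutation character of a transitive group have the same degree `f`, the character is multiplicity-free and all non-trivial subdegrees equal `f`. (b) A transitive group of rank at most 5 has multiplicity-free permutation character. -/
theorem result {G : Type*} [Group G] [Fintype G] {Ω : Type*} [Fintype Ω] [MulAction G Ω] [MulAction.IsPretransitive G Ω] (a : Ω) : ((f : ℕ) → (∀ χ : G → ℂ, Cfsg.IsIrrCharacter G χ → χ ≠ (fun _ => 1) → Cfsg.classInner (fun g : G => (Nat.card (MulAction.fixedBy Ω g) : ℂ)) χ ≠ 0 → χ 1 = f) → (∀ χ : G → ℂ, Cfsg.IsIrrCharacter G χ → Cfsg.classInner (fun g : G => (Nat.card (MulAction.fixedBy Ω g) : ℂ)) χ = 0 ∨ Cfsg.classInner (fun g : G => (Nat.card (MulAction.fixedBy Ω g) : ℂ)) χ = 1) ∧ ∀ b : Ω, b ≠ a → Nat.card (MulAction.orbit (MulAction.stabilizer G a) b) = f) ∧ (Nat.card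 (MulAction.orbitRel.Quotient (MulAction.stabilizer G a) Ω) ≤ 5 → ∀ χ : G → ℂ, Cfsg.IsIrrCharacter G χ → Cfsg.classInner (fun g : G => (Nat.card (MulAction.fixedBy Ω g) : ℂ)) χ = 0 ∨ Cfsg.classInner (fun g : G => (Nat.card (MulAction.fixedBy Ω g) : ℂ)) χ = 1) := by
  classical
  letI : Fintype (MulAction.orbitRel.Quotient (MulAction.stabilizer G a) Ω) := Fintype.ofFinite _
  open Cfsg.Agent.Lib.CharSuborbit Cfsg.Agent.Lib.CharOps Cfsg.Agent.Lib.CharIrr Cfsg.Agent.Lib.CharAb in
    -- notation
    let π : G → ℂ := fun g : G => (Nat.card (MulAction.fixedBy Ω g) : ℂ)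
    have hπc : IsCharacter G π := by
      have := Cfsg.Agent.Lib.CharBasic.isCharacter_character (Cfsg.permRep ℂ G Ω)
      rwa [Cfsg.Agent.Lib.CharCommutant.character_permRep_eq] at this
    choose m hm using fun χ : IrrCharacter G => exists_nat_classInner hπc (IsIrrCharacter.isCharacter' χ.2)
    let one : IrrCharacter G := ⟨fun _ => 1, Cfsg.Agent.Lib.CharIso.isIrr_one⟩
    have hmone : m one = 1 := by
      have h1 := hm one
      rw [show classInner π (one : G → ℂ) = 1 from classInner_perm_one a] at h1
      exact_mod_cast h1.symm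
    -- the rank
    have hr : Nat.card (MulAction.orbitRel.Quotient (MulAction.stabilizer G a) Ω) = ∑ χ : IrrCharacter G, m χ ^ 2 := by
      have h1 := classInner_perm_self (G := G) a
      rw [Cfsg.Agent.Lib.CharDecomp.classInner_self_eq_sum hπc] at h1
      have h2 : ((∑ χ : IrrCharacter G, m χ ^ 2 : ℕ) : ℂ) = (Nat.card (MulAction.orbitRel.Quotient (MulAction.stabilizer G a) Ω) : ℂ) := by
        rw [← h1]
        push_cast
        refine Finset.sum_congr rfl fun χ _ => ?_
        rw [hm χ]
        simp [sq]
      exact_mod_cast h2.symm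
    -- the degree
    have hn : Fintype.card Ω = ∑ χ : IrrCharacter G, m χ * deg χ := by
      have h1 := congrFun (classFunction_expand (IsCharacter.isClassFunction' hπc)) 1
      simp only [Finset.sum_apply, Pi.smul_apply, smul_eq_mul, hm, apply_one_eq_deg] at h1
      have h2 : π 1 = (Fintype.card Ω : ℂ) := by
        simp only [π]
        congr 1
        rw [Nat.card_eq_fintype_card]
        exact Fintype.card_congr ⟨fun x => x.1, fun x => ⟨x, by simp⟩, fun x => rfl, fun x => rfl⟩
      rw [h2] at h1
      exact_mod_cast h1
    have hdegone : deg one = 1 := by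
      have h1 := apply_one_eq_deg one
      have h2 : ((deg one : ℕ) : ℂ) = 1 := h1.symm
      exact_mod_cast h2
    -- part (a)
    have partA : ∀ f : ℕ, (∀ χ : G → ℂ, IsIrrCharacter G χ → χ ≠ (fun _ => 1) → classInner π χ ≠ 0 → χ 1 = f) →
        (∀ χ : G → ℂ, IsIrrCharacter G χ → classInner π χ = 0 ∨ classInner π χ = 1) ∧
          ∀ b : Ω, b ≠ a → Nat.card (MulAction.orbit (MulAction.stabilizer G a) b) = f := by
      intro f hf
      let E : Finset (IrrCharacter G) := Finset.univ.erase one
      have hEdeg : ∀ χ ∈ E, m χ * deg χ = m χ * f := by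
        intro χ hχ
        by_cases h0 : m χ = 0
        · rw [h0]
          simp
        · have hne : (χ : G → ℂ) ≠ fun _ => 1 := fun h => (Finset.ne_of_mem_erase hχ) (Subtype.ext h)
          have h1 := hf χ χ.2 hne (by rw [hm]; exact_mod_cast h0)
          have h2 := apply_one_eq_deg χ
          rw [h1] at h2
          have h3 : f = deg χ := by exact_mod_cast h2
          rw [h3]
      have hn2 : Fintype.card Ω = 1 + f * ∑ χ ∈ E, m χ := by
        rw [hn, ← Finset.add_sum_erase _ _ (Finset.mem_univ one), hmone, hdegone, Finset.sum_congr rfl hEdeg, Finset.mul_sum]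
        simp [mul_comm]
      have hr2 : Nat.card (MulAction.orbitRel.Quotient (MulAction.stabilizer G a) Ω) = 1 + ∑ χ ∈ E, m χ ^ 2 := by
        rw [hr, ← Finset.add_sum_erase _ _ (Finset.mem_univ one), hmone]
        simp [E]
      -- suborbits
      let Q := MulAction.orbitRel.Quotient (MulAction.stabilizer G a) Ω
      let q₀ : Q := Quotient.mk'' a
      let d : Q → ℕ := fun q => (Finset.univ.filter (fun x : Ω => (Quotient.mk'' x : Q) = q)).card
      have hd : ∀ b : Ω, d (Quotient.mk'' b) = Nat.card (MulAction.orbit (MulAction.stabilizer G a) b) := by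
        intro b
        rw [Nat.card_eq_fintype_card, Fintype.card_subtype]
        refine congrArg Finset.card ?_
        ext x
        simp only [Finset.mem_filter, Finset.mem_univ, true_and]
        constructor
        · intro h
          exact MulAction.orbitRel_apply.mp (Quotient.exact' h)
        · intro h
          exact Quotient.sound' (MulAction.orbitRel_apply.mpr h)
      have hda : d q₀ = 1 := by
        rw [hd a]
        have : MulAction.orbit (MulAction.stabilizer G a) a = {a} := by
          ext x
          constructor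
          · rintro ⟨u, rfl⟩
            exact u.2
          · rintro rfl
            exact MulAction.mem_orbit_self _
        rw [this]
        simp
      have hsum : Fintype.card Ω = ∑ q : Q, d q := by
        have h1 := Finset.card_eq_sum_card_fiberwise (f := fun x : Ω => (Quotient.mk'' x : Q)) (s := Finset.univ) (t := Finset.univ) (fun _ _ => Finset.mem_univ _)
        simpa using h1
      let E' : Finset Q := Finset.univ.erase q₀
      have hsum2 : Fintype.card Ω = 1 + ∑ q ∈ E', d q := by
        rw [hsum, ← Finset.add_sum_erase _ _ (Finset.mem_univ q₀), hda]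
      have hE'card : E'.card + 1 = 1 + ∑ χ ∈ E, m χ ^ 2 := by
        have h1 : E'.card = Nat.card Q - 1 := by
          rw [Finset.card_erase_of_mem (Finset.mem_univ q₀), Finset.card_univ, Nat.card_eq_fintype_card]
        haveI : Nonempty Q := ⟨q₀⟩
        have h2 : 0 < Nat.card Q := Nat.card_pos
        have h3 : Nat.card Q = 1 + ∑ χ ∈ E, m χ ^ 2 := hr2
        omega
      have hE'card2 : E'.card = ∑ χ ∈ E, m χ ^ 2 := by omega
      -- divisibility
      have hdvd : ∀ q ∈ E', f ∣ d q := by
        intro q hq
        obtain ⟨b, rfl⟩ := Quotient.exists_rep q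
        have hb : b ≠ a := by
          rintro rfl
          exact (Finset.ne_of_mem_erase hq) rfl
        have := Cfsg.Agent.S0715.result f (fun χ hχ hne h0 => ⟨1, by rw [hf χ hχ hne h0]; simp⟩) a b hb
        have h2 := hd b
        show f ∣ d (Quotient.mk'' b)
        rw [h2]
        exact this
      have hdpos : ∀ q : Q, 0 < d q := by
        intro q
        obtain ⟨b, rfl⟩ := Quotient.exists_rep q
        apply Finset.card_pos.mpr
        exact ⟨b, by simp⟩
      have hM : ∑ χ ∈ E, m χ ≤ ∑ χ ∈ E, m χ ^ 2 := by
        refine Finset.sum_le_sum fun χ _ => ?_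
        exact Nat.le_self_pow (by norm_num) _
      by_cases hf0 : f = 0
      · subst hf0
        have hzero : ∀ χ ∈ E, m χ = 0 := by
          intro χ hχ
          by_contra h0
          have hne : (χ : G → ℂ) ≠ fun _ => 1 := fun h => (Finset.ne_of_mem_erase hχ) (Subtype.ext h)
          have h1 := hf χ χ.2 hne (by rw [hm]; exact_mod_cast h0)
          exact Cfsg.Agent.Lib.CharOps.degree_ne_zero χ.2 (by rw [h1]; simp)
        constructor
        · intro χ hχ
          by_cases h1 : (⟨χ, hχ⟩ : IrrCharacter G) = one
          · right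
            have h2 := hm ⟨χ, hχ⟩
            rw [h1, hmone] at h2
            have h3 : χ = (one : G → ℂ) := congrArg Subtype.val h1
            rw [h3]
            simpa using h2
          · left
            have h2 := hm ⟨χ, hχ⟩
            rw [hzero _ (Finset.mem_erase.mpr ⟨h1, Finset.mem_univ _⟩)] at h2
            simpa using h2
        · intro b hb
          exfalso
          have h1 : Fintype.card Ω = 1 := by
            rw [hn2]
            simp
          exact hb (Fintype.card_le_one_iff.mp h1.le b a)
      · have hfpos : 0 < f := Nat.pos_of_ne_zero hf0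
        have hle : ∀ q ∈ E', f ≤ d q := fun q hq => Nat.le_of_dvd (hdpos q) (hdvd q hq)
        have hsumle : E'.card * f ≤ ∑ q ∈ E', d q := by
          have := Finset.card_nsmul_le_sum E' d f hle
          simpa using this
        have hfM : (∑ q ∈ E', d q) = f * ∑ χ ∈ E, m χ := by omega
        have hQM : ∑ χ ∈ E, m χ ^ 2 ≤ ∑ χ ∈ E, m χ := by
          rw [hE'card2, hfM, mul_comm] at hsumle
          exact Nat.le_of_mul_le_mul_left hsumle hfpos
        have hEeq : ∑ χ ∈ E, m χ = ∑ χ ∈ E, m χ ^ 2 := le_antisymm hM hQM
        have hptw := (Finset.sum_eq_sum_iff_of_le (fun χ _ => Nat.le_self_pow (by norm_num) (m χ))).mp hEeq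
        have hdeq : (∑ q ∈ E', f) = ∑ q ∈ E', d q := by
          rw [Finset.sum_const, smul_eq_mul, hE'card2, ← hEeq, hfM, mul_comm]
        have hptw2 := (Finset.sum_eq_sum_iff_of_le hle).mp hdeq
        constructor
        · intro χ hχ
          by_cases h1 : (⟨χ, hχ⟩ : IrrCharacter G) = one
          · right
            have h2 := hm ⟨χ, hχ⟩
            rw [h1, hmone] at h2
            have h3 : χ = (one : G → ℂ) := congrArg Subtype.val h1
            rw [h3]
            simpa using h2
          · have h2 := hptw ⟨χ, hχ⟩ (Finset.mem_erase.mpr ⟨h1, Finset.mem_univ _⟩)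
            have h3 : m ⟨χ, hχ⟩ = 0 ∨ m ⟨χ, hχ⟩ = 1 := by
              by_cases h0 : m ⟨χ, hχ⟩ = 0
              · exact Or.inl h0
              · right
                have h4 : m ⟨χ, hχ⟩ * m ⟨χ, hχ⟩ = m ⟨χ, hχ⟩ * 1 := by
                  rw [mul_one, ← sq]
                  exact h2.symm
                exact Nat.eq_of_mul_eq_mul_left (Nat.pos_of_ne_zero h0) h4
            have h4 := hm ⟨χ, hχ⟩
            rcases h3 with h5 | h5
            · left
              rw [h5] at h4
              simpa using h4
            · right
              rw [h5] at h4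
              simpa using h4
        · intro b hb
          have hb' : (Quotient.mk'' b : Q) ∈ E' := by
            refine Finset.mem_erase.mpr ⟨?_, Finset.mem_univ _⟩
            intro h
            have h2 : b ∈ MulAction.orbit (MulAction.stabilizer G a) a := MulAction.orbitRel_apply.mp (Quotient.exact' h)
            obtain ⟨u, hu⟩ := h2
            exact hb (hu.symm.trans u.2)
          rw [← hd b]
          exact (hptw2 _ hb').symm
    refine ⟨fun f hf => partA f hf, ?_⟩
    intro hr5 χ hχ
    by_contra hcon
    push Not at hcon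
    let χ₀ : IrrCharacter G := ⟨χ, hχ⟩
    have hm0 : m χ₀ ≠ 0 := by
      intro h
      apply hcon.1
      have := hm χ₀
      rw [h] at this
      exact this.trans (by simp)
    have hm1 : m χ₀ ≠ 1 := by
      intro h
      apply hcon.2
      have := hm χ₀
      rw [h] at this
      exact this.trans (by simp)
    have hm2 : 2 ≤ m χ₀ := by omega
    have hne : χ₀ ≠ one := by
      intro h
      apply hm1
      rw [h, hmone]
    have hsq : 4 ≤ m χ₀ ^ 2 := by nlinarith
    rw [hr, ← Finset.add_sum_erase _ _ (Finset.mem_univ one), hmone, ← Finset.add_sum_erase _ _ (Finset.mem_erase.mpr ⟨hne, Finset.mem_univ _⟩)] at hr5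
    have hrest : ∑ χ' ∈ (Finset.univ.erase one).erase χ₀, m χ' ^ 2 = 0 := by omega
    have hothers : ∀ χ' : IrrCharacter G, χ' ≠ one → χ' ≠ χ₀ → m χ' = 0 := by
      intro χ' h1 h2
      have h3 := (Finset.sum_eq_zero_iff.mp hrest) χ' (Finset.mem_erase.mpr ⟨h2, Finset.mem_erase.mpr ⟨h1, Finset.mem_univ _⟩⟩)
      exact pow_eq_zero_iff (by norm_num) |>.mp h3
    obtain ⟨d, hd0, hd⟩ := Cfsg.Agent.Lib.CharOps.exists_degree_pos hχ
    have := (partA d ?_).1 χ hχ
    · rcases this with h | h
      · exact hcon.1 h
      · exact hcon.2 h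
    · intro χ' hχ' hne' h0
      by_cases h1 : (⟨χ', hχ'⟩ : IrrCharacter G) = χ₀
      · have h3 : χ' = χ := congrArg Subtype.val h1
        rw [h3, hd]
      · exfalso
        have h4 := hothers ⟨χ', hχ'⟩ (fun h => hne' (congrArg Subtype.val h)) h1
        have h5 := hm ⟨χ', hχ'⟩
        rw [h4] at h5
        exact h0 (by simpa using h5)

end Cfsg.Agent.S0716
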