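import Cfsg.Statements.S0717
import Cfsg.Agent.Lib.CharPermComm

set_option autoImplicit false
set_option linter.style.haveILetI false
set_option linter.unusedVariables false
open scoped ComplexConjugate
open Cfsg

namespace Cfsg.Agent.S0717

/-- All suborbits of a transitive group are self-paired (every pair of points is interchanged by some group element) if and only if the permutation character is multiplicity-free and each of its irreducible constituents is real-valued. -/
theorem result {G : Type*} [Group G] [Fintype G] {Ω : Type*} [Fintype Ω] [MulAction G Ω] [MulAction.IsPretransitive G Ω] : (∀ a b : Ω, ∃ g : G, g • a = b ∧ g • b = a) ↔ ∀ χ : G → ℂ, Cfsg.IsIrrCharacter G χ → Cfsg.classInner (fun g : G => (Nat.card (MulAction.fixedBy Ω g) : ℂ)) χ ≠ 0 → Cfsg.classInner (fun g : G => (Nat.card (MulAction.fixedBy Ω g) : ℂ)) χ = 1 ∧ ∀ g : G, (starRingEnd ℂ) (χ g) = χ g := by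
  classical
  open Cfsg.Agent.Lib.CharPermComm Cfsg.Agent.Lib.CharCommutant Cfsg.Agent.Lib.CharOps Cfsg.Agent.Lib.CharIrr in
    rw [← Cfsg.Agent.Lib.CharCommutant.character_permRep_eq]
    have hconj : ∀ χ : G → ℂ, classInner (Cfsg.permRep ℂ G Ω).character (fun g => conj (χ g)) = conj (classInner (Cfsg.permRep ℂ G Ω).character χ) := by
      intro χ
      simp only [classInner, map_mul, map_inv₀, Complex.conj_natCast, map_sum, Complex.conj_conj]
      congr 1
      refine Finset.sum_congr rfl fun g _ => ?_
      rw [Cfsg.Agent.Lib.CharCommutant.character_permRep]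
      simp
    constructor
    · intro hswap χ hχ hne
      have hsym : ∀ S ∈ ((Cfsg.permRep ℂ G Ω).linHom (Cfsg.permRep ℂ G Ω)).invariants, ∀ x y, ent S x y = ent S y x := by
        intro S hS x y
        obtain ⟨g, h1, h2⟩ := hswap x y
        rw [← ent_of_invariant hS g x y, h1, h2]
      have hmulmem : ∀ S T : Module.End ℂ (Ω → ℂ), S ∈ ((Cfsg.permRep ℂ G Ω).linHom (Cfsg.permRep ℂ G Ω)).invariants →
          T ∈ ((Cfsg.permRep ℂ G Ω).linHom (Cfsg.permRep ℂ G Ω)).invariants →
          S * T ∈ ((Cfsg.permRep ℂ G Ω).linHom (Cfsg.permRep ℂ G Ω)).invariants := by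
        intro S T hS hT
        rw [mem_invariants_iff] at hS hT ⊢
        intro g
        rw [mul_assoc, hT g, ← mul_assoc, hS g, mul_assoc]
      have hcomm : ∀ S T : Module.End ℂ (Ω → ℂ), S ∈ ((Cfsg.permRep ℂ G Ω).linHom (Cfsg.permRep ℂ G Ω)).invariants →
          T ∈ ((Cfsg.permRep ℂ G Ω).linHom (Cfsg.permRep ℂ G Ω)).invariants → S * T = T * S := by
        intro S T hS hT
        apply ext_ent
        intro x y
        rw [hsym _ (hmulmem S T hS hT), ent_mul, ent_mul]
        refine Finset.sum_congr rfl fun z _ => ?_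
        rw [hsym S hS y z, hsym T hT z x, mul_comm]
      have hone : classInner (Cfsg.permRep ℂ G Ω).character χ = 1 := by
        by_contra h
        obtain ⟨S, T, hS, hT, hne2⟩ := exists_not_commute (Cfsg.permRep ℂ G Ω) hχ hne h
        exact hne2 (hcomm S T hS hT)
      refine ⟨hone, fun g => ?_⟩
      have hχbar : IsIrrCharacter G (fun g => conj (χ g)) := isIrr_conj hχ
      have hp : proj (Cfsg.permRep ℂ G Ω) (fun g => conj (χ g)) = proj (Cfsg.permRep ℂ G Ω) χ := by
        apply ext_ent
        intro x y
        rw [← ent_proj_swap hχ x y]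
        exact hsym _ (proj_mem_invariants _ hχ) y x
      have htr := trace_proj_mul (Cfsg.permRep ℂ G Ω) hχ g
      have htr2 := trace_proj_mul (Cfsg.permRep ℂ G Ω) hχbar g
      rw [hp, htr, hconj, hone] at htr2
      simpa using htr2.symm
    · intro H a b
      have hfree : ∀ χ : IrrCharacter G, classInner (Cfsg.permRep ℂ G Ω).character (χ : G → ℂ) = 0 ∨
          classInner (Cfsg.permRep ℂ G Ω).character (χ : G → ℂ) = 1 := by
        intro χ
        by_cases h : classInner (Cfsg.permRep ℂ G Ω).character (χ : G → ℂ) = 0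
        · exact Or.inl h
        · exact Or.inr (H χ χ.2 h).1
      have hsym : ∀ S ∈ ((Cfsg.permRep ℂ G Ω).linHom (Cfsg.permRep ℂ G Ω)).invariants, ∀ x y, ent S x y = ent S y x := by
        intro S hS
        have hspan := invariants_le_span (Cfsg.permRep ℂ G Ω) hfree S hS
        refine Submodule.span_induction (p := fun S _ => ∀ x y, ent S x y = ent S y x) ?_ ?_ ?_ ?_ hspan
        · rintro _ ⟨χ, rfl⟩ x y
          have hreal : (fun g => conj ((χ.1 : G → ℂ) g)) = (χ.1 : G → ℂ) := funext (H χ.1 χ.1.2 χ.2).2
          simp only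
          have := ent_proj_swap χ.1.2 x y
          rw [hreal] at this
          exact this.symm
        · intro x y
          rfl
        · intro S T _ _ hS hT x y
          rw [ent_add, ent_add, hS, hT]
        · intro c S _ hS x y
          rw [ent_smul, ent_smul, hS]
      have h1 := hsym _ (orbitalOp_mem (G := G) a b) a b
      rw [ent_orbitalOp, ent_orbitalOp, if_pos ⟨1, by simp, by simp⟩] at h1
      by_contra hcon
      rw [if_neg hcon] at h1
      exact one_ne_zero h1

end Cfsg.Agent.S0717
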