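import Cfsg.Statements.S0718
import Cfsg.Agent.Lib.CharCommutant

set_option autoImplicit false
set_option linter.style.haveILetI false
set_option linter.unusedVariables false
open Cfsg

namespace Cfsg.Agent.S0718

/-- Multiplicity-freeness of the permutation character is equivalent to commutativity of the centraliser ring, i.e. of the algebra of `G`-equivariant endomorphisms of the complex permutation module. -/
theorem result {G : Type*} [Group G] [Fintype G] {Ω : Type*} [Fintype Ω] [MulAction G Ω] : (∀ χ : G → ℂ, Cfsg.IsIrrCharacter G χ → Cfsg.classInner (fun g : G => (Nat.card (MulAction.fixedBy Ω g) : ℂ)) χ = 0 ∨ Cfsg.classInner (fun g : G => (Nat.card (MulAction.fixedBy Ω g) : ℂ)) χ = 1) ↔ ∀ S T : (Ω → ℂ) →ₗ[ℂ] (Ω → ℂ), S ∈ ((Cfsg.permRep ℂ G Ω).linHom (Cfsg.permRep ℂ G Ω)).invariants → T ∈ ((Cfsg.permRep ℂ G Ω).linHom (Cfsg.permRep ℂ G Ω)).invariants → S ∘ₗ T = T ∘ₗ S := by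
  classical
  rw [← Cfsg.Agent.Lib.CharCommutant.character_permRep_eq]
  constructor
  · intro h S T hS hT
    have h1 : ∀ χ : Cfsg.IrrCharacter G, Cfsg.classInner (Cfsg.permRep ℂ G Ω).character (χ : G → ℂ) = 0 ∨ Cfsg.classInner (Cfsg.permRep ℂ G Ω).character (χ : G → ℂ) = 1 := fun χ => h χ χ.2
    have h2 := Cfsg.Agent.Lib.CharCommutant.commute_of_free (Cfsg.permRep ℂ G Ω) h1 S T hS hT
    exact h2
  · intro h χ hχ
    by_contra hne
    push Not at hne
    obtain ⟨S, T, hS, hT, hne2⟩ := Cfsg.Agent.Lib.CharCommutant.exists_not_commute (Cfsg.permRep ℂ G Ω) hχ hne.1 hne.2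
    exact hne2 (h S T hS hT)

end Cfsg.Agent.S0718
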