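import Cfsg.Statements.S0722
import Mathlib

set_option autoImplicit false
open Cfsg

namespace Cfsg.Agent.S0722

/-- In a primitive group `H`, with `N` a minimal normal subgroup and `K` a point stabiliser, `K ⊓ N` is maximal among proper `K`-invariant subgroups of `N`. -/
theorem result {α : Type*} [Finite α] (H : Subgroup (Equiv.Perm α)) [MulAction.IsPreprimitive H α] (N : Subgroup H) [N.Normal] (hN : N ≠ ⊥) (hmin : ∀ M : Subgroup H, M.Normal → M ≤ N → M = ⊥ ∨ M = N) (a : α) (X : Subgroup H) (hX : X ≤ N) (hKX : MulAction.stabilizer H a ⊓ N ≤ X) (hinv : MulAction.stabilizer H a ≤ Subgroup.normalizer (X : Set H)) : X = MulAction.stabilizer H a ⊓ N ∨ X = N := by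
  classical
  by_cases hsub : Subsingleton α
  · exfalso
    apply hN
    rw [eq_bot_iff]
    intro x _
    rw [Subgroup.mem_bot]
    apply Subtype.ext
    ext y
    exact Subsingleton.elim _ _
  haveI : Nontrivial α := not_subsingleton_iff_nontrivial.1 hsub
  have hcoat : IsCoatom (MulAction.stabilizer H a) :=
    (MulAction.isCoatom_stabilizer_iff_preprimitive (G := H) (X := α) a).2 inferInstance
  have hdich : MulAction.stabilizer H a ⊔ X = MulAction.stabilizer H a ∨ MulAction.stabilizer H a ⊔ X = ⊤ := by
    by_cases hle : X ≤ MulAction.stabilizer H a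
    · left
      exact sup_eq_left.2 hle
    · right
      apply hcoat.2
      exact lt_of_le_of_ne le_sup_left (fun h => hle (by rw [h]; exact le_sup_right))
  rcases hdich with h | h
  · left
    apply le_antisymm
    · exact le_inf (sup_eq_left.1 h) hX
    · exact hKX
  · have hnorm : X.Normal := by
      rw [← Subgroup.normalizer_eq_top_iff]
      rw [eq_top_iff, ← h]
      exact sup_le hinv Subgroup.le_normalizer
    rcases hmin X hnorm hX with h1 | h1
    · left
      apply le_antisymm
      · rw [h1]; exact bot_le
      · exact hKX
    · right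
      exact h1

end Cfsg.Agent.S0722
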