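import Cfsg.Statements.S0724
import Mathlib

set_option autoImplicit false
open Cfsg

namespace Cfsg.Agent.S0724

theorem dvd_sum_pow {α : Type*} [Fintype α] [DecidableEq α] (G : Subgroup (Equiv.Perm α)) [Fintype G] (k : ℕ) :
    ((Nat.card G : ℕ) : ℤ) ∣ ∑ g : G, (Nat.card (MulAction.fixedBy α (g : G)) : ℤ) ^ k := by
  classical
  have hb := MulAction.sum_card_fixedBy_eq_card_orbits_mul_card_group G (Fin k → α)
  have hf : ∀ g : G, Fintype.card (MulAction.fixedBy (Fin k → α) g) = Nat.card (MulAction.fixedBy α g) ^ k := by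
    intro g
    let e : MulAction.fixedBy (Fin k → α) g ≃ (Fin k → MulAction.fixedBy α g) :=
      { toFun := fun f i => ⟨f.1 i, congrFun f.2 i⟩
        invFun := fun f => ⟨fun i => (f i).1, funext fun i => (f i).2⟩
        left_inv := fun f => rfl
        right_inv := fun f => rfl }
    rw [← Nat.card_eq_fintype_card, Nat.card_congr e, Nat.card_fun]
    simp
  have h2 : ∑ g : G, (Nat.card (MulAction.fixedBy α (g : G))) ^ k = Fintype.card (MulAction.orbitRel.Quotient G (Fin k → α)) * Nat.card G := by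
    rw [Nat.card_eq_fintype_card (α := G), ← hb]
    exact Finset.sum_congr rfl (fun g _ => (hf g).symm)
  have h3 : ∑ g : G, (Nat.card (MulAction.fixedBy α (g : G)) : ℤ) ^ k = ((∑ g : G, (Nat.card (MulAction.fixedBy α (g : G))) ^ k : ℕ) : ℤ) := by
    push_cast
    rfl
  rw [h3, h2]
  push_cast
  exact dvd_mul_left _ _

theorem dvd_sum_poly {α : Type*} [Fintype α] [DecidableEq α] (G : Subgroup (Equiv.Perm α)) [Fintype G] (q : Polynomial ℤ) :
    ((Nat.card G : ℕ) : ℤ) ∣ ∑ g : G, q.eval (Nat.card (MulAction.fixedBy α (g : G)) : ℤ) := by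
  simp_rw [Polynomial.eval_eq_sum_range]
  rw [Finset.sum_comm]
  apply Finset.dvd_sum
  intro i _
  rw [← Finset.mul_sum]
  exact Dvd.dvd.mul_left (dvd_sum_pow G i) _

/-- Blichfeldt's Theorem: if a finite set `L` of natural numbers contains the number of fixed points of every non-identity element of a permutation group `G` of degree `n`, then the order of `G` divides `∏ (n - l)` over `l ∈ L`. -/
theorem result {α : Type*} [Fintype α] [DecidableEq α] (G : Subgroup (Equiv.Perm α)) (L : Finset ℕ) (hL : ∀ g ∈ G, g ≠ 1 → Nat.card (MulAction.fixedBy α g) ∈ L) : Nat.card G ∣ ∏ l ∈ L, (Fintype.card α - l) := by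
  classical
  haveI : Fintype G := Fintype.ofFinite _
  let q : Polynomial ℤ := ∏ l ∈ L, (Polynomial.X - Polynomial.C (l : ℤ))
  have hq := dvd_sum_poly G q
  have hz : ∀ g : G, g ≠ 1 → q.eval (Nat.card (MulAction.fixedBy α (g : G)) : ℤ) = 0 := by
    intro g hg
    have h1 : Nat.card (MulAction.fixedBy α (g : Equiv.Perm α)) ∈ L :=
      hL g g.2 (fun h => hg (Subtype.ext h))
    have h2 : Nat.card (MulAction.fixedBy α (g : G)) = Nat.card (MulAction.fixedBy α (g : Equiv.Perm α)) := rfl
    rw [h2]
    simp only [q, Polynomial.eval_prod]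
    apply Finset.prod_eq_zero h1
    simp
  rw [Finset.sum_eq_single (1 : G) (fun g _ hg => hz g hg) (by simp)] at hq
  have hfix1 : Nat.card (MulAction.fixedBy α (1 : G)) = Fintype.card α := by
    have : MulAction.fixedBy α (1 : G) = Set.univ := by
      ext x
      simp
    rw [this, Nat.card_eq_fintype_card]
    simp
  rw [hfix1] at hq
  simp only [q, Polynomial.eval_prod, Polynomial.eval_sub, Polynomial.eval_X, Polynomial.eval_C] at hq
  by_cases hle : ∃ l ∈ L, Fintype.card α ≤ l
  · obtain ⟨l, hl, hl2⟩ := hle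
    have : ∏ l ∈ L, (Fintype.card α - l) = 0 := Finset.prod_eq_zero hl (by omega)
    rw [this]
    exact dvd_zero _
  · push Not at hle
    have h3 : ((∏ l ∈ L, (Fintype.card α - l) : ℕ) : ℤ) = ∏ l ∈ L, ((Fintype.card α : ℤ) - (l : ℤ)) := by
      rw [Nat.cast_prod]
      apply Finset.prod_congr rfl
      intro l hl
      rw [Nat.cast_sub (hle l hl).le]
    rw [← h3] at hq
    exact Int.natCast_dvd_natCast.1 hq

end Cfsg.Agent.S0724
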