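import Cfsg.Statements.S0726

set_option autoImplicit false
open Cfsg

namespace Cfsg.Agent.S0726

/-- The left and right regular permutation representations of a group are each other's centralisers in the symmetric group: the centraliser of the left regular image is the right regular image, and a transitive subgroup centralising the left regular image is the whole right regular image. -/
theorem result {G : Type*} [Group G] : Subgroup.centralizer ((MulAction.toPermHom G G).range : Set (Equiv.Perm G)) = (MulAction.toPermHom Gᵐᵒᵖ G).range ∧ ∀ H : Subgroup (Equiv.Perm G), H ≤ Subgroup.centralizer ((MulAction.toPermHom G G).range : Set (Equiv.Perm G)) → MulAction.IsPretransitive H G → H = (MulAction.toPermHom Gᵐᵒᵖ G).range := by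
  have hfor : ∀ c ∈ Subgroup.centralizer ((MulAction.toPermHom G G).range : Set (Equiv.Perm G)), ∀ x : G, c x = x * c 1 := by
    intro c hc x
    have h1 := Subgroup.mem_centralizer_iff.1 hc (MulAction.toPermHom G G x) ⟨x, rfl⟩
    have h2 := congrArg (fun p : Equiv.Perm G => p 1) h1
    simp only [Equiv.Perm.coe_mul, Function.comp_apply] at h2
    have h3 : (MulAction.toPermHom G G x) (c 1) = x * c 1 := rfl
    have h4 : (MulAction.toPermHom G G x) 1 = x := by
      show x • (1 : G) = x
      simp
    rw [h3, h4] at h2
    exact h2.symm
  have hright : ∀ c ∈ Subgroup.centralizer ((MulAction.toPermHom G G).range : Set (Equiv.Perm G)),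
      c = MulAction.toPermHom Gᵐᵒᵖ G (MulOpposite.op (c 1)) := by
    intro c hc
    ext x
    rw [hfor c hc x]
    rfl
  have h1 : Subgroup.centralizer ((MulAction.toPermHom G G).range : Set (Equiv.Perm G)) = (MulAction.toPermHom Gᵐᵒᵖ G).range := by
    apply le_antisymm
    · intro c hc
      exact ⟨MulOpposite.op (c 1), (hright c hc).symm⟩
    · rintro _ ⟨t, rfl⟩
      rw [Subgroup.mem_centralizer_iff]
      rintro _ ⟨g, rfl⟩
      ext x
      show g * (x * t.unop) = (g * x) * t.unop
      rw [mul_assoc]
  refine ⟨h1, ?_⟩
  intro H hH ht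
  apply le_antisymm
  · rw [← h1]
    exact hH
  · rintro _ ⟨t, rfl⟩
    obtain ⟨h, hh⟩ := MulAction.exists_smul_eq H (1 : G) t.unop
    have h2 : (h : Equiv.Perm G) 1 = t.unop := hh
    have h3 := hright h (hH h.2)
    have h4 : (h : Equiv.Perm G) = MulAction.toPermHom Gᵐᵒᵖ G t := by
      rw [h3, h2]
      rfl
    rw [← h4]
    exact h.2

end Cfsg.Agent.S0726
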