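import Cfsg.Statements.S0728
import Mathlib
import Cfsg.Agent.S0034
import Cfsg.Agent.S0035
import Cfsg.Agent.S0039
import Cfsg.Agent.S0042

set_option autoImplicit false
open Cfsg

namespace Cfsg.Agent.S0728

open scoped Pointwise

section Generic

theorem nine {C : Type*} [CommGroup C] (a00 a01 a02 a10 a11 a12 a20 a21 a22 : C)
    (h1 : a00 * a10 * a20 = 1) (h2 : a01 * a11 * a21 = 1) (h3 : a02 * a12 * a22 = 1)
    (h4 : a00 * a01 * a02 = 1) (h5 : a00 * a11 * a22 = 1) (h6 : a00 * a12 * a21 = 1) : a00 * a00 * a00 = 1 := by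
  have e : (a00 * a00 * a00) * ((a00 * a10 * a20) * (a01 * a11 * a21) * (a02 * a12 * a22)) =
      (a00 * a01 * a02) * (a00 * a10 * a20) * (a00 * a11 * a22) * (a00 * a12 * a21) := by
    simp only [mul_comm, mul_left_comm, mul_assoc]
  rw [h1, h2, h3, h4, h5, h6] at e
  simpa using e

theorem no_e9 {L : Type*} [Group L] [Finite L] (H : Subgroup L) (hH : Cfsg.IsFrobeniusComplement H)
    (x y : L) (hx : x ∈ H) (hy : y ∈ H) (hx3 : x ^ 3 = 1) (hy3 : y ^ 3 = 1) (hxy : x * y = y * x)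
    (hx1 : x ≠ 1) (hne : ∀ i j : ℕ, j % 3 ≠ 0 → x ^ i * y ^ j ≠ 1) : False := by
  classical
  obtain ⟨N, hNs, hNn, hNnil⟩ := Cfsg.Agent.S0042.result H hH
  obtain ⟨N₀, hN₀s, hN₀n, hcomp⟩ := Cfsg.Agent.S0035.result H hH
  have hNN₀ : N = N₀ := by
    apply SetLike.coe_injective
    rw [hNs, hN₀s]
  subst hNN₀
  have hcard := Cfsg.Agent.S0034.result H hH
  have hNcard : Nat.card N = H.index := by
    rw [← hcard.1, ← hNs]
    rfl
  have hHbot : H ≠ ⊥ := hH.1
  have hNbot : N ≠ ⊥ := by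
    rintro rfl
    apply hH.2.1
    rw [Subgroup.card_bot] at hNcard
    exact Subgroup.index_eq_one.1 hNcard.symm
  have hfpf := (Cfsg.Agent.S0039.result N H hcomp hNbot hHbot).1 hH
  -- `3` does not divide the order of `N`
  have h3H : 3 ∣ Nat.card H := by
    have h1 : orderOf x = 3 := orderOf_eq_prime hx3 hx1
    rw [← h1]
    exact Subgroup.orderOf_dvd_natCard H hx
  have h3N : ¬ 3 ∣ Nat.card N := by
    intro h
    have h1 := hcard.2
    rw [← hNcard] at h1
    have h2 : Nat.card N % 3 = 1 % 3 := by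
      have := congrArg (· % 3) h1
      simp only [Nat.mod_mod_of_dvd _ h3H] at this
      exact this
    omega
  -- the centre
  haveI : Nontrivial N := Subgroup.nontrivial_iff_ne_bot _ |>.2 hNbot
  haveI := hNnil
  have hcN : Subgroup.center N ≠ ⊥ := Group.IsNilpotent.center_ne_bot N
  haveI : Nontrivial (Subgroup.center N) := (Subgroup.nontrivial_iff_ne_bot _).2 hcN
  obtain ⟨w₀, hw₀⟩ := exists_ne (1 : Subgroup.center N)
  let Z : Subgroup L := N ⊓ Subgroup.centralizer (N : Set L)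
  have hZn : Z.Normal := Subgroup.normal_inf_normal _ _
  have hZc : ∀ u ∈ Z, ∀ v ∈ Z, u * v = v * u := fun u hu v hv =>
    (Subgroup.mem_centralizer_iff.1 hu.2 v hv.1).symm
  let w : L := ((w₀ : N) : L)
  have hwZ : w ∈ Z := by
    refine ⟨(w₀ : N).2, Subgroup.mem_centralizer_iff.2 ?_⟩
    intro n hn
    have := Subgroup.mem_center_iff.1 w₀.2 ⟨n, hn⟩
    exact congrArg Subtype.val this
  have hw1 : w ≠ 1 := by
    intro h
    apply hw₀
    apply Subtype.ext
    apply Subtype.ext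
    exact h
  -- the norm relation
  have hnorm : ∀ g ∈ H, g ≠ 1 → g ^ 3 = 1 → ∀ u ∈ Z, u * (g * u * g⁻¹) * (g ^ 2 * u * (g ^ 2)⁻¹) = 1 := by
    intro g hg hg1 hg3 u hu
    have hu1 : g * u * g⁻¹ ∈ Z := hZn.conj_mem u hu g
    have hu2 : g ^ 2 * u * (g ^ 2)⁻¹ ∈ Z := hZn.conj_mem u hu _
    set P := u * (g * u * g⁻¹) * (g ^ 2 * u * (g ^ 2)⁻¹) with hP
    have hPN : P ∈ N := N.mul_mem (N.mul_mem hu.1 hu1.1) hu2.1
    have hfix : P ∈ Subgroup.centralizer ({g} : Set L) := by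
      rw [Subgroup.mem_centralizer_iff]
      intro g' hg'
      rw [Set.mem_singleton_iff] at hg'
      rw [hg']
      have e3 : g * (g ^ 2 * u * (g ^ 2)⁻¹) * g⁻¹ = u := by
        have : g * (g ^ 2 * u * (g ^ 2)⁻¹) * g⁻¹ = g ^ 3 * u * (g ^ 3)⁻¹ := by group
        rw [this, hg3]
        group
      have e2 : g * (g * u * g⁻¹) * g⁻¹ = g ^ 2 * u * (g ^ 2)⁻¹ := by
        rw [pow_two]; group
      have e4 : g * P * g⁻¹ = (g * u * g⁻¹) * (g ^ 2 * u * (g ^ 2)⁻¹) * u := by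
        calc g * P * g⁻¹ = (g * u * g⁻¹) * (g * (g * u * g⁻¹) * g⁻¹) * (g * (g ^ 2 * u * (g ^ 2)⁻¹) * g⁻¹) := by
              rw [hP]; group
          _ = _ := by rw [e2, e3]
      have e5 : (g * u * g⁻¹) * (g ^ 2 * u * (g ^ 2)⁻¹) * u = P := by
        rw [hP, hZc _ (Z.mul_mem hu1 hu2) u hu]; simp only [mul_assoc]
      calc g * P = g * P * g⁻¹ * g := by group
        _ = P * g := by rw [e4, e5]
    have h0 : P ∈ N ⊓ Subgroup.centralizer ({g} : Set L) := ⟨hPN, hfix⟩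
    rw [hfpf g hg hg1, Subgroup.mem_bot] at h0
    exact h0
  -- the nine elements
  letI : CommGroup Z := { (inferInstance : Group Z) with
    mul_comm := fun a b => Subtype.ext (hZc a a.2 b b.2) }
  let cj : L → Z := fun g => ⟨g * w * g⁻¹, hZn.conj_mem w hwZ g⟩
  have hrel : ∀ (b g : L), g ∈ H → g ≠ 1 → g ^ 3 = 1 → cj b * cj (g * b) * cj (g ^ 2 * b) = 1 := by
    intro b g hg hg1 hg3
    apply Subtype.ext
    have h1 := hnorm g hg hg1 hg3 _ (hZn.conj_mem w hwZ b)
    show (b * w * b⁻¹) * ((g * b) * w * (g * b)⁻¹) * ((g ^ 2 * b) * w * (g ^ 2 * b)⁻¹) = 1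
    rw [← h1]
    group
  have hy1 : y ≠ 1 := by
    intro h
    apply hne 0 1 (by norm_num)
    rw [h]; simp
  have hcube : ∀ i j : ℕ, (x ^ i * y ^ j) ^ 3 = 1 := by
    intro i j
    have hc : Commute (x ^ i) (y ^ j) := (Commute.pow_pow hxy i j)
    rw [hc.mul_pow, ← pow_mul, ← pow_mul, mul_comm i, mul_comm j, pow_mul, pow_mul, hx3, hy3]
    simp
  have hcomm1 : x * y = y * x := hxy
  have hxyH : ∀ i j : ℕ, x ^ i * y ^ j ∈ H := fun i j => H.mul_mem (H.pow_mem hx i) (H.pow_mem hy j)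
  have r1 := hrel 1 x hx hx1 hx3
  have r2 := hrel y x hx hx1 hx3
  have r3 := hrel (y ^ 2) x hx hx1 hx3
  have r4 := hrel 1 y hy hy1 hy3
  have r5 := hrel 1 (x ^ 1 * y ^ 1) (hxyH 1 1) (hne 1 1 (by norm_num)) (hcube 1 1)
  have r6 := hrel 1 (x ^ 1 * y ^ 2) (hxyH 1 2) (hne 1 2 (by norm_num)) (hcube 1 2)
  have e1 : (x ^ 1 * y ^ 1) * 1 = x * y := by simp
  have e2 : (x ^ 1 * y ^ 1) ^ 2 * 1 = x ^ 2 * y ^ 2 := by
    rw [mul_one, pow_one, pow_one, (show Commute x y from hxy).mul_pow]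
  have e3 : (x ^ 1 * y ^ 2) * 1 = x * y ^ 2 := by simp
  have e4 : (x ^ 1 * y ^ 2) ^ 2 * 1 = x ^ 2 * y := by
    rw [mul_one, pow_one, (show Commute x (y ^ 2) from Commute.pow_right hxy 2).mul_pow, ← pow_mul]
    have : y ^ (2 * 2) = y := by
      rw [show 2 * 2 = 3 + 1 by norm_num, pow_add, hy3]
      simp
    rw [this]
  have e5 : y * 1 = y := mul_one y
  have e6 : y ^ 2 * 1 = y ^ 2 := mul_one _
  rw [e1, e2] at r5
  rw [e3, e4] at r6
  rw [e5, e6] at r4
  have hn := nine (cj 1) (cj y) (cj (y ^ 2)) (cj (x * 1)) (cj (x * y)) (cj (x * y ^ 2)) (cj (x ^ 2 * 1)) (cj (x ^ 2 * y))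
    (cj (x ^ 2 * y ^ 2)) r1 r2 r3 r4 (by simpa using r5) (by simpa using r6)
  have hcw : ((cj 1 : Z) : L) = w := by
    show 1 * w * 1⁻¹ = w
    group
  have hw3 : w ^ 3 = 1 := by
    have h := congrArg Subtype.val hn
    have h' : ((cj 1 : Z) : L) * ((cj 1 : Z) : L) * ((cj 1 : Z) : L) = 1 := h
    rw [hcw] at h'
    rw [pow_succ, pow_two]
    exact h'
  have hord : orderOf w = 3 := orderOf_eq_prime hw3 hw1
  apply h3N
  rw [← hord]
  exact Subgroup.orderOf_dvd_natCard N (w₀ : N).2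

end Generic

section Action

variable {Γ α : Type*} [Group Γ] [MulAction Γ α]

theorem invert
    (F1 : ∀ (g : Γ) (p q r : α), p ≠ q → p ≠ r → q ≠ r → g • p = p → g • q = q → g • r = r → g = 1)
    (F2 : ∀ p q r p' q' r' : α, p ≠ q → p ≠ r → q ≠ r → p' ≠ q' → p' ≠ r' → q' ≠ r' →
      ∃ g : Γ, g • p = p' ∧ g • q = q' ∧ g • r = r')
    (x t : Γ) (a b c : α) (hab : a ≠ b) (hca : c ≠ a) (hcb : c ≠ b) (hx3 : x ^ 3 = 1) (hx1 : x ≠ 1)
    (hxa : x • a = a) (hxb : x • b = b) (hta : t • a = b) (htb : t • b = a) (htc : t • c = c) :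
    t * x * t⁻¹ = x⁻¹ := by
  obtain ⟨c₁, hc₁⟩ : ∃ c₁, x • c = c₁ := ⟨_, rfl⟩
  obtain ⟨c₂, hc₂⟩ : ∃ c₂, x • c₁ = c₂ := ⟨_, rfl⟩
  have hc₃ : x • c₂ = c := by
    rw [← hc₂, ← hc₁, ← mul_smul, ← mul_smul]
    have : x * x * x = x ^ 3 := by rw [pow_succ, pow_two]
    rw [this, hx3, one_smul]
  have h01 : c ≠ c₁ := fun h => hx1 (F1 x a b c hab hca.symm hcb.symm hxa hxb (hc₁.trans h.symm))
  have h12 : c₁ ≠ c₂ := fun h => h01 (smul_left_cancel x (by rw [hc₁, hc₂]; exact h))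
  have h02 : c ≠ c₂ := fun h => h01 (by
    have : x • c = x • c₂ := by rw [← h]
    rw [hc₁, hc₃] at this
    exact this.symm)
  obtain ⟨s, hsc, hs1, hs2⟩ := F2 c c₁ c₂ c c₂ c₁ h01 h02 h12 h02 h01 h12.symm
  have hsc' : s⁻¹ • c = c := by rw [inv_smul_eq_iff]; exact hsc.symm
  have hs1' : s⁻¹ • c₂ = c₁ := by rw [inv_smul_eq_iff]; exact hs1.symm
  have hs2' : s⁻¹ • c₁ = c₂ := by rw [inv_smul_eq_iff]; exact hs2.symm
  have hy : x * (s * x * s⁻¹) = 1 := by
    apply F1 _ c c₁ c₂ h01 h02 h12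
    · simp only [mul_smul]; rw [hsc', hc₁, hs1, hc₃]
    · simp only [mul_smul]; rw [hs2', hc₃, hsc, hc₁]
    · simp only [mul_smul]; rw [hs1', hc₂, hs2, hc₂]
  have hs : s * x * s⁻¹ = x⁻¹ := eq_inv_of_mul_eq_one_right hy
  have hsx : ∀ p : α, x • p = p → x • (s • p) = s • p := by
    intro p hp
    have e : s * x = x⁻¹ * s := by
      rw [← hs]; group
    have : x⁻¹ • (s • p) = s • p := by
      rw [← mul_smul, ← e, mul_smul, hp]
    rw [inv_smul_eq_iff] at this
    exact this.symm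
  have hfix : ∀ p : α, x • p = p → p = a ∨ p = b := by
    intro p hp
    by_contra hne
    push Not at hne
    exact hx1 (F1 x a b p hab hne.1.symm hne.2.symm hxa hxb hp)
  have hsa := hfix _ (hsx a hxa)
  have hsb := hfix _ (hsx b hxb)
  have hst : s = t := by
    rcases hsa with hsa | hsa
    · exfalso
      have hsb' : s • b = b := by
        rcases hsb with h | h
        · exact absurd (smul_left_cancel s (h.trans hsa.symm)) hab.symm
        · exact h
      have := F1 s a b c hab hca.symm hcb.symm hsa hsb' hsc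
      rw [this, one_smul] at hs1
      exact h12 hs1
    · have hsb' : s • b = a := by
        rcases hsb with h | h
        · exact h
        · exact absurd (smul_left_cancel s (hsa.trans h.symm)) hab
      have h1 : t⁻¹ * s = 1 := by
        apply F1 _ a b c hab hca.symm hcb.symm
        · rw [mul_smul, hsa, inv_smul_eq_iff]; exact hta.symm
        · rw [mul_smul, hsb', inv_smul_eq_iff]; exact htb.symm
        · rw [mul_smul, hsc, inv_smul_eq_iff]; exact htc.symm
      exact (inv_mul_eq_one.1 h1).symm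
  rw [← hst]; exact hs

theorem comm3
    (F1 : ∀ (g : Γ) (p q r : α), p ≠ q → p ≠ r → q ≠ r → g • p = p → g • q = q → g • r = r → g = 1)
    (F2 : ∀ p q r p' q' r' : α, p ≠ q → p ≠ r → q ≠ r → p' ≠ q' → p' ≠ r' → q' ≠ r' →
      ∃ g : Γ, g • p = p' ∧ g • q = q' ∧ g • r = r')
    (x y t : Γ) (a b c : α) (hab : a ≠ b) (hca : c ≠ a) (hcb : c ≠ b) (hx3 : x ^ 3 = 1) (hx1 : x ≠ 1)
    (hy3 : y ^ 3 = 1) (hy1 : y ≠ 1)
    (hxa : x • a = a) (hxb : x • b = b) (hya : y • a = a) (hyb : y • b = b)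
    (hta : t • a = b) (htb : t • b = a) (htc : t • c = c) : x * y = y * x := by
  have h2 := invert F1 F2 x t a b c hab hca hcb hx3 hx1 hxa hxb hta htb htc
  have h3 := invert F1 F2 y t a b c hab hca hcb hy3 hy1 hya hyb hta htb htc
  have hya' : y⁻¹ • a = a := by rw [inv_smul_eq_iff]; exact hya.symm
  have hyb' : y⁻¹ • b = b := by rw [inv_smul_eq_iff]; exact hyb.symm
  have hca' : y⁻¹ • c ≠ a := fun h => hca (by
    rw [inv_smul_eq_iff] at h; rw [h, hya])
  have hcb' : y⁻¹ • c ≠ b := fun h => hcb (by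
    rw [inv_smul_eq_iff] at h; rw [h, hyb])
  have h1 := invert F1 F2 x (y⁻¹ * t * y) a b (y⁻¹ • c) hab hca' hcb' hx3 hx1 hxa hxb
    (by simp only [mul_smul]; rw [hya, hta, hyb']) (by simp only [mul_smul]; rw [hyb, htb, hya'])
    (by simp only [mul_smul]; rw [smul_inv_smul, htc])
  have hyy : y⁻¹ * y⁻¹ = y := by
    have : y * y * y = 1 := by rw [← hy3, pow_succ, pow_two]
    have h4 : y⁻¹ = y * y := (inv_eq_of_mul_eq_one_right (by rw [← mul_assoc]; exact this))
    rw [h4]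
    calc y * y * (y * y) = (y * y * y) * y := by group
      _ = y := by rw [this, one_mul]
  have ht' : y⁻¹ * t * y = y * t := by
    have e : t * y = y⁻¹ * t := by rw [← h3]; group
    rw [mul_assoc, e, ← mul_assoc, hyy]
  rw [ht'] at h1
  have h5 : y * x⁻¹ * y⁻¹ = x⁻¹ := by
    have : (y * t) * x * (y * t)⁻¹ = y * (t * x * t⁻¹) * y⁻¹ := by group
    rw [this, h2] at h1
    exact h1
  have h6 : Commute y x⁻¹ := by
    show y * x⁻¹ = x⁻¹ * y
    calc y * x⁻¹ = (y * x⁻¹ * y⁻¹) * y := by group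
      _ = x⁻¹ * y := by rw [h5]
  exact (Commute.inv_right_iff.1 h6).eq.symm

theorem frob_stab
    (F1 : ∀ (g : Γ) (p q r : α), p ≠ q → p ≠ r → q ≠ r → g • p = p → g • q = q → g • r = r → g = 1)
    (F2 : ∀ p q r p' q' r' : α, p ≠ q → p ≠ r → q ≠ r → p' ≠ q' → p' ≠ r' → q' ≠ r' →
      ∃ g : Γ, g • p = p' ∧ g • q = q' ∧ g • r = r')
    (a b c₀ : α) (hab : a ≠ b) (hca : c₀ ≠ a) (hcb : c₀ ≠ b) (x : Γ)
    (hxL : x ∈ MulAction.stabilizer Γ a) (hxb : x • b = b) (hx1 : x ≠ 1) :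
    Cfsg.IsFrobeniusComplement
      ((MulAction.stabilizer Γ b).subgroupOf (MulAction.stabilizer Γ a)) := by
  refine ⟨?_, ?_, ?_⟩
  · intro h
    have : (⟨x, hxL⟩ : MulAction.stabilizer Γ a) ∈
        ((MulAction.stabilizer Γ b).subgroupOf (MulAction.stabilizer Γ a)) := by
      rw [Subgroup.mem_subgroupOf]; exact hxb
    rw [h, Subgroup.mem_bot] at this
    exact hx1 (congrArg Subtype.val this)
  · intro h
    obtain ⟨g, hg1, hg2, _⟩ := F2 a b c₀ a c₀ b hab (Ne.symm hca) (Ne.symm hcb) (Ne.symm hca) hab hcb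
    have : (⟨g, hg1⟩ : MulAction.stabilizer Γ a) ∈
        ((MulAction.stabilizer Γ b).subgroupOf (MulAction.stabilizer Γ a)) := by rw [h]; trivial
    rw [Subgroup.mem_subgroupOf] at this
    have h2 : g • b = b := this
    rw [hg2] at h2
    exact hcb h2
  · intro g hg
    rw [eq_bot_iff]
    rintro h ⟨hh1, hh2⟩
    rw [Subgroup.mem_bot]
    change h ∈ MulAut.conj g • ((MulAction.stabilizer Γ b).subgroupOf (MulAction.stabilizer Γ a)) at hh2
    rw [Subgroup.mem_pointwise_smul_iff_inv_smul_mem] at hh2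
    change h ∈ (MulAction.stabilizer Γ b).subgroupOf (MulAction.stabilizer Γ a) at hh1
    rw [Subgroup.mem_subgroupOf] at hh1 hh2
    have hb : (h : Γ) • b = b := hh1
    have hgb : ((g : Γ)) • b ≠ b := fun e => hg (by
      rw [Subgroup.mem_subgroupOf]; exact e)
    have hga : (g : Γ) • a = a := g.2
    have hha : (h : Γ) • a = a := h.2
    have e0 : (MulAut.conj g)⁻¹ • h = g⁻¹ * h * g := by
      rw [MulAut.smul_def, MulAut.conj_inv_apply]
    rw [e0] at hh2
    have h1 : ((g : Γ)⁻¹ * (h : Γ) * (g : Γ)) • b = b := MulAction.mem_stabilizer_iff.1 hh2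
    have h2 : (h : Γ) • ((g : Γ) • b) = (g : Γ) • b := by
      simp only [mul_smul] at h1
      rw [inv_smul_eq_iff] at h1
      exact h1
    have hagb : a ≠ (g : Γ) • b := fun e => hab (by
      have : (g : Γ) • a = (g : Γ) • b := by rw [hga]; exact e
      exact smul_left_cancel _ this)
    have := F1 (h : Γ) a b ((g : Γ) • b) hab hagb (Ne.symm hgb) hha hb h2
    exact Subtype.ext this

end Action

/-- In a sharply triply transitive group of even degree at least 6 (degree `q + 1`, `q` odd), a two-point stabiliser has at most one subgroup of order 3. -/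
theorem result {α : Type*} [Fintype α] [DecidableEq α] (heven : Even (Fintype.card α)) (h6 : 6 ≤ Fintype.card α) (G : Subgroup (Equiv.Perm α)) (h3 : MulAction.IsMultiplyPretransitive G α 3) (hsharp : ∀ x : Fin 3 ↪ α, MulAction.stabilizer G x = ⊥) {a b : α} (hab : a ≠ b) (A B : Subgroup G) (hA : A ≤ MulAction.stabilizer G a ⊓ MulAction.stabilizer G b) (hB : B ≤ MulAction.stabilizer G a ⊓ MulAction.stabilizer G b) (hA3 : Nat.card A = 3) (hB3 : Nat.card B = 3) : A = B := by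
  classical
  by_contra hne
  haveI := h3
  haveI : Finite G := inferInstance
  have F1 : ∀ (g : G) (p q r : α), p ≠ q → p ≠ r → q ≠ r → g • p = p → g • q = q → g • r = r → g = 1 := by
    intro g p q r hpq hpr hqr hp hq hr
    let e : Fin 3 ↪ α := ⟨![p, q, r], by
      intro i j hij
      fin_cases i <;> fin_cases j <;> simp_all⟩
    have hmem : g ∈ MulAction.stabilizer G e := by
      rw [MulAction.mem_stabilizer_iff]
      ext i
      show g • e i = e i
      fin_cases i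
      · exact hp
      · exact hq
      · exact hr
    rw [hsharp e] at hmem
    simpa using hmem
  have F2 : ∀ p q r p' q' r' : α, p ≠ q → p ≠ r → q ≠ r → p' ≠ q' → p' ≠ r' → q' ≠ r' →
      ∃ g : G, g • p = p' ∧ g • q = q' ∧ g • r = r' := by
    intro p q r p' q' r' hpq hpr hqr hpq' hpr' hqr'
    let e : Fin 3 ↪ α := ⟨![p, q, r], by
      intro i j hij
      fin_cases i <;> fin_cases j <;> simp_all⟩
    let e' : Fin 3 ↪ α := ⟨![p', q', r'], by
      intro i j hij
      fin_cases i <;> fin_cases j <;> simp_all⟩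
    obtain ⟨g, hg⟩ := MulAction.exists_smul_eq G e e'
    refine ⟨g, ?_, ?_, ?_⟩
    · exact DFunLike.congr_fun hg 0
    · exact DFunLike.congr_fun hg 1
    · exact DFunLike.congr_fun hg 2
  obtain ⟨c₀, hc₀⟩ : ∃ c : α, c ∉ ({a, b} : Finset α) := by
    by_contra h
    push Not at h
    have h1 : (Finset.univ : Finset α).card ≤ ({a, b} : Finset α).card :=
      Finset.card_le_card (fun z _ => h z)
    have h2 : ({a, b} : Finset α).card ≤ 2 := Finset.card_le_two
    rw [Finset.card_univ] at h1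
    omega
  simp only [Finset.mem_insert, Finset.mem_singleton, not_or] at hc₀
  obtain ⟨hca, hcb⟩ := hc₀
  obtain ⟨t, hta, htb, htc⟩ := F2 a b c₀ b a c₀ hab (Ne.symm hca) (Ne.symm hcb) hab.symm
    (Ne.symm hcb) (Ne.symm hca)
  -- elements
  obtain ⟨y, hyB, hyA⟩ : ∃ y ∈ B, y ∉ A := by
    by_contra h
    push Not at h
    exact hne (Subgroup.eq_of_le_of_card_ge h (by rw [hA3, hB3])).symm
  haveI : Nontrivial A := Finite.one_lt_card_iff_nontrivial.1 (by rw [hA3]; norm_num)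
  obtain ⟨x₀, hx₀⟩ := exists_ne (1 : A)
  obtain ⟨x, hxA⟩ := x₀
  have hx1 : x ≠ 1 := fun h => hx₀ (Subtype.ext h)
  have hy1 : y ≠ 1 := fun h => hyA (h ▸ A.one_mem)
  have hx3 : x ^ 3 = 1 := by
    have := pow_card_eq_one' (x := (⟨x, hxA⟩ : A))
    rw [hA3] at this
    exact congrArg Subtype.val this
  have hy3 : y ^ 3 = 1 := by
    have := pow_card_eq_one' (x := (⟨y, hyB⟩ : B))
    rw [hB3] at this
    exact congrArg Subtype.val this
  have hxa : x • a = a := (hA hxA).1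
  have hxb : x • b = b := (hA hxA).2
  have hya : y • a = a := (hB hyB).1
  have hyb : y • b = b := (hB hyB).2
  have hcomm := comm3 F1 F2 x y t a b c₀ hab hca hcb hx3 hx1 hy3 hy1 hxa hxb hya hyb hta htb htc
  have hne' : ∀ i j : ℕ, j % 3 ≠ 0 → x ^ i * y ^ j ≠ 1 := by
    intro i j hj h
    have h1 : y ^ j = (x ^ i)⁻¹ := eq_inv_of_mul_eq_one_right h
    have h2 : y ^ j ∈ A := by rw [h1]; exact A.inv_mem (A.pow_mem hxA i)
    have h3' : y ^ j = y ^ (j % 3) := by
      conv_lhs => rw [← Nat.div_add_mod j 3, pow_add, pow_mul, hy3, one_pow, one_mul]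
    have h4 : j % 3 = 1 ∨ j % 3 = 2 := by omega
    rcases h4 with h4 | h4
    · rw [h3', h4, pow_one] at h2
      exact hyA h2
    · rw [h3', h4] at h2
      have h5 : y = (y ^ 2) ^ 2 := by
        rw [← pow_mul, show 2 * 2 = 3 + 1 by norm_num, pow_add, hy3]; simp
      rw [h5] at hyA
      exact hyA (A.pow_mem h2 2)
  -- the complement
  have hxL : x ∈ MulAction.stabilizer G a := hxa
  have hyL : y ∈ MulAction.stabilizer G a := hya
  have hFrob := frob_stab F1 F2 a b c₀ hab hca hcb x hxL hxb hx1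
  refine no_e9 _ hFrob ⟨x, hxL⟩ ⟨y, hyL⟩ ?_ ?_ ?_ ?_ ?_ ?_ ?_
  · rw [Subgroup.mem_subgroupOf]; exact hxb
  · rw [Subgroup.mem_subgroupOf]; exact hyb
  · exact Subtype.ext hx3
  · exact Subtype.ext hy3
  · exact Subtype.ext hcomm
  · exact fun h => hx1 (congrArg Subtype.val h)
  · intro i j hj h
    exact hne' i j hj (congrArg Subtype.val h)

end Cfsg.Agent.S0728
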