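import Cfsg.Statements.S0733
import Mathlib

set_option autoImplicit false
open Cfsg

namespace Cfsg.Agent.S0733

open scoped Pointwise

open scoped Pointwise in
theorem block_coset {p : ℕ} [Fact p.Prime] {V : Type*} [AddCommGroup V] [Module (ZMod p) V] [Finite V]
    (G₀ : Subgroup (V ≃ₗ[ZMod p] V)) (G : Subgroup (Equiv.Perm V))
    (hG : ∀ σ : Equiv.Perm V, σ ∈ G ↔ ∃ g ∈ G₀, ∃ b : V, ∀ x : V, σ x = (g : V ≃ₗ[ZMod p] V) x + b)
    (W : Submodule (ZMod p) V) (hW : ∀ g ∈ G₀, ∀ v ∈ W, (g : V ≃ₗ[ZMod p] V) v ∈ W) :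
    MulAction.IsBlock G (W : Set V) := by
  classical
  rw [MulAction.isBlock_iff_smul_eq_of_mem]
  intro σ a ha hσa
  obtain ⟨g, hg, b, hb⟩ := (hG σ).1 σ.2
  have hbW : b ∈ W := by
    have h1 : σ • a = (σ : Equiv.Perm V) a := rfl
    have h2 := hb a
    have h3 : (σ : Equiv.Perm V) a ∈ W := hσa
    rw [h2] at h3
    have h4 := hW g hg a ha
    exact (Submodule.add_mem_iff_right W h4).1 h3
  have hsub : ∀ (τ : G), (∃ g ∈ G₀, ∃ b ∈ W, ∀ x : V, (τ : Equiv.Perm V) x = (g : V ≃ₗ[ZMod p] V) x + b) →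
      ∀ x ∈ (W : Set V), τ • x ∈ (W : Set V) := by
    rintro τ ⟨g', hg', b', hb'W, hb'⟩ x hx
    show (τ : Equiv.Perm V) x ∈ W
    rw [hb']
    exact W.add_mem (hW g' hg' x hx) hb'W
  apply Set.Subset.antisymm
  · rintro _ ⟨x, hx, rfl⟩
    exact hsub σ ⟨g, hg, b, hbW, hb⟩ x hx
  · intro y hy
    -- `σ⁻¹` also has translation part in `W`
    obtain ⟨g', hg', b', hb'⟩ := (hG _).1 (σ⁻¹).2
    have hb'W : b' ∈ W := by
      have h1 : (σ⁻¹ : G) • (σ • a) = a := inv_smul_smul σ a
      have h2 : ((σ⁻¹ : G) : Equiv.Perm V) (σ • a) = a := h1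
      rw [hb'] at h2
      have h3 := hW g' hg' _ hσa
      rw [← h2] at ha
      exact (Submodule.add_mem_iff_right W h3).1 ha
    exact ⟨(σ⁻¹ : G) • y, hsub _ ⟨g', hg', b', hb'W, hb'⟩ y hy, smul_inv_smul σ y⟩

/-- A permutation group of affine type — generated by the translations of a finite vector space `V` over `ZMod p` together with a group `G₀` of linear automorphisms — is primitive on `V` if and only if `G₀` is irreducible on `V`. -/
theorem result {p : ℕ} [Fact p.Prime] {V : Type*} [AddCommGroup V] [Module (ZMod p) V] [Finite V] [Nontrivial V] (G₀ : Subgroup (V ≃ₗ[ZMod p] V)) (G : Subgroup (Equiv.Perm V)) (hG : ∀ σ : Equiv.Perm V, σ ∈ G ↔ ∃ g ∈ G₀, ∃ b : V, ∀ x : V, σ x = (g : V ≃ₗ[ZMod p] V) x + b) : MulAction.IsPreprimitive G V ↔ ∀ W : Submodule (ZMod p) V, (∀ g ∈ G₀, ∀ v ∈ W, (g : V ≃ₗ[ZMod p] V) v ∈ W) → W = ⊥ ∨ W = ⊤ := by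
  classical
  have htrans : ∀ b : V, (⟨(Equiv.addRight b), (hG _).2 ⟨1, G₀.one_mem, b, fun x => rfl⟩⟩ : G) • (0 : V) = b := by
    intro b
    show (0 : V) + b = b
    simp
  constructor
  · intro hprim W hW
    rcases MulAction.IsPreprimitive.isTrivialBlock_of_isBlock (block_coset G₀ G hG W hW) with h | h
    · left
      rw [eq_bot_iff]
      intro x hx
      have := h hx W.zero_mem
      simpa using this
    · right
      rw [eq_top_iff]
      intro x _
      have : x ∈ (W : Set V) := by rw [h]; trivial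
      exact this
  · intro hirr
    haveI hpre : MulAction.IsPretransitive G V := by
      refine ⟨fun a b => ?_⟩
      refine ⟨⟨Equiv.addRight (b - a), (hG _).2 ⟨1, G₀.one_mem, b - a, fun x => rfl⟩⟩, ?_⟩
      show a + (b - a) = b
      abel
    apply MulAction.IsPreprimitive.of_isTrivialBlock_base (0 : V)
    intro B h0 hB
    have hb := MulAction.isBlock_iff_smul_eq_of_mem.1 hB
    -- `B` is closed under translations by its elements
    let τ : V → G := fun c => ⟨Equiv.addRight c, (hG _).2 ⟨1, G₀.one_mem, c, fun x => rfl⟩⟩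
    have hτ : ∀ c x, τ c • x = x + c := fun c x => rfl
    have hneg : ∀ c ∈ B, τ (-c) • B = B := by
      intro c hc
      apply hb hc
      rw [hτ]
      simpa using h0
    have hnegmem : ∀ c ∈ B, -c ∈ B := by
      intro c hc
      have : τ (-c) • (0 : V) ∈ τ (-c) • B := Set.smul_mem_smul_set h0
      rw [hneg c hc, hτ] at this
      simpa using this
    have hadd : ∀ c ∈ B, ∀ d ∈ B, d + c ∈ B := by
      intro c hc d hd
      have h1 : τ c • B = B := by
        have := hneg (-c) (hnegmem c hc)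
        rwa [neg_neg] at this
      have : τ c • d ∈ τ c • B := Set.smul_mem_smul_set hd
      rw [h1, hτ] at this
      exact this
    let S : AddSubgroup V :=
      { carrier := B
        add_mem' := fun {a b} ha hb => hadd b hb a ha
        zero_mem' := h0
        neg_mem' := fun {a} ha => hnegmem a ha }
    let W : Submodule (ZMod p) V := AddSubgroup.toZModSubmodule p S
    have hWB : ∀ x, x ∈ W ↔ x ∈ B := fun x => Iff.rfl
    have hinv : ∀ g ∈ G₀, ∀ v ∈ W, (g : V ≃ₗ[ZMod p] V) v ∈ W := by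
      intro g hg v hv
      let γ : G := ⟨g.toEquiv, (hG _).2 ⟨g, hg, 0, fun x => by simp⟩⟩
      have h1 : γ • B = B := by
        apply hb h0
        have : γ • (0 : V) = 0 := by
          show g 0 = 0
          simp
        rw [this]
        exact h0
      have h2 : γ • v ∈ γ • B := Set.smul_mem_smul_set ((hWB v).1 hv)
      rw [h1] at h2
      exact h2
    rcases hirr W hinv with h | h
    · left
      intro x hx y hy
      have h1 : x ∈ W := hx
      have h2 : y ∈ W := hy
      rw [h] at h1 h2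
      rw [(Submodule.mem_bot _).1 h1, (Submodule.mem_bot _).1 h2]
    · right
      rw [Set.eq_univ_iff_forall]
      intro x
      have : x ∈ W := by rw [h]; trivial
      exact this

end Cfsg.Agent.S0733
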