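import Cfsg.Statements.S0734
import Mathlib

set_option autoImplicit false
open Cfsg

namespace Cfsg.Agent.S0734

open scoped Pointwise

/-- Higman's criterion for primitivity: a transitive action on a finite set is primitive if and only if every non-trivial orbital graph (edges = images of a fixed pair of distinct points) is connected. -/
theorem result {G : Type*} [Group G] {Ω : Type*} [Finite Ω] [MulAction G Ω] [MulAction.IsPretransitive G Ω] [Nontrivial Ω] : MulAction.IsPreprimitive G Ω ↔ ∀ a b : Ω, a ≠ b → (SimpleGraph.fromRel fun x y : Ω => ∃ g : G, g • a = x ∧ g • b = y).Connected := by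
  classical
  constructor
  · intro hprim a b hab
    set Γ := SimpleGraph.fromRel fun x y : Ω => ∃ g : G, g • a = x ∧ g • b = y with hΓ
    have hact : ∀ (g : G) (x y : Ω), Γ.Adj x y → Γ.Adj (g • x) (g • y) := by
      intro g x y h
      rw [hΓ, SimpleGraph.fromRel_adj] at h ⊢
      obtain ⟨hne, h⟩ := h
      refine ⟨fun he => hne (MulAction.injective g he), ?_⟩
      rcases h with ⟨g', h1, h2⟩ | ⟨g', h1, h2⟩
      · left
        exact ⟨g * g', by rw [mul_smul, h1], by rw [mul_smul, h2]⟩
      · right
        exact ⟨g * g', by rw [mul_smul, h1], by rw [mul_smul, h2]⟩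
    let φ : G → (Γ →g Γ) := fun g => ⟨fun x => g • x, fun {x y} h => hact g x y h⟩
    have hreach : ∀ (g : G) (x y : Ω), Γ.Reachable x y → Γ.Reachable (g • x) (g • y) := by
      intro g x y h
      exact h.map (φ g)
    let B : Set Ω := {y | Γ.Reachable a y}
    have hB : MulAction.IsBlock G B := by
      rw [MulAction.isBlock_iff_smul_eq_of_mem]
      intro g c hc hgc
      have hgc' : Γ.Reachable a (g • c) := hgc
      have hc' : Γ.Reachable a c := hc
      have h1 : Γ.Reachable (g • a) a := (hreach g a c hc').trans hgc'.symm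
      have hsub : ∀ (h : G), Γ.Reachable (h • a) a → h • B ⊆ B := by
        rintro h hh _ ⟨y, hy, rfl⟩
        have hy' : Γ.Reachable a y := hy
        exact (hh.symm.trans (hreach h a y hy'))
      apply Set.Subset.antisymm (hsub g h1)
      have h2 : Γ.Reachable (g⁻¹ • a) a := by
        have := hreach g⁻¹ _ _ h1
        rw [inv_smul_smul] at this
        exact this.symm
      intro y hy
      refine ⟨g⁻¹ • y, hsub g⁻¹ h2 ⟨y, hy, rfl⟩, smul_inv_smul g y⟩
    have haB : a ∈ B := SimpleGraph.Reachable.refl a
    have hbB : b ∈ B := by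
      apply SimpleGraph.Adj.reachable
      rw [hΓ, SimpleGraph.fromRel_adj]
      exact ⟨hab, Or.inl ⟨1, one_smul _ _, one_smul _ _⟩⟩
    rcases MulAction.IsPreprimitive.isTrivialBlock_of_isBlock hB with h | h
    · exact absurd (h haB hbB) hab
    · haveI : Nonempty Ω := ⟨a⟩
      refine ⟨fun x y => ?_⟩
      have hx : x ∈ B := by rw [h]; trivial
      have hy : y ∈ B := by rw [h]; trivial
      exact (show Γ.Reachable a x from hx).symm.trans hy
  · intro hconn
    apply MulAction.IsPreprimitive.mk
    intro B hB
    rcases B.subsingleton_or_nontrivial with h | h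
    · left
      exact h
    · right
      obtain ⟨x, hx, y, hy, hxy⟩ := h
      have hb := MulAction.isBlock_iff_smul_eq_of_mem.1 hB
      have hclosed : ∀ u v : Ω, (SimpleGraph.fromRel fun p q : Ω => ∃ g : G, g • x = p ∧ g • y = q).Adj u v → u ∈ B → v ∈ B := by
        intro u v huv hu
        rw [SimpleGraph.fromRel_adj] at huv
        rcases huv.2 with ⟨g, h1, h2⟩ | ⟨g, h1, h2⟩
        · have h3 : g • B = B := hb hx (by rw [h1]; exact hu)
          rw [← h3, ← h2]
          exact Set.smul_mem_smul_set hy
        · have h3 : g • B = B := hb hy (by rw [h2]; exact hu)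
          rw [← h3, ← h1]
          exact Set.smul_mem_smul_set hx
      have hall : ∀ u v : Ω, (SimpleGraph.fromRel fun p q : Ω => ∃ g : G, g • x = p ∧ g • y = q).Reachable u v → u ∈ B → v ∈ B := by
        rintro u v ⟨w⟩ hu
        induction w with
        | nil => exact hu
        | cons h _ ih => exact ih (hclosed _ _ h hu)
      rw [Set.eq_univ_iff_forall]
      intro z
      exact hall x z ((hconn x y hxy).preconnected x z) hx

end Cfsg.Agent.S0734
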