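import Cfsg.Statements.S0735
import Mathlib

set_option autoImplicit false
open Cfsg

namespace Cfsg.Agent.S0735

open scoped Pointwise

/-- A 2-homogeneous permutation group (transitive on 2-subsets) of even order is doubly transitive; a non-trivial 2-homogeneous group is primitive. -/
theorem result {α : Type*} [Fintype α] [DecidableEq α] (G : Subgroup (Equiv.Perm α)) (h2 : MulAction.IsPretransitive G (Set.powersetCard α 2)) (hα : 3 ≤ Fintype.card α) : (Even (Nat.card G) → MulAction.IsMultiplyPretransitive G α 2) ∧ (G ≠ ⊥ → MulAction.IsPreprimitive G α) := by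
  classical
  -- action of G on 2-subsets
  have hpair : ∀ a b c d : α, a ≠ b → c ≠ d → ∃ g : G, (g • a = c ∧ g • b = d) ∨ (g • a = d ∧ g • b = c) := by
    intro a b c d hab hcd
    have hs : ({a, b} : Finset α).card = 2 := Finset.card_pair hab
    have ht : ({c, d} : Finset α).card = 2 := Finset.card_pair hcd
    obtain ⟨g, hg⟩ := MulAction.exists_smul_eq G (Set.powersetCard.ofCard hs) (Set.powersetCard.ofCard ht)
    have h1 : g • ({a, b} : Finset α) = {c, d} := by
      have h := congrArg Subtype.val hg
      exact h
    have hga : g • a ∈ ({c, d} : Finset α) := by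
      rw [← h1]
      exact Finset.smul_mem_smul_finset (by simp)
    have hgb : g • b ∈ ({c, d} : Finset α) := by
      rw [← h1]
      exact Finset.smul_mem_smul_finset (by simp)
    have hne : g • a ≠ g • b := fun h => hab (MulAction.injective g h)
    simp only [Finset.mem_insert, Finset.mem_singleton] at hga hgb
    refine ⟨g, ?_⟩
    rcases hga with h | h <;> rcases hgb with h' | h'
    · exact absurd (h.trans h'.symm) hne
    · exact Or.inl ⟨h, h'⟩
    · exact Or.inr ⟨h, h'⟩
    · exact absurd (h.trans h'.symm) hne
  refine ⟨?_, ?_⟩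
  · intro heven
    rw [MulAction.is_two_pretransitive_iff]
    haveI : Fact (Nat.Prime 2) := ⟨Nat.prime_two⟩
    obtain ⟨t, ht⟩ := exists_prime_orderOf_dvd_card' 2 (even_iff_two_dvd.1 heven)
    have ht1 : t ≠ 1 := by
      rintro rfl
      simp at ht
    have hmove : ∃ x : α, t • x ≠ x := by
      by_contra hn
      push Not at hn
      apply ht1
      apply Subtype.ext
      ext x
      exact hn x
    obtain ⟨x, hx⟩ := hmove
    have ht2 : t • (t • x) = x := by
      rw [← mul_smul, ← pow_two, ← ht, pow_orderOf_eq_one, one_smul]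
    have hφ : ∀ a b : α, a ≠ b → ∃ g : G, g • x = a ∧ g • (t • x) = b := by
      intro a b hab
      obtain ⟨g, hg | hg⟩ := hpair x (t • x) a b hx.symm hab
      · exact ⟨g, hg⟩
      · refine ⟨g * t, ?_, ?_⟩
        · rw [mul_smul]; exact hg.2
        · rw [mul_smul, ht2]; exact hg.1
    intro a b c d hab hcd
    obtain ⟨g1, h1, h2⟩ := hφ a b hab
    obtain ⟨g2, h3, h4⟩ := hφ c d hcd
    refine ⟨g2 * g1⁻¹, ?_, ?_⟩
    · rw [mul_smul, ← h1, inv_smul_smul, h3]
    · rw [mul_smul, ← h2, inv_smul_smul, h4]
  · intro _
    have hpre : MulAction.IsPretransitive G α := by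
      refine ⟨fun a b => ?_⟩
      by_cases hab : a = b
      · exact ⟨1, by simp [hab]⟩
      · obtain ⟨c, hc⟩ : ∃ c : α, c ∉ ({a, b} : Finset α) := by
          by_contra hn
          push Not at hn
          have h1 : (Finset.univ : Finset α) ⊆ {a, b} := fun x _ => hn x
          have h2 := Finset.card_le_card h1
          rw [Finset.card_univ, Finset.card_pair hab] at h2
          omega
        simp only [Finset.mem_insert, Finset.mem_singleton, not_or] at hc
        obtain ⟨g, hg | hg⟩ := hpair a c b c (Ne.symm hc.1) (Ne.symm hc.2)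
        · exact ⟨g, hg.1⟩
        · refine ⟨g * g, ?_⟩
          rw [mul_smul, hg.1, hg.2]
    apply MulAction.IsPreprimitive.mk
    intro B hB
    rcases B.subsingleton_or_nontrivial with h | h
    · left
      exact h
    · right
      obtain ⟨x, hx, y, hy, hxy⟩ := h
      rw [Set.eq_univ_iff_forall]
      intro z
      by_contra hz
      have hzx : x ≠ z := fun h => hz (h ▸ hx)
      have hb := MulAction.isBlock_iff_smul_eq_of_mem.1 hB
      obtain ⟨g, hg | hg⟩ := hpair x y x z hxy hzx
      · have h1 : g • B = B := hb hx (by rw [hg.1]; exact hx)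
        apply hz
        rw [← h1, ← hg.2]
        exact Set.smul_mem_smul_set hy
      · have h1 : g • B = B := hb hy (by rw [hg.2]; exact hx)
        apply hz
        rw [← h1, ← hg.1]
        exact Set.smul_mem_smul_set hx

end Cfsg.Agent.S0735
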