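import Cfsg.Statements.S0736
import Mathlib

set_option autoImplicit false
open Cfsg

namespace Cfsg.Agent.S0736

open scoped Pointwise

theorem choose_mod (p : ℕ) [hp : Fact p.Prime] (r a : ℕ) :
    Nat.choose (p ^ a * r + p ^ a - 1) (p ^ a - 1) ≡ 1 [MOD p] := by
  have hpp := hp.out
  induction a with
  | zero => simp [Nat.ModEq]
  | succ a ih =>
    have hpos : 0 < p ^ a := pow_pos hpp.pos a
    have hn : p ^ (a + 1) * r + p ^ (a + 1) - 1 = (p - 1) + p * (p ^ a * r + p ^ a - 1) := by
      have h1 : p ^ (a + 1) = p * p ^ a := by rw [pow_succ']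
      obtain ⟨u, hu⟩ : ∃ u, p ^ a = u + 1 := ⟨p ^ a - 1, by omega⟩
      obtain ⟨v, hv⟩ : ∃ v, p = v + 1 := ⟨p - 1, by have := hpp.pos; omega⟩
      rw [h1, hu]
      simp only [hv]
      simp
      ring_nf
      omega
    have hm : p ^ (a + 1) - 1 = (p - 1) + p * (p ^ a - 1) := by
      have h1 : p ^ (a + 1) = p * p ^ a := by rw [pow_succ']
      obtain ⟨u, hu⟩ : ∃ u, p ^ a = u + 1 := ⟨p ^ a - 1, by omega⟩
      obtain ⟨v, hv⟩ : ∃ v, p = v + 1 := ⟨p - 1, by have := hpp.pos; omega⟩
      rw [h1, hu]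
      simp only [hv]
      simp
      ring_nf
      omega
    have hlt : p - 1 < p := by have := hpp.pos; omega
    have h := Choose.choose_modEq_choose_mod_mul_choose_div_nat (n := p ^ (a + 1) * r + p ^ (a + 1) - 1) (k := p ^ (a + 1) - 1) (p := p)
    have h1 : (p ^ (a + 1) * r + p ^ (a + 1) - 1) % p = p - 1 := by
      rw [hn, Nat.add_mul_mod_self_left, Nat.mod_eq_of_lt hlt]
    have h2 : (p ^ (a + 1) - 1) % p = p - 1 := by
      rw [hm, Nat.add_mul_mod_self_left, Nat.mod_eq_of_lt hlt]
    have h3 : (p ^ (a + 1) * r + p ^ (a + 1) - 1) / p = p ^ a * r + p ^ a - 1 := by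
      rw [hn, Nat.add_mul_div_left _ _ hpp.pos, Nat.div_eq_of_lt hlt, zero_add]
    have h4 : (p ^ (a + 1) - 1) / p = p ^ a - 1 := by
      rw [hm, Nat.add_mul_div_left _ _ hpp.pos, Nat.div_eq_of_lt hlt, zero_add]
    rw [h1, h2, h3, h4, Nat.choose_self, one_mul] at h
    exact h.trans ih

/-- A `k`-homogeneous permutation group of degree `n`, `k ≥ 2`, with `k + q - 1 ≤ n` for every prime power `q` dividing `k`, is `(k-1)`-homogeneous. -/
theorem result {α : Type*} [Fintype α] [DecidableEq α] (G : Subgroup (Equiv.Perm α)) {k : ℕ} (hk : 2 ≤ k) (hG : MulAction.IsPretransitive G (Set.powersetCard α k)) (hq : ∀ q : ℕ, IsPrimePow q → q ∣ k → k + q - 1 ≤ Fintype.card α) : MulAction.IsPretransitive G (Set.powersetCard α (k - 1)) := by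
  classical
  have hkk : Fintype.card α ≥ k + 1 := by
    obtain ⟨p, hp, hpk⟩ := Nat.exists_prime_and_dvd (show k ≠ 1 by omega)
    have := hq p hp.isPrimePow hpk
    have := hp.two_le
    omega
  have hGk : ∀ Δ Δ' : Finset α, Δ.card = k → Δ'.card = k → ∃ g : G, g • Δ = Δ' := by
    intro Δ Δ' h1 h2
    obtain ⟨g, hg⟩ := MulAction.exists_smul_eq G (Set.powersetCard.ofCard h1) (Set.powersetCard.ofCard h2)
    exact ⟨g, congrArg Subtype.val hg⟩
  refine ⟨fun A B => ?_⟩
  -- the orbit of A
  let Γ : Finset α → Prop := fun F => ∃ g : G, g • (A : Finset α) = F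
  have hΓg : ∀ (g : G) (F : Finset α), Γ F → Γ (g • F) := by
    rintro g _ ⟨g', rfl⟩
    exact ⟨g * g', mul_smul _ _ _⟩
  have hA : (A : Finset α).card = k - 1 := A.2
  have hB : (B : Finset α).card = k - 1 := B.2
  have hext : ∀ F : Finset α, F.card = k - 1 → ∃ Δ : Finset α, F ⊆ Δ ∧ Δ.card = k := by
    intro F hF
    obtain ⟨Δ, h1, h2⟩ := Finset.exists_superset_card_eq (s := F) (n := k) (by omega) (by omega)
    exact ⟨Δ, h1, h2⟩
  let cnt : Finset α → ℕ := fun Δ => ((Δ.powersetCard (k - 1)).filter Γ).card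
  have hcnt : ∀ Δ Δ' : Finset α, Δ.card = k → Δ'.card = k → cnt Δ = cnt Δ' := by
    intro Δ Δ' h1 h2
    obtain ⟨g, rfl⟩ := hGk Δ Δ' h1 h2
    apply Finset.card_bij (fun F _ => g • F)
    · intro F hF
      simp only [Finset.mem_filter, Finset.mem_powersetCard] at hF ⊢
      refine ⟨⟨Finset.smul_finset_subset_smul_finset_iff.2 hF.1.1, ?_⟩, hΓg g F hF.2⟩
      rw [Finset.card_smul_finset]
      exact hF.1.2
    · intro F _ F' _ he
      exact MulAction.injective g he
    · intro F' hF'
      simp only [Finset.mem_filter, Finset.mem_powersetCard] at hF'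
      refine ⟨g⁻¹ • F', ?_, by simp⟩
      simp only [Finset.mem_filter, Finset.mem_powersetCard]
      refine ⟨⟨?_, ?_⟩, hΓg g⁻¹ F' hF'.2⟩
      · intro x hx
        obtain ⟨y, hy, rfl⟩ := Finset.mem_smul_finset.1 hx
        obtain ⟨z, hz, rfl⟩ := Finset.mem_smul_finset.1 (hF'.1.1 hy)
        simpa using hz
      · rw [Finset.card_smul_finset]
        exact hF'.1.2
  obtain ⟨Δ₀, hΔ₀, hΔ₀c⟩ := hext _ hA
  set c := cnt Δ₀ with hc
  have hcpos : 0 < c := by
    apply Finset.card_pos.2
    refine ⟨A, ?_⟩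
    simp only [Finset.mem_filter, Finset.mem_powersetCard]
    exact ⟨⟨hΔ₀, hA⟩, 1, one_smul _ _⟩
  have hcle : c ≤ k := by
    calc c ≤ (Δ₀.powersetCard (k - 1)).card := Finset.card_filter_le _ _
      _ = k := by
        rw [Finset.card_powersetCard, hΔ₀c]
        have : k = (k - 1) + 1 := by omega
        rw [this]
        simp
  rcases hcle.lt_or_eq with hlt | heq
  · exfalso
    -- a prime power dividing `k` but not `c`
    have hnd : ¬ k ∣ c := fun h => absurd (Nat.le_of_dvd hcpos h) (by omega)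
    have hk0 : k ≠ 0 := by omega
    have hc0 : c ≠ 0 := by omega
    obtain ⟨p, hp, hv⟩ : ∃ p : ℕ, p.Prime ∧ c.factorization p < k.factorization p := by
      by_contra hn
      push Not at hn
      apply hnd
      rw [← Nat.factorization_prime_le_iff_dvd hk0 hc0]
      exact hn
    haveI : Fact p.Prime := ⟨hp⟩
    set a := k.factorization p with ha
    have ha1 : a ≠ 0 := by omega
    let q := p ^ a
    have hqk : q ∣ k := Nat.ordProj_dvd k p
    have hqc : ¬ q ∣ c := by
      intro h
      have h1 := (hp.pow_dvd_iff_le_factorization hc0).1 h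
      omega
    have hqp : IsPrimePow q := hp.isPrimePow.pow ha1
    have hqn := hq q hqp hqk
    have hq1 : 1 ≤ q := Nat.pos_of_dvd_of_pos hqk (by omega)
    obtain ⟨Λ, -, hΛ⟩ := Finset.exists_subset_card_eq (s := (Finset.univ : Finset α)) (n := k + q - 1) (by rw [Finset.card_univ]; exact hqn)
    -- double counting
    let S := Λ.powersetCard k
    let T := (Λ.powersetCard (k - 1)).filter Γ
    let r : Finset α → Finset α → Prop := fun Δ F => F ⊆ Δ
    have hdc := Finset.sum_card_bipartiteAbove_eq_sum_card_bipartiteBelow (s := S) (t := T) r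
    have hab : ∀ Δ ∈ S, (T.bipartiteAbove r Δ).card = c := by
      intro Δ hΔ
      have hΔ' := Finset.mem_powersetCard.1 hΔ
      rw [hc, hcnt Δ₀ Δ hΔ₀c hΔ'.2]
      congr 1
      ext F
      simp only [Finset.bipartiteAbove, Finset.mem_filter, T, Finset.mem_powersetCard, r]
      constructor
      · rintro ⟨⟨⟨_, h2⟩, h3⟩, h4⟩
        exact ⟨⟨h4, h2⟩, h3⟩
      · rintro ⟨⟨h4, h2⟩, h3⟩
        exact ⟨⟨⟨h4.trans hΔ'.1, h2⟩, h3⟩, h4⟩
    have hbe : ∀ F ∈ T, (S.bipartiteBelow r F).card = q := by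
      intro F hF
      have hF' := (Finset.mem_filter.1 hF).1
      have hF'' := Finset.mem_powersetCard.1 hF'
      have h1 : (Λ \ F).card = q := by
        rw [Finset.card_sdiff_of_subset hF''.1, hΛ, hF''.2]
        omega
      rw [← h1]
      symm
      apply Finset.card_bij (fun x _ => insert x F)
      · intro x hx
        have hx' := Finset.mem_sdiff.1 hx
        simp only [Finset.bipartiteBelow, Finset.mem_filter, S, Finset.mem_powersetCard, r]
        refine ⟨⟨Finset.insert_subset hx'.1 hF''.1, ?_⟩, Finset.subset_insert _ _⟩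
        rw [Finset.card_insert_of_notMem hx'.2, hF''.2]
        omega
      · intro x hx y hy he
        have hx' := Finset.mem_sdiff.1 hx
        exact (Finset.insert_inj hx'.2).1 he
      · intro Δ hΔ
        simp only [Finset.bipartiteBelow, Finset.mem_filter, S, Finset.mem_powersetCard, r] at hΔ
        obtain ⟨⟨h2, h3⟩, h4⟩ := hΔ
        have h5 : (Δ \ F).card = 1 := by
          rw [Finset.card_sdiff_of_subset h4, h3, hF''.2]
          omega
        obtain ⟨x, hx⟩ := Finset.card_eq_one.1 h5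
        have h6 : x ∈ Δ \ F := by rw [hx]; simp
        have h7 := Finset.mem_sdiff.1 h6
        refine ⟨x, Finset.mem_sdiff.2 ⟨h2 h7.1, h7.2⟩, ?_⟩
        ext y
        simp only [Finset.mem_insert]
        constructor
        · rintro (rfl | hy)
          · exact h7.1
          · exact h4 hy
        · intro hy
          by_cases hyF : y ∈ F
          · exact Or.inr hyF
          · left
            have : y ∈ Δ \ F := Finset.mem_sdiff.2 ⟨hy, hyF⟩
            rw [hx] at this
            simpa using this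
    have h1 : ∑ Δ ∈ S, (T.bipartiteAbove r Δ).card = c * (Nat.choose (k + q - 1) k) := by
      rw [Finset.sum_congr rfl hab, Finset.sum_const, smul_eq_mul, Finset.card_powersetCard, hΛ, mul_comm]
    have h2 : ∑ F ∈ T, (S.bipartiteBelow r F).card = T.card * q := by
      rw [Finset.sum_congr rfl hbe, Finset.sum_const, smul_eq_mul]
    have h3 : q ∣ c * Nat.choose (k + q - 1) k := by
      rw [← h1, hdc, h2]
      exact dvd_mul_left _ _
    obtain ⟨r', hr'⟩ := hqk
    have h4 : Nat.choose (k + q - 1) (q - 1) ≡ 1 [MOD p] := by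
      have := choose_mod p r' a
      have e : p ^ a * r' + p ^ a - 1 = k + q - 1 := by rw [← hr']
      rw [e] at this
      exact this
    have h5 : Nat.choose (k + q - 1) k = Nat.choose (k + q - 1) (q - 1) := by
      rw [← Nat.choose_symm (show k ≤ k + q - 1 by omega)]
      congr 1
      omega
    have h6 : Nat.Coprime q (Nat.choose (k + q - 1) k) := by
      apply Nat.Coprime.pow_left
      rw [h5, Nat.Prime.coprime_iff_not_dvd hp]
      intro h7
      have h8 : 0 ≡ 1 [MOD p] := (Nat.modEq_zero_iff_dvd.2 h7).symm.trans h4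
      have h9 : p ∣ 1 := (Nat.modEq_iff_dvd' (by omega)).1 h8
      exact hp.one_lt.ne' (Nat.dvd_one.1 h9)
    exact hqc (h6.dvd_of_dvd_mul_right h3)
  · -- all `(k-1)`-subsets are in the orbit
    obtain ⟨Δ₁, hΔ₁, hΔ₁c⟩ := hext _ hB
    have h1 : cnt Δ₁ = k := by rw [hcnt Δ₁ Δ₀ hΔ₁c hΔ₀c]; exact heq
    have h2 : (Δ₁.powersetCard (k - 1)).card = k := by
      rw [Finset.card_powersetCard, hΔ₁c]
      have : k = (k - 1) + 1 := by omega
      rw [this]
      simp
    have h3 : (Δ₁.powersetCard (k - 1)).filter Γ = Δ₁.powersetCard (k - 1) :=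
      Finset.eq_of_subset_of_card_le (Finset.filter_subset _ _) (by rw [h2]; exact h1.ge)
    have h4 : (B : Finset α) ∈ (Δ₁.powersetCard (k - 1)).filter Γ := by
      rw [h3]
      exact Finset.mem_powersetCard.2 ⟨hΔ₁, hB⟩
    obtain ⟨g, hg⟩ := (Finset.mem_filter.1 h4).2
    exact ⟨g, Subtype.ext hg⟩

end Cfsg.Agent.S0736
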