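import Cfsg.Statements.S0740
import Mathlib

set_option autoImplicit false
open Cfsg

namespace Cfsg.Agent.S0740

section
variable {G Ω : Type*} [Group G] [Finite G] [MulAction G Ω] [Fintype Ω]

theorem fixed_le_two (hZ : Cfsg.IsZassenhausGroup G Ω) {s : G} (hs : s ≠ 1) :
    Nat.card (MulAction.fixedBy Ω s) ≤ 2 := by
  classical
  by_contra hcon
  push Not at hcon
  have h3 : 2 < (MulAction.fixedBy Ω s).toFinset.card := by
    rw [Set.toFinset_card, ← Nat.card_eq_fintype_card]
    exact hcon
  obtain ⟨a, ha, b, hb, c, hc, hab, hac, hbc⟩ := Finset.two_lt_card.1 h3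
  rw [Set.mem_toFinset] at ha hb hc
  exact hs (hZ.2.2.1 s a b c hab hbc hac ha hb hc)

theorem card_parity {s : G} (hs : s ^ 2 = 1) :
    Nat.card Ω ≡ Nat.card (MulAction.fixedBy Ω s) [MOD 2] := by
  classical
  haveI : Fact (Nat.Prime 2) := ⟨Nat.prime_two⟩
  let f : Function.End Ω := fun x => s • x
  have hf : f ^ 2 ^ 1 = 1 := by
    funext x
    show s • s • x = x
    rw [← mul_smul, ← pow_two, hs, one_smul]
  have h := Equiv.Perm.card_fixedPoints_modEq hf
  have h1 : Fintype.card (Function.fixedPoints f) = Nat.card (MulAction.fixedBy Ω s) := by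
    rw [← Nat.card_eq_fintype_card]
    apply Nat.card_congr
    exact Equiv.subtypeEquivRight (fun x => by
      simp [Function.mem_fixedPoints, Function.IsFixedPt, f, MulAction.mem_fixedBy])
  rw [Nat.card_eq_fintype_card (α := Ω), ← h1]
  exact h

theorem exists_third (hZ : Cfsg.IsZassenhausGroup G Ω) (a b : Ω) : ∃ c : Ω, c ≠ a ∧ c ≠ b := by
  classical
  haveI := hZ.1
  obtain ⟨g, hg, a', b', hab', ha', hb'⟩ := hZ.2.2.2.1
  by_contra hcon
  push Not at hcon
  obtain ⟨x, hx⟩ : ∃ x : Ω, g • x ≠ x := by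
    by_contra hn
    push Not at hn
    apply hg
    exact FaithfulSMul.eq_of_smul_eq_smul (α := Ω) (by simpa using hn)
  have hall : ∀ x : Ω, x = a ∨ x = b := by
    intro x
    by_cases h : x = a
    · exact Or.inl h
    · exact Or.inr (hcon x h)
  have hx' : x ≠ a' ∧ x ≠ b' := by
    constructor
    · rintro rfl; exact hx ha'
    · rintro rfl; exact hx hb'
  -- three distinct points among two
  rcases hall x with h1 | h1 <;> rcases hall a' with h2 | h2 <;> rcases hall b' with h4 | h4 <;> simp_all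

end

/-- In a finite Zassenhaus group any two points `a ≠ b` are swapped by an involution; every such involution has exactly one fixed point when the degree is odd and 0 or 2 fixed points when the degree is even; and if the two-point stabiliser has even order, some such involution has exactly 2 fixed points. -/
theorem result {G Ω : Type*} [Group G] [Finite G] [MulAction G Ω] [Fintype Ω] (hZ : Cfsg.IsZassenhausGroup G Ω) {a b : Ω} (hab : a ≠ b) : (∃ s : G, orderOf s = 2 ∧ s • a = b ∧ s • b = a) ∧ (∀ s : G, orderOf s = 2 → s • a = b → s • b = a → (Odd (Fintype.card Ω) → Nat.card (MulAction.fixedBy Ω s) = 1) ∧ (Even (Fintype.card Ω) → Nat.card (MulAction.fixedBy Ω s) = 0 ∨ Nat.card (MulAction.fixedBy Ω s) = 2)) ∧ (Even (Fintype.card Ω) → Even (Nat.card ↥(MulAction.stabilizer G a ⊓ MulAction.stabilizer G b)) → ∃ s : G, orderOf s = 2 ∧ s • a = b ∧ s • b = a ∧ Nat.card (MulAction.fixedBy Ω s) = 2) := by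
  classical
  haveI hfaith := hZ.1
  have h2t : ∀ (a b c d : Ω), a ≠ b → c ≠ d → ∃ g : G, g • a = c ∧ g • b = d :=
    fun _ _ _ _ h h' => (MulAction.is_two_pretransitive_iff).1 hZ.2.1 h h'
  haveI : Fact (Nat.Prime 2) := ⟨Nat.prime_two⟩
  have hconj : ∀ c : Ω, c ≠ a → c ≠ b → ∀ u : G, orderOf u = 2 → u • a = a → u • b = b →
      ∃ s : G, orderOf s = 2 ∧ s • a = b ∧ s • b = a ∧ Nat.card (MulAction.fixedBy Ω s) = 2 := by
    intro c hca hcb u hu hua hub
    have hu1 : u ≠ 1 := by
      rintro rfl
      rw [orderOf_one] at hu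
      omega
    have huc : u • c ≠ c := by
      intro h
      exact hu1 (hZ.2.2.1 u a b c hab hcb.symm hca.symm hua hub h)
    obtain ⟨g, hg1, hg2⟩ := h2t c (u • c) a b huc.symm hab
    have hu2 : u ^ 2 = 1 := by rw [← hu]; exact pow_orderOf_eq_one u
    have hs1 : g * u * g⁻¹ ≠ 1 := by
      intro h
      apply hu1
      have : g⁻¹ * (g * u * g⁻¹) * g = u := by group
      rw [← this, h]
      group
    refine ⟨g * u * g⁻¹, ?_, ?_, ?_, ?_⟩
    · apply orderOf_eq_prime _ hs1
      rw [conj_pow, hu2]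
      group
    · rw [← hg1, ← hg2]
      simp [mul_smul]
    · rw [← hg1, ← hg2]
      rw [mul_smul, mul_smul, inv_smul_smul, ← mul_smul u u, ← pow_two, hu2, one_smul]
    · apply le_antisymm (fixed_le_two hZ hs1)
      have hsub : ({g • a, g • b} : Set Ω) ⊆ MulAction.fixedBy Ω (g * u * g⁻¹) := by
        rintro x (rfl | rfl)
        · rw [MulAction.mem_fixedBy]
          simp only [mul_smul, inv_smul_smul, hua]
        · rw [MulAction.mem_fixedBy]
          simp only [mul_smul, inv_smul_smul, hub]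
      have hpair : ({g • a, g • b} : Set Ω).ncard = 2 := Set.ncard_pair (fun h => hab (smul_left_cancel g h))
      rw [← Nat.card_coe_set_eq] at hpair
      rw [← hpair]
      exact Nat.card_mono (Set.toFinite _) hsub
  obtain ⟨c, hca, hcb⟩ := exists_third hZ a b
  have heven : Even (Nat.card ↥(MulAction.stabilizer G a ⊓ MulAction.stabilizer G b)) →
      ∃ s : G, orderOf s = 2 ∧ s • a = b ∧ s • b = a ∧ Nat.card (MulAction.fixedBy Ω s) = 2 := by
    intro hev
    obtain ⟨u, hu⟩ := exists_prime_orderOf_dvd_card' (G := ↥(MulAction.stabilizer G a ⊓ MulAction.stabilizer G b)) 2 hev.two_dvd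
    exact hconj c hca hcb u (by rw [Subgroup.orderOf_coe]; exact hu) u.2.1 u.2.2
  refine ⟨?_, ?_, ?_⟩
  · by_cases hev : Even (Nat.card ↥(MulAction.stabilizer G a ⊓ MulAction.stabilizer G b))
    · obtain ⟨s, h1, h2, h3, -⟩ := heven hev
      exact ⟨s, h1, h2, h3⟩
    · rw [Nat.not_even_iff_odd] at hev
      obtain ⟨k, hk⟩ := hev
      obtain ⟨g, hg1, hg2⟩ := h2t a b b a hab hab.symm
      have hg2a : g ^ 2 • a = a := by rw [pow_two, mul_smul, hg1, hg2]
      have hg2b : g ^ 2 • b = b := by rw [pow_two, mul_smul, hg2, hg1]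
      let H : Subgroup G := MulAction.stabilizer G a ⊓ MulAction.stabilizer G b
      have hg2H : g ^ 2 ∈ H := ⟨hg2a, hg2b⟩
      have hpow : ∀ j : ℕ, (g ^ 2) ^ j • a = a ∧ (g ^ 2) ^ j • b = b := by
        intro j
        have := H.pow_mem hg2H j
        exact ⟨this.1, this.2⟩
      have hm : (g ^ 2) ^ Nat.card H = 1 := by
        have h1 : (⟨g ^ 2, hg2H⟩ : H) ^ Nat.card H = 1 := pow_card_eq_one'
        exact congrArg Subtype.val h1
      have hs : g ^ Nat.card H = g * (g ^ 2) ^ k := by
        rw [hk, ← pow_mul, pow_succ', mul_comm 2 k]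
      have hsa : g ^ Nat.card H • a = b := by
        rw [hs, mul_smul, (hpow k).1, hg1]
      have hsb : g ^ Nat.card H • b = a := by
        rw [hs, mul_smul, (hpow k).2, hg2]
      refine ⟨g ^ Nat.card H, ?_, hsa, hsb⟩
      apply orderOf_eq_prime
      · rw [← pow_mul, mul_comm, pow_mul, hm]
      · intro h
        rw [h, one_smul] at hsa
        exact hab hsa
  · intro s hs hsa hsb
    have hs1 : s ≠ 1 := by
      rintro rfl
      rw [orderOf_one] at hs
      omega
    have hs2 : s ^ 2 = 1 := by rw [← hs]; exact pow_orderOf_eq_one s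
    have hle := fixed_le_two hZ hs1
    have hpar := card_parity (Ω := Ω) hs2
    rw [Nat.card_eq_fintype_card (α := Ω)] at hpar
    have hpar' : Fintype.card Ω % 2 = Nat.card (MulAction.fixedBy Ω s) % 2 := hpar
    constructor
    · intro hodd
      rw [Nat.odd_iff] at hodd
      omega
    · intro hev
      rw [Nat.even_iff] at hev
      omega
  · intro _ hev
    exact heven hev

end Cfsg.Agent.S0740
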