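import Cfsg.Statements.S0741
-- import your own Cfsg.Agent.* helpers here

set_option autoImplicit false
open Cfsg

namespace Cfsg.Agent.S0741

/-- If the two-point stabilisers of a finite Zassenhaus group of degree `n + 1` have even order `d`, then `2d ≥ n - 1`. -/
theorem result {G Ω : Type*} [Group G] [Finite G] [MulAction G Ω] [Fintype Ω] (hZ : Cfsg.IsZassenhausGroup G Ω) {a b : Ω} (hab : a ≠ b) (heven : Even (Nat.card ↥(MulAction.stabilizer G a ⊓ MulAction.stabilizer G b))) : Fintype.card Ω - 2 ≤ 2 * Nat.card ↥(MulAction.stabilizer G a ⊓ MulAction.stabilizer G b) := by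
  classical
  obtain ⟨hfaith, h2, h3, -, -⟩ := hZ
  obtain ⟨H, hH⟩ : ∃ H : Subgroup G, H = MulAction.stabilizer G a ⊓ MulAction.stabilizer G b := ⟨_, rfl⟩
  rw [← hH] at heven ⊢
  have hmemH : ∀ g : G, g ∈ H ↔ g • a = a ∧ g • b = b := by
    intro g
    rw [hH, Subgroup.mem_inf, MulAction.mem_stabilizer_iff, MulAction.mem_stabilizer_iff]
  have h2t : ∀ x y x' y' : Ω, x ≠ y → x' ≠ y' → ∃ g : G, g • x = x' ∧ g • y = y' := by
    intro x y x' y' hxy hxy'
    let e₁ : Fin 2 ↪ Ω := ⟨![x, y], by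
      intro i j e
      fin_cases i <;> fin_cases j <;> first | rfl | exact absurd e hxy | exact absurd e.symm hxy⟩
    let e₂ : Fin 2 ↪ Ω := ⟨![x', y'], by
      intro i j e
      fin_cases i <;> fin_cases j <;> first | rfl | exact absurd e hxy' | exact absurd e.symm hxy'⟩
    obtain ⟨g, hg⟩ := h2.exists_smul_eq e₁ e₂
    exact ⟨g, congrArg (fun z : Fin 2 ↪ Ω => z 0) hg, congrArg (fun z : Fin 2 ↪ Ω => z 1) hg⟩
  haveI : Fact (Nat.Prime 2) := ⟨Nat.prime_two⟩
  obtain ⟨v, hv⟩ := exists_prime_orderOf_dvd_card' (G := H) 2 heven.two_dvd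
  obtain ⟨v₀, hv₀⟩ : ∃ v₀ : G, v₀ = (v : G) := ⟨_, rfl⟩
  have hv₀o : orderOf v₀ = 2 := by
    rw [hv₀, Subgroup.orderOf_coe]
    exact hv
  have hv₀H : v₀ ∈ H := by
    rw [hv₀]
    exact v.2
  have hv₀a := ((hmemH _).1 hv₀H).1
  have hv₀b := ((hmemH _).1 hv₀H).2
  have hv₀1 : v₀ ≠ 1 := by
    rintro rfl
    rw [orderOf_one] at hv₀o
    omega
  have hv₀2 : ∀ z : Ω, v₀ • (v₀ • z) = z := by
    intro z
    rw [← mul_smul, ← pow_two, ← hv₀o, pow_orderOf_eq_one, one_smul]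
  have hfix : ∀ z : Ω, v₀ • z = z → z = a ∨ z = b := by
    intro z hz
    by_contra hc
    simp only [not_or] at hc
    exact hv₀1 (h3 v₀ a b z hab (fun e => hc.2 e.symm) (fun e => hc.1 e.symm) hv₀a hv₀b hz)
  obtain ⟨Sw, hSw⟩ : ∃ Sw : Finset Ω, Sw = (Finset.univ : Finset Ω) \ {a, b} := ⟨_, rfl⟩
  have hmemSw : ∀ x : Ω, x ∈ Sw ↔ x ≠ a ∧ x ≠ b := by
    intro x
    rw [hSw]
    simp
  have hcardSw : Fintype.card Ω - 2 ≤ Sw.card := by
    have h4 := Finset.le_card_sdiff ({a, b} : Finset Ω) (Finset.univ : Finset Ω)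
    rw [← hSw, Finset.card_univ] at h4
    have h5 : ({a, b} : Finset Ω).card ≤ 2 := Finset.card_le_two
    omega
  by_cases hne : Sw.Nonempty
  swap
  · rw [Finset.not_nonempty_iff_eq_empty] at hne
    rw [hne, Finset.card_empty] at hcardSw
    omega
  have hx2 : ∀ x : Sw, ∃ g : G, g • (x : Ω) = a ∧ g • (v₀ • (x : Ω)) = b := by
    intro x
    have hx := (hmemSw x.1).1 x.2
    apply h2t _ _ _ _ _ hab
    intro e
    rcases hfix x.1 e.symm with h | h
    · exact hx.1 h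
    · exact hx.2 h
  choose g hg1 hg2 using hx2
  -- the element swapping `a`, `b`
  have hs : ∀ (x : Sw) (h : H), (((h : G) * g x) * v₀ * ((h : G) * g x)⁻¹) • a = b ∧ (((h : G) * g x) * v₀ * ((h : G) * g x)⁻¹) • b = a := by
    intro x h
    have h1 := (hmemH _).1 h.2
    have hea : ((h : G) * g x) • (x : Ω) = a := by rw [mul_smul, hg1, h1.1]
    have heb : ((h : G) * g x) • (v₀ • (x : Ω)) = b := by rw [mul_smul, hg2, h1.2]
    constructor
    · rw [mul_smul, mul_smul, inv_smul_eq_iff.2 hea.symm, heb]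
    · rw [mul_smul, mul_smul, inv_smul_eq_iff.2 heb.symm, hv₀2, hea]
  obtain ⟨x₀⟩ : Nonempty Sw := ⟨⟨_, hne.choose_spec⟩⟩
  obtain ⟨s₀, hs₀⟩ : ∃ s₀ : G, s₀ = (((1 : H) : G) * g x₀) * v₀ * (((1 : H) : G) * g x₀)⁻¹ := ⟨_, rfl⟩
  have hs₀a : s₀ • a = b := by
    rw [hs₀]
    exact (hs x₀ 1).1
  have hs₀b : s₀ • b = a := by
    rw [hs₀]
    exact (hs x₀ 1).2
  -- the bound for the swapping elements
  obtain ⟨S, hS⟩ : ∃ S : Set G, S = {s : G | s • a = b ∧ s • b = a} := ⟨_, rfl⟩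
  have hmemS : ∀ s : G, s ∈ S ↔ s • a = b ∧ s • b = a := by
    intro s
    rw [hS]
    rfl
  have hcardS : Nat.card S ≤ Nat.card H := by
    have hm : ∀ s : S, s₀⁻¹ * s.1 ∈ H := by
      intro s
      have h1 : s.1 • a = b ∧ s.1 • b = a := (hmemS _).1 s.2
      rw [hmemH, mul_smul, mul_smul, h1.1, h1.2, inv_smul_eq_iff, inv_smul_eq_iff]
      exact ⟨hs₀a.symm, hs₀b.symm⟩
    refine Nat.card_le_card_of_injective (fun s => ⟨s₀⁻¹ * s.1, hm s⟩) ?_
    intro s s' h
    have h1 : s₀⁻¹ * s.1 = s₀⁻¹ * s'.1 := congrArg Subtype.val h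
    exact Subtype.ext (mul_left_cancel h1)
  -- the centraliser
  obtain ⟨C, hC⟩ : ∃ C : Subgroup G, C = Subgroup.centralizer ({v₀} : Set G) := ⟨_, rfl⟩
  have hmemC : ∀ c : G, c ∈ C ↔ c * v₀ = v₀ * c := by
    intro c
    rw [hC, Subgroup.mem_centralizer_singleton_iff]
  have hCact : ∀ c ∈ C, (c • a = a ∧ c • b = b) ∨ (c • a = b ∧ c • b = a) := by
    intro c hc
    have h1 : ∀ z : Ω, v₀ • z = z → v₀ • (c • z) = c • z := by
      intro z hz
      rw [← mul_smul, ← (hmemC c).1 hc, mul_smul, hz]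
    have h4 : c • a ≠ c • b := fun e => hab (smul_left_cancel c e)
    rcases hfix _ (h1 a hv₀a) with h5 | h5 <;> rcases hfix _ (h1 b hv₀b) with h6 | h6
    · exact absurd (h5.trans h6.symm) h4
    · exact Or.inl ⟨h5, h6⟩
    · exact Or.inr ⟨h5, h6⟩
    · exact absurd (h5.trans h6.symm) h4
  have hcardC : Nat.card C ≤ Nat.card H * 2 := by
    have hm1 : ∀ c : C, c.1 • a = a → c.1 ∈ H := by
      intro c h
      rw [hmemH]
      rcases hCact c.1 c.2 with h1 | h1
      · exact h1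
      · exact absurd (h.symm.trans h1.1) hab
    have hm2 : ∀ c : C, c.1 • a ≠ a → s₀⁻¹ * c.1 ∈ H := by
      intro c h
      rw [hmemH, mul_smul, mul_smul]
      rcases hCact c.1 c.2 with h1 | h1
      · exact absurd h1.1 h
      · rw [h1.1, h1.2, inv_smul_eq_iff, inv_smul_eq_iff]
        exact ⟨hs₀a.symm, hs₀b.symm⟩
    have h7 : Nat.card C ≤ Nat.card (H × Bool) := by
      refine Nat.card_le_card_of_injective (fun c => if h : c.1 • a = a then (⟨c.1, hm1 c h⟩, true) else (⟨s₀⁻¹ * c.1, hm2 c h⟩, false)) ?_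
      intro c c' hcc
      by_cases h : c.1 • a = a <;> by_cases h' : c'.1 • a = a
      · simp only [dif_pos h, dif_pos h'] at hcc
        exact Subtype.ext (congrArg (fun z : H × Bool => (z.1 : G)) hcc)
      · simp [dif_pos h, dif_neg h'] at hcc
      · simp [dif_neg h, dif_pos h'] at hcc
      · simp only [dif_neg h, dif_neg h'] at hcc
        exact Subtype.ext (mul_left_cancel (congrArg (fun z : H × Bool => (z.1 : G)) hcc))
    rw [Nat.card_prod] at h7
    simpa using h7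
  -- the double count
  let base : G → G := fun s => if h : ∃ e : G, s = e * v₀ * e⁻¹ then h.choose else 1
  have hbase : ∀ s e : G, s = e * v₀ * e⁻¹ → s = base s * v₀ * (base s)⁻¹ := by
    intro s e h
    have h1 : ∃ e : G, s = e * v₀ * e⁻¹ := ⟨e, h⟩
    have h2' : base s = h1.choose := dif_pos h1
    rw [h2']
    exact h1.choose_spec
  have hdc : Nat.card (Sw × H) ≤ Nat.card (S × C) := by
    have hm1 : ∀ p : Sw × H, (((p.2 : G) * g p.1) * v₀ * ((p.2 : G) * g p.1)⁻¹) ∈ S := by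
      intro p
      rw [hmemS]
      exact hs p.1 p.2
    have hm2 : ∀ p : Sw × H, (base (((p.2 : G) * g p.1) * v₀ * ((p.2 : G) * g p.1)⁻¹))⁻¹ * ((p.2 : G) * g p.1) ∈ C := by
      intro p
      obtain ⟨e, he⟩ : ∃ e : G, e = (p.2 : G) * g p.1 := ⟨_, rfl⟩
      rw [← he]
      have h1 := hbase (e * v₀ * e⁻¹) e rfl
      obtain ⟨b', hb'⟩ : ∃ b' : G, b' = base (e * v₀ * e⁻¹) := ⟨_, rfl⟩
      rw [← hb'] at h1 ⊢
      rw [hmemC]
      have h4 : v₀ = b'⁻¹ * (e * v₀ * e⁻¹) * b' := by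
        rw [h1]
        group
      calc b'⁻¹ * e * v₀ = (b'⁻¹ * (e * v₀ * e⁻¹) * b') * (b'⁻¹ * e) := by group
        _ = v₀ * (b'⁻¹ * e) := by rw [← h4]
    refine Nat.card_le_card_of_injective (fun p => (⟨_, hm1 p⟩, ⟨_, hm2 p⟩)) ?_
    rintro ⟨x, h⟩ ⟨x', h'⟩ hpp
    have h1 : (((h : G) * g x) * v₀ * ((h : G) * g x)⁻¹) = (((h' : G) * g x') * v₀ * ((h' : G) * g x')⁻¹) :=
      congrArg (fun z : S × C => (z.1 : G)) hpp
    have h4 : (base (((h : G) * g x) * v₀ * ((h : G) * g x)⁻¹))⁻¹ * ((h : G) * g x) = (base (((h' : G) * g x') * v₀ * ((h' : G) * g x')⁻¹))⁻¹ * ((h' : G) * g x') :=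
      congrArg (fun z : S × C => (z.2 : G)) hpp
    rw [← h1] at h4
    have h5 : (h : G) * g x = (h' : G) * g x' := mul_left_cancel h4
    have hea : ((h : G) * g x) • (x : Ω) = a := by rw [mul_smul, hg1, ((hmemH _).1 h.2).1]
    have hea' : ((h' : G) * g x') • (x' : Ω) = a := by rw [mul_smul, hg1, ((hmemH _).1 h'.2).1]
    rw [← h5] at hea'
    have h6 : (x : Ω) = x' := smul_left_cancel _ (hea.trans hea'.symm)
    have h7 : x = x' := Subtype.ext h6
    subst h7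
    have h8 : h = h' := Subtype.ext (mul_right_cancel h5)
    rw [h8]
  rw [Nat.card_prod, Nat.card_prod, Nat.card_eq_fintype_card (α := Sw), Fintype.card_coe] at hdc
  have hpos : 0 < Nat.card H := Nat.card_pos
  have h9 : Sw.card * Nat.card H ≤ (Nat.card H * 2) * Nat.card H := by
    calc Sw.card * Nat.card H ≤ Nat.card S * Nat.card C := hdc
      _ ≤ Nat.card H * (Nat.card H * 2) := Nat.mul_le_mul hcardS hcardC
      _ = (Nat.card H * 2) * Nat.card H := by ring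
  have h10 := Nat.le_of_mul_le_mul_right h9 hpos
  omega

end Cfsg.Agent.S0741
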