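import Cfsg.Statements.S0743
import Mathlib
import Cfsg.Agent.Lib.TupleMove
import Cfsg.Agent.Lib.OrbitCount

set_option autoImplicit false
open Cfsg

namespace Cfsg.Agent.S0743

/-- Gleason's Lemma: let `p` be a prime and `1 ≤ k < n`; if every `k`-subset of the `n` points is exactly the fixed-point set of some `p`-subgroup of `G`, then `G` is `k`-transitive. -/
theorem result {α : Type*} [Fintype α] [DecidableEq α] (G : Subgroup (Equiv.Perm α)) {p k : ℕ} (hp : p.Prime) (hk : 1 ≤ k) (hkn : k < Fintype.card α) (h : ∀ s : Finset α, s.card = k → ∃ P : Subgroup G, IsPGroup p P ∧ MulAction.fixedPoints P α = (s : Set α)) : MulAction.IsMultiplyPretransitive G α k := by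
  classical
  haveI : Fact p.Prime := ⟨hp⟩
  apply Cfsg.Agent.Lib.TupleMove.tuple_transitive (by rwa [Nat.card_eq_fintype_card])
  intro x i v hv
  -- the common part of the tuple
  let u : Finset α := (Finset.univ.erase i).image x
  have hucard : u.card = k - 1 := by
    rw [Finset.card_image_of_injective _ x.injective, Finset.card_erase_of_mem (Finset.mem_univ _)]
    simp
  have hxiu : x i ∉ u := by
    intro h
    obtain ⟨w, hw, hwe⟩ := Finset.mem_image.1 h
    exact (Finset.ne_of_mem_erase hw) (x.injective hwe)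
  have hvu : v ∉ u := by
    intro h
    obtain ⟨w, -, hwe⟩ := Finset.mem_image.1 h
    exact hv ⟨w, hwe⟩
  -- `p`-subgroup with fixed points exactly `u ∪ {a}`
  have hPex : ∀ a : α, a ∉ u → ∃ P : Subgroup G, IsPGroup p P ∧ MulAction.fixedPoints P α = ((insert a u : Finset α) : Set α) := by
    intro a ha
    apply h
    rw [Finset.card_insert_of_notMem ha, hucard]
    omega
  -- the orbit of the fixer of `u`
  let O : α → Set α := fun a => {y | ∃ g : G, (∀ z ∈ u, g • z = z) ∧ g • a = y}
  have hOu : ∀ a, a ∉ u → ∀ y ∈ O a, y ∉ u := by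
    rintro a ha y ⟨g, hg, rfl⟩ hy
    have h1 := hg _ hy
    have h2 : g • a = a := MulAction.injective g h1
    rw [h2] at hy
    exact ha hy
  have hOsymm : ∀ a b, b ∈ O a → a ∈ O b := by
    rintro a b ⟨g, hg, rfl⟩
    exact ⟨g⁻¹, fun z hz => by rw [inv_smul_eq_iff, hg z hz], inv_smul_smul g a⟩
  have hOself : ∀ a, a ∈ O a := fun a => ⟨1, fun z _ => one_smul _ _, one_smul _ _⟩
  -- counting `O a` modulo `p` with the `p`-subgroup at `c`
  have hcount : ∀ a c : α, a ∉ u → c ∉ u →
      ((c ∈ O a → Nat.card (O a) ≡ 1 [MOD p]) ∧ (c ∉ O a → Nat.card (O a) ≡ 0 [MOD p])) := by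
    intro a c ha hc
    obtain ⟨P, hPp, hPf⟩ := hPex c hc
    have hPu : ∀ π : P, ∀ z ∈ u, π • z = z := by
      intro π z hz
      have : z ∈ MulAction.fixedPoints P α := by
        rw [hPf]
        exact Finset.mem_coe.2 (Finset.mem_insert_of_mem hz)
      exact this π
    have hinv : ∀ (π : P), ∀ y ∈ O a, π • y ∈ O a := by
      rintro π y ⟨g, hg, rfl⟩
      refine ⟨(π : G) * g, fun z hz => ?_, mul_smul _ _ _⟩
      rw [mul_smul, hg z hz]
      exact hPu π z hz
    have h1 := Cfsg.Agent.Lib.OrbitCount.card_set_modEq hPp (O a) hinv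
    have hinter : O a ∩ MulAction.fixedPoints P α = O a ∩ {c} := by
      rw [hPf]
      ext y
      constructor
      · rintro ⟨hy, hy2⟩
        refine ⟨hy, ?_⟩
        have hy3 : y ∈ insert c u := Finset.mem_coe.1 hy2
        rcases Finset.mem_insert.1 hy3 with h3 | h3
        · exact h3
        · exact absurd h3 (hOu a ha y hy)
      · rintro ⟨hy, hy2⟩
        refine ⟨hy, ?_⟩
        have hy3 : y = c := hy2
        rw [hy3]
        exact Finset.mem_coe.2 (Finset.mem_insert_self _ _)
    rw [hinter] at h1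
    refine ⟨fun hcO => ?_, fun hcO => ?_⟩
    · have h2 : O a ∩ {c} = {c} := by
        ext y
        simp only [Set.mem_inter_iff, Set.mem_singleton_iff]
        constructor
        · exact fun h => h.2
        · rintro rfl
          exact ⟨hcO, rfl⟩
      rw [h2] at h1
      simpa using h1
    · have h2 : O a ∩ {c} = ∅ := by
        ext y
        simp only [Set.mem_inter_iff, Set.mem_singleton_iff, Set.mem_empty_iff_false, iff_false, not_and]
        rintro hy rfl
        exact hcO hy
      rw [h2] at h1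
      simpa using h1
  by_cases hmem : v ∈ O (x i)
  · obtain ⟨g, hg, hgv⟩ := hmem
    refine ⟨g, ?_, hgv⟩
    intro i' hi'
    exact hg _ (Finset.mem_image_of_mem _ (Finset.mem_erase.2 ⟨hi', Finset.mem_univ _⟩))
  · exfalso
    have h1 := (hcount v v hvu hvu).1 (hOself v)
    have h2 := (hcount v (x i) hvu hxiu).2 (fun h => hmem (hOsymm _ _ h))
    have h3 : 0 ≡ 1 [MOD p] := h2.symm.trans h1
    have h4 : p ∣ 1 := (Nat.modEq_zero_iff_dvd.1 h3.symm)
    exact hp.one_lt.ne' (Nat.dvd_one.1 h4)

end Cfsg.Agent.S0743
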