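import Cfsg.Statements.S0744
import Mathlib
import Cfsg.Agent.Lib.TupleMove
import Cfsg.Agent.Lib.OrbitCount

set_option autoImplicit false
open Cfsg

namespace Cfsg.Agent.S0744

/-- If for some `k > 1` the pointwise stabilisers of all `(k-1)`-subsets have the same order `> 1` and those of all `k`-subsets have the same order, then the group is `(k-1)`-transitive. -/
theorem result {α : Type*} [Fintype α] [DecidableEq α] (G : Subgroup (Equiv.Perm α)) {k : ℕ} (hk : 1 < k) (hkn : k ≤ Fintype.card α) (l m : ℕ) (hl : 1 < l) (hkm1 : ∀ s : Finset α, s.card = k - 1 → Nat.card (fixingSubgroup G (s : Set α)) = l) (hkm : ∀ s : Finset α, s.card = k → Nat.card (fixingSubgroup G (s : Set α)) = m) : MulAction.IsMultiplyPretransitive G α (k - 1) := by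
  classical
  obtain ⟨j, rfl⟩ : ∃ j, k = j + 1 := ⟨k - 1, by omega⟩
  simp only [Nat.add_sub_cancel] at hkm1 ⊢
  have hj1 : 1 ≤ j := by omega
  apply Cfsg.Agent.Lib.TupleMove.tuple_transitive (by rw [Nat.card_eq_fintype_card]; omega)
  intro x i v hv
  let u : Finset α := (Finset.univ.erase i).image x
  have hucard : u.card = j - 1 := by
    rw [Finset.card_image_of_injective _ x.injective, Finset.card_erase_of_mem (Finset.mem_univ _)]
    simp
  have hxiu : x i ∉ u := by
    intro h
    obtain ⟨w, hw, hwe⟩ := Finset.mem_image.1 h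
    exact (Finset.ne_of_mem_erase hw) (x.injective hwe)
  have hvu : v ∉ u := by
    intro h
    obtain ⟨w, -, hwe⟩ := Finset.mem_image.1 h
    exact hv ⟨w, hwe⟩
  set x₀ := x i with hx₀
  have hne : v ≠ x₀ := fun h => hv ⟨i, h.symm⟩
  have hl' : ∀ a, a ∉ u → Nat.card (fixingSubgroup G (insert a (u : Set α))) = l := by
    intro a ha
    have := hkm1 (insert a u) (by rw [Finset.card_insert_of_notMem ha, hucard]; omega)
    rwa [Finset.coe_insert] at this
  have hm' : ∀ a b, a ∉ u → b ∉ u → b ≠ a → Nat.card (fixingSubgroup G (insert b (insert a (u : Set α)))) = m := by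
    intro a b ha hb hab
    have hb' : b ∉ insert a u := by
      simp only [Finset.mem_insert, not_or]
      exact ⟨hab, hb⟩
    have := hkm (insert b (insert a u)) (by
      rw [Finset.card_insert_of_notMem hb', Finset.card_insert_of_notMem ha, hucard]; omega)
    rwa [Finset.coe_insert, Finset.coe_insert] at this
  let H := fixingSubgroup G (u : Set α)
  have hHu : ∀ g : H, ∀ z ∈ u, (g : G) • z = z := fun g z hz =>
    (mem_fixingSubgroup_iff G).1 g.2 z (Finset.mem_coe.2 hz)
  by_contra hno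
  have hno' : ∀ g : H, (g : G) • x₀ ≠ v := by
    intro g hg
    refine hno ⟨g, ?_, hg⟩
    intro i' hi'
    exact hHu g _ (Finset.mem_image_of_mem _ (Finset.mem_erase.2 ⟨hi', Finset.mem_univ _⟩))
  let A := fixingSubgroup G (insert x₀ (u : Set α))
  have hAH : ∀ a : A, (a : G) ∈ H := by
    intro a
    rw [mem_fixingSubgroup_iff]
    intro y hy
    exact (mem_fixingSubgroup_iff G).1 a.2 y (Set.mem_insert_of_mem _ hy)
  have hAx : ∀ a : A, (a : G) • x₀ = x₀ := fun a =>
    (mem_fixingSubgroup_iff G).1 a.2 x₀ (Set.mem_insert _ _)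
  have hlpos : 0 < l := by omega
  have hOn : Nat.card (MulAction.orbit H x₀) = Nat.card (MulAction.orbit H v) := by
    have h1 := Cfsg.Agent.Lib.OrbitCount.card_orbit_mul (A := H) x₀
    have h2 := Cfsg.Agent.Lib.OrbitCount.card_orbit_mul (A := H) v
    rw [Cfsg.Agent.Lib.OrbitCount.card_stabilizer_fixing, hl' _ hxiu] at h1
    rw [Cfsg.Agent.Lib.OrbitCount.card_stabilizer_fixing, hl' _ hvu] at h2
    exact Nat.eq_of_mul_eq_mul_right hlpos (h1.trans h2.symm)
  have hOu : ∀ a, a ∉ u → ∀ y ∈ MulAction.orbit H a, y ∉ u := by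
    rintro a ha _ ⟨g, rfl⟩ hy
    have h1 := hHu g _ hy
    have h2 : (g : G) • a = a := MulAction.injective (g : G) h1
    have h3 : g • a = a := h2
    have hy' : g • a ∈ u := hy
    rw [h3] at hy'
    exact ha hy'
  let S₂ : SubMulAction A α := ⟨MulAction.orbit H v, by
    rintro a _ ⟨g, rfl⟩
    exact ⟨⟨a, hAH a⟩ * g, mul_smul _ _ _⟩⟩
  let S₁ : SubMulAction A α := ⟨MulAction.orbit H x₀ \ {x₀}, by
    rintro a _ ⟨⟨g, rfl⟩, hg⟩
    refine ⟨⟨⟨a, hAH a⟩ * g, mul_smul _ _ _⟩, ?_⟩
    intro he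
    apply hg
    have he' : (a : G) • (g • x₀) = x₀ := he
    have h2 : (a : G) • (g • x₀) = (a : G) • x₀ := by rw [he', hAx]
    exact MulAction.injective (a : G) h2⟩
  have hstabA : ∀ z, z ∉ u → z ≠ x₀ → Nat.card (MulAction.stabilizer A z) = m := by
    intro z hz hzx
    rw [Cfsg.Agent.Lib.OrbitCount.card_stabilizer_fixing]
    exact hm' x₀ z hxiu hz hzx
  have hApos : Nat.card A = l := hl' _ hxiu
  have hmpos : 0 < m := by
    rw [← hstabA v hvu hne]
    exact Nat.card_pos
  set r := Nat.card (MulAction.orbit A v) with hr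
  have hrm : r * m = Nat.card A := by
    have := Cfsg.Agent.Lib.OrbitCount.card_orbit_mul (A := A) v
    rwa [hstabA v hvu hne] at this
  have hd₂ : r ∣ Nat.card S₂ := by
    apply Cfsg.Agent.Lib.OrbitCount.dvd_card_of_stabilizers S₂ m r hmpos hrm
    intro z hz
    apply hstabA z (hOu v hvu z hz)
    rintro rfl
    obtain ⟨g, hg⟩ := hz
    apply hno' g⁻¹
    have hg' : (g : G) • v = x₀ := hg
    show ((g : G))⁻¹ • x₀ = v
    rw [inv_smul_eq_iff, hg']
  have hd₁ : r ∣ Nat.card S₁ := by
    apply Cfsg.Agent.Lib.OrbitCount.dvd_card_of_stabilizers S₁ m r hmpos hrm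
    rintro z ⟨hz, hz2⟩
    exact hstabA z (hOu x₀ hxiu z hz) hz2
  have hcS₂ : Nat.card S₂ = Nat.card (MulAction.orbit H v) := rfl
  have hcS₁ : Nat.card S₁ + 1 = Nat.card (MulAction.orbit H x₀) := by
    have h1 : Nat.card S₁ = (MulAction.orbit H x₀ \ {x₀}).ncard := rfl
    rw [h1]
    have h2 : Nat.card (MulAction.orbit H x₀) = (MulAction.orbit H x₀).ncard := rfl
    rw [h2]
    exact Set.ncard_sdiff_singleton_add_one (MulAction.mem_orbit_self x₀) (Set.toFinite _)
  have hr1 : r = 1 := by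
    rw [hcS₂, ← hOn, ← hcS₁] at hd₂
    exact Nat.dvd_one.1 ((Nat.dvd_add_right hd₁).1 hd₂)
  have hml : m = Nat.card A := by
    rw [hr1, one_mul] at hrm
    exact hrm
  have hAtriv : ∀ a : A, a = 1 := by
    intro a
    apply Subtype.ext
    apply Subtype.ext
    ext z
    by_cases hz : z ∈ u
    · exact (mem_fixingSubgroup_iff G).1 a.2 z (Set.mem_insert_of_mem _ (Finset.mem_coe.2 hz))
    · by_cases hz2 : z = x₀
      · rw [hz2]
        exact hAx a
      · have h1 := hstabA z hz hz2
        rw [hml] at h1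
        have h2 : MulAction.stabilizer A z = ⊤ := Subgroup.eq_top_of_card_eq _ h1
        have h3 : a ∈ MulAction.stabilizer A z := by rw [h2]; trivial
        exact h3
  have : Nat.card A = 1 := by
    rw [Nat.card_eq_one_iff_unique]
    exact ⟨⟨fun a b => by rw [hAtriv a, hAtriv b]⟩, ⟨1⟩⟩
  omega

end Cfsg.Agent.S0744
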