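import Cfsg.Statements.S0750
import Cfsg.Agent.Lib.Witt
-- import your own Cfsg.Agent.* helpers here

set_option autoImplicit false
open Cfsg

namespace Cfsg.Agent.S0750

/-- Witt's Lemma for quadratic forms over a finite field, in any characteristic: if Q is a quadratic form on a finite-dimensional space V whose polar bilinear form is non-degenerate, then every linear equivalence between subspaces X, Y of V that preserves Q extends to a Q-preserving linear automorphism of V. (In odd characteristic this is the symmetric-bilinear case; in characteristic two it is the statement for non-degenerate quadratic forms.) -/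
theorem result {F V : Type*} [Field F] [Finite F] [AddCommGroup V] [Module F V] [FiniteDimensional F V] (Q : QuadraticForm F V) (hQ : (QuadraticMap.polarBilin Q).Nondegenerate) (X Y : Submodule F V) (φ : X ≃ₗ[F] Y) (hφ : ∀ x : X, Q (φ x : V) = Q (x : V)) : ∃ g : V ≃ₗ[F] V, (∀ v : V, Q (g v) = Q v) ∧ ∀ x : X, g (x : V) = (φ x : V) := by
  have hinj : Function.Injective (Y.subtype.comp φ.toLinearMap) :=
    Y.injective_subtype.comp φ.injective
  obtain ⟨g, hg, hgf⟩ := Cfsg.Agent.Lib.Witt.extend (Cfsg.Agent.Lib.Witt.quad_step Q hQ) X (Y.subtype.comp φ.toLinearMap) hinj (by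
    intro x x'
    show Q ((φ x : V) + (φ x' : V)) = Q ((x : V) + (x' : V))
    have h1 := hφ (x + x')
    simpa using h1)
  refine ⟨g, fun v => ?_, hgf⟩
  have h1 := hg v 0
  simpa using h1

end Cfsg.Agent.S0750
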