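import Cfsg.Statements.S0753
-- import your own Cfsg.Agent.* helpers here

set_option autoImplicit false
open Cfsg

namespace Cfsg.Agent.S0753

/-- If σ is a ring endomorphism of the field F other than the identity and B is a σ-sesquilinear conjugate-symmetric form with B v v = 0 for every v, then B = 0. -/
theorem result {F V : Type*} [Field F] [AddCommGroup V] [Module F V] (σ : F →+* F) (hσ : σ ≠ RingHom.id F) (B : V →ₛₗ[σ] V →ₗ[F] F) (hS : B.IsSymm) (h0 : ∀ v : V, B v v = 0) : B = 0 := by
  ext x y
  obtain ⟨a, ha⟩ : ∃ a : F, σ a ≠ a := by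
    by_contra hcon
    push Not at hcon
    exact hσ (RingHom.ext hcon)
  have h1 : ∀ c : F, σ c * B y x + c * B x y = 0 := by
    intro c
    have h2 := h0 (x + c • y)
    simpa [map_add, map_smulₛₗ, LinearMap.add_apply, LinearMap.smul_apply, smul_eq_mul, h0] using h2
  have h5 := h1 1
  simp only [map_one, one_mul] at h5
  have h6 := h1 a
  have h7 : (σ a - a) * B y x = 0 := by
    linear_combination h6 - a * h5
  have h8 : B y x = 0 := by
    rcases mul_eq_zero.1 h7 with h | h
    · exact absurd (sub_eq_zero.1 h) ha
    · exact h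
  simp only [LinearMap.zero_apply]
  rw [h8] at h5
  simpa using h5

end Cfsg.Agent.S0753
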