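import Cfsg.Statements.S0754
import Cfsg.Agent.Lib.UnitaryHerm
-- import your own Cfsg.Agent.* helpers here

set_option autoImplicit false
open Cfsg

namespace Cfsg.Agent.S0754

/-- In a field F with q^2 elements, every non-zero μ with μ^q = μ (that is, μ in the subfield of order q) has exactly q + 1 solutions λ of λ^(q+1) = μ. -/
theorem result {F : Type*} [Field F] [Fintype F] {q : ℕ} (hF : Fintype.card F = q ^ 2) (μ : F) (hμ : μ ≠ 0) (hμq : μ ^ q = μ) : Nat.card {x : F // x ^ (q + 1) = μ} = q + 1 := by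
  classical
  obtain ⟨σ, hσ⟩ := Cfsg.Agent.Lib.UnitaryHerm.exists_sigma hF
  have hq := Cfsg.Agent.Lib.UnitaryHerm.q_two_le hF
  obtain ⟨x₀, hx₀⟩ := Cfsg.Agent.Lib.UnitaryHerm.norm_surjective hF hσ μ (by rw [hσ, hμq])
  have hx₀' : x₀ ^ (q + 1) = μ := by
    rw [← hx₀, hσ, pow_succ, mul_comm]
  have hx₀0 : x₀ ≠ 0 := by
    rintro rfl
    apply hμ
    rw [← hx₀]
    simp
  have hcard : Nat.card (powMonoidHom (q + 1) : Fˣ →* Fˣ).ker = q + 1 := by
    rw [IsCyclic.card_powMonoidHom_ker, Nat.card_eq_fintype_card, Fintype.card_units, hF]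
    have h1 : q ^ 2 - 1 = (q + 1) * (q - 1) := by
      obtain ⟨r, rfl⟩ : ∃ r, q = r + 1 := ⟨q - 1, by omega⟩
      simp only [Nat.add_sub_cancel]
      have : (r + 1) ^ 2 = (r + 1 + 1) * r + 1 := by ring
      omega
    rw [h1]
    exact Nat.gcd_eq_right (Dvd.intro _ rfl)
  refine (Nat.card_congr ?_).trans hcard
  refine ⟨fun x => ⟨Units.mk0 (x.1 / x₀) (by
      intro h0
      have h1 : x.1 = 0 := by
        rcases (div_eq_zero_iff.1 h0) with h | h
        · exact h
        · exact absurd h hx₀0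
      have h2 := x.2
      rw [h1, zero_pow (by omega)] at h2
      exact hμ h2.symm), ?_⟩, fun u => ⟨x₀ * (u.1 : F), ?_⟩, ?_, ?_⟩
  · rw [MonoidHom.mem_ker]
    apply Units.ext
    simp only [powMonoidHom_apply, Units.val_pow_eq_pow_val, Units.val_mk0, Units.val_one]
    rw [div_pow, x.2, hx₀']
    exact div_self hμ
  · have h1 : u.1 ^ (q + 1) = 1 := u.2
    have h2 : (u.1 : F) ^ (q + 1) = 1 := by
      have := congrArg Units.val h1
      simpa using this
    rw [mul_pow, hx₀', h2, mul_one]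
  · intro x
    apply Subtype.ext
    simp only [Units.val_mk0]
    field_simp
  · intro u
    apply Subtype.ext
    apply Units.ext
    simp only [Units.val_mk0]
    field_simp

end Cfsg.Agent.S0754
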