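import Cfsg.Statements.S0755
import Cfsg.Agent.Lib.FormClass
-- import your own Cfsg.Agent.* helpers here

set_option autoImplicit false
open Cfsg

namespace Cfsg.Agent.S0755

/-- Classification of Hermitian forms over finite fields: if σ is a non-identity involutive automorphism of the finite field F and B is a non-degenerate conjugate-symmetric σ-sesquilinear form on the finite-dimensional space V, then V has a B-orthonormal basis. -/
theorem result {F V : Type*} [Field F] [Finite F] [AddCommGroup V] [Module F V] [FiniteDimensional F V] (σ : F →+* F) (hσ : σ ≠ RingHom.id F) (hσ2 : ∀ a : F, σ (σ a) = a) (B : V →ₛₗ[σ] V →ₗ[F] F) (hS : B.IsSymm) (hB : B.Nondegenerate) : ∃ b : Module.Basis (Fin (Module.finrank F V)) F V, ∀ i j, B (b i) (b j) = if i = j then 1 else 0 := by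
  classical
  have hS' : ∀ x y, σ (B x y) = B y x := fun x y => hS.eq x y
  obtain ⟨v, -, hv⟩ := Cfsg.Agent.Lib.FormClass.herm_orthonormal hσ hσ2 hS' (Module.finrank F V) ⊤ (finrank_top F V)
    (fun w _ h => hB.1 w (fun y => h y Submodule.mem_top))
  obtain ⟨b, hb⟩ := Cfsg.Agent.Lib.FormClass.exists_basis_of_orth (B := B) (v := v) rfl
    (fun i j hij => by rw [hv, if_neg hij]) (fun i => by rw [hv, if_pos rfl]; exact one_ne_zero)
  exact ⟨b, fun i j => by rw [hb, hb, hv]⟩

end Cfsg.Agent.S0755
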