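import Cfsg.Statements.S0756
import Cfsg.Agent.Lib.FormClass
-- import your own Cfsg.Agent.* helpers here

set_option autoImplicit false
open Cfsg

namespace Cfsg.Agent.S0756

/-- Classification of symmetric bilinear forms over finite fields of odd characteristic: if B is non-degenerate symmetric on V of dimension n + 1 and α is a fixed non-square of F, there is an orthogonal basis b_0, ..., b_n with B(b_i, b_i) = 1 for i < n and B(b_n, b_n) ∈ {1, α}. -/
theorem result {F V : Type*} [Field F] [Finite F] [AddCommGroup V] [Module F V] [FiniteDimensional F V] (h2 : (2 : F) ≠ 0) (B : LinearMap.BilinForm F V) (hS : B.IsSymm) (hB : B.Nondegenerate) {n : ℕ} (hn : Module.finrank F V = n + 1) (α : F) (hα : ¬ IsSquare α) : ∃ b : Module.Basis (Fin (n + 1)) F V, (∀ i j, i ≠ j → B (b i) (b j) = 0) ∧ (∀ i, i ≠ Fin.last n → B (b i) (b i) = 1) ∧ (B (b (Fin.last n)) (b (Fin.last n)) = 1 ∨ B (b (Fin.last n)) (b (Fin.last n)) = α) := by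
  classical
  haveI := Fintype.ofFinite F
  have hS' : ∀ x y, B x y = B y x := fun x y => hS.eq x y
  obtain ⟨v, -, hvo, hvn, hvl⟩ := Cfsg.Agent.Lib.FormClass.symm_normal h2 hS' hα n ⊤ (by rw [finrank_top, hn])
    (fun w _ h => hB.1 w (fun y => h y Submodule.mem_top))
  have hne : ∀ i, B (v i) (v i) ≠ 0 := by
    intro i
    by_cases hi : i = Fin.last n
    · subst hi
      have hα0 : α ≠ 0 := by
        rintro rfl
        exact hα IsSquare.zero
      rcases hvl with h | h <;> rw [h]
      · exact one_ne_zero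
      · exact hα0
    · rw [hvn i hi]
      exact one_ne_zero
  obtain ⟨b, hb⟩ := Cfsg.Agent.Lib.FormClass.exists_basis_of_orth (B := B) (v := v) hn hvo hne
  refine ⟨b, fun i j hij => by rw [hb, hb]; exact hvo i j hij, fun i hi => by rw [hb]; exact hvn i hi, ?_⟩
  rw [hb]
  exact hvl

end Cfsg.Agent.S0756
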