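import Cfsg.Statements.S0757
-- import your own Cfsg.Agent.* helpers here

set_option autoImplicit false
open Cfsg

namespace Cfsg.Agent.S0757

/-- The two diagonal forms Σ x_i^2 and Σ_(i<n) x_i^2 + α x_n^2 on F^(n+1), with α a non-square and 2 ≠ 0 in F, are inequivalent quadratic forms (so over a finite field of odd order there are exactly two classes of non-singular symmetric bilinear forms in each dimension). -/
theorem result {F : Type*} [Field F] (h2 : (2 : F) ≠ 0) (n : ℕ) (α : F) (hα : ¬ IsSquare α) : ¬ (QuadraticMap.weightedSumSquares F (fun _ : Fin (n + 1) => (1 : F))).Equivalent (QuadraticMap.weightedSumSquares F (fun i : Fin (n + 1) => if i = Fin.last n then α else (1 : F))) := by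
  classical
  rintro ⟨f⟩
  have hmat : ∀ w : Fin (n + 1) → F, LinearMap.BilinForm.toMatrix' (QuadraticMap.polarBilin (QuadraticMap.weightedSumSquares F w)) =
      Matrix.diagonal (fun i => 2 * w i) := by
    intro w
    ext i j
    rw [LinearMap.BilinForm.toMatrix'_apply]
    show QuadraticMap.polar (QuadraticMap.weightedSumSquares F w) _ _ = _
    simp only [QuadraticMap.polar, QuadraticMap.weightedSumSquares_apply]
    rw [← Finset.sum_sub_distrib, ← Finset.sum_sub_distrib]
    by_cases hij : i = j
    · subst hij
      rw [Finset.sum_eq_single i]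
      · simp [smul_eq_mul]
        ring
      · intro k _ hk
        simp [Pi.single_eq_of_ne hk]
      · simp
    · rw [Matrix.diagonal_apply_ne _ hij]
      apply Finset.sum_eq_zero
      intro k _
      by_cases hki : k = i
      · subst hki
        simp [Pi.single_eq_of_ne hij]
      · simp [Pi.single_eq_of_ne hki]
  set w₁ : Fin (n + 1) → F := fun _ => 1 with hw₁
  set w₂ : Fin (n + 1) → F := fun i => if i = Fin.last n then α else 1 with hw₂
  have hcomp : LinearMap.BilinForm.comp (QuadraticMap.polarBilin (QuadraticMap.weightedSumSquares F w₂))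
      (f.toLinearEquiv : (Fin (n + 1) → F) →ₗ[F] (Fin (n + 1) → F)) (f.toLinearEquiv : (Fin (n + 1) → F) →ₗ[F] (Fin (n + 1) → F)) =
      QuadraticMap.polarBilin (QuadraticMap.weightedSumSquares F w₁) := by
    ext x y
    show QuadraticMap.polar (QuadraticMap.weightedSumSquares F w₂) (f _) (f _) = QuadraticMap.polar (QuadraticMap.weightedSumSquares F w₁) _ _
    simp only [QuadraticMap.polar]
    rw [← map_add, f.map_app, f.map_app, f.map_app]
  have h1 := congrArg LinearMap.BilinForm.toMatrix' hcomp
  rw [LinearMap.BilinForm.toMatrix'_comp, hmat, hmat] at h1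
  have h2' := congrArg Matrix.det h1
  rw [Matrix.det_mul, Matrix.det_mul, Matrix.det_transpose, Matrix.det_diagonal, Matrix.det_diagonal,
    Fin.prod_univ_castSucc, Fin.prod_univ_castSucc] at h2'
  simp only [hw₁, hw₂] at h2'
  have h3 : ∀ i : Fin n, (if (Fin.castSucc i) = Fin.last n then α else (1 : F)) = 1 := by
    intro i
    rw [if_neg (Fin.castSucc_lt_last i).ne]
  simp only [h3, mul_one, if_true, Finset.prod_const, Finset.card_univ, Fintype.card_fin] at h2'
  set d := (LinearMap.toMatrix' (f.toLinearEquiv : (Fin (n + 1) → F) →ₗ[F] (Fin (n + 1) → F))).det with hd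
  have h4 : (2 : F) ^ n * 2 ≠ 0 := mul_ne_zero (pow_ne_zero _ h2) h2
  have h5 : d * d * α = 1 := by
    apply mul_left_cancel₀ h4
    linear_combination h2'
  have hd0 : d ≠ 0 := by
    rintro h0
    rw [h0] at h5
    simp at h5
  apply hα
  refine ⟨d⁻¹, ?_⟩
  field_simp
  linear_combination h5

end Cfsg.Agent.S0757
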