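import Cfsg.Statements.S0758
-- import your own Cfsg.Agent.* helpers here

set_option autoImplicit false
open Cfsg

namespace Cfsg.Agent.S0758

/-- For a finite field F of odd order q and a non-square α: the form x² + y² is isotropic iff q ≡ 1 mod 4, and the form x² + α y² is isotropic iff q ≡ 3 mod 4. -/
theorem result {F : Type*} [Field F] [Fintype F] (h2 : (2 : F) ≠ 0) (α : F) (hα : ¬ IsSquare α) : ((∃ x y : F, (x ≠ 0 ∨ y ≠ 0) ∧ x ^ 2 + y ^ 2 = 0) ↔ Fintype.card F % 4 = 1) ∧ ((∃ x y : F, (x ≠ 0 ∨ y ≠ 0) ∧ x ^ 2 + α * y ^ 2 = 0) ↔ Fintype.card F % 4 = 3) := by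
  classical
  have hodd : Fintype.card F % 2 = 1 := by
    apply FiniteField.odd_card_of_char_ne_two
    intro h
    apply h2
    have h3 : (2 : F) = ((2 : ℕ) : F) := by norm_cast
    rw [h3]
    exact (ringChar.spec F 2).2 (by rw [h])
  have hm4 : Fintype.card F % 4 = 1 ∨ Fintype.card F % 4 = 3 := by omega
  have hneg : IsSquare (-1 : F) ↔ Fintype.card F % 4 ≠ 3 := FiniteField.isSquare_neg_one_iff
  constructor
  · constructor
    · rintro ⟨x, y, hxy, h⟩
      have hy : y ≠ 0 := by
        rintro rfl
        have : x = 0 := by simpa using h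
        simp_all
      have h1 : IsSquare (-1 : F) := by
        refine ⟨x / y, ?_⟩
        field_simp
        linear_combination -h
      have := hneg.1 h1
      omega
    · intro h
      have h1 : IsSquare (-1 : F) := hneg.2 (by omega)
      obtain ⟨i, hi⟩ := h1
      refine ⟨i, 1, Or.inr one_ne_zero, ?_⟩
      rw [pow_two, ← hi]
      ring
  · have hαne : α ≠ 0 := by
      rintro rfl
      exact hα (IsSquare.zero)
    have hchar : ringChar F ≠ 2 := by
      intro h
      apply h2
      have h3 : (2 : F) = ((2 : ℕ) : F) := by norm_cast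
      rw [h3]
      exact (ringChar.spec F 2).2 (by rw [h])
    have hqα : quadraticChar F α = -1 := (quadraticChar_neg_one_iff_not_isSquare).2 hα
    constructor
    · rintro ⟨x, y, hxy, h⟩
      have hy : y ≠ 0 := by
        rintro rfl
        have : x = 0 := by simpa using h
        simp_all
      have h1 : IsSquare (-α) := by
        refine ⟨x / y, ?_⟩
        field_simp
        linear_combination -h
      by_contra hne
      have h3 : IsSquare (-1 : F) := hneg.2 hne
      have h4 : IsSquare α := by
        have e : α = (-1) * (-α) := by ring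
        rw [e]
        exact h3.mul h1
      exact hα h4
    · intro h
      have hn1 : ¬ IsSquare (-1 : F) := fun h3 => hneg.1 h3 h
      have hq1 : quadraticChar F (-1) = -1 := (quadraticChar_neg_one_iff_not_isSquare).2 hn1
      have h5 : quadraticChar F (-α) = 1 := by
        have e : -α = (-1) * α := by ring
        rw [e, map_mul, hq1, hqα]
        norm_num
      have h6 : IsSquare (-α) := (quadraticChar_one_iff_isSquare (neg_ne_zero.2 hαne)).1 h5
      obtain ⟨t, ht⟩ := h6
      refine ⟨t, 1, Or.inr one_ne_zero, ?_⟩
      rw [pow_two, ← ht]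
      ring

end Cfsg.Agent.S0758
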