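import Cfsg.Statements.S0759
-- import your own Cfsg.Agent.* helpers here

set_option autoImplicit false
open Cfsg

namespace Cfsg.Agent.S0759


section aux
variable {F : Type*} [Field F]

theorem det_zero_block {m : ℕ} (C E D : Matrix (Fin m) (Fin m) F) :
    (Matrix.fromBlocks 0 C E D).det = (-1) ^ m * C.det * E.det := by
  have hJ : (Matrix.fromBlocks (0 : Matrix (Fin m) (Fin m) F) (1 : Matrix (Fin m) (Fin m) F) (1 : Matrix (Fin m) (Fin m) F) (0 : Matrix (Fin m) (Fin m) F)).det = (-1) ^ m := by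
    have h1 : Matrix.fromBlocks (1 : Matrix (Fin m) (Fin m) F) (1 : Matrix (Fin m) (Fin m) F) (0 : Matrix (Fin m) (Fin m) F) (1 : Matrix (Fin m) (Fin m) F) * Matrix.fromBlocks (0 : Matrix (Fin m) (Fin m) F) (1 : Matrix (Fin m) (Fin m) F) (1 : Matrix (Fin m) (Fin m) F) (0 : Matrix (Fin m) (Fin m) F)
        = Matrix.fromBlocks (1 : Matrix (Fin m) (Fin m) F) (1 : Matrix (Fin m) (Fin m) F) (1 : Matrix (Fin m) (Fin m) F) (0 : Matrix (Fin m) (Fin m) F) := by
      rw [Matrix.fromBlocks_multiply]
      simp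
    have h2 := congrArg Matrix.det h1
    rw [Matrix.det_mul, Matrix.det_fromBlocks_zero₂₁, Matrix.det_one, one_mul, one_mul, Matrix.det_fromBlocks_one₁₁] at h2
    rw [h2]
    simp [Matrix.det_neg]
  have h : Matrix.fromBlocks 0 C E D = Matrix.fromBlocks (0 : Matrix (Fin m) (Fin m) F) (1 : Matrix (Fin m) (Fin m) F) (1 : Matrix (Fin m) (Fin m) F) (0 : Matrix (Fin m) (Fin m) F) * Matrix.fromBlocks E D 0 C := by
    rw [Matrix.fromBlocks_multiply]
    simp
  rw [h, Matrix.det_mul, hJ, Matrix.det_fromBlocks_zero₂₁]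
  ring

theorem neg_one_pow_square {m : ℕ} [Fintype F] (h2 : (2 : F) ≠ 0) (W : Submodule F (Fin (2 * m) → F)) (hW : Module.finrank F W = m)
    (hiso : ∀ w ∈ W, ∑ i, w i ^ 2 = 0) : IsSquare ((-1 : F) ^ m) := by
  classical
  let V := Fin (2 * m) → F
  let B : LinearMap.BilinForm F V := LinearMap.mk₂ F (fun x y : V => ∑ i, x i * y i)
    (fun x y z => by simp only [← Finset.sum_add_distrib]; exact Finset.sum_congr rfl fun i _ => add_mul (x i) (y i) (z i))
    (fun c x y => by simp only [smul_eq_mul, Finset.mul_sum]; exact Finset.sum_congr rfl fun i _ => mul_assoc c (x i) (y i))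
    (fun x y z => by simp only [← Finset.sum_add_distrib]; exact Finset.sum_congr rfl fun i _ => mul_add (x i) (y i) (z i))
    (fun c x y => by simp only [smul_eq_mul, Finset.mul_sum]; exact Finset.sum_congr rfl fun i _ => mul_left_comm (x i) c (y i))
  have hB : ∀ x y : V, B x y = ∑ i, x i * y i := fun x y => rfl
  have hiso' : ∀ x ∈ W, ∀ y ∈ W, B x y = 0 := by
    intro x hx y hy
    have h1 := hiso _ (W.add_mem hx hy)
    have h3 := hiso x hx
    have h4 := hiso y hy
    have h5 : ∑ i, (x + y) i ^ 2 = ∑ i, x i ^ 2 + 2 * ∑ i, x i * y i + ∑ i, y i ^ 2 := by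
      rw [Finset.mul_sum, ← Finset.sum_add_distrib, ← Finset.sum_add_distrib]
      refine Finset.sum_congr rfl fun i _ => ?_
      simp only [Pi.add_apply]
      ring
    rw [h5, h3, h4] at h1
    rw [hB]
    have h6 : (2 : F) * ∑ i, x i * y i = 0 := by linear_combination h1
    exact (mul_eq_zero.mp h6).resolve_left h2
  obtain ⟨W', hc⟩ := Submodule.exists_isCompl W
  have hW' : Module.finrank F W' = m := by
    have h1 := Submodule.finrank_add_eq_of_isCompl hc
    have h3 : Module.finrank F (Fin (2 * m) → F) = 2 * m := by simp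
    omega
  let bW := Module.finBasisOfFinrankEq F W hW
  let bW' := Module.finBasisOfFinrankEq F W' hW'
  let c : Module.Basis (Fin m ⊕ Fin m) F V := (bW.prod bW').map (Submodule.prodEquivOfIsCompl W W' hc)
  have hc1 : ∀ i, c (Sum.inl i) ∈ W := by
    intro i
    simp [c, Module.Basis.prod_apply]
  let e : Fin m ⊕ Fin m ≃ Fin (2 * m) := finSumFinEquiv.trans (finCongr (two_mul m).symm)
  let b₀ : Module.Basis (Fin m ⊕ Fin m) F V := (Pi.basisFun F (Fin (2 * m))).reindex e.symm
  have hb₀ : LinearMap.BilinForm.toMatrix b₀ B = 1 := by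
    ext s t
    rw [LinearMap.BilinForm.toMatrix_apply, hB, Matrix.one_apply]
    simp only [b₀, Module.Basis.reindex_apply, Equiv.symm_symm, Pi.basisFun_apply, Pi.single_apply]
    simp [e, eq_comm]
  have hdet := LinearMap.BilinForm.toMatrix_mul_basis_toMatrix b₀ c B
  rw [hb₀] at hdet
  have hdet' := congrArg Matrix.det hdet
  rw [Matrix.det_mul, Matrix.det_mul, Matrix.det_transpose, Matrix.det_one, mul_one] at hdet'
  set G := LinearMap.BilinForm.toMatrix c B with hG
  have hG1 : G.toBlocks₁₁ = 0 := by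
    ext i j
    rw [Matrix.toBlocks₁₁, Matrix.of_apply, hG, LinearMap.BilinForm.toMatrix_apply]
    exact hiso' _ (hc1 i) _ (hc1 j)
  have hG2 : G.toBlocks₂₁ = G.toBlocks₁₂.transpose := by
    ext i j
    rw [Matrix.toBlocks₂₁, Matrix.transpose_apply, Matrix.toBlocks₁₂, Matrix.of_apply, Matrix.of_apply, hG,
      LinearMap.BilinForm.toMatrix_apply, LinearMap.BilinForm.toMatrix_apply, hB, hB]
    exact Finset.sum_congr rfl fun k _ => mul_comm _ _
  have hG3 : G = Matrix.fromBlocks 0 G.toBlocks₁₂ G.toBlocks₁₂.transpose G.toBlocks₂₂ := by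
    rw [← hG1, ← hG2, Matrix.fromBlocks_toBlocks]
  have hG4 : G.det = (-1) ^ m * G.toBlocks₁₂.det ^ 2 := by
    conv_lhs => rw [hG3]
    rw [det_zero_block, Matrix.det_transpose]
    ring
  have hp : (b₀.toMatrix c).det ≠ 0 := by
    intro h0
    have := congrArg Matrix.det (Module.Basis.toMatrix_mul_toMatrix_flip b₀ c)
    rw [Matrix.det_mul, h0, zero_mul, Matrix.det_one] at this
    exact zero_ne_one this
  set p := (b₀.toMatrix c).det with hpdef
  rw [hG4] at hdet'
  set c' := G.toBlocks₁₂.det with hc'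
  have hc0 : c' ≠ 0 := by
    intro h0
    rw [h0] at hdet'
    apply hp
    have : p * p = 0 := by
      simpa using hdet'
    exact mul_self_eq_zero.mp this
  refine ⟨p / c', ?_⟩
  field_simp
  linear_combination -hdet'

/-- An anti-isometry of the sum of squares. -/
def HasAnti (F : Type*) [Field F] (ι : Type*) [Fintype ι] : Prop :=
  ∃ A : (ι → F) →ₗ[F] (ι → F), ∀ x, ∑ i, A x i ^ 2 = - ∑ i, x i ^ 2

theorem HasAnti.transport {ι κ : Type*} [Fintype ι] [Fintype κ] (e : ι ≃ κ) (h : HasAnti F ι) : HasAnti F κ := by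
  obtain ⟨A, hA⟩ := h
  let φ : (κ → F) ≃ₗ[F] (ι → F) := LinearEquiv.funCongrLeft F F e
  have hφ : ∀ x i, φ x i = x (e i) := fun x i => rfl
  have hφs : ∀ x : κ → F, ∑ i, φ x i ^ 2 = ∑ k, x k ^ 2 := fun x => by
    simp only [hφ]
    exact Equiv.sum_comp e (fun k => x k ^ 2)
  refine ⟨φ.symm.toLinearMap ∘ₗ A ∘ₗ φ.toLinearMap, fun x => ?_⟩
  rw [← hφs x, ← hA, ← hφs]
  simp

theorem exists_iso_of_anti {m : ℕ} (h : HasAnti F (Fin m)) :
    ∃ W : Submodule F (Fin (2 * m) → F), Module.finrank F W = m ∧ ∀ w ∈ W, ∑ i, w i ^ 2 = 0 := by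
  classical
  obtain ⟨A, hA⟩ := h
  let e : Fin m ⊕ Fin m ≃ Fin (2 * m) := finSumFinEquiv.trans (finCongr (two_mul m).symm)
  let T : (Fin m → F) →ₗ[F] (Fin (2 * m) → F) :=
    { toFun := fun x k => Sum.elim x (A x) (e.symm k)
      map_add' := by
        intro x y
        funext k
        simp only [Pi.add_apply]
        generalize e.symm k = s
        rcases s with i | i <;> simp
      map_smul' := by
        intro a x
        funext k
        simp only [Pi.smul_apply, RingHom.id_apply]
        generalize e.symm k = s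
        rcases s with i | i <;> simp }
  have hT : ∀ x k, T x k = Sum.elim x (A x) (e.symm k) := fun x k => rfl
  have hinj : Function.Injective T := by
    intro x y hxy
    funext i
    have := congrFun hxy (e (Sum.inl i))
    simpa [hT] using this
  refine ⟨LinearMap.range T, ?_, ?_⟩
  · rw [LinearMap.finrank_range_of_inj hinj]
    simp
  · rintro _ ⟨x, rfl⟩
    have h1 : ∑ k, T x k ^ 2 = ∑ s, (Sum.elim x (A x) s) ^ 2 := by
      rw [← Equiv.sum_comp e]
      simp [hT]
    rw [h1, Fintype.sum_sum_type]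
    simp only [Sum.elim_inl, Sum.elim_inr]
    rw [hA]
    ring

theorem hasAnti_of_sq {ι : Type*} [Fintype ι] {i₀ : F} (h : -1 = i₀ * i₀) : HasAnti F ι := by
  refine ⟨i₀ • LinearMap.id, fun x => ?_⟩
  rw [← Finset.sum_neg_distrib]
  refine Finset.sum_congr rfl fun i _ => ?_
  simp only [LinearMap.smul_apply, LinearMap.id_apply, Pi.smul_apply, smul_eq_mul]
  linear_combination -(x i) ^ 2 * h

theorem hasAnti_sum {r : ℕ} {a b : F} (h : a ^ 2 + b ^ 2 = -1) : HasAnti F (Fin r ⊕ Fin r) := by
  let A : (Fin r ⊕ Fin r → F) →ₗ[F] (Fin r ⊕ Fin r → F) :=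
    { toFun := fun x s => Sum.elim (fun i => a * x (Sum.inl i) + b * x (Sum.inr i))
        (fun i => b * x (Sum.inl i) - a * x (Sum.inr i)) s
      map_add' := by
        intro x y
        funext s
        rcases s with i | i <;> simp <;> ring
      map_smul' := by
        intro c x
        funext s
        rcases s with i | i <;> simp <;> ring }
  refine ⟨A, fun x => ?_⟩
  have hA1 : ∀ i, A x (Sum.inl i) = a * x (Sum.inl i) + b * x (Sum.inr i) := fun i => rfl
  have hA2 : ∀ i, A x (Sum.inr i) = b * x (Sum.inl i) - a * x (Sum.inr i) := fun i => rfl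
  rw [Fintype.sum_sum_type, Fintype.sum_sum_type]
  simp only [hA1, hA2]
  rw [← Finset.sum_add_distrib, neg_add_rev, ← Finset.sum_neg_distrib, ← Finset.sum_neg_distrib, ← Finset.sum_add_distrib]
  refine Finset.sum_congr rfl fun i _ => ?_
  linear_combination (x (Sum.inl i) ^ 2 + x (Sum.inr i) ^ 2) * h

end aux

/-- Type of the orthonormal form: over a finite field of odd order q and for m ≥ 1, the quadratic form Σ_(i<2m) x_i² on F^(2m) admits an m-dimensional subspace on which it vanishes identically if and only if it is not the case that q ≡ 3 (mod 4) and m is odd. -/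
theorem result {F : Type*} [Field F] [Fintype F] (h2 : (2 : F) ≠ 0) (m : ℕ) (hm : 1 ≤ m) : (∃ W : Submodule F (Fin (2 * m) → F), Module.finrank F W = m ∧ ∀ w ∈ W, ∑ i, w i ^ 2 = 0) ↔ ¬ (Fintype.card F % 4 = 3 ∧ Odd m) := by
  classical
  have hchar : ringChar F ≠ 2 := by
    intro h
    apply h2
    have := ringChar.Nat.cast_ringChar (R := F)
    rw [h] at this
    exact_mod_cast this
  constructor
  · rintro ⟨W, hW, hiso⟩ ⟨h3, hodd⟩
    have h4 := neg_one_pow_square h2 W hW hiso
    rw [hodd.neg_one_pow] at h4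
    exact (FiniteField.isSquare_neg_one_iff.mp h4) h3
  · intro h
    apply exists_iso_of_anti
    by_cases h3 : Fintype.card F % 4 = 3
    · have hm : ¬ Odd m := fun h' => h ⟨h3, h'⟩
      rw [Nat.not_odd_iff_even] at hm
      obtain ⟨r, rfl⟩ := hm
      obtain ⟨a, b, hab⟩ := FiniteField.exists_root_sum_quadratic (R := F) (f := Polynomial.X ^ 2) (g := Polynomial.X ^ 2 + 1)
        (by simp) (by
          rw [Polynomial.degree_add_eq_left_of_degree_lt] <;> simp) (FiniteField.odd_card_of_char_ne_two hchar)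
      have hab' : a ^ 2 + b ^ 2 = -1 := by
        simp at hab
        linear_combination hab
      exact (hasAnti_sum hab').transport finSumFinEquiv
    · have h4 := FiniteField.isSquare_neg_one_iff.mpr h3
      obtain ⟨i₀, hi₀⟩ := h4
      exact hasAnti_of_sq hi₀

end Cfsg.Agent.S0759
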