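import Cfsg.Statements.S0760
import Cfsg.Agent.Lib.Witt
-- import your own Cfsg.Agent.* helpers here

set_option autoImplicit false
open Cfsg

namespace Cfsg.Agent.S0760

/-- Witt index is well defined: if Q is a quadratic form on a finite-dimensional space V over a finite field with non-degenerate polar form, and W₁, W₂ are subspaces on which Q vanishes that are maximal with this property, then W₁ and W₂ have the same dimension, and twice this dimension is at most dim V. -/
theorem result {F V : Type*} [Field F] [Finite F] [AddCommGroup V] [Module F V] [FiniteDimensional F V] (Q : QuadraticForm F V) (hQ : (QuadraticMap.polarBilin Q).Nondegenerate) (W₁ W₂ : Submodule F V) (h₁ : ∀ w ∈ W₁, Q w = 0) (h₂ : ∀ w ∈ W₂, Q w = 0) (hmax₁ : ∀ W : Submodule F V, W₁ ≤ W → (∀ w ∈ W, Q w = 0) → W = W₁) (hmax₂ : ∀ W : Submodule F V, W₂ ≤ W → (∀ w ∈ W, Q w = 0) → W = W₂) : Module.finrank F W₁ = Module.finrank F W₂ ∧ 2 * Module.finrank F W₁ ≤ Module.finrank F V := by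
  have key : ∀ W₁ W₂ : Submodule F V, (∀ w ∈ W₁, Q w = 0) → (∀ w ∈ W₂, Q w = 0) →
      (∀ W : Submodule F V, W₁ ≤ W → (∀ w ∈ W, Q w = 0) → W = W₁) →
      Module.finrank F W₁ ≤ Module.finrank F W₂ → Module.finrank F W₁ = Module.finrank F W₂ := by
    intro W₁ W₂ h₁ h₂ hmax hle
    obtain ⟨f₀, hf₀⟩ := finrank_le_iff_exists_linearMap.1 hle
    have hinj : Function.Injective (W₂.subtype.comp f₀) := W₂.injective_subtype.comp hf₀
    obtain ⟨g, hg, hgf⟩ := Cfsg.Agent.Lib.Witt.extend (Cfsg.Agent.Lib.Witt.quad_step Q hQ) W₁ (W₂.subtype.comp f₀) hinj (by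
      intro x x'
      show Q ((f₀ x : V) + (f₀ x' : V)) = Q ((x : V) + (x' : V))
      rw [h₂ _ (W₂.add_mem (f₀ x).2 (f₀ x').2), h₁ _ (W₁.add_mem x.2 x'.2)])
    have hgQ : ∀ v, Q (g v) = Q v := by
      intro v
      have h1 := hg v 0
      simpa using h1
    have hW := hmax (W₂.map (g.symm : V →ₗ[F] V)) (by
      intro x hx
      refine ⟨g x, ?_, by simp⟩
      have := hgf ⟨x, hx⟩
      simp only at this
      rw [this]
      exact (f₀ ⟨x, hx⟩).2) (by
      rintro _ ⟨y, hy, rfl⟩
      have h1 := hgQ (g.symm y)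
      rw [LinearEquiv.apply_symm_apply] at h1
      show Q (g.symm y) = 0
      rw [← h1]
      exact h₂ y hy)
    have h3 : Module.finrank F (W₂.map (g.symm : V →ₗ[F] V)) = Module.finrank F W₂ :=
      LinearEquiv.finrank_map_eq g.symm W₂
    rw [← hW, h3]
  constructor
  · rcases le_total (Module.finrank F W₁) (Module.finrank F W₂) with h | h
    · exact key W₁ W₂ h₁ h₂ hmax₁ h
    · exact (key W₂ W₁ h₂ h₁ hmax₂ h).symm
  · have h3 : W₁ ≤ LinearMap.BilinForm.orthogonal (QuadraticMap.polarBilin Q) W₁ := by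
      intro x hx y hy
      show QuadraticMap.polar Q y x = 0
      simp only [QuadraticMap.polar]
      rw [h₁ _ (W₁.add_mem hy hx), h₁ y hy, h₁ x hx]
      simp
    have h4 := Submodule.finrank_mono h3
    rw [LinearMap.BilinForm.finrank_orthogonal hQ] at h4
    have h5 := Submodule.finrank_le W₁
    omega

end Cfsg.Agent.S0760
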