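import Cfsg.Statements.S0761
-- import your own Cfsg.Agent.* helpers here

set_option autoImplicit false
open Cfsg

namespace Cfsg.Agent.S0761

/-- Hyperbolic partners: let B be a non-degenerate bilinear form on a finite-dimensional space, either alternating, or symmetric with 2 ≠ 0. If Z is a subspace on which B vanishes, x ∉ Z is isotropic and orthogonal to Z, then there is an isotropic y with B x y = 1 which is orthogonal to Z. -/
theorem result {F V : Type*} [Field F] [AddCommGroup V] [Module F V] [FiniteDimensional F V] (B : LinearMap.BilinForm F V) (hB : B.Nondegenerate) (hform : B.IsAlt ∨ (B.IsSymm ∧ (2 : F) ≠ 0)) (x : V) (Z : Submodule F V) (hxZ : x ∉ Z) (hx : B x x = 0) (hxz : ∀ z ∈ Z, B x z = 0) (hZ : ∀ z ∈ Z, ∀ z' ∈ Z, B z z' = 0) : ∃ y : V, B y y = 0 ∧ B x y = 1 ∧ ∀ z ∈ Z, B z y = 0 := by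
  classical
  obtain ⟨f, hfx, hZf⟩ := Submodule.exists_le_ker_of_notMem hxZ
  let ψ : Module.Dual F V := (f x)⁻¹ • f
  have hψx : ψ x = 1 := by
    simp [ψ, hfx]
  have hψz : ∀ z ∈ Z, ψ z = 0 := by
    intro z hz
    have h1 : f z = 0 := hZf hz
    simp [ψ, h1]
  let y₀ : V := (LinearMap.BilinForm.toDual B.flip (LinearMap.BilinForm.Nondegenerate.flip hB)).symm ψ
  have hy₀ : ∀ w, B w y₀ = ψ w := by
    intro w
    have h1 := LinearMap.BilinForm.apply_toDual_symm_apply (B := B.flip) (hB := LinearMap.BilinForm.Nondegenerate.flip hB) ψ w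
    exact h1
  rcases hform with hA | ⟨hS, h2⟩
  · refine ⟨y₀, hA y₀, ?_, ?_⟩
    · rw [hy₀, hψx]
    · intro z hz
      rw [hy₀, hψz z hz]
  · have hsym : ∀ u v : V, B u v = B v u := fun u v => by
      simpa using hS.eq u v
    refine ⟨y₀ - (B y₀ y₀ / 2) • x, ?_, ?_, ?_⟩
    · have h3 : B x y₀ = 1 := by rw [hy₀, hψx]
      have h4 : B y₀ x = 1 := by rw [hsym, h3]
      simp only [map_sub, map_smul, LinearMap.sub_apply, LinearMap.smul_apply, smul_eq_mul, hx, h3, h4]
      field_simp
      ring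
    · have h3 : B x y₀ = 1 := by rw [hy₀, hψx]
      simp [hx, h3]
    · intro z hz
      have h3 : B z x = 0 := by rw [hsym, hxz z hz]
      simp [h3, hy₀, hψz z hz]

end Cfsg.Agent.S0761
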