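import Cfsg.Statements.S0762
-- import your own Cfsg.Agent.* helpers here

set_option autoImplicit false
open Cfsg

namespace Cfsg.Agent.S0762

/-- In characteristic two over a finite field, a quadratic form on a space of dimension at least 3 vanishes on some non-zero vector. -/
theorem result {F V : Type*} [Field F] [Finite F] [CharP F 2] [AddCommGroup V] [Module F V] [FiniteDimensional F V] (Q : QuadraticForm F V) (h3 : 3 ≤ Module.finrank F V) : ∃ v : V, v ≠ 0 ∧ Q v = 0 := by
  classical
  have hpos : 0 < Module.finrank F V := by omega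
  obtain ⟨r, hr⟩ := Module.finrank_pos_iff_exists_ne_zero.1 hpos
  by_cases hQr : Q r = 0
  · exact ⟨r, hr, hQr⟩
  let φ : V →ₗ[F] F := QuadraticMap.polarBilin Q r
  obtain ⟨s, hsker, hsr⟩ : ∃ s ∈ LinearMap.ker φ, s ∉ Submodule.span F {r} := by
    by_contra hcon
    push Not at hcon
    have h1 : LinearMap.ker φ ≤ Submodule.span F {r} := hcon
    have h2 := Submodule.finrank_mono h1
    have h3 := finrank_span_singleton (K := F) hr
    have h4 := LinearMap.finrank_range_add_finrank_ker φ
    have h5 : Module.finrank F (LinearMap.range φ) ≤ 1 := by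
      simpa using Submodule.finrank_le (LinearMap.range φ)
    omega
  have hs0 : QuadraticMap.polar Q r s = 0 := hsker
  have h2F : (2 : F) = 0 := CharTwo.two_eq_zero
  obtain ⟨c, hc⟩ := FiniteField.isSquare_of_char_two (ringChar.eq F 2) (Q s / Q r)
  refine ⟨c • r + s, ?_, ?_⟩
  · intro h0
    apply hsr
    have : s = (-c) • r := by
      rw [neg_smul]
      exact eq_neg_of_add_eq_zero_right h0
    rw [this]
    exact Submodule.smul_mem _ _ (Submodule.mem_span_singleton_self r)
  · rw [QuadraticMap.map_add Q, QuadraticMap.map_smul, QuadraticMap.polar_smul_left, hs0]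
    simp only [smul_eq_mul, mul_zero, add_zero]
    have h3 : c * c * Q r = Q s := by
      rw [← hc]
      field_simp
    rw [h3]
    linear_combination (Q s) * h2F

end Cfsg.Agent.S0762
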