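import Cfsg.Statements.S0763
-- import your own Cfsg.Agent.* helpers here

set_option autoImplicit false
open Cfsg

namespace Cfsg.Agent.S0763

/-- Binary quadratic forms in characteristic two over a finite field: if Q is a quadratic form on a 2-dimensional space whose polar form is non-degenerate, then either there are vectors v, w with Q v = Q w = 0 and polar value 1 (Q is xy in these coordinates), or there are v, w and μ with Q v = 1, Q w = μ, polar value 1 and x² + x + μ without roots in F (Q is x² + xy + μy²). -/
theorem result {F V : Type*} [Field F] [Finite F] [CharP F 2] [AddCommGroup V] [Module F V] (Q : QuadraticForm F V) (h2 : Module.finrank F V = 2) (hQ : (QuadraticMap.polarBilin Q).Nondegenerate) : (∃ v w : V, LinearIndependent F ![v, w] ∧ Q v = 0 ∧ Q w = 0 ∧ QuadraticMap.polar Q v w = 1) ∨ (∃ (v w : V) (μ : F), LinearIndependent F ![v, w] ∧ (∀ x : F, x ^ 2 + x + μ ≠ 0) ∧ Q v = 1 ∧ Q w = μ ∧ QuadraticMap.polar Q v w = 1) := by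
  classical
  haveI : Module.Finite F V := Module.finite_of_finrank_pos (by omega)
  have h2F : (2 : F) = 0 := CharTwo.two_eq_zero
  have hpolself : ∀ x, QuadraticMap.polar Q x x = 0 := by
    intro x
    rw [QuadraticMap.polar_self]
    simp [h2F]
  have hind : ∀ v w : V, QuadraticMap.polar Q v w = 1 → LinearIndependent F ![v, w] := by
    intro v w hvw
    rw [LinearIndependent.pair_iff]
    intro s t hst
    have h1 := congrArg (fun z => QuadraticMap.polarBilin Q v z) hst
    have h3 := congrArg (fun z => QuadraticMap.polarBilin Q z w) hst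
    simp only [map_add, map_smul, smul_eq_mul, map_zero, LinearMap.add_apply, LinearMap.smul_apply, LinearMap.zero_apply] at h1 h3
    have hv : QuadraticMap.polarBilin Q v v = 0 := hpolself v
    have hw : QuadraticMap.polarBilin Q w w = 0 := hpolself w
    have hvw' : QuadraticMap.polarBilin Q v w = 1 := hvw
    rw [hv, hvw'] at h1
    rw [hw, hvw'] at h3
    constructor
    · simpa using h3
    · simpa using h1
  have hpart : ∀ v : V, v ≠ 0 → ∃ w, QuadraticMap.polar Q v w = 1 := by
    intro v hv
    by_contra hcon
    apply hv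
    apply hQ.1 v
    intro y
    by_contra hy
    apply hcon
    refine ⟨(QuadraticMap.polarBilin Q v y)⁻¹ • y, ?_⟩
    show QuadraticMap.polarBilin Q v _ = 1
    rw [map_smul, smul_eq_mul, inv_mul_cancel₀ hy]
  by_cases hiso : ∃ v : V, v ≠ 0 ∧ Q v = 0
  · left
    obtain ⟨v, hv, hQv⟩ := hiso
    obtain ⟨w₀, hw₀⟩ := hpart v hv
    refine ⟨v, w₀ + (- Q w₀) • v, hind _ _ ?_, hQv, ?_, ?_⟩
    · show QuadraticMap.polarBilin Q v _ = 1
      rw [map_add, map_smul, smul_eq_mul]
      have hv' : QuadraticMap.polarBilin Q v v = 0 := hpolself v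
      have hw' : QuadraticMap.polarBilin Q v w₀ = 1 := hw₀
      rw [hv', hw']
      ring
    · rw [QuadraticMap.map_add Q, QuadraticMap.map_smul, hQv, QuadraticMap.polar_smul_right, QuadraticMap.polar_comm, hw₀]
      simp
    · show QuadraticMap.polarBilin Q v _ = 1
      rw [map_add, map_smul, smul_eq_mul]
      have hv' : QuadraticMap.polarBilin Q v v = 0 := hpolself v
      have hw' : QuadraticMap.polarBilin Q v w₀ = 1 := hw₀
      rw [hv', hw']
      ring
  · right
    push Not at hiso
    have hpos : 0 < Module.finrank F V := by omega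
    obtain ⟨v₀, hv₀⟩ := Module.finrank_pos_iff_exists_ne_zero.1 hpos
    have hQv₀ := hiso v₀ hv₀
    obtain ⟨s, hs⟩ := FiniteField.isSquare_of_char_two (ringChar.eq F 2) (Q v₀)
    have hs0 : s ≠ 0 := by
      rintro rfl
      rw [mul_zero] at hs
      exact hQv₀ hs
    set v := s⁻¹ • v₀ with hv
    have hQv : Q v = 1 := by
      rw [hv, QuadraticMap.map_smul, hs]
      simp only [smul_eq_mul]
      field_simp
    have hvne : v ≠ 0 := by
      intro h0
      rw [h0] at hQv
      simp at hQv
    obtain ⟨w, hw⟩ := hpart v hvne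
    refine ⟨v, w, Q w, hind _ _ hw, ?_, hQv, rfl, hw⟩
    intro x hx
    have h1 : Q (x • v + w) = 0 := by
      rw [QuadraticMap.map_add Q, QuadraticMap.map_smul, hQv, QuadraticMap.polar_smul_left, hw]
      simp only [smul_eq_mul]
      linear_combination hx
    by_cases h0 : x • v + w = 0
    · have h3 := hind v w hw
      rw [LinearIndependent.pair_iff] at h3
      have h4 := h3 x 1 (by rw [one_smul]; exact h0)
      exact one_ne_zero h4.2
    · exact hiso _ h0 h1

end Cfsg.Agent.S0763
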