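import Cfsg.Statements.S0767
import Cfsg.Agent.Lib.ClassGeom
-- import your own Cfsg.Agent.* helpers here

set_option autoImplicit false
open Cfsg

namespace Cfsg.Agent.S0767

/-- The root group of a point: T_v(c) T_v(d) = T_v(c + d), and for A in the symplectic group with A v = a v, the conjugate A T_v(c) A⁻¹ is again some T_v(d). -/
theorem result {F : Type*} [Field F] (m : ℕ) (v : Fin m ⊕ Fin m → F) : (∀ c d : F, Cfsg.sympTransvection m v c * Cfsg.sympTransvection m v d = Cfsg.sympTransvection m v (c + d)) ∧ ∀ (A : Matrix (Fin m ⊕ Fin m) (Fin m ⊕ Fin m) F) (a : F), A ∈ Matrix.symplecticGroup (Fin m) F → A.mulVec v = a • v → ∀ c : F, ∃ d : F, A * Cfsg.sympTransvection m v c * A⁻¹ = Cfsg.sympTransvection m v d := by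
  have hf := Cfsg.Agent.Lib.ClassGeom.hf m F
  constructor
  · intro c d
    apply Matrix.ext_of_mulVec_single
    intro j
    rw [← Matrix.mulVec_mulVec, Cfsg.Agent.Lib.ClassGeom.sympTransvection_mulVec,
      Cfsg.Agent.Lib.ClassGeom.sympTransvection_mulVec, Cfsg.Agent.Lib.ClassGeom.sympTransvection_mulVec,
      Cfsg.Agent.Lib.SymplecticTv.f_add_smul_left hf, hf.alternating v]
    simp only [add_smul, mul_zero, add_zero, mul_add]
    ext i
    simp
    ring
  · intro A a hA hv c
    refine ⟨c * a * a, ?_⟩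
    have hdet : IsUnit A.det := SymplecticGroup.symplectic_det hA
    have hA1 : A⁻¹ * A = 1 := Matrix.nonsing_inv_mul A hdet
    have key : A * Cfsg.sympTransvection m v c = Cfsg.sympTransvection m v (c * a * a) * A := by
      apply Matrix.ext_of_mulVec_single
      intro j
      rw [← Matrix.mulVec_mulVec, ← Matrix.mulVec_mulVec, Cfsg.Agent.Lib.ClassGeom.sympTransvection_mulVec,
        Cfsg.Agent.Lib.ClassGeom.sympTransvection_mulVec, Matrix.mulVec_add, Matrix.mulVec_smul, hv]
      have h1 := (Cfsg.Agent.Lib.ClassGeom.mem_sp_iff_pres A).1 hA (Pi.single j 1) v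
      rw [hv, hf.bilinear.smul_right] at h1
      rw [← h1]
      ext i
      simp
      ring
    rw [key, Matrix.mul_assoc, Matrix.mul_nonsing_inv A hdet, Matrix.mul_one]

end Cfsg.Agent.S0767
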