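import Cfsg.Statements.S0770
-- import your own Cfsg.Agent.* helpers here

set_option autoImplicit false
open Cfsg

namespace Cfsg.Agent.S0770

/-- For a field with at least 3 elements, an invertible matrix normalises the subgroup of invertible diagonal matrices of GL_n if and only if it is monomial (exactly one non-zero entry in each row). -/
theorem result {F : Type*} [Field F] (hF : ∃ a : F, a ≠ 0 ∧ a ≠ 1) (n : ℕ) (g : Matrix.GeneralLinearGroup (Fin n) F) : g ∈ Subgroup.normalizer ((Units.map (Matrix.diagonalRingHom (Fin n) F).toMonoidHom).range : Subgroup (Matrix.GeneralLinearGroup (Fin n) F)) ↔ ∀ i : Fin n, ∃! j : Fin n, (g : Matrix (Fin n) (Fin n) F) i j ≠ 0 := by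
  classical
  set D : Subgroup (Matrix.GeneralLinearGroup (Fin n) F) :=
    (Units.map (Matrix.diagonalRingHom (Fin n) F).toMonoidHom).range with hD
  have hmemD : ∀ h : Matrix.GeneralLinearGroup (Fin n) F,
      h ∈ D ↔ ∀ i j, i ≠ j → (h : Matrix (Fin n) (Fin n) F) i j = 0 := by
    intro h
    constructor
    · rintro ⟨u, rfl⟩ i j hij
      show Matrix.diagonal (u : Fin n → F) i j = 0
      exact Matrix.diagonal_apply_ne _ hij
    · intro hh
      have hdiag : (h : Matrix (Fin n) (Fin n) F) = Matrix.diagonal (fun i => (h : Matrix (Fin n) (Fin n) F) i i) := by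
        ext i j
        by_cases hij : i = j
        · subst hij
          simp
        · rw [Matrix.diagonal_apply_ne _ hij, hh i j hij]
      have hdet : ∀ i, (h : Matrix (Fin n) (Fin n) F) i i ≠ 0 := by
        intro i
        have h2 := (Matrix.isUnit_iff_isUnit_det _).1 h.isUnit
        rw [hdiag, Matrix.det_diagonal] at h2
        exact (Finset.prod_ne_zero_iff.1 h2.ne_zero) i (Finset.mem_univ i)
      let u : (Fin n → F)ˣ := ⟨fun i => (h : Matrix (Fin n) (Fin n) F) i i, fun i => ((h : Matrix (Fin n) (Fin n) F) i i)⁻¹,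
        by ext i; simp [hdet i], by ext i; simp [hdet i]⟩
      refine ⟨u, ?_⟩
      apply Units.ext
      exact hdiag.symm
  have hginv : (g : Matrix (Fin n) (Fin n) F) * ((g⁻¹ : Matrix.GeneralLinearGroup (Fin n) F) : Matrix (Fin n) (Fin n) F) = 1 := by
    rw [← Units.val_mul, mul_inv_cancel, Units.val_one]
  have hginv' : ((g⁻¹ : Matrix.GeneralLinearGroup (Fin n) F) : Matrix (Fin n) (Fin n) F) * (g : Matrix (Fin n) (Fin n) F) = 1 := by
    rw [← Units.val_mul, inv_mul_cancel, Units.val_one]
  have hrow : ∀ r, ∃ j, (g : Matrix (Fin n) (Fin n) F) r j ≠ 0 := by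
    intro r
    by_contra hcon
    push Not at hcon
    have h1 := congrFun (congrFun hginv r) r
    rw [Matrix.mul_apply, Matrix.one_apply_eq] at h1
    simp [hcon] at h1
  have hcol : ∀ c, ∃ i, (g : Matrix (Fin n) (Fin n) F) i c ≠ 0 := by
    intro c
    by_contra hcon
    push Not at hcon
    have h1 := congrFun (congrFun hginv' c) c
    rw [Matrix.mul_apply, Matrix.one_apply_eq] at h1
    simp [hcon] at h1
  have hcomm : ∀ h y : Matrix.GeneralLinearGroup (Fin n) F, g * h * g⁻¹ = y →
      (g : Matrix (Fin n) (Fin n) F) * (h : Matrix (Fin n) (Fin n) F) = (y : Matrix (Fin n) (Fin n) F) * (g : Matrix (Fin n) (Fin n) F) := by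
    intro h y hy
    rw [← Units.val_mul, ← Units.val_mul, ← hy]
    congr 1
    group
  rw [Subgroup.mem_normalizer_iff]
  constructor
  · intro hnorm i
    obtain ⟨j, hj⟩ := hrow i
    refine ⟨j, hj, ?_⟩
    intro j' hj'
    by_contra hne
    obtain ⟨a, ha0, ha1⟩ := hF
    -- the diagonal element with `a` in position `j`
    let dv : Fin n → F := fun k => if k = j then a else 1
    let dv' : Fin n → F := fun k => if k = j then a⁻¹ else 1
    let d : Matrix.GeneralLinearGroup (Fin n) F := ⟨Matrix.diagonal dv, Matrix.diagonal dv', by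
      rw [Matrix.diagonal_mul_diagonal, ← Matrix.diagonal_one]
      congr 1
      ext k
      by_cases hk : k = j <;> simp [dv, dv', hk, ha0], by
      rw [Matrix.diagonal_mul_diagonal, ← Matrix.diagonal_one]
      congr 1
      ext k
      by_cases hk : k = j <;> simp [dv, dv', hk, ha0]⟩
    have hdD : d ∈ D := by
      rw [hmemD]
      intro r s hrs
      exact Matrix.diagonal_apply_ne _ hrs
    have hy := (hnorm d).1 hdD
    rw [hmemD] at hy
    have h1 := hcomm d _ rfl
    have h2 := fun s => congrFun (congrFun h1 i) s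
    have hcalc : ∀ s, (g : Matrix (Fin n) (Fin n) F) i s * dv s =
        ((g * d * g⁻¹ : Matrix.GeneralLinearGroup (Fin n) F) : Matrix (Fin n) (Fin n) F) i i * (g : Matrix (Fin n) (Fin n) F) i s := by
      intro s
      have h3 := h2 s
      show _ = _
      have h4 : ((g : Matrix (Fin n) (Fin n) F) * (d : Matrix (Fin n) (Fin n) F)) i s = (g : Matrix (Fin n) (Fin n) F) i s * dv s := by
        show ((g : Matrix (Fin n) (Fin n) F) * Matrix.diagonal dv) i s = _
        rw [Matrix.mul_diagonal]
      rw [h4] at h3
      rw [h3, Matrix.mul_apply, Finset.sum_eq_single i]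
      · intro b _ hb
        rw [hy i b (Ne.symm hb), zero_mul]
      · simp
    have h5 := hcalc j
    have h6 := hcalc j'
    simp only [dv, if_true, if_neg hne] at h5 h6
    set c := ((g * d * g⁻¹ : Matrix.GeneralLinearGroup (Fin n) F) : Matrix (Fin n) (Fin n) F) i i
    have h7 : a = c := by
      apply mul_left_cancel₀ hj
      rw [h5]
      ring
    have h8 : (1 : F) = c := by
      apply mul_left_cancel₀ hj'
      linear_combination h6
    exact ha1 (h7.trans h8.symm)
  · intro hmono h
    choose σ hσ hσu using hmono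
    have hsurj : ∀ r, ∃ i, σ i = r := by
      intro r
      obtain ⟨i, hi⟩ := hcol r
      exact ⟨i, (hσu i r hi).symm⟩
    have hzero : ∀ i j, j ≠ σ i → (g : Matrix (Fin n) (Fin n) F) i j = 0 := by
      intro i j hj
      by_contra hne
      exact hj (hσu i j hne)
    have hgh : ∀ (h : Matrix (Fin n) (Fin n) F) i j, ((g : Matrix (Fin n) (Fin n) F) * h) i j =
        (g : Matrix (Fin n) (Fin n) F) i (σ i) * h (σ i) j := by
      intro h i j
      rw [Matrix.mul_apply, Finset.sum_eq_single (σ i)]
      · intro b _ hb
        rw [hzero i b hb, zero_mul]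
      · simp
    rw [hmemD, hmemD]
    constructor
    · intro hh i j hij
      -- `g h = d' g`
      have hdiag : ((g * h : Matrix.GeneralLinearGroup (Fin n) F) : Matrix (Fin n) (Fin n) F) =
          Matrix.diagonal (fun i => (h : Matrix (Fin n) (Fin n) F) (σ i) (σ i)) * (g : Matrix (Fin n) (Fin n) F) := by
        rw [Units.val_mul]
        ext r s
        rw [hgh, Matrix.diagonal_mul]
        by_cases hs : s = σ r
        · subst hs
          ring
        · rw [hh _ _ (Ne.symm hs), hzero r s hs]
          ring
      have h3 : ((g * h * g⁻¹ : Matrix.GeneralLinearGroup (Fin n) F) : Matrix (Fin n) (Fin n) F) =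
          Matrix.diagonal (fun i => (h : Matrix (Fin n) (Fin n) F) (σ i) (σ i)) := by
        rw [Units.val_mul, hdiag, Matrix.mul_assoc, hginv, Matrix.mul_one]
      rw [h3]
      exact Matrix.diagonal_apply_ne _ hij
    · intro hy r j hrj
      obtain ⟨i, rfl⟩ := hsurj r
      have h1 := hcomm h _ rfl
      have h2 := congrFun (congrFun h1 i) j
      rw [hgh] at h2
      have h3 : (g : Matrix (Fin n) (Fin n) F) i j = 0 := hzero i j (Ne.symm hrj)
      have h4 : (((g * h * g⁻¹ : Matrix.GeneralLinearGroup (Fin n) F) : Matrix (Fin n) (Fin n) F) * (g : Matrix (Fin n) (Fin n) F)) i j = 0 := by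
        rw [Matrix.mul_apply]
        apply Finset.sum_eq_zero
        intro b _
        by_cases hb : b = i
        · subst hb
          rw [h3, mul_zero]
        · rw [hy i b (Ne.symm hb), zero_mul]
      rw [h4] at h2
      rcases mul_eq_zero.1 h2 with h5 | h5
      · exact absurd h5 (hσ i)
      · exact h5

end Cfsg.Agent.S0770
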