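import Cfsg.Statements.S0775
import Cfsg.Agent.Lib.SpParab
import Cfsg.Agent.S0245
-- import your own Cfsg.Agent.* helpers here

set_option autoImplicit false
open Cfsg

namespace Cfsg.Agent.S0775

/-- Maximal parabolics of the symplectic group: if W is a k-dimensional subspace of F^(2m) on which the symplectic form vanishes identically, its stabiliser in Sp_2m(q) has order q^(k(k+1)/2 + 2k(m−k)) · |Sp_(2m−2k)(q)| · |GL_k(q)|. -/
theorem result {F : Type*} [Field F] [Fintype F] {q : ℕ} (hF : Fintype.card F = q) (m k : ℕ) (hk : k ≤ m) (W : Submodule F (Fin m ⊕ Fin m → F)) (hWk : Module.finrank F W = k) (hW : ∀ u ∈ W, ∀ v ∈ W, Cfsg.sympForm m F u v = 0) : Nat.card ↥(Cfsg.stabilizing (Cfsg.spToMat m F) (W : Set (Fin m ⊕ Fin m → F))) = q ^ (k * (k + 1) / 2 + 2 * k * (m - k)) * (q ^ ((m - k) ^ 2) * ∏ i ∈ Finset.range (m - k), (q ^ (2 * (i + 1)) - 1)) * ∏ i : Fin k, (q ^ k - q ^ (i : ℕ)) := by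
  subst hF
  open Cfsg.Agent.Lib.SpParab in
  obtain ⟨b, hb⟩ := exists_tuple (m := m) (k := k) W hWk hW
  have h1 := card_stab_eq W hWk hW b hb
  have h2 := card_sp_eq b
  have h3 := card_IsoT (F := F) k hk
  have h4 := Cfsg.Agent.S0245.result (F := F) rfl m
  have h5 : Nat.card {c : Fin k → W // LinearIndependent F c} =
      ∏ i : Fin k, (Fintype.card F ^ k - Fintype.card F ^ (i : ℕ)) := by
    have := card_linearIndependent (K := F) (V := W) (k := k) (by rw [hWk])
    rw [hWk] at this
    exact this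
  have hq : 2 ≤ Fintype.card F := Fintype.one_lt_card
  have h6 := arith (Fintype.card F) hq m k hk
  have hN : 0 < ∏ i ∈ Finset.range k, (Fintype.card F ^ (2 * m - i) - Fintype.card F ^ i) := by
    apply Finset.prod_pos
    intro i hi
    have hi' := Finset.mem_range.1 hi
    have : Fintype.card F ^ i < Fintype.card F ^ (2 * m - i) :=
      Nat.pow_lt_pow_right (by omega) (by omega)
    omega
  rw [h1, h5]
  apply Nat.eq_of_mul_eq_mul_right hN
  rw [SpG] at h2
  have e : Nat.card (Fix b) * (∏ i ∈ Finset.range k, (Fintype.card F ^ (2 * m - i) - Fintype.card F ^ i)) =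
      Nat.card (Matrix.symplecticGroup (Fin m) F) := by
    rw [h2, h3]
    ring
  rw [h4, ← h6] at e
  calc _ = (∏ i : Fin k, (Fintype.card F ^ k - Fintype.card F ^ (i : ℕ))) *
        (Nat.card (Fix b) * (∏ i ∈ Finset.range k, (Fintype.card F ^ (2 * m - i) - Fintype.card F ^ i))) := by ring
    _ = _ := by
      rw [e, pow_add _ _ ((m - k) ^ 2)]
      ring

end Cfsg.Agent.S0775
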