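import Cfsg.Statements.S0776
import Cfsg.Agent.Lib.StabProd
-- import your own Cfsg.Agent.* helpers here

set_option autoImplicit false
open Cfsg

namespace Cfsg.Agent.S0776

/-- If W ≤ F^(2m) is a 2k-dimensional subspace on which the symplectic form is non-degenerate, then the stabiliser of W in Sp_2m(F) is isomorphic to Sp_2k(F) × Sp_(2m−2k)(F). -/
theorem result {F : Type*} [Field F] (m k : ℕ) (hk : k ≤ m) (W : Submodule F (Fin m ⊕ Fin m → F)) (hWk : Module.finrank F W = 2 * k) (hW : ∀ u ∈ W, (∀ v ∈ W, Cfsg.sympForm m F u v = 0) → u = 0) : Nonempty (↥(Cfsg.stabilizing (Cfsg.spToMat m F) (W : Set (Fin m ⊕ Fin m → F))) ≃* Matrix.symplecticGroup (Fin k) F × Matrix.symplecticGroup (Fin (m - k)) F) := by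
  classical
  open Cfsg.Agent.Lib.StabProd Cfsg.Agent.Lib.FormClass Cfsg.Agent.Lib.ClassGeom in
  have main : True := trivial
  let V := Fin m ⊕ Fin m → F
  let B : LinearMap.BilinForm F (Fin m ⊕ Fin m → F) := Matrix.toBilin' (Matrix.J (Fin m) F)
  have hB : ∀ u v, B u v = Cfsg.sympForm m F u v := fun u v => by
    rw [Matrix.toBilin'_apply']
    rfl
  have hsf := Cfsg.Agent.Lib.ClassGeom.hf m F
  have hskew : ∀ x y, B x y = - B y x := fun x y => by
    rw [hB, hB]
    exact hsf.skew x y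
  have hA : B.IsAlt := fun x => by
    rw [hB]
    exact hsf.alternating x
  have hN : ∀ x, (∀ v, B x v = 0) → x = 0 := fun x hx => by
    by_contra hne
    obtain ⟨y, hy⟩ := (hsf.nondegenerate x hne).2
    apply hy
    rw [← hB]
    exact hx y
  have hsym : ∀ x y, B x y = 0 → B y x = 0 := fun x y h => by
    rw [hskew, h, neg_zero]
  have hW' : Cfsg.Agent.Lib.FormClass.NondegOn B W := fun w hw h => hW w hw (fun v hv => by
    rw [← hB]
    exact h v hv)
  obtain ⟨hd, hinf, hsup, hN'⟩ := Cfsg.Agent.Lib.StabProd.orth_compl hsym hN hW'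
  set W' := Cfsg.Agent.Lib.StabProd.orthR B W with hW'def
  have hVd : Module.finrank F (Fin m ⊕ Fin m → F) = 2 * m := by
    simp
    ring
  obtain ⟨k₁, e, f, hk₁, he, hf, hef, hee, hff⟩ := Cfsg.Agent.Lib.FormClass.alt_symplectic hA _ W hWk hW'
  have hk₁k : k₁ = k := by omega
  subst hk₁k
  have hd' : Module.finrank F W' = 2 * (m - k₁) := by omega
  obtain ⟨k₂, e', f', hk₂, he', hf', hef', hee', hff'⟩ := Cfsg.Agent.Lib.FormClass.alt_symplectic hA _ W' hd' hN'
  have hk₂k : k₂ = m - k₁ := by omega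
  subst hk₂k
  -- the family
  let v : (Fin k₁ ⊕ Fin k₁) ⊕ (Fin (m - k₁) ⊕ Fin (m - k₁)) → (Fin m ⊕ Fin m → F) :=
    Sum.elim (Sum.elim f e) (Sum.elim f' e')
  have hG1 := Cfsg.Agent.Lib.StabProd.sp_gram B hskew e f hef hee hff
  have hG2 := Cfsg.Agent.Lib.StabProd.sp_gram B hskew e' f' hef' hee' hff'
  have hWfam : ∀ s, Sum.elim f e s ∈ W := by
    rintro (i | i)
    · exact hf i
    · exact he i
  have hWfam' : ∀ s, Sum.elim f' e' s ∈ W' := by
    rintro (i | i)
    · exact hf' i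
    · exact he' i
  have hcross : ∀ s t, B (Sum.elim f e s) (Sum.elim f' e' t) = 0 := fun s t => hWfam' t _ (hWfam s)
  have hcross' : ∀ s t, B (Sum.elim f' e' s) (Sum.elim f e t) = 0 := fun s t => hsym _ _ (hcross t s)
  let G : Matrix ((Fin k₁ ⊕ Fin k₁) ⊕ (Fin (m - k₁) ⊕ Fin (m - k₁))) ((Fin k₁ ⊕ Fin k₁) ⊕ (Fin (m - k₁) ⊕ Fin (m - k₁))) F :=
    Matrix.fromBlocks (Matrix.J (Fin k₁) F) 0 0 (Matrix.J (Fin (m - k₁)) F)
  have hG : ∀ s t, B (v s) (v t) = G s t := by
    rintro (s | s) (t | t)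
    · exact hG1 s t
    · exact hcross s t
    · exact hcross' s t
    · exact hG2 s t
  have hGdet : G.det ≠ 0 := by
    simp only [G]
    rw [Matrix.det_fromBlocks_zero₂₁]
    exact mul_ne_zero (Matrix.isUnit_det_J _ _).ne_zero (Matrix.isUnit_det_J _ _).ne_zero
  have hli : LinearIndependent F v := by
    rw [Fintype.linearIndependent_iff]
    intro c hc
    have h1 : Matrix.vecMul c G = 0 := by
      funext t
      have h2 := congrArg (fun z => B z (v t)) hc
      simp only [map_sum, map_smul, LinearMap.sum_apply, LinearMap.smul_apply, smul_eq_mul, map_zero, LinearMap.zero_apply, hG] at h2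
      exact h2
    have h3 := Matrix.eq_zero_of_vecMul_eq_zero hGdet h1
    intro s
    exact congrFun h3 s
  have hcard : Fintype.card ((Fin k₁ ⊕ Fin k₁) ⊕ (Fin (m - k₁) ⊕ Fin (m - k₁))) = Module.finrank F (Fin m ⊕ Fin m → F) := by
    rw [hVd]
    simp
    omega
  let b := Module.Basis.mk hli (hli.span_eq_top_of_card_eq_finrank' hcard).ge
  have hb : ∀ s, b s = v s := fun s => Module.Basis.mk_apply _ _ _
  refine Cfsg.Agent.Lib.StabProd.stab_equiv_prod (Cfsg.sympForm m F) (Cfsg.sympForm k₁ F) (Cfsg.sympForm (m - k₁) F)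
    (Cfsg.spToMat m F) (Cfsg.spToMat k₁ F) (Cfsg.spToMat (m - k₁) F) Subtype.val_injective Subtype.val_injective Subtype.val_injective
    (Cfsg.Agent.Lib.StabProd.sp_range m) (Cfsg.Agent.Lib.StabProd.sp_range k₁) (Cfsg.Agent.Lib.StabProd.sp_range (m - k₁))
    (Cfsg.Agent.Lib.StabProd.matP b) (Cfsg.Agent.Lib.StabProd.matP' b) (Cfsg.Agent.Lib.StabProd.matP_mul b) (Cfsg.Agent.Lib.StabProd.matP'_mul b)
    ?_ (W : Set (Fin m ⊕ Fin m → F)) ?_ ?_ ?_ ?_
  · intro x y
    rw [Cfsg.Agent.Lib.StabProd.matP_mulVec, Cfsg.Agent.Lib.StabProd.matP_mulVec, ← hB,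
      Cfsg.Agent.Lib.StabProd.gram_expand (RingHom.id F) B (⇑b) x y]
    simp only [hb, hG, RingHom.id_apply]
    refine Eq.trans (Cfsg.Agent.Lib.StabProd.block_sum (Matrix.J (Fin k₁) F) (Matrix.J (Fin (m - k₁)) F) (RingHom.id F) x y) ?_
    rw [Cfsg.Agent.Lib.StabProd.sympForm_double, Cfsg.Agent.Lib.StabProd.sympForm_double]
    rfl
  · intro u
    exact Cfsg.Agent.Lib.StabProd.mem_iff_coord b W (fun i => by
      rw [hb]
      exact hWfam i) (by simp [hWk]; ring) u
  · intro y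
    simp [Cfsg.sympForm]
  · intro x
    simp [Cfsg.sympForm]
  · intro x hx
    by_contra hne
    obtain ⟨y, hy⟩ := ((Cfsg.Agent.Lib.ClassGeom.hf k₁ F).nondegenerate x hne).2
    exact hy (hx y)

end Cfsg.Agent.S0776
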