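import Cfsg.Statements.S0779
import Cfsg.Agent.Lib.UnitaryHerm
-- import your own Cfsg.Agent.* helpers here

set_option autoImplicit false
open Cfsg

namespace Cfsg.Agent.S0779

/-- Unitary transvections: let |F| = q², h the standard Hermitian form Σ x_i y_i^q and v ≠ 0 with h(v, v) = 0. The linear map x ↦ x + c h(x, v) v is an isometry of h if and only if c = 0 or c^(q−1) = −1. -/
theorem result {F : Type*} [Field F] [Fintype F] {q : ℕ} (hF : Fintype.card F = q ^ 2) (n : ℕ) (v : Fin n → F) (hv : v ≠ 0) (hv0 : Cfsg.hermForm n F q v v = 0) (c : F) : (∀ x y : Fin n → F, Cfsg.hermForm n F q ((Cfsg.unitaryTransvection n q v c).mulVec x) ((Cfsg.unitaryTransvection n q v c).mulVec y) = Cfsg.hermForm n F q x y) ↔ (c = 0 ∨ c ^ (q - 1) = -1) := by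
  classical
  obtain ⟨σ, hσ⟩ := Cfsg.Agent.Lib.UnitaryHerm.exists_sigma hF
  have hf := Cfsg.Agent.Lib.UnitaryHerm.hermForm_isUnitary (n := n) hF hσ
  have hq := Cfsg.Agent.Lib.UnitaryHerm.q_two_le hF
  have hT : ∀ x : Fin n → F, Matrix.mulVec (Cfsg.unitaryTransvection n q v c) x =
      x + (c * Cfsg.hermForm n F q x v) • v := by
    intro x
    rw [Cfsg.unitaryTransvection, Matrix.add_mulVec, Matrix.one_mulVec, Matrix.smul_mulVec,
      Matrix.vecMulVec_mulVec]
    ext i
    simp only [Cfsg.hermForm, Pi.add_apply, Pi.smul_apply, smul_eq_mul, dotProduct, op_smul_eq_mul]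
    have : ∑ j, v j ^ q * x j = ∑ j, x j * v j ^ q := Finset.sum_congr rfl fun j _ => mul_comm _ _
    rw [this]
    ring
  have hform : ∀ x y : Fin n → F, Cfsg.hermForm n F q (Matrix.mulVec (Cfsg.unitaryTransvection n q v c) x)
      (Matrix.mulVec (Cfsg.unitaryTransvection n q v c) y) =
      Cfsg.hermForm n F q x y + (c + σ c) * (Cfsg.hermForm n F q x v * Cfsg.hermForm n F q v y) := by
    intro x y
    rw [hT, hT, hf.add_left, hf.smul_left, Cfsg.Agent.Lib.UnitaryBase.f_add_right hf,
      Cfsg.Agent.Lib.UnitaryBase.f_add_right hf, Cfsg.Agent.Lib.UnitaryBase.f_smul_right hf,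
      Cfsg.Agent.Lib.UnitaryBase.f_smul_right hf, hv0, map_mul, ← hf.herm v y]
    ring
  have hσc : σ c = c ^ q := hσ c
  constructor
  · intro h
    obtain ⟨i, hi⟩ := Function.ne_iff.1 hv
    have hi' : v i ≠ 0 := by simpa using hi
    have h1 := h (Pi.single i 1) (Pi.single i 1)
    rw [hform] at h1
    have h2 : Cfsg.hermForm n F q (Pi.single i 1) v = v i ^ q := by
      simp only [Cfsg.hermForm]
      rw [Finset.sum_eq_single i]
      · simp
      · intro j _ hj
        simp [Pi.single_eq_of_ne hj]
      · simp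
    have h3 : Cfsg.hermForm n F q v (Pi.single i 1) = v i := by
      simp only [Cfsg.hermForm]
      rw [Finset.sum_eq_single i]
      · simp [show q ≠ 0 by omega]
      · intro j _ hj
        simp [Pi.single_eq_of_ne hj, show q ≠ 0 by omega]
      · simp
    rw [h2, h3] at h1
    have h4 : (c + σ c) * (v i ^ q * v i) = 0 := by linear_combination h1
    have h5 : c + σ c = 0 := by
      rcases mul_eq_zero.1 h4 with h | h
      · exact h
      · exact absurd h (mul_ne_zero (pow_ne_zero _ hi') hi')
    by_cases hc : c = 0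
    · exact Or.inl hc
    · right
      have h6 : c ^ (q - 1) * c = c ^ q := by
        rw [← pow_succ]
        congr 1
        omega
      apply mul_right_cancel₀ hc
      rw [h6, ← hσc]
      linear_combination h5
  · intro h x y
    rw [hform]
    have h0 : c + σ c = 0 := by
      rw [hσc]
      rcases h with rfl | h
      · simp [show q ≠ 0 by omega]
      · have h6 : c ^ (q - 1) * c = c ^ q := by
          rw [← pow_succ]
          congr 1
          omega
        rw [← h6, h]
        ring
    rw [h0]
    ring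

end Cfsg.Agent.S0779
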