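import Cfsg.Statements.S0780
import Cfsg.Agent.Lib.Unitary3
-- import your own Cfsg.Agent.* helpers here

set_option autoImplicit false
open Cfsg

namespace Cfsg.Agent.S0780

/-- Generation of SU_n(q), n ≥ 3, (n, q) ≠ (3, 2), by unitary transvections: the subgroup generated by the elements whose matrix is x ↦ x + c h(x, v) v with v isotropic is all of SU_n(q). -/
theorem result {F : Type*} [Field F] [Fintype F] {q : ℕ} (hF : Fintype.card F = q ^ 2) (n : ℕ) (hn : 3 ≤ n) (h32 : ¬ (n = 3 ∧ q = 2)) : Subgroup.closure {A : ↥(Cfsg.SU n F q) | ∃ (v : Fin n → F) (c : F), Cfsg.hermForm n F q v v = 0 ∧ ((A : Matrix.SpecialLinearGroup (Fin n) F) : Matrix (Fin n) (Fin n) F) = Cfsg.unitaryTransvection n q v c} = ⊤ := by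
  classical
  obtain ⟨σ, hσ⟩ := Cfsg.Agent.Lib.UnitaryHerm.exists_sigma hF
  have hf := Cfsg.Agent.Lib.UnitaryHerm.hermForm_isUnitary (n := n) hF hσ
  have hN := Cfsg.Agent.Lib.UnitaryHerm.norm_surjective hF hσ
  have hq := Cfsg.Agent.Lib.UnitaryHerm.q_two_le hF
  rw [eq_top_iff]
  intro A _
  have hmem : Cfsg.Agent.Lib.Unitary3.suHom n q F A ∈ Cfsg.Agent.Lib.UnitaryGen.uG hf ⊤ := by
    by_cases h4 : 4 ≤ n
    · exact Cfsg.Agent.Lib.UnitaryGen.isom_mem_uG hf hN (by simpa using h4)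
        (Cfsg.Agent.Lib.Unitary3.suHom_isIsom A) (Cfsg.Agent.Lib.Unitary3.suHom_det A)
    · have hn3 : n = 3 := by omega
      have hq3 : 3 ≤ q := by
        by_contra h
        exact h32 ⟨hn3, by omega⟩
      obtain ⟨μ, h1, h2, h3⟩ := Cfsg.Agent.Lib.Unitary3.exists_fix_ne hF hq3 hσ
      exact Cfsg.Agent.Lib.Unitary3.isom_mem_uG3 hf h1 h2 h3 hN (by simpa using hn)
        (Cfsg.Agent.Lib.Unitary3.suHom_isIsom A) (Cfsg.Agent.Lib.Unitary3.suHom_det A)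
  set C := Subgroup.closure {A : ↥(Cfsg.SU n F q) | ∃ (v : Fin n → F) (c : F), Cfsg.hermForm n F q v v = 0 ∧ ((A : Matrix.SpecialLinearGroup (Fin n) F) : Matrix (Fin n) (Fin n) F) = Cfsg.unitaryTransvection n q v c} with hC
  have hle : Cfsg.Agent.Lib.UnitaryGen.uG hf ⊤ ≤ C.map (Cfsg.Agent.Lib.Unitary3.suHom n q F) := by
    apply Cfsg.Agent.Lib.UnitaryGen.uG_le
    intro a _ ha c hc
    obtain ⟨B, hB⟩ := Cfsg.Agent.Lib.Unitary3.exists_suHom_eq (q := q) (Cfsg.Agent.Lib.UnitaryBase.tt_isIsom hf ha hc)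
      (Cfsg.Agent.Lib.UnitaryBase.tt_mem_specialLinear hf a c)
    refine ⟨B, Subgroup.subset_closure ⟨a, c, ha, ?_⟩, hB⟩
    rw [← Cfsg.Agent.Lib.Unitary3.suHom_coe, hB, Cfsg.Agent.Lib.Unitary3.tt_coe hf c ha]
  obtain ⟨B, hB, hBA⟩ := hle hmem
  have : B = A := Cfsg.Agent.Lib.Unitary3.suHom_injective hBA
  rwa [← this]

end Cfsg.Agent.S0780
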