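import Cfsg.Statements.S0781
import Cfsg.Agent.Lib.Unitary3
-- import your own Cfsg.Agent.* helpers here

set_option autoImplicit false
open Cfsg

namespace Cfsg.Agent.S0781

/-- In SU_n(q) with n ≥ 4, or n = 3 and q > 2, every element whose matrix is a unitary transvection x ↦ x + c h(x, v) v (v isotropic) is a commutator ⁅B, C⁆ of two elements of SU_n(q). -/
theorem result {F : Type*} [Field F] [Fintype F] {q : ℕ} (hF : Fintype.card F = q ^ 2) (n : ℕ) (hn : 4 ≤ n ∨ (n = 3 ∧ 3 ≤ q)) (A : ↥(Cfsg.SU n F q)) (v : Fin n → F) (c : F) (hv0 : Cfsg.hermForm n F q v v = 0) (hA : ((A : Matrix.SpecialLinearGroup (Fin n) F) : Matrix (Fin n) (Fin n) F) = Cfsg.unitaryTransvection n q v c) : A ∈ commutatorSet ↥(Cfsg.SU n F q) := by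
  classical
  obtain ⟨σ, hσ⟩ := Cfsg.Agent.Lib.UnitaryHerm.exists_sigma hF
  have hf := Cfsg.Agent.Lib.UnitaryHerm.hermForm_isUnitary (n := n) hF hσ
  have hN := Cfsg.Agent.Lib.UnitaryHerm.norm_surjective hF hσ
  by_cases hv : v = 0
  · refine ⟨1, 1, ?_⟩
    have h1 : A = 1 := by
      apply Subtype.ext
      apply Subtype.ext
      rw [hA, Cfsg.unitaryTransvection, hv]
      ext i j
      simp [Matrix.vecMulVec, Matrix.one_apply]
    rw [h1]
    simp
  have hAcoe : ((Cfsg.Agent.Lib.Unitary3.suHom n q F A : GL (Fin n) F) : Matrix (Fin n) (Fin n) F) = Cfsg.unitaryTransvection n q v c := by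
    rw [Cfsg.Agent.Lib.Unitary3.suHom_coe, hA]
  have hc : c + σ c = 0 := by
    obtain ⟨x, hx⟩ := Cfsg.Agent.Lib.UnitaryBase.exists_left_ne hf hv
    have hi := Cfsg.Agent.Lib.Unitary3.suHom_isIsom A x x
    rw [hAcoe, Cfsg.Agent.Lib.Unitary3.unitaryTransvection_mulVec] at hi
    simp only [hf.add_left, Cfsg.Agent.Lib.UnitaryBase.f_add_right hf, hf.smul_left,
      Cfsg.Agent.Lib.UnitaryBase.f_smul_right hf, hv0, map_mul, Cfsg.Agent.Lib.UnitaryBase.sigma_f hf] at hi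
    have hy : (c + σ c) * (Cfsg.hermForm n F q x v * Cfsg.hermForm n F q v x) = 0 := by
      linear_combination hi
    rcases mul_eq_zero.1 hy with h | h
    · exact h
    · exfalso
      rcases mul_eq_zero.1 h with h | h
      · exact hx h
      · exact Cfsg.Agent.Lib.UnitaryBase.f_comm_ne hf hx h
  have key : ∃ s t : GL (Fin n) F, Cfsg.Agent.Lib.SymplecticTv.IsIsom (Cfsg.hermForm n F q) s ∧ s ∈ Cfsg.Geo.specialLinear (Fin n) F ∧ Cfsg.Agent.Lib.SymplecticTv.IsIsom (Cfsg.hermForm n F q) t ∧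
      t ∈ Cfsg.Geo.specialLinear (Fin n) F ∧ s * t * s⁻¹ * t⁻¹ = Cfsg.Agent.Lib.UnitaryBase.tt hf v c := by
    by_cases h4 : 4 ≤ n
    · exact Cfsg.Agent.Lib.Unitary3.tt_commutator4 hf hN (by simpa using h4) hv hv0 hc
    · obtain ⟨hn3, hq3⟩ : n = 3 ∧ 3 ≤ q := by
        rcases hn with h | h
        · exact absurd h h4
        · exact h
      obtain ⟨μ, h1, h2, h3⟩ := Cfsg.Agent.Lib.Unitary3.exists_fix_ne hF hq3 hσ
      exact Cfsg.Agent.Lib.Unitary3.tt_commutator3 hf h1 h2 h3 hN (by simp [hn3]) hv hv0 hc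
  obtain ⟨s, t, hs1, hs2, ht1, ht2, hst⟩ := key
  obtain ⟨B, hB⟩ := Cfsg.Agent.Lib.Unitary3.exists_suHom_eq hs1 hs2
  obtain ⟨C, hC⟩ := Cfsg.Agent.Lib.Unitary3.exists_suHom_eq ht1 ht2
  refine ⟨B, C, ?_⟩
  apply Cfsg.Agent.Lib.Unitary3.suHom_injective
  open scoped commutatorElement in
  have e : Cfsg.Agent.Lib.Unitary3.suHom n q F ⁅B, C⁆ = s * t * s⁻¹ * t⁻¹ := by
    rw [map_commutatorElement, hB, hC, commutatorElement_def]
  rw [e, hst]
  apply Units.ext
  rw [Cfsg.Agent.Lib.Unitary3.tt_coe hf c hv0, hAcoe]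

end Cfsg.Agent.S0781
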