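import Cfsg.Statements.S0783
import Cfsg.Agent.Lib.GUQuot
-- import your own Cfsg.Agent.* helpers here

set_option autoImplicit false
open Cfsg

namespace Cfsg.Agent.S0783

/-- PGU_n(q)/PSU_n(q) is cyclic of order (n, q+1): for n ≥ 2 and |F| = q² there is a surjective homomorphism from GU_n(q) onto the cyclic group of order gcd(n, q + 1) whose kernel is generated by the determinant-one elements together with the centre. -/
theorem result {F : Type*} [Field F] [Fintype F] {q : ℕ} (hF : Fintype.card F = q ^ 2) (n : ℕ) (hn : 2 ≤ n) : ∃ φ : ↥(Cfsg.GU n F q) →* Multiplicative (ZMod (Nat.gcd n (q + 1))), Function.Surjective φ ∧ φ.ker = (Matrix.GeneralLinearGroup.det : Matrix.GeneralLinearGroup (Fin n) F →* Fˣ).ker.subgroupOf (Cfsg.GU n F q) ⊔ Subgroup.center ↥(Cfsg.GU n F q) := by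
  classical
  obtain ⟨σ, hσ⟩ := Cfsg.Agent.Lib.UnitaryHerm.exists_sigma hF
  have hf := Cfsg.Agent.Lib.UnitaryHerm.hermForm_isUnitary (n := n) hF hσ
  have hq := Cfsg.Agent.Lib.UnitaryHerm.q_two_le hF
  obtain ⟨ω, hω1, hω2⟩ := Cfsg.Agent.Lib.GUQuot.exists_normOne hF
  have hω3 : (ω : F) ^ (q + 1) = 1 := by
    have := (hω2 ω).1 (Subgroup.mem_zpowers _)
    simpa using congrArg Units.val this
  have hω4 : (ω : F) ≠ 1 := by
    intro h
    have h1 : ω = 1 := Units.ext h
    rw [h1, orderOf_one] at hω1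
    omega
  set C := Subgroup.zpowers ω with hC
  have hcard : Nat.card C = q + 1 := by rw [hC, Nat.card_zpowers, hω1]
  have hmem : ∀ g : ↥(Cfsg.GU n F q), (Matrix.GeneralLinearGroup.det : Matrix.GeneralLinearGroup (Fin n) F →* Fˣ) (g : Matrix.GeneralLinearGroup (Fin n) F) ∈ C := by
    intro g
    rw [hC, hω2]
    apply Units.ext
    have := Cfsg.Agent.Lib.GUQuot.det_pow_of_mem hF hσ g.2
    simpa [Matrix.GeneralLinearGroup.val_det_apply] using this
  let ψ : ↥(Cfsg.GU n F q) →* C := MonoidHom.codRestrict ((Matrix.GeneralLinearGroup.det : Matrix.GeneralLinearGroup (Fin n) F →* Fˣ).comp (Cfsg.GU n F q).subtype) C hmem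
  have hψ : ∀ g, ((ψ g : C) : Fˣ) = (Matrix.GeneralLinearGroup.det : Matrix.GeneralLinearGroup (Fin n) F →* Fˣ) (g : Matrix.GeneralLinearGroup (Fin n) F) := fun g => rfl
  have i0 : Fin n := ⟨0, by omega⟩
  have hsurj : Function.Surjective ψ := by
    rintro ⟨c, hc⟩
    have hc1 : c ^ (q + 1) = 1 := (hω2 c).1 hc
    have hc2 : (c : F) ^ (q + 1) = 1 := by simpa using congrArg Units.val hc1
    set d : Fin n → F := Function.update 1 i0 (c : F) with hd
    have hd0 : ∀ k, d k ≠ 0 := by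
      intro k
      by_cases hk : k = i0
      · subst hk
        simpa [hd] using c.ne_zero
      · simp [hd, Function.update_of_ne hk]
    have hd1 : ∀ k, d k ^ (q + 1) = 1 := by
      intro k
      by_cases hk : k = i0
      · subst hk
        simpa [hd] using hc2
      · simp [hd, Function.update_of_ne hk]
    refine ⟨⟨Cfsg.Agent.Lib.GUQuot.diagGL d hd0, Cfsg.Agent.Lib.GUQuot.diagGL_mem d hd0 hd1⟩, ?_⟩
    apply Subtype.ext
    rw [hψ]
    apply Units.ext
    simp only [Matrix.GeneralLinearGroup.val_det_apply, Cfsg.Agent.Lib.GUQuot.diagGL_coe, Matrix.det_diagonal]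
    rw [Finset.prod_eq_single i0]
    · simp [hd]
    · intro k _ hk
      simp [hd, Function.update_of_ne hk]
    · simp
  have h1 : ∀ c : C, ∃ z ∈ Subgroup.center ↥(Cfsg.GU n F q), ψ z = c ^ n := by
    rintro ⟨c, hc⟩
    have hc1 : c ^ (q + 1) = 1 := (hω2 c).1 hc
    have hc2 : (c : F) ^ (q + 1) = 1 := by simpa using congrArg Units.val hc1
    have hd0 : ∀ k : Fin n, (fun _ => (c : F)) k ≠ 0 := fun k => c.ne_zero
    refine ⟨⟨Cfsg.Agent.Lib.GUQuot.diagGL (fun _ => (c : F)) hd0, Cfsg.Agent.Lib.GUQuot.diagGL_mem _ hd0 (fun _ => hc2)⟩, ?_, ?_⟩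
    · rw [Subgroup.mem_center_iff]
      intro g
      apply Subtype.ext
      apply Units.ext
      simp only [Subgroup.coe_mul, Units.val_mul, Cfsg.Agent.Lib.GUQuot.diagGL_coe]
      ext i j
      rw [Matrix.mul_diagonal, Matrix.diagonal_mul, mul_comm]
    · apply Subtype.ext
      rw [hψ]
      apply Units.ext
      simp [Matrix.GeneralLinearGroup.val_det_apply, Cfsg.Agent.Lib.GUQuot.diagGL_coe, Matrix.det_diagonal]
  have h2 : ∀ z ∈ Subgroup.center ↥(Cfsg.GU n F q), ∃ c : C, ψ z = c ^ n := by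
    intro z hz
    obtain ⟨l, hl⟩ := Cfsg.Agent.Lib.GUQuot.center_scalar hF hn ω.ne_zero hω4 hω3 hz
    have hdet : ((z : Matrix.GeneralLinearGroup (Fin n) F) : Matrix (Fin n) (Fin n) F).det = l ^ n := by
      rw [hl, Matrix.det_smul, Matrix.det_one, mul_one, Fintype.card_fin]
    have hn0 : n ≠ 0 := by omega
    have hl0 : l ≠ 0 := by
      rintro rfl
      have h3 := Matrix.GeneralLinearGroup.det_ne_zero (z : Matrix.GeneralLinearGroup (Fin n) F)
      rw [hdet, zero_pow hn0] at h3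
      exact h3 rfl
    have hl1 : l ^ (q + 1) = 1 := by
      have h3 := (Cfsg.Agent.Lib.GUQuot.mem_GU_iff (q := q) _).1 z.2 (Pi.single i0 1) (Pi.single i0 1)
      rw [hl, Matrix.smul_mulVec, Matrix.one_mulVec, hf.smul_left,
        Cfsg.Agent.Lib.UnitaryBase.f_smul_right hf, hσ] at h3
      have h4 : Cfsg.hermForm n F q (Pi.single i0 1) (Pi.single i0 1) = 1 := by
        simp only [Cfsg.hermForm]
        rw [Finset.sum_eq_single i0]
        · simp [show q ≠ 0 by omega]
        · intro k _ hk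
          simp [Pi.single_eq_of_ne hk]
        · simp
      rw [h4] at h3
      rw [pow_succ, mul_comm]
      simpa using h3
    refine ⟨⟨Units.mk0 l hl0, (hω2 _).2 (Units.ext (by simpa using hl1))⟩, ?_⟩
    apply Subtype.ext
    rw [hψ]
    apply Units.ext
    simp [Matrix.GeneralLinearGroup.val_det_apply, hdet]
  obtain ⟨φ, hφ1, hφ2⟩ := Cfsg.Agent.Lib.GUQuot.exists_cyclic_quot' hcard ψ hsurj n _ h1 h2
  refine ⟨φ, hφ1, ?_⟩
  rw [hφ2]
  congr 1
  ext g
  rw [MonoidHom.mem_ker, Subgroup.mem_subgroupOf, MonoidHom.mem_ker]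
  constructor
  · intro h
    have := congrArg Subtype.val h
    rwa [hψ] at this
  · intro h
    apply Subtype.ext
    rw [hψ]
    exact h

end Cfsg.Agent.S0783
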