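import Cfsg.Statements.S0786
import Cfsg.Agent.Lib.QuadRefl
-- import your own Cfsg.Agent.* helpers here

set_option autoImplicit false
open Cfsg

namespace Cfsg.Agent.S0786

/-- Generation by reflections: if F is finite, Q is a quadratic form on F^n with non-degenerate polar form, and (|F|, n) ≠ (2, 4), then the isometry group of Q is generated by the reflections r_v, Q(v) ≠ 0. -/
theorem result {F : Type*} [Field F] [Fintype F] {n : ℕ} (Q : QuadraticForm F (Fin n → F)) (hQ : (QuadraticMap.polarBilin Q).Nondegenerate) (h : Fintype.card F ≠ 2 ∨ n ≠ 4) : Subgroup.closure {g : ↥(Cfsg.isometryGroup F ⇑Q) | ∃ v : Fin n → F, Q v ≠ 0 ∧ ((g : Matrix.GeneralLinearGroup (Fin n) F) : Matrix (Fin n) (Fin n) F) = Cfsg.reflectionMatrix ⇑Q v} = ⊤ := by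
  classical
  open Cfsg.Agent.Lib.QuadRefl Cfsg.Agent.Lib.QuadSiegel in
  have hQ' := nondeg_of_form Q hQ
  open Cfsg.Agent.Lib.QuadRefl Cfsg.Agent.Lib.QuadSiegel in
  have hle : rfG hQ' ≤ (Subgroup.closure {g : ↥(Cfsg.isometryGroup F ⇑Q) | ∃ v : Fin n → F, Q v ≠ 0 ∧ ((g : Matrix.GeneralLinearGroup (Fin n) F) : Matrix (Fin n) (Fin n) F) = Cfsg.reflectionMatrix ⇑Q v}).map (Cfsg.isometryGroup F ⇑Q).subtype := by
    refine (Subgroup.closure_le _).2 ?_
    rintro s ⟨a, ha, rfl⟩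
    refine ⟨⟨rf hQ' a, mem_isometryGroup_iff.2 (rf_isom hQ' a)⟩, Subgroup.subset_closure ⟨a, ha, ?_⟩, rfl⟩
    exact rf_val hQ' ha
  rw [eq_top_iff]
  rintro g -
  open Cfsg.Agent.Lib.QuadRefl Cfsg.Agent.Lib.QuadSiegel in
  obtain ⟨t, ht, hte⟩ := hle (isom_mem_rfG hQ' (by simpa using h) (mem_isometryGroup_iff.1 g.2))
  have : t = g := Subtype.ext hte
  rwa [← this]

end Cfsg.Agent.S0786
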