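import Cfsg.Statements.S0792
import Cfsg.Agent.Lib.QuadRefl
import Cfsg.Agent.S0786
-- import your own Cfsg.Agent.* helpers here

set_option autoImplicit false
open Cfsg

namespace Cfsg.Agent.S0792

/-- For q odd and Q with non-degenerate polar form on F^n, the determinant-one isometries form the subgroup generated by all products r_u r_v of two reflections (Q(u), Q(v) ≠ 0). -/
theorem result {F : Type*} [Field F] [Fintype F] (h2 : (2 : F) ≠ 0) {n : ℕ} (Q : QuadraticForm F (Fin n → F)) (hQ : (QuadraticMap.polarBilin Q).Nondegenerate) : Cfsg.specialIsometryGroup F ⇑Q = Subgroup.closure {g : ↥(Cfsg.isometryGroup F ⇑Q) | ∃ u v : Fin n → F, Q u ≠ 0 ∧ Q v ≠ 0 ∧ ((g : Matrix.GeneralLinearGroup (Fin n) F) : Matrix (Fin n) (Fin n) F) = Cfsg.reflectionMatrix ⇑Q u * Cfsg.reflectionMatrix ⇑Q v} := by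
  classical
  have h2' : (-1 : F) ≠ 1 := by
    intro h
    apply h2
    linear_combination -h
  have htop := Cfsg.Agent.S0786.result Q hQ (Or.inl (fun hc => h2 (by
    have := FiniteField.cast_card_eq_zero F
    rw [hc] at this
    exact_mod_cast this)))
  set S := {g : ↥(Cfsg.isometryGroup F ⇑Q) | ∃ v : Fin n → F, Q v ≠ 0 ∧ ((g : Matrix.GeneralLinearGroup (Fin n) F) : Matrix (Fin n) (Fin n) F) = Cfsg.reflectionMatrix ⇑Q v} with hS
  set E := Subgroup.closure {g : ↥(Cfsg.isometryGroup F ⇑Q) | ∃ u v : Fin n → F, Q u ≠ 0 ∧ Q v ≠ 0 ∧ ((g : Matrix.GeneralLinearGroup (Fin n) F) : Matrix (Fin n) (Fin n) F) = Cfsg.reflectionMatrix ⇑Q u * Cfsg.reflectionMatrix ⇑Q v} with hE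
  have hdet : ∀ g : ↥(Cfsg.isometryGroup F ⇑Q), g ∈ Cfsg.specialIsometryGroup F ⇑Q ↔ ((g : Matrix.GeneralLinearGroup (Fin n) F) : Matrix (Fin n) (Fin n) F).det = 1 := by
    intro g
    rw [Cfsg.specialIsometryGroup, MonoidHom.mem_ker, ← Units.val_inj]
    rfl
  have hSdet : ∀ y ∈ S, ((y : Matrix.GeneralLinearGroup (Fin n) F) : Matrix (Fin n) (Fin n) F).det = -1 := by
    rintro y ⟨v, hv, hy⟩
    rw [hy, Cfsg.Agent.Lib.QuadGeom.reflection_det Q hv]
  have hSS : ∀ x ∈ S, ∀ y ∈ S, x * y ∈ E := by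
    rintro x ⟨u, hu, hx⟩ y ⟨v, hv, hy⟩
    refine Subgroup.subset_closure ⟨u, v, hu, hv, ?_⟩
    change ((x : Matrix.GeneralLinearGroup (Fin n) F) : Matrix (Fin n) (Fin n) F) * ((y : Matrix.GeneralLinearGroup (Fin n) F) : Matrix (Fin n) (Fin n) F) = _
    rw [hx, hy]
  have hinv : ∀ y ∈ S, y⁻¹ = y := by
    rintro y ⟨v, hv, hy⟩
    apply inv_eq_of_mul_eq_one_left
    apply Subtype.ext
    apply Units.ext
    change ((y : Matrix.GeneralLinearGroup (Fin n) F) : Matrix (Fin n) (Fin n) F) * ((y : Matrix.GeneralLinearGroup (Fin n) F) : Matrix (Fin n) (Fin n) F) = 1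
    rw [hy]
    apply Matrix.mulVec_injective
    funext x
    rw [← Matrix.mulVec_mulVec, Matrix.one_mulVec, Cfsg.Agent.Lib.QuadGeom.reflection_mulVec Q v x, Cfsg.Agent.Lib.QuadGeom.reflection_mulVec Q v]
    rw [QuadraticMap.polar_sub_right, QuadraticMap.polar_smul_right, Cfsg.Agent.Lib.QuadGeom.polar_self' Q v]
    simp only [smul_eq_mul]
    have : (Q v)⁻¹ * (QuadraticMap.polar (⇑Q) v x - (Q v)⁻¹ * QuadraticMap.polar (⇑Q) v x * (2 * Q v)) = -((Q v)⁻¹ * QuadraticMap.polar (⇑Q) v x) := by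
      field_simp
      ring
    rw [this]
    module
  have hP : ∀ g : ↥(Cfsg.isometryGroup F ⇑Q), (((g : Matrix.GeneralLinearGroup (Fin n) F) : Matrix (Fin n) (Fin n) F).det = 1 ∧ g ∈ E) ∨ (((g : Matrix.GeneralLinearGroup (Fin n) F) : Matrix (Fin n) (Fin n) F).det = -1 ∧ ∀ r ∈ S, g * r ∈ E) := by
    intro g
    have hg : g ∈ Subgroup.closure S := by rw [htop]; exact Subgroup.mem_top g
    have hdm : ∀ a b : ↥(Cfsg.isometryGroup F ⇑Q), (((a * b : ↥(Cfsg.isometryGroup F ⇑Q)) : Matrix.GeneralLinearGroup (Fin n) F) : Matrix (Fin n) (Fin n) F).det = ((a : Matrix.GeneralLinearGroup (Fin n) F) : Matrix (Fin n) (Fin n) F).det * ((b : Matrix.GeneralLinearGroup (Fin n) F) : Matrix (Fin n) (Fin n) F).det := fun a b => Matrix.det_mul _ _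
    have step : ∀ x y : ↥(Cfsg.isometryGroup F ⇑Q), y ∈ S → ((((x : Matrix.GeneralLinearGroup (Fin n) F) : Matrix (Fin n) (Fin n) F).det = 1 ∧ x ∈ E) ∨ (((x : Matrix.GeneralLinearGroup (Fin n) F) : Matrix (Fin n) (Fin n) F).det = -1 ∧ ∀ r ∈ S, x * r ∈ E)) → ((((x * y : ↥(Cfsg.isometryGroup F ⇑Q)) : Matrix.GeneralLinearGroup (Fin n) F) : Matrix (Fin n) (Fin n) F).det = 1 ∧ x * y ∈ E) ∨ ((((x * y : ↥(Cfsg.isometryGroup F ⇑Q)) : Matrix.GeneralLinearGroup (Fin n) F) : Matrix (Fin n) (Fin n) F).det = -1 ∧ ∀ r ∈ S, x * y * r ∈ E) := by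
      intro x y hy hx
      rcases hx with ⟨h1, h3⟩ | ⟨h1, h3⟩
      · right
        refine ⟨by rw [hdm, h1, hSdet y hy, one_mul], fun r hr => ?_⟩
        rw [mul_assoc]
        exact E.mul_mem h3 (hSS y hy r hr)
      · left
        exact ⟨by rw [hdm, h1, hSdet y hy]; ring, h3 y hy⟩
    induction hg using Subgroup.closure_induction_right with
    | one =>
      left
      exact ⟨by simp, E.one_mem⟩
    | mul_right x _ y hy hx => exact step x y hy hx
    | mul_inv_cancel x _ y hy hx =>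
      rw [hinv y hy]
      exact step x y hy hx
  apply le_antisymm
  · intro g hg
    rcases hP g with ⟨_, h3⟩ | ⟨h1, _⟩
    · exact h3
    · rw [hdet] at hg
      exact absurd (h1.symm.trans hg) h2'
  · refine (Subgroup.closure_le _).2 ?_
    rintro g ⟨u, v, hu, hv, hg⟩
    have : g ∈ Cfsg.specialIsometryGroup F ⇑Q := by
      rw [hdet, hg, Matrix.det_mul, Cfsg.Agent.Lib.QuadGeom.reflection_det Q hu, Cfsg.Agent.Lib.QuadGeom.reflection_det Q hv]
      ring
    exact this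

end Cfsg.Agent.S0792
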