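import Cfsg.Statements.S0794
import Cfsg.Agent.Lib.QuadRefl
-- import your own Cfsg.Agent.* helpers here

set_option autoImplicit false
open Cfsg

namespace Cfsg.Agent.S0794

/-- For q odd, n ≥ 5 and Q with non-degenerate polar form: an isometry whose matrix is a Siegel transformation T_(u,v)(c) (u, v singular and orthogonal) is a commutator in the isometry group, so lies in Ω. -/
theorem result {F : Type*} [Field F] [Fintype F] (h2 : (2 : F) ≠ 0) {n : ℕ} (hn : 5 ≤ n) (Q : QuadraticForm F (Fin n → F)) (hQ : (QuadraticMap.polarBilin Q).Nondegenerate) (u v : Fin n → F) (hu : Q u = 0) (hv : Q v = 0) (huv : QuadraticMap.polar ⇑Q u v = 0) (c : F) (g : ↥(Cfsg.isometryGroup F ⇑Q)) (hg : ((g : Matrix.GeneralLinearGroup (Fin n) F) : Matrix (Fin n) (Fin n) F) = Cfsg.siegelMatrix ⇑Q u v c) : g ∈ commutatorSet ↥(Cfsg.isometryGroup F ⇑Q) ∧ g ∈ Cfsg.Omega F ⇑Q := by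
  classical
  open Cfsg.Agent.Lib.QuadRefl Cfsg.Agent.Lib.QuadSiegel in
  have hQ' := nondeg_of_form Q hQ
  open Cfsg.Agent.Lib.QuadRefl Cfsg.Agent.Lib.QuadSiegel in
  obtain ⟨g₁, g₂, h₁, h₂, he⟩ := sg_commutator hQ' h2 (by simpa using hn) hu
    (w := c • v) (by rw [QuadraticMap.map_smul, hv, smul_zero])
    (by rw [Cfsg.Agent.Lib.QuadBase.pol_smul_right hQ', huv, mul_zero])
  open Cfsg.Agent.Lib.QuadRefl Cfsg.Agent.Lib.QuadSiegel in
  have hval := sg_val hQ' hu huv hv c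
  open Cfsg.Agent.Lib.QuadSiegel in
  let G₁ : ↥(Cfsg.isometryGroup F ⇑Q) := ⟨g₁, mem_isometryGroup_iff.2 h₁⟩
  open Cfsg.Agent.Lib.QuadSiegel in
  let G₂ : ↥(Cfsg.isometryGroup F ⇑Q) := ⟨g₂, mem_isometryGroup_iff.2 h₂⟩
  open scoped commutatorElement in
  have hg' : g = ⁅G₁, G₂⁆ := by
    apply Subtype.ext
    apply Units.ext
    rw [hg, ← hval, ← he]
    rfl
  refine ⟨⟨G₁, G₂, hg'.symm⟩, ?_⟩
  rw [hg']
  exact Subgroup.commutator_mem_commutator (Subgroup.mem_top _) (Subgroup.mem_top _)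

end Cfsg.Agent.S0794
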