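import Cfsg.Statements.S0795
import Cfsg.Agent.Lib.QuadRefl
import Cfsg.Agent.S0794
-- import your own Cfsg.Agent.* helpers here

set_option autoImplicit false
open Cfsg

namespace Cfsg.Agent.S0795

/-- Generation of Ω by root elements: for q odd, n ≥ 5 and Q with non-degenerate polar form on F^n, the commutator subgroup of the isometry group equals the subgroup generated by the isometries whose matrices are Siegel transformations T_(u,v)(c) with u, v singular and orthogonal. -/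
theorem result {F : Type*} [Field F] [Fintype F] (h2 : (2 : F) ≠ 0) {n : ℕ} (hn : 5 ≤ n) (Q : QuadraticForm F (Fin n → F)) (hQ : (QuadraticMap.polarBilin Q).Nondegenerate) : Cfsg.Omega F ⇑Q = Subgroup.closure {g : ↥(Cfsg.isometryGroup F ⇑Q) | ∃ (u v : Fin n → F) (c : F), Q u = 0 ∧ Q v = 0 ∧ QuadraticMap.polar ⇑Q u v = 0 ∧ ((g : Matrix.GeneralLinearGroup (Fin n) F) : Matrix (Fin n) (Fin n) F) = Cfsg.siegelMatrix ⇑Q u v c} := by
  classical
  open Cfsg.Agent.Lib.QuadRefl Cfsg.Agent.Lib.QuadSiegel in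
  have hQ' := nondeg_of_form Q hQ
  have hn' : 5 ≤ Fintype.card (Fin n) := by simpa using hn
  apply le_antisymm
  · intro g hg
    open Cfsg.Agent.Lib.QuadRefl Cfsg.Agent.Lib.QuadSiegel in
    have hle : sigmaG hQ' ≤ (Subgroup.closure {g : ↥(Cfsg.isometryGroup F ⇑Q) | ∃ (u v : Fin n → F) (c : F), Q u = 0 ∧ Q v = 0 ∧ QuadraticMap.polar ⇑Q u v = 0 ∧ ((g : Matrix.GeneralLinearGroup (Fin n) F) : Matrix (Fin n) (Fin n) F) = Cfsg.siegelMatrix ⇑Q u v c}).map (Cfsg.isometryGroup F ⇑Q).subtype := by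
      refine (Subgroup.closure_le _).2 ?_
      rintro s ⟨a, b, h1, h3, rfl⟩
      refine sg_mem_of_singular hQ' hn' ?_ h1 h3
      intro a c ha hc hac
      refine ⟨⟨sg hQ' a c, mem_isometryGroup_iff.2 (sg_isom hQ' ha hac)⟩, Subgroup.subset_closure ⟨a, c, 1, ha, hc, hac, ?_⟩, rfl⟩
      have := sg_val hQ' ha hac hc 1
      rwa [one_smul] at this
    open Cfsg.Agent.Lib.QuadRefl Cfsg.Agent.Lib.QuadSiegel in
    obtain ⟨t, ht, hte⟩ := hle (omega_le_sigmaG5 hQ' hn' ⟨g, hg, rfl⟩)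
    have : t = g := Subtype.ext hte
    rwa [← this]
  · refine (Subgroup.closure_le _).2 ?_
    rintro g ⟨u, v, c, hu, hv, huv, hg⟩
    exact (Cfsg.Agent.S0794.result h2 hn Q hQ u v hu hv huv c g hg).2

end Cfsg.Agent.S0795
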