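import Cfsg.Statements.S0796
-- import your own Cfsg.Agent.* helpers here

set_option autoImplicit false
open Cfsg

namespace Cfsg.Agent.S0796

/-- If G is finite and acts faithfully and primitively on X, H is the stabiliser of a point, A is a normal subgroup of H whose normal closure in G is G, then for every non-trivial normal subgroup K of G the quotient G ⧸ K is isomorphic to A ⧸ B for some normal subgroup B of A. -/
theorem result {G X : Type*} [Group G] [Finite G] [MulAction G X] [FaithfulSMul G X] (hprim : MulAction.IsPreprimitive G X) (x : X) (A : Subgroup G) (hA : A ≤ MulAction.stabilizer G x) (hAn : (A.subgroupOf (MulAction.stabilizer G x)).Normal) (hgen : Subgroup.normalClosure (A : Set G) = ⊤) (K : Subgroup G) [K.Normal] (hK : K ≠ ⊥) : ∃ (B : Subgroup A) (_ : B.Normal), Nonempty (G ⧸ K ≃* A ⧸ B) := by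
  classical
  haveI := hprim
  have hfix : MulAction.fixedPoints K X ≠ Set.univ := by
    intro h
    apply hK
    rw [eq_bot_iff]
    intro k hk
    have h1 : k = 1 := by
      apply FaithfulSMul.eq_of_smul_eq_smul (α := X)
      intro y
      have hy : y ∈ MulAction.fixedPoints K X := by rw [h]; trivial
      have h2 := hy ⟨k, hk⟩
      simpa using h2
    simp [h1]
  have hKtrans : MulAction.IsPretransitive K X :=
    MulAction.IsQuasiPreprimitive.isPretransitive_of_normal hfix
  have hdecomp : ∀ g : G, ∃ k ∈ K, ∃ h ∈ MulAction.stabilizer G x, g = k * h := by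
    intro g
    obtain ⟨k, hk⟩ := MulAction.exists_smul_eq K x (g • x)
    refine ⟨k, k.2, (k : G)⁻¹ * g, ?_, by group⟩
    rw [MulAction.mem_stabilizer_iff, mul_smul, ← hk]
    simp [Subgroup.smul_def]
  have hconj : ∀ h ∈ MulAction.stabilizer G x, ∀ a ∈ A, h * a * h⁻¹ ∈ A := by
    intro h hh a ha
    have h1 := hAn.conj_mem ⟨a, hA ha⟩ (by simpa [Subgroup.mem_subgroupOf] using ha) ⟨h, hh⟩
    simpa [Subgroup.mem_subgroupOf] using h1
  have hnormal : (A ⊔ K).Normal := by
    constructor
    intro n hn g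
    obtain ⟨k, hk, h, hh, rfl⟩ := hdecomp g
    have h1 : h * n * h⁻¹ ∈ A ⊔ K := by
      obtain ⟨a, ha, b, hb, rfl⟩ := Subgroup.mem_sup_of_normal_right.1 hn
      have h2 : h * (a * b) * h⁻¹ = (h * a * h⁻¹) * (h * b * h⁻¹) := by group
      rw [h2]
      exact (A ⊔ K).mul_mem (Subgroup.mem_sup_left (hconj h hh a ha))
        (Subgroup.mem_sup_right (Subgroup.Normal.conj_mem inferInstance b hb h))
    have h3 : (k * h) * n * (k * h)⁻¹ = k * (h * n * h⁻¹) * k⁻¹ := by group
    rw [h3]
    have hk' : k ∈ A ⊔ K := Subgroup.mem_sup_right hk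
    exact (A ⊔ K).mul_mem ((A ⊔ K).mul_mem hk' h1) ((A ⊔ K).inv_mem hk')
  have htop : A ⊔ K = ⊤ := by
    rw [eq_top_iff, ← hgen]
    exact Subgroup.normalClosure_le_normal (Set.subset_union_left.trans (by
      intro a ha
      rcases ha with ha | ha
      · exact Subgroup.mem_sup_left ha
      · exact Subgroup.mem_sup_right ha) : (A : Set G) ⊆ ((A ⊔ K : Subgroup G) : Set G))
  let φ : A →* G ⧸ K := (QuotientGroup.mk' K).comp A.subtype
  have hφ : Function.Surjective φ := by
    intro y
    obtain ⟨g, rfl⟩ := QuotientGroup.mk'_surjective K y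
    have hg : g ∈ A ⊔ K := by rw [htop]; trivial
    obtain ⟨a, ha, b, hb, rfl⟩ := Subgroup.mem_sup_of_normal_right.1 hg
    refine ⟨⟨a, ha⟩, ?_⟩
    show (QuotientGroup.mk' K) a = (QuotientGroup.mk' K) (a * b)
    have h5 : (QuotientGroup.mk' K) b = 1 := (QuotientGroup.eq_one_iff b).2 hb
    rw [map_mul, h5, mul_one]
  exact ⟨φ.ker, inferInstance, ⟨(QuotientGroup.quotientKerEquivOfSurjective φ hφ).symm⟩⟩

end Cfsg.Agent.S0796
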