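import Cfsg.Statements.S0802
import Cfsg.Agent.Lib.PSL2Sub
-- import your own Cfsg.Agent.* helpers here

set_option autoImplicit false
open Cfsg

namespace Cfsg.Agent.S0802

/-- PSL_2(p^n) has a subgroup isomorphic to A_4 if and only if it is not the case that p = 2 and n is odd. -/
theorem result {F : Type*} [Field F] [Fintype F] (p n : ℕ) [Fact p.Prime] [CharP F p] (hF : Fintype.card F = p ^ n) : (∃ H : Subgroup (Matrix.ProjectiveSpecialLinearGroup (Fin 2) F), Nonempty (H ≃* alternatingGroup (Fin 4))) ↔ ¬ (p = 2 ∧ Odd n) := by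
  open Cfsg.Agent.Lib.PSL2Sub in
  have hpp := (Fact.out : p.Prime)
  have hn0 : n ≠ 0 := by
    rintro rfl
    have := Fintype.one_lt_card (α := F)
    simp only [pow_zero] at hF
    omega
  constructor
  · rintro ⟨H, ⟨e⟩⟩ ⟨rfl, hn⟩
    refine no_a4_two ?_ H e
    rw [hF]
    obtain ⟨k, rfl⟩ := hn
    have h1 : 2 ^ (2 * k + 1) = 2 * 4 ^ k := by
      rw [pow_succ, pow_mul]
      norm_num
      ring
    have h2 : 4 ^ k % 3 = 1 := by
      rw [Nat.pow_mod]
      simp
    rw [h1]
    apply (Nat.Prime.coprime_iff_not_dvd Nat.prime_three).2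
    omega
  · intro h
    by_cases hp2 : p = 2
    · subst hp2
      have hn : Even n := by
        by_contra hno
        rw [Nat.not_even_iff_odd] at hno
        exact h ⟨rfl, hno⟩
      obtain ⟨H, ⟨e⟩⟩ := exists_a5_even hF hn hn0
      obtain ⟨f, hf⟩ := exists_a4_le_a5
      let ψ : alternatingGroup (Fin 4) →* _ := H.subtype.comp (e.symm.toMonoidHom.comp f)
      have hψ : Function.Injective ψ := H.subtype_injective.comp (e.symm.injective.comp hf)
      exact ⟨ψ.range, ⟨(MonoidHom.ofInjective hψ).symm⟩⟩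
    · apply exists_a4_odd
      rw [hF]
      exact Odd.pow (hpp.odd_of_ne_two hp2)

end Cfsg.Agent.S0802
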