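import Cfsg.Statements.S0803
import Cfsg.Agent.Lib.PSL2Sub
-- import your own Cfsg.Agent.* helpers here

set_option autoImplicit false
open Cfsg

namespace Cfsg.Agent.S0803

/-- PSL_2(q) has a subgroup isomorphic to S_4 iff q² ≡ 1 (mod 16). -/
theorem result {F : Type*} [Field F] [Fintype F] {q : ℕ} (hF : Fintype.card F = q) : (∃ H : Subgroup (Matrix.ProjectiveSpecialLinearGroup (Fin 2) F), Nonempty (H ≃* Equiv.Perm (Fin 4))) ↔ q ^ 2 % 16 = 1 := by
  subst hF
  open Cfsg.Agent.Lib.PSL2Sub in
  constructor
  · rintro ⟨H, ⟨e⟩⟩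
    by_cases hodd : Odd (Fintype.card F)
    · have h1 := dvd_card_psl H e
      have h24 : Nat.card (Equiv.Perm (Fin 4)) = 24 := by
        rw [Nat.card_eq_fintype_card, Fintype.card_perm, Fintype.card_fin]
        rfl
      rw [h24] at h1
      have h2 := two_mul_card_psl hodd
      obtain ⟨c, hc⟩ := h1
      rw [hc] at h2
      rcases hodd with ⟨k, hk⟩
      rw [hk] at h2 ⊢
      simp only [Nat.add_sub_cancel] at h2
      have h3 : (2 * k + 1) ^ 2 % 16 = 1 := by
        -- `16 ∣ (q - 1)(q + 1)` as `q` is odd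
        have h4 : 2 * (24 * c) = (2 * k + 1) * (2 * k * (2 * k + 1 + 1)) := h2
        have h5 : 16 ∣ (2 * k + 1) * (2 * k * (2 * k + 1 + 1)) := by
          rw [← h4]
          exact ⟨3 * c, by ring⟩
        have h6 : Nat.Coprime 16 (2 * k + 1) := by
          have : Nat.Coprime 2 (2 * k + 1) := by simp
          exact Nat.Coprime.pow_left 4 this
        have h7 := h6.dvd_of_dvd_mul_left h5
        have : (2 * k + 1) ^ 2 = 2 * k * (2 * k + 1 + 1) + 1 := by ring
        rw [this]
        omega
      exact h3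
    · exfalso
      rw [Nat.not_odd_iff_even] at hodd
      obtain ⟨p, hp⟩ := CharP.exists F
      haveI hpp : Fact p.Prime := ⟨CharP.char_is_prime F p⟩
      obtain ⟨n, -, hq⟩ := FiniteField.card F p
      have hp2 : p = 2 := by
        have h2 : 2 ∣ p ^ (n : ℕ) := by
          rw [← hq]
          exact hodd.two_dvd
        exact ((Nat.prime_dvd_prime_iff_eq Nat.prime_two hpp.out).1 (Nat.prime_two.dvd_of_dvd_pow h2)).symm
      subst hp2
      have h4 : orderOf (finRotate 4) = 4 := by
        have := orderOf_eq_prime_pow (p := 2) (n := 1) (x := finRotate 4) (by decide) (by decide)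
        simpa using this
      have h5 : orderOf (e.symm (finRotate 4) : Matrix.ProjectiveSpecialLinearGroup (Fin 2) F) = 4 := by
        rw [Subgroup.orderOf_coe, MulEquiv.orderOf_eq, h4]
      exact no_order_four _ h5
  · intro h
    have hodd : Odd (Fintype.card F) := by
      by_contra hno
      rw [Nat.not_odd_iff_even] at hno
      obtain ⟨k, hk⟩ := hno
      rw [hk] at h
      have : (k + k) ^ 2 = 2 * (2 * k * k) := by ring
      rw [this] at h
      omega
    apply exists_s4_odd hodd
    obtain ⟨k, hk⟩ := hodd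
    rw [hk] at h ⊢
    have h3 : (2 * k + 1) ^ 2 = 4 * (k * (k + 1)) + 1 := by ring
    rw [h3] at h
    have h4 : (k * (k + 1)) % 4 = 0 := by omega
    have h5 : k % 4 = 0 ∨ k % 4 = 3 := by
      have h6 : (k * (k + 1)) % 4 = ((k % 4) * ((k % 4 + 1) % 4)) % 4 := by
        rw [Nat.mul_mod]
        congr 2
        omega
      rw [h6] at h4
      have h7 : k % 4 < 4 := Nat.mod_lt _ (by norm_num)
      generalize k % 4 = r at *
      interval_cases r <;> simp at h4 ⊢
    omega

end Cfsg.Agent.S0803
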