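import Cfsg.Statements.S0804
import Cfsg.Agent.Lib.PSL2Sub
-- import your own Cfsg.Agent.* helpers here

set_option autoImplicit false
open Cfsg

namespace Cfsg.Agent.S0804

/-- PSL_2(q) has a subgroup isomorphic to A_5 iff 5 ∣ q(q² − 1). -/
theorem result {F : Type*} [Field F] [Fintype F] {q : ℕ} (hF : Fintype.card F = q) : (∃ H : Subgroup (Matrix.ProjectiveSpecialLinearGroup (Fin 2) F), Nonempty (H ≃* alternatingGroup (Fin 5))) ↔ 5 ∣ q * (q ^ 2 - 1) := by
  subst hF
  open Cfsg.Agent.Lib.PSL2Sub in
  constructor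
  · rintro ⟨H, ⟨e⟩⟩
    have h1 := dvd_card_psl H e
    have h60 : Nat.card (alternatingGroup (Fin 5)) = 60 := by
      rw [Nat.card_eq_fintype_card]
      decide +kernel
    rw [h60] at h1
    have h2 := card_psl_mul (F := F)
    have hq1 : 1 ≤ Fintype.card F := Fintype.card_pos
    have h3 : Fintype.card F ^ 2 - 1 = (Fintype.card F - 1) * (Fintype.card F + 1) := by
      obtain ⟨t, ht⟩ : ∃ t, Fintype.card F = t + 1 := ⟨Fintype.card F - 1, by omega⟩
      rw [ht]
      simp only [Nat.add_sub_cancel]
      have : (t + 1) ^ 2 = t * (t + 1 + 1) + 1 := by ring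
      rw [this]
      simp
    rw [h3, ← h2]
    exact Dvd.dvd.mul_left ((by norm_num : 5 ∣ 60).trans h1) _
  · intro h5
    by_cases hodd : Odd (Fintype.card F)
    · apply exists_a5_odd hodd
      have hq1 : 1 ≤ Fintype.card F := Fintype.card_pos
      have key : ∀ a : ℕ, 5 ∣ a * (a ^ 2 - 1) → a % 5 = 0 ∨ a % 5 = 1 ∨ a % 5 = 4 := by
        intro a ha
        rcases Nat.eq_zero_or_pos a with rfl | hapos
        · simp
        obtain ⟨t, rfl⟩ : ∃ t, a = t + 1 := ⟨a - 1, by omega⟩
        have e : (t + 1) ^ 2 - 1 = t * (t + 2) := by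
          have : (t + 1) ^ 2 = t * (t + 2) + 1 := by ring
          rw [this]
          simp
        rw [e, Nat.dvd_iff_mod_eq_zero, Nat.mul_mod, Nat.mul_mod t] at ha
        have h1 : (t + 1) % 5 = (t % 5 + 1) % 5 := by omega
        have h2 : (t + 2) % 5 = (t % 5 + 2) % 5 := by omega
        rw [h1, h2] at ha
        have h3 : t % 5 < 5 := Nat.mod_lt _ (by norm_num)
        generalize t % 5 = r at *
        interval_cases r <;> simp at ha <;> omega
      exact key _ h5
    · rw [Nat.not_odd_iff_even] at hodd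
      obtain ⟨p, hp⟩ := CharP.exists F
      haveI hpp : Fact p.Prime := ⟨CharP.char_is_prime F p⟩
      obtain ⟨n, -, hq⟩ := FiniteField.card F p
      have hp2 : p = 2 := by
        have h2 : 2 ∣ p ^ (n : ℕ) := by
          rw [← hq]
          exact hodd.two_dvd
        exact ((Nat.prime_dvd_prime_iff_eq Nat.prime_two hpp.out).1 (Nat.prime_two.dvd_of_dvd_pow h2)).symm
      subst hp2
      have hn : Even (n : ℕ) := by
        by_contra hno
        rw [Nat.not_even_iff_odd] at hno
        obtain ⟨k, hk⟩ := hno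
        rw [hq, hk] at h5
        have e1 : 2 ^ (2 * k + 1) = 2 * 4 ^ k := by
          rw [pow_succ, pow_mul]
          norm_num
          ring
        rw [e1] at h5
        have e2 : (2 * 4 ^ k) ^ 2 - 1 = 4 * 16 ^ k - 1 := by
          congr 1
          rw [mul_pow, ← pow_mul, mul_comm k 2, pow_mul]
          norm_num
        rw [e2] at h5
        have h16 : 16 ^ k % 5 = 1 := by
          rw [Nat.pow_mod]
          simp
        have h4 : 1 ≤ 16 ^ k := Nat.one_le_pow _ _ (by norm_num)
        have h6 : (4 * 16 ^ k - 1) % 5 = 3 := by omega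
        have h7 : 5 ∣ 2 * 4 ^ k := by
          rcases (Nat.Prime.dvd_mul (by norm_num)).1 h5 with h | h
          · exact h
          · omega
        have h8 : 5 ∣ 4 ^ k := by
          rcases (Nat.Prime.dvd_mul (by norm_num)).1 h7 with h | h
          · omega
          · exact h
        have h9 : 5 ∣ 4 := (by norm_num : Nat.Prime 5).dvd_of_dvd_pow h8
        omega
      exact exists_a5_even hq hn (n.ne_zero)

end Cfsg.Agent.S0804
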