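import Cfsg.Statements.S0805
import Cfsg.Agent.Lib.SubfieldPSL
-- import your own Cfsg.Agent.* helpers here

set_option autoImplicit false
open Cfsg

namespace Cfsg.Agent.S0805

/-- Subfield subgroups: let F be a finite field of odd order q and K a finite field with |K|^m = q, m ≥ 1. Then PSL_2(F) has a subgroup isomorphic to PSL_2(K), and has a subgroup isomorphic to PGL_2(K) if and only if m is even. -/
theorem result {F K : Type*} [Field F] [Fintype F] [Field K] [Fintype K] {q : ℕ} (hF : Fintype.card F = q) (hodd : Odd q) (m : ℕ) (hm : 1 ≤ m) (hK : Fintype.card K ^ m = q) : (∃ H : Subgroup (Matrix.ProjectiveSpecialLinearGroup (Fin 2) F), Nonempty (H ≃* Matrix.ProjectiveSpecialLinearGroup (Fin 2) K)) ∧ ((∃ H : Subgroup (Matrix.ProjectiveSpecialLinearGroup (Fin 2) F), Nonempty (H ≃* Matrix.ProjGenLinGroup (Fin 2) K)) ↔ Even m) := by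
  subst hF
  open Cfsg.Agent.Lib.SubfieldPSL in
  obtain ⟨φ⟩ := exists_ringHom hm hK
  refine ⟨⟨(pslMap φ).range, ⟨(MonoidHom.ofInjective (pslMap_injective φ)).symm⟩⟩, ?_, ?_⟩
  · rintro ⟨H, ⟨e⟩⟩
    by_contra hme
    have hm1 : m % 2 = 1 := by
      rw [Nat.even_iff] at hme
      omega
    have h2 := Cfsg.Agent.Lib.GL2Conj.two_ne_zero_of_odd hodd
    -- Lagrange
    have hk : Fintype.card K % 2 = 1 := by
      by_contra hk
      have h4 : 2 ∣ Fintype.card K := by omega
      have h5 : 2 ∣ Fintype.card F := by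
        rw [← hK]
        exact dvd_pow h4 (by omega)
      rcases hodd with ⟨j, hj⟩
      omega
    have hk3 : 3 ≤ Fintype.card K := by
      have := Fintype.one_lt_card (α := K)
      omega
    have c1 : Nat.card H = Nat.card (Matrix.ProjGenLinGroup (Fin 2) K) := Nat.card_congr e.toEquiv
    have c2 : Nat.card (Matrix.ProjGenLinGroup (Fin 2) K) = Nat.card (Matrix.SpecialLinearGroup (Fin 2) K) :=
      Cfsg.Agent.Lib.SLn.card_PGL
    have c3 := Cfsg.Agent.Lib.GL2Sylow.card_SL₂ (F := K)
    have c4 := Cfsg.Agent.Lib.GL2Sylow.card_SL₂ (F := F)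
    have c5 := Cfsg.Agent.Lib.SLn.card_SL_eq_center_mul (ι := Fin 2) (F := F)
    have h6 : Nat.gcd (Fintype.card (Fin 2)) (Fintype.card F - 1) = 2 := by
      rw [Fintype.card_fin]
      apply Nat.gcd_eq_left
      rcases hodd with ⟨k, hk⟩
      rw [hk]
      simp
    rw [h6] at c5
    obtain ⟨c, hc⟩ := Subgroup.card_subgroup_dvd_card H
    rw [c1, c2, c3] at hc
    apply no_embed_odd hk hk3 hK hm1 (c := c)
    rw [hc] at c5
    rw [← c4, c5]
    ring
  · intro hme
    have h2 := Cfsg.Agent.Lib.GL2Conj.two_ne_zero_of_odd hodd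
    have hsq := exists_squares φ hme hK hodd
    choose s hs using hsq
    have hs' : ∀ d, s d * s d = φ d := fun d => (hs d).symm
    exact ⟨(pglMap h2 φ s hs').range, ⟨(MonoidHom.ofInjective (pglMap_injective h2 φ s hs')).symm⟩⟩

end Cfsg.Agent.S0805
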