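import Cfsg.Statements.S0809
import Cfsg.Agent.Lib.PSL2Inv
-- import your own Cfsg.Agent.* helpers here

set_option autoImplicit false
open Cfsg

namespace Cfsg.Agent.S0809

/-- In SL_2(q), q odd: any two subgroups of order 4 are conjugate, and the normaliser of a subgroup of order 4 has order 2(q − 1) if q ≡ 1 (mod 4) and 2(q + 1) if q ≡ 3 (mod 4); consequently all involutions of PSL_2(q) are conjugate. -/
theorem result {F : Type*} [Field F] [Fintype F] {q : ℕ} (hF : Fintype.card F = q) (hodd : Odd q) (A : Subgroup (Matrix.SpecialLinearGroup (Fin 2) F)) (hA : Nat.card A = 4) : (∀ B : Subgroup (Matrix.SpecialLinearGroup (Fin 2) F), Nat.card B = 4 → ∃ g : Matrix.SpecialLinearGroup (Fin 2) F, B = A.map (MulAut.conj g).toMonoidHom) ∧ (q % 4 = 1 → Nat.card ↥(Subgroup.normalizer (A : Set (Matrix.SpecialLinearGroup (Fin 2) F))) = 2 * (q - 1)) ∧ (q % 4 = 3 → Nat.card ↥(Subgroup.normalizer (A : Set (Matrix.SpecialLinearGroup (Fin 2) F))) = 2 * (q + 1)) ∧ (∀ x y : Matrix.ProjectiveSpecialLinearGroup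 (Fin 2) F, orderOf x = 2 → orderOf y = 2 → IsConj x y) := by
  subst hF
  open Cfsg.Agent.Lib.PSL2Inv in
  refine ⟨fun B hB => exists_conj_of_card hodd A B hA hB, fun hq => ?_, fun hq => ?_, fun x y hx hy => isConj_of_order_two hodd x y hx hy⟩
  · obtain ⟨a, ha, rfl⟩ := exists_gen hodd A hA
    rw [card_normalizer_zpowers hodd ha, card_centralizer_one hodd rfl hq ha]
  · obtain ⟨a, ha, rfl⟩ := exists_gen hodd A hA
    rw [card_normalizer_zpowers hodd ha, card_centralizer_three hodd rfl hq ha]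

end Cfsg.Agent.S0809
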