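import Cfsg.Statements.S0821
import Cfsg.Agent.Lib.SpRank
import Cfsg.Agent.Lib.OmegaRank
-- import your own Cfsg.Agent.* helpers here

set_option autoImplicit false
open Cfsg

namespace Cfsg.Agent.S0821

/-- PSp_2m(q) ≇ PΩ_(2m+1)(q) for q odd and m ≥ 3 (they have the same order). -/
theorem result {F : Type*} [Field F] [Fintype F] (hodd : Odd (Fintype.card F)) (m : ℕ) (hm : 3 ≤ m) : IsEmpty (Cfsg.PSp m F ≃* Cfsg.POmega F (Cfsg.quadFormOdd m F)) := by
  classical
  have h2 : (2 : F) ≠ 0 := by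
    obtain ⟨p, hp⟩ := CharP.exists F
    intro h
    have h3 : (2 : F) = ((2 : ℕ) : F) := by norm_num
    rw [h3, CharP.cast_eq_zero_iff F p] at h
    obtain ⟨n, hprime, hcard⟩ := FiniteField.card F p
    have h5 : p = 2 := (Nat.prime_dvd_prime_iff_eq hprime Nat.prime_two).1 h
    rw [hcard, h5] at hodd
    exact (Nat.not_odd_iff_even.2 (Even.pow_of_ne_zero even_two n.ne_zero)) hodd
  refine ⟨fun e => ?_⟩
  obtain ⟨E, h1, h3⟩ := Cfsg.Agent.Lib.OmegaRank.exists_large_odd hodd m (by omega) h2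
  apply Cfsg.Agent.Lib.SpRank.no_large (F := F) hm h2 (E.map e.symm.toMonoidHom)
  · rintro _ ⟨x, hx, rfl⟩
    show e.symm x * e.symm x = 1
    rw [← map_mul, h3 x hx, map_one]
  · rw [← h1]
    exact Nat.card_congr (e.symm.subgroupMap E).toEquiv.symm

end Cfsg.Agent.S0821
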