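import Cfsg.Statements.S0828
import Cfsg.Agent.Lib.TICount
-- import your own Cfsg.Agent.* helpers here

set_option autoImplicit false
open Cfsg

namespace Cfsg.Agent.S0828

/-- The symplectic generalised quadrangle over a field with q elements: the number of 2-dimensional subspaces of F^4 on which the symplectic form vanishes is (q + 1)(q² + 1), and every non-zero vector lies in exactly q + 1 of them. -/
theorem result {F : Type*} [Field F] [Fintype F] {q : ℕ} (hF : Fintype.card F = q) : Nat.card {W : Submodule F (Fin 2 ⊕ Fin 2 → F) // Module.finrank F W = 2 ∧ ∀ u ∈ W, ∀ v ∈ W, Cfsg.sympForm 2 F u v = 0} = (q + 1) * (q ^ 2 + 1) ∧ ∀ v : Fin 2 ⊕ Fin 2 → F, v ≠ 0 → Nat.card {W : Submodule F (Fin 2 ⊕ Fin 2 → F) // Module.finrank F W = 2 ∧ v ∈ W ∧ ∀ u ∈ W, ∀ w ∈ W, Cfsg.sympForm 2 F u w = 0} = q + 1 := by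
  classical
  have hf := Cfsg.Agent.Lib.SymplecticTv.sympForm_isSymplectic (F := F) 2
  have hq : 2 ≤ q := by
    rw [← hF]
    exact Fintype.one_lt_card
  obtain ⟨r, rfl⟩ : ∃ r, q = r + 2 := ⟨q - 2, by omega⟩
  have hfinT : Module.finrank F (⊤ : Submodule F (Fin 2 ⊕ Fin 2 → F)) = 4 := by
    rw [finrank_top, Module.finrank_fintype_fun_eq_card]
    simp
  have key : ∀ v : Fin 2 ⊕ Fin 2 → F, v ≠ 0 → Nat.card {W : Submodule F (Fin 2 ⊕ Fin 2 → F) // Cfsg.Agent.Lib.TICount.TIL (Cfsg.sympForm 2 F) W ∧ v ∈ W} = r + 2 + 1 := by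
    intro v hv
    have h1 := Cfsg.Agent.Lib.TICount.through (Cfsg.Agent.Lib.TICount.TIL (Cfsg.sympForm 2 F)) (fun W h => h.1) hv
    set K := LinearMap.ker (Cfsg.Agent.Lib.SymplecticTv.formL hf v) with hK
    have hS : Submodule.span F {v} ≤ K := by
      rw [Submodule.span_singleton_le_iff_mem]
      exact hf.alternating v
    have hfinK : Module.finrank F K = 3 := by
      have h2 := Cfsg.Agent.Lib.SymplecticTv.finrank_inf_ker_add_one ⊤ (Cfsg.Agent.Lib.SymplecticTv.formL hf v)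
      rw [top_inf_eq, hfinT, ← hK] at h2
      have h3 : Module.finrank F K < Module.finrank F (⊤ : Submodule F (Fin 2 ⊕ Fin 2 → F)) := by
        apply Submodule.finrank_lt_finrank_of_lt
        refine lt_of_le_of_ne le_top ?_
        intro he
        obtain ⟨y, hy⟩ := Cfsg.Agent.Lib.SymplecticTv.exists_ne_right hf hv
        have h4 : y ∈ K := by rw [he]; exact Submodule.mem_top
        have h5 : Cfsg.sympForm 2 F y v = 0 := h4
        apply hy
        rw [hf.skew, h5, neg_zero]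
      rw [hfinT] at h3
      omega
    have h3 := Cfsg.Agent.Lib.TICount.card_diff hS
    rw [Cfsg.Agent.Lib.TICount.card_sub, Cfsg.Agent.Lib.TICount.card_sub, hfinK, finrank_span_singleton hv, pow_one, hF] at h3
    have h4 : Nat.card {u : Fin 2 ⊕ Fin 2 → F // u ∉ Submodule.span F {v} ∧ Cfsg.Agent.Lib.TICount.TIL (Cfsg.sympForm 2 F) (Submodule.span F {v, u})} = (r + 2) ^ 3 - (r + 2) := by
      rw [← h3]
      apply Nat.card_congr
      apply Equiv.subtypeEquivRight
      intro u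
      constructor
      · rintro ⟨h5, h6⟩
        refine ⟨?_, h5⟩
        have h7 : v ∈ Submodule.span F {v, u} := Submodule.subset_span (by simp)
        have h8 : u ∈ Submodule.span F {v, u} := Submodule.subset_span (by simp)
        exact h6.2 u h8 v h7
      · rintro ⟨h5, h6⟩
        refine ⟨h6, Cfsg.Agent.Lib.TICount.finrank_span_pair hv h6, ?_⟩
        intro x hx y hy
        obtain ⟨a, b, rfl⟩ := Submodule.mem_span_pair.1 hx
        obtain ⟨c, d, rfl⟩ := Submodule.mem_span_pair.1 hy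
        have h7 : Cfsg.sympForm 2 F u v = 0 := h5
        have h8 : Cfsg.sympForm 2 F v u = 0 := by rw [hf.skew, h7, neg_zero]
        simp only [hf.bilinear.add_left, hf.bilinear.add_right, hf.bilinear.smul_left, hf.bilinear.smul_right, hf.alternating, h7, h8]
        simp
    rw [h4, hF] at h1
    have e1 : (r + 2) ^ 2 - (r + 2) = r ^ 2 + 3 * r + 2 := by
      have : (r + 2) ^ 2 = r ^ 2 + 3 * r + 2 + (r + 2) := by ring
      omega
    have e2 : (r + 2) ^ 3 - (r + 2) = (r + 2 + 1) * (r ^ 2 + 3 * r + 2) := by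
      have : (r + 2) ^ 3 = (r + 2 + 1) * (r ^ 2 + 3 * r + 2) + (r + 2) := by ring
      omega
    rw [e1, e2] at h1
    exact (Nat.eq_of_mul_eq_mul_right (by positivity) h1).symm
  constructor
  · have h1 := Cfsg.Agent.Lib.TICount.flags (Cfsg.Agent.Lib.TICount.TIL (Cfsg.sympForm 2 F)) (fun W h => h.1) (fun _ => True) (r + 2 + 1) (fun v hv _ => key v hv) (fun v _ h => absurd trivial h)
    have h2 : Nat.card {v : Fin 2 ⊕ Fin 2 → F // v ≠ 0 ∧ True} = (r + 2) ^ 4 - 1 := by
      have h3 := Cfsg.Agent.Lib.TICount.card_diff (F := F) (bot_le : (⊥ : Submodule F (Fin 2 ⊕ Fin 2 → F)) ≤ ⊤)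
      rw [Cfsg.Agent.Lib.TICount.card_sub, hfinT, hF] at h3
      have h4 : Nat.card (⊥ : Submodule F (Fin 2 ⊕ Fin 2 → F)) = 1 := by simp
      rw [h4] at h3
      rw [← h3]
      apply Nat.card_congr
      apply Equiv.subtypeEquivRight
      intro u
      simp
    rw [h2, hF] at h1
    have e1 : (r + 2) ^ 2 - 1 = r ^ 2 + 4 * r + 3 := by
      have : (r + 2) ^ 2 = r ^ 2 + 4 * r + 3 + 1 := by ring
      omega
    have e2 : (r + 2) ^ 4 - 1 = ((r + 2) ^ 2 + 1) * (r ^ 2 + 4 * r + 3) := by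
      have : (r + 2) ^ 4 = ((r + 2) ^ 2 + 1) * (r ^ 2 + 4 * r + 3) + 1 := by ring
      omega
    rw [e1, e2] at h1
    have h5 : ((r + 2 + 1) * ((r + 2) ^ 2 + 1)) * (r ^ 2 + 4 * r + 3) = Nat.card {W : Submodule F (Fin 2 ⊕ Fin 2 → F) // Cfsg.Agent.Lib.TICount.TIL (Cfsg.sympForm 2 F) W} * (r ^ 2 + 4 * r + 3) := by
      rw [← h1]
      ring
    exact (Nat.eq_of_mul_eq_mul_right (by positivity) h5).symm
  · intro v hv
    rw [← key v hv]
    apply Nat.card_congr
    apply Equiv.subtypeEquivRight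
    intro W
    constructor
    · rintro ⟨h1, h2, h3⟩
      exact ⟨⟨h1, h3⟩, h2⟩
    · rintro ⟨⟨h1, h3⟩, h2⟩
      exact ⟨h1, h2, h3⟩

end Cfsg.Agent.S0828
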