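import Cfsg.Statements.S0831
import Cfsg.Agent.Lib.QuadPlus
-- import your own Cfsg.Agent.* helpers here

set_option autoImplicit false
open Cfsg

namespace Cfsg.Agent.S0831

/-- The two families of maximal totally singular subspaces of the hyperbolic quadric: for the form Σ x_i y_i on F^(2m), m ≥ 1, and m-dimensional subspaces U, W, X on which it vanishes, the parities of m − dim(U ∩ W), m − dim(W ∩ X) and m − dim(U ∩ X) sum to an even number (so 'even codimension of the intersection' is an equivalence relation), and there exist two such subspaces meeting in codimension 1 (so there are exactly two classes). -/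
theorem result {F : Type*} [Field F] (m : ℕ) (hm : 1 ≤ m) : (∀ U W X : Submodule F (Fin m ⊕ Fin m → F), (Module.finrank F U = m ∧ ∀ w ∈ U, Cfsg.quadFormPlus m F w = 0) → (Module.finrank F W = m ∧ ∀ w ∈ W, Cfsg.quadFormPlus m F w = 0) → (Module.finrank F X = m ∧ ∀ w ∈ X, Cfsg.quadFormPlus m F w = 0) → Even ((m - Module.finrank F ↥(U ⊓ W)) + (m - Module.finrank F ↥(W ⊓ X)) + (m - Module.finrank F ↥(U ⊓ X)))) ∧ ∃ U W : Submodule F (Fin m ⊕ Fin m → F), (Module.finrank F U = m ∧ ∀ w ∈ U, Cfsg.quadFormPlus m F w = 0) ∧ (Module.finrank F W = m ∧ ∀ w ∈ W, Cfsg.quadFormPlus m F w = 0) ∧ Module.finrank F ↥(U ⊓ W) + 1 = m := by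
  classical
  open Cfsg.Agent.Lib.QuadPlus Cfsg.Agent.Lib.QuadFamGen Cfsg.Agent.Lib.QuadFamily in
  have hQ := quadFormPlus_nondeg (F := F) m
  constructor
  · rintro U W X ⟨hU, hU'⟩ ⟨hW, hW'⟩ ⟨hX, hX'⟩
    have hc : Fintype.card (Fin m ⊕ Fin m) = 2 * m := by simp; ring
    have h1 := Cfsg.Agent.Lib.QuadFamGen.parity_add' hQ (A := U) (B := W) (C := X)
      ⟨hU', by rw [hU, hc]⟩ ⟨hW', by rw [hW, hc]⟩ ⟨hX', by rw [hX, hc]⟩
    have h3 : Module.finrank F ↥(U ⊓ W) ≤ m := (Submodule.finrank_mono inf_le_left).trans_eq hU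
    have h4 : Module.finrank F ↥(W ⊓ X) ≤ m := (Submodule.finrank_mono inf_le_left).trans_eq hW
    have h5 : Module.finrank F ↥(U ⊓ X) ≤ m := (Submodule.finrank_mono inf_le_left).trans_eq hU
    rw [hU] at h1
    rw [Nat.even_iff] at h1 ⊢
    omega
  · let i₀ : Fin m := ⟨0, by omega⟩
    open Cfsg.Agent.Lib.QuadPlus in
    exact ⟨stdTS m F, adjTS i₀ F, ⟨finrank_stdTS m, fun v hv => (stdTS_max m).ts v hv⟩,
      ⟨finrank_adjTS i₀, fun v hv => adjTS_ts i₀ hv⟩, finrank_std_inf_adj i₀⟩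

end Cfsg.Agent.S0831
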