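import Cfsg.Statements.S0832
import Cfsg.Agent.Lib.QuadPlus
-- import your own Cfsg.Agent.* helpers here

set_option autoImplicit false
open Cfsg

namespace Cfsg.Agent.S0832

/-- For the form Σ x_i y_i on F^(2m) over a finite field, m ≥ 1: an (m−1)-dimensional subspace on which the form vanishes is contained in exactly two m-dimensional subspaces on which it vanishes. -/
theorem result {F : Type*} [Field F] [Finite F] (m : ℕ) (hm : 1 ≤ m) (U : Submodule F (Fin m ⊕ Fin m → F)) (hU : Module.finrank F U + 1 = m ∧ ∀ u ∈ U, Cfsg.quadFormPlus m F u = 0) : Nat.card {W : Submodule F (Fin m ⊕ Fin m → F) // Module.finrank F W = m ∧ (∀ w ∈ W, Cfsg.quadFormPlus m F w = 0) ∧ U ≤ W} = 2 := by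
  classical
  haveI := Fintype.ofFinite F
  have hQ := Cfsg.Agent.Lib.QuadPlus.quadFormPlus_nondeg (F := F) m
  have hc : Fintype.card (Fin m ⊕ Fin m) = 2 * m := by simp; ring
  obtain ⟨hUd, hUts⟩ := hU
  have hUts' : Cfsg.Geo.IsTotallySingularQuad (Cfsg.quadFormPlus m F) U := hUts
  obtain ⟨W₁, hW₁, hUW₁⟩ := Cfsg.Agent.Lib.QuadFamily.exists_maxTS_ext hQ hUts' (by rw [hc]; omega)
    (Cfsg.Agent.Lib.QuadPlus.stdTS_max m)
  have hW₁d : Module.finrank F W₁ = m := by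
    have := hW₁.dim
    omega
  obtain ⟨P, hP⟩ : ∃ P, P = Cfsg.Agent.Lib.QuadStab.orthQ hQ U := ⟨_, rfl⟩
  have hPd : Module.finrank F P = m + 1 := by
    have := Cfsg.Agent.Lib.QuadStab.finrank_orthQ hQ U
    rw [← hP] at this
    omega
  have hPm : ∀ y, y ∈ P ↔ ∀ t ∈ U, QuadraticMap.polar (Cfsg.quadFormPlus m F) y t = 0 := by
    intro y
    rw [hP]
    exact Iff.rfl
  have hWP : ∀ W : Submodule F (Fin m ⊕ Fin m → F), Cfsg.Geo.IsTotallySingularQuad (Cfsg.quadFormPlus m F) W → U ≤ W → W ≤ P :=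
    fun W hW hUW x hx => (hPm x).2 fun t ht => Cfsg.Agent.Lib.QuadStab.pol_of_totSing hW hx (hUW ht)
  obtain ⟨w₁, hw₁, hw₁U⟩ : ∃ w₁ ∈ W₁, w₁ ∉ U := by
    by_contra hcon
    push Not at hcon
    have := Submodule.finrank_mono (show W₁ ≤ U from hcon)
    omega
  have hQw₁ : Cfsg.quadFormPlus m F w₁ = 0 := hW₁.ts w₁ hw₁
  have hsupd : ∀ (W : Submodule F (Fin m ⊕ Fin m → F)) (z : Fin m ⊕ Fin m → F), z ∈ W → z ∉ U → U ≤ W → Module.finrank F W = m → U ⊔ Submodule.span F {z} = W := by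
    intro W z hz hzU hUW hWd
    apply Submodule.eq_of_le_of_finrank_eq
    · refine sup_le hUW ?_
      rw [Submodule.span_le]
      rintro y rfl
      exact hz
    · rw [Submodule.finrank_sup_span_singleton hzU]
      omega
  obtain ⟨x, hxP, hxW₁⟩ : ∃ x ∈ P, x ∉ W₁ := by
    by_contra hcon
    push Not at hcon
    have := Submodule.finrank_mono (show P ≤ W₁ from hcon)
    omega
  have hxw₁ : QuadraticMap.polar (Cfsg.quadFormPlus m F) x w₁ ≠ 0 := by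
    intro h0
    apply hxW₁
    rw [← Cfsg.Agent.Lib.QuadFamily.MaxTS.orth_eq hQ hW₁]
    intro t ht
    rw [← hsupd W₁ w₁ hw₁ hw₁U hUW₁ hW₁d] at ht
    obtain ⟨u, hu, y, hy, rfl⟩ := Submodule.mem_sup.1 ht
    obtain ⟨μ, rfl⟩ := Submodule.mem_span_singleton.1 hy
    rw [Cfsg.Agent.Lib.QuadBase.pol_add_right hQ, Cfsg.Agent.Lib.QuadBase.pol_smul_right hQ, h0, mul_zero, add_zero]
    exact (hPm x).1 hxP u hu
  obtain ⟨x₁, hx₁⟩ : ∃ x₁, x₁ = (QuadraticMap.polar (Cfsg.quadFormPlus m F) x w₁)⁻¹ • x := ⟨_, rfl⟩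
  have hx₁w₁ : QuadraticMap.polar (Cfsg.quadFormPlus m F) x₁ w₁ = 1 := by
    rw [hx₁, Cfsg.Agent.Lib.QuadBase.pol_smul_left hQ, inv_mul_cancel₀ hxw₁]
  have hx₁P : x₁ ∈ P := by
    rw [hx₁]
    exact P.smul_mem _ hxP
  obtain ⟨x', hx'⟩ : ∃ x', x' = x₁ - Cfsg.quadFormPlus m F x₁ • w₁ := ⟨_, rfl⟩
  have hw₁w₁ : QuadraticMap.polar (Cfsg.quadFormPlus m F) w₁ w₁ = 0 := by
    rw [Cfsg.Agent.Lib.QuadBase.pol_self hQ, hQw₁, mul_zero]
  have hx'w₁ : QuadraticMap.polar (Cfsg.quadFormPlus m F) x' w₁ = 1 := by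
    rw [hx', Cfsg.Agent.Lib.QuadBase.pol_sub_left hQ, hx₁w₁, Cfsg.Agent.Lib.QuadBase.pol_smul_left hQ, hw₁w₁]
    ring
  have hQx' : Cfsg.quadFormPlus m F x' = 0 := by
    rw [hx', Cfsg.Agent.Lib.QuadBase.Q_sub hQ, hQ.smul, hQw₁, Cfsg.Agent.Lib.QuadBase.pol_smul_right hQ, hx₁w₁]
    ring
  have hw₁P : w₁ ∈ P := hWP W₁ hW₁.ts hUW₁ hw₁
  have hx'P : x' ∈ P := by
    rw [hx']
    exact P.sub_mem hx₁P (P.smul_mem _ hw₁P)
  have hx'W₁ : x' ∉ W₁ := by
    intro hmem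
    apply hxW₁
    have h1 : x₁ ∈ W₁ := by
      have : x₁ = x' + Cfsg.quadFormPlus m F x₁ • w₁ := by rw [hx']; abel
      rw [this]
      exact W₁.add_mem hmem (W₁.smul_mem _ hw₁)
    have h2 : x = (QuadraticMap.polar (Cfsg.quadFormPlus m F) x w₁) • x₁ := by
      rw [hx₁, smul_smul, mul_inv_cancel₀ hxw₁, one_smul]
    rw [h2]
    exact W₁.smul_mem _ h1
  have hx'U : x' ∉ U := fun h => hx'W₁ (hUW₁ h)
  set W₂ := U ⊔ Submodule.span F {x'} with hW₂
  have hW₂d : Module.finrank F W₂ = m := by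
    rw [hW₂, Submodule.finrank_sup_span_singleton hx'U]
    exact hUd
  have hW₂ts : Cfsg.Geo.IsTotallySingularQuad (Cfsg.quadFormPlus m F) W₂ :=
    Cfsg.Agent.Lib.QuadStab.totSing_sup hQ hUts' hQx' (fun t ht => by
      rw [QuadraticMap.polar_comm]
      exact (hPm x').1 hx'P t ht)
  have hUW₂ : U ≤ W₂ := le_sup_left
  have hx'W₂ : x' ∈ W₂ := Submodule.mem_sup_right (Submodule.mem_span_singleton_self x')
  have hPsup : W₁ ⊔ Submodule.span F {x'} = P := by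
    apply Submodule.eq_of_le_of_finrank_eq
    · refine sup_le (hWP W₁ hW₁.ts hUW₁) ?_
      rw [Submodule.span_le]
      rintro y rfl
      exact hx'P
    · rw [Submodule.finrank_sup_span_singleton hx'W₁, hW₁d, hPd]
  have hW₁sup := hsupd W₁ w₁ hw₁ hw₁U hUW₁ hW₁d
  have key : ∀ W : Submodule F (Fin m ⊕ Fin m → F), Module.finrank F W = m → (∀ w ∈ W, Cfsg.quadFormPlus m F w = 0) → U ≤ W → W = W₁ ∨ W = W₂ := by
    intro W hWd hWts hUW
    obtain ⟨z, hz, hzU⟩ : ∃ z ∈ W, z ∉ U := by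
      by_contra hcon
      push Not at hcon
      have := Submodule.finrank_mono (show W ≤ U from hcon)
      omega
    have hzP : z ∈ P := hWP W hWts hUW hz
    rw [← hPsup] at hzP
    obtain ⟨t, ht, y, hy, rfl⟩ := Submodule.mem_sup.1 hzP
    obtain ⟨b, rfl⟩ := Submodule.mem_span_singleton.1 hy
    have ht' := ht
    rw [← hW₁sup] at ht'
    obtain ⟨u, hu, y, hy, rfl⟩ := Submodule.mem_sup.1 ht'
    obtain ⟨a, rfl⟩ := Submodule.mem_span_singleton.1 hy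
    have hQz : Cfsg.quadFormPlus m F (u + a • w₁ + b • x') = a * b := by
      have hux' : QuadraticMap.polar (Cfsg.quadFormPlus m F) u x' = 0 := by
        rw [QuadraticMap.polar_comm]
        exact (hPm x').1 hx'P u hu
      have huw₁ : QuadraticMap.polar (Cfsg.quadFormPlus m F) u w₁ = 0 := by
        rw [QuadraticMap.polar_comm]
        exact (hPm w₁).1 hw₁P u hu
      simp only [Cfsg.Agent.Lib.QuadBase.Q_add (Q := Cfsg.quadFormPlus m F), hQ.smul, hQw₁, hQx', hUts u hu,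
        Cfsg.Agent.Lib.QuadBase.pol_add_left hQ, Cfsg.Agent.Lib.QuadBase.pol_smul_left hQ,
        Cfsg.Agent.Lib.QuadBase.pol_smul_right hQ, hux', huw₁, QuadraticMap.polar_comm _ w₁ x', hx'w₁]
      ring
    have hab : a * b = 0 := by
      rw [← hQz]
      exact hWts _ hz
    rcases mul_eq_zero.1 hab with ha | hb
    · right
      subst ha
      rw [zero_smul, add_zero] at hzU hz
      have hzW₂ : u + b • x' ∈ W₂ := W₂.add_mem (hUW₂ hu) (W₂.smul_mem _ hx'W₂)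
      rw [← hsupd W _ hz hzU hUW hWd, ← hsupd W₂ _ hzW₂ hzU hUW₂ hW₂d]
    · left
      subst hb
      rw [zero_smul, add_zero] at hzU hz
      rw [← hsupd W _ hz hzU hUW hWd, ← hsupd W₁ _ ht hzU hUW₁ hW₁d]
  have hne : W₁ ≠ W₂ := by
    intro h
    rw [h] at hx'W₁
    exact hx'W₁ hx'W₂
  rw [Nat.card_eq_two_iff]
  refine ⟨⟨W₁, hW₁d, hW₁.ts, hUW₁⟩, ⟨W₂, hW₂d, hW₂ts, hUW₂⟩, ?_, ?_⟩
  · intro h
    exact hne (congrArg Subtype.val h)
  · ext ⟨W, hWd, hWts, hUW⟩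
    simp only [Set.mem_insert_iff, Set.mem_singleton_iff, Set.mem_univ, iff_true, Subtype.mk.injEq]
    exact key W hWd hWts hUW

end Cfsg.Agent.S0832
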