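import Cfsg.Statements.S0833
import Cfsg.Agent.Lib.TensorForm
-- import your own Cfsg.Agent.* helpers here

set_option autoImplicit false
open Cfsg

namespace Cfsg.Agent.S0833

/-- If B₁, B₂ are non-degenerate alternating forms on U (dim 2k) and W (dim 2l), then B₁ ⊗ B₂ on U ⊗ W is symmetric, non-degenerate, and vanishes identically on some subspace of dimension 2kl (half of dim U ⊗ W). -/
theorem result {F U W : Type*} [Field F] [Fintype F] [AddCommGroup U] [Module F U] [FiniteDimensional F U] [AddCommGroup W] [Module F W] [FiniteDimensional F W] (B₁ : LinearMap.BilinForm F U) (B₂ : LinearMap.BilinForm F W) (h₁ : B₁.Nondegenerate) (h₂ : B₂.Nondegenerate) (hA₁ : B₁.IsAlt) (hA₂ : B₂.IsAlt) (k l : ℕ) (hU : Module.finrank F U = 2 * k) (hW : Module.finrank F W = 2 * l) : (B₁.tmul B₂).IsSymm ∧ (B₁.tmul B₂).Nondegenerate ∧ (∃ X : Submodule F (TensorProduct F U W), Module.finrank F X = 2 * k * l ∧ ∀ x ∈ X, ∀ y ∈ X, (B₁.tmul B₂) x y = 0) := by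
  classical
  have hsymm := Cfsg.Agent.Lib.TensorForm.tmul_symm B₁ B₂ (fun a b c d => by
    rw [← hA₁.neg_eq a b, ← hA₂.neg_eq c d]
    ring)
  refine ⟨⟨fun x y => hsymm x y⟩, Cfsg.Agent.Lib.TensorForm.tmul_nondeg B₁ B₂ h₁ h₂, ?_⟩
  obtain ⟨m, k', b, hb1, hb2, hb3, hb4⟩ := Cfsg.Agent.Lib.FormClass.alt_classify hA₁
  have hk' : k' = 0 := by
    by_contra hne
    have hj : 0 < k' := Nat.pos_of_ne_zero hne
    have h0 : b (Sum.inr ⟨0, hj⟩) = 0 := h₁.1 _ (fun y => hb4 _ y)
    exact b.ne_zero _ h0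
  subst hk'
  have hm : m = k := by
    have := Module.finrank_eq_card_basis b
    rw [hU] at this
    simp at this
    omega
  subst hm
  let c := Module.finBasis F W
  let g : Fin m × Fin (Module.finrank F W) → ((Fin m ⊕ Fin m) ⊕ Fin 0) × Fin (Module.finrank F W) :=
    fun p => (Sum.inl (Sum.inl p.1), p.2)
  have hg : Function.Injective g := by
    rintro ⟨a, b⟩ ⟨c, d⟩ h
    simp only [g, Prod.mk.injEq, Sum.inl.injEq] at h
    rw [h.1, h.2]
  have hli := (b.tensorProduct c).linearIndependent.comp g hg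
  refine ⟨Submodule.span F (Set.range ((b.tensorProduct c) ∘ g)), ?_, ?_⟩
  · rw [finrank_span_eq_card hli]
    simp [hW]
    ring
  · apply Cfsg.Agent.Lib.TensorForm.ti_span
    rintro _ ⟨p, rfl⟩ _ ⟨q, rfl⟩
    simp only [Function.comp, g, Module.Basis.tensorProduct_apply, Cfsg.Agent.Lib.TensorForm.tmul_apply, hb2, zero_mul]

end Cfsg.Agent.S0833
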