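import Cfsg.Statements.S0834
import Cfsg.Agent.Lib.TensorForm
-- import your own Cfsg.Agent.* helpers here

set_option autoImplicit false
open Cfsg

namespace Cfsg.Agent.S0834

/-- Over a finite field with 2 ≠ 0: if B₁ on U (dim 2k, k ≥ 1) and B₂ on W (dim 2l, l ≥ 1) are non-degenerate symmetric forms admitting no totally isotropic subspaces of dimensions k, resp. l (minus type), then B₁ ⊗ B₂ admits a totally isotropic subspace of dimension 2kl (plus type). -/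
theorem result {F U W : Type*} [Field F] [Fintype F] [AddCommGroup U] [Module F U] [FiniteDimensional F U] [AddCommGroup W] [Module F W] [FiniteDimensional F W] (h2 : (2 : F) ≠ 0) (B₁ : LinearMap.BilinForm F U) (B₂ : LinearMap.BilinForm F W) (h₁ : B₁.Nondegenerate) (h₂ : B₂.Nondegenerate) (hS₁ : B₁.IsSymm) (hS₂ : B₂.IsSymm) (k l : ℕ) (hk : 1 ≤ k) (hl : 1 ≤ l) (hU : Module.finrank F U = 2 * k) (hW : Module.finrank F W = 2 * l) (hm₁ : ¬ (∃ X : Submodule F (U), Module.finrank F X = k ∧ ∀ x ∈ X, ∀ y ∈ X, (B₁) x y = 0)) (hm₂ : ¬ (∃ X : Submodule F (W), Module.finrank F X = l ∧ ∀ x ∈ X, ∀ y ∈ X, (B₂) x y = 0)) : (∃ X : Submodule F (TensorProduct F U W), Module.finrank F X = 2 * k * l ∧ ∀ x ∈ X, ∀ y ∈ X, (B₁.tmul B₂) x y = 0) := by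
  classical
  have hsymm := Cfsg.Agent.Lib.TensorForm.tmul_symm B₁ B₂ (fun a b c d => by
    rw [hS₁.eq a b, hS₂.eq c d])
  let b₁ := Module.finBasis F U
  let b₂ := Module.finBasis F W
  have hdet := Cfsg.Agent.Lib.TensorForm.tmul_det B₁ B₂ b₁ b₂
  have key : ∀ d₁ d₂ : F, d₁ ^ Module.finrank F W * d₂ ^ Module.finrank F U = d₁ ^ (2 * l) * d₂ ^ (2 * k) := fun d₁ d₂ => by rw [hU, hW]
  rw [Fintype.card_fin, Fintype.card_fin, key] at hdet
  refine Cfsg.Agent.Lib.TensorForm.ti_of_disc (k := 2 * k * l) h2 (B₁.tmul B₂) hsymm (Cfsg.Agent.Lib.TensorForm.tmul_nondeg B₁ B₂ h₁ h₂) ?_ (b₁.tensorProduct b₂)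
    (t := (LinearMap.BilinForm.toMatrix b₁ B₁).det ^ l * (LinearMap.BilinForm.toMatrix b₂ B₂).det ^ k) ?_
  · rw [Module.finrank_tensorProduct, hU, hW]
    ring
  · rw [hdet, Even.neg_one_pow ⟨k * l, by ring⟩]
    ring

end Cfsg.Agent.S0834
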