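import Cfsg.Statements.S0835
import Cfsg.Agent.Lib.TensorForm
-- import your own Cfsg.Agent.* helpers here

set_option autoImplicit false
open Cfsg

namespace Cfsg.Agent.S0835

/-- Over a finite field with 2 ≠ 0: if B₁ on U (dim 2k, k ≥ 1) is non-degenerate symmetric of minus type (no totally isotropic k-subspace) and B₂ on W (dim 2l + 1) is non-degenerate symmetric, then B₁ ⊗ B₂ (dimension 2k(2l+1)) admits no totally isotropic subspace of dimension k(2l+1) (minus type). -/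
theorem result {F U W : Type*} [Field F] [Fintype F] [AddCommGroup U] [Module F U] [FiniteDimensional F U] [AddCommGroup W] [Module F W] [FiniteDimensional F W] (h2 : (2 : F) ≠ 0) (B₁ : LinearMap.BilinForm F U) (B₂ : LinearMap.BilinForm F W) (h₁ : B₁.Nondegenerate) (h₂ : B₂.Nondegenerate) (hS₁ : B₁.IsSymm) (hS₂ : B₂.IsSymm) (k l : ℕ) (hk : 1 ≤ k) (hU : Module.finrank F U = 2 * k) (hW : Module.finrank F W = 2 * l + 1) (hm₁ : ¬ (∃ X : Submodule F (U), Module.finrank F X = k ∧ ∀ x ∈ X, ∀ y ∈ X, (B₁) x y = 0)) : ¬ (∃ X : Submodule F (TensorProduct F U W), Module.finrank F X = k * (2 * l + 1) ∧ ∀ x ∈ X, ∀ y ∈ X, (B₁.tmul B₂) x y = 0) := by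
  classical
  rintro ⟨X, hX, hXti⟩
  have hsymm := Cfsg.Agent.Lib.TensorForm.tmul_symm B₁ B₂ (fun a b c d => by
    rw [hS₁.eq a b, hS₂.eq c d])
  let b₁ := Module.finBasis F U
  let b₂ := Module.finBasis F W
  have hdet := Cfsg.Agent.Lib.TensorForm.tmul_det B₁ B₂ b₁ b₂
  have key : ∀ d₁ d₂ : F, d₁ ^ Module.finrank F W * d₂ ^ Module.finrank F U = d₁ ^ ((2 * l + 1)) * d₂ ^ (2 * k) := fun d₁ d₂ => by rw [hU, hW]
  rw [Fintype.card_fin, Fintype.card_fin, key] at hdet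
  obtain ⟨s, hs⟩ := Cfsg.Agent.Lib.TensorForm.disc_of_ti (B₁.tmul B₂) hsymm X hX (by
    rw [Module.finrank_tensorProduct, hU, hW]
    ring) hXti (b₁.tensorProduct b₂)
  rw [hdet] at hs
  have hd₁ := (LinearMap.BilinForm.nondegenerate_iff_det_ne_zero b₁).1 h₁
  have hd₂ := (LinearMap.BilinForm.nondegenerate_iff_det_ne_zero b₂).1 h₂
  set d₁ := (LinearMap.BilinForm.toMatrix b₁ B₁).det with hd₁def
  set d₂ := (LinearMap.BilinForm.toMatrix b₂ B₂).det with hd₂def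
  have he : d₁ ^ l * d₂ ^ k ≠ 0 := mul_ne_zero (pow_ne_zero _ hd₁) (pow_ne_zero _ hd₂)
  have hsign : ((-1 : F) ^ (k * (2 * l + 1))) = (-1) ^ k := by
    rw [mul_comm, pow_mul, Odd.neg_one_pow ⟨l, rfl⟩]
  rw [hsign] at hs
  apply hm₁
  refine Cfsg.Agent.Lib.TensorForm.ti_of_disc (k := k) h2 B₁ (fun x y => hS₁.eq x y) h₁ hU b₁ (t := s / (d₁ ^ l * d₂ ^ k)) ?_
  rw [← hd₁def]
  field_simp
  rw [← hs]
  ring

end Cfsg.Agent.S0835
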