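import Cfsg.Statements.S0836
-- import your own Cfsg.Agent.* helpers here

set_option autoImplicit false
open Cfsg

namespace Cfsg.Agent.S0836

/-- For i ≠ j and any scalar c, the elementary transvection 1 + c E_ij is a commutator ⁅g, h⁆ of two elements of SL_n(F) provided n ≥ 3, or n = 2 and F contains x ≠ 0 with x² ≠ 1. -/
theorem result {F : Type*} [Field F] (n : ℕ) (hn : 3 ≤ n ∨ (n = 2 ∧ ∃ x : F, x ≠ 0 ∧ x ^ 2 ≠ 1)) (i j : Fin n) (hij : i ≠ j) (c : F) (t : Matrix.SpecialLinearGroup (Fin n) F) (ht : (t : Matrix (Fin n) (Fin n) F) = Matrix.transvection i j c) : t ∈ commutatorSet (Matrix.SpecialLinearGroup (Fin n) F) := by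
  classical
  have hT : ∀ (a b : Fin n) (hab : a ≠ b) (d : F),
      ∃ A : Matrix.SpecialLinearGroup (Fin n) F, (A : Matrix (Fin n) (Fin n) F) = Matrix.transvection a b d ∧
        ((A⁻¹ : Matrix.SpecialLinearGroup (Fin n) F) : Matrix (Fin n) (Fin n) F) = Matrix.transvection a b (-d) := by
    intro a b hab d
    let A : Matrix.SpecialLinearGroup (Fin n) F := ⟨Matrix.transvection a b d, Matrix.det_transvection_of_ne a b hab d⟩
    let A' : Matrix.SpecialLinearGroup (Fin n) F := ⟨Matrix.transvection a b (-d), Matrix.det_transvection_of_ne a b hab (-d)⟩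
    refine ⟨A, rfl, ?_⟩
    have h1 : A⁻¹ = A' := by
      apply inv_eq_of_mul_eq_one_right
      apply Subtype.ext
      rw [Matrix.SpecialLinearGroup.coe_mul, Matrix.SpecialLinearGroup.coe_one]
      show Matrix.transvection a b d * Matrix.transvection a b (-d) = 1
      rw [Matrix.transvection_mul_transvection_same a b hab, add_neg_cancel, Matrix.transvection_zero]
    rw [h1]
  have hident : ∀ (A B : Matrix (Fin n) (Fin n) F), A * A = 0 → B * B = 0 → B * A = 0 →
      (1 + A) * (1 + B) * (1 - A) * (1 - B) = 1 + A * B := by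
    intro A B h1 h2 h3
    have h4 : (1 + B) * (1 - A) = 1 + B - A := by
      rw [mul_sub, mul_one, add_mul, one_mul, h3, add_zero]
    have h5 : (1 + A) * (1 + B - A) = 1 + B + A * B := by
      rw [add_mul, one_mul, mul_sub, mul_add, mul_one, h1]
      abel
    have h6 : (1 + A) * (1 + B) * (1 - A) = 1 + B + A * B := by
      rw [mul_assoc, h4, h5]
    rw [h6, mul_sub, mul_one, add_mul, add_mul, one_mul, h2, mul_assoc, h2]
    simp only [mul_zero, add_zero, zero_add]
    abel
  rcases hn with hn | ⟨rfl, x, hx0, hx1⟩
  · -- three or more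
    obtain ⟨k, hki, hkj⟩ : ∃ k : Fin n, k ≠ i ∧ k ≠ j := by
      by_contra hcon
      push Not at hcon
      have h1 : (Finset.univ : Finset (Fin n)) ⊆ {i, j} := by
        intro a _
        by_cases ha : a = i
        · simp [ha]
        · simp [hcon a ha]
      have h2 := Finset.card_le_card h1
      rw [Finset.card_univ, Fintype.card_fin] at h2
      have h3 := Finset.card_le_two (a := i) (b := j)
      omega
    obtain ⟨a, ha, ha'⟩ := hT i k hki.symm c
    obtain ⟨b, hb, hb'⟩ := hT k j hkj 1
    refine ⟨a, b, ?_⟩
    apply Subtype.ext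
    rw [ht, commutatorElement_def, Matrix.SpecialLinearGroup.coe_mul, Matrix.SpecialLinearGroup.coe_mul,
      Matrix.SpecialLinearGroup.coe_mul, ha, hb, ha', hb']
    simp only [Matrix.transvection]
    have h1 := hident (Matrix.single i k c) (Matrix.single k j 1)
      (Matrix.single_mul_single_of_ne _ _ _ _ hki _)
      (Matrix.single_mul_single_of_ne _ _ _ _ hkj.symm _)
      (Matrix.single_mul_single_of_ne _ _ _ _ hij.symm _)
    have h2 : (Matrix.single i k (-c) : Matrix (Fin n) (Fin n) F) = - Matrix.single i k c := by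
      rw [Matrix.single_neg]
    have h3 : (Matrix.single k j (-1 : F) : Matrix (Fin n) (Fin n) F) = - Matrix.single k j 1 := by
      rw [Matrix.single_neg]
    rw [h2, h3, ← sub_eq_add_neg, ← sub_eq_add_neg, h1, Matrix.single_mul_single_same, mul_one]
  · -- the case of degree two
    have hne : x ^ 2 - 1 ≠ 0 := sub_ne_zero.2 hx1
    set d := c / (x ^ 2 - 1) with hd
    obtain ⟨b, hb, hb'⟩ := hT i j hij d
    have hprod : ∀ (i j : Fin 2), i ≠ j → ∀ f : Fin 2 → F, f 0 * f 1 = f i * f j := by
      intro i j hij f
      fin_cases i <;> fin_cases j <;> simp at hij ⊢ <;> ring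
    have hdet : (Matrix.diagonal (fun r => if r = i then x else x⁻¹)).det = 1 := by
      rw [Matrix.det_diagonal, Fin.prod_univ_two, hprod i j hij (fun r => if r = i then x else x⁻¹)]
      simp [hij.symm, hx0]
    let a : Matrix.SpecialLinearGroup (Fin 2) F := ⟨Matrix.diagonal (fun r => if r = i then x else x⁻¹), hdet⟩
    have hdet' : (Matrix.diagonal (fun r => if r = i then x⁻¹ else x)).det = 1 := by
      rw [Matrix.det_diagonal, Fin.prod_univ_two, hprod i j hij (fun r => if r = i then x⁻¹ else x)]
      simp [hij.symm, hx0]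
    let a' : Matrix.SpecialLinearGroup (Fin 2) F := ⟨Matrix.diagonal (fun r => if r = i then x⁻¹ else x), hdet'⟩
    have ha' : a⁻¹ = a' := by
      apply inv_eq_of_mul_eq_one_right
      apply Subtype.ext
      rw [Matrix.SpecialLinearGroup.coe_mul, Matrix.SpecialLinearGroup.coe_one]
      show Matrix.diagonal _ * Matrix.diagonal _ = 1
      rw [Matrix.diagonal_mul_diagonal, ← Matrix.diagonal_one]
      congr 1
      ext r
      by_cases hr : r = i <;> simp [hr, hx0]
    refine ⟨a, b, ?_⟩
    apply Subtype.ext
    rw [ht, commutatorElement_def, Matrix.SpecialLinearGroup.coe_mul, Matrix.SpecialLinearGroup.coe_mul,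
      Matrix.SpecialLinearGroup.coe_mul, ha', hb, hb']
    show Matrix.diagonal _ * _ * Matrix.diagonal _ * _ = _
    have hcomp : (Matrix.diagonal (fun r => if r = i then x else x⁻¹)) * Matrix.transvection i j d *
        (Matrix.diagonal (fun r => if r = i then x⁻¹ else x)) = Matrix.transvection i j (x ^ 2 * d) := by
      rw [Matrix.transvection, mul_add, add_mul, mul_one, Matrix.diagonal_mul_diagonal, Matrix.transvection, ]
      have h0 : (fun r => (if r = i then x else x⁻¹) * (if r = i then x⁻¹ else x)) = fun _ => (1 : F) := by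
        ext r
        by_cases hr : r = i <;> simp [hr, hx0]
      rw [h0, Matrix.diagonal_one]
      congr 1
      ext r s
      rw [Matrix.mul_diagonal, Matrix.diagonal_mul, Matrix.single_apply]
      by_cases hr : i = r
      · by_cases hs : j = s
        · subst hr hs
          simp [hij.symm]
          field_simp
        · simp [hs, hr]
      · simp [hr]
    rw [hcomp, Matrix.transvection_mul_transvection_same i j hij]
    congr 1
    rw [hd]
    field_simp
    ring

end Cfsg.Agent.S0836
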