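import Cfsg.Statements.S0837
import Cfsg.Agent.Lib.StabProd
import Cfsg.Agent.Lib.UnitaryHerm
-- import your own Cfsg.Agent.* helpers here

set_option autoImplicit false
open Cfsg

namespace Cfsg.Agent.S0837

/-- If W ≤ F^n (|F| = q²) is a k-dimensional subspace on which the Hermitian form Σ x_i y_i^q is non-degenerate, then the stabiliser of W in GU_n(q) is isomorphic to GU_k(q) × GU_(n−k)(q). -/
theorem result {F : Type*} [Field F] [Fintype F] {q : ℕ} (hF : Fintype.card F = q ^ 2) (n k : ℕ) (hk : k ≤ n) (W : Submodule F (Fin n → F)) (hWk : Module.finrank F W = k) (hW : ∀ u ∈ W, (∀ v ∈ W, Cfsg.hermForm n F q u v = 0) → u = 0) : Nonempty (↥((Cfsg.stabilizing (Cfsg.glToMat (Fin n) F) (W : Set (Fin n → F))).subgroupOf (Cfsg.GU n F q)) ≃* ↥(Cfsg.GU k F q) × ↥(Cfsg.GU (n - k) F q)) := by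
  classical
  obtain ⟨σ, hσ⟩ := Cfsg.Agent.Lib.UnitaryHerm.exists_sigma hF
  have hq := Cfsg.Agent.Lib.UnitaryHerm.q_two_le hF
  have hq0 : q ≠ 0 := by omega
  have hU := Cfsg.Agent.Lib.UnitaryHerm.hermForm_isUnitary (n := n) hF hσ
  have hUk := Cfsg.Agent.Lib.UnitaryHerm.hermForm_isUnitary (n := k) hF hσ
  let τ : F →+* F := σ
  have hτ : ∀ x, τ x = x ^ q := hσ
  let B : (Fin n → F) →ₛₗ[τ] (Fin n → F) →ₗ[F] F := LinearMap.mk₂'ₛₗ τ (RingHom.id F) (fun x y => Cfsg.hermForm n F q y x)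
    (fun x x' y => by
      simp only [Cfsg.hermForm, Pi.add_apply, ← Finset.sum_add_distrib, ← hτ, map_add, mul_add])
    (fun c x y => by
      simp only [Cfsg.hermForm, Pi.smul_apply, smul_eq_mul, Finset.mul_sum, ← hτ, map_mul]
      exact Finset.sum_congr rfl fun i _ => by ring)
    (fun x y y' => by
      simp only [Cfsg.hermForm, Pi.add_apply, ← Finset.sum_add_distrib, add_mul])
    (fun c x y => by
      simp only [Cfsg.hermForm, Pi.smul_apply, smul_eq_mul, Finset.mul_sum, RingHom.id_apply]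
      exact Finset.sum_congr rfl fun i _ => by ring)
  have hB : ∀ x y, B x y = Cfsg.hermForm n F q y x := fun x y => rfl
  have hS : ∀ x y, τ (B x y) = B y x := fun x y => by
    rw [hB, hB]
    exact (hU.herm x y).symm
  have hτne : τ ≠ RingHom.id F := by
    intro h
    apply hU.ne_refl
    ext x
    exact congrArg (fun f : F →+* F => f x) h
  have hτ2 : ∀ a : F, τ (τ a) = a := hU.involutive
  have hsym : ∀ x y, B x y = 0 → B y x = 0 := fun x y h => by
    rw [← hS, h, map_zero]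
  have hN : ∀ x, (∀ v, B x v = 0) → x = 0 := fun x hx => by
    by_contra hne
    obtain ⟨y, hy⟩ := (hU.nondegenerate x hne).1
    exact hy (hx y)
  have hW' : Cfsg.Agent.Lib.FormClass.NondegOn B W := fun w hw h => hW w hw (fun v hv => by
    have := hsym _ _ (h v hv)
    rwa [hB] at this)
  obtain ⟨hd, hinf, hsup, hN'⟩ := Cfsg.Agent.Lib.StabProd.orth_compl hsym hN hW'
  set W' := Cfsg.Agent.Lib.StabProd.orthR B W with hW'def
  have hVd : Module.finrank F (Fin n → F) = n := by simp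
  have hd' : Module.finrank F W' = n - k := by omega
  obtain ⟨v, hv, hvo⟩ := Cfsg.Agent.Lib.FormClass.herm_orthonormal hτne hτ2 hS k W hWk hW'
  obtain ⟨v', hv', hvo'⟩ := Cfsg.Agent.Lib.FormClass.herm_orthonormal hτne hτ2 hS (n - k) W' hd' hN'
  let u : Fin k ⊕ Fin (n - k) → (Fin n → F) := Sum.elim v v'
  have hG : ∀ s t, Cfsg.hermForm n F q (u s) (u t) = (Matrix.fromBlocks 1 0 0 1 : Matrix (Fin k ⊕ Fin (n - k)) (Fin k ⊕ Fin (n - k)) F) s t := by
    rintro (s | s) (t | t)
    · have := hvo t s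
      rw [hB] at this
      simpa [u, Matrix.one_apply, eq_comm] using this
    · have := hv' t _ (hv s)
      rw [hB] at this
      simp only [u, Sum.elim_inl, Sum.elim_inr, Matrix.fromBlocks_apply₁₂, Matrix.zero_apply]
      have h3 := congrArg τ this
      rw [map_zero] at h3
      rw [← h3]
      exact hU.herm _ _
    · have := hv' s _ (hv t)
      rw [hB] at this
      simpa [u] using this
    · have := hvo' t s
      rw [hB] at this
      simpa [u, Matrix.one_apply, eq_comm] using this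
  have hGdet : (Matrix.fromBlocks 1 0 0 1 : Matrix (Fin k ⊕ Fin (n - k)) (Fin k ⊕ Fin (n - k)) F).det ≠ 0 := by
    rw [Matrix.fromBlocks_one, Matrix.det_one]
    exact one_ne_zero
  let Bf := B.flip
  have hBf : ∀ x y, Bf x y = Cfsg.hermForm n F q x y := fun x y => rfl
  have hli : LinearIndependent F u := by
    rw [Fintype.linearIndependent_iff]
    intro c hc
    have h1 : Matrix.vecMul c (Matrix.fromBlocks 1 0 0 1 : Matrix (Fin k ⊕ Fin (n - k)) (Fin k ⊕ Fin (n - k)) F) = 0 := by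
      funext t
      have h2 := congrArg (fun z => Bf z (u t)) hc
      simp only [map_sum, map_smul, LinearMap.sum_apply, LinearMap.smul_apply, smul_eq_mul, map_zero, LinearMap.zero_apply, hBf, hG] at h2
      exact h2
    have h3 := Matrix.eq_zero_of_vecMul_eq_zero hGdet h1
    intro s
    exact congrFun h3 s
  have hcard : Fintype.card (Fin k ⊕ Fin (n - k)) = Module.finrank F (Fin n → F) := by
    rw [hVd]
    simp
    omega
  let b := Module.Basis.mk hli (hli.span_eq_top_of_card_eq_finrank' hcard).ge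
  have hb : ∀ s, b s = u s := fun s => Module.Basis.mk_apply _ _ _
  have hrange : ∀ (m : ℕ) (N : Matrix (Fin m) (Fin m) F),
      N ∈ Set.range ((Cfsg.glToMat (Fin m) F).comp (Cfsg.GU m F q).subtype) ↔ Cfsg.Agent.Lib.StabProd.IsIsomM (Cfsg.hermForm m F q) N := by
    intro m N
    constructor
    · rintro ⟨g, rfl⟩
      exact ⟨⟨g.1, rfl⟩, g.2⟩
    · rintro ⟨⟨w, rfl⟩, h⟩
      exact ⟨⟨w, h⟩, rfl⟩
  have hinj : ∀ m : ℕ, Function.Injective ((Cfsg.glToMat (Fin m) F).comp (Cfsg.GU m F q).subtype) := by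
    intro m x y hxy
    apply Subtype.ext
    apply Units.ext
    exact hxy
  have heq : Cfsg.stabilizing ((Cfsg.glToMat (Fin n) F).comp (Cfsg.GU n F q).subtype) (W : Set (Fin n → F)) =
      (Cfsg.stabilizing (Cfsg.glToMat (Fin n) F) (W : Set (Fin n → F))).subgroupOf (Cfsg.GU n F q) := by
    ext x
    exact Iff.rfl
  have key := Cfsg.Agent.Lib.StabProd.stab_equiv_prod (Cfsg.hermForm n F q) (Cfsg.hermForm k F q) (Cfsg.hermForm (n - k) F q)
    ((Cfsg.glToMat (Fin n) F).comp (Cfsg.GU n F q).subtype) ((Cfsg.glToMat (Fin k) F).comp (Cfsg.GU k F q).subtype)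
    ((Cfsg.glToMat (Fin (n - k)) F).comp (Cfsg.GU (n - k) F q).subtype) (hinj n) (hinj k) (hinj (n - k))
    (hrange n) (hrange k) (hrange (n - k))
    (Cfsg.Agent.Lib.StabProd.matP b) (Cfsg.Agent.Lib.StabProd.matP' b) (Cfsg.Agent.Lib.StabProd.matP_mul b) (Cfsg.Agent.Lib.StabProd.matP'_mul b)
    ?_ (W : Set (Fin n → F)) ?_ ?_ ?_ ?_
  · rw [heq] at key
    exact key
  · intro x y
    rw [Cfsg.Agent.Lib.StabProd.matP_mulVec, Cfsg.Agent.Lib.StabProd.matP_mulVec, ← hBf,
      Cfsg.Agent.Lib.StabProd.gram_expand τ Bf (⇑b) x y]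
    simp only [hb, hBf, hG]
    refine Eq.trans (Cfsg.Agent.Lib.StabProd.block_sum (1 : Matrix (Fin k) (Fin k) F) (1 : Matrix (Fin (n - k)) (Fin (n - k)) F) τ x y) ?_
    have e1 : ∀ (m : ℕ) (a c : Fin m → F), ∑ s, ∑ t, a s * ((1 : Matrix (Fin m) (Fin m) F) s t * τ (c t)) = Cfsg.hermForm m F q a c := by
      intro m a c
      simp only [Cfsg.hermForm, hτ]
      refine Finset.sum_congr rfl fun s _ => ?_
      rw [Finset.sum_eq_single s]
      · simp
      · intro t _ hts
        simp [Matrix.one_apply, hts.symm]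
      · simp
    rw [e1, e1]
    rfl
  · intro z
    exact Cfsg.Agent.Lib.StabProd.mem_iff_coord b W (fun i => by
      rw [hb]
      exact hv i) (by simp [hWk]) z
  · intro y
    simp [Cfsg.hermForm]
  · intro x
    simp [Cfsg.hermForm, hq0]
  · intro x hx
    by_contra hne
    obtain ⟨y, hy⟩ := (hUk.nondegenerate x hne).2
    exact hy (hx y)

end Cfsg.Agent.S0837
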