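import Cfsg.Statements.S0838
import Cfsg.Agent.S0756
-- import your own Cfsg.Agent.* helpers here

set_option autoImplicit false
open Cfsg

namespace Cfsg.Agent.S0838


section aux
variable {F V : Type*} [Field F] [AddCommGroup V] [Module F V]

theorem gram_det {m : ℕ} (b c : Module.Basis (Fin m) F V) (B : LinearMap.BilinForm F V) :
    (LinearMap.BilinForm.toMatrix c B).det = (b.toMatrix c).det ^ 2 * (LinearMap.BilinForm.toMatrix b B).det := by
  rw [← LinearMap.BilinForm.toMatrix_mul_basis_toMatrix b c B, Matrix.det_mul, Matrix.det_mul, Matrix.det_transpose]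
  ring

theorem gram_normal {m : ℕ} (b : Module.Basis (Fin (m + 1)) F V) (B : LinearMap.BilinForm F V)
    (ho : ∀ i j, i ≠ j → B (b i) (b j) = 0) (hn : ∀ i, i ≠ Fin.last m → B (b i) (b i) = 1) :
    (LinearMap.BilinForm.toMatrix b B).det = B (b (Fin.last m)) (b (Fin.last m)) := by
  have h : LinearMap.BilinForm.toMatrix b B = Matrix.diagonal (fun i => B (b i) (b i)) := by
    ext i j
    rw [LinearMap.BilinForm.toMatrix_apply]
    by_cases hij : i = j
    · subst hij
      simp
    · rw [ho i j hij, Matrix.diagonal_apply_ne _ hij]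
  rw [h, Matrix.det_diagonal, Fin.prod_univ_castSucc]
  rw [Finset.prod_eq_one, one_mul]
  intro i _
  exact hn _ (Fin.castSucc_lt_last i).ne

theorem sim_of_gram {m : ℕ} (b b' : Module.Basis (Fin m) F V) (Q₁ Q₂ : QuadraticForm F V) (c : F) (h2 : (2 : F) ≠ 0)
    (h : ∀ i j, QuadraticMap.polarBilin Q₂ (b' i) (b' j) = c * QuadraticMap.polarBilin Q₁ (b i) (b j)) (v : V) :
    Q₂ (b.equiv b' (Equiv.refl _) v) = c * Q₁ v := by
  set g := b.equiv b' (Equiv.refl _) with hg
  have hb : ∀ i, g (b i) = b' i := fun i => by simp [hg]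
  have key : ((QuadraticMap.polarBilin Q₂).compl₁₂ (g : V →ₗ[F] V) (g : V →ₗ[F] V)) = c • QuadraticMap.polarBilin Q₁ := by
    apply LinearMap.ext_basis b b
    intro i j
    simp only [LinearMap.compl₁₂_apply, LinearEquiv.coe_coe, hb, LinearMap.smul_apply, smul_eq_mul, h]
  have h1 := congrArg (fun f => f v v) key
  simp only [LinearMap.compl₁₂_apply, LinearEquiv.coe_coe, LinearMap.smul_apply, smul_eq_mul,
    QuadraticMap.polarBilin_apply_apply, QuadraticMap.polar_self] at h1
  have h3 : (2 : F) * Q₂ (g v) = 2 * (c * Q₁ v) := by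
    simpa [two_smul, two_mul, mul_add] using h1
  exact mul_left_cancel₀ h2 h3

end aux

/-- Over a finite field with 2 ≠ 0 and n odd: two quadratic forms Q₁, Q₂ on F^n with non-degenerate polar forms are similar — there are an invertible linear map g and a scalar c ≠ 0 with Q₂ (g v) = c · Q₁ v for all v. -/
theorem result {F : Type*} [Field F] [Fintype F] (h2 : (2 : F) ≠ 0) {n : ℕ} (hn : Odd n) (Q₁ Q₂ : QuadraticForm F (Fin n → F)) (h₁ : (QuadraticMap.polarBilin Q₁).Nondegenerate) (h₂ : (QuadraticMap.polarBilin Q₂).Nondegenerate) : ∃ (g : (Fin n → F) ≃ₗ[F] (Fin n → F)) (c : F), c ≠ 0 ∧ ∀ v, Q₂ (g v) = c * Q₁ v := by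
  classical
  obtain ⟨k, rfl⟩ := hn
  have hchar : ringChar F ≠ 2 := by
    intro h
    apply h2
    have := ringChar.Nat.cast_ringChar (R := F)
    rw [h] at this
    exact_mod_cast this
  obtain ⟨α, hα⟩ := FiniteField.exists_nonsquare hchar
  have hα0 : α ≠ 0 := by
    rintro rfl
    exact hα IsSquare.zero
  have hfr : Module.finrank F (Fin (2 * k + 1) → F) = 2 * k + 1 := by simp
  have hS : ∀ Q : QuadraticForm F (Fin (2 * k + 1) → F), LinearMap.BilinForm.IsSymm (QuadraticMap.polarBilin Q) := fun Q =>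
    ⟨fun x y => QuadraticMap.polar_comm _ _ _⟩
  obtain ⟨b₁, ho₁, hn₁, hl₁⟩ := Cfsg.Agent.S0756.result h2 (QuadraticMap.polarBilin Q₁) (hS Q₁) h₁ hfr α hα
  obtain ⟨b₂, ho₂, hn₂, hl₂⟩ := Cfsg.Agent.S0756.result h2 (QuadraticMap.polarBilin Q₂) (hS Q₂) h₂ hfr α hα
  have hS₃ : LinearMap.BilinForm.IsSymm (α • QuadraticMap.polarBilin Q₁ : LinearMap.BilinForm F (Fin (2 * k + 1) → F)) :=
    ⟨fun x y => by
      simp only [LinearMap.smul_apply, smul_eq_mul, RingHom.id_apply, QuadraticMap.polarBilin_apply_apply]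
      rw [QuadraticMap.polar_comm]⟩
  have hN₃ : (α • QuadraticMap.polarBilin Q₁ : LinearMap.BilinForm F (Fin (2 * k + 1) → F)).Nondegenerate := by
    refine ⟨fun x hx => h₁.1 x (fun y => ?_), fun y hy => h₁.2 y (fun x => ?_)⟩
    · have := hx y
      simpa [hα0] using this
    · have := hy x
      simpa [hα0] using this
  obtain ⟨b₃, ho₃, hn₃, hl₃⟩ := Cfsg.Agent.S0756.result h2 _ hS₃ hN₃ hfr α hα
  simp only [LinearMap.smul_apply, smul_eq_mul] at ho₃ hn₃ hl₃
  set d₁ := QuadraticMap.polarBilin Q₁ (b₁ (Fin.last (2 * k))) (b₁ (Fin.last (2 * k))) with hd₁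
  set d₂ := QuadraticMap.polarBilin Q₂ (b₂ (Fin.last (2 * k))) (b₂ (Fin.last (2 * k))) with hd₂
  set d₃ := α * QuadraticMap.polarBilin Q₁ (b₃ (Fin.last (2 * k))) (b₃ (Fin.last (2 * k))) with hd₃
  have hd₁0 : d₁ ≠ 0 := by
    rcases hl₁ with h | h <;> rw [h]
    · exact one_ne_zero
    · exact hα0
  have hne : d₁ ≠ d₃ := by
    intro heq
    have h1 := gram_det b₁ b₃ (α • QuadraticMap.polarBilin Q₁)
    have h3 : (LinearMap.BilinForm.toMatrix b₃ (α • QuadraticMap.polarBilin Q₁)).det = d₃ := by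
      rw [gram_normal b₃ _ (fun i j hij => by simpa using ho₃ i j hij) (fun i hi => by simpa using hn₃ i hi)]
      simp [hd₃]
    have h4 : (LinearMap.BilinForm.toMatrix b₁ (α • QuadraticMap.polarBilin Q₁)).det = α ^ (2 * k + 1) * d₁ := by
      rw [map_smul, Matrix.det_smul, Fintype.card_fin, gram_normal b₁ _ ho₁ hn₁]
    rw [h3, h4, ← heq] at h1
    set p := (b₁.toMatrix b₃).det with hp
    have h5 : (p * α ^ k) ^ 2 * α = 1 := by
      have : d₁ * 1 = d₁ * ((p * α ^ k) ^ 2 * α) := by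
        rw [mul_one]
        calc d₁ = p ^ 2 * (α ^ (2 * k + 1) * d₁) := h1
          _ = _ := by ring
      exact (mul_left_cancel₀ hd₁0 this).symm
    have hq : p * α ^ k ≠ 0 := by
      intro h0
      rw [h0] at h5
      simp at h5
    apply hα
    generalize p * α ^ k = s at h5 hq
    refine ⟨s⁻¹, ?_⟩
    field_simp
    linear_combination h5
  by_cases h12 : d₁ = d₂
  · refine ⟨b₁.equiv b₂ (Equiv.refl _), 1, one_ne_zero, fun v => sim_of_gram b₁ b₂ Q₁ Q₂ 1 h2 (fun i j => ?_) v⟩
    rw [one_mul]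
    by_cases hij : i = j
    · subst hij
      by_cases hi : i = Fin.last (2 * k)
      · subst hi
        exact h12.symm
      · rw [hn₁ i hi, hn₂ i hi]
    · rw [ho₁ i j hij, ho₂ i j hij]
  · have h32 : d₃ = d₂ := by
      rcases hl₁ with h | h <;> rcases hl₂ with h' | h' <;> rcases hl₃ with h'' | h''
      · exact h''.trans h'.symm
      · exact absurd (h.trans h'.symm) h12
      · exact absurd (h.trans h''.symm) hne
      · exact h''.trans h'.symm
      · exact h''.trans h'.symm
      · exact absurd (h.trans h''.symm) hne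
      · exact absurd (h.trans h'.symm) h12
      · exact h''.trans h'.symm
    refine ⟨b₃.equiv b₂ (Equiv.refl _), α, hα0, fun v => sim_of_gram b₃ b₂ Q₁ Q₂ α h2 (fun i j => ?_) v⟩
    by_cases hij : i = j
    · subst hij
      by_cases hi : i = Fin.last (2 * k)
      · subst hi
        exact h32.symm
      · rw [hn₃ i hi, hn₂ i hi]
    · rw [ho₃ i j hij, ho₂ i j hij]

end Cfsg.Agent.S0838
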