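import Cfsg.Statements.S0840
import Cfsg.Agent.Lib.CharCentral

set_option autoImplicit false
set_option linter.style.haveILetI false
set_option linter.unusedVariables false
open scoped ComplexConjugate
open Cfsg

namespace Cfsg.Agent.S0840

/-- Class multiplication coefficients from the character table: for elements a, b, c of a finite group G, the number of ordered pairs (x, y) with x conjugate to a, y conjugate to b and x * y = c equals the product of the sizes of the conjugacy classes of a and b, divided by the order of G, times the sum over the irreducible characters χ of χ a * χ b * conj (χ c) / χ 1. -/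
theorem result {G : Type*} [Group G] [Finite G] (a b c : G) : (Nat.card {p : G × G // IsConj a p.1 ∧ IsConj b p.2 ∧ p.1 * p.2 = c} : ℂ) = (Nat.card {x : G // IsConj a x} : ℂ) * (Nat.card {x : G // IsConj b x} : ℂ) / (Nat.card G : ℂ) * ∑ᶠ χ : Cfsg.IrrCharacter G, (χ : G → ℂ) a * (χ : G → ℂ) b * conj ((χ : G → ℂ) c) / (χ : G → ℂ) 1 := by
  classical
  cases nonempty_fintype G
  open Cfsg.Agent.Lib.CharCentral Cfsg.Agent.Lib.CharIrr Cfsg.Agent.Lib.CharOps in
  have key : (Nat.card G : ℂ) * (Nat.card {p : G × G // IsConj a p.1 ∧ IsConj b p.2 ∧ p.1 * p.2 = c} : ℂ) =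
      (Nat.card {x : G // IsConj a x} : ℂ) * (Nat.card {x : G // IsConj b x} : ℂ) *
        ∑ χ : Cfsg.IrrCharacter G, (χ : G → ℂ) a * (χ : G → ℂ) b * conj ((χ : G → ℂ) c) / (χ : G → ℂ) 1 := by
    let P : G × G → Prop := fun p => IsConj a p.1 ∧ IsConj b p.2
    let e : G × G → G := fun p => p.1 * p.2
    let N : G → ℂ := fun z => (Nat.card {p : G × G // P p ∧ e p = z} : ℂ)
    have hN : Cfsg.IsClassFunction G N := by
      intro z h
      simp only [N]
      congr 1
      apply Nat.card_congr
      refine ⟨fun p => ⟨(h⁻¹ * p.1.1 * h, h⁻¹ * p.1.2 * h), ?_⟩, fun p => ⟨(h * p.1.1 * h⁻¹, h * p.1.2 * h⁻¹), ?_⟩, ?_, ?_⟩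
      · obtain ⟨⟨h1, h2⟩, h3⟩ := p.2
        refine ⟨⟨h1.trans (isConj_iff.mpr ⟨h⁻¹, by simp⟩), h2.trans (isConj_iff.mpr ⟨h⁻¹, by simp⟩)⟩, ?_⟩
        simp only [e] at h3 ⊢
        calc h⁻¹ * p.1.1 * h * (h⁻¹ * p.1.2 * h) = h⁻¹ * (p.1.1 * p.1.2) * h := by group
          _ = z := by rw [h3]; group
      · obtain ⟨⟨h1, h2⟩, h3⟩ := p.2
        refine ⟨⟨h1.trans (isConj_iff.mpr ⟨h, rfl⟩), h2.trans (isConj_iff.mpr ⟨h, rfl⟩)⟩, ?_⟩
        simp only [e] at h3 ⊢
        calc h * p.1.1 * h⁻¹ * (h * p.1.2 * h⁻¹) = h * (p.1.1 * p.1.2) * h⁻¹ := by group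
          _ = h * z * h⁻¹ := by rw [h3]
      · intro p
        apply Subtype.ext
        ext <;> simp <;> group
      · intro p
        apply Subtype.ext
        ext <;> simp <;> group
    have h1 := sum_irr_class_sum hN c
    have hNc : N c = (Nat.card {p : G × G // IsConj a p.1 ∧ IsConj b p.2 ∧ p.1 * p.2 = c} : ℂ) := by
      simp only [N]
      congr 1
      apply Nat.card_congr
      exact Equiv.subtypeEquivRight fun p => by simp [P, e, and_assoc]
    rw [← hNc, ← h1, Finset.mul_sum]
    refine Finset.sum_congr rfl fun χ _ => ?_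
    have hdeg := degree_ne_zero χ.2
    have hcl := IsCharacter.isClassFunction' (IsIrrCharacter.isCharacter' χ.2)
    have h2 : (∑ z, N z * (χ : G → ℂ) z) * (χ : G → ℂ) 1 =
        (Nat.card {x : G // IsConj a x} : ℂ) * (χ : G → ℂ) a *
          ((Nat.card {x : G // IsConj b x} : ℂ) * (χ : G → ℂ) b) := by
      simp only [N]
      rw [sum_card_fiber P e (χ : G → ℂ)]
      rw [Fintype.sum_prod_type_right, Finset.sum_mul]
      have h3 : ∀ y : G, (∑ x : G, if P (x, y) then (χ : G → ℂ) (e (x, y)) else 0) * (χ : G → ℂ) 1 =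
          (if IsConj b y then (1 : ℂ) else 0) * ((Nat.card {x : G // IsConj a x} : ℂ) * (χ : G → ℂ) a * (χ : G → ℂ) y) := by
        intro y
        have h4 := sum_mul_irr χ.2 (indicator_isClass a) y
        rw [sum_indicator_mul a hcl] at h4
        by_cases hy : IsConj b y
        · rw [← h4, if_pos hy, one_mul]
          congr 1
          refine Finset.sum_congr rfl fun x _ => ?_
          by_cases hx : IsConj a x
          · have hP : P (x, y) := ⟨hx, hy⟩
            rw [if_pos hP, if_pos hx, one_mul]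
          · have hP : ¬ P (x, y) := fun h => hx h.1
            rw [if_neg hP, if_neg hx, zero_mul]
        · have hP : ∀ x, ¬ P (x, y) := fun x h => hy h.2
          rw [Finset.sum_eq_zero (fun x _ => if_neg (hP x)), if_neg hy]
          ring
      refine Eq.trans (b := ∑ y, (if IsConj b y then (1 : ℂ) else 0) * ((Nat.card {x : G // IsConj a x} : ℂ) * (χ : G → ℂ) a * (χ : G → ℂ) y))
        (Finset.sum_congr rfl fun y _ => ?_) ?_
      · convert h3 y
      rw [← sum_indicator_mul b hcl, Finset.mul_sum]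
      exact Finset.sum_congr rfl fun y _ => by ring
    rw [eq_div_of_mul_eq hdeg h2]
    field_simp
  open Cfsg.Agent.Lib.CharIrr in
  rw [finsum_eq_sum_of_fintype]
  have hG : (Nat.card G : ℂ) ≠ 0 := by exact_mod_cast Nat.card_pos.ne'
  field_simp
  linear_combination key

end Cfsg.Agent.S0840
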