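import Cfsg.Statements.S0841
import Mathlib

set_option autoImplicit false
set_option linter.style.haveILetI false
set_option linter.unusedVariables false
open Cfsg

namespace Cfsg.Agent.S0841

/-- If the commutator subgroup of G lies in the centre, then for all x, y in G and every natural number n one has (x * y) ^ n = x ^ n * y ^ n * c ^ (n * (n - 1) / 2) with c = y⁻¹ * x⁻¹ * y * x. -/
theorem result {G : Type*} [Group G] (hG : commutator G ≤ Subgroup.center G) (x y : G) (n : ℕ) : (x * y) ^ n = x ^ n * y ^ n * (y⁻¹ * x⁻¹ * y * x) ^ (n * (n - 1) / 2) := by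
  set c := y⁻¹ * x⁻¹ * y * x with hc
  have hcc : c ∈ Subgroup.center G := by
    apply hG
    have h0 := Subgroup.commutator_mem_commutator (Subgroup.mem_top y⁻¹) (Subgroup.mem_top x⁻¹)
    rw [commutatorElement_def] at h0
    simp only [inv_inv] at h0
    exact h0
  have hcent : ∀ g : G, g * c = c * g := fun g => (Subgroup.mem_center_iff.1 hcc g)
  have hyx : y * x = x * y * c := by
    rw [hc]; group
  have hynx : ∀ n : ℕ, y ^ n * x = x * y ^ n * c ^ n := by
    intro n
    induction n with
    | zero => simp
    | succ n ih =>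
      rw [pow_succ', mul_assoc, ih]
      calc y * (x * y ^ n * c ^ n) = (y * x) * y ^ n * c ^ n := by group
        _ = x * y * c * y ^ n * c ^ n := by rw [hyx]
        _ = x * y * (c * y ^ n) * c ^ n := by group
        _ = x * y * (y ^ n * c) * c ^ n := by
            rw [(show Commute c (y ^ n) from (Commute.pow_right (show Commute c y from (hcent y).symm) n)).eq]
        _ = _ := by
            rw [pow_succ' c]; group
  have hT : ∀ n : ℕ, (n + 1) * (n + 1 - 1) / 2 = n + n * (n - 1) / 2 := by
    intro n
    simp only [Nat.add_sub_cancel]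
    cases n with
    | zero => simp
    | succ k =>
      simp only [Nat.add_sub_cancel]
      have h1 : (k + 1 + 1) * (k + 1) = 2 * (k + 1) + (k + 1) * k := by ring
      rw [h1, Nat.add_comm (2 * (k+1)), Nat.add_mul_div_left _ _ (by norm_num)]
      omega
  induction n with
  | zero => simp
  | succ n ih =>
    rw [pow_succ, ih, hT, pow_add]
    have h1 : ∀ g : G, ∀ m : ℕ, g * c ^ m = c ^ m * g := fun g m =>
      (Commute.pow_right (show Commute g c from hcent g) m).eq
    calc x ^ n * y ^ n * c ^ (n * (n - 1) / 2) * (x * y)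
        = x ^ n * (y ^ n * (c ^ (n * (n - 1) / 2) * x)) * y := by group
      _ = x ^ n * (y ^ n * (x * c ^ (n * (n - 1) / 2))) * y := by rw [h1 x]
      _ = x ^ n * ((y ^ n * x) * c ^ (n * (n - 1) / 2)) * y := by group
      _ = x ^ n * ((x * y ^ n * c ^ n) * c ^ (n * (n - 1) / 2)) * y := by rw [hynx]
      _ = x ^ n * x * y ^ n * ((c ^ n * c ^ (n * (n - 1) / 2)) * y) := by group
      _ = x ^ n * x * y ^ n * (y * (c ^ n * c ^ (n * (n - 1) / 2))) := by
          rw [← pow_add, h1 y]
      _ = _ := by rw [pow_succ, pow_succ]; group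

end Cfsg.Agent.S0841
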