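import Cfsg.Statements.S0845
import Cfsg.Agent.Lib.ZsCor
-- import your own Cfsg.Agent.* helpers here

set_option autoImplicit false
open Cfsg

namespace Cfsg.Agent.S0845

/-- Suppose a Sylow 2-subgroup S of the finite group G is generalized quaternion of order at least 16. Then G has a normal subgroup M of even order such that G / M is non-abelian, that is, M does not contain the commutator subgroup of G. -/
theorem result {G : Type*} [Group G] [Finite G] (S : Sylow 2 G) (n : ℕ) (e : (S : Subgroup G) ≃* QuaternionGroup (2 ^ (n + 2))) : ∃ M : Subgroup G, M.Normal ∧ Even (Nat.card M) ∧ ¬ commutator G ≤ M := by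
  classical
  cases nonempty_fintype G
  haveI : NeZero (2 ^ (n + 2)) := ⟨by positivity⟩
  obtain ⟨z, -, h, -, -⟩ := Cfsg.Agent.Lib.ZsCor.exists_uinv_quat S (2 ^ (n + 2)) e
  obtain ⟨χ₁, χ₂, h₁, h₂, h3, h4, h5⟩ := Cfsg.Agent.Lib.ZsMain.big_ker (fun _ => rfl) h S n e
  have hzz : z * z = 1 := by
    have := pow_orderOf_eq_one z
    rwa [h.1, pow_two] at this
  have hcl : Cfsg.IsClassFunction G (χ₁ : G → ℂ) :=
    Cfsg.Agent.Lib.CharOps.IsCharacter.isClassFunction' (Cfsg.Agent.Lib.CharOps.IsIrrCharacter.isCharacter' χ₁.2)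
  have hc0 : Cfsg.IsCharacter G (χ₁ : G → ℂ) := Cfsg.Agent.Lib.CharOps.IsIrrCharacter.isCharacter' χ₁.2
  let K₀ : Subgroup G :=
    { carrier := {k | ∀ g, (χ₁ : G → ℂ) (k * g) = (χ₁ : G → ℂ) g}
      one_mem' := fun g => by rw [one_mul]
      mul_mem' := fun {a b} ha hb g => by
        rw [mul_assoc, ha, hb]
      inv_mem' := fun {a} ha g => by
        have := ha (a⁻¹ * g)
        rw [mul_inv_cancel_left] at this
        exact this.symm }
  haveI hK₀ : K₀.Normal := by
    refine ⟨fun a ha x g => ?_⟩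
    have e1 := hcl (x * a * x⁻¹ * g) x⁻¹
    have e2 : x⁻¹ * (x * a * x⁻¹ * g) * x⁻¹⁻¹ = a * (x⁻¹ * g * x) := by group
    rw [e2, ha] at e1
    rw [← e1]
    have e3 := hcl g x⁻¹
    rw [inv_inv] at e3
    exact e3
  have hzK : z ∈ K₀ := by
    intro g
    apply Cfsg.Agent.Lib.CharKernel.apply_mul_of_ker (Subgroup.zpowers z) hc0 ?_ (Subgroup.mem_zpowers z)
    intro n hn
    obtain ⟨k, rfl⟩ := Subgroup.mem_zpowers_iff.1 hn
    rcases Int.even_or_odd' k with ⟨m, rfl | rfl⟩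
    · rw [zpow_mul, zpow_two, hzz, one_zpow]
    · rw [zpow_add, zpow_mul, zpow_two, hzz, one_zpow, one_mul, zpow_one, h3]
  refine ⟨K₀, hK₀, ?_, ?_⟩
  · have h6 : orderOf z ∣ Nat.card K₀ := Subgroup.orderOf_dvd_natCard K₀ hzK
    rw [h.1] at h6
    exact even_iff_two_dvd.2 h6
  · intro hle
    have hker : ∀ n ∈ K₀, (χ₁ : G → ℂ) n = (χ₁ : G → ℂ) 1 := by
      intro n hn
      have := hn 1
      rwa [mul_one] at this
    obtain ⟨θ, hθ, he⟩ := Cfsg.Agent.Lib.CharInflate.exists_quotient_irr K₀ χ₁.2 hker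
    letI : Fintype (G ⧸ K₀) := Fintype.ofFinite _
    have hcomm : ∀ a b : G ⧸ K₀, a * b = b * a := by
      intro a b
      obtain ⟨a, rfl⟩ := QuotientGroup.mk_surjective a
      obtain ⟨b, rfl⟩ := QuotientGroup.mk_surjective b
      rw [← QuotientGroup.mk_mul, ← QuotientGroup.mk_mul, QuotientGroup.eq]
      have h7 := Subgroup.commutator_mem_commutator (Subgroup.mem_top b⁻¹) (Subgroup.mem_top a⁻¹)
      rw [commutatorElement_def, ← commutator_def] at h7
      have h8 := hle h7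
      have e5 : (a * b)⁻¹ * (b * a) = b⁻¹ * a⁻¹ * b⁻¹⁻¹ * a⁻¹⁻¹ := by group
      rw [e5]
      exact h8
    have h9 := (Cfsg.Agent.Lib.CharAb.commutative_iff_apply_one).1 hcomm ⟨θ, hθ⟩
    have h10 : θ 1 = (χ₁ : G → ℂ) 1 := by
      rw [← he 1]
      rfl
    have h11 : θ 1 = 1 := h9
    rw [h10, h5] at h11
    apply Cfsg.Agent.Lib.CharOps.degree_ne_zero χ₂.2
    linear_combination h11

end Cfsg.Agent.S0845
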