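import Cfsg.Statements.S0849
import Mathlib
import Cfsg.Agent.Lib.CharBlockConv

set_option autoImplicit false
set_option linter.style.haveILetI false
set_option linter.unusedVariables false
open scoped ComplexConjugate
open Cfsg

namespace Cfsg.Agent.S0849

/-- Let H be a subgroup of a finite group G and S a subset of H that is mapped to itself under conjugation by H, is disjoint from its conjugate by any element outside H, and is closed under inverses. Let φ be a class function of H vanishing on H away from S, and let u, v be involutions of G. Then the sum of the induced function of φ over all products a * b with a conjugate to u and b conjugate to v equals the index of H times the sum of φ (a * b) over such pairs with a and b in H. -/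
theorem result {G : Type*} [Group G] [Fintype G] (H : Subgroup G) (S : Set G) (hSH : S ⊆ H) (hHS : ∀ h ∈ H, ∀ s ∈ S, h * s * h⁻¹ ∈ S) (hTI : ∀ g : G, g ∉ H → ∀ s ∈ S, g * s * g⁻¹ ∉ S) (hinv : ∀ s ∈ S, s⁻¹ ∈ S) (φ : H → ℂ) (hφ : Cfsg.IsClassFunction H φ) (hφS : ∀ x : H, (x : G) ∉ S → φ x = 0) (u v : G) (hu : orderOf u = 2) (hv : orderOf v = 2) : ∑ᶠ p ∈ {p : G × G | IsConj u p.1 ∧ IsConj v p.2}, Cfsg.indFun H φ (p.1 * p.2) = (H.index : ℂ) * ∑ᶠ p ∈ {p : H × H | IsConj u (p.1 : G) ∧ IsConj v (p.2 : G)}, φ (p.1 * p.2) := by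
  classical
  have huu : u * u = 1 := by
    rw [← pow_two, ← hu, pow_orderOf_eq_one]
  have hvv : v * v = 1 := by
    rw [← pow_two, ← hv, pow_orderOf_eq_one]
  have hinvol : ∀ w x : G, w * w = 1 → IsConj w x → x * x = 1 := by
    intro w x hw hx
    obtain ⟨c, rfl⟩ := isConj_iff.1 hx
    calc c * w * c⁻¹ * (c * w * c⁻¹) = c * (w * w) * c⁻¹ := by group
      _ = 1 := by rw [hw]; group
  let A : Set (G × G) := {p : G × G | IsConj u p.1 ∧ IsConj v p.2}
  let A' : Set (H × H) := {p : H × H | IsConj u (p.1 : G) ∧ IsConj v (p.2 : G)}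
  show ∑ᶠ p ∈ A, Cfsg.indFun H φ (p.1 * p.2) = (H.index : ℂ) * ∑ᶠ p ∈ A', φ (p.1 * p.2)
  rw [Cfsg.Agent.Lib.CharBlockConv.finsum_mem_eq_sum_ite, Cfsg.Agent.Lib.CharBlockConv.finsum_mem_eq_sum_ite]
  have hconj : ∀ (w x t : G), IsConj w (t⁻¹ * x * t) ↔ IsConj w x := by
    intro w x t
    have h1 : IsConj x (t⁻¹ * x * t) := isConj_iff.2 ⟨t⁻¹, by simp⟩
    exact ⟨fun h => h.trans h1.symm, fun h => h.trans h1⟩
  have key : ∀ t : G, ∑ p : G × G, (if p ∈ A then Cfsg.extendByZero H φ (t⁻¹ * (p.1 * p.2) * t) else 0) =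
      ∑ p : G × G, if p ∈ A then Cfsg.extendByZero H φ (p.1 * p.2) else 0 := by
    intro t
    let e : G × G ≃ G × G := Equiv.prodCongr (MulAut.conj t⁻¹).toEquiv (MulAut.conj t⁻¹).toEquiv
    refine Fintype.sum_equiv e _ _ fun p => ?_
    have he1 : (e p).1 = t⁻¹ * p.1 * t := by simp [e, MulAut.conj_apply]
    have he2 : (e p).2 = t⁻¹ * p.2 * t := by simp [e, MulAut.conj_apply]
    have hmem : e p ∈ A ↔ p ∈ A := by
      show (IsConj u (e p).1 ∧ IsConj v (e p).2) ↔ (IsConj u p.1 ∧ IsConj v p.2)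
      rw [he1, he2, hconj, hconj]
    have he : (e p).1 * (e p).2 = t⁻¹ * (p.1 * p.2) * t := by
      rw [he1, he2]; group
    by_cases hp : p ∈ A
    · rw [if_pos hp, if_pos (hmem.2 hp), he]
    · rw [if_neg hp, if_neg (fun h => hp (hmem.1 h))]
  have step1 : ∑ p : G × G, (if p ∈ A then Cfsg.indFun H φ (p.1 * p.2) else 0) =
      (H.index : ℂ) * ∑ p : G × G, if p ∈ A then Cfsg.extendByZero H φ (p.1 * p.2) else 0 := by
    have h1 : ∀ p : G × G, (if p ∈ A then Cfsg.indFun H φ (p.1 * p.2) else 0) =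
        (Nat.card H : ℂ)⁻¹ * ∑ t : G, if p ∈ A then Cfsg.extendByZero H φ (t⁻¹ * (p.1 * p.2) * t) else 0 := by
      intro p
      by_cases hp : p ∈ A
      · simp only [if_pos hp]
        rfl
      · simp [if_neg hp]
    simp only [h1]
    rw [← Finset.mul_sum, Finset.sum_comm, Finset.sum_congr rfl (fun t _ => key t), Finset.sum_const,
      Finset.card_univ, nsmul_eq_mul, ← mul_assoc]
    congr 1
    have hG : (Fintype.card G : ℂ) = (Nat.card H : ℂ) * (H.index : ℂ) := by
      rw [← Nat.card_eq_fintype_card]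
      exact_mod_cast (Subgroup.card_mul_index H).symm
    rw [hG]
    have hH : (Nat.card H : ℂ) ≠ 0 := by exact_mod_cast Nat.card_pos.ne'
    field_simp
  rw [step1]
  congr 1
  -- reduce to `H`
  symm
  apply Finset.sum_of_injOn (fun q : H × H => ((q.1 : G), (q.2 : G)))
  · intro a _ b _ h
    simp only [Prod.mk.injEq] at h
    exact Prod.ext (Subtype.ext h.1) (Subtype.ext h.2)
  · intro q _
    simp
  · intro p _ hp
    by_cases hA : p ∈ A
    · rw [if_pos hA]
      by_contra hne
      apply hp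
      have hxx : p.1 * p.1 = 1 := hinvol u p.1 huu hA.1
      have hyy : p.2 * p.2 = 1 := hinvol v p.2 hvv hA.2
      have hxyH : p.1 * p.2 ∈ H := by
        by_contra hn
        exact hne (Cfsg.Agent.Lib.CharOps.extendByZero_of_not_mem H φ hn)
      have hxyS : p.1 * p.2 ∈ S := by
        by_contra hn
        apply hne
        rw [Cfsg.Agent.Lib.CharOps.extendByZero_of_mem H φ hxyH]
        exact hφS ⟨_, hxyH⟩ hn
      have hinvS := hinv _ hxyS
      have hxinv : p.1⁻¹ = p.1 := by
        rw [inv_eq_iff_mul_eq_one]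
        exact hxx
      have hyinv : p.2⁻¹ = p.2 := by
        rw [inv_eq_iff_mul_eq_one]
        exact hyy
      have hinvform : (p.1 * p.2)⁻¹ = p.2 * p.1 := by
        rw [mul_inv_rev, hxinv, hyinv]
      have hx : p.1 ∈ H := by
        by_contra hn
        apply hTI p.1 hn (p.1 * p.2) hxyS
        have e1 : p.1 * (p.1 * p.2) * p.1⁻¹ = (p.1 * p.2)⁻¹ := by
          rw [hxinv, hinvform, ← mul_assoc, hxx, one_mul]
        rw [e1]
        exact hinvS
      have hy : p.2 ∈ H := by
        by_contra hn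
        apply hTI p.2 hn (p.1 * p.2) hxyS
        have e1 : p.2 * (p.1 * p.2) * p.2⁻¹ = (p.1 * p.2)⁻¹ := by
          rw [hyinv, hinvform, mul_assoc, mul_assoc, hyy, mul_one]
        rw [e1]
        exact hinvS
      exact ⟨(⟨p.1, hx⟩, ⟨p.2, hy⟩), by simp, rfl⟩
    · rw [if_neg hA]
  · intro q _
    have hmem : ((q.1 : G), (q.2 : G)) ∈ A ↔ q ∈ A' := Iff.rfl
    by_cases hq : q ∈ A'
    · rw [if_pos hq, if_pos (hmem.2 hq)]
      have : ((q.1 : G) * (q.2 : G)) = ((q.1 * q.2 : H) : G) := rfl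
      show φ (q.1 * q.2) = Cfsg.extendByZero H φ ((q.1 : G) * (q.2 : G))
      rw [this, Cfsg.Agent.Lib.CharOps.extendByZero_coe]
    · rw [if_neg hq, if_neg (fun h => hq (hmem.1 h))]

end Cfsg.Agent.S0849
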