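import Cfsg.Statements.S0850
import Cfsg.Agent.Lib.CharCentral
import Cfsg.Agent.S0149

set_option autoImplicit false
set_option linter.style.haveILetI false
set_option linter.unusedVariables false
open scoped ComplexConjugate
open Cfsg

namespace Cfsg.Agent.S0850

/-- Let K be a subgroup of the finite group G that meets each conjugate by an element outside its normalizer N trivially, is properly contained in N, and contains the centralizer of each of its non-identity elements (a T.I. subgroup with Frobenius normalizer). Then no element of N outside K is conjugate in G to an element of K, and for every class function ϑ of N that vanishes on N away from K and at the identity, the function induced from ϑ to G agrees with ϑ on all of N. -/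
theorem result {G : Type*} [Group G] [Fintype G] (K : Subgroup G) (hTI : ∀ g : G, g ∉ Subgroup.normalizer (K : Set G) → ∀ k ∈ K, g * k * g⁻¹ ∈ K → k = 1) (hlt : K < Subgroup.normalizer (K : Set G)) (hC : ∀ k ∈ K, k ≠ 1 → Subgroup.centralizer ({k} : Set G) ≤ K) : (∀ x ∈ Subgroup.normalizer (K : Set G), x ∉ K → ∀ g : G, g * x * g⁻¹ ∉ K) ∧ ∀ (ϑ : Subgroup.normalizer (K : Set G) → ℂ), Cfsg.IsClassFunction (Subgroup.normalizer (K : Set G)) ϑ → (∀ x : Subgroup.normalizer (K : Set G), (x : G) ∉ K → ϑ x = 0) → ϑ 1 = 0 → ∀ x : Subgroup.normalizer (K : Set G), Cfsg.indFun (Subgroup.normalizer (K : Set G)) ϑ x = ϑ x := by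
  classical
  have hKN : ∀ k ∈ K, k ∈ Subgroup.normalizer (K : Set G) := by
    intro k hk
    exact Subgroup.le_normalizer hk
  have hconj : ∀ n ∈ Subgroup.normalizer (K : Set G), ∀ k ∈ K, n * k * n⁻¹ ∈ K := by
    intro n hn k hk
    exact (Subgroup.mem_normalizer_iff.mp hn k).mp hk
  have part1 : ∀ x ∈ Subgroup.normalizer (K : Set G), x ∉ K → ∀ g : G, g * x * g⁻¹ ∉ K := by
    intro x hxN hxK g hy
    -- `g` is outside the normalizer
    have hg : g ∉ Subgroup.normalizer (K : Set G) := by
      intro hg
      apply hxK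
      have := hconj g⁻¹ ((Subgroup.normalizer (K : Set G)).inv_mem hg) _ hy
      simpa [mul_assoc] using this
    have hx1 : x ≠ 1 := fun h => hxK (h ▸ K.one_mem)
    have hord1 : orderOf x ≠ 1 := by
      rw [Ne, orderOf_eq_one_iff]
      exact hx1
    have hord0 : orderOf x ≠ 0 := (orderOf_pos x).ne'
    let r := (orderOf x).minFac
    have hr : r.Prime := Nat.minFac_prime hord1
    haveI : Fact r.Prime := ⟨hr⟩
    let x' := x ^ (orderOf x / r)
    have hx' : orderOf x' = r := orderOf_pow_orderOf_div hord0 (Nat.minFac_dvd _)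
    have hx'1 : x' ≠ 1 := by
      intro h
      rw [h, orderOf_one] at hx'
      exact hr.one_lt.ne hx'
    have hx'N : x' ∈ Subgroup.normalizer (K : Set G) := Subgroup.pow_mem _ hxN _
    have hy' : g * x' * g⁻¹ ∈ K := by
      have : g * x' * g⁻¹ = (g * x * g⁻¹) ^ (orderOf x / r) := by
        simp only [x', conj_pow]
      rw [this]
      exact K.pow_mem hy _
    have hx'K : x' ∉ K := fun h => hx'1 (hTI g hg x' h hy')
    have hfix : ∀ k ∈ K, x' * k * x'⁻¹ = k → k = 1 := by
      intro k hk hc
      by_contra hk1
      apply hx'K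
      apply hC k hk hk1
      rw [Subgroup.mem_centralizer_singleton_iff]
      calc x' * k = x' * k * x'⁻¹ * x' := by group
        _ = k * x' := by rw [hc]
    -- the action
    let Z := Subgroup.zpowers x'
    have hZN : ∀ z ∈ Z, z ∈ Subgroup.normalizer (K : Set G) := by
      intro z hz
      exact (Subgroup.zpowers_le.mpr hx'N) hz
    letI act : MulAction Z K :=
      { smul := fun z k => ⟨z.1 * k.1 * z.1⁻¹, hconj z.1 (hZN z.1 z.2) k.1 k.2⟩
        one_smul := fun k => by
          apply Subtype.ext
          show (1 : G) * k.1 * (1 : G)⁻¹ = k.1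
          simp
        mul_smul := fun a b k => by
          apply Subtype.ext
          show (a.1 * b.1) * k.1 * (a.1 * b.1)⁻¹ = a.1 * (b.1 * k.1 * b.1⁻¹) * a.1⁻¹
          group }
    have hZp : IsPGroup r Z := by
      apply IsPGroup.of_card (n := 1)
      rw [Nat.card_zpowers, hx', pow_one]
    have hmod := hZp.card_modEq_card_fixedPoints K
    have hfixed : MulAction.fixedPoints Z K = {1} := by
      ext k
      simp only [MulAction.mem_fixedPoints, Set.mem_singleton_iff]
      constructor
      · intro h
        have h1 := h ⟨x', Subgroup.mem_zpowers x'⟩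
        have h2 : x' * k.1 * x'⁻¹ = k.1 := congrArg Subtype.val h1
        exact Subtype.ext (hfix k.1 k.2 h2)
      · rintro rfl z
        apply Subtype.ext
        show z.1 * (1 : G) * z.1⁻¹ = 1
        simp
    rw [hfixed] at hmod
    have hdvd : r ∣ Nat.card K := by
      have h1 : orderOf (g * x' * g⁻¹) = r := by
        rw [← MulAut.conj_apply, MulEquiv.orderOf_eq, hx']
      have h2 := Subgroup.orderOf_dvd_natCard K hy'
      rwa [h1] at h2
    have : Nat.card K ≡ 1 [MOD r] := by
      simpa using hmod
    have h3 := (Nat.modEq_zero_iff_dvd.mpr hdvd).symm.trans this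
    have h4 := (Nat.modEq_zero_iff_dvd).mp h3.symm
    exact hr.one_lt.ne' (Nat.dvd_one.mp h4)
  refine ⟨part1, ?_⟩
  intro ϑ hϑ hv h1 x
  letI : Fintype (Subgroup.normalizer (K : Set G)) := Fintype.ofFinite _
  by_cases hx : (x : G) ∈ K
  · by_cases hx1 : x = 1
    · subst hx1
      rw [show ((1 : Subgroup.normalizer (K : Set G)) : G) = 1 from rfl,
        Cfsg.Agent.Lib.CharOps.indFun_one, h1, mul_zero]
    · exact Cfsg.Agent.S0149.result (K : Set G) hTI (fun k hk => hKN k hk) ϑ hϑ hv x hx hx1
  · rw [hv x hx, Cfsg.Agent.Lib.CharOps.indFun_apply]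
    rw [Finset.sum_eq_zero, mul_zero]
    intro g _
    by_cases hm : g⁻¹ * (x : G) * g ∈ Subgroup.normalizer (K : Set G)
    · rw [Cfsg.Agent.Lib.CharOps.extendByZero_of_mem _ _ hm]
      apply hv
      have := part1 x x.2 hx g⁻¹
      simpa using this
    · rw [Cfsg.Agent.Lib.CharOps.extendByZero_of_not_mem _ _ hm]

end Cfsg.Agent.S0850
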