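import Cfsg.Statements.S0854
import Cfsg.Agent.Lib.CharCliff2

set_option autoImplicit false
set_option linter.style.haveILetI false
set_option linter.unusedVariables false
open Cfsg

namespace Cfsg.Agent.S0854

/-- Let H be a normal subgroup of the finite group G, ϑ an irreducible character of H, and T the inertia group of ϑ (the elements g with ϑ(g n g⁻¹) = ϑ(n) for all n in H). If χ is an irreducible character of G whose restriction to H has nonzero inner product with ϑ, then χ is induced from some irreducible character ψ of T, and the restrictions of ψ and of χ to H have the same inner product with ϑ. -/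
theorem result {G : Type*} [Group G] [Fintype G] (H : Subgroup G) [hN : H.Normal] [Fintype H] (ϑ : H → ℂ) (hϑ : Cfsg.IsIrrCharacter H ϑ) (T : Subgroup G) [Fintype T] (hT : ∀ g : G, g ∈ T ↔ ∀ n : H, ϑ ⟨g * n * g⁻¹, hN.conj_mem (n : G) n.2 g⟩ = ϑ n) (hHT : H ≤ T) (χ : G → ℂ) (hχ : Cfsg.IsIrrCharacter G χ) (hcon : Cfsg.classInner (fun n : H => χ n) ϑ ≠ 0) : ∃ ψ : T → ℂ, Cfsg.IsIrrCharacter T ψ ∧ Cfsg.indFun T ψ = χ ∧ Cfsg.classInner (fun n : H => ψ ⟨(n : G), hHT n.2⟩) ϑ = Cfsg.classInner (fun n : H => χ n) ϑ := by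
  classical
  have hTeq : T = Cfsg.Agent.Lib.CharCliff.inertia H ϑ := by
    ext g
    rw [hT, Cfsg.Agent.Lib.CharCliff.mem_inertia H]
    constructor
    · intro h
      funext n
      exact h n
    · intro h n
      exact congrFun h n
  subst hTeq
  obtain ⟨ψ, hψ, hχind, e, he0, hval⟩ := Cfsg.Agent.Lib.CharCliff.clifford_corr H hχ hϑ hcon
  refine ⟨ψ, ?_, hχind.symm, ?_⟩
  · convert hψ
  · have h1 := Cfsg.Agent.Lib.CharCliff2.classInner_restrict_ind H hϑ
      (Cfsg.Agent.Lib.CharCliff.inertia H ϑ) hHT ψ (e : ℂ) (fun n => hval n (hHT n.2))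
      (fun g => Cfsg.Agent.Lib.CharCliff.mem_inertia H)
    rw [← hχind] at h1
    rw [h1]
    have h2 : (fun n : H => ψ ⟨(n : G), hHT n.2⟩) = (e : ℂ) • ϑ := by
      funext n
      rw [hval n (hHT n.2)]
      rfl
    rw [h2, Cfsg.Agent.Lib.CharIrr.classInner_smul_left, Cfsg.Agent.Lib.CharIrr.classInner_irr hϑ hϑ, if_pos rfl, mul_one]

end Cfsg.Agent.S0854
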