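import Cfsg.Statements.S0856
import Cfsg.Agent.Lib.CharLinear

set_option autoImplicit false
set_option linter.style.haveILetI false
set_option linter.unusedVariables false
open scoped ComplexConjugate
open Cfsg

namespace Cfsg.Agent.S0856

/-- Let N be a normal subgroup of the finite group G and φ, ϑ irreducible characters of N that are invariant under conjugation by G, such that the pointwise product φ * ϑ is irreducible and ϑ is the restriction of an irreducible character χ of G. Then multiplication by χ is a bijection from the set of irreducible characters of G having nonzero inner product with the function induced from φ onto the set of those having nonzero inner product with the function induced from φ * ϑ. -/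
theorem result {G : Type*} [Group G] [Fintype G] (N : Subgroup G) [hN : N.Normal] (φ ϑ : N → ℂ) (hφ : Cfsg.IsIrrCharacter N φ) (hϑ : Cfsg.IsIrrCharacter N ϑ) (hφinv : ∀ (g : G) (n : N), φ ⟨g * n * g⁻¹, hN.conj_mem (n : G) n.2 g⟩ = φ n) (hϑinv : ∀ (g : G) (n : N), ϑ ⟨g * n * g⁻¹, hN.conj_mem (n : G) n.2 g⟩ = ϑ n) (hprod : Cfsg.IsIrrCharacter N (φ * ϑ)) (χ : G → ℂ) (hχ : Cfsg.IsIrrCharacter G χ) (hext : ∀ n : N, χ n = ϑ n) : Set.BijOn (fun β : G → ℂ => β * χ) {β : G → ℂ | Cfsg.IsIrrCharacter G β ∧ Cfsg.classInner (Cfsg.indFun N φ) β ≠ 0} {ψ : G → ℂ | Cfsg.IsIrrCharacter G ψ ∧ Cfsg.classInner (Cfsg.indFun N (φ * ϑ)) ψ ≠ 0} := by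
  classical
  letI : Fintype N := Fintype.ofFinite _
  open Cfsg.Agent.Lib.CharCliff Cfsg.Agent.Lib.CharNormal Cfsg.Agent.Lib.CharOps Cfsg.Agent.Lib.CharIrr Cfsg.Agent.Lib.CharGen Cfsg.Agent.Lib.CharAb Cfsg.Agent.Lib.CharKernel Cfsg.Agent.Lib.CharLinear in
    obtain ⟨π, hπdef⟩ : ∃ π, π = indFun N φ := ⟨_, rfl⟩
    obtain ⟨ρ, hρdef⟩ : ∃ ρ, ρ = indFun N (φ * ϑ) := ⟨_, rfl⟩
    rw [← hπdef, ← hρdef]
    have hπc : IsCharacter G π := hπdef ▸ isCharacter_indFun N (IsIrrCharacter.isCharacter' hφ)
    have hρc : IsCharacter G ρ := hρdef ▸ isCharacter_indFun N (IsIrrCharacter.isCharacter' hprod)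
    have hχc := IsIrrCharacter.isCharacter' hχ
    have hcl := IsCharacter.isClassFunction' hχc
    have hρeq : ρ = π * χ := by
      funext g
      have h1 := indFun_mul_restrict N φ hcl g
      have h2 : (fun h : N => φ h * χ h) = φ * ϑ := by
        funext h
        simp [hext]
      rw [h2] at h1
      rw [hρdef, hπdef]
      exact h1
    have hK : (Nat.card N : ℂ) ≠ 0 := by exact_mod_cast Nat.card_pos.ne'
    have hidx : Nat.card G = N.index * Nat.card N := by
      rw [mul_comm, Subgroup.card_mul_index]
    have hnormπ : classInner π π = (N.index : ℂ) := by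
      apply mul_left_cancel₀ hK
      rw [hπdef, card_mul_norm_ind N hφ, Nat.card_congr (Equiv.subtypeUnivEquiv (fun g n => hφinv g n)), hidx]
      push_cast
      ring
    have hnormρ : classInner ρ ρ = (N.index : ℂ) := by
      apply mul_left_cancel₀ hK
      rw [hρdef, card_mul_norm_ind N hprod, Nat.card_congr (Equiv.subtypeUnivEquiv (fun g n => ?_)), hidx]
      · push_cast
        ring
      · simp only [Pi.mul_apply]
        rw [hφinv, hϑinv]
    -- coefficients
    choose e he using fun β : IrrCharacter G => exists_nat_classInner hπc (IsIrrCharacter.isCharacter' β.2)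
    have hmul : ∀ β : IrrCharacter G, IsCharacter G ((β : G → ℂ) * χ) := fun β =>
      isCharacter_mul (IsIrrCharacter.isCharacter' β.2) hχc
    choose a ha using fun p : IrrCharacter G × IrrCharacter G =>
      exists_nat_classInner (hmul p.1) (hmul p.2)
    have hπexp : π = ∑ β : IrrCharacter G, (e β : ℂ) • (β : G → ℂ) := by
      conv_lhs => rw [classFunction_expand (IsCharacter.isClassFunction' hπc)]
      exact Finset.sum_congr rfl fun β _ => by rw [he]
    have hρexp : ρ = ∑ β : IrrCharacter G, (e β : ℂ) • ((β : G → ℂ) * χ) := by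
      rw [hρeq]
      conv_lhs => rw [hπexp]
      funext g
      simp [Finset.sum_apply, Finset.sum_mul, mul_assoc]
    have hsum1 : ((∑ β : IrrCharacter G, e β ^ 2 : ℕ) : ℂ) = N.index := by
      rw [← hnormπ]
      conv_rhs => rw [hπexp]
      rw [classInner_sum_left]
      push_cast
      refine Finset.sum_congr rfl fun β _ => ?_
      rw [classInner_smul_left, ← hπexp, ← classInner_conj, he]
      simp [sq]
    have hsum2 : ((∑ p : IrrCharacter G × IrrCharacter G, e p.1 * e p.2 * a p : ℕ) : ℂ) = N.index := by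
      rw [← hnormρ]
      conv_rhs => rw [hρexp]
      rw [classInner_sum_left, Fintype.sum_prod_type]
      push_cast
      refine Finset.sum_congr rfl fun β _ => ?_
      rw [classInner_sum_right]
      refine Finset.sum_congr rfl fun β' _ => ?_
      rw [classInner_smul_left, classInner_smul_right, ha (β, β')]
      simp
      ring
    have hsum : ∑ p : IrrCharacter G × IrrCharacter G, e p.1 * e p.2 * a p = ∑ β : IrrCharacter G, e β ^ 2 := by
      have : ((∑ p : IrrCharacter G × IrrCharacter G, e p.1 * e p.2 * a p : ℕ) : ℂ) = ((∑ β : IrrCharacter G, e β ^ 2 : ℕ) : ℂ) := by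
        rw [hsum1, hsum2]
      exact_mod_cast this
    -- positivity of the diagonal
    have hpos : ∀ β : IrrCharacter G, a (β, β) ≠ 0 := by
      intro β h0
      have h1 := ha (β, β)
      rw [h0] at h1
      have hne : ((β : G → ℂ) * χ) 1 ≠ 0 := by
        simp only [Pi.mul_apply]
        exact mul_ne_zero (degree_ne_zero β.2) (degree_ne_zero hχ)
      have h2 : classInner ((β : G → ℂ) * χ) ((β : G → ℂ) * χ) ≠ 0 := by
        unfold classInner
        refine mul_ne_zero (inv_ne_zero (by exact_mod_cast Nat.card_pos.ne')) ?_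
        have h3 : ∑ g : G, ((β : G → ℂ) * χ) g * conj (((β : G → ℂ) * χ) g) = ((∑ g : G, ‖((β : G → ℂ) * χ) g‖ ^ 2 : ℝ) : ℂ) := by
          push_cast
          exact Finset.sum_congr rfl fun g _ => Complex.mul_conj' _
        rw [h3]
        have h4 : 0 < ∑ g : G, ‖((β : G → ℂ) * χ) g‖ ^ 2 := by
          apply Finset.sum_pos' (fun g _ => by positivity)
          exact ⟨1, Finset.mem_univ _, by positivity⟩
        exact_mod_cast h4.ne'
      apply h2
      exact h1.trans (by simp)
    -- equality in the double sum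
    have hle : ∀ p ∈ (Finset.univ : Finset (IrrCharacter G × IrrCharacter G)),
        (if p.1 = p.2 then e p.1 ^ 2 else 0) ≤ e p.1 * e p.2 * a p := by
      rintro ⟨β, β'⟩ -
      dsimp only
      split_ifs with h
      · subst h
        have : 1 ≤ a (β, β) := Nat.one_le_iff_ne_zero.mpr (hpos β)
        calc e β ^ 2 = e β * e β * 1 := by ring
          _ ≤ e β * e β * a (β, β) := Nat.mul_le_mul_left _ this
      · exact Nat.zero_le _
    have hsumeq : ∑ p : IrrCharacter G × IrrCharacter G, (if p.1 = p.2 then e p.1 ^ 2 else 0) = ∑ p : IrrCharacter G × IrrCharacter G, e p.1 * e p.2 * a p := by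
      rw [hsum, Fintype.sum_prod_type]
      refine Finset.sum_congr rfl fun β _ => ?_
      simp
    have hptw := (Finset.sum_eq_sum_iff_of_le hle).mp hsumeq
    have hdiag : ∀ β : IrrCharacter G, e β ≠ 0 → a (β, β) = 1 := by
      intro β hβ
      have h1 := hptw (β, β) (Finset.mem_univ _)
      simp only [if_true] at h1
      have h2 : 0 < e β * e β := Nat.mul_pos (Nat.pos_of_ne_zero hβ) (Nat.pos_of_ne_zero hβ)
      have h3 : e β * e β * 1 = e β * e β * a (β, β) := by rw [mul_one, ← h1]; ring
      exact (Nat.eq_of_mul_eq_mul_left h2 h3).symm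
    have hoff : ∀ β β' : IrrCharacter G, β ≠ β' → e β ≠ 0 → e β' ≠ 0 → a (β, β') = 0 := by
      intro β β' hne hβ hβ'
      have h1 := hptw (β, β') (Finset.mem_univ _)
      simp only [if_neg hne] at h1
      have h2 : e β * e β' ≠ 0 := Nat.mul_ne_zero hβ hβ'
      rcases Nat.mul_eq_zero.mp h1.symm with h | h
      · exact absurd h h2
      · exact h
    have hirrmul : ∀ β : IrrCharacter G, e β ≠ 0 → IsIrrCharacter G ((β : G → ℂ) * χ) := by
      intro β hβ
      apply isIrr_of_norm_one (hmul β)
      rw [ha (β, β), hdiag β hβ]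
      simp
    have hinner : ∀ β : IrrCharacter G, e β ≠ 0 → classInner ρ ((β : G → ℂ) * χ) = (e β : ℂ) := by
      intro β hβ
      rw [hρexp, classInner_sum_left]
      rw [Finset.sum_eq_single β]
      · rw [classInner_smul_left, ha (β, β), hdiag β hβ]
        simp
      · intro β' _ hne
        by_cases hβ' : e β' = 0
        · rw [classInner_smul_left, hβ']
          simp
        · rw [classInner_smul_left, ha (β', β), hoff β' β hne hβ' hβ]
          simp
      · simp
    refine ⟨?_, ?_, ?_⟩
    · rintro β ⟨hβ, hne⟩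
      let β' : IrrCharacter G := ⟨β, hβ⟩
      have hβ0 : e β' ≠ 0 := by
        intro h0
        apply hne
        rw [he β', h0]
        simp
      refine ⟨hirrmul β' hβ0, ?_⟩
      show classInner ρ ((β' : G → ℂ) * χ) ≠ 0
      rw [hinner β' hβ0]
      exact_mod_cast hβ0
    · rintro β ⟨hβ, hne⟩ β₂ ⟨hβ₂, hne₂⟩ heq
      let b1 : IrrCharacter G := ⟨β, hβ⟩
      let b2 : IrrCharacter G := ⟨β₂, hβ₂⟩
      have h1 : e b1 ≠ 0 := by
        intro h0
        apply hne
        rw [he b1, h0]
        simp
      have h2 : e b2 ≠ 0 := by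
        intro h0
        apply hne₂
        rw [he b2, h0]
        simp
      by_contra hne3
      have h3 : b1 ≠ b2 := fun h => hne3 (congrArg Subtype.val h)
      have h4 := hoff b1 b2 h3 h1 h2
      have h5 := ha (b1, b2)
      rw [h4] at h5
      have h6 : classInner ((b1 : G → ℂ) * χ) ((b2 : G → ℂ) * χ) = 1 := by
        have : (b2 : G → ℂ) * χ = (b1 : G → ℂ) * χ := heq.symm
        rw [this, classInner_irr (hirrmul b1 h1) (hirrmul b1 h1), if_pos rfl]
      rw [h6] at h5
      simp at h5
    · rintro ψ ⟨hψ, hne⟩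
      rw [hρexp, classInner_sum_left] at hne
      obtain ⟨β, -, hβ⟩ := Finset.exists_ne_zero_of_sum_ne_zero hne
      rw [classInner_smul_left] at hβ
      have hβ0 : e β ≠ 0 := by
        intro h0
        apply hβ
        rw [h0]
        simp
      have hβ1 := right_ne_zero_of_mul hβ
      have hirr := hirrmul β hβ0
      have heq : (β : G → ℂ) * χ = ψ := by
        by_contra hne'
        apply hβ1
        rw [classInner_irr hirr hψ, if_neg hne']
      refine ⟨β, ⟨β.2, ?_⟩, heq⟩
      rw [he β]
      exact_mod_cast hβ0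

end Cfsg.Agent.S0856
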