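import Cfsg.Statements.S0861
import Mathlib
import Cfsg.Agent.S0169
import Cfsg.Agent.Lib.CharAMGM
import Cfsg.Agent.Lib.CharBlockVan
import Cfsg.Agent.Lib.CharInflate
import Cfsg.Agent.Lib.CharAb

set_option autoImplicit false
set_option linter.style.haveILetI false
set_option linter.unusedVariables false
open scoped ComplexConjugate
open Cfsg

namespace Cfsg.Agent.S0861

/-- Let P be a normal abelian Sylow p-subgroup of the finite group G and suppose some element g of P has centralizer exactly P. Then the number of irreducible characters of G is at most the order of P, and if equality holds then G / P is abelian (the commutator subgroup lies in P). -/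
theorem result {G : Type*} [Group G] [Finite G] (p : ℕ) [Fact p.Prime] (P : Sylow p G) [(P : Subgroup G).Normal] (hab : ∀ a ∈ P, ∀ b ∈ P, a * b = b * a) (g : G) (hg : g ∈ P) (hC : Subgroup.centralizer ({g} : Set G) = P) : Nat.card (Cfsg.IrrCharacter G) ≤ Nat.card P ∧ (Nat.card (Cfsg.IrrCharacter G) = Nat.card P → commutator G ≤ P) := by
  classical
  cases nonempty_fintype G
  obtain ⟨M, hM⟩ := Cfsg.Agent.Lib.CharBlockVan.exists_isPModular (Fact.out : p.Prime)
  letI : Fintype (P : Subgroup G) := Fintype.ofFinite _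
  have hdeg : ∀ χ : Cfsg.IrrCharacter G, ¬ p ∣ Cfsg.charDegree (χ : G → ℂ) := by
    intro χ
    obtain ⟨n, ρ, hρ, hχ⟩ := χ.2
    haveI := hρ
    have h1 := Cfsg.Agent.S0169.result ρ (P : Subgroup G) hab
    have h2 : Cfsg.charDegree (χ : G → ℂ) = Module.finrank ℂ (Fin n → ℂ) := by
      have h3 := Cfsg.Agent.Lib.CharBlockDefect.charDegree_cast (Cfsg.Agent.Lib.CharOps.IsIrrCharacter.isCharacter' χ.2)
      rw [← hχ] at h3 ⊢
      rw [Representation.char_one] at h3
      exact_mod_cast h3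
    rw [h2]
    intro h3
    exact P.not_dvd_index (h3.trans h1)
  -- `g` is a `p`-element
  obtain ⟨k, hk⟩ : ∃ k : ℕ, g ^ (p ^ k) = 1 := by
    obtain ⟨k, hk⟩ := (IsPGroup.iff_orderOf.1 P.isPGroup') ⟨g, hg⟩
    refine ⟨k, ?_⟩
    have : orderOf g = p ^ k := by rw [← hk]; exact (Subgroup.orderOf_mk g hg).symm
    rw [← this]; exact pow_orderOf_eq_one g
  have hg0 : ∀ χ : Cfsg.IrrCharacter G, (χ : G → ℂ) g ≠ 0 := by
    intro χ h0
    have h1 := Cfsg.Agent.Lib.CharBlockHeight.character_mul_congr hM (Cfsg.Agent.Lib.CharOps.IsIrrCharacter.isCharacter' χ.2) (y := 1) hk (Commute.one_right g)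
    rw [mul_one, h0, zero_sub] at h1
    have h2 := Cfsg.Agent.Lib.CharBlockLocal.MemLocalIdeal.neg h1
    rw [neg_neg, ← Cfsg.Agent.Lib.CharBlockDefect.charDegree_cast (Cfsg.Agent.Lib.CharOps.IsIrrCharacter.isCharacter' χ.2)] at h2
    exact hdeg χ ((Cfsg.Agent.Lib.CharBlockLocal.natCast_memLocalIdeal_iff hM _).1 h2)
  -- the generators of `⟨g⟩`
  let S : Finset G := Finset.univ.filter (fun x => ∃ m : ℕ, m.Coprime (Nat.card G) ∧ x = g ^ m)
  have hgS : g ∈ S := by
    simp only [S, Finset.mem_filter, Finset.mem_univ, true_and]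
    exact ⟨1, Nat.coprime_one_left _, (pow_one g).symm⟩
  have hSpow : ∀ x ∈ S, ∀ m : ℕ, m.Coprime (Nat.card G) → x ^ m ∈ S := by
    intro x hx m hm
    simp only [S, Finset.mem_filter, Finset.mem_univ, true_and] at hx ⊢
    obtain ⟨m', hm', rfl⟩ := hx
    exact ⟨m' * m, Nat.Coprime.mul_left hm' hm, (pow_mul g m' m).symm⟩
  have hS0 : ∀ χ : Cfsg.IrrCharacter G, ∀ x ∈ S, (χ : G → ℂ) x ≠ 0 := by
    intro χ x hx
    simp only [S, Finset.mem_filter, Finset.mem_univ, true_and] at hx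
    obtain ⟨m, hm, rfl⟩ := hx
    obtain ⟨n, ρ, hρ, hχ⟩ := χ.2
    rw [← hχ]
    apply Cfsg.Agent.Lib.CharAMGM.character_pow_ne_zero ρ hm
    rw [hχ]
    exact hg0 χ
  -- each element of `S` has centralizer `P`
  have hC2 : ∀ x ∈ S, Nat.card (Subgroup.centralizer ({x} : Set G)) = Nat.card (P : Subgroup G) := by
    intro x hx
    simp only [S, Finset.mem_filter, Finset.mem_univ, true_and] at hx
    obtain ⟨m, hm, rfl⟩ := hx
    have h0 : Subgroup.centralizer ({g ^ m} : Set G) = Subgroup.centralizer ({g} : Set G) := by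
      apply le_antisymm
      · intro y hy
        rw [Subgroup.mem_centralizer_singleton_iff] at hy ⊢
        obtain ⟨a, ha⟩ := Cfsg.Agent.Lib.CharAMGM.exists_zpow_eq hm g
        have h1 : Commute y (g ^ m) := hy
        have h2 := h1.zpow_right a
        rwa [ha] at h2
      · intro y hy
        rw [Subgroup.mem_centralizer_singleton_iff] at hy ⊢
        exact (Commute.pow_right (show Commute y g from hy) m)
    rw [h0, hC]
  have hcol : ∀ x ∈ S, ∑ χ : Cfsg.IrrCharacter G, ‖(χ : G → ℂ) x‖ ^ 2 = (Nat.card (P : Subgroup G) : ℝ) := by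
    intro x hx
    have h1 := Cfsg.Agent.Lib.CharIrr.column_orthogonality x x
    rw [if_pos (IsConj.refl x), hC2 x hx] at h1
    have h2 : ((∑ χ : Cfsg.IrrCharacter G, ‖(χ : G → ℂ) x‖ ^ 2 : ℝ) : ℂ) = ((Nat.card (P : Subgroup G) : ℝ) : ℂ) := by
      push_cast
      rw [← h1]
      refine Finset.sum_congr rfl fun χ _ => ?_
      rw [Complex.mul_conj, Complex.normSq_eq_norm_sq]
      push_cast
      rfl
    exact_mod_cast h2
  have hrow : ∀ χ : Cfsg.IrrCharacter G, (S.card : ℝ) ≤ ∑ x ∈ S, ‖(χ : G → ℂ) x‖ ^ 2 := by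
    intro χ
    obtain ⟨n, ρ, hρ, hχ⟩ := χ.2
    have := Cfsg.Agent.Lib.CharAMGM.card_le_sum_sq ρ S (fun x hx => by rw [hχ]; exact hS0 χ x hx) hSpow
    rwa [hχ] at this
  have hSpos : (0 : ℝ) < S.card := by exact_mod_cast Finset.card_pos.2 ⟨g, hgS⟩
  have htot : ∑ χ : Cfsg.IrrCharacter G, ∑ x ∈ S, ‖(χ : G → ℂ) x‖ ^ 2 = (S.card : ℝ) * (Nat.card (P : Subgroup G) : ℝ) := by
    rw [Finset.sum_comm, Finset.sum_congr rfl hcol, Finset.sum_const, nsmul_eq_mul]
  have hkle : (Fintype.card (Cfsg.IrrCharacter G) : ℝ) * (S.card : ℝ) ≤ (S.card : ℝ) * (Nat.card (P : Subgroup G) : ℝ) := by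
    rw [← htot]
    have := Finset.sum_le_sum (s := Finset.univ) (fun χ _ => hrow χ)
    simpa [mul_comm] using this
  rw [Nat.card_eq_fintype_card (α := Cfsg.IrrCharacter G)]
  constructor
  · have h1 : (Fintype.card (Cfsg.IrrCharacter G) : ℝ) ≤ (Nat.card (P : Subgroup G) : ℝ) := by
      rw [mul_comm] at hkle
      exact le_of_mul_le_mul_left hkle hSpos
    exact_mod_cast h1
  · intro heq
    have hrow1 : ∀ χ : Cfsg.IrrCharacter G, ∑ x ∈ S, ‖(χ : G → ℂ) x‖ ^ 2 = (S.card : ℝ) := by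
      have h1 : ∑ χ : Cfsg.IrrCharacter G, (S.card : ℝ) = ∑ χ : Cfsg.IrrCharacter G, ∑ x ∈ S, ‖(χ : G → ℂ) x‖ ^ 2 := by
        rw [htot, Finset.sum_const, Finset.card_univ, nsmul_eq_mul, heq, mul_comm]
      have h2 := (Finset.sum_eq_sum_iff_of_le (fun χ _ => hrow χ)).1 h1
      intro χ
      exact (h2 χ (Finset.mem_univ _)).symm
    have hnorm : ∀ χ : Cfsg.IrrCharacter G, ‖(χ : G → ℂ) g‖ = 1 := by
      intro χ
      obtain ⟨n, ρ, hρ, hχ⟩ := χ.2
      have := Cfsg.Agent.Lib.CharAMGM.sum_sq_eq_card_imp ρ S (fun x hx => by rw [hχ]; exact hS0 χ x hx) hSpow (by rw [hχ]; exact hrow1 χ) g hgS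
      rwa [hχ] at this
    -- the characters of `G / P` are linear
    haveI hPn : (P : Subgroup G).Normal := inferInstance
    letI : Fintype (G ⧸ (P : Subgroup G)) := Fintype.ofFinite _
    have hcomm : ∀ a b : G ⧸ (P : Subgroup G), a * b = b * a := by
      rw [Cfsg.Agent.Lib.CharAb.commutative_iff_apply_one]
      intro τ
      have h1 := Cfsg.Agent.Lib.CharInflate.isIrr_inflate (P : Subgroup G) τ.2
      have h2 := hnorm ⟨_, h1⟩
      have hmk : ((g : G) : G ⧸ (P : Subgroup G)) = 1 := (QuotientGroup.eq_one_iff g).2 hg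
      simp only [hmk] at h2
      obtain ⟨d, hd⟩ := Cfsg.Agent.Lib.CharOps.exists_degree (Cfsg.Agent.Lib.CharOps.IsIrrCharacter.isCharacter' τ.2)
      rw [hd] at h2 ⊢
      have h3 : d = 1 := by
        have : ((d : ℝ)) = 1 := by simpa using h2
        exact_mod_cast this
      rw [h3]; simp
    rw [commutator_def, Subgroup.commutator_le]
    intro a _ b _
    have h1 := hcomm (a : G ⧸ (P : Subgroup G)) b
    rw [← QuotientGroup.eq_one_iff, commutatorElement_def]
    simp only [QuotientGroup.mk_mul, QuotientGroup.mk_inv]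
    rw [h1]
    group

end Cfsg.Agent.S0861
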