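import Cfsg.Statements.S0865
import Cfsg.Agent.Lib.CharDet3

set_option autoImplicit false
set_option linter.all false
open Cfsg

namespace Cfsg.Agent.S0865

/-- Let N be a normal subgroup of the finite group G and λ a character of N of degree 1, invariant under conjugation by G, whose order (under pointwise multiplication) is coprime to the index of N. Then there is a character μ of G of degree 1 restricting to λ with the same order as λ, and μ is the only degree-1 character of G restricting to λ whose order is coprime to the index of N. -/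
theorem result {G : Type*} [Group G] [Finite G] (N : Subgroup G) [hN : N.Normal] (lam : N → ℂ) (hlam : Cfsg.IsCharacter N lam ∧ lam 1 = 1) (hinv : ∀ (g : G) (n : N), lam ⟨g * n * g⁻¹, hN.conj_mem (n : G) n.2 g⟩ = lam n) (hcop : Nat.Coprime N.index (orderOf lam)) : ∃ μ : G → ℂ, (Cfsg.IsCharacter G μ ∧ μ 1 = 1 ∧ (∀ n : N, μ n = lam n) ∧ orderOf μ = orderOf lam) ∧ ∀ μ' : G → ℂ, Cfsg.IsCharacter G μ' ∧ μ' 1 = 1 → (∀ n : N, μ' n = lam n) → Nat.Coprime N.index (orderOf μ') → μ' = μ := by
  classical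
  letI : Fintype G := Fintype.ofFinite G
  letI : Fintype N := Fintype.ofFinite N
  have hord := Cfsg.Agent.Lib.CharDet3.orderOf_of_degree_one hlam.1 hlam.2
  obtain ⟨μ, h1, h2, h3⟩ := Cfsg.Agent.Lib.CharDet3.linear_ext N (Cfsg.Agent.Lib.CharAb.homOfDegreeOne hlam.1 hlam.2)
    (fun g n => Units.ext (hinv g n)) (by rw [← hord]; exact hcop)
  refine ⟨fun g => (μ g : ℂ), ⟨Cfsg.Agent.Lib.CharOps.IsIrrCharacter.isCharacter' (Cfsg.Agent.Lib.CharAb.isIrrCharacter_of_hom μ), by simp, fun n => ?_, ?_⟩, ?_⟩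
  · show (μ n : ℂ) = lam n
    rw [h1]
    rfl
  · rw [Cfsg.Agent.Lib.CharDet3.orderOf_fun, h2, hord]
  · rintro μ' ⟨h4, h5⟩ h6 h7
    have h8 := h3 (Cfsg.Agent.Lib.CharAb.homOfDegreeOne h4 h5) (fun n => Units.ext (h6 n))
      (by rw [← Cfsg.Agent.Lib.CharDet3.orderOf_of_degree_one h4 h5]; exact h7)
    rw [← h8]
    rfl

end Cfsg.Agent.S0865
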