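import Cfsg.Statements.S0868
import Cfsg.Agent.S0856

set_option autoImplicit false
set_option linter.style.haveILetI false
set_option linter.unusedVariables false
open scoped ComplexConjugate
open Cfsg

namespace Cfsg.Agent.S0868

/-- Let N be a normal subgroup of the finite group G, χ an irreducible character of G whose restriction ϑ to N is irreducible, and ψ an irreducible character of G. Define η on G by η g = (1 / order of N) * Σ over n in N of ψ (n * g) * conj (χ (n * g)). Then: if the restriction of ψ to N has nonzero inner product with ϑ, η is an irreducible character of G; if that inner product is zero, η vanishes identically; and if ψ = χ then η is identically 1. -/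
theorem result {G : Type*} [Group G] [Fintype G] (N : Subgroup G) [N.Normal] [Fintype N] (χ : G → ℂ) (hχ : Cfsg.IsIrrCharacter G χ) (hχN : Cfsg.IsIrrCharacter N (fun n : N => χ n)) (ψ : G → ℂ) (hψ : Cfsg.IsIrrCharacter G ψ) (η : G → ℂ) (hη : η = fun g => (Nat.card N : ℂ)⁻¹ * ∑ n : N, ψ ((n : G) * g) * conj (χ ((n : G) * g))) : (Cfsg.classInner (fun n : N => ψ n) (fun n : N => χ n) ≠ 0 → Cfsg.IsIrrCharacter G η) ∧ (Cfsg.classInner (fun n : N => ψ n) (fun n : N => χ n) = 0 → η = 0) ∧ (ψ = χ → η = fun _ => 1) := by
  classical
  open Cfsg.Agent.Lib.CharCliff Cfsg.Agent.Lib.CharNormal Cfsg.Agent.Lib.CharOps Cfsg.Agent.Lib.CharIrr Cfsg.Agent.Lib.CharGen Cfsg.Agent.Lib.CharAb Cfsg.Agent.Lib.CharKernel Cfsg.Agent.Lib.CharLinear in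
    have hχc := IsIrrCharacter.isCharacter' hχ
    have hψc := IsIrrCharacter.isCharacter' hψ
    have hNcC : (Nat.card N : ℂ) ≠ 0 := by exact_mod_cast Nat.card_pos.ne'
    have hGcC : (Nat.card G : ℂ) ≠ 0 := by exact_mod_cast Nat.card_pos.ne'
    -- the case `ψ = χ`
    have hone : ∀ x : G, (Nat.card N : ℂ)⁻¹ * ∑ n : N, χ ((n : G) * x) * conj (χ ((n : G) * x)) = 1 := by
      let α : G → ℂ := fun g => χ g * conj (χ g)
      have hα : IsCharacter G α := isCharacter_mul hχc (isCharacter_conj hχc)
      have hf := isCharacter_cosetAvg N hα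
      have hinner1 : classInner (fun x => (Nat.card N : ℂ)⁻¹ * ∑ n : N, α ((n : G) * x)) (fun _ => (1 : ℂ)) = ((1 : ℕ) : ℂ) := by
        rw [classInner]
        simp only [map_one, mul_one]
        rw [← Finset.mul_sum, Finset.sum_comm]
        have h1 : ∀ n : N, ∑ x, α ((n : G) * x) = (Nat.card G : ℂ) := by
          intro n
          have h2 := classInner_irr hχ hχ
          rw [if_pos rfl, Cfsg.classInner] at h2
          have h3 : ∑ g, χ g * conj (χ g) = (Nat.card G : ℂ) := by
            field_simp at h2
            exact h2
          rw [← h3]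
          exact Equiv.sum_comp (Equiv.mulLeft (n : G)) (fun x => χ x * conj (χ x))
        simp only [h1, Finset.sum_const, Finset.card_univ, nsmul_eq_mul]
        rw [← Nat.card_eq_fintype_card]
        field_simp
        simp
      have hsub := sub_isCharacter hf Cfsg.Agent.Lib.CharIso.isIrr_one 1 hinner1
      have hN1 : (fun n : N => χ n) 1 = _ := rfl
      have hdeg1 : (Nat.card N : ℂ)⁻¹ * ∑ n : N, α ((n : G) * 1) = 1 := by
        have h1 := classInner_irr hχN hχN
        rw [if_pos rfl, Cfsg.classInner] at h1
        simpa [α] using h1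
      have h0 := eq_zero_of_degree_zero hsub (by
        simp only [Pi.sub_apply, Pi.smul_apply, smul_eq_mul]
        rw [hdeg1]
        simp)
      intro x
      have h2 := congrFun h0 x
      simp only [Pi.sub_apply, Pi.smul_apply, smul_eq_mul, Pi.zero_apply] at h2
      have h3 := sub_eq_zero.mp h2
      simpa [α] using h3
    have hηdeg : η 1 = classInner (fun n : N => ψ n) (fun n : N => χ n) := by
      rw [hη, Cfsg.classInner]
      simp
    have hηc : IsCharacter G η := by
      rw [hη]
      exact isCharacter_cosetAvg N (isCharacter_mul hψc (isCharacter_conj hχc))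
    refine ⟨?_, ?_, ?_⟩
    · intro hne
      -- `ψ = β χ`
      have hbij := Cfsg.Agent.S0856.result N (fun _ => 1) (fun n : N => χ n) Cfsg.Agent.Lib.CharIso.isIrr_one hχN
        (fun g n => rfl)
        (fun g n => by
          show χ (g * n * g⁻¹) = χ n
          exact IsCharacter.isClassFunction' hχc n g)
        (by
          have : (fun _ : N => (1 : ℂ)) * (fun n : N => χ n) = (fun n : N => χ n) := by
            funext n
            simp
          rw [this]
          exact hχN)
        χ hχ (fun n => rfl)
      have hψmem : ψ ∈ {ψ : G → ℂ | IsIrrCharacter G ψ ∧ classInner (indFun N ((fun _ => 1) * (fun n : N => χ n))) ψ ≠ 0} := by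
        refine ⟨hψ, ?_⟩
        have : (fun _ : N => (1 : ℂ)) * (fun n : N => χ n) = (fun n : N => χ n) := by
          funext n
          simp
        rw [this, frobenius_reciprocity N _ (IsCharacter.isClassFunction' hψc)]
        intro h0
        apply hne
        rw [← classInner_conj, h0]
        simp
      obtain ⟨β, ⟨hβ, hβne⟩, hβψ⟩ := hbij.surjOn hψmem
      simp only at hβψ
      -- `β` has `N` in its kernel
      let π : G → ℂ := indFun N (fun _ => 1)
      have hπ : IsCharacter G π := isCharacter_indFun N isCharacter_one
      have hπker : ∀ b ∈ N, π b = π 1 := by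
        intro b hb
        show indFun _ _ b = indFun _ _ 1
        rw [indFun_apply, indFun_apply]
        congr 1
        refine Finset.sum_congr rfl fun x _ => ?_
        have h1 : x⁻¹ * b * x ∈ N := by
          have := ‹N.Normal›.conj_mem b hb x⁻¹
          simpa using this
        have h2 : x⁻¹ * 1 * x ∈ N := by simp
        rw [extendByZero_of_mem _ _ h1, extendByZero_of_mem _ _ h2]
      have hβker : ∀ n ∈ N, β n = β 1 := fun n hn => ker_of_constituent hπ hβ hβne (hπker n hn)
      have hηβ : η = β := by
        rw [hη]
        funext g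
        have h1 : ∀ n : N, ψ ((n : G) * g) * conj (χ ((n : G) * g)) = β g * (χ ((n : G) * g) * conj (χ ((n : G) * g))) := by
          intro n
          rw [← hβψ, Pi.mul_apply, apply_mul_of_ker N (IsIrrCharacter.isCharacter' hβ) hβker n.2 g]
          ring
        simp only [h1]
        rw [← Finset.mul_sum, mul_left_comm, hone g, mul_one]
      rw [hηβ]
      exact hβ
    · intro h0
      rw [h0] at hηdeg
      exact eq_zero_of_degree_zero hηc hηdeg
    · rintro rfl
      rw [hη]
      funext g
      exact hone g

end Cfsg.Agent.S0868
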