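import Cfsg.Statements.S0869
import Mathlib

set_option autoImplicit false
set_option linter.style.haveILetI false
set_option linter.unusedVariables false
open Cfsg

namespace Cfsg.Agent.S0869

/-- Let S be a nonempty finite type and R an additive subgroup of the integer-valued functions on S that is closed under pointwise multiplication. If the constant function 1 is not in R, then there exist a point x of S and a prime p such that p divides f x for every f in R. -/
theorem result {S : Type*} [Finite S] [Nonempty S] (R : AddSubgroup (S → ℤ)) (hmul : ∀ f ∈ R, ∀ g ∈ R, f * g ∈ R) (h1 : (1 : S → ℤ) ∉ R) : ∃ (x : S) (p : ℕ), p.Prime ∧ ∀ f ∈ R, (p : ℤ) ∣ f x := by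
  classical
  cases nonempty_fintype S
  by_contra hcon
  push Not at hcon
  -- for each point an element of R taking value one there
  have hone : ∀ x : S, ∃ f ∈ R, f x = 1 := by
    intro x
    let A : AddSubgroup ℤ := R.map (Pi.evalAddMonoidHom (fun _ : S => ℤ) x)
    obtain ⟨d, hd⟩ := Int.subgroup_cyclic A
    have hdu : d.natAbs = 1 := by
      by_contra hne
      obtain ⟨p, hp, hpd⟩ := Nat.exists_prime_and_dvd hne
      obtain ⟨f, hf, hfx⟩ := hcon x p hp
      have hmem : f x ∈ A := ⟨f, hf, rfl⟩
      rw [hd] at hmem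
      obtain ⟨k, hk⟩ := AddSubgroup.mem_closure_singleton.1 hmem
      apply hfx
      rw [← hk]
      have : (p : ℤ) ∣ d := Int.natCast_dvd.2 hpd
      simpa using Dvd.dvd.mul_left this k
    have hmem : d ∈ A := by rw [hd]; exact AddSubgroup.mem_closure_singleton_self d
    obtain ⟨f, hf, hfx⟩ := hmem
    have hfx' : f x = d := hfx
    rcases Int.natAbs_eq d with h | h
    · rw [hdu] at h
      exact ⟨f, hf, by rw [hfx', h]; rfl⟩
    · rw [hdu] at h
      refine ⟨-f, R.neg_mem hf, ?_⟩
      simp [hfx', h]
  choose F hFR hF using hone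
  -- the product
  have hprod : ∀ s : Finset S, ∃ r ∈ R, ∏ x ∈ s, (1 - F x) = 1 + r := by
    intro s
    induction s using Finset.induction_on with
    | empty => exact ⟨0, R.zero_mem, by simp⟩
    | insert a s ha ih =>
      obtain ⟨r, hr, hrs⟩ := ih
      refine ⟨r - F a - F a * r, R.sub_mem (R.sub_mem hr (hFR a)) (hmul _ (hFR a) _ hr), ?_⟩
      rw [Finset.prod_insert ha, hrs]
      ring
  obtain ⟨r, hr, hrs⟩ := hprod Finset.univ
  have hzero : ∏ x, (1 - F x) = 0 := by
    funext y
    rw [Finset.prod_apply]
    apply Finset.prod_eq_zero (Finset.mem_univ y)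
    simp [hF y]
  rw [hzero] at hrs
  apply h1
  have : (1 : S → ℤ) = -r := by
    have h2 : (1 : S → ℤ) + r = 0 := hrs.symm
    exact eq_neg_of_add_eq_zero_left h2
  rw [this]
  exact R.neg_mem hr

end Cfsg.Agent.S0869
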