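import Cfsg.Statements.S0870
import Cfsg.Agent.Lib.CharPermRep

set_option autoImplicit false
set_option linter.style.haveILetI false
set_option linter.unusedVariables false
open Cfsg

namespace Cfsg.Agent.S0870

/-- For subgroups H and K of a finite group G, the pointwise product of the functions induced from the constant function 1 on H and on K is a sum, over subgroups U of H with natural-number coefficients, of the functions induced from the constant function 1 on U. -/
theorem result {G : Type*} [Group G] [Fintype G] (H K : Subgroup G) : ∃ a : Subgroup G → ℕ, (∀ U, a U ≠ 0 → U ≤ H) ∧ Cfsg.indFun H (fun _ => 1) * Cfsg.indFun K (fun _ => 1) = ∑ U : Subgroup G, (a U : ℂ) • Cfsg.indFun U (fun _ => 1) := by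
  classical
  open Cfsg.Agent.Lib.CharPermRep in
    -- the product action
    let X := (G ⧸ H) × (G ⧸ K)
    have hrep : ∀ q : MulAction.orbitRel.Quotient G X, ∃ z : X, (Quotient.mk'' z : MulAction.orbitRel.Quotient G X) = q ∧ z.1 = ((1 : G) : G ⧸ H) := by
      intro q
      obtain ⟨⟨a, b⟩, rfl⟩ := Quotient.exists_rep q
      obtain ⟨x, hx⟩ := QuotientGroup.mk_surjective a
      refine ⟨x⁻¹ • (a, b), ?_, ?_⟩
      · apply Quotient.sound'
        rw [MulAction.orbitRel_apply]
        exact MulAction.mem_orbit _ _
      · show x⁻¹ • a = _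
        rw [← hx, MulAction.Quotient.smul_coe]
        simp
    choose r hr1 hr2 using hrep
    letI : Fintype (MulAction.orbitRel.Quotient G X) := Fintype.ofFinite _
    let U : MulAction.orbitRel.Quotient G X → Subgroup G := fun q => MulAction.stabilizer G (r q)
    have hUH : ∀ q, U q ≤ H := by
      intro q g hg
      have h1 : g • r q = r q := hg
      have h2 : g • (r q).1 = (r q).1 := congrArg Prod.fst h1
      rw [hr2, MulAction.Quotient.smul_coe, QuotientGroup.eq] at h2
      simpa using h2
    refine ⟨fun V => (Finset.univ.filter (fun q => U q = V)).card, ?_, ?_⟩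
    · intro V hV
      obtain ⟨q, hq⟩ := Finset.card_pos.mp (Nat.pos_of_ne_zero hV)
      rw [← (Finset.mem_filter.mp hq).2]
      exact hUH q
    · funext g
      have h1 : (Cfsg.indFun H (fun _ => 1) * Cfsg.indFun K (fun _ => 1)) g = (Nat.card (MulAction.fixedBy X g) : ℂ) := by
        rw [Pi.mul_apply, indFun_one_eq_card_fixed_quotient, indFun_one_eq_card_fixed_quotient, ← Nat.cast_mul, ← Nat.card_prod]
        congr 1
        apply Nat.card_congr
        refine ⟨fun z => ⟨(z.1.1, z.2.1), ?_⟩, fun z => ⟨⟨z.1.1, ?_⟩, ⟨z.1.2, ?_⟩⟩, fun z => rfl, fun z => rfl⟩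
        · exact Prod.ext z.1.2 z.2.2
        · exact congrArg Prod.fst z.2
        · exact congrArg Prod.snd z.2
      rw [h1, card_fixed_eq_sum_orbits r hr1 g, finsum_eq_sum_of_fintype]
      rw [Finset.sum_apply]
      have h2 : ∀ q, ((Nat.card {z : X // z ∈ MulAction.orbit G (r q) ∧ g • z = z} : ℕ) : ℂ) = Cfsg.indFun (U q) (fun _ => 1) g := by
        intro q
        rw [indFun_one_eq_card_fixed_orbit (r q) (U q) (fun g => MulAction.mem_stabilizer_iff)]
      push_cast
      simp only [h2, Pi.smul_apply, smul_eq_mul]
      rw [← Finset.sum_fiberwise (s := Finset.univ) (g := U)]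
      refine Finset.sum_congr rfl fun V _ => ?_
      have : ∀ q ∈ Finset.univ.filter (fun q => U q = V), Cfsg.indFun (U q) (fun _ => 1) g = Cfsg.indFun V (fun _ => 1) g := by
        intro q hq
        rw [(Finset.mem_filter.mp hq).2]
      rw [Finset.sum_congr rfl this, Finset.sum_const, nsmul_eq_mul]

end Cfsg.Agent.S0870
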