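import Cfsg.Statements.S0873
import Cfsg.Agent.Lib.CharLinear

set_option autoImplicit false
set_option linter.style.haveILetI false
set_option linter.unusedVariables false
open scoped ComplexConjugate
open Cfsg

namespace Cfsg.Agent.S0873

/-- Let C be a normal subgroup of the finite group G of order prime to p and P a p-subgroup with C ⊔ P = G. Let λ be a character of C of degree 1 invariant under conjugation by G and equal to 1 at every element of C centralized by P. Then λ is identically 1. -/
theorem result {G : Type*} [Group G] [Finite G] (p : ℕ) [Fact p.Prime] (C P : Subgroup G) [hC : C.Normal] (hP : IsPGroup p P) (hcop : Nat.Coprime (Nat.card C) p) (hCP : C ⊔ P = ⊤) (lam : C → ℂ) (hlam : Cfsg.IsCharacter C lam ∧ lam 1 = 1) (hinv : ∀ (g : G) (c : C), lam ⟨g * c * g⁻¹, hC.conj_mem (c : G) c.2 g⟩ = lam c) (hker : ∀ c : C, (c : G) ∈ Subgroup.centralizer (P : Set G) → lam c = 1) : lam = fun _ => 1 := by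
  classical
  letI : Fintype C := Fintype.ofFinite _
  obtain ⟨hl, hl1⟩ := hlam
  let L : C →* ℂˣ := Cfsg.Agent.Lib.CharAb.homOfDegreeOne hl hl1
  have hL : ∀ y, ((L y : ℂˣ) : ℂ) = lam y := fun y => rfl
  funext c
  let α := {y : C // lam y = lam c}
  letI : MulAction P α :=
    { smul := fun p y => ⟨⟨p * y.1 * (p : G)⁻¹, hC.conj_mem _ y.1.2 _⟩, (hinv p y.1).trans y.2⟩
      one_smul := by
        intro y
        apply Subtype.ext
        apply Subtype.ext
        show (1 : G) * y.1 * (1 : G)⁻¹ = y.1
        simp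
      mul_smul := by
        intro a b y
        apply Subtype.ext
        apply Subtype.ext
        show ((a * b : P) : G) * y.1 * (((a * b : P) : G))⁻¹ = (a : G) * ((b : G) * y.1 * (b : G)⁻¹) * (a : G)⁻¹
        simp only [Subgroup.coe_mul]
        group }
  have hcard : Nat.card α = Nat.card L.ker := by
    apply Nat.card_congr
    refine ⟨fun y => ⟨c⁻¹ * y.1, ?_⟩, fun k => ⟨c * k.1, ?_⟩, ?_, ?_⟩
    · rw [MonoidHom.mem_ker, map_mul, map_inv, inv_mul_eq_one]
      apply Units.ext
      rw [hL, hL]
      exact y.2.symm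
    · have h1 : L (c * k.1) = L c := by
        rw [map_mul, MonoidHom.mem_ker.mp k.2, mul_one]
      have h2 := congrArg (fun u : ℂˣ => (u : ℂ)) h1
      exact h2
    · intro y
      apply Subtype.ext
      simp
    · intro k
      apply Subtype.ext
      simp
  have hfin : Finite α := Subtype.finite
  have hpdvd : ¬ p ∣ Nat.card α := by
    rw [hcard]
    intro h
    have h1 := h.trans (Subgroup.card_subgroup_dvd_card L.ker)
    have h2 : p ∣ Nat.gcd (Nat.card C) p := Nat.dvd_gcd h1 dvd_rfl
    rw [hcop] at h2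
    exact (Fact.out : p.Prime).one_lt.ne' (Nat.dvd_one.mp h2)
  obtain ⟨⟨y, hy⟩, hfix⟩ := hP.nonempty_fixed_point_of_prime_not_dvd_card α hpdvd
  rw [← hy]
  apply hker
  rw [Subgroup.mem_centralizer_iff]
  intro g hg
  have h1 := hfix ⟨g, hg⟩
  have h2 : g * y * g⁻¹ = y := congrArg (fun z : α => ((z.1 : C) : G)) h1
  calc g * y = (g * y * g⁻¹) * g := by group
    _ = y * g := by rw [h2]

end Cfsg.Agent.S0873
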