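import Cfsg.Statements.S0876
import Mathlib
import Cfsg.Agent.Lib.BrauerSection

set_option autoImplicit false
set_option linter.style.haveILetI false
set_option linter.unusedVariables false
open scoped ComplexConjugate
open Cfsg

namespace Cfsg.Agent.S0876

/-- Let G be a finite group, p a prime and M a maximal ideal of the ring of algebraic integers containing p. Let x, y be elements with p-parts a and b (so a⁻¹ * x and b⁻¹ * y are their p-regular parts). Then a⁻¹ * x and b⁻¹ * y are conjugate in G if and only if, for every irreducible character χ, the difference χ x - χ y lies in the local ideal at M. -/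
theorem result {G : Type*} [Group G] [Finite G] (p : ℕ) (M : Ideal Cfsg.AlgInt) (hM : Cfsg.IsPModular p M) (x y a b : G) (ha : Cfsg.IsPPart p x a) (hb : Cfsg.IsPPart p y b) : IsConj (a⁻¹ * x) (b⁻¹ * y) ↔ ∀ χ : Cfsg.IrrCharacter G, Cfsg.MemLocalIdeal M ((χ : G → ℂ) x - (χ : G → ℂ) y) := by
  classical
  cases nonempty_fintype G
  have hp := hM.1
  haveI := Fact.mk hp
  obtain ⟨y₁, hy₁, hca, ⟨ka, hka⟩, hrega⟩ := ha
  obtain ⟨y₂, hy₂, hcb, ⟨kb, hkb⟩, hregb⟩ := hb
  have h1 : a⁻¹ * x = y₁ := by rw [← hy₁]; group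
  have h2 : b⁻¹ * y = y₂ := by rw [← hy₂]; group
  rw [h1, h2]
  constructor
  · intro hconj χ
    have hχ := Cfsg.Agent.Lib.CharOps.IsIrrCharacter.isCharacter' χ.2
    have h3 := Cfsg.Agent.Lib.CharBlockHeight.character_mul_congr hM hχ (k := ka) (by rw [← hka, pow_orderOf_eq_one]) hca
    have h4 := Cfsg.Agent.Lib.CharBlockHeight.character_mul_congr hM hχ (k := kb) (by rw [← hkb, pow_orderOf_eq_one]) hcb
    rw [hy₁] at h3
    rw [hy₂] at h4
    have h5 : (χ : G → ℂ) y₁ = (χ : G → ℂ) y₂ :=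
      Cfsg.Agent.Lib.CharIrr.classFun_eq_of_isConj (Cfsg.Agent.Lib.CharOps.IsCharacter.isClassFunction' hχ) hconj
    have h6 := Cfsg.Agent.Lib.CharBlockLocal.MemLocalIdeal.sub hM h3 h4
    refine Cfsg.Agent.Lib.CharBlockLocal.MemLocalIdeal.of_eq h6 ?_
    rw [h5]
    ring
  · intro hall
    by_contra hnc
    set α := (Nat.card G).factorization p with hα
    set n := ordCompl[p] (Nat.card G) with hn
    have hcard : Nat.card G = p ^ α * n := (Nat.ordProj_mul_ordCompl_eq_self _ _).symm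
    have hnp : ¬ p ∣ n := Nat.not_dvd_ordCompl hp Nat.card_pos.ne'
    have hcop : Nat.Coprime (p ^ α) n := Nat.Coprime.pow_left _ ((Nat.Prime.coprime_iff_not_dvd hp).2 hnp)
    have hg : Nat.Coprime (orderOf y₁) (p ^ α) :=
      Nat.Coprime.pow_right _ ((Nat.Prime.coprime_iff_not_dvd hp).2 hrega).symm
    have hx : Cfsg.Agent.Lib.BrauerSection.InSection (p ^ α) n y₁ x := by
      refine ⟨y₁, IsConj.refl _, a, hy₁.symm, hca, ?_, hg⟩
      rw [hka]
      exact Nat.Coprime.pow_left _ ((Nat.Prime.coprime_iff_not_dvd hp).2 hnp)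
    have hy : ¬ Cfsg.Agent.Lib.BrauerSection.InSection (p ^ α) n y₁ y := by
      rintro ⟨v, hv, u, hyuv, huv, hu, hvm⟩
      have hco1 : Nat.Coprime (orderOf b) n := by
        rw [hkb]
        exact Nat.Coprime.pow_left _ ((Nat.Prime.coprime_iff_not_dvd hp).2 hnp)
      have hco2 : Nat.Coprime (orderOf y₂) (p ^ α) :=
        Nat.Coprime.pow_right _ ((Nat.Prime.coprime_iff_not_dvd hp).2 hregb).symm
      obtain ⟨_, h3⟩ := Cfsg.Agent.Lib.BrauerSection.section_unique hcard hcop (hyuv.symm.trans hy₂.symm) huv hcb hu hvm hco1 hco2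
      apply hnc
      rw [← h3]
      exact hv.symm
    obtain ⟨c, hc, hs⟩ := Cfsg.Agent.Lib.BrauerSection.intSpan_section hcard hcop hg
    have hv1 := congrFun hs x
    have hv2 := congrFun hs y
    rw [Pi.smul_apply, smul_eq_mul, Cfsg.Agent.Lib.BrauerSection.indFun_secA_of_mem hcard hcop hg hx, mul_one,
      Finset.sum_apply] at hv1
    rw [Pi.smul_apply, smul_eq_mul, Cfsg.Agent.Lib.BrauerSection.indFun_secA_of_not_mem hg hy, mul_zero,
      Finset.sum_apply] at hv2
    have hdiff : (n : ℂ) = ∑ χ : Cfsg.IrrCharacter G, c χ * ((χ : G → ℂ) x - (χ : G → ℂ) y) := by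
      rw [hv1]
      have : (0 : ℂ) = _ := hv2
      rw [← sub_zero (∑ χ : Cfsg.IrrCharacter G, _), this, ← Finset.sum_sub_distrib]
      refine Finset.sum_congr rfl fun χ _ => ?_
      simp only [Pi.smul_apply, smul_eq_mul]
      ring
    have hI : Cfsg.MemLocalIdeal M (n : ℂ) := by
      rw [hdiff]
      apply Cfsg.Agent.Lib.CharBlockLocal.MemLocalIdeal.sum hM
      intro χ _
      exact Cfsg.Agent.Lib.CharBlockLocal.MemLocalIdeal.mul_left hM
        (Cfsg.Agent.Lib.CharBlockLocal.memLocalRing_of_isIntegral hM (hc χ)) (hall χ)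
    exact hnp ((Cfsg.Agent.Lib.CharBlockLocal.natCast_memLocalIdeal_iff hM n).mp hI)

end Cfsg.Agent.S0876
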