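import Cfsg.Statements.S0878
import Mathlib
import Cfsg.Agent.Lib.Zass

set_option autoImplicit false
set_option linter.style.haveILetI false
set_option linter.unusedVariables false
open Cfsg

namespace Cfsg.Agent.S0878

/-- Let G be a Zassenhaus group on the finite set Ω, a a point, and let H be the subgroup of the stabilizer of a consisting of the identity and the elements fixing no point other than a (given here as a subgroup of the stabilizer of order one less than the number of points whose non-identity elements fix only a; it is the Frobenius kernel of the stabilizer). Then an element outside the stabilizer of a conjugates no non-identity element of H into H, and the normalizer of H is exactly the stabilizer of a. -/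
theorem result {G Ω : Type*} [Group G] [Finite G] [MulAction G Ω] [Fintype Ω] (hZ : Cfsg.IsZassenhausGroup G Ω) (a : Ω) (H : Subgroup G) (hHa : H ≤ MulAction.stabilizer G a) (hHcard : Nat.card H + 1 = Fintype.card Ω) (hHfix : ∀ u ∈ H, u ≠ 1 → ∀ c : Ω, u • c = c → c = a) : (∀ g : G, g ∉ MulAction.stabilizer G a → ∀ u ∈ H, g * u * g⁻¹ ∈ H → u = 1) ∧ Subgroup.normalizer (H : Set G) = MulAction.stabilizer G a := by
  classical
  have hD := Cfsg.Agent.Lib.Zass.zdata_of hZ
  haveI := hD.faithful
  cases nonempty_fintype G
  obtain ⟨b, hb⟩ := hD.exists_ne' a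
  obtain ⟨c₀, hc₀b, hc₀a⟩ := hD.exists_third hb
  -- the part (1) lemma
  have hfix : ∀ u ∈ H, u • a = a := fun u hu => hHa hu
  have h1 : ∀ g : G, g ∉ MulAction.stabilizer G a → ∀ u ∈ H, g * u * g⁻¹ ∈ H → u = 1 := by
    intro g hg u hu hv
    by_contra hu1
    apply hg
    have hv1 : g * u * g⁻¹ ≠ 1 := by
      intro h
      apply hu1
      have : u = g⁻¹ * (g * u * g⁻¹) * g := by group
      rw [this, h]; simp
    have h2 : (g * u * g⁻¹) • (g • a) = g • a := by
      simp [mul_smul, hfix u hu]
    exact hHfix _ hv hv1 _ h2
  -- `H` acts regularly on the complement of `a`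
  have htrans : ∀ c d : Ω, c ≠ a → d ≠ a → ∃ u ∈ H, u • c = d := by
    intro c d hc hd
    let f : H → {x : Ω // x ≠ a} := fun u => ⟨(u : G) • c, by
      intro h
      apply hc
      have h3 : (u : G) • c = (u : G) • a := h.trans (hfix u u.2).symm
      exact smul_left_cancel _ h3⟩
    have hinj : Function.Injective f := by
      intro u v huv
      have h3 : (u : G) • c = (v : G) • c := congrArg Subtype.val huv
      by_contra hne
      have h4 : (v⁻¹ * u : H) ≠ 1 := by
        intro h
        apply hne
        rw [inv_mul_eq_one] at h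
        exact h.symm
      have h5 : ((v⁻¹ * u : H) : G) • c = c := by
        simp [mul_smul, h3]
      apply hc
      exact hHfix _ (v⁻¹ * u : H).2 (fun h => h4 (Subtype.ext h)) c h5
    have hcard : Nat.card H = Nat.card {x : Ω // x ≠ a} := by
      have h1 : Nat.card {x : Ω // x ≠ a} + 1 = Fintype.card Ω := by
        rw [Nat.card_eq_fintype_card, Fintype.card_subtype_compl]
        simp
        have h2 : 0 < Fintype.card Ω := Fintype.card_pos_iff.2 ⟨a⟩
        omega
      omega
    have hbij : Function.Bijective f := by
      rw [Nat.bijective_iff_injective_and_card]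
      exact ⟨hinj, hcard⟩
    obtain ⟨u, hu⟩ := hbij.2 ⟨d, hd⟩
    exact ⟨u, u.2, congrArg Subtype.val hu⟩
  have hchar : ∀ x : G, x ∈ H ↔ x • a = a ∧ (x = 1 ∨ ∀ c, c ≠ a → x • c ≠ c) := by
    intro x
    constructor
    · intro hx
      refine ⟨hfix x hx, ?_⟩
      by_cases h : x = 1
      · exact Or.inl h
      · right
        intro c hc hcc
        exact hc (hHfix x hx h c hcc)
    · rintro ⟨hxa, hx⟩
      rcases hx with rfl | hx
      · exact one_mem _
      · -- choose `u ∈ H` with `u • b = x • b`
        have hxb : x • b ≠ a := by
          intro h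
          apply hb
          have h3 : x • b = x • a := h.trans hxa.symm
          exact smul_left_cancel _ h3
        obtain ⟨u, hu, huxb⟩ := htrans b (x • b) hb hxb
        obtain ⟨F, hF, hFt⟩ := hD.exists_kernel a hb
        have huF : u ∈ F := (hF u).2 ⟨hfix u hu, by
          by_cases h : u = 1
          · exact Or.inl h
          · right
            intro c hc hcc
            exact hc (hHfix u hu h c hcc)⟩
        have hxF : x ∈ F := (hF x).2 ⟨hxa, Or.inr hx⟩
        have h3 : u⁻¹ * x ∈ F := mul_mem (inv_mem huF) hxF
        have h4 := ((hF _).1 h3).2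
        have h5 : (u⁻¹ * x) • b = b := by
          rw [mul_smul, ← huxb]; simp
        rcases h4 with h4 | h4
        · have : x = u := by
            rw [inv_mul_eq_one] at h4
            exact h4.symm
          rw [this]; exact hu
        · exact absurd h5 (h4 b hb)
  refine ⟨h1, ?_⟩
  ext g
  rw [Subgroup.mem_normalizer_iff]
  constructor
  · intro hg
    by_contra hga
    -- `H` is nontrivial
    obtain ⟨u, hu, huc⟩ := htrans b c₀ hb hc₀a
    have hu1 : u ≠ 1 := by
      rintro rfl
      rw [one_smul] at huc
      exact hc₀b huc.symm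
    exact hu1 (h1 g hga u hu ((hg u).1 hu))
  · intro hg h
    have hga : g • a = a := hg
    have hga' : g⁻¹ • a = a := by rw [inv_smul_eq_iff, hga]
    have key : ∀ (g : G), g • a = a → ∀ h, h ∈ H → g * h * g⁻¹ ∈ H := by
      intro g hga h hh
      have hga' : g⁻¹ • a = a := by rw [inv_smul_eq_iff, hga]
      obtain ⟨h1', h2'⟩ := (hchar h).1 hh
      refine (hchar _).2 ⟨by simp [mul_smul, hga', h1', hga], ?_⟩
      rcases h2' with rfl | h2'
      · left; simp
      · right
        intro c hc hcc
        have h4 : g⁻¹ • c ≠ a := by
          intro h5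
          apply hc
          rw [inv_smul_eq_iff] at h5
          rw [h5, hga]
        apply h2' _ h4
        rw [mul_smul, mul_smul] at hcc
        rw [smul_eq_iff_eq_inv_smul] at hcc
        exact hcc
    refine ⟨key g hga h, ?_⟩
    intro h3
    have h4 := key g⁻¹ hga' _ h3
    have h5 : g⁻¹ * (g * h * g⁻¹) * g⁻¹⁻¹ = h := by group
    rwa [h5] at h4

end Cfsg.Agent.S0878
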