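import Cfsg.Statements.S0879
import Mathlib
import Cfsg.Agent.Lib.Zass

set_option autoImplicit false
set_option linter.style.haveILetI false
set_option linter.unusedVariables false
open scoped ComplexConjugate
open Cfsg

namespace Cfsg.Agent.S0879

/-- Let G be a Zassenhaus group on the finite set Ω and E the stabilizer of two distinct points a, b. Then an element outside the normalizer of E conjugates no non-identity element of E into E, and E has index 2 in its normalizer. -/
theorem result {G Ω : Type*} [Group G] [Finite G] [MulAction G Ω] [Fintype Ω] (hZ : Cfsg.IsZassenhausGroup G Ω) {a b : Ω} (hab : a ≠ b) : (∀ g : G, g ∉ Subgroup.normalizer ((MulAction.stabilizer G a ⊓ MulAction.stabilizer G b : Subgroup G) : Set G) → ∀ x ∈ (MulAction.stabilizer G a ⊓ MulAction.stabilizer G b : Subgroup G), g * x * g⁻¹ ∈ (MulAction.stabilizer G a ⊓ MulAction.stabilizer G b : Subgroup G) → x = 1) ∧ ((MulAction.stabilizer G a ⊓ MulAction.stabilizer G b : Subgroup G).subgroupOf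 (Subgroup.normalizer ((MulAction.stabilizer G a ⊓ MulAction.stabilizer G b : Subgroup G) : Set G))).index = 2 := by
  classical
  have hD := Cfsg.Agent.Lib.Zass.zdata_of hZ
  set K : Subgroup G := MulAction.stabilizer G a ⊓ MulAction.stabilizer G b with hK
  have hmemK : ∀ x : G, x ∈ K ↔ x • a = a ∧ x • b = b := by
    intro x
    simp [hK, Subgroup.mem_inf, MulAction.mem_stabilizer_iff]
  -- elements of `K` fixing a further point are trivial
  have h3 : ∀ x ∈ K, x ≠ 1 → ∀ c : Ω, x • c = c → c = a ∨ c = b := by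
    intro x hx hx1 c hc
    by_contra h
    push Not at h
    exact hx1 (hD.three x a b c hab (Ne.symm h.2) (Ne.symm h.1) ((hmemK x).1 hx).1 ((hmemK x).1 hx).2 hc)
  -- set stabilizer normalizes K
  have hnorm : ∀ g : G, (g • a = a ∧ g • b = b) ∨ (g • a = b ∧ g • b = a) → g ∈ Subgroup.normalizer (K : Set G) := by
    have key : ∀ g : G, (g • a = a ∧ g • b = b) ∨ (g • a = b ∧ g • b = a) → ∀ x ∈ K, g * x * g⁻¹ ∈ K := by
      intro g hg x hx
      obtain ⟨hxa, hxb⟩ := (hmemK x).1 hx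
      rw [hmemK]
      rcases hg with ⟨h1, h2⟩ | ⟨h1, h2⟩
      · have h1' : g⁻¹ • a = a := by rw [inv_smul_eq_iff, h1]
        have h2' : g⁻¹ • b = b := by rw [inv_smul_eq_iff, h2]
        simp [mul_smul, h1', h2', hxa, hxb, h1, h2]
      · have h1' : g⁻¹ • b = a := by rw [inv_smul_eq_iff, h1]
        have h2' : g⁻¹ • a = b := by rw [inv_smul_eq_iff, h2]
        simp [mul_smul, h1', h2', hxa, hxb, h1, h2]
    intro g hg
    rw [Subgroup.mem_normalizer_iff]
    intro x
    refine ⟨key g hg x, fun hx => ?_⟩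
    have hg' : (g⁻¹ • a = a ∧ g⁻¹ • b = b) ∨ (g⁻¹ • a = b ∧ g⁻¹ • b = a) := by
      rcases hg with ⟨h1, h2⟩ | ⟨h1, h2⟩
      · left
        exact ⟨by rw [inv_smul_eq_iff, h1], by rw [inv_smul_eq_iff, h2]⟩
      · right
        exact ⟨by rw [inv_smul_eq_iff, h2], by rw [inv_smul_eq_iff, h1]⟩
    have := key g⁻¹ hg' _ hx
    have h5 : g⁻¹ * (g * x * g⁻¹) * g⁻¹⁻¹ = x := by group
    rwa [h5] at this
  -- conjugate-in-K implies set stabilizer
  have hconj : ∀ g : G, ∀ x ∈ K, x ≠ 1 → g * x * g⁻¹ ∈ K → (g • a = a ∧ g • b = b) ∨ (g • a = b ∧ g • b = a) := by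
    intro g x hx hx1 hgx
    have hy1 : g * x * g⁻¹ ≠ 1 := by
      intro h
      apply hx1
      have : x = g⁻¹ * (g * x * g⁻¹) * g := by group
      rw [this, h]; simp
    obtain ⟨hxa, hxb⟩ := (hmemK x).1 hx
    have h1 := h3 _ hgx hy1 (g • a) (by simp [mul_smul, hxa])
    have h2 := h3 _ hgx hy1 (g • b) (by simp [mul_smul, hxb])
    have hne : g • a ≠ g • b := fun h => hab (smul_left_cancel _ h)
    rcases h1 with h1 | h1 <;> rcases h2 with h2 | h2
    · exact absurd (h1.trans h2.symm) hne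
    · exact Or.inl ⟨h1, h2⟩
    · exact Or.inr ⟨h1, h2⟩
    · exact absurd (h1.trans h2.symm) hne
  refine ⟨?_, ?_⟩
  · intro g hg x hx hgx
    by_contra hx1
    exact hg (hnorm g (hconj g x hx hx1 hgx))
  · -- element `t` swapping `a` and `b`
    obtain ⟨t, ht1, ht2⟩ := hD.two (a := a) (b := b) (c := b) (d := a) hab (Ne.symm hab)
    obtain ⟨x₀, hx₀1, hx₀a, hx₀b⟩ := hD.fix_of_ne hab
    have hx₀K : x₀ ∈ K := (hmemK x₀).2 ⟨hx₀a, hx₀b⟩
    have htN : t ∈ Subgroup.normalizer (K : Set G) := hnorm t (Or.inr ⟨ht1, ht2⟩)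
    rw [Subgroup.index_eq_two_iff]
    refine ⟨⟨t, htN⟩, ?_⟩
    rintro ⟨g, hg⟩
    simp only [Subgroup.mem_subgroupOf, Subgroup.coe_mul]
    have hgset : (g • a = a ∧ g • b = b) ∨ (g • a = b ∧ g • b = a) := by
      apply hconj g x₀ hx₀K hx₀1
      exact (Subgroup.mem_normalizer_iff.1 hg x₀).1 hx₀K
    rcases hgset with ⟨h1, h2⟩ | ⟨h1, h2⟩
    · right
      refine ⟨(hmemK g).2 ⟨h1, h2⟩, ?_⟩
      rw [hmemK]
      intro h
      have := h.1
      rw [mul_smul, ht1, h2] at this
      exact hab this.symm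
    · left
      refine ⟨?_, ?_⟩
      · rw [hmemK]
        exact ⟨by rw [mul_smul, ht1, h2], by rw [mul_smul, ht2, h1]⟩
      · rw [hmemK]
        intro h
        exact hab (h1.symm.trans h.1).symm

end Cfsg.Agent.S0879
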