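import Cfsg.Statements.S0903
-- import your own Cfsg.Agent.* helpers here

set_option autoImplicit false
set_option linter.all false
open Cfsg

namespace Cfsg.Agent.S0903

/-- Let P be a p-subgroup of the finite group G, let c centralize P and let g, h ∈ G. The number of pairs (x, y) with x conjugate to g, y conjugate to h and x * y = c is congruent modulo p to the number of such pairs in which x and y both centralize P. (This is why the Brauer map on class sums is multiplicative.) -/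
theorem result {G : Type*} [Group G] [Finite G] (p : ℕ) [Fact p.Prime] (P : Subgroup G) (hP : IsPGroup p P) (c : G) (hc : c ∈ Subgroup.centralizer (P : Set G)) (g h : G) : Nat.card {xy : G × G // IsConj g xy.1 ∧ IsConj h xy.2 ∧ xy.1 * xy.2 = c} ≡ Nat.card {xy : G × G // IsConj g xy.1 ∧ IsConj h xy.2 ∧ xy.1 * xy.2 = c ∧ xy.1 ∈ Subgroup.centralizer (P : Set G) ∧ xy.2 ∈ Subgroup.centralizer (P : Set G)} [MOD p] := by
  classical
  let X := {xy : G × G // IsConj g xy.1 ∧ IsConj h xy.2 ∧ xy.1 * xy.2 = c}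
  have hconj : ∀ (u : P) (s : X), IsConj g ((u : G) * s.1.1 * (u : G)⁻¹) ∧ IsConj h ((u : G) * s.1.2 * (u : G)⁻¹) ∧ ((u : G) * s.1.1 * (u : G)⁻¹) * ((u : G) * s.1.2 * (u : G)⁻¹) = c := by
    intro u s
    refine ⟨s.2.1.trans (isConj_iff.2 ⟨u, rfl⟩), s.2.2.1.trans (isConj_iff.2 ⟨u, rfl⟩), ?_⟩
    have h1 : ((u : G) * s.1.1 * (u : G)⁻¹) * ((u : G) * s.1.2 * (u : G)⁻¹) = (u : G) * (s.1.1 * s.1.2) * (u : G)⁻¹ := by group
    rw [h1, s.2.2.2]
    have := (Subgroup.mem_centralizer_iff.1 hc) u u.2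
    rw [this]; group
  letI : MulAction P X :=
    { smul := fun u s => ⟨((u : G) * s.1.1 * (u : G)⁻¹, (u : G) * s.1.2 * (u : G)⁻¹), hconj u s⟩
      one_smul := fun s => by
        apply Subtype.ext; apply Prod.ext <;> simp [HSMul.hSMul]
      mul_smul := fun a b s => by
        apply Subtype.ext; apply Prod.ext <;> simp [HSMul.hSMul, mul_assoc] }
  have key := hP.card_modEq_card_fixedPoints X
  suffices e : Nat.card (MulAction.fixedPoints P X) = Nat.card {xy : G × G // IsConj g xy.1 ∧ IsConj h xy.2 ∧ xy.1 * xy.2 = c ∧ xy.1 ∈ Subgroup.centralizer (P : Set G) ∧ xy.2 ∈ Subgroup.centralizer (P : Set G)} by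
    rw [e] at key; exact key
  apply Nat.card_congr
  refine ⟨fun s => ⟨s.1.1, s.1.2.1, s.1.2.2.1, s.1.2.2.2, ?_, ?_⟩, fun s => ⟨⟨s.1, s.2.1, s.2.2.1, s.2.2.2.1⟩, ?_⟩, ?_, ?_⟩
  · rw [Subgroup.mem_centralizer_iff]
    intro u hu
    have := s.2 ⟨u, hu⟩
    have h2 := congrArg (fun t : X => t.1.1) this
    have h3 : u * s.1.1.1 * u⁻¹ = s.1.1.1 := h2
    rw [← h3]; group
    simp [h3, mul_assoc]
  · rw [Subgroup.mem_centralizer_iff]
    intro u hu
    have := s.2 ⟨u, hu⟩
    have h2 := congrArg (fun t : X => t.1.2) this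
    have h3 : u * s.1.1.2 * u⁻¹ = s.1.1.2 := h2
    rw [← h3]; group
    simp [h3, mul_assoc]
  · rintro u
    apply Subtype.ext
    apply Prod.ext
    · show (u : G) * s.1.1 * (u : G)⁻¹ = s.1.1
      rw [(Subgroup.mem_centralizer_iff.1 s.2.2.2.2.1) u u.2]; group
    · show (u : G) * s.1.2 * (u : G)⁻¹ = s.1.2
      rw [(Subgroup.mem_centralizer_iff.1 s.2.2.2.2.2) u u.2]; group
  · intro s; rfl
  · intro s; rfl

end Cfsg.Agent.S0903
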