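import Cfsg.Statements.S0916
import Cfsg.Agent.Lib.SylowIn
import Cfsg.Agent.Lib.SylowCount
import Cfsg.Agent.Lib.H2Basic
-- import your own Cfsg.Agent.* helpers here

set_option autoImplicit false
set_option linter.all false
open Cfsg

namespace Cfsg.Agent.S0916

/-- Let P be a p-subgroup of the finite group G, C its centralizer and N its normalizer. Say that a conjugacy class (of G, or of N) has defect group P when P is a Sylow p-subgroup of the centralizer (in G, respectively in N) of some element of the class. Then: (i) if the class of g in G has defect group P, the elements of that class lying in C form a single N-class, again with defect group P; (ii) every N-class with defect group P arises this way from exactly one G-class with defect group P. -/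
theorem result {G : Type*} [Group G] [Finite G] (p : ℕ) [Fact p.Prime] (P : Subgroup G) (hP : IsPGroup p P) : (∀ g : G, (∃ S : Sylow p (Subgroup.centralizer ({g} : Set G)), (S : Subgroup (Subgroup.centralizer ({g} : Set G))).map (Subgroup.centralizer ({g} : Set G)).subtype = P) → (∃ c : G, IsConj g c ∧ c ∈ Subgroup.centralizer (P : Set G)) ∧ (∀ c₁ c₂ : G, IsConj g c₁ → IsConj g c₂ → c₁ ∈ Subgroup.centralizer (P : Set G) → c₂ ∈ Subgroup.centralizer (P : Set G) → ∃ n ∈ Subgroup.normalizer (P : Set G), n * c₁ * n⁻¹ = c₂)) ∧ (∀ c : G, c ∈ Subgroup.centralizer (P : Set G) → (∃ S : Sylow p (Subgroup.centralizer ({c} : Set G) ⊓ Subgroup.normalizer (P : Set G) : Subgroup G), (S : Subgroup ↥(Subgroup.centralizer ({c} : Set G) ⊓ Subgroup.normalizer (P : Set G))).map (Subgroup.centralizer ({c} : Set G) ⊓ Subgroup.normalizer (P : Set G)).subtype = P) → ∃ S : Sylow p (Subgroup.centralizer ({c} : Set G)), (S : Subgroup (Subgroup.centralizer ({c} : Set G))).map (Subgroup.centralizer ({c} : Set G)).subtype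 = P) := by
  classical
  open Cfsg.Agent.Lib.SylowIn Cfsg.Agent.Lib.H2Basic Subgroup in
  have hmain : ∀ g c : G, P ≤ centralizer ({g} : Set G) → IsSylowIn p P (centralizer ({g} : Set G)) →
      IsConj g c → c ∈ centralizer (P : Set G) → ∃ w ∈ normalizer (P : Set G), w * g * w⁻¹ = c := by
    intro g c hPg hSg hgc hcP
    obtain ⟨x, hx⟩ := isConj_iff.1 hgc
    have hPc : P ≤ centralizer ({c} : Set G) := by
      intro a ha
      rw [mem_centralizer_singleton_iff]
      have := (mem_centralizer_iff.1 hcP) a ha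
      exact this
    have hK : centralizer ({c} : Set G) ≤ (centralizer ({g} : Set G)).map (MulAut.conj x).toMonoidHom := by
      intro y hy
      rw [mem_map_conj]
      rw [mem_centralizer_singleton_iff] at hy ⊢
      have e : c = x * g * x⁻¹ := hx.symm
      subst e
      have h1 : x⁻¹ * (y * (x * g * x⁻¹)) * x = x⁻¹ * ((x * g * x⁻¹) * y) * x := by rw [hy]
      calc x⁻¹ * y * x * g = x⁻¹ * (y * (x * g * x⁻¹)) * x := by group
        _ = x⁻¹ * ((x * g * x⁻¹) * y) * x := h1
        _ = g * (x⁻¹ * y * x) := by group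
    have hK2 : (centralizer ({g} : Set G)).map (MulAut.conj x).toMonoidHom ≤ centralizer ({c} : Set G) := by
      rintro _ ⟨y, hy, rfl⟩
      show x * y * x⁻¹ ∈ _
      have hy : y ∈ centralizer ({g} : Set G) := hy
      rw [mem_centralizer_singleton_iff] at hy ⊢
      have e : c = x * g * x⁻¹ := hx.symm
      subst e
      calc x * y * x⁻¹ * (x * g * x⁻¹) = x * (y * g) * x⁻¹ := by group
        _ = x * (g * y) * x⁻¹ := by rw [hy]
        _ = _ := by group
    have hKe := le_antisymm hK hK2
    have hS1 : IsSylowIn p (P.map (MulAut.conj x).toMonoidHom) (centralizer ({c} : Set G)) := by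
      rw [hKe]
      exact hSg.conj hPg x
    have hP'le : P.map (MulAut.conj x).toMonoidHom ≤ centralizer ({c} : Set G) := by
      rw [hKe]
      exact Subgroup.map_mono hPg
    have hS2 : IsSylowIn p P (centralizer ({c} : Set G)) := by
      refine isSylowIn_of_card hPc hP fun T hT hTp => ?_
      have := hS1.card_le hP'le hT hTp
      rwa [Cfsg.Agent.Lib.SylowIn.card_map_conj] at this
    obtain ⟨R₁, hR₁⟩ := hS1
    obtain ⟨R₂, hR₂⟩ := hS2
    obtain ⟨u, hu⟩ := MulAction.exists_smul_eq (centralizer ({c} : Set G)) R₁ R₂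
    have huc : (u : G) * c = c * (u : G) := mem_centralizer_singleton_iff.1 u.2
    refine ⟨u * x, ?_, ?_⟩
    · apply mem_normalizer_of_conj_le
      intro a ha
      have h1 : (⟨x * a * x⁻¹, hP'le (Cfsg.Agent.Lib.SylowIn.map_conj_mem ha)⟩ : centralizer ({c} : Set G)) ∈ (R₁ : Subgroup (centralizer ({c} : Set G))) := by
        rw [hR₁]
        exact Cfsg.Agent.Lib.SylowIn.map_conj_mem ha
      have h2 : u * (⟨x * a * x⁻¹, hP'le (Cfsg.Agent.Lib.SylowIn.map_conj_mem ha)⟩ : centralizer ({c} : Set G)) * u⁻¹ ∈ (R₂ : Subgroup (centralizer ({c} : Set G))) := by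
        rw [← hu]
        refine (Cfsg.Agent.Lib.SylowCount.mem_smul_sylow u _ R₁).2 ?_
        have e : u⁻¹ * (u * (⟨x * a * x⁻¹, hP'le (Cfsg.Agent.Lib.SylowIn.map_conj_mem ha)⟩ : centralizer ({c} : Set G)) * u⁻¹) * u = ⟨x * a * x⁻¹, hP'le (Cfsg.Agent.Lib.SylowIn.map_conj_mem ha)⟩ := by group
        rw [e]
        exact h1
      rw [hR₂] at h2
      have h3 : ((u : G) * (x * a * x⁻¹) * (u : G)⁻¹) ∈ P := h2
      have e : (u : G) * x * a * ((u : G) * x)⁻¹ = (u : G) * (x * a * x⁻¹) * (u : G)⁻¹ := by group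
      rw [e]
      exact h3
    · have e : (u : G) * x * g * ((u : G) * x)⁻¹ = (u : G) * (x * g * x⁻¹) * (u : G)⁻¹ := by group
      rw [e, hx, huc]
      group
  open Cfsg.Agent.Lib.SylowIn Cfsg.Agent.Lib.H2Basic Subgroup in
  have hfrom : ∀ K : Subgroup G, (∃ S : Sylow p K, (S : Subgroup K).map K.subtype = P) → P ≤ K ∧ IsSylowIn p P K := by
    rintro K ⟨S, hS⟩
    have hle : P ≤ K := by
      rw [← hS]
      rintro _ ⟨x, -, rfl⟩
      exact x.2
    refine ⟨hle, S, ?_⟩
    rw [← hS]
    exact (Subgroup.comap_map_eq_self_of_injective K.subtype_injective _).symm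
  open Cfsg.Agent.Lib.SylowIn Cfsg.Agent.Lib.H2Basic Subgroup in
  have hto : ∀ K : Subgroup G, P ≤ K → IsSylowIn p P K → ∃ S : Sylow p K, (S : Subgroup K).map K.subtype = P := by
    rintro K hle ⟨S, hS⟩
    refine ⟨S, ?_⟩
    rw [hS]
    exact Subgroup.map_subgroupOf_eq_of_le hle
  refine ⟨?_, ?_⟩
  · intro g hg
    obtain ⟨hle, hS⟩ := hfrom _ hg
    have hgP : g ∈ Subgroup.centralizer (P : Set G) := by
      rw [Subgroup.mem_centralizer_iff]
      intro a ha
      have := Subgroup.mem_centralizer_singleton_iff.1 (hle ha)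
      exact this
    refine ⟨⟨g, IsConj.refl g, hgP⟩, ?_⟩
    intro c₁ c₂ h₁ h₂ hc₁ hc₂
    obtain ⟨w₁, hw₁, e₁⟩ := hmain g c₁ hle hS h₁ hc₁
    obtain ⟨w₂, hw₂, e₂⟩ := hmain g c₂ hle hS h₂ hc₂
    refine ⟨w₂ * w₁⁻¹, Subgroup.mul_mem _ hw₂ (Subgroup.inv_mem _ hw₁), ?_⟩
    rw [← e₁, ← e₂]
    group
  · intro c hc hS
    obtain ⟨hle, hS⟩ := hfrom _ hS
    have hPc : P ≤ Subgroup.centralizer ({c} : Set G) := hle.trans inf_le_left
    apply hto _ hPc
    obtain ⟨T, hPT, hTK, hT⟩ := Cfsg.Agent.Lib.SylowIn.exists_isSylowIn_ge hPc hP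
    have hTp : IsPGroup p T := hT.isPGroup hTK
    have hTP : T ≤ P := by
      by_contra hnot
      have hlt : P < T := lt_of_le_of_ne hPT (fun e => hnot e.ge)
      obtain ⟨x, hxT, hxP, hxN⟩ := Cfsg.Agent.Lib.SylowCount.exists_mem_normalizer_of_lt hTp hlt
      have h1 := hS.card_le hle (B := T ⊓ (Subgroup.centralizer ({c} : Set G) ⊓ Subgroup.normalizer (P : Set G)))
        inf_le_right (hTp.to_le inf_le_left)
      have h2 : P ≤ T ⊓ (Subgroup.centralizer ({c} : Set G) ⊓ Subgroup.normalizer (P : Set G)) := le_inf hPT hle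
      have h3 := Subgroup.eq_of_le_of_card_ge h2 h1
      exact hxP (by rw [h3]; exact ⟨hxT, hTK hxT, hxN⟩)
    have : T = P := le_antisymm hTP hPT
    rwa [← this] 

end Cfsg.Agent.S0916
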