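import Cfsg.Statements.S0932
import Cfsg.Agent.Lib.CharOps
import Cfsg.Agent.Lib.SylowCount
-- import your own Cfsg.Agent.* helpers here

set_option autoImplicit false
set_option linter.all false
open Cfsg

namespace Cfsg.Agent.S0932

/-- Let H be a subgroup of the finite group G and ξ a character of H. For every g ∈ G, the sum of ξ h / ξ 1 over the elements h ∈ H that are conjugate in G to g equals the central character at g of the character of G induced from ξ (class size times value divided by degree). -/
theorem result {G : Type*} [Group G] [Fintype G] (H : Subgroup G) (ξ : H → ℂ) (hξ : Cfsg.IsCharacter H ξ) (g : G) : Cfsg.inducedCentralChar H ξ g = Cfsg.centralChar (Cfsg.indFun H ξ) g := by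
  classical
  open Cfsg.Agent.Lib.CharOps Cfsg.Agent.Lib.SylowCount in
  have h1 : ∀ y : G, extendByZero H ξ y = ∑ h : H, if y = (h : G) then ξ h else 0 := by
    intro y
    by_cases hy : y ∈ H
    · rw [extendByZero_of_mem H ξ hy, Finset.sum_eq_single (⟨y, hy⟩ : H)]
      · simp
      · intro b _ hb
        rw [if_neg]
        intro he
        exact hb (Subtype.ext he.symm)
      · simp
    · rw [extendByZero_of_not_mem H ξ hy]
      symm
      apply Finset.sum_eq_zero
      intro h _
      rw [if_neg]
      rintro rfl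
      exact hy h.2
  open Cfsg.Agent.Lib.CharOps Cfsg.Agent.Lib.SylowCount in
  have h2 : ∀ h : H, ∑ x : G, (if x⁻¹ * g * x = (h : G) then ξ h else 0) =
      if IsConj g (h : G) then (Nat.card (Subgroup.centralizer ({g} : Set G)) : ℂ) * ξ h else 0 := by
    intro h
    rw [Finset.sum_ite, Finset.sum_const_zero, add_zero, Finset.sum_const, nsmul_eq_mul]
    split_ifs with hc
    · obtain ⟨c, hc'⟩ := isConj_iff.1 hc
      have e : (h : G) = c⁻¹⁻¹ * g * c⁻¹ := by rw [inv_inv, hc']
      congr 2
      rw [← card_fiber_conj g c⁻¹, Nat.card_eq_fintype_card, Fintype.card_subtype, e]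
    · rw [Finset.filter_false_of_mem]
      · simp
      · intro x _ hx
        apply hc
        rw [← hx]
        exact isConj_iff.2 ⟨x⁻¹, by group⟩
  open Cfsg.Agent.Lib.CharOps Cfsg.Agent.Lib.SylowCount in
  have key : ∑ x : G, extendByZero H ξ (x⁻¹ * g * x) =
      (Nat.card (Subgroup.centralizer ({g} : Set G)) : ℂ) *
        ∑ h : H, if IsConj g (h : G) then ξ h else 0 := by
    simp only [h1]
    rw [Finset.sum_comm, Finset.mul_sum]
    refine Finset.sum_congr rfl fun h _ => ?_
    rw [h2]
    split_ifs <;> simp
  have hS : inducedCentralChar H ξ g = (∑ h : H, if IsConj g (h : G) then ξ h else 0) / ξ 1 := by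
    unfold inducedCentralChar
    rw [finsum_mem_def, finsum_eq_sum_of_fintype, Finset.sum_div]
    refine Finset.sum_congr rfl fun h _ => ?_
    by_cases hc : IsConj g (h : G)
    · rw [Set.indicator_of_mem (by exact hc), if_pos hc]
    · rw [Set.indicator_of_notMem (by exact hc), if_neg hc, zero_div]
  unfold centralChar
  rw [hS, Cfsg.Agent.Lib.CharOps.indFun_one, Cfsg.Agent.Lib.CharOps.indFun_apply, key]
  set S := ∑ h : H, if IsConj g (h : G) then ξ h else 0
  have e1 : ((Subgroup.centralizer ({g} : Set G)).index : ℂ) * (Nat.card (Subgroup.centralizer ({g} : Set G)) : ℂ) = (Nat.card G : ℂ) := by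
    rw [← Subgroup.card_mul_index (Subgroup.centralizer ({g} : Set G))]
    push_cast
    ring
  have e2 : (Nat.card H : ℂ) * (H.index : ℂ) = (Nat.card G : ℂ) := by
    rw [← Subgroup.card_mul_index H]
    push_cast
    ring
  have hG : (Nat.card G : ℂ) ≠ 0 := by exact_mod_cast Nat.card_pos.ne'
  have hH : (Nat.card H : ℂ) ≠ 0 := by exact_mod_cast Nat.card_pos.ne'
  have hI : (H.index : ℂ) ≠ 0 := by
    intro h0
    rw [h0, mul_zero] at e2
    exact hG e2.symm
  calc S / ξ 1 = ((Nat.card G : ℂ) / (Nat.card H * H.index)) * (S / ξ 1) := by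
        rw [e2, div_self hG, one_mul]
    _ = _ := by
        rw [← e1]
        rw [div_eq_mul_inv, div_eq_mul_inv, div_eq_mul_inv, mul_inv, mul_inv]
        ring

end Cfsg.Agent.S0932
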