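import Cfsg.Statements.S0945
import Cfsg.Agent.Lib.PGroupBasic
import Cfsg.Agent.Lib.SylowCount
import Cfsg.Agent.Lib.H2Basic
-- import your own Cfsg.Agent.* helpers here

set_option autoImplicit false
set_option linter.all false
open Cfsg

namespace Cfsg.Agent.S0945

open Subgroup

section
variable {G : Type*} [Group G] [Finite G]

theorem mem_of_pow_mem_coprime (H : Subgroup G) (x : G) {a b : ℕ} (hab : a.Coprime b)
    (ha : x ^ a ∈ H) (hb : x ^ b ∈ H) : x ∈ H := by
  have h := Nat.gcd_eq_gcd_ab a b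
  rw [hab, Nat.cast_one] at h
  have e : x = (x ^ a) ^ (Nat.gcdA a b) * (x ^ b) ^ (Nat.gcdB a b) := by
    rw [← zpow_natCast, ← zpow_natCast, ← zpow_mul, ← zpow_mul, ← zpow_add, ← h, zpow_one]
  rw [e]
  exact H.mul_mem (H.zpow_mem ha _) (H.zpow_mem hb _)

theorem odd_pow_mem (P : Sylow 2 G) (hab : ∀ a ∈ (P : Subgroup G), ∀ b ∈ (P : Subgroup G), a * b = b * a)
    {x : G} (hx : x ∈ normalizer ((P : Subgroup G) : Set G)) :
    ∃ r, Odd r ∧ x ^ r ∈ centralizer ((P : Subgroup G) : Set G) := by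
  obtain ⟨s, r, hr, hn⟩ := Nat.exists_eq_two_pow_mul_odd (orderOf_pos x).ne'
  refine ⟨r, hr, ?_⟩
  have hy : (x ^ r) ^ 2 ^ s = 1 := by rw [← pow_mul, mul_comm, ← hn, pow_orderOf_eq_one]
  have hA : IsPGroup 2 (zpowers (x ^ r)) := by
    intro z
    obtain ⟨k, hk⟩ := mem_zpowers_iff.1 z.2
    refine ⟨s, Subtype.ext ?_⟩
    show (z : G) ^ 2 ^ s = 1
    rw [← hk, ← zpow_natCast, ← zpow_mul, mul_comm, zpow_mul, zpow_natCast, hy, one_zpow]
  have hle : zpowers (x ^ r) ≤ normalizer ((P : Subgroup G) : Set G) :=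
    zpowers_le.2 (pow_mem hx r)
  have h := P.is_maximal' (hA.to_sup_of_normal_right' P.isPGroup' hle) le_sup_right
  have hyP : x ^ r ∈ (P : Subgroup G) := by
    rw [← h]
    exact mem_sup_left (mem_zpowers _)
  rw [mem_centralizer_iff]
  intro a ha
  exact hab a ha _ hyP

theorem chain (Q : Subgroup G) (hab : ∀ a ∈ Q, ∀ b ∈ Q, a * b = b * a)
    {x : G} (hx : x ∈ normalizer (Q : Set G)) (hfix : ∀ a ∈ Q, a * a = 1 → Commute x a) (k : ℕ) :
    ∀ a ∈ Q, a ^ 2 ^ (k + 1) = 1 → Commute (x ^ 2 ^ k) a := by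
  induction k with
  | zero =>
    intro a ha h
    simpa using hfix a ha (by simpa [pow_two] using h)
  | succ k ih =>
    intro a ha h
    have hy : x ^ 2 ^ k ∈ normalizer (Q : Set G) := pow_mem hx _
    have h2 : Commute (x ^ 2 ^ k) (a * a) := ih (a * a) (mul_mem ha ha) (by
      rw [← pow_two, ← pow_mul, ← pow_succ']
      exact h)
    have hyfix : ∀ c ∈ Q, c * c = 1 → Commute (x ^ 2 ^ k) c :=
      fun c hc hcc => (hfix c hc hcc).pow_left _
    have e1 : x ^ 2 ^ (k + 1) = x ^ 2 ^ k * x ^ 2 ^ k := by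
      rw [pow_succ, pow_mul, pow_two]
    rw [e1]
    generalize x ^ 2 ^ k = y at *
    have hb : y * a * y⁻¹ ∈ Q := (mem_normalizer_iff.1 hy a).1 ha
    have hεQ : y * a * y⁻¹ * a⁻¹ ∈ Q := mul_mem hb (inv_mem ha)
    have hbb : (y * a * y⁻¹) * (y * a * y⁻¹) = a * a := by
      have e : (y * a * y⁻¹) * (y * a * y⁻¹) = y * (a * a) * y⁻¹ := by group
      rw [e, h2.eq]
      group
    have hεε : (y * a * y⁻¹ * a⁻¹) * (y * a * y⁻¹ * a⁻¹) = 1 := by
      have e := hab _ (inv_mem ha) _ hb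
      calc (y * a * y⁻¹ * a⁻¹) * (y * a * y⁻¹ * a⁻¹)
          = (y * a * y⁻¹) * (a⁻¹ * (y * a * y⁻¹)) * a⁻¹ := by group
        _ = (y * a * y⁻¹) * ((y * a * y⁻¹) * a⁻¹) * a⁻¹ := by rw [e]
        _ = ((y * a * y⁻¹) * (y * a * y⁻¹)) * a⁻¹ * a⁻¹ := by group
        _ = 1 := by rw [hbb]; group
    have hc := hyfix _ hεQ hεε
    generalize hε : y * a * y⁻¹ * a⁻¹ = ε at *
    have h1 : y * a = ε * a * y := by rw [← hε]; group
    show y * y * a = a * (y * y)
    calc y * y * a = y * (y * a) := by group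
      _ = y * (ε * a * y) := by rw [h1]
      _ = (y * ε) * a * y := by group
      _ = ε * (y * a) * y := by rw [hc.eq]; group
      _ = ε * (ε * a * y) * y := by rw [h1]
      _ = (ε * ε) * a * y * y := by group
      _ = a * (y * y) := by rw [hεε]; group

/-- an element fixing all the involutions of an abelian group `Q` of exponent dividing `2^(k+1)`
has a `2`-power in `C(Q)` -/
theorem exists_two_pow (Q : Subgroup G) (hab : ∀ a ∈ Q, ∀ b ∈ Q, a * b = b * a) (k : ℕ)
    (hexp : ∀ a ∈ Q, a ^ 2 ^ (k + 1) = 1) {x : G} (hx : x ∈ normalizer (Q : Set G))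
    (hfix : ∀ a ∈ Q, a * a = 1 → Commute x a) : x ^ 2 ^ k ∈ centralizer (Q : Set G) := by
  rw [mem_centralizer_iff]
  intro a ha
  exact ((chain Q hab hx hfix k a ha (hexp a ha)).eq).symm

theorem mem_centralizer_of_fix_all (P : Sylow 2 G)
    (hab : ∀ a ∈ (P : Subgroup G), ∀ b ∈ (P : Subgroup G), a * b = b * a) (k : ℕ)
    (hexp : ∀ a ∈ (P : Subgroup G), a ^ 2 ^ (k + 1) = 1) {x : G}
    (hx : x ∈ normalizer ((P : Subgroup G) : Set G))
    (hfix : ∀ a ∈ (P : Subgroup G), a * a = 1 → Commute x a) :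
    x ∈ centralizer ((P : Subgroup G) : Set G) := by
  obtain ⟨r, hr, hxr⟩ := odd_pow_mem P hab hx
  have h2 := exists_two_pow _ hab k hexp hx hfix
  refine mem_of_pow_mem_coprime _ x ?_ h2 hxr
  exact Nat.Coprime.pow_left _ (Nat.coprime_two_left.2 hr)

theorem mem_centralizer_of_fix (P : Sylow 2 G)
    (hab : ∀ a ∈ (P : Subgroup G), ∀ b ∈ (P : Subgroup G), a * b = b * a) (k : ℕ)
    (hexp : ∀ a ∈ (P : Subgroup G), a ^ 2 ^ (k + 1) = 1) {t u v : G}
    (hut : u ≠ t) (hvt : v ≠ t) (huv : u ≠ v)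
    (ht : t ∈ (P : Subgroup G)) (ht2 : t * t = 1) (ht1 : t ≠ 1)
    (hu : u ∈ (P : Subgroup G)) (hu2 : u * u = 1) (hu1 : u ≠ 1)
    (hv : v ∈ (P : Subgroup G)) (hv2 : v * v = 1) (hv1 : v ≠ 1)
    (hcov : ∀ a ∈ (P : Subgroup G), a * a = 1 → a = 1 ∨ a = t ∨ a = u ∨ a = v) {x : G}
    (hx : x ∈ normalizer ((P : Subgroup G) : Set G)) (hxt : Commute x t) :
    x ∈ centralizer ((P : Subgroup G) : Set G) := by
  have hcj : ∀ a ∈ (P : Subgroup G), a * a = 1 → a ≠ 1 →
      x * a * x⁻¹ = t ∨ x * a * x⁻¹ = u ∨ x * a * x⁻¹ = v := by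
    intro a ha ha2 ha1
    have h1 : x * a * x⁻¹ ∈ (P : Subgroup G) := (mem_normalizer_iff.1 hx a).1 ha
    have h2 : (x * a * x⁻¹) * (x * a * x⁻¹) = 1 := by
      have e : (x * a * x⁻¹) * (x * a * x⁻¹) = x * (a * a) * x⁻¹ := by group
      rw [e, ha2]; group
    rcases hcov _ h1 h2 with h | h
    · exfalso
      apply ha1
      have : a = x⁻¹ * (x * a * x⁻¹) * x := by group
      rw [this, h]; group
    · exact h
  have hinj : ∀ a b : G, x * a * x⁻¹ = x * b * x⁻¹ → a = b := by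
    intro a b h
    have h' := mul_right_cancel (mul_left_cancel (a := x) (by simpa [mul_assoc] using h) : a * x⁻¹ = b * x⁻¹)
    exact h'
  have htt : x * t * x⁻¹ = t := by rw [hxt.eq]; group
  have hall : ∀ a ∈ (P : Subgroup G), a * a = 1 → a = 1 ∨ a = t ∨ a = u ∨ a = v := hcov
  rcases hcj u hu hu2 hu1 with h | h | h
  · exact absurd (hinj _ _ (h.trans htt.symm)) hut
  · -- u fixed
    have hv' : x * v * x⁻¹ = v := by
      rcases hcj v hv hv2 hv1 with h' | h' | h'
      · exact absurd (hinj _ _ (h'.trans htt.symm)) hvt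
      · exact absurd (hinj _ _ (h'.trans h.symm)) huv.symm
      · exact h'
    refine mem_centralizer_of_fix_all P hab k hexp hx ?_
    intro a ha ha2
    rcases hcov a ha ha2 with h0 | h0 | h0 | h0 <;> rw [h0]
    · exact Commute.one_right _
    · exact hxt
    · exact (mul_inv_eq_iff_eq_mul.1 h)
    · exact (mul_inv_eq_iff_eq_mul.1 hv')
  · -- u, v swapped
    have hv' : x * v * x⁻¹ = u := by
      rcases hcj v hv hv2 hv1 with h' | h' | h'
      · exact absurd (hinj _ _ (h'.trans htt.symm)) hvt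
      · exact h'
      · exact absurd (hinj _ _ (h'.trans h.symm)) huv.symm
    have hu' : x * u = v * x := mul_inv_eq_iff_eq_mul.1 h
    have hv'' : x * v = u * x := mul_inv_eq_iff_eq_mul.1 hv'
    have hx2 : x ^ 2 ∈ normalizer ((P : Subgroup G) : Set G) := pow_mem hx 2
    have h2 := mem_centralizer_of_fix_all P hab k hexp hx2 (by
      intro a ha ha2
      rcases hcov a ha ha2 with h0 | h0 | h0 | h0 <;> rw [h0]
      · exact Commute.one_right _
      · exact hxt.pow_left 2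
      · show x ^ 2 * u = u * x ^ 2
        calc x ^ 2 * u = x * (x * u) := by rw [pow_two, mul_assoc]
          _ = x * (v * x) := by rw [hu']
          _ = (x * v) * x := by group
          _ = u * x * x := by rw [hv'']
          _ = u * x ^ 2 := by rw [pow_two, mul_assoc]
      · show x ^ 2 * v = v * x ^ 2
        calc x ^ 2 * v = x * (x * v) := by rw [pow_two, mul_assoc]
          _ = x * (u * x) := by rw [hv'']
          _ = (x * u) * x := by group
          _ = v * x * x := by rw [hu']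
          _ = v * x ^ 2 := by rw [pow_two, mul_assoc])
    obtain ⟨r, hr, hxr⟩ := odd_pow_mem P hab hx
    exact mem_of_pow_mem_coprime _ x (Nat.coprime_two_left.2 hr) h2 hxr

end

section ZM
variable (m : ℕ) (hm : 1 ≤ m)

theorem zmod_cases (a : ZMod (2 ^ m)) (hm : 1 ≤ m) (h : a + a = 0) :
    a = 0 ∨ a = ((2 ^ (m - 1) : ℕ) : ZMod (2 ^ m)) := by
  haveI : NeZero (2 ^ m) := ⟨by positivity⟩
  have e : (2 : ℕ) ^ m = 2 * 2 ^ (m - 1) := by
    rw [← pow_succ']
    congr 1
    omega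
  have h1 : ((a.val + a.val : ℕ) : ZMod (2 ^ m)) = 0 := by
    push_cast
    rw [ZMod.natCast_zmod_val]
    exact h
  rw [ZMod.natCast_eq_zero_iff] at h1
  have h2 : 2 ^ (m - 1) ∣ a.val := by
    have h1' := (dvd_of_eq e.symm).trans h1
    have : 2 * 2 ^ (m - 1) ∣ 2 * a.val := by
      rwa [two_mul a.val]
    exact Nat.dvd_of_mul_dvd_mul_left (by norm_num) this
  obtain ⟨c, hc⟩ := h2
  have hlt : a.val < 2 * 2 ^ (m - 1) := lt_of_lt_of_eq (ZMod.val_lt a) e
  rw [hc] at hlt
  have hpos : 0 < 2 ^ (m - 1) := by positivity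
  have hc2 : c < 2 := by
    by_contra hcon
    push Not at hcon
    have : 2 * 2 ^ (m - 1) ≤ 2 ^ (m - 1) * c := by
      rw [mul_comm]
      exact Nat.mul_le_mul_left _ hcon
    omega
  have ha : a = ((a.val : ℕ) : ZMod (2 ^ m)) := (ZMod.natCast_zmod_val a).symm
  rw [hc] at ha
  interval_cases c
  · left; simpa using ha
  · right; simpa using ha

theorem zmod_eps_ne (hm : 1 ≤ m) : ((2 ^ (m - 1) : ℕ) : ZMod (2 ^ m)) ≠ 0 := by
  rw [Ne, ZMod.natCast_eq_zero_iff]
  intro h
  have := Nat.le_of_dvd (by positivity) h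
  have h2 : 2 ^ (m - 1) < 2 ^ m := Nat.pow_lt_pow_right (by norm_num) (by omega)
  omega

theorem zmod_eps_add (hm : 1 ≤ m) : ((2 ^ (m - 1) : ℕ) : ZMod (2 ^ m)) + ((2 ^ (m - 1) : ℕ) : ZMod (2 ^ m)) = 0 := by
  have e : (2 : ℕ) ^ m = 2 ^ (m - 1) + 2 ^ (m - 1) := by
    rw [← two_mul, ← pow_succ']
    congr 1
    omega
  rw [← Nat.cast_add, ← e]
  exact ZMod.natCast_self _

end ZM


/-- Let P be a Sylow 2-subgroup of the finite group G isomorphic to Z/2^m × Z/2^m with m ≥ 1. Then (i) the index of C_G(P) in N_G(P) is 1 or 3, and (ii) if it is not 1, then for every z ≠ 1 in P, C_G(z) ∩ N_G(P) = C_G(P). -/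
theorem result {G : Type*} [Group G] [Finite G] (P : Sylow 2 G) (m : ℕ) (hm : 1 ≤ m) (e : (P : Subgroup G) ≃* Multiplicative (ZMod (2 ^ m) × ZMod (2 ^ m))) : ((Subgroup.centralizer (P : Set G)).relIndex (Subgroup.normalizer (P : Set G)) = 1 ∨ (Subgroup.centralizer (P : Set G)).relIndex (Subgroup.normalizer (P : Set G)) = 3) ∧ ((Subgroup.centralizer (P : Set G)).relIndex (Subgroup.normalizer (P : Set G)) ≠ 1 → ∀ z ∈ (P : Subgroup G), z ≠ 1 → Subgroup.centralizer ({z} : Set G) ⊓ Subgroup.normalizer (P : Set G) = Subgroup.centralizer (P : Set G)) := by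
  classical
  set Q : Subgroup G := (P : Subgroup G) with hQ
  have hm' : m = (m - 1) + 1 := by omega
  have hab : ∀ a ∈ Q, ∀ b ∈ Q, a * b = b * a := by
    intro a ha b hb
    have : (⟨a, ha⟩ : Q) * ⟨b, hb⟩ = ⟨b, hb⟩ * ⟨a, ha⟩ := by
      apply e.injective
      rw [map_mul, map_mul, mul_comm]
    exact congrArg Subtype.val this
  -- parametrize
  let g : ZMod (2 ^ m) × ZMod (2 ^ m) → G := fun w => ((e.symm (Multiplicative.ofAdd w) : Q) : G)
  have hgadd : ∀ w w', g (w + w') = g w * g w' := by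
    intro w w'
    show ((e.symm (Multiplicative.ofAdd (w + w')) : Q) : G) = _
    rw [ofAdd_add, map_mul]
    rfl
  have hg0 : g 0 = 1 := by
    show ((e.symm (Multiplicative.ofAdd 0) : Q) : G) = 1
    rw [ofAdd_zero, map_one]
    rfl
  have hginj : ∀ w w', g w = g w' → w = w' := by
    intro w w' h
    have h1 := e.symm.injective (Subtype.ext h)
    exact Multiplicative.ofAdd.injective h1
  have hgmem : ∀ w, g w ∈ Q := fun w => (e.symm (Multiplicative.ofAdd w)).2
  have hgsurj : ∀ a ∈ Q, ∃ w, g w = a := by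
    intro a ha
    refine ⟨Multiplicative.toAdd (e ⟨a, ha⟩), ?_⟩
    show ((e.symm (Multiplicative.ofAdd (Multiplicative.toAdd (e ⟨a, ha⟩))) : Q) : G) = a
    simp
  have hexp : ∀ a ∈ Q, a ^ 2 ^ ((m - 1) + 1) = 1 := by
    intro a ha
    obtain ⟨w, rfl⟩ := hgsurj a ha
    rw [← hm']
    have hp : ∀ n : ℕ, g w ^ n = g (n • w) := by
      intro n
      induction n with
      | zero => simp [hg0]
      | succ n ih => rw [pow_succ, ih, succ_nsmul, hgadd]
    rw [hp]
    have : (2 ^ m) • w = 0 := by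
      ext
      · show (2 ^ m) • w.1 = 0
        rw [nsmul_eq_mul, ZMod.natCast_self, zero_mul]
      · show (2 ^ m) • w.2 = 0
        rw [nsmul_eq_mul, ZMod.natCast_self, zero_mul]
    rw [this, hg0]
  set ε : ZMod (2 ^ m) := ((2 ^ (m - 1) : ℕ) : ZMod (2 ^ m)) with hε
  have hεne : ε ≠ 0 := zmod_eps_ne m hm
  have hεadd : ε + ε = 0 := zmod_eps_add m hm
  have hinv : ∀ w, g w * g w = 1 ↔ w + w = 0 := by
    intro w
    rw [← hgadd, ← hg0]
    exact ⟨hginj _ _, fun h => by rw [h]⟩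
  have hne1 : ∀ w, w ≠ 0 → g w ≠ 1 := by
    intro w hw h
    rw [← hg0] at h
    exact hw (hginj _ _ h)
  have hw1 : ((ε, 0) : ZMod (2 ^ m) × ZMod (2 ^ m)) ≠ 0 := fun h => hεne (congrArg Prod.fst h)
  have hw2 : ((0, ε) : ZMod (2 ^ m) × ZMod (2 ^ m)) ≠ 0 := fun h => hεne (congrArg Prod.snd h)
  have hw3 : ((ε, ε) : ZMod (2 ^ m) × ZMod (2 ^ m)) ≠ 0 := fun h => hεne (congrArg Prod.fst h)
  have h1' : g (ε, 0) * g (ε, 0) = 1 := (hinv _).2 (by ext <;> simp [hεadd])
  have h2' : g (0, ε) * g (0, ε) = 1 := (hinv _).2 (by ext <;> simp [hεadd])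
  have h3' : g (ε, ε) * g (ε, ε) = 1 := (hinv _).2 (by ext <;> simp [hεadd])
  have hd12 : g (ε, 0) ≠ g (0, ε) := fun h => hεne (congrArg Prod.fst (hginj _ _ h))
  have hd13 : g (ε, 0) ≠ g (ε, ε) := fun h => hεne (congrArg Prod.snd (hginj _ _ h)).symm
  have hd23 : g (0, ε) ≠ g (ε, ε) := fun h => hεne (congrArg Prod.fst (hginj _ _ h)).symm
  have hcov : ∀ a ∈ Q, a * a = 1 → a = 1 ∨ a = g (ε, 0) ∨ a = g (0, ε) ∨ a = g (ε, ε) := by
    intro a ha haa
    obtain ⟨⟨x, y⟩, rfl⟩ := hgsurj a ha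
    have h := (hinv _).1 haa
    have hx : x + x = 0 := congrArg Prod.fst h
    have hy : y + y = 0 := congrArg Prod.snd h
    rcases zmod_cases m x hm hx with rfl | rfl <;> rcases zmod_cases m y hm hy with rfl | rfl
    · left; exact hg0
    · right; right; left; rfl
    · right; left; rfl
    · right; right; right; rfl
  -- fixed involution implies centralizing
  have hfix : ∀ x ∈ normalizer (Q : Set G), ∀ t ∈ Q, t * t = 1 → t ≠ 1 → Commute x t →
      x ∈ centralizer (Q : Set G) := by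
    intro x hx t ht ht2 ht1 hc
    rcases hcov t ht ht2 with h | h | h | h
    · exact absurd h ht1
    · subst h
      exact mem_centralizer_of_fix P hab (m - 1) hexp hd12.symm hd13.symm hd23 ht ht2 ht1 (hgmem _) h2' (hne1 _ hw2)
        (hgmem _) h3' (hne1 _ hw3) (fun a ha haa => by
          rcases hcov a ha haa with h | h | h | h <;> simp [h]) hx hc
    · subst h
      exact mem_centralizer_of_fix P hab (m - 1) hexp hd12 hd23.symm hd13 ht ht2 ht1 (hgmem _) h1' (hne1 _ hw1)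
        (hgmem _) h3' (hne1 _ hw3) (fun a ha haa => by
          rcases hcov a ha haa with h | h | h | h <;> simp [h]) hx hc
    · subst h
      exact mem_centralizer_of_fix P hab (m - 1) hexp hd13 hd23 hd12 ht ht2 ht1 (hgmem _) h1' (hne1 _ hw1)
        (hgmem _) h2' (hne1 _ hw2) (fun a ha haa => by
          rcases hcov a ha haa with h | h | h | h <;> simp [h]) hx hc
  have hCN : centralizer (Q : Set G) ≤ normalizer (Q : Set G) := by
    intro x hx
    exact Cfsg.Agent.Lib.H2Basic.mem_normalizer_of_forall_comm (fun a ha => ((mem_centralizer_iff.1 hx) a ha).symm)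
  have hPC : Q ≤ centralizer (Q : Set G) := by
    intro x hx
    rw [mem_centralizer_iff]
    intro a ha
    exact hab a ha x hx
  -- index at most 3
  have hle3 : (centralizer (Q : Set G)).relIndex (normalizer (Q : Set G)) ≤ 3 := by
    set N := normalizer (Q : Set G)
    set C := centralizer (Q : Set G)
    let T : Finset G := {g (ε, 0), g (0, ε), g (ε, ε)}
    have hT : T.card ≤ 3 := Finset.card_le_three
    let f : (N ⧸ C.subgroupOf N) → T := fun q =>
      ⟨((q.out : N) : G) * g (ε, 0) * ((q.out : N) : G)⁻¹, by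
        have h1 : ((q.out : N) : G) * g (ε, 0) * ((q.out : N) : G)⁻¹ ∈ Q :=
          (mem_normalizer_iff.1 (q.out : N).2 (g (ε, 0))).1 (hgmem _)
        have h2 : (((q.out : N) : G) * g (ε, 0) * ((q.out : N) : G)⁻¹) * (((q.out : N) : G) * g (ε, 0) * ((q.out : N) : G)⁻¹) = 1 := by
          have e : (((q.out : N) : G) * g (ε, 0) * ((q.out : N) : G)⁻¹) * (((q.out : N) : G) * g (ε, 0) * ((q.out : N) : G)⁻¹) = ((q.out : N) : G) * (g (ε, 0) * g (ε, 0)) * ((q.out : N) : G)⁻¹ := by group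
          rw [e, h1']
          group
        rcases hcov _ h1 h2 with h | h | h | h
        · exfalso
          apply hne1 _ hw1
          have e : g (ε, 0) = ((q.out : N) : G)⁻¹ * (((q.out : N) : G) * g (ε, 0) * ((q.out : N) : G)⁻¹) * ((q.out : N) : G) := by group
          show g (ε, 0) = 1
          rw [e, h]
          group
        · simp [T, h]
        · simp [T, h]
        · simp [T, h]⟩
    have hf : Function.Injective f := by
      intro q₁ q₂ h
      have h1 : ((q₁.out : N) : G) * g (ε, 0) * ((q₁.out : N) : G)⁻¹ = ((q₂.out : N) : G) * g (ε, 0) * ((q₂.out : N) : G)⁻¹ :=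
        congrArg Subtype.val h
      rw [← QuotientGroup.out_eq' q₁, ← QuotientGroup.out_eq' q₂, QuotientGroup.eq]
      rw [Subgroup.mem_subgroupOf]
      apply hfix _ (Subgroup.mul_mem _ (Subgroup.inv_mem _ (q₁.out : N).2) (q₂.out : N).2) (g (ε, 0)) (hgmem _) h1' (hne1 _ hw1)
      show ((q₁.out : N) : G)⁻¹ * ((q₂.out : N) : G) * g (ε, 0) = g (ε, 0) * (((q₁.out : N) : G)⁻¹ * ((q₂.out : N) : G))
      have h3 : ((q₁.out : N) : G)⁻¹ * (((q₁.out : N) : G) * g (ε, 0) * ((q₁.out : N) : G)⁻¹) * ((q₂.out : N) : G) = ((q₁.out : N) : G)⁻¹ * (((q₂.out : N) : G) * g (ε, 0) * ((q₂.out : N) : G)⁻¹) * ((q₂.out : N) : G) := by rw [h1]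
      calc ((q₁.out : N) : G)⁻¹ * ((q₂.out : N) : G) * g (ε, 0) = ((q₁.out : N) : G)⁻¹ * (((q₂.out : N) : G) * g (ε, 0) * ((q₂.out : N) : G)⁻¹) * ((q₂.out : N) : G) := by group
        _ = ((q₁.out : N) : G)⁻¹ * (((q₁.out : N) : G) * g (ε, 0) * ((q₁.out : N) : G)⁻¹) * ((q₂.out : N) : G) := h3.symm
        _ = g (ε, 0) * (((q₁.out : N) : G)⁻¹ * ((q₂.out : N) : G)) := by group
    have h2 := Nat.card_le_card_of_injective f hf
    have h3 : Nat.card T = T.card := by simp
    have h4 : (C.relIndex N) = Nat.card (N ⧸ C.subgroupOf N) := rfl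
    rw [h4]
    omega
  have hodd : ¬ 2 ∣ (centralizer (Q : Set G)).relIndex (normalizer (Q : Set G)) := by
    intro h
    have h1 : Q.relIndex (normalizer (Q : Set G)) = Q.relIndex (centralizer (Q : Set G)) * (centralizer (Q : Set G)).relIndex (normalizer (Q : Set G)) :=
      (Subgroup.relIndex_mul_relIndex _ _ _ hPC hCN).symm
    have h2 : Q.relIndex (normalizer (Q : Set G)) * (normalizer (Q : Set G)).index = Q.index :=
      Subgroup.relIndex_mul_index (hPC.trans hCN)
    have h3 : ¬ 2 ∣ Q.index := P.not_dvd_index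
    apply h3
    rw [← h2, h1]
    exact Dvd.dvd.mul_right (Dvd.dvd.mul_left h _) _
  have hpos : (centralizer (Q : Set G)).relIndex (normalizer (Q : Set G)) ≠ 0 := by
    intro h
    exact hodd (by rw [h]; exact dvd_zero _)
  refine ⟨?_, ?_⟩
  · generalize (centralizer (Q : Set G)).relIndex (normalizer (Q : Set G)) = r at hle3 hodd hpos
    interval_cases r
    · exact absurd rfl hpos
    · left; rfl
    · exact absurd (dvd_refl 2) hodd
    · right; rfl
  · intro _ z hz hz1
    apply le_antisymm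
    · rintro x ⟨hxz, hxN⟩
      -- involution in ⟨z⟩
      have hzQ : IsPGroup 2 Q := P.isPGroup'
      obtain ⟨k, hk⟩ := Cfsg.Agent.Lib.PGroupBasic.exists_pow_orderOf_eq_two (G := Q) (x := ⟨z, hz⟩) hzQ (fun h => hz1 (congrArg Subtype.val h))
      have hk' : orderOf (z ^ k) = 2 := by
        have : orderOf (((⟨z, hz⟩ : Q) ^ k : Q) : G) = 2 := by
          rw [Subgroup.orderOf_coe]
          exact hk
        simpa using this
      have hmem : z ^ k ∈ Q := pow_mem hz k
      have h2 : z ^ k * z ^ k = 1 := by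
        rw [← pow_two]
        rw [← hk']
        exact pow_orderOf_eq_one _
      have h3 : z ^ k ≠ 1 := by
        intro h
        rw [h, orderOf_one] at hk'
        omega
      have h4 : Commute x z := (Subgroup.mem_centralizer_singleton_iff.1 hxz)
      exact hfix x hxN _ hmem h2 h3 (h4.pow_right k)
    · intro x hx
      exact ⟨Subgroup.mem_centralizer_singleton_iff.2 ((mem_centralizer_iff.1 hx) z hz).symm, hCN hx⟩

end Cfsg.Agent.S0945
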