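import Cfsg.Statements.S0951
import Cfsg.Agent.Lib.ZsQ8Group
-- import your own Cfsg.Agent.* helpers here

set_option autoImplicit false
open Cfsg

namespace Cfsg.Agent.S0951

/-- Let S be a Sylow 2-subgroup of the finite group G isomorphic to the quaternion group of order 8. Suppose G has no nontrivial normal subgroup of odd order and G ≠ S. Then, relative to any maximal ideal M of the algebraic integers containing 2, the principal block of G consists of exactly 7 irreducible characters. -/
theorem result {G : Type*} [Group G] [Finite G] (M : Ideal Cfsg.AlgInt) (hM : Cfsg.IsPModular 2 M) (S : Sylow 2 G) (e : (S : Subgroup G) ≃* QuaternionGroup 2) (hO : ∀ N : Subgroup G, N.Normal → Odd (Nat.card N) → N = ⊥) (hG : (S : Subgroup G) ≠ ⊤) : Nat.card (Cfsg.principalBlock M G) = 7 := by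
  classical
  cases nonempty_fintype G
  haveI : Fact (Nat.Prime 2) := ⟨Nat.prime_two⟩
  haveI : M.IsPrime := hM.2.1.isPrime
  have hnc : ∀ N : Subgroup G, N.Normal → ¬ Subgroup.IsComplement' N (S : Subgroup G) := by
    intro N hN hc
    have h1 : (S : Subgroup G).index = Nat.card N := hc.index_eq_card
    have hodd : Odd (Nat.card N) := by
      rw [← h1, ← Nat.not_even_iff_odd, even_iff_two_dvd]
      exact S.not_dvd_index
    have hbot := hO N hN hodd
    subst hbot
    exact hG (Subgroup.isComplement'_bot_left.1 hc)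
  obtain ⟨z, hzS, h, hUS, χ, χ', hne, hT, hT', hd, hmem, hall, -⟩ :=
    Cfsg.Agent.Lib.ZsQ8Group.q8_main hM S e hnc
  have hSC : (S : Subgroup G) ≤ Subgroup.centralizer ({z} : Set G) := by
    intro x hx
    have h1 : x * z * x⁻¹ = z := hUS _ (S.toSubgroup.mul_mem (S.toSubgroup.mul_mem hx hzS) (S.toSubgroup.inv_mem hx)) (by
      rw [Cfsg.Agent.Lib.ZsCore.orderOf_cj]
      exact h.1)
    rw [Subgroup.mem_centralizer_singleton_iff]
    calc x * z = x * z * x⁻¹ * x := by group
      _ = z * x := by rw [h1]
  have hidx : ¬ 2 ∣ (Subgroup.centralizer ({z} : Set G)).index := fun hdvd =>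
    S.not_dvd_index (hdvd.trans (Subgroup.index_dvd_of_le hSC))
  have hnz : ∀ ψ ∈ Cfsg.principalBlock M G, (ψ : G → ℂ) z ≠ 0 := by
    intro ψ hψ h0
    have h1 := hψ z
    have h2 : Cfsg.centralChar (ψ : G → ℂ) z = 0 := by
      unfold Cfsg.centralChar
      rw [h0]
      simp
    have h3 : Cfsg.centralChar (fun _ : G => (1 : ℂ)) z = ((Subgroup.centralizer ({z} : Set G)).index : ℂ) := by
      unfold Cfsg.centralChar
      simp
    rw [h2, h3, sub_zero] at h1
    exact Cfsg.Agent.Lib.BlockLocal.not_memLocalIdeal_natCast hM hidx h1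
  let Φ : Option (Fin 3 × Bool) → Cfsg.IrrCharacter G := fun o => match o with
    | none => Cfsg.Agent.Lib.ZsCore.triv1 G
    | some (k, true) => χ' k
    | some (k, false) => χ k
  have hinj : Function.Injective Φ := by
    rintro (_ | ⟨j, _ | _⟩) (_ | ⟨k, _ | _⟩) e1
    · rfl
    · exact absurd e1.symm (hT k)
    · exact absurd e1.symm (hT' k)
    · exact absurd e1 (hT j)
    · have e2 : χ j = χ k := e1
      by_cases hjk : j = k
      · rw [hjk]
      · exact absurd e2 (hd j k hjk).1
    · have e2 : χ j = χ' k := e1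
      by_cases hjk : j = k
      · subst hjk
        exact absurd e2 (hne j)
      · exact absurd e2 (hd j k hjk).2.2
    · exact absurd e1 (hT' j)
    · have e2 : χ' j = χ k := e1
      by_cases hjk : j = k
      · subst hjk
        exact absurd e2.symm (hne j)
      · exact absurd e2.symm (hd k j (Ne.symm hjk)).2.2
    · have e2 : χ' j = χ' k := e1
      by_cases hjk : j = k
      · rw [hjk]
      · exact absurd e2 (hd j k hjk).2.1
  have hset : Cfsg.principalBlock M G = Set.range Φ := by
    ext ψ
    constructor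
    · intro hψ
      rcases hall ψ hψ (hnz ψ hψ) with rfl | ⟨k, rfl | rfl⟩
      · exact ⟨none, rfl⟩
      · exact ⟨some (k, false), rfl⟩
      · exact ⟨some (k, true), rfl⟩
    · rintro ⟨(_ | ⟨j, _ | _⟩), rfl⟩
      · exact Cfsg.Agent.Lib.CharBlockThird.triv_mem_principal hM
      · exact (hmem j).1
      · exact (hmem j).2
  rw [hset, Nat.card_congr (Equiv.ofInjective Φ hinj).symm]
  simp

end Cfsg.Agent.S0951
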