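import Cfsg.Statements.S0955
import Cfsg.Agent.Lib.CharBlockFirst
import Cfsg.Agent.Lib.PCore

set_option autoImplicit false
set_option linter.style.haveILetI false
set_option linter.unusedVariables false
open Cfsg

namespace Cfsg.Agent.S0955

/-- Let D be a defect group of a block of the finite group G relative to a maximal ideal M of the algebraic integers containing the prime p. Then D is the largest normal p-subgroup of its own normalizer: O_p(N_G(D)) = D. -/
theorem result {G : Type*} [Group G] [Finite G] (p : ℕ) [Fact p.Prime] (M : Ideal Cfsg.AlgInt) (hM : Cfsg.IsPModular p M) (B : Set (Cfsg.IrrCharacter G)) (hB : Cfsg.IsPBlock M B) (D : Subgroup G) (hD : Cfsg.IsDefectGroup p M B D) : (Cfsg.pCore p (Subgroup.normalizer (D : Set G))).map (Subgroup.normalizer (D : Set G)).subtype = D := by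
  classical
  cases nonempty_fintype G
  letI : Fintype (Subgroup.normalizer (D : Set G)) := Fintype.ofFinite _
  have hDp : IsPGroup p D := by
    obtain ⟨g, -, S, rfl⟩ := hD
    exact Cfsg.Agent.Lib.CharBlockMinMax.isPGroup_sylow_map S
  obtain ⟨b, hb, hbD, -⟩ := Cfsg.Agent.Lib.CharBlockFirst.firstMain_exists hM D hDp hB hD
  have h1 : Cfsg.pCore p (Subgroup.normalizer (D : Set G)) ≤ D.subgroupOf (Subgroup.normalizer (D : Set G)) := by
    haveI := Cfsg.Agent.Lib.PCore.pCore_normal (p := p) (G := Subgroup.normalizer (D : Set G))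
    exact Cfsg.Agent.Lib.CharBlockPSolv.normal_le_defect hM hb hbD (Cfsg.Agent.Lib.PCore.isPGroup_pCore _ _)
  have h2 : D.subgroupOf (Subgroup.normalizer (D : Set G)) ≤ Cfsg.pCore p (Subgroup.normalizer (D : Set G)) := by
    haveI hn : (D.subgroupOf (Subgroup.normalizer (D : Set G))).Normal := Subgroup.normal_in_normalizer
    exact Cfsg.Agent.Lib.PCore.le_pCore hn (Cfsg.Agent.Lib.CharBlockFirst.isPGroup_subgroupOf_normalizer D hDp)
  rw [le_antisymm h1 h2]
  exact Cfsg.Agent.Lib.CharBlockFirst.map_subgroupOf_normalizer D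

end Cfsg.Agent.S0955
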