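import Cfsg.Statements.S0957
import Cfsg.Agent.Lib.SylowCount
-- import your own Cfsg.Agent.* helpers here

set_option autoImplicit false
set_option linter.all false
open Cfsg

namespace Cfsg.Agent.S0957

/-- Let P be a Sylow p-subgroup of the finite group G, let g, h ∈ G and let p ^ d be the order of a Sylow p-subgroup of the centralizer of g. Then the number of pairs (y, z) with y conjugate to g, z conjugate to h and z * y⁻¹ ∈ P is divisible by the order of P divided by p ^ d. -/
theorem result {G : Type*} [Group G] [Finite G] (p : ℕ) [Fact p.Prime] (P : Sylow p G) (g h : G) (S : Sylow p (Subgroup.centralizer ({g} : Set G))) : Nat.card P / Nat.card S ∣ Nat.card {yz : G × G // IsConj g yz.1 ∧ IsConj h yz.2 ∧ yz.2 * yz.1⁻¹ ∈ (P : Subgroup G)} := by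
  classical
  let X := {yz : G × G // IsConj g yz.1 ∧ IsConj h yz.2 ∧ yz.2 * yz.1⁻¹ ∈ (P : Subgroup G)}
  have hconj : ∀ (u : (P : Subgroup G)) (s : X), IsConj g ((u : G) * s.1.1 * (u : G)⁻¹) ∧ IsConj h ((u : G) * s.1.2 * (u : G)⁻¹) ∧ ((u : G) * s.1.2 * (u : G)⁻¹) * ((u : G) * s.1.1 * (u : G)⁻¹)⁻¹ ∈ (P : Subgroup G) := by
    intro u s
    refine ⟨s.2.1.trans (isConj_iff.2 ⟨u, rfl⟩), s.2.2.1.trans (isConj_iff.2 ⟨u, rfl⟩), ?_⟩
    have h1 : ((u : G) * s.1.2 * (u : G)⁻¹) * ((u : G) * s.1.1 * (u : G)⁻¹)⁻¹ = (u : G) * (s.1.2 * s.1.1⁻¹) * (u : G)⁻¹ := by group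
    rw [h1]
    exact (P : Subgroup G).mul_mem ((P : Subgroup G).mul_mem u.2 s.2.2.2) ((P : Subgroup G).inv_mem u.2)
  letI : MulAction (P : Subgroup G) X :=
    { smul := fun u s => ⟨((u : G) * s.1.1 * (u : G)⁻¹, (u : G) * s.1.2 * (u : G)⁻¹), hconj u s⟩
      one_smul := fun s => by
        apply Subtype.ext; apply Prod.ext <;> simp [HSMul.hSMul]
      mul_smul := fun a b s => by
        apply Subtype.ext; apply Prod.ext <;> simp [HSMul.hSMul, mul_assoc] }
  apply Cfsg.Agent.Lib.SylowCount.dvd_card_of_dvd_orbits (H := (P : Subgroup G))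
  intro s
  have h1 := Cfsg.Agent.Lib.SylowCount.card_orbit_mul_card_stabilizer (H := (P : Subgroup G)) s
  -- the stabilizer embeds in the centralizer of `y`
  have hSP : Nat.card S ∣ Nat.card P :=
    Cfsg.Agent.Lib.SylowCount.card_sylow_dvd_of_injective (Subgroup.centralizer ({g} : Set G)).subtype (Subgroup.subtype_injective _) S P
  let K := MulAction.stabilizer (P : Subgroup G) s
  have hKp : IsPGroup p K := (P.isPGroup').to_subgroup K
  let f : K →* Subgroup.centralizer ({s.1.1} : Set G) :=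
    MonoidHom.codRestrict ((P : Subgroup G).subtype.comp K.subtype) _ (by
      intro u
      rw [Subgroup.mem_centralizer_singleton_iff]
      have hu : u.1 • s = s := u.2
      have h2 : (u.1 : G) * s.1.1 * (u.1 : G)⁻¹ = s.1.1 := congrArg (fun t : X => t.1.1) hu
      show (u.1 : G) * s.1.1 = s.1.1 * (u.1 : G)
      conv_rhs => rw [← h2]
      group)
  have hf : Function.Injective f := by
    intro a b hab
    have := congrArg Subtype.val hab
    exact Subtype.ext (Subtype.ext this)
  have hK1 : Nat.card K ∣ Nat.card (Subgroup.centralizer ({s.1.1} : Set G)) :=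
    Subgroup.card_dvd_of_injective f hf
  rw [← Cfsg.Agent.Lib.SylowCount.card_centralizer_eq_of_isConj s.2.1] at hK1
  have hKS : Nat.card K ∣ Nat.card S := Cfsg.Agent.Lib.SylowCount.card_dvd_sylow_of_dvd hKp hK1 S
  obtain ⟨m, hm⟩ := hSP
  obtain ⟨r, hr⟩ := hKS
  have hSpos : 0 < Nat.card S := Nat.card_pos
  have hKpos : 0 < Nat.card K := Nat.card_pos
  rw [hm, Nat.mul_div_cancel_left _ hSpos]
  refine ⟨r, ?_⟩
  apply Nat.eq_of_mul_eq_mul_right hKpos
  calc _ = Nat.card P := h1
    _ = _ := by rw [hm, hr]; ring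

end Cfsg.Agent.S0957
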