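import Cfsg.Statements.S0964
import Cfsg.Agent.Lib.CharBlockNormal

set_option autoImplicit false
set_option linter.style.haveILetI false
set_option linter.unusedVariables false
open Cfsg

namespace Cfsg.Agent.S0964

/-- Let N be a normal subgroup of the finite group G, B a block of G and b a block of N relative to a maximal ideal M of the algebraic integers containing the prime p. Suppose some χ ∈ B has a constituent θ ∈ b on restriction to N. Then for every χ' ∈ B and every constituent ψ of the restriction of χ' to N there are g ∈ G and θ' ∈ b with ψ n = θ' (g n g⁻¹) for all n ∈ N. -/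
theorem result {G : Type*} [Group G] [Fintype G] (p : ℕ) [Fact p.Prime] (M : Ideal Cfsg.AlgInt) (hM : Cfsg.IsPModular p M) (N : Subgroup G) [hN : N.Normal] [Fintype N] (B : Set (Cfsg.IrrCharacter G)) (hB : Cfsg.IsPBlock M B) (b : Set (Cfsg.IrrCharacter N)) (hb : Cfsg.IsPBlock M b) (χ : Cfsg.IrrCharacter G) (hχ : χ ∈ B) (θ : Cfsg.IrrCharacter N) (hθ : θ ∈ b) (hcon : Cfsg.classInner (fun n : N => (χ : G → ℂ) n) (θ : N → ℂ) ≠ 0) (χ' : Cfsg.IrrCharacter G) (hχ' : χ' ∈ B) (ψ : Cfsg.IrrCharacter N) (hψ : Cfsg.classInner (fun n : N => (χ' : G → ℂ) n) (ψ : N → ℂ) ≠ 0) : ∃ g : G, ∃ θ' ∈ b, ∀ n : N, (ψ : N → ℂ) n = (θ' : N → ℂ) ⟨g * n * g⁻¹, hN.conj_mem n n.2 g⟩ := by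
  have hb' := Cfsg.Agent.Lib.CharBlockConv.blockClosed_of_isPBlock hM hb
  have hs : Cfsg.SameBlock M (χ : G → ℂ) (χ' : G → ℂ) := by
    have := Cfsg.Agent.Lib.CharBlockConv.blockOf_eq_of_mem hM hB hχ
    rw [this] at hχ'
    exact hχ'
  obtain ⟨g, θ', hθ', h⟩ := Cfsg.Agent.Lib.CharBlockNormal.mem_orbit_of_sameBlock hM hb' χ.2 χ'.2 hs (θ' := ψ) hθ hcon hψ
  refine ⟨g, θ', hθ', fun n => ?_⟩
  rw [h]
  rfl

end Cfsg.Agent.S0964
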