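import Cfsg.Statements.S0966
import Cfsg.Agent.Lib.CharBlockNormal

set_option autoImplicit false
set_option linter.style.haveILetI false
set_option linter.unusedVariables false
open Cfsg

namespace Cfsg.Agent.S0966

/-- Let N be a normal subgroup of p-power index in the finite group G and b a block of N relative to a maximal ideal M of the algebraic integers containing p. Then there is exactly one block B of G containing a character whose restriction to N has a constituent in b. -/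
theorem result {G : Type*} [Group G] [Fintype G] (p : ℕ) [Fact p.Prime] (M : Ideal Cfsg.AlgInt) (hM : Cfsg.IsPModular p M) (N : Subgroup G) [N.Normal] [Fintype N] (hidx : ∃ k : ℕ, N.index = p ^ k) (b : Set (Cfsg.IrrCharacter N)) (hb : Cfsg.IsPBlock M b) : ∃! B : Set (Cfsg.IrrCharacter G), Cfsg.IsPBlock M B ∧ ∃ χ ∈ B, ∃ θ ∈ b, Cfsg.classInner (fun n : N => (χ : G → ℂ) n) (θ : N → ℂ) ≠ 0 := by
  obtain ⟨θ, hθ⟩ := Cfsg.Agent.Lib.CharBlockDefect.block_nonempty hM hb
  obtain ⟨χ₀, hχ₀⟩ := Cfsg.Agent.Lib.CharBlockNormal.exists_cover θ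
  refine ⟨Cfsg.blockOf M (χ₀ : G → ℂ), ⟨⟨χ₀, rfl⟩, χ₀, Cfsg.Agent.Lib.CharBlockConv.mem_blockOf_self hM χ₀, θ, hθ, hχ₀⟩, ?_⟩
  rintro B ⟨hB, χ, hχ, θ', hθ', hc⟩
  rw [Cfsg.Agent.Lib.CharBlockConv.blockOf_eq_of_mem hM hB hχ]
  have h2 : Cfsg.SameBlock M (θ' : N → ℂ) (θ : N → ℂ) := by
    have := Cfsg.Agent.Lib.CharBlockConv.blockOf_eq_of_mem hM hb hθ'
    rw [this] at hθ
    exact hθ
  have h3 := Cfsg.Agent.Lib.CharBlockNormal.sameBlock_of_cover hM hidx θ'.2 θ.2 h2 hc hχ₀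
  exact (Cfsg.Agent.Lib.CharBlockConv.blockOf_eq_iff hM).2 (Cfsg.Agent.Lib.CharBlockConv.SameBlock.symm h3) |> fun h => h.symm ▸ rfl

end Cfsg.Agent.S0966
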