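import Cfsg.Statements.S0985
import Cfsg.Agent.Lib.SylowCount
-- import your own Cfsg.Agent.* helpers here

set_option autoImplicit false
set_option linter.all false
open Cfsg

namespace Cfsg.Agent.S0985

/-- If the number of Sylow p-subgroups of a finite group is not congruent to 1 modulo p^k, then there are two distinct Sylow p-subgroups P and R such that the index of P ∩ R in P is at most p^(k-1). -/
theorem result {G : Type*} [Group G] [Finite G] (p k : ℕ) [Fact p.Prime] (h : ¬ Nat.card (Sylow p G) ≡ 1 [MOD p ^ k]) : ∃ P R : Sylow p G, P ≠ R ∧ ((R : Subgroup G).subgroupOf (P : Subgroup G)).index ≤ p ^ (k - 1) := by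
  classical
  haveI : Finite (Sylow p G) := inferInstance
  by_contra hcon
  push Not at hcon
  obtain ⟨P⟩ : Nonempty (Sylow p G) := inferInstance
  apply h
  rcases Nat.eq_zero_or_pos k with rfl | hk
  · simp [Nat.ModEq, Nat.mod_one]
  -- P acts on the Sylow subgroups different from P
  have hP : IsPGroup p (P : Subgroup G) := P.isPGroup'
  let X := {R : Sylow p G // R ≠ P}
  have hX : ∀ (u : (P : Subgroup G)) (R : X), ((u : G) • R.1) ≠ P := by
    intro u R hu
    apply R.2
    have : (u : G) • P = P := by
      rw [Sylow.smul_eq_iff_mem_normalizer]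
      exact Subgroup.le_normalizer u.2
    calc R.1 = (u : G)⁻¹ • ((u : G) • R.1) := by rw [inv_smul_smul]
      _ = (u : G)⁻¹ • P := by rw [hu]
      _ = (u : G)⁻¹ • ((u : G) • P) := by rw [this]
      _ = P := by rw [inv_smul_smul]
  letI : MulAction (P : Subgroup G) X :=
    { smul := fun u R => ⟨(u : G) • R.1, hX u R⟩
      one_smul := fun R => by
        apply Subtype.ext
        show ((1 : G)) • R.1 = R.1
        simp
      mul_smul := fun a b R => by
        apply Subtype.ext
        show ((a : G) * (b : G)) • R.1 = (a : G) • ((b : G) • R.1)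
        rw [mul_smul] }
  have hdvd : p ^ k ∣ Nat.card X := by
    apply Cfsg.Agent.Lib.SylowCount.dvd_card_of_dvd_orbits (H := (P : Subgroup G))
    intro R
    -- the stabilizer of R in P is P ∩ R
    have hstab : MulAction.stabilizer (P : Subgroup G) R = (R.1 : Subgroup G).subgroupOf (P : Subgroup G) := by
      ext u
      rw [MulAction.mem_stabilizer_iff, Subgroup.mem_subgroupOf]
      constructor
      · intro hu
        have h1 : (u : G) • R.1 = R.1 := congrArg Subtype.val hu
        have h2 := Sylow.smul_eq_iff_mem_normalizer.1 h1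
        have h3 := (hP.inf_normalizer_sylow R.1).le ⟨u.2, h2⟩
        exact h3.2
      · intro hu
        apply Subtype.ext
        show (u : G) • R.1 = R.1
        exact Sylow.smul_eq_iff_mem_normalizer.2 (Subgroup.le_normalizer hu)
    have hidx : Nat.card (MulAction.orbit (P : Subgroup G) R) = ((R.1 : Subgroup G).subgroupOf (P : Subgroup G)).index := by
      rw [← hstab, MulAction.index_stabilizer, Nat.card_coe_set_eq]
    rw [hidx]
    have hne := hcon P R.1 R.2.symm
    obtain ⟨m, hm⟩ := hP.index ((R.1 : Subgroup G).subgroupOf (P : Subgroup G))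
    rw [hm] at hne ⊢
    have hpp := (Fact.out : p.Prime).one_lt
    have : k - 1 < m := (Nat.pow_lt_pow_iff_right hpp).1 hne
    exact pow_dvd_pow p (by omega)
  have hcard : Nat.card (Sylow p G) = Nat.card X + 1 := by
    classical
    haveI := Fintype.ofFinite (Sylow p G)
    rw [Nat.card_eq_fintype_card, Nat.card_eq_fintype_card, Fintype.card_subtype_compl]
    have : Fintype.card {x // x = P} = 1 := by simp
    have hle : 1 ≤ Fintype.card (Sylow p G) := Fintype.card_pos
    omega
  obtain ⟨q, hq⟩ := hdvd
  rw [hcard, hq]
  simp [Nat.ModEq, Nat.add_mod]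

end Cfsg.Agent.S0985
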