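import Cfsg.Statements.S0986
import Cfsg.Agent.Lib.SylowCount
-- import your own Cfsg.Agent.* helpers here

set_option autoImplicit false
set_option linter.all false
open Cfsg

namespace Cfsg.Agent.S0986

/-- Let P and Q be distinct Sylow p-subgroups of a finite group G chosen so that the order of P ∩ Q is as large as possible among intersections of two distinct Sylow p-subgroups, and let N be the normalizer of P ∩ Q. Then N has more than one Sylow p-subgroup, any two distinct Sylow p-subgroups of N intersect exactly in P ∩ Q, and each Sylow p-subgroup of N lies in exactly one Sylow p-subgroup of G. -/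
theorem result {G : Type*} [Group G] [Finite G] (p : ℕ) [Fact p.Prime] (P Q : Sylow p G) (hPQ : P ≠ Q) (hmax : ∀ P' Q' : Sylow p G, P' ≠ Q' → Nat.card ↥((P' : Subgroup G) ⊓ (Q' : Subgroup G)) ≤ Nat.card ↥((P : Subgroup G) ⊓ (Q : Subgroup G))) : 1 < Nat.card (Sylow p ↥(Subgroup.normalizer (((P : Subgroup G) ⊓ (Q : Subgroup G) : Subgroup G) : Set G))) ∧ (∀ S T : Sylow p ↥(Subgroup.normalizer (((P : Subgroup G) ⊓ (Q : Subgroup G) : Subgroup G) : Set G)), S ≠ T → (S : Subgroup _) ⊓ (T : Subgroup _) = ((P : Subgroup G) ⊓ (Q : Subgroup G)).subgroupOf (Subgroup.normalizer (((P : Subgroup G) ⊓ (Q : Subgroup G) : Subgroup G) : Set G))) ∧ ∀ S : Sylow p ↥(Subgroup.normalizer (((P : Subgroup G) ⊓ (Q : Subgroup G) : Subgroup G) : Set G)), ∃! T : Sylow p G, (S : Subgroup _).map (Subgroup.normalizer (((P : Subgroup G) ⊓ (Q : Subgroup G) : Subgroup G) : Set G)).subtype ≤ (T : Subgroup G) := by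
  classical
  haveI : Finite (Sylow p G) := inferInstance
  set D : Subgroup G := (P : Subgroup G) ⊓ (Q : Subgroup G) with hD
  set N : Subgroup G := Subgroup.normalizer (D : Set G) with hN
  haveI hDnormal : (D.subgroupOf N).Normal := Subgroup.normal_in_normalizer
  have hDp : IsPGroup p D := (P.isPGroup').to_le inf_le_left
  -- uniqueness of Sylow above something bigger than D
  have uniq : ∀ U : Subgroup G, D < U → ∀ T T' : Sylow p G, U ≤ (T : Subgroup G) → U ≤ (T' : Subgroup G) → T = T' := by
    intro U hU T T' hT hT'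
    by_contra hne
    have h1 := hmax T T' hne
    have h2 : Nat.card U ≤ Nat.card ↥((T : Subgroup G) ⊓ (T' : Subgroup G)) := Subgroup.card_le_of_le (le_inf hT hT')
    have h3 : D = U := Subgroup.eq_of_le_of_card_ge hU.le (h2.trans h1)
    exact absurd h3 hU.ne
  have hDP : D < (P : Subgroup G) := by
    refine lt_of_le_of_ne inf_le_left ?_
    intro h
    have : (P : Subgroup G) ≤ (Q : Subgroup G) := by rw [← h]; exact inf_le_right
    apply hPQ
    have h2 := P.is_maximal' (Q.isPGroup') this
    exact Sylow.ext (by rw [h2])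
  have hDQ : D < (Q : Subgroup G) := by
    refine lt_of_le_of_ne inf_le_right ?_
    intro h
    have : (Q : Subgroup G) ≤ (P : Subgroup G) := by rw [← h]; exact inf_le_left
    apply hPQ
    have h2 := Q.is_maximal' (P.isPGroup') this
    exact Sylow.ext (by rw [h2])
  have hgrow : ∀ R : Sylow p G, D < (R : Subgroup G) → D < (R : Subgroup G) ⊓ N := by
    intro R hR
    obtain ⟨x, hxR, hxD, hxN⟩ := Cfsg.Agent.Lib.SylowCount.exists_mem_normalizer_of_lt (R.isPGroup') hR
    refine lt_of_le_of_ne (le_inf hR.le Subgroup.le_normalizer) ?_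
    intro h
    exact hxD (by rw [h]; exact ⟨hxR, hxN⟩)
  have hDN : D ≤ N := Subgroup.le_normalizer
  -- data about Sylow subgroups of N
  have hSmap : ∀ S : Sylow p N, IsPGroup p ↥((S : Subgroup N).map N.subtype) := fun S => (S.isPGroup').map _
  have hDS : ∀ S : Sylow p N, D ≤ (S : Subgroup N).map N.subtype := by
    intro S x hx
    have h1 : D.subgroupOf N ≤ (S : Subgroup N) := IsPGroup.le_sylow_of_normal (N := D.subgroupOf N) hDp.comap_subtype S
    exact ⟨⟨x, hDN hx⟩, h1 (by rw [Subgroup.mem_subgroupOf]; exact hx), rfl⟩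
  have hcardSN : ∀ (R : Sylow p G) (S : Sylow p N), D < (R : Subgroup G) → Nat.card D < Nat.card S := by
    intro R S hR
    have h1 := hgrow R hR
    have h2 : IsPGroup p ↥(((R : Subgroup G) ⊓ N).subgroupOf N) := ((R.isPGroup').to_le inf_le_left).comap_subtype
    obtain ⟨S', hS'⟩ := h2.exists_le_sylow
    have h3 : Nat.card S' = Nat.card S := Cfsg.Agent.Lib.SylowCount.card_sylow_eq S' S
    have h4 : Nat.card ↥(((R : Subgroup G) ⊓ N).subgroupOf N) ≤ Nat.card S' := Subgroup.card_le_of_le hS'
    have h5 : Nat.card ↥(((R : Subgroup G) ⊓ N).subgroupOf N) = Nat.card ↥((R : Subgroup G) ⊓ N) :=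
      Nat.card_congr (Subgroup.subgroupOfEquivOfLe inf_le_right).toEquiv
    have h6 : Nat.card D < Nat.card ↥((R : Subgroup G) ⊓ N) := by
      by_contra hcon
      have := Subgroup.eq_of_le_of_card_ge h1.le (not_lt.1 hcon)
      exact h1.ne this
    omega
  have hcardmap : ∀ S : Sylow p N, Nat.card ↥((S : Subgroup N).map N.subtype) = Nat.card S := fun S =>
    Nat.card_congr (Subgroup.equivMapOfInjective _ _ (Subgroup.subtype_injective _)).symm.toEquiv
  have hlt : ∀ S : Sylow p N, D < (S : Subgroup N).map N.subtype := by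
    intro S
    refine lt_of_le_of_ne (hDS S) ?_
    intro h
    have h1 := hcardSN P S hDP
    have h2 := hcardmap S
    rw [← h] at h2
    omega
  have hex : ∀ S : Sylow p N, ∃ T : Sylow p G, (S : Subgroup N).map N.subtype ≤ (T : Subgroup G) := fun S => (hSmap S).exists_le_sylow
  -- the Sylow subgroups of N containing P ∩ N and Q ∩ N differ
  have hP1 : IsPGroup p ↥(((P : Subgroup G) ⊓ N).subgroupOf N) := ((P.isPGroup').to_le inf_le_left).comap_subtype
  have hQ1 : IsPGroup p ↥(((Q : Subgroup G) ⊓ N).subgroupOf N) := ((Q.isPGroup').to_le inf_le_left).comap_subtype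
  obtain ⟨SP, hSP⟩ := hP1.exists_le_sylow
  obtain ⟨SQ, hSQ⟩ := hQ1.exists_le_sylow
  have hmapSP : (P : Subgroup G) ⊓ N ≤ (SP : Subgroup N).map N.subtype := by
    intro x hx
    exact ⟨⟨x, hx.2⟩, hSP (by rw [Subgroup.mem_subgroupOf]; exact hx), rfl⟩
  have hmapSQ : (Q : Subgroup G) ⊓ N ≤ (SQ : Subgroup N).map N.subtype := by
    intro x hx
    exact ⟨⟨x, hx.2⟩, hSQ (by rw [Subgroup.mem_subgroupOf]; exact hx), rfl⟩
  have hneSN : SP ≠ SQ := by
    intro h
    obtain ⟨T, hT⟩ := hex SP
    have h1 : P = T := uniq _ (hgrow P hDP) P T inf_le_left (hmapSP.trans hT)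
    have h2 : Q = T := uniq _ (hgrow Q hDQ) Q T inf_le_left (by rw [h] at hT; exact hmapSQ.trans hT)
    exact hPQ (h1.trans h2.symm)
  refine ⟨Finite.one_lt_card_iff_nontrivial.2 ⟨SP, SQ, hneSN⟩, ?_, ?_⟩
  · intro S T hST
    obtain ⟨W, hW⟩ := hex S
    obtain ⟨W', hW'⟩ := hex T
    have hWW' : W ≠ W' := by
      intro hh
      subst hh
      have hp : IsPGroup p ↥((W : Subgroup G).subgroupOf N) := (W.isPGroup').comap_subtype
      have hs : (S : Subgroup N) ≤ (W : Subgroup G).subgroupOf N := by
        intro x hx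
        rw [Subgroup.mem_subgroupOf]
        exact hW ⟨x, hx, rfl⟩
      have ht : (T : Subgroup N) ≤ (W : Subgroup G).subgroupOf N := by
        intro x hx
        rw [Subgroup.mem_subgroupOf]
        exact hW' ⟨x, hx, rfl⟩
      have h1 := S.is_maximal' hp hs
      have h2 := T.is_maximal' hp ht
      exact hST (Sylow.ext (h1.symm.trans h2))
    have h1 := hmax W W' hWW'
    have hle : D.subgroupOf N ≤ (S : Subgroup N) ⊓ (T : Subgroup N) := by
      intro x hx
      rw [Subgroup.mem_subgroupOf] at hx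
      constructor
      · obtain ⟨y, hy, hyx⟩ := hDS S hx
        have : y = x := Subtype.ext hyx
        rwa [← this]
      · obtain ⟨y, hy, hyx⟩ := hDS T hx
        have : y = x := Subtype.ext hyx
        rwa [← this]
    symm
    apply Subgroup.eq_of_le_of_card_ge hle
    have h5 : Nat.card ↥(D.subgroupOf N) = Nat.card D :=
      Nat.card_congr (Subgroup.subgroupOfEquivOfLe hDN).toEquiv
    rw [h5]
    refine le_trans ?_ h1
    -- map S ⊓ T injectively to W ⊓ W'
    let f : ↥((S : Subgroup N) ⊓ (T : Subgroup N)) →* ↥((W : Subgroup G) ⊓ (W' : Subgroup G)) :=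
      MonoidHom.codRestrict (N.subtype.comp ((S : Subgroup N) ⊓ (T : Subgroup N)).subtype) _ (by
        intro x
        exact ⟨hW ⟨x.1, x.2.1, rfl⟩, hW' ⟨x.1, x.2.2, rfl⟩⟩)
    have hf : Function.Injective f := by
      intro a b hab
      have := congrArg Subtype.val hab
      exact Subtype.ext (Subtype.ext this)
    exact Nat.card_le_card_of_injective f hf
  · intro S
    obtain ⟨T, hT⟩ := hex S
    exact ⟨T, hT, fun T' hT' => uniq _ (hlt S) T' T hT' hT⟩

end Cfsg.Agent.S0986
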