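import Cfsg.Statements.S0987
import Cfsg.Agent.Lib.SylowCount
-- import your own Cfsg.Agent.* helpers here

set_option autoImplicit false
set_option linter.all false
open Cfsg

namespace Cfsg.Agent.S0987

/-- If a finite group has order pqr for primes p < q < r, then its Sylow r-subgroups are normal. -/
theorem result {G : Type*} [Group G] [Finite G] (p q r : ℕ) (hp : p.Prime) (hq : q.Prime) [Fact r.Prime] (hpq : p < q) (hqr : q < r) (hG : Nat.card G = p * q * r) (R : Sylow r G) : (R : Subgroup G).Normal := by
  classical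
  open Cfsg.Agent.Lib.SylowCount in
  haveI hpF : Fact p.Prime := ⟨hp⟩
  haveI hqF : Fact q.Prime := ⟨hq⟩
  have hr : r.Prime := Fact.out
  have hrnd : ¬ r ∣ p * q := by
    intro h
    rcases (Nat.Prime.dvd_mul hr).1 h with h | h
    · exact absurd (Nat.le_of_dvd hp.pos h) (by omega)
    · exact absurd (Nat.le_of_dvd hq.pos h) (by omega)
  have hqnd : ¬ q ∣ p * r := by
    intro h
    rcases (Nat.Prime.dvd_mul hq).1 h with h | h
    · exact absurd (Nat.le_of_dvd hp.pos h) (by omega)
    · have := (Nat.prime_dvd_prime_iff_eq hq hr).1 h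
      omega
  have hfr : Nat.card G = r ^ 1 * (p * q) := by rw [hG]; ring
  have hfq : Nat.card G = q ^ 1 * (p * r) := by rw [hG]; ring
  have hcR : ∀ S : Sylow r G, Nat.card (S : Subgroup G) = r := fun S => by
    rw [Cfsg.Agent.Lib.SylowCount.card_sylow_of_factor S 1 _ hfr hrnd, pow_one]
  have hcQ : ∀ S : Sylow q G, Nat.card (S : Subgroup G) = q := fun S => by
    rw [Cfsg.Agent.Lib.SylowCount.card_sylow_of_factor S 1 _ hfq hqnd, pow_one]
  by_contra hnorm
  -- number of Sylow r-subgroups
  have h1 := Cfsg.Agent.Lib.SylowCount.card_sylow_dvd_cofactor (G := G) (p := r) 1 _ hfr hrnd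
  have h2 := Cfsg.Agent.Lib.SylowCount.card_sylow_mod (G := G) r
  have hne1 : Nat.card (Sylow r G) ≠ 1 := by
    intro h
    haveI := (Nat.card_eq_one_iff_unique.1 h).1
    exact hnorm (Sylow.normal_of_subsingleton R)
  have hnr : Nat.card (Sylow r G) = p * q := by
    obtain ⟨a, b, ha, hb, hab⟩ := (Nat.dvd_mul).1 h1
    have ha' := (Nat.dvd_prime hp).1 ha
    have hb' := (Nat.dvd_prime hq).1 hb
    rcases ha' with rfl | rfl <;> rcases hb' with rfl | rfl
    · omega
    · rw [one_mul] at hab
      rw [← hab, Nat.mod_eq_of_lt hqr] at h2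
      omega
    · rw [mul_one] at hab
      rw [← hab, Nat.mod_eq_of_lt (hpq.trans hqr)] at h2
      omega
    · exact hab.symm
  have hcr := Cfsg.Agent.Lib.SylowCount.card_orderOf_eq_of_sylow_prime hcR
  rw [hnr] at hcr
  have hcq := Cfsg.Agent.Lib.SylowCount.card_orderOf_eq_of_sylow_prime hcQ
  have hp2 := hp.two_le
  have hnormalizerR : Nat.card (Subgroup.normalizer ((R : Subgroup G) : Set G)) = r :=
    Cfsg.Agent.Lib.SylowCount.card_normalizer_of_card_sylow R (p * q) r hnr hG (Nat.mul_pos hp.pos hq.pos)
  by_cases hq1 : Nat.card (Sylow q G) = 1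
  · -- Q is normal
    obtain ⟨Q⟩ : Nonempty (Sylow q G) := inferInstance
    haveI := (Nat.card_eq_one_iff_unique.1 hq1).1
    haveI hQn : (Q : Subgroup G).Normal := Sylow.normal_of_subsingleton Q
    -- R acts trivially on Q
    have hRQ : ∀ x ∈ (R : Subgroup G), ∀ y ∈ (Q : Subgroup G), y * x = x * y := by
      intro x hx y hy
      by_cases hx1 : x = 1
      · simp [hx1]
      have hox : orderOf x = r := Cfsg.Agent.Lib.SylowCount.orderOf_of_mem_card_prime _ (hcR R) hx hx1
      have hd1 : orderOf (MulAut.conjNormal x : MulAut (Q : Subgroup G)) ∣ r := by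
        rw [← hox]; exact orderOf_map_dvd _ x
      have hd2 : orderOf (MulAut.conjNormal x : MulAut (Q : Subgroup G)) ∣ q - 1 := by
        rw [← Cfsg.Agent.Lib.SylowCount.card_mulAut_of_card_prime (hcQ Q)]
        exact orderOf_dvd_natCard _
      have hq1' : 0 < q - 1 := by have := hq.two_le; omega
      have hd3 : orderOf (MulAut.conjNormal x : MulAut (Q : Subgroup G)) = 1 := by
        rcases (Nat.dvd_prime hr).1 hd1 with h | h
        · exact h
        · rw [h] at hd2
          exact absurd (Nat.le_of_dvd hq1' hd2) (by omega)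
      have hd4 : (MulAut.conjNormal x : MulAut (Q : Subgroup G)) = 1 := orderOf_eq_one_iff.1 hd3
      have h5 := congrArg (fun φ : MulAut (Q : Subgroup G) => ((φ ⟨y, hy⟩ : (Q : Subgroup G)) : G)) hd4
      simp only [MulAut.conjNormal_apply, MulAut.one_apply] at h5
      calc y * x = (x * y * x⁻¹) * x := by rw [h5]
        _ = x * y := by group
    -- so Q ≤ N(R), so q ∣ r
    have hle : (Q : Subgroup G) ≤ Subgroup.normalizer ((R : Subgroup G) : Set G) := by
      intro y hy
      rw [Subgroup.mem_normalizer_iff]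
      intro h
      constructor
      · intro hh
        have e : y * h * y⁻¹ = h := by rw [hRQ h hh y hy]; group
        rw [e]; exact hh
      · intro hh
        have hh2 := hRQ _ hh (y⁻¹) ((Q : Subgroup G).inv_mem hy)
        have e : h = y⁻¹ * (y * h * y⁻¹) * y := by group
        have e2 : y⁻¹ * (y * h * y⁻¹) * y = y * h * y⁻¹ := by rw [hh2]; group
        convert hh using 1
        exact e.trans e2
    have hd := Subgroup.card_dvd_of_le hle
    rw [hcQ Q, hnormalizerR] at hd
    have := (Nat.prime_dvd_prime_iff_eq hq hr).1 hd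
    omega
  · -- counting
    have h3 := Cfsg.Agent.Lib.SylowCount.card_sylow_dvd_cofactor (G := G) (p := q) 1 _ hfq hqnd
    have h4 := Cfsg.Agent.Lib.SylowCount.card_sylow_mod (G := G) q
    have hnq : r ≤ Nat.card (Sylow q G) := by
      obtain ⟨a, b, ha, hb, hab⟩ := (Nat.dvd_mul).1 h3
      have ha' := (Nat.dvd_prime hp).1 ha
      have hb' := (Nat.dvd_prime hr).1 hb
      rcases ha' with rfl | rfl <;> rcases hb' with rfl | rfl
      · omega
      · omega
      · rw [mul_one] at hab
        rw [← hab, Nat.mod_eq_of_lt hpq] at h4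
        omega
      · rw [← hab]
        exact Nat.le_mul_of_pos_left _ hp.pos
    have hsum := Cfsg.Agent.Lib.SylowCount.sum_card_orderOf_le (G := G) {1, q, r}
    rw [Finset.sum_insert (by
        simp only [Finset.mem_insert, Finset.mem_singleton, not_or]
        exact ⟨by have := hq.two_le; omega, by have := hr.two_le; omega⟩),
      Finset.sum_insert (by simp only [Finset.mem_singleton]; omega), Finset.sum_singleton, hcr, hcq, hG] at hsum
    have h1c : 1 ≤ Nat.card {g : G // orderOf g = 1} := by
      haveI : Nonempty {g : G // orderOf g = 1} := ⟨⟨1, orderOf_one⟩⟩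
      exact Nat.card_pos
    have h6 : r * (q - 1) ≤ Nat.card (Sylow q G) * (q - 1) := Nat.mul_le_mul_right _ hnq
    have h7 : p * q * (r - 1) + r * p + 1 ≤ p * q * r := by
      have h8 : r * p ≤ r * (q - 1) := Nat.mul_le_mul_left _ (by omega)
      omega
    have h9 : p * q * (r - 1) + p * q = p * q * r := by
      obtain ⟨s, rfl⟩ : ∃ s, r = s + 1 := ⟨r - 1, by have := hr.two_le; omega⟩
      simp; ring
    have h10 : p * q < r * p + 1 := by
      nlinarith [hqr, hp.pos]
    omega

end Cfsg.Agent.S0987
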