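import Cfsg.Statements.S0988
import Cfsg.Agent.Lib.SylowCount
import Cfsg.Agent.Lib.CharBurnside
-- import your own Cfsg.Agent.* helpers here

set_option autoImplicit false
set_option linter.all false
open Cfsg

namespace Cfsg.Agent.S0988

/-- An automorphism of prime order `s > p` of a group of order `p²` forces `s = p + 1`. -/
theorem aut_order {P : Type*} [Group P] [Finite P] {p s : ℕ} (hp : p.Prime) [hsf : Fact s.Prime]
    (hcard : Nat.card P = p ^ 2) (hs : p < s) (φ : MulAut P) (hφ : orderOf φ = s) : s = p + 1 := by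
  classical
  have hsp : s.Prime := hsf.out
  let Φ : Subgroup (MulAut P) := Subgroup.zpowers φ
  have hΦ : IsPGroup s Φ := by
    refine IsPGroup.iff_card.2 ⟨1, ?_⟩
    rw [Nat.card_zpowers, hφ, pow_one]
  have hmod := hΦ.card_modEq_card_fixedPoints P
  let F : Subgroup P := (φ : P →* P).eqLocus (MonoidHom.id P)
  have hfix : Nat.card (MulAction.fixedPoints Φ P) = Nat.card F := by
    refine Nat.card_congr (Equiv.subtypeEquivRight fun a => ?_)
    constructor
    · intro h
      exact h ⟨φ, Subgroup.mem_zpowers φ⟩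
    · intro h g
      have hle : Φ ≤ MulAction.stabilizer (MulAut P) a := Subgroup.zpowers_le.2 h
      exact hle g.2
  rw [hfix, hcard] at hmod
  have hFdvd : Nat.card F ∣ p ^ 2 := hcard ▸ Subgroup.card_subgroup_dvd_card F
  obtain ⟨k, hk, hFk⟩ := (Nat.dvd_prime_pow hp).1 hFdvd
  obtain ⟨m, rfl⟩ : ∃ m, p = m + 1 := ⟨p - 1, (Nat.sub_add_cancel hp.pos).symm⟩
  have hm : 0 < m := by
    have := hp.two_le
    omega
  interval_cases k
  · rw [hFk, pow_zero] at hmod
    have h1 : s ∣ (m + 1) ^ 2 - 1 := (Nat.modEq_iff_dvd' (by nlinarith)).1 hmod.symm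
    have h2 : (m + 1) ^ 2 - 1 = m * (m + 2) := Nat.sub_eq_of_eq_add (by ring)
    rw [h2] at h1
    rcases hsp.dvd_mul.1 h1 with h | h
    · have := Nat.le_of_dvd hm h
      omega
    · have := Nat.le_of_dvd (by omega) h
      omega
  · rw [hFk, pow_one] at hmod
    have h1 : s ∣ (m + 1) ^ 2 - (m + 1) := (Nat.modEq_iff_dvd' (by nlinarith)).1 hmod.symm
    have h2 : (m + 1) ^ 2 - (m + 1) = (m + 1) * m := Nat.sub_eq_of_eq_add (by ring)
    rw [h2] at h1
    rcases hsp.dvd_mul.1 h1 with h | h
    · have := Nat.le_of_dvd (by omega) h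
      omega
    · have := Nat.le_of_dvd hm h
      omega
  · exfalso
    have hF : F = ⊤ := by
      apply Subgroup.eq_top_of_card_eq
      rw [hFk, hcard]
    have hφ1 : φ = 1 := by
      ext a
      have : a ∈ F := by rw [hF]; trivial
      exact this
    rw [hφ1, orderOf_one] at hφ
    exact hsp.one_lt.ne hφ

/-- A simple group of order `12 r`, `r ≠ 2, 3` prime, has `r = 5`. -/
theorem twelve_r {G : Type*} [Group G] [Finite G] [IsSimpleGroup G] (hG : ¬ IsMulCommutative G) {r : ℕ}
    [hrf : Fact r.Prime] (hr2 : r ≠ 2) (hr3 : r ≠ 3) (hc : Nat.card G = 12 * r) : r = 5 := by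
  have hr : r.Prime := hrf.out
  have hr12 : ¬ r ∣ 12 := by
    intro h
    have : r ∣ 2 ^ 2 * 3 := by simpa using h
    rcases hr.dvd_mul.1 this with h1 | h1
    · exact hr2 ((Nat.prime_dvd_prime_iff_eq hr Nat.prime_two).1 (hr.dvd_of_dvd_pow h1))
    · exact hr3 ((Nat.prime_dvd_prime_iff_eq hr Nat.prime_three).1 h1)
  have hc' : Nat.card G = r ^ 1 * 12 := by rw [hc]; ring
  have h1 := Cfsg.Agent.Lib.SylowCount.card_sylow_dvd_cofactor (G := G) (p := r) 1 12 hc' hr12
  have h2 := Cfsg.Agent.Lib.SylowCount.card_sylow_mod (G := G) r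
  have h3 := Cfsg.Agent.Lib.SylowCount.card_sylow_ne_one_of_simple (G := G) hG (p := r)
    (by rw [hc]; exact Dvd.intro_left _ rfl)
  have hr5 : 5 ≤ r := by
    have := hr.two_le
    by_contra hlt
    interval_cases r <;> simp_all <;> omega
  have hle := Nat.le_of_dvd (by norm_num) h1
  generalize hn : Nat.card (Sylow r G) = n at *
  have hn0 : n ≠ 0 := by
    intro h0
    rw [h0] at h2
    simp at h2
  have hdvd : n = 1 ∨ n = 2 ∨ n = 3 ∨ n = 4 ∨ n = 6 ∨ n = 12 := by
    interval_cases n <;> simp_all <;> omega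
  rcases hdvd with h | h | h | h | h | h
  · exact absurd h h3
  · subst h
    rw [Nat.mod_eq_of_lt (by omega)] at h2
    omega
  · subst h
    rw [Nat.mod_eq_of_lt (by omega)] at h2
    omega
  · subst h
    rw [Nat.mod_eq_of_lt (by omega)] at h2
    omega
  · subst h
    have h4 : r ∣ 5 := (Nat.modEq_iff_dvd' (by norm_num)).1 (show 1 ≡ 6 [MOD r] from by
      rw [Nat.ModEq, Nat.mod_eq_of_lt (by omega), h2])
    exact (Nat.prime_dvd_prime_iff_eq hr (by norm_num)).1 h4
  · subst h
    have h4 : r ∣ 11 := (Nat.modEq_iff_dvd' (by norm_num)).1 (show 1 ≡ 12 [MOD r] from by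
      rw [Nat.ModEq, Nat.mod_eq_of_lt (by omega), h2])
    have hr11 : r = 11 := (Nat.prime_dvd_prime_iff_eq hr (by norm_num)).1 h4
    subst hr11
    exfalso
    obtain ⟨R⟩ : Nonempty (Sylow 11 G) := inferInstance
    have hcR : Nat.card R = 11 := by
      have := Cfsg.Agent.Lib.SylowCount.card_sylow_of_factor R 1 12 hc' hr12
      simpa using this
    have hN := Cfsg.Agent.Lib.SylowCount.card_normalizer_of_card_sylow R 12 11 hn (by rw [hc]) (by norm_num)
    apply Cfsg.Agent.Lib.SylowCount.not_coprime_normalizer_of_simple hG R hcR (by rw [hc]; norm_num)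
    rw [hN]
    norm_num



/-- If a finite simple group has order p^2 * q * r with p, q and r prime, then its order is 60. -/
theorem result {G : Type*} [Group G] [Finite G] [IsSimpleGroup G] (p q r : ℕ) (hp : p.Prime) (hq : q.Prime) (hr : r.Prime) (hG : Nat.card G = p ^ 2 * q * r) : Nat.card G = 60 := by
  classical
  haveI hpf : Fact p.Prime := ⟨hp⟩
  haveI hqf : Fact q.Prime := ⟨hq⟩
  haveI hrf : Fact r.Prime := ⟨hr⟩
  have hnp : ¬ (Nat.card G).Prime := by
    rw [hG, mul_assoc]
    exact Nat.not_prime_mul (pow_ne_zero 2 hp.ne_zero |> fun h => by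
      have := hp.two_le
      nlinarith) (by
      have h1 := hq.two_le
      have h2 := hr.two_le
      nlinarith)
  have hG' := Cfsg.Agent.Lib.SylowCount.not_comm_of_not_prime hnp
  have hns : ¬ IsSolvable G := fun h => hG' ⟨⟨(IsSimpleGroup.comm_iff_isSolvable).2 h⟩⟩
  have hpq : p ≠ q := by
    rintro rfl
    exact hns (Cfsg.Agent.Lib.CharBurnside.solvable_two_prime p r hp hr _ G 3 1 rfl (by rw [hG]; ring))
  have hpr : p ≠ r := by
    rintro rfl
    exact hns (Cfsg.Agent.Lib.CharBurnside.solvable_two_prime p q hp hq _ G 3 1 rfl (by rw [hG]; ring))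
  have hqr : q ≠ r := by
    rintro rfl
    exact hns (Cfsg.Agent.Lib.CharBurnside.solvable_two_prime p q hp hq _ G 2 2 rfl (by rw [hG]; ring))
  have hprimes : ∀ s : ℕ, s.Prime → s ∣ Nat.card G → s = p ∨ s = q ∨ s = r := by
    intro s hs hd
    rw [hG] at hd
    rcases hs.dvd_mul.1 hd with h | h
    · rcases hs.dvd_mul.1 h with h | h
      · exact Or.inl ((Nat.prime_dvd_prime_iff_eq hs hp).1 (hs.dvd_of_dvd_pow h))
      · exact Or.inr (Or.inl ((Nat.prime_dvd_prime_iff_eq hs hq).1 h))
    · exact Or.inr (Or.inr ((Nat.prime_dvd_prime_iff_eq hs hr).1 h))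
  have hsmall : ∀ (l m : ℕ) [hl : Fact l.Prime], Nat.card G = l ^ 1 * m → ¬ l ∣ m →
      ∃ s : ℕ, s < l ∧ (s = p ∨ s = q ∨ s = r) := by
    intro l m hl hc hm
    obtain ⟨L⟩ : Nonempty (Sylow l G) := inferInstance
    have hcL : Nat.card L = l := by
      have := Cfsg.Agent.Lib.SylowCount.card_sylow_of_factor L 1 m hc hm
      simpa using this
    have hn := Cfsg.Agent.Lib.SylowCount.not_coprime_normalizer_of_simple hG' L hcL
      (by rw [hc, pow_one]; exact Nat.dvd_mul_right _ _)
    obtain ⟨s, hs, hs1, hs2⟩ := Nat.Prime.not_coprime_iff_dvd.1 hn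
    have hl1 : 0 < l - 1 := by
      have := hl.out.two_le
      omega
    have := Nat.le_of_dvd hl1 hs2
    have hlpos := hl.out.pos
    refine ⟨s, by omega, hprimes s hs (hs1.trans (Subgroup.card_subgroup_dvd_card _))⟩
  have hqm : ¬ q ∣ p ^ 2 * r := by
    intro h
    rcases hq.dvd_mul.1 h with h | h
    · exact hpq ((Nat.prime_dvd_prime_iff_eq hq hp).1 (hq.dvd_of_dvd_pow h)).symm
    · exact hqr ((Nat.prime_dvd_prime_iff_eq hq hr).1 h)
  have hrm : ¬ r ∣ p ^ 2 * q := by
    intro h
    rcases hr.dvd_mul.1 h with h | h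
    · exact hpr ((Nat.prime_dvd_prime_iff_eq hr hp).1 (hr.dvd_of_dvd_pow h)).symm
    · exact hqr ((Nat.prime_dvd_prime_iff_eq hr hq).1 h).symm
  have hpm : ¬ p ∣ q * r := by
    intro h
    rcases hp.dvd_mul.1 h with h | h
    · exact hpq ((Nat.prime_dvd_prime_iff_eq hp hq).1 h)
    · exact hpr ((Nat.prime_dvd_prime_iff_eq hp hr).1 h)
  have h1 := hsmall q (p ^ 2 * r) (by rw [hG]; ring) hqm
  have h2 := hsmall r (p ^ 2 * q) (by rw [hG]; ring) hrm
  have hpltq : p < q ∧ p < r := by
    obtain ⟨s₁, hs₁, h₁⟩ := h1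
    obtain ⟨s₂, hs₂, h₂⟩ := h2
    omega
  obtain ⟨hpq', hpr'⟩ := hpltq
  -- the Sylow `p`-subgroup
  obtain ⟨P⟩ : Nonempty (Sylow p G) := inferInstance
  have hcP : Nat.card (P : Subgroup G) = p ^ 2 :=
    Cfsg.Agent.Lib.SylowCount.card_sylow_of_factor P 2 (q * r) (by rw [hG]; ring) hpm
  have hcomm : IsMulCommutative (P : Subgroup G) := IsPGroup.isMulCommutative_of_card_eq_prime_sq hcP
  have hnc := Cfsg.Agent.Lib.SylowCount.not_normalizer_le_centralizer_of_simple hG' P
    (p := p) (by rw [hG]; exact ⟨p * q * r, by ring⟩)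
  let N := Subgroup.normalizer ((P : Subgroup G) : Set G)
  let f : N →* MulAut (P : Subgroup G) := (P : Subgroup G).normalizerMonoidHom
  have hker : f.ker = (Subgroup.centralizer ((P : Subgroup G) : Set G)).subgroupOf N :=
    Subgroup.normalizerMonoidHom_ker _
  have hE : Nat.card f.range ≠ 1 := by
    intro h
    rw [← Subgroup.index_ker, Subgroup.index_eq_one, hker] at h
    apply hnc
    intro x hx
    have : (⟨x, hx⟩ : N) ∈ (Subgroup.centralizer ((P : Subgroup G) : Set G)).subgroupOf N := by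
      rw [h]
      trivial
    exact this
  have hs := Nat.minFac_prime hE
  set s := (Nat.card f.range).minFac with hsdef
  haveI hsf : Fact s.Prime := ⟨hs⟩
  obtain ⟨φ, hφ⟩ := exists_prime_orderOf_dvd_card' s (Nat.minFac_dvd _)
  have hφ' : orderOf (φ : MulAut (P : Subgroup G)) = s := by
    rw [← hφ]
    exact Subgroup.orderOf_coe φ
  -- `s` divides `q r`
  have hPker : (P : Subgroup G).subgroupOf N ≤ f.ker := by
    rw [hker]
    intro x hx
    show (x : G) ∈ Subgroup.centralizer ((P : Subgroup G) : Set G)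
    rw [Subgroup.mem_centralizer_iff]
    intro y hy
    have := hcomm.is_comm.comm (⟨y, hy⟩ : (P : Subgroup G)) ⟨x, hx⟩
    exact congrArg Subtype.val this
  have hsd : s ∣ q * r := by
    have h3 : s ∣ ((P : Subgroup G).subgroupOf N).index := by
      refine (Nat.minFac_dvd _).trans ?_
      rw [← Subgroup.index_ker]
      exact Subgroup.index_dvd_of_le hPker
    have h4 := Subgroup.card_mul_index ((P : Subgroup G).subgroupOf N)
    have h5 : Nat.card ((P : Subgroup G).subgroupOf N) = p ^ 2 :=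
      (Nat.card_congr (Subgroup.subgroupOfEquivOfLe Subgroup.le_normalizer).toEquiv).trans hcP
    rw [h5] at h4
    have h6 : Nat.card N ∣ p ^ 2 * (q * r) := by
      have := Subgroup.card_subgroup_dvd_card N
      rw [hG] at this
      convert this using 1
      ring
    rw [← h4] at h6
    have h7 := Nat.dvd_of_mul_dvd_mul_left (pow_pos hp.pos 2) h6
    exact h3.trans h7
  have hsqr : s = q ∨ s = r := by
    rcases hs.dvd_mul.1 hsd with h | h
    · exact Or.inl ((Nat.prime_dvd_prime_iff_eq hs hq).1 h)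
    · exact Or.inr ((Nat.prime_dvd_prime_iff_eq hs hr).1 h)
  have hps : p < s := by
    rcases hsqr with h | h <;> rw [h] <;> assumption
  have hsp1 := aut_order hp hcP hps _ hφ'
  have hp2 : p = 2 := by
    rcases hp.eq_two_or_odd' with h | h
    · exact h
    · have h3 : Even s := by
        rw [hsp1]
        exact h.add_one
      have := (hs.even_iff).1 h3
      have h4 := hp.two_le
      omega
  have hs3 : s = 3 := by omega
  subst hp2
  rcases hsqr with h | h
  · have hq3 : q = 3 := by omega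
    subst hq3
    have := twelve_r hG' (r := r) (by omega) (by omega) (by rw [hG]; ring)
    rw [hG, this]
    norm_num
  · have hr3 : r = 3 := by omega
    subst hr3
    have := twelve_r hG' (r := q) (by omega) (by omega) (by rw [hG]; ring)
    rw [hG, this]
    norm_num

end Cfsg.Agent.S0988
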