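import Cfsg.Statements.S0989
import Mathlib.GroupTheory.Perm.Centralizer
import Mathlib.Data.Nat.Prime.Factorial

set_option autoImplicit false
open Cfsg

namespace Cfsg.Agent.S0989

/-- In the symmetric group on p or p + 1 letters, p a prime, the normalizer of a Sylow p-subgroup has order p * (p - 1). -/
theorem result {α : Type*} [Fintype α] [DecidableEq α] (p : ℕ) [Fact p.Prime] (hα : Fintype.card α = p ∨ Fintype.card α = p + 1) (P : Sylow p (Equiv.Perm α)) : Nat.card ↥(Subgroup.normalizer ((P : Subgroup (Equiv.Perm α)) : Set (Equiv.Perm α))) = p * (p - 1) := by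
  classical
  have hpr : p.Prime := Fact.out
  have hp2 := hpr.two_le
  have hGc : Nat.card (Equiv.Perm α) = (Fintype.card α).factorial := by
    rw [Nat.card_eq_fintype_card, Fintype.card_perm]
  -- the order of the group is `p * m` with `m` prime to `p`
  have hm : ∃ m : ℕ, Nat.card (Equiv.Perm α) = p * m ∧ ¬ p ∣ m := by
    rcases hα with h | h
    · refine ⟨(p - 1).factorial, ?_, ?_⟩
      · rw [hGc, h, Nat.mul_factorial_pred (by omega)]
      · rw [Nat.Prime.dvd_factorial hpr]; omega
    · refine ⟨(p + 1) * (p - 1).factorial, ?_, ?_⟩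
      · rw [hGc, h, Nat.factorial_succ, ← Nat.mul_factorial_pred (by omega : p ≠ 0)]; ring
      · rw [hpr.dvd_mul, Nat.Prime.dvd_factorial hpr]
        rintro (h1 | h1)
        · have : p ∣ 1 := (Nat.dvd_add_right (dvd_refl p)).mp h1
          exact hpr.one_lt.ne' (Nat.dvd_one.mp this)
        · omega
  obtain ⟨m, hGm, hpm⟩ := hm
  have hcardQ : ∀ Q : Sylow p (Equiv.Perm α), Nat.card (Q : Subgroup (Equiv.Perm α)) = p := by
    intro Q
    rw [Sylow.card_eq_multiplicity, hGm, Nat.factorization_mul hpr.ne_zero (by rintro rfl; simp at hpm)]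
    simp [hpr.factorization_self, Nat.factorization_eq_zero_of_not_dvd hpm]
  -- number of `p`-cycles
  have hcyc : ((Finset.univ.filter (fun g : Equiv.Perm α => g.cycleType = {p})).card) * p = (Fintype.card α).factorial := by
    have h := Equiv.Perm.card_of_cycleType_mul_eq (α := α) ({p} : Multiset ℕ)
    have hle : p ≤ Fintype.card α := by omega
    have h0 : (Fintype.card α - p).factorial = 1 := by
      rcases hα with h | h <;> simp [h]
    simp only [Multiset.sum_singleton, Multiset.prod_singleton, Multiset.mem_singleton, forall_eq,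
      Multiset.toFinset_singleton, Finset.prod_singleton, Multiset.count_singleton_self,
      Nat.factorial_one, mul_one] at h
    rw [if_pos ⟨hle, hp2⟩, h0, one_mul] at h
    exact h
  have hord : ∀ g : Equiv.Perm α, g.cycleType = {p} ↔ orderOf g = p := by
    intro g
    constructor
    · intro h
      rw [← Equiv.Perm.lcm_cycleType, h]
      simp
    · intro h
      obtain ⟨n, hn⟩ := Equiv.Perm.cycleType_prime_order (σ := g) (h ▸ hpr)
      have hs := Equiv.Perm.sum_cycleType g
      have hs2 := g.support.card_le_univ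
      rw [hn] at hs
      simp only [Multiset.sum_replicate, smul_eq_mul, h] at hs
      have hn0 : n = 0 := by
        by_contra hne
        have h3 : 2 * p ≤ (n + 1) * p := Nat.mul_le_mul_right _ (by omega)
        rcases hα with h | h <;> omega
      subst hn0
      rw [hn, h]
      rfl
  -- order-`p` elements are covered by the Sylow subgroups
  have hcover : Finset.univ.filter (fun g : Equiv.Perm α => g.cycleType = {p}) =
      (Finset.univ : Finset (Sylow p (Equiv.Perm α))).biUnion
        (fun Q => Finset.univ.filter (fun x => x ∈ (Q : Subgroup (Equiv.Perm α)) ∧ x ≠ 1)) := by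
    ext g
    simp only [Finset.mem_filter, Finset.mem_univ, true_and, Finset.mem_biUnion, hord]
    constructor
    · intro h
      have hz : IsPGroup p (Subgroup.zpowers g) := by
        apply IsPGroup.of_card (n := 1)
        rw [Nat.card_zpowers, h, pow_one]
      obtain ⟨Q, hQ⟩ := hz.exists_le_sylow
      refine ⟨Q, hQ (Subgroup.mem_zpowers g), ?_⟩
      rintro rfl
      rw [orderOf_one] at h
      exact hpr.one_lt.ne h
    · rintro ⟨Q, hgQ, hg1⟩
      have h1 : orderOf g ∣ p := by
        rw [← hcardQ Q]
        exact Subgroup.orderOf_dvd_natCard _ hgQ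
      rcases (Nat.dvd_prime hpr).mp h1 with h2 | h2
      · exact absurd (orderOf_eq_one_iff.mp h2) hg1
      · exact h2
  have hzp : ∀ (Q : Sylow p (Equiv.Perm α)) (x : Equiv.Perm α), x ∈ (Q : Subgroup (Equiv.Perm α)) → x ≠ 1 →
      Subgroup.zpowers x = (Q : Subgroup (Equiv.Perm α)) := by
    intro Q x hx hx1
    have h1 : orderOf x ∣ p := by
      rw [← hcardQ Q]
      exact Subgroup.orderOf_dvd_natCard _ hx
    have h2 : orderOf x = p := by
      rcases (Nat.dvd_prime hpr).mp h1 with h2 | h2
      · exact absurd (orderOf_eq_one_iff.mp h2) hx1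
      · exact h2
    apply Subgroup.eq_of_le_of_card_ge
    · rw [Subgroup.zpowers_le]; exact hx
    · rw [hcardQ Q, Nat.card_zpowers, h2]
  have hcount : (Finset.univ.filter (fun g : Equiv.Perm α => g.cycleType = {p})).card =
      Fintype.card (Sylow p (Equiv.Perm α)) * (p - 1) := by
    rw [hcover, Finset.card_biUnion]
    · have hone : ∀ Q : Sylow p (Equiv.Perm α),
          (Finset.univ.filter (fun x => x ∈ (Q : Subgroup (Equiv.Perm α)) ∧ x ≠ 1)).card = p - 1 := by
        intro Q
        have h1 : Finset.univ.filter (fun x => x ∈ (Q : Subgroup (Equiv.Perm α)) ∧ x ≠ 1) =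
            (Finset.univ.filter (fun x => x ∈ (Q : Subgroup (Equiv.Perm α)))).erase 1 := by
          ext x; simp [and_comm]
        rw [h1, Finset.card_erase_of_mem (by simp [Subgroup.one_mem])]
        congr 1
        rw [← Fintype.card_subtype, ← Nat.card_eq_fintype_card]
        exact hcardQ Q
      simp only [hone]
      simp [Finset.card_univ]
    · intro Q _ Q' _ hne
      show Disjoint _ _
      rw [Finset.disjoint_left]
      intro x hx hx'
      simp only [Finset.mem_filter, Finset.mem_univ, true_and] at hx hx'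
      apply hne
      apply Sylow.ext
      rw [← hzp Q x hx.1 hx.2, ← hzp Q' x hx'.1 hx.2]
  -- conclusion
  have hidx := Sylow.card_eq_index_normalizer P
  have hmul := Subgroup.card_mul_index (Subgroup.normalizer ((P : Subgroup (Equiv.Perm α)) : Set (Equiv.Perm α)))
  have hpos : 0 < Fintype.card (Sylow p (Equiv.Perm α)) := Fintype.card_pos
  have hnc : Nat.card (Sylow p (Equiv.Perm α)) = Fintype.card (Sylow p (Equiv.Perm α)) := Nat.card_eq_fintype_card
  rw [hcount] at hcyc
  rw [← hGc] at hcyc
  have h5 : Nat.card ↥(Subgroup.normalizer ((P : Subgroup (Equiv.Perm α)) : Set (Equiv.Perm α))) * Fintype.card (Sylow p (Equiv.Perm α)) =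
      Fintype.card (Sylow p (Equiv.Perm α)) * (p - 1) * p := by
    rw [hcyc, ← hmul, ← hnc]
    congr 1
  have h6 : Nat.card ↥(Subgroup.normalizer ((P : Subgroup (Equiv.Perm α)) : Set (Equiv.Perm α))) * Fintype.card (Sylow p (Equiv.Perm α)) =
      (p * (p - 1)) * Fintype.card (Sylow p (Equiv.Perm α)) := by
    rw [h5]; ring
  exact Nat.eq_of_mul_eq_mul_right hpos h6

end Cfsg.Agent.S0989
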