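import Cfsg.Statements.S0990

set_option autoImplicit false
open Cfsg

namespace Cfsg.Agent.S0990

/-- Let p be an odd prime and P a Sylow p-subgroup of the symmetric group on a finite set with at least two elements. Then P is contained in the alternating group, and twice the order of the normalizer of P inside the alternating group equals the order of the normalizer of P in the symmetric group. -/
theorem result {α : Type*} [Fintype α] [DecidableEq α] (hα : 2 ≤ Fintype.card α) (p : ℕ) [Fact p.Prime] (hp : p ≠ 2) (P : Sylow p (Equiv.Perm α)) : (P : Subgroup (Equiv.Perm α)) ≤ alternatingGroup α ∧ 2 * Nat.card ↥(Subgroup.normalizer ((((P : Subgroup (Equiv.Perm α)).subgroupOf (alternatingGroup α) : Subgroup ↥(alternatingGroup α)) : Set ↥(alternatingGroup α)))) = Nat.card ↥(Subgroup.normalizer ((P : Subgroup (Equiv.Perm α)) : Set (Equiv.Perm α))) := by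
  have hpr : p.Prime := Fact.out
  have hodd : Odd p := hpr.odd_of_ne_two hp
  -- P inside the alternating group
  have hle : (P : Subgroup (Equiv.Perm α)) ≤ alternatingGroup α := by
    intro x hx
    rw [Equiv.Perm.mem_alternatingGroup]
    obtain ⟨k, hk⟩ := (IsPGroup.iff_orderOf.mp P.isPGroup') ⟨x, hx⟩
    have h1 : x ^ (p ^ k) = 1 := by
      have := congrArg (fun y : (P : Subgroup (Equiv.Perm α)) => (y : Equiv.Perm α))
        (hk ▸ pow_orderOf_eq_one (⟨x, hx⟩ : (P : Subgroup (Equiv.Perm α))))
      simpa using this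
    have h2 : (Equiv.Perm.sign x) ^ (p ^ k) = 1 := by
      rw [← map_pow, h1, map_one]
    rcases Int.units_eq_one_or (Equiv.Perm.sign x) with h | h
    · exact h
    · rw [h, (hodd.pow).neg_one_pow] at h2
      exact absurd h2 (by decide)
  refine ⟨hle, ?_⟩
  -- an odd element in the normalizer
  have htop : Subgroup.normalizer ((P : Subgroup (Equiv.Perm α)) : Set (Equiv.Perm α)) ⊔ alternatingGroup α = ⊤ :=
    Sylow.normalizer_sup_eq_top' (N := alternatingGroup α) P hle
  have hex : ∃ x ∈ Subgroup.normalizer ((P : Subgroup (Equiv.Perm α)) : Set (Equiv.Perm α)),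
      Equiv.Perm.sign x = -1 := by
    obtain ⟨a, b, hab⟩ := Fintype.exists_pair_of_one_lt_card (by omega : 1 < Fintype.card α)
    have hτ : Equiv.Perm.sign (Equiv.swap a b) = -1 := Equiv.Perm.sign_swap hab
    have hmem : Equiv.swap a b ∈ Subgroup.normalizer ((P : Subgroup (Equiv.Perm α)) : Set (Equiv.Perm α)) ⊔ alternatingGroup α := by
      rw [htop]; trivial
    have hmem' : Equiv.swap a b ∈ ((Subgroup.normalizer ((P : Subgroup (Equiv.Perm α)) : Set (Equiv.Perm α)) ⊔ alternatingGroup α : Subgroup (Equiv.Perm α)) : Set (Equiv.Perm α)) := hmem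
    rw [Subgroup.mul_normal] at hmem'
    obtain ⟨n, hn, c, hc, hnc⟩ := Set.mem_mul.mp hmem'
    refine ⟨n, hn, ?_⟩
    have hc' : Equiv.Perm.sign c = 1 := Equiv.Perm.mem_alternatingGroup.mp hc
    rw [← hnc, map_mul, hc', mul_one] at hτ
    exact hτ
  obtain ⟨x₀, hx₀, hsx₀⟩ := hex
  set M := Subgroup.normalizer ((P : Subgroup (Equiv.Perm α)) : Set (Equiv.Perm α)) with hM
  set M' := Subgroup.normalizer ((((P : Subgroup (Equiv.Perm α)).subgroupOf (alternatingGroup α) : Subgroup ↥(alternatingGroup α)) : Set ↥(alternatingGroup α))) with hM'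
  let f : ↥M →* ℤˣ := (Equiv.Perm.sign).comp M.subtype
  have hsurj : Function.Surjective f := by
    intro u
    rcases Int.units_eq_one_or u with h | h
    · exact ⟨1, by simp [h]⟩
    · exact ⟨⟨x₀, hx₀⟩, by simp [f, hsx₀, h]⟩
  have hrange : Nat.card f.range = 2 := by
    rw [MonoidHom.range_eq_top.mpr hsurj]
    simp
  have hcard : Nat.card ↥M = Nat.card f.ker * 2 := by
    rw [← hrange, ← Subgroup.index_ker, Subgroup.card_mul_index]
  have hbij : Nat.card ↥M' = Nat.card f.ker := by
    refine Nat.card_congr ⟨fun x => ⟨⟨(x.1 : Equiv.Perm α), ?_⟩, ?_⟩,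
      fun x => ⟨⟨(x.1 : Equiv.Perm α), ?_⟩, ?_⟩, ?_, ?_⟩
    · -- in the normalizer of P
      have hx := Subgroup.mem_normalizer_iff.mp x.2
      refine Subgroup.mem_normalizer_iff.mpr ?_
      intro y
      constructor
      · intro hy
        have hy' : (⟨y, hle hy⟩ : alternatingGroup α) ∈ (P : Subgroup (Equiv.Perm α)).subgroupOf (alternatingGroup α) := by
          simpa [Subgroup.mem_subgroupOf] using hy
        have := (hx _).mp hy'
        simpa [Subgroup.mem_subgroupOf] using this
      · intro hy
        have hyA : y ∈ alternatingGroup α := by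
          have h1 := hle hy
          rw [Equiv.Perm.mem_alternatingGroup] at h1 ⊢
          have h3 : Equiv.Perm.sign (x.1 : Equiv.Perm α) * Equiv.Perm.sign (x.1 : Equiv.Perm α) = 1 := by
            rcases Int.units_eq_one_or (Equiv.Perm.sign (x.1 : Equiv.Perm α)) with h | h <;> simp [h]
          rw [map_mul, map_mul, map_inv] at h1
          rcases Int.units_eq_one_or (Equiv.Perm.sign (x.1 : Equiv.Perm α)) with h | h <;>
            simpa [h] using h1
        have h2 := (hx ⟨y, hyA⟩).mpr (by simpa [Subgroup.mem_subgroupOf] using hy)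
        simpa [Subgroup.mem_subgroupOf] using h2
    · -- in the kernel
      rw [MonoidHom.mem_ker]
      exact Equiv.Perm.mem_alternatingGroup.mp x.1.2
    · -- in the alternating group
      have := x.2
      rw [MonoidHom.mem_ker] at this
      exact Equiv.Perm.mem_alternatingGroup.mpr this
    · -- in the normalizer inside the alternating group
      refine Subgroup.mem_normalizer_iff.mpr ?_
      intro y
      have hx := Subgroup.mem_normalizer_iff.mp x.1.2
      have := hx (y : Equiv.Perm α)
      simpa [Subgroup.mem_subgroupOf] using this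
    · intro x; rfl
    · intro x; rfl
  rw [hbij, hcard, mul_comm]

end Cfsg.Agent.S0990
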