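import Cfsg.Statements.S0992
import Cfsg.Agent.Lib.SylowCount
-- import your own Cfsg.Agent.* helpers here

set_option autoImplicit false
set_option linter.all false
open Cfsg

namespace Cfsg.Agent.S0992

/-- Let G be a non-abelian finite simple group of even order not divisible by 8, and T a Sylow 2-subgroup. Then T is a Klein four-group and the centralizer of T has index 3 in the normalizer of T. -/
theorem result {G : Type*} [Group G] [Finite G] [IsSimpleGroup G] (hG : ¬ IsMulCommutative G) (h2 : Even (Nat.card G)) (h8 : ¬ 8 ∣ Nat.card G) (T : Sylow 2 G) : IsKleinFour ↥(T : Subgroup G) ∧ (Subgroup.centralizer ((T : Subgroup G) : Set G)).relIndex (Subgroup.normalizer ((T : Subgroup G) : Set G)) = 3 := by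
  classical
  have h2dvd : 2 ∣ Nat.card G := h2.two_dvd
  have hT := Sylow.card_eq_multiplicity T
  set f := (Nat.card G).factorization 2 with hf
  have hdvd : 2 ^ f ∣ Nat.card G := by
    rw [← hT]; exact Subgroup.card_subgroup_dvd_card _
  have hf2 : f ≤ 2 := by
    by_contra hcon
    push Not at hcon
    exact h8 ((pow_dvd_pow 2 hcon).trans hdvd)
  have hf0 : f ≠ 0 := by
    intro h0
    have := Sylow.dvd_card_of_dvd_card T h2dvd
    rw [hT, h0] at this
    omega
  have hcomm : IsMulCommutative (T : Subgroup G) := by
    refine ⟨⟨?_⟩⟩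
    have hcases : f = 1 ∨ f = 2 := by omega
    rcases hcases with h1 | h1
    · haveI : IsCyclic (T : Subgroup G) := isCyclic_of_prime_card (p := 2) (by rw [hT, h1]; norm_num)
      intro a b
      exact (IsCyclic.commutative : IsMulCommutative (T : Subgroup G)).is_comm.comm a b
    · exact IsPGroup.commutative_of_card_eq_prime_sq (p := 2) (by rw [hT, h1])
  have hle : (T : Subgroup G) ≤ Subgroup.centralizer ((T : Subgroup G) : Set G) := Subgroup.le_centralizer _
  set r := (Subgroup.centralizer ((T : Subgroup G) : Set G)).relIndex (Subgroup.normalizer ((T : Subgroup G) : Set G)) with hr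
  have hr1 : r ≠ 1 := by
    intro h1
    exact Cfsg.Agent.Lib.SylowCount.not_normalizer_le_centralizer_of_simple hG T h2dvd (Subgroup.relIndex_eq_one.1 h1)
  have hrAut : r ∣ Nat.card (MulAut (T : Subgroup G)) := Cfsg.Agent.Lib.SylowCount.relIndex_centralizer_dvd_card_mulAut _
  have hrodd : ¬ 2 ∣ r := by
    intro h3
    have h4 : r ∣ (T : Subgroup G).index :=
      (Subgroup.relIndex_dvd_of_le_left _ hle).trans (Subgroup.relIndex_dvd_index_of_le Subgroup.le_normalizer)
    exact Sylow.not_dvd_index T (h3.trans h4)
  -- T is not cyclic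
  have hncyc : ¬ IsCyclic (T : Subgroup G) := by
    intro hcyc
    rw [hcyc.card_mulAut, hT] at hrAut
    have hcases : f = 1 ∨ f = 2 := by omega
    have h5 : r ∣ 2 := by
      rcases hcases with h1 | h1 <;> rw [h1] at hrAut
      · exact hrAut.trans (by decide)
      · exact hrAut.trans (by decide)
    rcases (Nat.dvd_prime Nat.prime_two).1 h5 with h6 | h6
    · exact hr1 h6
    · exact hrodd (by rw [h6])
  have hf2' : f = 2 := by
    by_contra hne
    have h1 : f = 1 := by omega
    exact hncyc (isCyclic_of_prime_card (p := 2) (by rw [hT, h1]; norm_num))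
  have hcard4 : Nat.card (T : Subgroup G) = 4 := by rw [hT, hf2']; norm_num
  have hsq : ∀ x : (T : Subgroup G), x ^ 2 = 1 := by
    intro x
    have h5 : orderOf x ∣ 4 := by rw [← hcard4]; exact orderOf_dvd_natCard x
    have h6 : orderOf x ≠ 4 := fun h7 => hncyc (isCyclic_of_orderOf_eq_card x (by rw [h7, hcard4]))
    have h7 : orderOf x ∣ 2 := by
      have hle := Nat.le_of_dvd (by norm_num) h5
      generalize orderOf x = m at *
      interval_cases m <;> first | omega | decide
    exact orderOf_dvd_iff_pow_eq_one.1 h7
  refine ⟨⟨hcard4, ?_⟩, ?_⟩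
  · have h5 : Monoid.exponent (T : Subgroup G) ∣ 2 := Monoid.exponent_dvd_of_forall_pow_eq_one hsq
    rcases (Nat.dvd_prime Nat.prime_two).1 h5 with h6 | h6
    · exfalso
      rw [Monoid.exp_eq_one_iff] at h6
      have := Nat.card_of_subsingleton (1 : (T : Subgroup G))
      omega
    · exact h6
  · have h5 := hrAut.trans (Cfsg.Agent.Lib.SylowCount.card_mulAut_dvd_six hcard4)
    have hle := Nat.le_of_dvd (by norm_num) h5
    generalize r = m at *
    interval_cases m <;> first | rfl | omega | (exfalso; revert h5; decide) | (exfalso; apply hrodd; decide)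

end Cfsg.Agent.S0992
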