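import Cfsg.Statements.S0995
import Cfsg.Agent.Lib.SylowCount
-- import your own Cfsg.Agent.* helpers here

set_option autoImplicit false
set_option linter.all false
open Cfsg

namespace Cfsg.Agent.S0995

/-- Let G be a finite perfect group containing an element z of prime order p whose centralizer is the cyclic group it generates. Let t be the number of conjugacy classes of elements of order p. Then t divides p - 1, the number of Sylow p-subgroups has the form 1 + n * p, and |G| * t = (p - 1) * p * (1 + n * p). -/
theorem result {G : Type*} [Group G] [Finite G] (hperf : commutator G = ⊤) (p : ℕ) [Fact p.Prime] (z : G) (hz : orderOf z = p) (hC : Subgroup.centralizer ({z} : Set G) = Subgroup.zpowers z) : ∃ n t : ℕ, t = Nat.card {c : ConjClasses G // ∃ g : G, ConjClasses.mk g = c ∧ orderOf g = p} ∧ t ∣ p - 1 ∧ Nat.card (Sylow p G) = 1 + n * p ∧ Nat.card G * t = (p - 1) * p * (1 + n * p) := by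
  classical
  have hpp : p.Prime := Fact.out
  have hz1 : z ≠ 1 := by
    rintro rfl
    rw [orderOf_one] at hz
    exact hpp.one_lt.ne hz
  have hzcard : Nat.card (Subgroup.zpowers z) = p := by rw [Nat.card_zpowers, hz]
  have hpg : IsPGroup p (Subgroup.zpowers z) := by
    apply IsPGroup.of_card (n := 1)
    rw [hzcard, pow_one]
  obtain ⟨P₀, hP₀⟩ := hpg.exists_le_sylow
  -- P₀ = ⟨z⟩
  have hP₀eq : (P₀ : Subgroup G) = Subgroup.zpowers z := by
    haveI : Nontrivial (P₀ : Subgroup G) := ⟨⟨⟨z, hP₀ (Subgroup.mem_zpowers z)⟩, 1, fun h => hz1 (congrArg Subtype.val h)⟩⟩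
    have hcenter : Nontrivial (Subgroup.center (P₀ : Subgroup G)) := (P₀.isPGroup').center_nontrivial
    obtain ⟨⟨c, hc⟩, hc1⟩ := exists_ne (1 : Subgroup.center (P₀ : Subgroup G))
    have hc1' : (c : G) ≠ 1 := by
      intro h
      apply hc1
      exact Subtype.ext (Subtype.ext h)
    have hcC : (c : G) ∈ Subgroup.centralizer ({z} : Set G) := by
      rw [Subgroup.mem_centralizer_singleton_iff]
      have := Subgroup.mem_center_iff.1 hc ⟨z, hP₀ (Subgroup.mem_zpowers z)⟩
      have h2 := congrArg Subtype.val this
      exact h2.symm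
    rw [hC] at hcC
    -- c generates ⟨z⟩
    have hgen := Cfsg.Agent.Lib.SylowCount.zpowers_eq_of_card_prime _ hzcard hcC hc1'
    have hzc : z ∈ Subgroup.zpowers (c : G) := by rw [hgen]; exact Subgroup.mem_zpowers z
    apply le_antisymm _ hP₀
    intro x hx
    rw [← hC, Subgroup.mem_centralizer_singleton_iff]
    obtain ⟨k, hk⟩ := hzc
    simp only at hk
    have h3 : (c : G) * x = x * c := by
      have := Subgroup.mem_center_iff.1 hc ⟨x, hx⟩
      exact (congrArg Subtype.val this).symm
    have h4 : Commute (c : G) x := h3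
    have h5 := (h4.zpow_left k)
    rw [hk] at h5
    exact h5.eq.symm
  have hcP₀ : Nat.card (P₀ : Subgroup G) = p := by rw [hP₀eq, hzcard]
  have hcS : ∀ S : Sylow p G, Nat.card (S : Subgroup G) = p := fun S => by
    rw [Cfsg.Agent.Lib.SylowCount.card_sylow_eq S P₀, hcP₀]
  have hcount := Cfsg.Agent.Lib.SylowCount.card_orderOf_eq_of_sylow_prime hcS
  -- centralizers of elements of order p
  have hcent : ∀ w : G, orderOf w = p → Nat.card (Subgroup.centralizer ({w} : Set G)) = p := by
    intro w hw
    have hw1 : w ≠ 1 := by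
      rintro rfl
      rw [orderOf_one] at hw
      exact hpp.one_lt.ne hw
    have hpgw : IsPGroup p (Subgroup.zpowers w) := by
      apply IsPGroup.of_card (n := 1)
      rw [Nat.card_zpowers, hw, pow_one]
    obtain ⟨S, hS⟩ := hpgw.exists_le_sylow
    obtain ⟨a, ha⟩ := MulAction.exists_smul_eq G P₀ S
    have hwS : w ∈ (S : Subgroup G) := hS (Subgroup.mem_zpowers w)
    rw [← ha] at hwS
    have hya := (Cfsg.Agent.Lib.SylowCount.mem_smul_sylow a w P₀).1 hwS
    rw [hP₀eq] at hya
    set w' := a⁻¹ * w * a with hw'
    have hconj : IsConj w w' := isConj_iff.2 ⟨a⁻¹, by simp [hw']⟩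
    have hw'1 : w' ≠ 1 := by
      intro h1
      apply hw1
      have e : w = a * w' * a⁻¹ := by rw [hw']; group
      rw [e, h1]; group
    rw [Cfsg.Agent.Lib.SylowCount.card_centralizer_eq_of_isConj hconj]
    have hgen := Cfsg.Agent.Lib.SylowCount.zpowers_eq_of_card_prime _ hzcard hya hw'1
    have hzw : z ∈ Subgroup.zpowers w' := by rw [hgen]; exact Subgroup.mem_zpowers z
    have hCeq : Subgroup.centralizer ({w'} : Set G) = Subgroup.zpowers z := by
      apply le_antisymm
      · intro x hx
        rw [← hC, Subgroup.mem_centralizer_singleton_iff]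
        rw [Subgroup.mem_centralizer_singleton_iff] at hx
        obtain ⟨k, hk⟩ := hzw
        simp only at hk
        have h4 : Commute w' x := hx.symm
        have h5 := h4.zpow_left k
        rw [hk] at h5
        exact h5.eq.symm
      · intro x hx
        rw [Subgroup.mem_centralizer_singleton_iff]
        rw [← hgen] at hx
        obtain ⟨k, hk⟩ := hx
        simp only at hk
        rw [← hk]
        exact ((Commute.refl w').zpow_left k).eq
    rw [hCeq, hzcard]
  set t := Nat.card {c : ConjClasses G // ∃ g : G, ConjClasses.mk g = c ∧ orderOf g = p} with ht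
  -- count elements of order p through classes
  set k := Nat.card {g : G // IsConj z g} with hk
  have hkp : k * p = Nat.card G := by
    have := Cfsg.Agent.Lib.SylowCount.card_class_mul_centralizer z
    rw [hcent z hz] at this
    exact this
  have hcl : Nat.card {g : G // orderOf g = p} = t * k := by
    let f : {g : G // orderOf g = p} → {c : ConjClasses G // ∃ g : G, ConjClasses.mk g = c ∧ orderOf g = p} :=
      fun g => ⟨ConjClasses.mk g.1, g.1, rfl, g.2⟩
    refine Cfsg.Agent.Lib.SylowCount.card_eq_mul_of_fibers f k ?_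
    rintro ⟨c, w, rfl, hw⟩
    have h1 : Nat.card {g : G // IsConj w g} = k := by
      have hp0 : 0 < p := hpp.pos
      have h2 := Cfsg.Agent.Lib.SylowCount.card_class_mul_centralizer w
      rw [hcent w hw, ← hkp] at h2
      exact Nat.eq_of_mul_eq_mul_right hp0 h2
    rw [← h1]
    refine Nat.card_congr ⟨fun a => ⟨a.1.1, ?_⟩, fun x => ⟨⟨x.1, ?_⟩, ?_⟩, ?_, ?_⟩
    · have := congrArg Subtype.val a.2
      simp only [f] at this
      exact (ConjClasses.mk_eq_mk_iff_isConj.1 this).symm
    · rw [← hw]
      exact (Cfsg.Agent.Lib.SylowCount.orderOf_eq_of_isConj x.2).symm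
    · apply Subtype.ext
      exact ConjClasses.mk_eq_mk_iff_isConj.2 x.2.symm
    · intro a; ext; rfl
    · intro x; ext; rfl
  -- normalizer
  have hN := Cfsg.Agent.Lib.SylowCount.card_sylow_mul_card_normalizer P₀
  have hNd : p ∣ Nat.card (Subgroup.normalizer ((P₀ : Subgroup G) : Set G)) := by
    have := Subgroup.card_dvd_of_le (Subgroup.le_normalizer (H := (P₀ : Subgroup G)))
    rwa [hcP₀] at this
  obtain ⟨e, he⟩ := hNd
  have hmod := Cfsg.Agent.Lib.SylowCount.card_sylow_mod (G := G) p
  set np := Nat.card (Sylow p G) with hnp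
  have hnpos : 0 < np := Nat.card_pos
  have hGpos : 0 < Nat.card G := Nat.card_pos
  have hmain : Nat.card G * t = (p - 1) * p * np := by
    calc Nat.card G * t = t * k * p := by rw [← hkp]; ring
      _ = np * (p - 1) * p := by rw [← hcl, hcount]
      _ = _ := by ring
  have htf : t * e = p - 1 := by
    have h1 : np * (p * e) = Nat.card G := by rw [← he]; exact hN
    have h2 : (np * p) * (t * e) = (np * p) * (p - 1) := by
      calc (np * p) * (t * e) = (np * (p * e)) * t := by ring
        _ = Nat.card G * t := by rw [h1]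
        _ = _ := by rw [hmain]; ring
    exact Nat.eq_of_mul_eq_mul_left (Nat.mul_pos hnpos hpp.pos) h2
  have hnp1 : np = 1 + (np / p) * p := by
    have := Nat.div_add_mod np p
    rw [hmod] at this
    rw [mul_comm (np / p) p]
    omega
  refine ⟨np / p, t, rfl, ⟨e, htf.symm⟩, hnp1, ?_⟩
  rw [← hnp1]
  exact hmain

end Cfsg.Agent.S0995
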