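import Cfsg.Statements.S1002
import Cfsg.Agent.Lib.BrauerRel
import Cfsg.Agent.Lib.SylowCount
-- import your own Cfsg.Agent.* helpers here

set_option autoImplicit false
set_option linter.all false
open Cfsg

namespace Cfsg.Agent.S1002

/-- No finite simple group has order 1004913 = 3^3 * 7 * 13 * 409. -/
theorem result {G : Type*} [Group G] [Finite G] [IsSimpleGroup G] : Nat.card G ≠ 1004913 := by
  intro h
  classical
  letI : Fintype G := Fintype.ofFinite G
  have hnc : ¬ IsMulCommutative G :=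
    Cfsg.Agent.Lib.SylowCount.not_comm_of_not_prime (by rw [h]; norm_num)
  haveI hpf : Fact (Nat.Prime 409) := ⟨by norm_num⟩
  obtain ⟨P⟩ : Nonempty (Sylow 409 G) := inferInstance
  have hfac : Nat.card G = 409 ^ 1 * 2457 := by rw [h]; norm_num
  have hcardP := Cfsg.Agent.Lib.SylowCount.card_sylow_of_factor P 1 2457 hfac (by norm_num)
  rw [pow_one] at hcardP
  have h1 := Cfsg.Agent.Lib.SylowCount.card_sylow_dvd_cofactor (G := G) (p := 409) 1 2457 hfac (by norm_num)
  have h2 := Cfsg.Agent.Lib.SylowCount.card_sylow_mod (G := G) 409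
  have h3 := Cfsg.Agent.Lib.SylowCount.card_sylow_ne_one_of_simple (G := G) (p := 409) hnc (by rw [h]; norm_num)
  generalize hn : Nat.card (Sylow 409 G) = n at h1 h2 h3
  have hn' : n = 819 := by
    have key : ∀ k ∈ Nat.divisors 2457, k % 409 = 1 → k ≠ 1 → k = 819 := by decide +kernel
    exact key n (Nat.mem_divisors.2 ⟨h1, by norm_num⟩) h2 h3
  subst hn'
  have hN : Nat.card (Subgroup.normalizer ((P : Subgroup G) : Set G)) = 1227 :=
    Cfsg.Agent.Lib.SylowCount.card_normalizer_of_card_sylow P 819 1227 hn (by rw [h]) (by norm_num)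
  obtain ⟨y₁, y₂, d₁, d₂, u, hy₁, hy₂, hd1, hd2, hdd1, hdd2, hud, hc1, hc2, hrel⟩ :=
    Cfsg.Agent.Lib.BrauerRel.rel_three hnc P hcardP (by rw [hN]) (by norm_num)
  rw [h] at hdd1 hdd2 hud
  have key : ∀ d ∈ Nat.divisors 2457, 1 < d → (409 ∣ d - 1 → d = 819) ∧ (409 ∣ d + 1 → False) := by
    decide +kernel
  have hreduce : ∀ (d : ℕ) (y : ℤ), (y = 1 ∨ y = -1) → 1 < d → d ∣ 1004913 → ((409 : ℕ) : ℤ) ∣ (d : ℤ) - y →
      (y = 1 ∧ d = 819) ∨ (y = -1 ∧ False) := by
    intro d y hy hd hdv hc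
    have hcop : Nat.Coprime d 409 := by
      have hpp : Nat.Prime 409 := by norm_num
      refine ((Nat.Prime.coprime_iff_not_dvd hpp).2 fun hpd => ?_).symm
      have h4 : ((409 : ℕ) : ℤ) ∣ (d : ℤ) := by exact_mod_cast hpd
      have h5 : ((409 : ℕ) : ℤ) ∣ y := by
        have := dvd_sub h4 hc
        simpa using this
      rcases hy with rfl | rfl <;> omega
    have hdm : d ∣ 2457 := by
      have : d ∣ 409 * 2457 := by norm_num; exact hdv
      exact hcop.dvd_of_dvd_mul_left this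
    obtain ⟨k1, k2⟩ := key d (Nat.mem_divisors.2 ⟨hdm, by norm_num⟩) hd
    rcases hy with rfl | rfl
    · left
      refine ⟨rfl, k1 ?_⟩
      have : ((409 : ℕ) : ℤ) ∣ ((d - 1 : ℕ) : ℤ) := by
        rw [Nat.cast_sub hd.le]
        exact_mod_cast hc
      exact_mod_cast this
    · right
      refine ⟨rfl, k2 ?_⟩
      have : ((409 : ℕ) : ℤ) ∣ ((d + 1 : ℕ) : ℤ) := by
        push_cast
        simpa using hc
      exact_mod_cast this
  have hu : ∀ k : ℕ, (u : ℤ) = k ∨ (u : ℤ) = -(k : ℤ) → ¬ k ∣ 1004913 → k ≠ 0 → False := by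
    intro k hk hnd hk0
    have hu1 : u = k := by
      rcases hk with hk | hk
      · exact_mod_cast hk
      · have h0 : (0 : ℤ) ≤ u := by positivity
        omega
    exact hnd (hu1 ▸ hud)
  rcases hreduce d₁ y₁ hy₁ hd1 hdd1 hc1 with ⟨rfl, e1⟩ | ⟨rfl, e1⟩ <;>
    rcases hreduce d₂ y₂ hy₂ hd2 hdd2 hc2 with ⟨rfl, e2⟩ | ⟨rfl, e2⟩ <;>
    first
    | exact e1
    | exact e2
    | skip
  subst e1 e2
  exact hu 1639 (by norm_num at hrel ⊢; omega) (by norm_num) (by norm_num)

end Cfsg.Agent.S1002
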