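import Cfsg.Statements.S1006
import Cfsg.Agent.Lib.Order168
-- import your own Cfsg.Agent.* helpers here

set_option autoImplicit false
set_option linter.all false
open Cfsg

namespace Cfsg.Agent.S1006

/-- In a simple group of order 168 there are 56 elements of order 3, all conjugate; 42 elements of order 4, all conjugate; and 48 elements of order 7 falling into two conjugacy classes of size 24, an element of order 7 not being conjugate to its inverse. -/
theorem result {G : Type*} [Group G] [Finite G] [IsSimpleGroup G] (h : Nat.card G = 168) : Nat.card {g : G // orderOf g = 3} = 56 ∧ (∀ s t : G, orderOf s = 3 → orderOf t = 3 → IsConj s t) ∧ Nat.card {g : G // orderOf g = 4} = 42 ∧ (∀ s t : G, orderOf s = 4 → orderOf t = 4 → IsConj s t) ∧ Nat.card {g : G // orderOf g = 7} = 48 ∧ ∀ x : G, orderOf x = 7 → Nat.card {g : G // IsConj x g} = 24 ∧ ¬ IsConj x x⁻¹ := by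
  open Cfsg.Agent.Lib.Order168 Cfsg.Agent.Lib.SylowCount in
  refine ⟨card_order3 h, ?_, card_order4 h, ?_, card_order7 h, ?_⟩
  · -- order three
    intro s t hs ht
    have key : ∀ {x y : G}, orderOf x = 3 → orderOf y = 3 → ∃ S : Sylow 3 G, y ∈ (S : Subgroup G) ∧ True := by
      intro x y hx hy
      obtain ⟨S, hS⟩ := exists_sylow_mem (p := 3) (k := 1) (x := y) (by rw [hy, pow_one])
      exact ⟨S, hS, trivial⟩
    obtain ⟨S, hS⟩ := exists_sylow_mem (p := 3) (k := 1) (x := s) (by rw [hs, pow_one])
    obtain ⟨S', hS'⟩ := exists_sylow_mem (p := 3) (k := 1) (x := t) (by rw [ht, pow_one])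
    obtain ⟨g, hg⟩ := MulAction.exists_smul_eq G S S'
    -- the conjugate g s g⁻¹ lies in S'
    have hs' : g * s * g⁻¹ ∈ (S' : Subgroup G) := by
      rw [← hg]
      refine (mem_smul_sylow g _ S).2 ?_
      have : g⁻¹ * (g * s * g⁻¹) * g = s := by group
      rw [this]; exact hS
    have hs1 : IsConj s (g * s * g⁻¹) := isConj_iff.2 ⟨g, rfl⟩
    have ht1 : t ≠ 1 := by
      rintro rfl; rw [orderOf_one] at ht; omega
    have hs0 : g * s * g⁻¹ ≠ 1 := by
      intro h1
      have := orderOf_eq_of_isConj hs1
      rw [h1, orderOf_one, hs] at this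
      omega
    -- every element of S' is 1, t or t⁻¹; and t ~ t⁻¹
    have hzS := zpowers_eq_of_card_prime _ (card3 h S') hS' ht1
    have hmem : ∀ w ∈ (S' : Subgroup G), w = 1 ∨ w = t ∨ w = t⁻¹ := by
      intro w hw
      rw [← hzS] at hw
      obtain ⟨k, hk⟩ := hw
      simp only at hk
      have ht3 : t ^ (3 : ℤ) = 1 := by
        have := pow_orderOf_eq_one t
        rw [ht] at this
        exact_mod_cast this
      have hk2 : w = t ^ (k % 3) := by
        rw [← hk]
        conv_lhs => rw [← Int.emod_add_mul_ediv k 3]
        rw [zpow_add, zpow_mul, ht3, one_zpow, mul_one]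
      have hcases : k % 3 = 0 ∨ k % 3 = 1 ∨ k % 3 = 2 := by omega
      rcases hcases with h1 | h1 | h1 <;> rw [h1] at hk2
      · left; simpa using hk2
      · right; left; simpa using hk2
      · right; right
        rw [hk2]
        have h3 : t ^ (2 : ℤ) * t = 1 := by
          rw [← zpow_add_one]; exact ht3
        exact eq_inv_of_mul_eq_one_left h3
    -- t is conjugate to its inverse
    have htinv : IsConj t t⁻¹ := by
      have hB := not_normalizer_le_centralizer_of_simple (nonComm h) S' (by rw [h]; norm_num)
      obtain ⟨x, hxN, hxC⟩ := Set.not_subset.1 hB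
      have hxt : x * t * x⁻¹ ∈ (S' : Subgroup G) := (Subgroup.mem_normalizer_iff.1 hxN t).1 hS'
      rcases hmem _ hxt with h1 | h1 | h1
      · exfalso
        apply ht1
        have e : t = x⁻¹ * (x * t * x⁻¹) * x := by group
        rw [e, h1]; group
      · exfalso
        apply hxC
        exact mem_centralizer_of_commute (card3 h S') hS' ht1 (by
          show x * t = t * x
          calc x * t = (x * t * x⁻¹) * x := by group
            _ = t * x := by rw [h1])
      · exact isConj_iff.2 ⟨x, h1⟩
    rcases hmem _ hs' with h1 | h1 | h1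
    · exact absurd h1 hs0
    · rw [h1] at hs1; exact hs1
    · rw [h1] at hs1; exact hs1.trans htinv.symm
  · -- order four
    intro s t hs ht
    have h1 := card_class_mul_centralizer s
    rw [centralizer_order4 h hs, Nat.card_zpowers, hs, h] at h1
    have hcl : Nat.card {g : G // IsConj s g} = 42 := by omega
    -- the class is all of the elements of order four
    let f : {g : G // IsConj s g} → {g : G // orderOf g = 4} := fun g =>
      ⟨g.1, by rw [← orderOf_eq_of_isConj g.2, hs]⟩
    have hf : Function.Injective f := by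
      intro a b hab
      exact Subtype.ext (congrArg (fun z : {g : G // orderOf g = 4} => z.1) hab)
    have hb := hf.bijective_of_nat_card_le (by rw [hcl, card_order4 h])
    obtain ⟨y, hy⟩ := hb.2 ⟨t, ht⟩
    have : y.1 = t := congrArg (fun z : {g : G // orderOf g = 4} => z.1) hy
    rw [← this]
    exact y.2
  · intro x hx
    exact ⟨class_order7 h hx, not_conj_inv_order7 h hx⟩

end Cfsg.Agent.S1006
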