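import Cfsg.Statements.S1007
import Cfsg.Agent.Lib.Order168

set_option autoImplicit false
set_option linter.all false
open Cfsg

namespace Cfsg.Agent.S1007

open Subgroup Cfsg.Agent.Lib.Order168 Cfsg.Agent.Lib.SylowCount

abbrev D := DihedralGroup 4

def r2 : D := DihedralGroup.r 2

def S₁ : Finset D := {DihedralGroup.r 0, DihedralGroup.r 2, DihedralGroup.sr 0, DihedralGroup.sr 2}
def S₂ : Finset D := {DihedralGroup.r 0, DihedralGroup.r 2, DihedralGroup.sr 1, DihedralGroup.sr 3}

theorem klein_subsets : ∀ s : Finset D, (1 : D) ∈ s → (∀ x ∈ s, ∀ y ∈ s, x * y ∈ s) →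
    (∀ x ∈ s, x * x = 1) → s.card = 4 → s = S₁ ∨ s = S₂ := by decide +kernel

/-- the facts on the two subsets -/
def Good (S : Finset D) : Prop :=
  r2 ∈ S ∧ (∀ g x : D, x ∈ S → g * x * g⁻¹ ∈ S) ∧ (∀ g : D, (∀ x ∈ S, g * x = x * g) → g ∈ S) ∧
    (∃ a ∈ S, a ≠ 1 ∧ a ≠ r2 ∧ ∃ y : D, a * y ≠ y * a) ∧ (∀ x ∈ S, x * x = 1) ∧ S.card = 4 ∧
    (1 : D) ∈ S ∧ (∀ a ∈ S, ∀ b ∈ S, a * b ∈ S) ∧ (∀ a ∈ S, a⁻¹ ∈ S)

theorem good₁ : Good S₁ := by unfold Good; decide +kernel
theorem good₂ : Good S₂ := by unfold Good; decide +kernel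
theorem r2_central : ∀ y : D, y * r2 = r2 * y := by decide +kernel
theorem r2_ne_one : r2 ≠ 1 := by decide +kernel
theorem S_ne : S₁ ≠ S₂ := by decide +kernel

def VS (S : Finset D) (hS : Good S) : Subgroup D where
  carrier := {x | x ∈ S}
  mul_mem' := fun {a b} ha hb => hS.2.2.2.2.2.2.2.1 a ha b hb
  one_mem' := hS.2.2.2.2.2.2.1
  inv_mem' := fun {a} ha => hS.2.2.2.2.2.2.2.2 a ha

theorem card_VS (S : Finset D) (hS : Good S) : Nat.card (VS S hS) = 4 := by
  have h1 : Nat.card (VS S hS) = S.card := by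
    show Nat.card {x // x ∈ S} = S.card
    rw [Nat.card_eq_fintype_card, Fintype.card_coe]
  rw [h1]; exact hS.2.2.2.2.2.1

theorem klein_cases (V : Subgroup D) (hc : Nat.card V = 4) (hx : ∀ x ∈ V, x * x = 1) :
    ∃ S, Good S ∧ (S = S₁ ∨ S = S₂) ∧ ∀ x, x ∈ V ↔ x ∈ S := by
  classical
  let s : Finset D := Finset.univ.filter (· ∈ V)
  have hs : ∀ x, x ∈ s ↔ x ∈ V := by intro x; simp [s]
  have hcard : s.card = 4 := by
    rw [← hc, Nat.card_eq_fintype_card, Fintype.card_subtype]
  have h := klein_subsets s ((hs 1).2 V.one_mem)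
    (fun x hx' y hy' => (hs _).2 (V.mul_mem ((hs _).1 hx') ((hs _).1 hy')))
    (fun x hx' => hx x ((hs _).1 hx')) hcard
  refine ⟨s, ?_, h, fun x => (hs x).symm⟩
  rcases h with h | h <;> rw [h]
  · exact good₁
  · exact good₂

variable {G : Type*} [Group G] [Finite G] [IsSimpleGroup G]

theorem setup (h : Nat.card G = 168) (T : Sylow 2 G) :
    ∃ ι : D →* G, Function.Injective ι ∧ ι.range = (T : Subgroup G) := by
  obtain ⟨φ⟩ := dihedral_T h T
  refine ⟨(T : Subgroup G).subtype.comp φ.symm.toMonoidHom, ?_, ?_⟩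
  · exact Subtype.val_injective.comp φ.symm.injective
  · ext x
    constructor
    · rintro ⟨y, rfl⟩
      exact (φ.symm y).2
    · intro hx
      exact ⟨φ ⟨x, hx⟩, by simp⟩

omit [IsSimpleGroup G] in
theorem sq_of_klein (W : Subgroup G) (hK : IsKleinFour W) {w : G} (hw : w ∈ W) : w * w = 1 := by
  have h1 : (⟨w, hw⟩ : W) ^ Monoid.exponent W = 1 := Monoid.pow_exponent_eq_one _
  rw [hK.exponent_two] at h1
  have h2 := congrArg (Subtype.val) h1
  simpa [pow_two] using h2

omit [IsSimpleGroup G] in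
theorem lift_facts (T : Sylow 2 G) (ι : D →* G) (hι : Function.Injective ι)
    (hr : ι.range = (T : Subgroup G)) (W : Subgroup G) (hWT : W ≤ T) (hK : IsKleinFour W) :
    ι r2 ∈ W ∧ (∀ t ∈ (T : Subgroup G), ∀ w ∈ W, t * w * t⁻¹ ∈ W) ∧
      (∀ x ∈ (T : Subgroup G), (∀ w ∈ W, x * w = w * x) → x ∈ W) ∧
      (∃ a ∈ W, a ≠ 1 ∧ a ≠ ι r2 ∧ ∃ t ∈ (T : Subgroup G), a * t ≠ t * a) := by
  have hW : W ≤ ι.range := hr ▸ hWT
  have hmap : (W.comap ι).map ι = W := Subgroup.map_comap_eq_self hW
  have hc : Nat.card (W.comap ι) = 4 := by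
    have e1 := Subgroup.card_map_of_injective (K := W.comap ι) hι
    rw [hmap] at e1
    rw [← e1]; exact hK.card_four
  have hsq : ∀ x ∈ W.comap ι, x * x = 1 := by
    intro x hx
    apply hι
    rw [map_mul, map_one]
    exact sq_of_klein W hK hx
  obtain ⟨S, hG, -, hS⟩ := klein_cases (W.comap ι) hc hsq
  obtain ⟨h1, h2, h3, ⟨a, ha, ha1, ha2, y, hy⟩, -⟩ := hG
  have hfromT : ∀ t ∈ (T : Subgroup G), ∃ g : D, ι g = t := fun t ht => by
    rw [← hr] at ht; exact ht
  have hmem : ∀ x : D, ι x ∈ W ↔ x ∈ S := fun x => hS x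
  refine ⟨(hmem _).2 h1, ?_, ?_, ?_⟩
  · intro t ht w hw
    obtain ⟨g, rfl⟩ := hfromT t ht
    obtain ⟨x, rfl⟩ := hfromT w (hWT hw)
    rw [← map_inv, ← map_mul, ← map_mul, hmem]
    exact h2 g x ((hmem x).1 hw)
  · intro x hxT hcomm
    obtain ⟨g, rfl⟩ := hfromT x hxT
    rw [hmem]
    apply h3
    intro x' hx'
    apply hι
    rw [map_mul, map_mul]
    exact hcomm _ ((hmem x').2 hx')
  · refine ⟨ι a, (hmem a).2 ha, ?_, ?_, ι y, ?_, ?_⟩
    · intro h0; apply ha1; apply hι; rw [h0, map_one]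
    · intro h0; exact ha2 (hι h0)
    · rw [← hr]; exact ⟨y, rfl⟩
    · intro h0
      apply hy
      apply hι
      rw [map_mul, map_mul]
      exact h0

theorem normal_of_sylow (h : Nat.card G = 168) (T : Sylow 2 G) (W : Subgroup G) (hWT : W ≤ T) (hK : IsKleinFour W) :
    (T : Subgroup G) ≤ normalizer (W : Set G) := by
  obtain ⟨ι, hι, hr⟩ := setup h T
  obtain ⟨-, h2, -, -⟩ := lift_facts T ι hι hr W hWT hK
  intro t ht
  rw [Subgroup.mem_normalizer_iff]
  intro w
  constructor
  · exact h2 t ht w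
  · intro hw
    have := h2 t⁻¹ ((T : Subgroup G).inv_mem ht) _ hw
    simpa [mul_assoc] using this

theorem centralizer_z (h : Nat.card G = 168) (T : Sylow 2 G) (ι : D →* G) (hι : Function.Injective ι)
    (hr : ι.range = (T : Subgroup G)) : centralizer ({ι r2} : Set G) = T := by
  have hT : ∀ t ∈ (T : Subgroup G), ∃ g : D, ι g = t := fun t ht => by
    rw [← hr] at ht; exact ht
  apply centralizer_eq h T
  · rw [← hr]; exact ⟨r2, rfl⟩
  · intro h0
    apply r2_ne_one
    apply hι
    rw [h0, map_one]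
  · intro t ht
    obtain ⟨g, rfl⟩ := hT t ht
    rw [← map_mul, ← map_mul, r2_central]

/-- A group of order 24 with a self-centralizing normal four-subgroup, no element of which commutes
with an element of order three, is the symmetric group. -/
theorem s4_of {X : Type*} [Group X] [Finite X] (hX : Nat.card X = 24) (U : Subgroup X) [hUn : U.Normal]
    (hUc : Nat.card U = 4) (hC : ∀ x : X, (∀ u ∈ U, x * u = u * x) → x ∈ U)
    (h3 : ∀ u ∈ U, u ≠ 1 → ∀ r : X, orderOf r = 3 → u * r ≠ r * u) :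
    Nonempty (X ≃* Equiv.Perm (Fin 4)) := by
  classical
  haveI : Fact (Nat.Prime 3) := ⟨by norm_num⟩
  have hcardR : ∀ R : Sylow 3 X, Nat.card (R : Subgroup X) = 3 := by
    intro R
    rw [Sylow.card_eq_multiplicity, hX]
    have : (24 : ℕ).factorization 3 = 1 := by
      have : (24 : ℕ) = 3 * 8 := by norm_num
      rw [this, Nat.factorization_mul (by norm_num) (by norm_num)]
      have h8 : (8 : ℕ).factorization 3 = 0 := Nat.factorization_eq_zero_of_not_dvd (by norm_num)
      simp [h8, Nat.Prime.factorization_self (by norm_num : Nat.Prime 3)]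
    rw [this, pow_one]
  -- an element of the four-group fixing a Sylow subgroup is trivial
  have hfix : ∀ (R : Sylow 3 X) (u : X), u ∈ U → u • R = R → u = 1 := by
    intro R u hu huR
    by_contra hu1
    -- generator of R
    obtain ⟨r, hr, hr1⟩ : ∃ r ∈ (R : Subgroup X), r ≠ 1 := by
      have hnt : Nontrivial (R : Subgroup X) := by
        rw [← Finite.one_lt_card_iff_nontrivial, hcardR R]; norm_num
      obtain ⟨x, hx⟩ := exists_ne (1 : (R : Subgroup X))
      exact ⟨x, x.2, fun h0 => hx (Subtype.ext h0)⟩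
    have hor : orderOf r = 3 := by
      have h1 : orderOf r ∣ 3 := by
        rw [← hcardR R]; exact Subgroup.orderOf_dvd_natCard _ hr
      rcases (Nat.dvd_prime (by norm_num)).mp h1 with h2 | h2
      · exact absurd (orderOf_eq_one_iff.mp h2) hr1
      · exact h2
    -- the commutator lies in both
    have hconj : u * r * u⁻¹ ∈ (R : Subgroup X) := by
      have : u * r * u⁻¹ ∈ ((u • R : Sylow 3 X) : Subgroup X) := by
        refine (mem_smul_sylow u _ R).2 ?_
        have e : u⁻¹ * (u * r * u⁻¹) * u = r := by group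
        rw [e]; exact hr
      rwa [huR] at this
    have hcR : u * r * u⁻¹ * r⁻¹ ∈ (R : Subgroup X) := (R : Subgroup X).mul_mem hconj ((R : Subgroup X).inv_mem hr)
    have hcU : u * r * u⁻¹ * r⁻¹ ∈ U := by
      have e : u * r * u⁻¹ * r⁻¹ = u * (r * u⁻¹ * r⁻¹) := by group
      rw [e]
      exact U.mul_mem hu (hUn.conj_mem _ (U.inv_mem hu) r)
    have hc1 : u * r * u⁻¹ * r⁻¹ = 1 := by
      set c := u * r * u⁻¹ * r⁻¹ with hc
      have d1 : orderOf c ∣ 3 := by
        rw [← hcardR R]; exact Subgroup.orderOf_dvd_natCard _ hcR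
      have d2 : orderOf c ∣ 4 := by
        rw [← hUc]; exact Subgroup.orderOf_dvd_natCard _ hcU
      have d3 : orderOf c ∣ 1 := by
        have := Nat.dvd_gcd d1 d2
        simpa using this
      exact orderOf_eq_one_iff.mp (Nat.dvd_one.mp d3)
    apply h3 u hu hu1 r hor
    have e : u * r = (u * r * u⁻¹ * r⁻¹) * (r * u) := by group
    rw [e, hc1, one_mul]
  obtain ⟨R₀⟩ : Nonempty (Sylow 3 X) := inferInstance
  -- number of Sylow subgroups
  have hn : Nat.card (Sylow 3 X) = 4 := by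
    have hge : 4 ≤ Nat.card (Sylow 3 X) := by
      rw [← hUc]
      apply Nat.card_le_card_of_injective (fun u : U => ((u : X) • R₀ : Sylow 3 X))
      intro u v huv
      have huv' : ((u : X) • R₀ : Sylow 3 X) = (v : X) • R₀ := huv
      have e : ((v : X)⁻¹ * (u : X)) • R₀ = R₀ := by
        rw [mul_smul, huv', inv_smul_smul]
      have := hfix R₀ _ (U.mul_mem (U.inv_mem v.2) u.2) e
      apply Subtype.ext
      exact (inv_mul_eq_one.mp this).symm
    have hmod := card_sylow_modEq_one 3 X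
    have hdvd : Nat.card (Sylow 3 X) ∣ 8 := by
      have h1 := R₀.card_dvd_index
      have h2 := Subgroup.card_mul_index (R₀ : Subgroup X)
      rw [hcardR, hX] at h2
      have h3' : (R₀ : Subgroup X).index = 8 := by omega
      rwa [h3'] at h1
    have hle := Nat.le_of_dvd (by norm_num) hdvd
    generalize Nat.card (Sylow 3 X) = n at *
    interval_cases n <;> first | rfl | (exfalso; revert hdvd; decide) | (exfalso; revert hmod; decide)
  -- the action is faithful
  let φ : X →* Equiv.Perm (Sylow 3 X) := MulAction.toPermHom X (Sylow 3 X)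
  have hφ : Function.Injective φ := by
    rw [injective_iff_map_eq_one]
    intro x hx
    have hxR : ∀ R : Sylow 3 X, x • R = R := fun R => by
      have := congrArg (fun f : Equiv.Perm (Sylow 3 X) => f R) hx
      simpa [φ] using this
    have hxU : x ∈ U := by
      apply hC
      intro u hu
      have hcU : x * u * x⁻¹ * u⁻¹ ∈ U := U.mul_mem (hUn.conj_mem u hu x) (U.inv_mem hu)
      have hc : (x * u * x⁻¹ * u⁻¹) • R₀ = R₀ := by
        have e1 : x⁻¹ • R₀ = R₀ := by
          conv_lhs => rw [← hxR R₀]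
          rw [inv_smul_smul]
        have e2 : x • (u⁻¹ • R₀ : Sylow 3 X) = u⁻¹ • R₀ := hxR _
        have e3 : (x * u * x⁻¹ * u⁻¹) • R₀ = x • (u • (x⁻¹ • (u⁻¹ • R₀))) := by
          simp only [mul_smul]
        rw [e3]
        have e4 : x⁻¹ • (u⁻¹ • R₀ : Sylow 3 X) = u⁻¹ • R₀ := by
          conv_lhs => rw [← e2]
          rw [inv_smul_smul]
        rw [e4, smul_inv_smul, hxR]
      have := hfix R₀ _ hcU hc
      have e : x * u = (x * u * x⁻¹ * u⁻¹) * (u * x) := by group
      rw [e, this, one_mul]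
    exact hfix R₀ x hxU (hxR R₀)
  have hcard : Nat.card X = Nat.card (Equiv.Perm (Sylow 3 X)) := by
    haveI : Fintype (Sylow 3 X) := Fintype.ofFinite _
    rw [Nat.card_eq_fintype_card (α := Equiv.Perm (Sylow 3 X)), Fintype.card_perm, ← Nat.card_eq_fintype_card, hn, hX]
    rfl
  have hbij : Function.Bijective φ := (Nat.bijective_iff_injective_and_card φ).2 ⟨hφ, hcard⟩
  have e : Sylow 3 X ≃ Fin 4 := Finite.equivFinOfCardEq hn
  exact ⟨(MulEquiv.ofBijective φ hbij).trans (Equiv.permCongrHom e)⟩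

theorem normalizer_data (h : Nat.card G = 168) (T : Sylow 2 G) (ι : D →* G) (hι : Function.Injective ι)
    (hr : ι.range = (T : Subgroup G)) (W : Subgroup G) (hWT : W ≤ T) (hK : IsKleinFour W) :
    Nat.card (normalizer (W : Set G)) = 24 ∧
      ∀ b ∈ W, b ≠ 1 → ∃ k ∈ normalizer (W : Set G), k * ι r2 * k⁻¹ = b := by
  classical
  obtain ⟨hz, hb, hc, a, haW, ha1, haz, t, htT, hat⟩ := lift_facts T ι hι hr W hWT hK
  have hzc := centralizer_z h T ι hι hr
  have hz1 : ι r2 ≠ 1 := by
    intro h0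
    apply r2_ne_one
    apply hι
    rw [h0, map_one]
  generalize ι r2 = z at *
  have hTX : (T : Subgroup G) ≤ normalizer (W : Set G) := normal_of_sylow h T W hWT hK
  have hsq : ∀ w ∈ W, w * w = 1 := fun w hw => sq_of_klein W hK hw
  have ord2 : ∀ w ∈ W, w ≠ 1 → orderOf w = 2 := fun w hw hw1 =>
    orderOf_eq_prime (by rw [pow_two]; exact hsq w hw) hw1
  have hcomm : ∀ w ∈ W, ∀ w' ∈ W, w * w' = w' * w := by
    intro w hw w' hw'
    have h1 := hsq _ (W.mul_mem hw hw')
    have h2 := hsq _ hw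
    have h3 := hsq _ hw'
    have e : w' * w * (w * w') = 1 := by
      calc w' * w * (w * w') = w' * (w * w) * w' := by group
        _ = 1 := by rw [h2, mul_one, h3]
    have e1 : w * w' = (w * w')⁻¹ := eq_inv_of_mul_eq_one_left h1
    have e2 : w' * w = (w * w')⁻¹ := eq_inv_of_mul_eq_one_left e
    rw [e2]; exact e1
  obtain ⟨k, hk⟩ := isConj_iff.1 (invol_conj h (ord2 a haW ha1) (ord2 z hz hz1))
  have hT'mem : ∀ x, x ∈ ((k⁻¹ • T : Sylow 2 G) : Subgroup G) ↔ k * x * k⁻¹ ∈ (T : Subgroup G) := by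
    intro x
    have := mem_smul_sylow k⁻¹ x T
    simp only [inv_inv] at this
    exact this
  have hcz : ∀ x, x ∈ (T : Subgroup G) ↔ z * x = x * z := by
    intro x
    rw [← hzc, Subgroup.mem_centralizer_iff]
    simp
  have hWT' : W ≤ ((k⁻¹ • T : Sylow 2 G) : Subgroup G) := by
    intro w hw
    rw [hT'mem, hcz, ← hk]
    have e := hcomm a haW w hw
    calc k * a * k⁻¹ * (k * w * k⁻¹) = k * (a * w) * k⁻¹ := by group
      _ = k * (w * a) * k⁻¹ := by rw [e]
      _ = k * w * k⁻¹ * (k * a * k⁻¹) := by group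
  have hT'X := normal_of_sylow h (k⁻¹ • T : Sylow 2 G) W hWT' hK
  have hacent : ∀ y ∈ ((k⁻¹ • T : Sylow 2 G) : Subgroup G), a * y = y * a := by
    intro y hy
    rw [hT'mem, hcz, ← hk] at hy
    have e : k * (a * y) * k⁻¹ = k * (y * a) * k⁻¹ := by
      calc k * (a * y) * k⁻¹ = k * a * k⁻¹ * (k * y * k⁻¹) := by group
        _ = k * y * k⁻¹ * (k * a * k⁻¹) := hy
        _ = k * (y * a) * k⁻¹ := by group
    exact mul_left_cancel (mul_right_cancel e)
  have hne : ¬ ((k⁻¹ • T : Sylow 2 G) : Subgroup G) ≤ T := by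
    intro hle
    have heq : ((k⁻¹ • T : Sylow 2 G) : Subgroup G) = T :=
      Subgroup.eq_of_le_of_card_ge hle (by rw [card2 h T, card2 h (k⁻¹ • T : Sylow 2 G)])
    exact hat (hacent t (heq ▸ htT))
  obtain ⟨y, hyT', hyT⟩ := SetLike.not_le_iff_exists.1 hne
  have hyX := hT'X hyT'
  let Q : Subgroup (normalizer (W : Set G)) := (T : Subgroup G).subgroupOf (normalizer (W : Set G))
  have hQc : Nat.card Q = 8 := by
    rw [← card2 h T]
    exact Nat.card_congr (Subgroup.subgroupOfEquivOfLe hTX).toEquiv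
  have hXc := Subgroup.card_mul_index Q
  have hBc : Nat.card {b : W // b ≠ 1} = 3 := by
    haveI : Fintype W := Fintype.ofFinite _
    have h1 := Set.card_ne_eq (1 : W)
    have h2 : Nat.card W = 4 := hK.card_four
    rw [Nat.card_eq_fintype_card] at h2 ⊢
    rw [h2] at h1
    convert h1 using 1
    exact Fintype.card_congr (Equiv.refl _)
  have hmemz : ∀ c : (normalizer (W : Set G)) ⧸ Q, ((c.out : normalizer (W : Set G)) : G) * z * ((c.out : normalizer (W : Set G)) : G)⁻¹ ∈ W :=
    fun c => (Subgroup.mem_normalizer_iff.1 c.out.2 z).1 hz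
  let f : ((normalizer (W : Set G)) ⧸ Q) → {b : W // b ≠ 1} := fun c =>
    ⟨⟨_, hmemz c⟩, by
      intro h0
      have h1 := congrArg Subtype.val h0
      simp only [Subgroup.coe_one] at h1
      apply hz1
      have h2 : ((c.out : normalizer (W : Set G)) : G) * z = (c.out : normalizer (W : Set G)) := by
        exact mul_inv_eq_one.mp h1
      simpa using h2⟩
  have finj : Function.Injective f := by
    intro c c' hcc
    have h1 : ((c.out : normalizer (W : Set G)) : G) * z * ((c.out : normalizer (W : Set G)) : G)⁻¹ =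
        ((c'.out : normalizer (W : Set G)) : G) * z * ((c'.out : normalizer (W : Set G)) : G)⁻¹ :=
      congrArg (fun v : {b : W // b ≠ 1} => ((v.1 : W) : G)) hcc
    rw [← QuotientGroup.out_eq' c, ← QuotientGroup.out_eq' c', QuotientGroup.eq]
    show (((c.out)⁻¹ * c'.out : normalizer (W : Set G)) : G) ∈ (T : Subgroup G)
    rw [hcz]
    simp only [Subgroup.coe_mul, Subgroup.coe_inv]
    set p : G := ((c.out : normalizer (W : Set G)) : G)
    set q : G := ((c'.out : normalizer (W : Set G)) : G)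
    have h2 : q⁻¹ * (p * z * p⁻¹) * q = z := by rw [h1]; group
    calc z * (p⁻¹ * q) = p⁻¹ * (p * z * p⁻¹) * q := by group
      _ = p⁻¹ * (q * z * q⁻¹) * q := by rw [h1]
      _ = p⁻¹ * q * z := by group
  have hile : Q.index ≤ 3 := by
    rw [← hBc]
    exact Nat.card_le_card_of_injective f finj
  have hi0 : Q.index ≠ 0 := Subgroup.index_ne_zero_of_finite
  have hi1 : Q.index ≠ 1 := by
    intro h1
    rw [Subgroup.index_eq_one] at h1
    have : (⟨y, hyX⟩ : normalizer (W : Set G)) ∈ Q := by rw [h1]; trivial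
    exact hyT this
  have hdvd : Nat.card (normalizer (W : Set G)) ∣ 168 := by
    rw [← h]; exact Subgroup.card_subgroup_dvd_card _
  have hi2 : Q.index ≠ 2 := by
    intro h2
    rw [hQc, h2] at hXc
    rw [← hXc] at hdvd
    revert hdvd; decide
  have hi3 : Q.index = 3 := by omega
  refine ⟨by rw [← hXc, hQc, hi3], ?_⟩
  have hbij : Function.Bijective f := (Nat.bijective_iff_injective_and_card f).2 ⟨finj, by
    rw [hBc]; exact hi3⟩
  intro b hbW hb1
  obtain ⟨c, hc'⟩ := hbij.2 ⟨⟨b, hbW⟩, fun h0 => hb1 (congrArg Subtype.val h0)⟩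
  refine ⟨_, c.out.2, ?_⟩
  exact congrArg (fun v : {b : W // b ≠ 1} => ((v.1 : W) : G)) hc'

omit [IsSimpleGroup G] in
theorem klein_eq (ι : D →* G) (hι : Function.Injective ι) (W : Subgroup G) (hW : W ≤ ι.range) (hK : IsKleinFour W) :
    W = (VS S₁ good₁).map ι ∨ W = (VS S₂ good₂).map ι := by
  have hmap : (W.comap ι).map ι = W := Subgroup.map_comap_eq_self hW
  have hc : Nat.card (W.comap ι) = 4 := by
    have e1 := Subgroup.card_map_of_injective (K := W.comap ι) hι
    rw [hmap] at e1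
    rw [← e1]; exact hK.card_four
  have hsq : ∀ x ∈ W.comap ι, x * x = 1 := by
    intro x hx
    apply hι
    rw [map_mul, map_one]
    exact sq_of_klein W hK hx
  obtain ⟨S, hG, hS12, hS⟩ := klein_cases (W.comap ι) hc hsq
  rcases hS12 with rfl | rfl
  · left
    conv_lhs => rw [← hmap]
    congr 1
    ext x
    exact hS x
  · right
    conv_lhs => rw [← hmap]
    congr 1
    ext x
    exact hS x

omit [IsSimpleGroup G] in
theorem klein_VS (ι : D →* G) (hι : Function.Injective ι) (S : Finset D) (hS : Good S) :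
    IsKleinFour ((VS S hS).map ι) := by
  have hc : Nat.card ((VS S hS).map ι) = 4 := by
    rw [Subgroup.card_map_of_injective hι, card_VS]
  refine ⟨hc, ?_⟩
  haveI : Nontrivial ((VS S hS).map ι) := by
    rw [← Finite.one_lt_card_iff_nontrivial, hc]; norm_num
  rw [Monoid.exponent_eq_prime_iff Nat.prime_two]
  rintro ⟨_, x, hx, rfl⟩ hne
  apply orderOf_eq_prime
  · apply Subtype.ext
    simp only [Subgroup.coe_pow, Subgroup.coe_one]
    rw [← map_pow, pow_two, hS.2.2.2.2.1 x hx, map_one]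
  · exact hne

/-- Let G be a simple group of order 168 and T a Sylow 2-subgroup. Then T contains exactly two subgroups that are Klein four-groups; they are not conjugate in G; and the normalizer of every Klein four-subgroup of G is isomorphic to the symmetric group of degree 4. -/
theorem result {G : Type*} [Group G] [Finite G] [IsSimpleGroup G] (h : Nat.card G = 168) (T : Sylow 2 G) : Nat.card {U : Subgroup G // U ≤ (T : Subgroup G) ∧ IsKleinFour ↥U} = 2 ∧ (∀ U W : Subgroup G, U ≤ (T : Subgroup G) → W ≤ (T : Subgroup G) → IsKleinFour ↥U → IsKleinFour ↥W → U ≠ W → ∀ g : G, U.map (MulAut.conj g).toMonoidHom ≠ W) ∧ ∀ U : Subgroup G, IsKleinFour ↥U → Nonempty (↥(Subgroup.normalizer (U : Set G)) ≃* Equiv.Perm (Fin 4)) := by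
  refine ⟨?_, ?_, ?_⟩
  · obtain ⟨ι, hι, hr⟩ := setup h T
    rw [Nat.card_eq_two_iff]
    have hle : ∀ (S : Finset D) (hS : Good S), (VS S hS).map ι ≤ (T : Subgroup G) := by
      intro S hS
      rw [← hr]
      exact Subgroup.map_le_range _ _
    refine ⟨⟨_, hle S₁ good₁, klein_VS ι hι S₁ good₁⟩, ⟨_, hle S₂ good₂, klein_VS ι hι S₂ good₂⟩, ?_, ?_⟩
    · intro h0
      have h1 := congrArg Subtype.val h0
      have h2 := Subgroup.map_injective hι h1
      apply S_ne
      ext x
      have h3 : x ∈ VS S₁ good₁ ↔ x ∈ VS S₂ good₂ := by rw [h2]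
      exact h3
    · ext ⟨U, hU, hK⟩
      simp only [Set.mem_insert_iff, Set.mem_singleton_iff, Set.mem_univ, iff_true, Subtype.mk.injEq]
      exact klein_eq ι hι U (hr ▸ hU) hK
  · intro U W hU hW hKU hKW hne g hg
    obtain ⟨ι, hι, hr⟩ := setup h T
    obtain ⟨hzU, hbU, -, -⟩ := lift_facts T ι hι hr U hU hKU
    have hzc := centralizer_z h T ι hι hr
    obtain ⟨-, htrans⟩ := normalizer_data h T ι hι hr W hW hKW
    have hz1 : ι r2 ≠ 1 := by
      intro h0
      apply r2_ne_one
      apply hι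
      rw [h0, map_one]
    have hgmem : ∀ u ∈ U, g * u * g⁻¹ ∈ W := by
      intro u hu
      rw [← hg]
      exact ⟨u, hu, rfl⟩
    have hne1 : g * ι r2 * g⁻¹ ≠ 1 := by
      intro h0
      apply hz1
      have h2 : g * ι r2 = g := mul_inv_eq_one.mp h0
      simpa using h2
    obtain ⟨k, hkX, hk⟩ := htrans _ (hgmem _ hzU) hne1
    have hcT : k⁻¹ * g ∈ (T : Subgroup G) := by
      rw [← hzc, Subgroup.mem_centralizer_iff]
      intro x hx
      rw [Set.mem_singleton_iff] at hx
      subst hx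
      have e : ι r2 = k⁻¹ * (g * ι r2 * g⁻¹) * k := by
        rw [← hk]; group
      calc ι r2 * (k⁻¹ * g) = k⁻¹ * (g * ι r2 * g⁻¹) * k * (k⁻¹ * g) := by rw [← e]
        _ = k⁻¹ * g * ι r2 := by group
    apply hne
    apply Subgroup.eq_of_le_of_card_ge
    · intro u hu
      have h1 : (k⁻¹ * g)⁻¹ * u * ((k⁻¹ * g)⁻¹)⁻¹ ∈ U := hbU _ ((T : Subgroup G).inv_mem hcT) u hu
      have h2 := hgmem _ h1
      have h3 : k⁻¹ * (g * ((k⁻¹ * g)⁻¹ * u * ((k⁻¹ * g)⁻¹)⁻¹) * g⁻¹) * k⁻¹⁻¹ ∈ W := by
        have hkinv := (normalizer (W : Set G)).inv_mem hkX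
        exact (Subgroup.mem_normalizer_iff.1 hkinv _).1 h2
      have e : k⁻¹ * (g * ((k⁻¹ * g)⁻¹ * u * ((k⁻¹ * g)⁻¹)⁻¹) * g⁻¹) * k⁻¹⁻¹ = u := by group
      rwa [e] at h3
    · rw [hKU.card_four, hKW.card_four]
  · intro U hK
    have hpU : IsPGroup 2 U := by
      apply IsPGroup.of_card (n := 2)
      rw [hK.card_four]; norm_num
    obtain ⟨T', hUT'⟩ := hpU.exists_le_sylow
    obtain ⟨ι, hι, hr⟩ := setup h T'
    obtain ⟨hzU, -, hcU, -⟩ := lift_facts T' ι hι hr U hUT' hK
    have hzc := centralizer_z h T' ι hι hr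
    obtain ⟨hXc, -⟩ := normalizer_data h T' ι hι hr U hUT' hK
    haveI hnorm : (U.subgroupOf (normalizer (U : Set G))).Normal := Subgroup.normal_in_normalizer
    apply s4_of hXc (U.subgroupOf (normalizer (U : Set G)))
    · rw [← hK.card_four]
      exact Nat.card_congr (Subgroup.subgroupOfEquivOfLe Subgroup.le_normalizer).toEquiv
    · intro x hx
      rw [Subgroup.mem_subgroupOf]
      have hall : ∀ w ∈ U, (x : G) * w = w * x := by
        intro w hw
        have := hx ⟨w, Subgroup.le_normalizer hw⟩ (by rw [Subgroup.mem_subgroupOf]; exact hw)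
        exact congrArg Subtype.val this
      apply hcU _ _ hall
      rw [← hzc, Subgroup.mem_centralizer_iff]
      intro y hy
      rw [Set.mem_singleton_iff] at hy
      subst hy
      exact (hall _ hzU).symm
    · intro u hu hu1 r hor hcomm
      rw [Subgroup.mem_subgroupOf] at hu
      have hu1' : (u : G) ≠ 1 := fun h0 => hu1 (Subtype.ext h0)
      have hou : orderOf (u : G) = 2 :=
        orderOf_eq_prime (by rw [pow_two]; exact sq_of_klein U hK hu) hu1'
      have hor' : orderOf (r : G) = 3 := by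
        rw [Subgroup.orderOf_coe]; exact hor
      exact no_comm_3_2 h hor' hou (congrArg Subtype.val hcomm)

end Cfsg.Agent.S1007
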