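import Cfsg.Statements.S1008
import Cfsg.Agent.S1007

set_option autoImplicit false
set_option linter.all false
open Cfsg

namespace Cfsg.Agent.S1008

open Subgroup Cfsg.Agent.Lib.Order168 Cfsg.Agent.Lib.SylowCount
open Cfsg.Agent.S1007 (D r2 S₁ S₂ good₁ good₂ VS S_ne setup sq_of_klein lift_facts normal_of_sylow centralizer_z
  normalizer_data klein_eq klein_VS r2_ne_one)

variable {G : Type*} [Group G] [Finite G]

theorem klein_iff_sq (K : Subgroup G) (hc : Nat.card K = 4) (hsq : ∀ x ∈ K, x * x = 1) : IsKleinFour K := by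
  refine ⟨hc, ?_⟩
  haveI : Nontrivial K := by
    rw [← Finite.one_lt_card_iff_nontrivial, hc]; norm_num
  rw [Monoid.exponent_eq_prime_iff Nat.prime_two]
  rintro ⟨x, hx⟩ hne
  apply orderOf_eq_prime
  · apply Subtype.ext
    simp only [Subgroup.coe_pow, Subgroup.coe_one]
    rw [pow_two]; exact hsq x hx
  · exact hne

theorem klein_conj (U : Subgroup G) (hK : IsKleinFour U) (g : G) :
    IsKleinFour (U.map (MulAut.conj g).toMonoidHom) := by
  apply klein_iff_sq
  · rw [Subgroup.card_map_of_injective (MulAut.conj g).injective]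
    exact hK.card_four
  · rintro _ ⟨u, hu, rfl⟩
    have := sq_of_klein U hK hu
    simp only [MulEquiv.coe_toMonoidHom, ← map_mul, this, map_one]

theorem mem_of_card_two (K : Subgroup G) (hc : Nat.card K = 2) {x y : G} (hx : x ∈ K) (hy : y ∈ K)
    (hx1 : x ≠ 1) (hy1 : y ≠ 1) : x = y := by
  obtain ⟨t, -, ht⟩ := (Nat.card_eq_two_iff' (1 : K)).1 hc
  have h1 := ht ⟨x, hx⟩ (fun h0 => hx1 (congrArg Subtype.val h0))
  have h2 := ht ⟨y, hy⟩ (fun h0 => hy1 (congrArg Subtype.val h0))
  exact congrArg Subtype.val (h1.trans h2.symm)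

variable [IsSimpleGroup G]

theorem star (h : Nat.card G = 168) (M K : Subgroup G) (hKM : ∀ m ∈ M, ∀ k ∈ K, m * k * m⁻¹ ∈ K)
    (r : G) (hrM : r ∈ M) (hr : orderOf r = 3) (hKc : Nat.card K = 2 ∨ Nat.card K = 4 ∨ Nat.card K = 8) :
    ∃ U : Subgroup G, IsKleinFour U ∧ M ≤ normalizer (U : Set G) := by
  have hnorm : ∀ m ∈ M, m ∈ normalizer (K : Set G) := by
    intro m hm
    rw [Subgroup.mem_normalizer_iff]
    intro x
    refine ⟨hKM m hm x, fun hx => ?_⟩
    have := hKM m⁻¹ (M.inv_mem hm) _ hx
    simpa [mul_assoc] using this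
  rcases hKc with hc | hc | hc
  · exfalso
    haveI : Nontrivial K := by
      rw [← Finite.one_lt_card_iff_nontrivial, hc]; norm_num
    obtain ⟨⟨t, ht⟩, ht1⟩ := exists_ne (1 : K)
    have ht1' : t ≠ 1 := fun h0 => ht1 (Subtype.ext h0)
    have hto : orderOf t = 2 := by
      have h1 : orderOf t ∣ 2 := by
        rw [← hc]; exact Subgroup.orderOf_dvd_natCard _ ht
      rcases (Nat.dvd_prime Nat.prime_two).mp h1 with h2 | h2
      · exact absurd (orderOf_eq_one_iff.mp h2) ht1'
      · exact h2
    have hne : r * t * r⁻¹ ≠ 1 := by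
      intro h0
      apply ht1'
      have h2 : r * t = r := mul_inv_eq_one.mp h0
      simpa using h2
    have he := mem_of_card_two K hc (hKM r hrM t ht) ht hne ht1'
    apply no_comm_3_2 h hr hto
    show t * r = r * t
    exact (mul_inv_eq_iff_eq_mul.mp he).symm
  · by_cases hall : ∀ x ∈ K, x * x = 1
    · exact ⟨K, klein_iff_sq K hc hall, hnorm⟩
    · exfalso
      push Not at hall
      obtain ⟨x, hx, hxx⟩ := hall
      have hxo : orderOf x = 4 := by
        have h1 : orderOf x ∣ 4 := by
          rw [← hc]; exact Subgroup.orderOf_dvd_natCard _ hx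
        have h2 : orderOf x ∈ Nat.divisors 4 := by simp [h1]
        have h3 : Nat.divisors 4 = {1, 2, 4} := by decide
        rw [h3] at h2
        simp only [Finset.mem_insert, Finset.mem_singleton] at h2
        rcases h2 with h2 | h2 | h2
        · have := orderOf_eq_one_iff.mp h2
          subst this; simp at hxx
        · have := pow_orderOf_eq_one x
          rw [h2, pow_two] at this
          exact absurd this hxx
        · exact h2
      have hx4 : x * x * (x * x) = 1 := by
        have := pow_orderOf_eq_one x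
        rw [hxo] at this
        calc x * x * (x * x) = x ^ 4 := by simp only [pow_succ, pow_zero, one_mul, mul_assoc]
          _ = 1 := this
      have hKz : K = zpowers x := by
        symm
        apply Subgroup.eq_of_le_of_card_ge
        · rw [Subgroup.zpowers_le]; exact hx
        · rw [hc, Nat.card_zpowers, hxo]
      have hy := hKM r hrM x hx
      rw [hKz, Subgroup.mem_zpowers_iff] at hy
      obtain ⟨i, hi⟩ := hy
      have hi' : x ^ (i % (4 : ℤ)) = r * x * r⁻¹ := by
        have := zpow_mod_orderOf x i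
        rw [hxo] at this
        rw [← hi]; exact_mod_cast this
      have hj0 : 0 ≤ i % (4 : ℤ) := Int.emod_nonneg _ (by norm_num)
      have hj4 : i % (4 : ℤ) < 4 := Int.emod_lt_of_pos _ (by norm_num)
      have hyy : (r * x * r⁻¹) * (r * x * r⁻¹) = r * (x * x) * r⁻¹ := by group
      have hyne : (r * x * r⁻¹) * (r * x * r⁻¹) ≠ 1 := by
        rw [hyy]
        intro h0
        apply hxx
        have h2 : r * (x * x) = r := mul_inv_eq_one.mp h0
        simpa using h2
      have ht : (x * x) ≠ 1 := hxx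
      have hto : orderOf (x * x) = 2 := orderOf_eq_prime (by rw [pow_two]; exact hx4) ht
      have hcomm : r * (x * x) * r⁻¹ = x * x := by
        rw [← hyy, ← hi']
        generalize i % (4 : ℤ) = j at *
        interval_cases j
        · exfalso; apply hyne; rw [← hi']; simp
        · simp
        · exfalso; apply hyne; rw [← hi']
          rw [zpow_two]
          exact hx4
        · have e3 : x ^ (3 : ℤ) = x * x * x := by
            have e4 : x ^ (3 : ℤ) = x ^ (3 : ℕ) := by exact_mod_cast zpow_natCast x 3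
            rw [e4]; simp [pow_succ]
          rw [e3]
          calc x * x * x * (x * x * x) = x * x * (x * x) * (x * x) := by simp only [mul_assoc]
            _ = x * x := by rw [hx4, one_mul]
      apply no_comm_3_2 h hr hto
      show x * x * r = r * (x * x)
      exact (mul_inv_eq_iff_eq_mul.mp hcomm).symm
  · exfalso
    have hpK : IsPGroup 2 K := by
      apply IsPGroup.of_card (n := 3)
      rw [hc]; norm_num
    obtain ⟨T, hKT⟩ := hpK.exists_le_sylow
    have hKT' : K = T := Subgroup.eq_of_le_of_card_ge hKT (by rw [hc, card2 h T])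
    have hrN := hnorm r hrM
    rw [hKT', normalizer_T h T] at hrN
    have h1 : orderOf r ∣ 8 := by
      rw [← card2 h T]; exact Subgroup.orderOf_dvd_natCard _ hrN
    rw [hr] at h1
    revert h1; decide

theorem M12 (h : Nat.card G = 168) (M : Subgroup G) (hM : Nat.card M = 12 ∨ Nat.card M = 24) :
    ∃ U : Subgroup G, IsKleinFour U ∧ M ≤ normalizer (U : Set G) := by
  haveI : Fact (Nat.Prime 3) := ⟨by norm_num⟩
  obtain ⟨P⟩ : Nonempty (Sylow 2 M) := inferInstance
  have hP : (Nat.card M = 12 ∧ Nat.card (P : Subgroup M) = 4) ∨ (Nat.card M = 24 ∧ Nat.card (P : Subgroup M) = 8) := by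
    rcases hM with hM | hM
    · left
      refine ⟨hM, ?_⟩
      rw [card_sylow_of_factor P 2 3 (by rw [hM]; norm_num) (by norm_num)]; norm_num
    · right
      refine ⟨hM, ?_⟩
      rw [card_sylow_of_factor P 3 3 (by rw [hM]; norm_num) (by norm_num)]; norm_num
  have hidx : (P : Subgroup M).index = 3 := by
    have h1 := Subgroup.card_mul_index (P : Subgroup M)
    rcases hP with ⟨h2, h3⟩ | ⟨h2, h3⟩ <;> rw [h2, h3] at h1 <;> omega
  have hcore : (P : Subgroup M).normalCore.index ∣ 6 := by
    have h1 : (P : Subgroup M).normalCore.index ∣ ((P : Subgroup M).index).factorial := by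
      rw [Subgroup.normalCore_eq_ker, Subgroup.index_ker, Subgroup.index_eq_card, ← Nat.card_perm]
      exact Subgroup.card_subgroup_dvd_card (MulAction.toPermHom M (M ⧸ (P : Subgroup M))).range
    rw [hidx] at h1
    exact h1
  have hcm := Subgroup.card_mul_index (P : Subgroup M).normalCore
  have hdvd : Nat.card (P : Subgroup M).normalCore ∣ Nat.card (P : Subgroup M) :=
    Subgroup.card_dvd_of_le (Subgroup.normalCore_le _)
  have hcc : Nat.card (P : Subgroup M).normalCore = 2 ∨ Nat.card (P : Subgroup M).normalCore = 4 ∨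
      Nat.card (P : Subgroup M).normalCore = 8 := by
    generalize Nat.card (P : Subgroup M).normalCore = c at *
    generalize (P : Subgroup M).normalCore.index = d at *
    have hd : d ≤ 6 := Nat.le_of_dvd (by norm_num) hcore
    rcases hP with ⟨h2, h3⟩ | ⟨h2, h3⟩
    · rw [h3] at hdvd
      rw [h2] at hcm
      have hc4 : c ≤ 4 := Nat.le_of_dvd (by norm_num) hdvd
      interval_cases c <;> first | omega | (exfalso; revert hdvd; decide)
    · rw [h3] at hdvd
      rw [h2] at hcm
      have hc4 : c ≤ 8 := Nat.le_of_dvd (by norm_num) hdvd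
      interval_cases c <;> first | omega | (exfalso; revert hdvd; decide)
  have h3M : 3 ∣ Nat.card M := by
    rcases hM with hM | hM <;> rw [hM] <;> norm_num
  obtain ⟨r, hr⟩ := exists_prime_orderOf_dvd_card' (G := M) 3 h3M
  apply star h M ((P : Subgroup M).normalCore.map M.subtype) ?_ (r : G) r.2 (by rw [Subgroup.orderOf_coe]; exact hr)
  · rwa [Subgroup.card_map_of_injective M.subtype_injective]
  · rintro m hm _ ⟨k, hk, rfl⟩
    refine ⟨⟨m, hm⟩ * k * ⟨m, hm⟩⁻¹, ?_, rfl⟩
    exact (Subgroup.normalCore_normal (P : Subgroup M)).conj_mem k hk ⟨m, hm⟩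

theorem Mp (p : ℕ) [Fact p.Prime] (hcS : ∀ S : Sylow p G, Nat.card (S : Subgroup G) = p)
    (M : Subgroup G) (k : ℕ) (hc : Nat.card M = p * k) (hk : ¬ p ∣ k) (hk0 : 0 < k) (hkp : k ≤ p) :
    ∃ S : Sylow p G, M ≤ normalizer ((S : Subgroup G) : Set G) := by
  have hpr : p.Prime := Fact.out
  obtain ⟨P⟩ : Nonempty (Sylow p M) := inferInstance
  have hPc : Nat.card (P : Subgroup M) = p := by
    rw [card_sylow_of_factor P 1 k (by rw [hc, pow_one]) hk, pow_one]
  have hn : Nat.card (Sylow p M) = 1 := by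
    have h1 := card_sylow_dvd_cofactor (G := M) (p := p) 1 k (by rw [hc, pow_one]) hk
    have h2 := card_sylow_mod (G := M) p
    have h3 : Nat.card (Sylow p M) ≤ k := Nat.le_of_dvd hk0 h1
    have h4 : Nat.card (Sylow p M) ≠ p := by
      intro h5
      rw [h5] at h1
      exact hk h1
    have h5 : Nat.card (Sylow p M) < p := by omega
    rwa [Nat.mod_eq_of_lt h5] at h2
  have hidx := Sylow.card_eq_index_normalizer P
  rw [hn] at hidx
  have htop : normalizer ((P : Subgroup M) : Set M) = ⊤ := Subgroup.index_eq_one.mp hidx.symm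
  have hpg : IsPGroup p ((P : Subgroup M).map M.subtype) := by
    apply IsPGroup.of_card (n := 1)
    rw [Subgroup.card_map_of_injective M.subtype_injective, hPc, pow_one]
  obtain ⟨S, hS⟩ := hpg.exists_le_sylow
  have hSeq : (P : Subgroup M).map M.subtype = S := by
    apply Subgroup.eq_of_le_of_card_ge hS
    rw [hcS S, Subgroup.card_map_of_injective M.subtype_injective, hPc]
  refine ⟨S, ?_⟩
  intro m hm
  rw [Subgroup.mem_normalizer_iff, ← hSeq]
  have hmN : ∀ n : M, n ∈ normalizer ((P : Subgroup M) : Set M) := fun n => by rw [htop]; trivial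
  intro x
  constructor
  · rintro ⟨x', hx', rfl⟩
    exact ⟨⟨m, hm⟩ * x' * ⟨m, hm⟩⁻¹, (Subgroup.mem_normalizer_iff.1 (hmN ⟨m, hm⟩) x').1 hx', rfl⟩
  · rintro ⟨y', hy', hy⟩
    have hxM : x = ((⟨m, hm⟩⁻¹ * y' * ⟨m, hm⟩ : M) : G) := by
      simp only [Subgroup.coe_mul, Subgroup.coe_inv, Subgroup.coe_subtype] at hy ⊢
      rw [hy]; group
    refine ⟨⟨m, hm⟩⁻¹ * y' * ⟨m, hm⟩, ?_, hxM.symm⟩
    have := (Subgroup.mem_normalizer_iff.1 (hmN (⟨m, hm⟩⁻¹)) y').1 hy'
    rw [inv_inv] at this
    exact this

theorem card_NU (h : Nat.card G = 168) (U : Subgroup G) (hK : IsKleinFour U) :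
    Nat.card (normalizer (U : Set G)) = 24 := by
  have hpU : IsPGroup 2 U := by
    apply IsPGroup.of_card (n := 2)
    rw [hK.card_four]; norm_num
  obtain ⟨T, hUT⟩ := hpU.exists_le_sylow
  obtain ⟨ι, hι, hr⟩ := setup h T
  exact (normalizer_data h T ι hι hr U hUT hK).1

theorem ne_top_of_card (h : Nat.card G = 168) (H : Subgroup G) (hH : Nat.card H ≠ 168) : H ≠ ⊤ := by
  rintro rfl
  apply hH
  rw [Subgroup.card_top, h]

theorem coatom_NU (h : Nat.card G = 168) (U : Subgroup G) (hK : IsKleinFour U) :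
    IsCoatom (normalizer (U : Set G)) := by
  have hc := card_NU h U hK
  refine ⟨ne_top_of_card h _ (by rw [hc]; norm_num), ?_⟩
  intro H hH
  have h1 : Nat.card (normalizer (U : Set G)) ∣ Nat.card H := Subgroup.card_dvd_of_le hH.le
  have h2 : Nat.card H ∣ 168 := by
    rw [← h]; exact Subgroup.card_subgroup_dvd_card H
  rw [hc] at h1
  by_cases h3 : Nat.card H = 24
  · exfalso
    have := Subgroup.eq_of_le_of_card_ge hH.le (by rw [hc, h3])
    exact hH.ne this
  · apply Subgroup.eq_top_of_card_eq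
    rw [h]
    generalize Nat.card H = n at *
    obtain ⟨a, rfl⟩ := h1
    obtain ⟨b, hb⟩ := h2
    have ha : a ≠ 0 := by rintro rfl; simp at hb
    have hab : a * b = 7 := by nlinarith
    have hadv : a ∣ 7 := ⟨b, hab.symm⟩
    rcases (Nat.dvd_prime (by norm_num)).mp hadv with h4 | h4
    · subst h4; simp at h3
    · subst h4; norm_num

theorem sylow3_le (h : Nat.card G = 168) (S : Sylow 3 G) :
    ∃ U : Subgroup G, IsKleinFour U ∧ (S : Subgroup G) ≤ normalizer (U : Set G) := by
  haveI : Fact (Nat.Prime 3) := ⟨by norm_num⟩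
  obtain ⟨T⟩ : Nonempty (Sylow 2 G) := inferInstance
  obtain ⟨ι, hι, hr⟩ := setup h T
  have hU₀ := klein_VS ι hι S₁ good₁
  set U₀ := (VS S₁ good₁).map ι with hU₀def
  have hc := card_NU h U₀ hU₀
  obtain ⟨r, hro⟩ := exists_prime_orderOf_dvd_card' (G := normalizer (U₀ : Set G)) 3 (by rw [hc]; norm_num)
  have hro' : orderOf (r : G) = 3 := by rw [Subgroup.orderOf_coe]; exact hro
  obtain ⟨Q, hQ⟩ := exists_sylow_mem (p := 3) (k := 1) (x := (r : G)) (by rw [hro', pow_one])
  have hQz : zpowers (r : G) = Q := by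
    apply Subgroup.eq_of_le_of_card_ge
    · rw [Subgroup.zpowers_le]; exact hQ
    · rw [card3 h Q, Nat.card_zpowers, hro']
  have hQX : (Q : Subgroup G) ≤ normalizer (U₀ : Set G) := by
    rw [← hQz, Subgroup.zpowers_le]; exact r.2
  obtain ⟨g, hg⟩ := MulAction.exists_smul_eq G Q S
  refine ⟨U₀.map (MulAut.conj g).toMonoidHom, klein_conj U₀ hU₀ g, ?_⟩
  have e : normalizer ((U₀.map (MulAut.conj g).toMonoidHom : Subgroup G) : Set G) =
      (normalizer (U₀ : Set G)).map (MulAut.conj g).toMonoidHom :=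
    (Subgroup.map_equiv_normalizer_eq U₀ (MulAut.conj g)).symm
  rw [e]
  intro x hx
  rw [← hg] at hx
  have hx' := (mem_smul_sylow g x Q).1 hx
  refine ⟨g⁻¹ * x * g, hQX hx', ?_⟩
  simp [MulAut.conj_apply, mul_assoc]

theorem norm3 (h : Nat.card G = 168) (S : Sylow 3 G) (U : Subgroup G) (hK : IsKleinFour U)
    (hSU : (S : Subgroup G) ≤ normalizer (U : Set G)) :
    normalizer ((S : Subgroup G) : Set G) ≤ normalizer (U : Set G) := by
  haveI : Fact (Nat.Prime 3) := ⟨by norm_num⟩
  have hc := card_NU h U hK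
  obtain ⟨S', hS'⟩ : ∃ S' : Sylow 3 (normalizer (U : Set G)),
      ∀ x : normalizer (U : Set G), x ∈ (S' : Subgroup (normalizer (U : Set G))) ↔ (x : G) ∈ (S : Subgroup G) := by
    refine ⟨S.subtype hSU, ?_⟩
    intro x
    show x ∈ (S : Subgroup G).subgroupOf _ ↔ _
    exact Subgroup.mem_subgroupOf
  have hn : Nat.card (Sylow 3 (normalizer (U : Set G))) = 4 := by
    have h1 := card_sylow_dvd_cofactor (G := normalizer (U : Set G)) (p := 3) 1 8 (by rw [hc]; norm_num) (by norm_num)
    have h2 := card_sylow_mod (G := normalizer (U : Set G)) 3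
    have hne : Nat.card (Sylow 3 (normalizer (U : Set G))) ≠ 1 := by
      intro h1'
      have htop : normalizer ((S' : Subgroup (normalizer (U : Set G))) : Set (normalizer (U : Set G))) = ⊤ := by
        apply Subgroup.eq_top_of_card_eq
        rw [card_normalizer_of_card_sylow S' 1 24 h1' (by rw [hc]) (by norm_num), hc]
      -- an involution in U and an element of order three
      obtain ⟨u, hu, hu1⟩ : ∃ u ∈ U, u ≠ 1 := by
        haveI : Nontrivial U := by
          rw [← Finite.one_lt_card_iff_nontrivial, hK.card_four]; norm_num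
        obtain ⟨x, hx⟩ := exists_ne (1 : U)
        exact ⟨x, x.2, fun h0 => hx (Subtype.ext h0)⟩
      have huo : orderOf u = 2 := orderOf_eq_prime (by rw [pow_two]; exact sq_of_klein U hK hu) hu1
      obtain ⟨r, hr, hr1⟩ : ∃ r ∈ (S : Subgroup G), r ≠ 1 := by
        haveI : Nontrivial (S : Subgroup G) := by
          rw [← Finite.one_lt_card_iff_nontrivial, card3 h S]; norm_num
        obtain ⟨x, hx⟩ := exists_ne (1 : (S : Subgroup G))
        exact ⟨x, x.2, fun h0 => hx (Subtype.ext h0)⟩
      have hro : orderOf r = 3 := by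
        have h1 : orderOf r ∣ 3 := by
          rw [← card3 h S]; exact Subgroup.orderOf_dvd_natCard _ hr
        rcases (Nat.dvd_prime (by norm_num)).mp h1 with h2 | h2
        · exact absurd (orderOf_eq_one_iff.mp h2) hr1
        · exact h2
      have huX : u ∈ normalizer (U : Set G) := Subgroup.le_normalizer hu
      have hconj : u * r * u⁻¹ ∈ (S : Subgroup G) := by
        have h3 : (⟨u, huX⟩ : normalizer (U : Set G)) ∈ normalizer ((S' : Subgroup (normalizer (U : Set G))) : Set (normalizer (U : Set G))) := by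
          rw [htop]; trivial
        have h4 := (Subgroup.mem_normalizer_iff.1 h3 ⟨r, hSU hr⟩).1 ((hS' _).2 hr)
        exact (hS' _).1 h4
      have hcS : u * r * u⁻¹ * r⁻¹ ∈ (S : Subgroup G) := (S : Subgroup G).mul_mem hconj ((S : Subgroup G).inv_mem hr)
      have hcU : u * r * u⁻¹ * r⁻¹ ∈ U := by
        have e : u * r * u⁻¹ * r⁻¹ = u * (r * u⁻¹ * r⁻¹) := by group
        rw [e]
        exact U.mul_mem hu ((Subgroup.mem_normalizer_iff.1 (hSU hr) _).1 (U.inv_mem hu))
      have hc1 : u * r * u⁻¹ * r⁻¹ = 1 := by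
        set c := u * r * u⁻¹ * r⁻¹ with hc'
        have d1 : orderOf c ∣ 3 := by
          rw [← card3 h S]; exact Subgroup.orderOf_dvd_natCard _ hcS
        have d2 : orderOf c ∣ 4 := by
          rw [← hK.card_four]; exact Subgroup.orderOf_dvd_natCard _ hcU
        have d3 : orderOf c ∣ 1 := by
          have := Nat.dvd_gcd d1 d2
          simpa using this
        exact orderOf_eq_one_iff.mp (Nat.dvd_one.mp d3)
      apply no_comm_3_2 h hro huo
      show u * r = r * u
      have e : u * r = (u * r * u⁻¹ * r⁻¹) * (r * u) := by group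
      rw [e, hc1, one_mul]
    have key : ∀ n : ℕ, n ∣ 8 → n % 3 = 1 → n ≠ 1 → n = 4 := by
      intro n h1 h2 h3
      have := Nat.le_of_dvd (by norm_num) h1
      interval_cases n <;> first | rfl | omega
    exact key _ h1 h2 hne
  have hc6 : Nat.card (normalizer ((S' : Subgroup (normalizer (U : Set G))) : Set (normalizer (U : Set G)))) = 6 :=
    card_normalizer_of_card_sylow S' 4 6 hn (by rw [hc]) (by norm_num)
  have hle : (normalizer ((S' : Subgroup (normalizer (U : Set G))) : Set (normalizer (U : Set G)))).map (normalizer (U : Set G)).subtype ≤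
      normalizer ((S : Subgroup G) : Set G) := by
    rintro _ ⟨y, hy, rfl⟩
    rw [Subgroup.mem_normalizer_iff]
    intro x
    have hy' := Subgroup.mem_normalizer_iff.1 hy
    simp only [Subgroup.coe_subtype]
    constructor
    · intro hx
      have := (hy' ⟨x, hSU hx⟩).1 ((hS' _).2 hx)
      exact (hS' _).1 this
    · intro hx
      have hxX : x ∈ normalizer (U : Set G) := by
        have h3 : (y : G) * x * (y : G)⁻¹ ∈ normalizer (U : Set G) := hSU hx
        have h4 : ((y : G))⁻¹ * ((y : G) * x * (y : G)⁻¹) * (y : G) ∈ normalizer (U : Set G) :=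
          Subgroup.mul_mem _ (Subgroup.mul_mem _ (Subgroup.inv_mem _ y.2) h3) y.2
        have e : ((y : G))⁻¹ * ((y : G) * x * (y : G)⁻¹) * (y : G) = x := by group
        rwa [e] at h4
      have := (hy' ⟨x, hxX⟩).2 ((hS' _).2 hx)
      exact (hS' _).1 this
  have heq := Subgroup.eq_of_le_of_card_ge hle (by
    rw [card_N3 h S, Subgroup.card_map_of_injective (normalizer (U : Set G)).subtype_injective, hc6])
  rw [← heq]
  exact Subgroup.map_subtype_le _

theorem uniq (h : Nat.card G = 168) (U U' : Subgroup G) (hK : IsKleinFour U) (hK' : IsKleinFour U')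
    (hN : normalizer (U' : Set G) = normalizer (U : Set G)) : U' = U := by
  haveI : Fact (Nat.Prime 3) := ⟨by norm_num⟩
  have hc := card_NU h U hK
  obtain ⟨r', hro⟩ := exists_prime_orderOf_dvd_card' (G := normalizer (U : Set G)) 3 (by rw [hc]; norm_num)
  have hro' : orderOf (r' : G) = 3 := by rw [Subgroup.orderOf_coe]; exact hro
  have hrN : (r' : G) ∈ normalizer (U : Set G) := r'.2
  generalize (r' : G) = r at hro' hrN
  have hrN' : r ∈ normalizer (U' : Set G) := hN ▸ hrN
  have hpU : IsPGroup 2 U := by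
    apply IsPGroup.of_card (n := 2)
    rw [hK.card_four]; norm_num
  obtain ⟨T, hUT⟩ := hpU.exists_le_sylow
  obtain ⟨ι, hι, hTr⟩ := setup h T
  obtain ⟨hzU, -, hcU, -⟩ := lift_facts T ι hι hTr U hUT hK
  have hzc := centralizer_z h T ι hι hTr
  by_contra hne
  have hU'N : ∀ a ∈ U', a ∈ normalizer (U : Set G) := fun a ha => hN ▸ Subgroup.le_normalizer ha
  have hUN' : ∀ a ∈ U, a ∈ normalizer (U' : Set G) := fun a ha => hN ▸ Subgroup.le_normalizer ha
  -- the intersection is trivial
  have hinter : ∀ c, c ∈ U → c ∈ U' → c = 1 := by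
    intro c hcU1 hcU2
    by_contra hc1
    have hco : orderOf c = 2 := orderOf_eq_prime (by rw [pow_two]; exact sq_of_klein U hK hcU1) hc1
    have hc'U : r * c * r⁻¹ ∈ U := (Subgroup.mem_normalizer_iff.1 hrN c).1 hcU1
    have hc'U' : r * c * r⁻¹ ∈ U' := (Subgroup.mem_normalizer_iff.1 hrN' c).1 hcU2
    have hc'1 : r * c * r⁻¹ ≠ 1 := by
      intro h0
      apply hc1
      have h2 : r * c = r := mul_inv_eq_one.mp h0
      simpa using h2
    have hc'c : r * c * r⁻¹ ≠ c := by
      intro h0
      apply no_comm_3_2 h hro' hco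
      show c * r = r * c
      exact (mul_inv_eq_iff_eq_mul.mp h0).symm
    have h3 : 3 ≤ Nat.card (U ⊓ U' : Subgroup G) := by
      let f : Fin 3 → (U ⊓ U' : Subgroup G) :=
        ![1, ⟨c, hcU1, hcU2⟩, ⟨r * c * r⁻¹, hc'U, hc'U'⟩]
      have hf : Function.Injective f := by
        intro i j hij
        have hval := congrArg Subtype.val hij
        fin_cases i <;> fin_cases j <;> first
          | rfl
          | (exfalso; simp [f] at hval; first | exact hc1 hval | exact hc1 hval.symm | exact hc'1 hval | exact hc'1 hval.symm | exact hc'c hval | exact hc'c hval.symm)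
      have := Nat.card_le_card_of_injective f hf
      simpa using this
    have h4 : Nat.card (U ⊓ U' : Subgroup G) ∣ 4 := by
      rw [← hK.card_four]
      exact Subgroup.card_dvd_of_le inf_le_left
    have h5 : Nat.card (U ⊓ U' : Subgroup G) = 4 := by
      have := Nat.le_of_dvd (by norm_num) h4
      generalize Nat.card (U ⊓ U' : Subgroup G) = n at *
      interval_cases n <;> first | rfl | omega
    have h6 : (U ⊓ U' : Subgroup G) = U :=
      Subgroup.eq_of_le_of_card_ge inf_le_left (by rw [h5, hK.card_four])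
    have h7 : U ≤ U' := inf_eq_left.mp h6
    have h8 : U = U' := Subgroup.eq_of_le_of_card_ge h7 (by rw [hK.card_four, hK'.card_four])
    exact hne h8.symm
  apply hne
  apply Subgroup.eq_of_le_of_card_ge
  · intro a ha
    have hcomm : ∀ u ∈ U, a * u = u * a := by
      intro u hu
      have h1 : a * u * a⁻¹ * u⁻¹ ∈ U :=
        U.mul_mem ((Subgroup.mem_normalizer_iff.1 (hU'N a ha) u).1 hu) (U.inv_mem hu)
      have h2 : a * u * a⁻¹ * u⁻¹ ∈ U' := by
        have e : a * u * a⁻¹ * u⁻¹ = a * (u * a⁻¹ * u⁻¹) := by group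
        rw [e]
        exact U'.mul_mem ha ((Subgroup.mem_normalizer_iff.1 (hUN' u hu) _).1 (U'.inv_mem ha))
      have h3 := hinter _ h1 h2
      have e : a * u = (a * u * a⁻¹ * u⁻¹) * (u * a) := by group
      rw [e, h3, one_mul]
    apply hcU a _ hcomm
    rw [← hzc, Subgroup.mem_centralizer_iff]
    intro y hy
    rw [Set.mem_singleton_iff] at hy
    subst hy
    exact (hcomm _ hzU).symm
  · rw [hK.card_four, hK'.card_four]

theorem classify (h : Nat.card G = 168) (M : Subgroup G) (hM : IsCoatom M) :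
    Nat.card M = 21 ∨ ∃ U : Subgroup G, IsKleinFour U ∧ M = normalizer (U : Set G) := by
  haveI : Fact (Nat.Prime 3) := ⟨by norm_num⟩
  haveI : Fact (Nat.Prime 7) := factPrimeSeven
  have hle : ∀ H : Subgroup G, M ≤ H → H ≠ ⊤ → M = H := by
    intro H h1 h2
    by_contra h3
    exact h2 (hM.2 H (lt_of_le_of_ne h1 h3))
  have hU : ∀ U : Subgroup G, IsKleinFour U → M ≤ normalizer (U : Set G) → M = normalizer (U : Set G) := by
    intro U hK h1
    exact hle _ h1 (coatom_NU h U hK).1
  have hdvd : Nat.card M ∣ 168 := by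
    rw [← h]; exact Subgroup.card_subgroup_dvd_card M
  have hne : Nat.card M ≠ 168 := by
    intro h0
    exact hM.1 (Subgroup.eq_top_of_card_eq _ (by rw [h0, h]))
  -- two-groups
  have h2 : IsPGroup 2 M → ∃ U : Subgroup G, IsKleinFour U ∧ M = normalizer (U : Set G) := by
    intro hp
    obtain ⟨T, hT⟩ := hp.exists_le_sylow
    obtain ⟨ι, hι, hr⟩ := setup h T
    have hK := klein_VS ι hι S₁ good₁
    have hUT : (VS S₁ good₁).map ι ≤ (T : Subgroup G) := by
      rw [← hr]; exact Subgroup.map_le_range _ _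
    exact ⟨_, hK, hU _ hK (hT.trans (normal_of_sylow h T _ hUT hK))⟩
  -- order with a normal Sylow 7
  have h7 : ∀ k : ℕ, Nat.card M = 7 * k → ¬ 7 ∣ k → 0 < k → k ≤ 7 → Nat.card M = 21 := by
    intro k hk h7k hk0 hk7
    obtain ⟨S, hS⟩ := Mp (G := G) 7 (card7 h) M k hk h7k hk0 hk7
    have hNc := card_N7 h S
    have := hle _ hS (ne_top_of_card h _ (by rw [hNc]; norm_num))
    rw [this, hNc]
  have h3 : ∀ k : ℕ, Nat.card M = 3 * k → ¬ 3 ∣ k → 0 < k → k ≤ 3 →
      ∃ U : Subgroup G, IsKleinFour U ∧ M = normalizer (U : Set G) := by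
    intro k hk h3k hk0 hk3
    obtain ⟨S, hS⟩ := Mp (G := G) 3 (card3 h) M k hk h3k hk0 hk3
    obtain ⟨U, hK, hSU⟩ := sylow3_le h S
    exact ⟨U, hK, hU U hK (hS.trans (norm3 h S U hK hSU))⟩
  have hsmall : M.index ≤ 3 → False := by
    intro hi
    have hb : M.normalCore = ⊥ := by
      rcases (Subgroup.normalCore_normal M).eq_bot_or_eq_top with h0 | h0
      · exact h0
      · exfalso
        apply hM.1
        rw [eq_top_iff, ← h0]
        exact Subgroup.normalCore_le M
    have h1 : M.normalCore.index ∣ (M.index).factorial := by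
      rw [Subgroup.normalCore_eq_ker, Subgroup.index_ker, Subgroup.index_eq_card, ← Nat.card_perm]
      exact Subgroup.card_subgroup_dvd_card (MulAction.toPermHom G (G ⧸ M)).range
    rw [hb, Subgroup.index_bot, h] at h1
    have h0 : M.index ≠ 0 := Subgroup.index_ne_zero_of_finite
    generalize M.index = n at *
    interval_cases n <;> revert h1 <;> decide
  have hcm := Subgroup.card_mul_index M
  rw [h] at hcm
  have hmemd : Nat.card M ∈ Nat.divisors 168 := by simp [hdvd]
  have hdiv : Nat.divisors 168 = {1, 2, 3, 4, 6, 7, 8, 12, 14, 21, 24, 28, 42, 56, 84, 168} := by decide +kernel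
  rw [hdiv] at hmemd
  simp only [Finset.mem_insert, Finset.mem_singleton] at hmemd
  have p2 : ∀ n : ℕ, Nat.card M = 2 ^ n → ∃ U : Subgroup G, IsKleinFour U ∧ M = normalizer (U : Set G) := by
    intro n hn
    exact h2 (IsPGroup.of_card hn)
  rcases hmemd with c | c | c | c | c | c | c | c | c | c | c | c | c | c | c | c
  · right; exact p2 0 (by rw [c]; norm_num)
  · right; exact p2 1 (by rw [c]; norm_num)
  · right; exact h3 1 (by rw [c]) (by norm_num) (by norm_num) (by norm_num)
  · right; exact p2 2 (by rw [c]; norm_num)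
  · right; exact h3 2 (by rw [c]) (by norm_num) (by norm_num) (by norm_num)
  · left; exact h7 1 (by rw [c]) (by norm_num) (by norm_num) (by norm_num)
  · right; exact p2 3 (by rw [c]; norm_num)
  · right
    obtain ⟨U, hK, hMU⟩ := M12 h M (Or.inl c)
    exact ⟨U, hK, hU U hK hMU⟩
  · left; exact h7 2 (by rw [c]) (by norm_num) (by norm_num) (by norm_num)
  · left; exact c
  · right
    obtain ⟨U, hK, hMU⟩ := M12 h M (Or.inr c)
    exact ⟨U, hK, hU U hK hMU⟩
  · left; exact h7 4 (by rw [c]) (by norm_num) (by norm_num) (by norm_num)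
  · left; exact h7 6 (by rw [c]) (by norm_num) (by norm_num) (by norm_num)
  · exfalso; exact hsmall (by rw [c] at hcm; omega)
  · exfalso; exact hsmall (by rw [c] at hcm; omega)
  · exact absurd c hne

theorem map_conj_sylow {p : ℕ} (S : Sylow p G) (g : G) :
    ((g • S : Sylow p G) : Subgroup G) = (S : Subgroup G).map (MulAut.conj g).toMonoidHom := by
  ext x
  constructor
  · intro hx
    have := (mem_smul_sylow g x S).1 hx
    refine ⟨_, this, ?_⟩
    simp [MulAut.conj_apply, mul_assoc]
  · rintro ⟨y, hy, rfl⟩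
    refine (mem_smul_sylow g _ S).2 ?_
    have e : g⁻¹ * ((MulAut.conj g).toMonoidHom y) * g = y := by
      simp [MulAut.conj_apply, mul_assoc]
    rw [e]; exact hy

/-- In a simple group of order 168 every maximal subgroup is either isomorphic to the symmetric group of degree 4 or non-abelian of order 21; the maximal subgroups of order 21 form one conjugacy class and those isomorphic to the symmetric group of degree 4 form exactly two conjugacy classes. -/
theorem result {G : Type*} [Group G] [Finite G] [IsSimpleGroup G] (h : Nat.card G = 168) : (∀ M : Subgroup G, IsCoatom M → Nonempty (↥M ≃* Equiv.Perm (Fin 4)) ∨ (Nat.card ↥M = 21 ∧ ¬ IsMulCommutative ↥M)) ∧ (∀ M M' : Subgroup G, IsCoatom M → IsCoatom M' → Nat.card ↥M = 21 → Nat.card ↥M' = 21 → ∃ g : G, M' = M.map (MulAut.conj g).toMonoidHom) ∧ ∃ M₁ M₂ : Subgroup G, IsCoatom M₁ ∧ IsCoatom M₂ ∧ Nonempty (↥M₁ ≃* Equiv.Perm (Fin 4)) ∧ Nonempty (↥M₂ ≃* Equiv.Perm (Fin 4)) ∧ (∀ g : G, M₂ ≠ M₁.map (MulAut.conj g).toMonoidHom) ∧ ∀ M : Subgroup G, IsCoatom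 M → Nonempty (↥M ≃* Equiv.Perm (Fin 4)) → ∃ g : G, M = M₁.map (MulAut.conj g).toMonoidHom ∨ M = M₂.map (MulAut.conj g).toMonoidHom := by
  haveI : Fact (Nat.Prime 3) := ⟨by norm_num⟩
  haveI : Fact (Nat.Prime 7) := factPrimeSeven
  obtain ⟨T⟩ : Nonempty (Sylow 2 G) := inferInstance
  have hres := Cfsg.Agent.S1007.result h T
  obtain ⟨-, hnc, hiso⟩ := hres
  have h21 : ∀ M : Subgroup G, Nat.card M = 21 → ∃ S : Sylow 7 G, M = normalizer ((S : Subgroup G) : Set G) := by
    intro M hc
    obtain ⟨S, hS⟩ := Mp (G := G) 7 (card7 h) M 3 (by rw [hc]) (by norm_num) (by norm_num) (by norm_num)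
    exact ⟨S, Subgroup.eq_of_le_of_card_ge hS (by rw [card_N7 h S, hc])⟩
  refine ⟨?_, ?_, ?_⟩
  · intro M hM
    rcases classify h M hM with hc | ⟨U, hK, rfl⟩
    · right
      refine ⟨hc, ?_⟩
      intro hab
      obtain ⟨v, hv⟩ := exists_prime_orderOf_dvd_card' (G := M) 7 (by rw [hc]; norm_num)
      obtain ⟨u, hu⟩ := exists_prime_orderOf_dvd_card' (G := M) 3 (by rw [hc]; norm_num)
      apply no_comm_7_3 h (v := (v : G)) (u := (u : G)) (by rw [Subgroup.orderOf_coe]; exact hv)
        (by rw [Subgroup.orderOf_coe]; exact hu)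
      exact congrArg Subtype.val (hab.is_comm.comm u v)
    · left; exact hiso U hK
  · intro M M' _ _ hc hc'
    obtain ⟨S, rfl⟩ := h21 M hc
    obtain ⟨S', rfl⟩ := h21 M' hc'
    obtain ⟨g, hg⟩ := MulAction.exists_smul_eq G S S'
    refine ⟨g, ?_⟩
    rw [Subgroup.map_equiv_normalizer_eq, ← map_conj_sylow, hg]
  · obtain ⟨ι, hι, hr⟩ := setup h T
    have hK₁ := klein_VS ι hι S₁ good₁
    have hK₂ := klein_VS ι hι S₂ good₂
    have hle : ∀ (S : Finset D) (hS : Cfsg.Agent.S1007.Good S), (VS S hS).map ι ≤ (T : Subgroup G) := by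
      intro S hS
      rw [← hr]
      exact Subgroup.map_le_range _ _
    have hne12 : (VS S₁ good₁).map ι ≠ (VS S₂ good₂).map ι := by
      intro h1
      have h2 := Subgroup.map_injective hι h1
      apply S_ne
      ext x
      have h3 : x ∈ VS S₁ good₁ ↔ x ∈ VS S₂ good₂ := by rw [h2]
      exact h3
    refine ⟨_, _, coatom_NU h _ hK₁, coatom_NU h _ hK₂, hiso _ hK₁, hiso _ hK₂, ?_, ?_⟩
    · intro g h0
      rw [Subgroup.map_equiv_normalizer_eq] at h0
      have := uniq h _ _ hK₂ (klein_conj _ hK₁ g) h0.symm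
      exact hnc _ _ (hle _ _) (hle _ _) hK₁ hK₂ hne12 g this
    · intro M hM hMiso
      rcases classify h M hM with hc | ⟨U, hK, rfl⟩
      · exfalso
        obtain ⟨e⟩ := hMiso
        have h1 := Nat.card_congr e.toEquiv
        rw [hc, Nat.card_perm] at h1
        simp at h1
        revert h1; decide
      · have hpU : IsPGroup 2 U := by
          apply IsPGroup.of_card (n := 2)
          rw [hK.card_four]; norm_num
        obtain ⟨T', hUT'⟩ := hpU.exists_le_sylow
        obtain ⟨g, hg⟩ := MulAction.exists_smul_eq G T T'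
        refine ⟨g, ?_⟩
        -- conjugate `U` into `T`
        have hW := klein_conj U hK g⁻¹
        have hWT : U.map (MulAut.conj g⁻¹).toMonoidHom ≤ (T : Subgroup G) := by
          rintro _ ⟨u, hu, rfl⟩
          have h1 : u ∈ ((g • T : Sylow 2 G) : Subgroup G) := by rw [hg]; exact hUT' hu
          have h2 := (mem_smul_sylow g u T).1 h1
          simpa [MulAut.conj_apply, mul_assoc] using h2
        have hback : U = (U.map (MulAut.conj g⁻¹).toMonoidHom).map (MulAut.conj g).toMonoidHom := by
          ext x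
          constructor
          · intro hx
            refine ⟨g⁻¹ * x * g, ⟨x, hx, ?_⟩, ?_⟩
            · simp [MulAut.conj_apply]
            · simp [MulAut.conj_apply, mul_assoc]
          · rintro ⟨_, ⟨y, hy, rfl⟩, rfl⟩
            simpa [MulAut.conj_apply, mul_assoc] using hy
        rcases klein_eq ι hι _ (hr ▸ hWT) hW with h1 | h1
        · left
          rw [Subgroup.map_equiv_normalizer_eq, ← h1, ← hback]
        · right
          rw [Subgroup.map_equiv_normalizer_eq, ← h1, ← hback]

end Cfsg.Agent.S1008
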