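import Cfsg.Statements.S1009
import Cfsg.Agent.Lib.SylowCount
-- import your own Cfsg.Agent.* helpers here

set_option autoImplicit false
set_option linter.all false
open Cfsg

namespace Cfsg.Agent.S1009

/-- Brodkey's Theorem: if a finite group has abelian Sylow p-subgroups, then there are two Sylow p-subgroups whose intersection equals the intersection of all Sylow p-subgroups. -/
theorem result {G : Type*} [Group G] [Finite G] (p : ℕ) [Fact p.Prime] (hab : ∀ P : Sylow p G, IsMulCommutative ↥(P : Subgroup G)) : ∃ P Q : Sylow p G, (P : Subgroup G) ⊓ (Q : Subgroup G) = ⨅ R : Sylow p G, (R : Subgroup G) := by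
  classical
  haveI : Finite (Sylow p G) := inferInstance
  haveI : Nonempty (Sylow p G × Sylow p G) := ⟨(Classical.arbitrary _, Classical.arbitrary _)⟩
  obtain ⟨⟨P, Q⟩, hmin⟩ := Finite.exists_min (fun x : Sylow p G × Sylow p G => Nat.card ↥((x.1 : Subgroup G) ⊓ (x.2 : Subgroup G)))
  refine ⟨P, Q, le_antisymm ?_ (le_inf (iInf_le (fun R : Sylow p G => (R : Subgroup G)) P) (iInf_le (fun R : Sylow p G => (R : Subgroup G)) Q))⟩
  apply le_iInf
  intro R
  set D : Subgroup G := (P : Subgroup G) ⊓ (Q : Subgroup G) with hD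
  set N : Subgroup G := Subgroup.normalizer (D : Set G) with hN
  -- Sylow subgroups containing D lie in N
  have habn : ∀ S : Sylow p G, D ≤ (S : Subgroup G) → (S : Subgroup G) ≤ N := by
    intro S hS x hx
    rw [hN, Subgroup.mem_normalizer_iff]
    intro h
    haveI := hab S
    have hcomm : ∀ a ∈ (S : Subgroup G), x * a * x⁻¹ = a := by
      intro a ha
      have := IsMulCommutative.is_comm.comm (⟨x, hx⟩ : (S : Subgroup G)) ⟨a, ha⟩
      have h2 : x * a = a * x := congrArg Subtype.val this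
      rw [h2]; group
    constructor
    · intro hh
      rw [hcomm h (hS hh)]; exact hh
    · intro hh
      have hm : x * h * x⁻¹ ∈ (S : Subgroup G) := hS hh
      have hhS : h ∈ (S : Subgroup G) := by
        have e : h = x⁻¹ * (x * h * x⁻¹) * x := by group
        rw [e]
        exact (S : Subgroup G).mul_mem ((S : Subgroup G).mul_mem ((S : Subgroup G).inv_mem hx) hm) hx
      rw [hcomm h hhS] at hh; exact hh
  have hPN : (P : Subgroup G) ≤ N := habn P inf_le_left
  have hQN : (Q : Subgroup G) ≤ N := habn Q inf_le_right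
  -- a Sylow subgroup of N containing R ∩ N
  have hRp : IsPGroup p ↥(((R : Subgroup G) ⊓ N).subgroupOf N) := by
    have h1 : IsPGroup p ↥((R : Subgroup G) ⊓ N) := (R.isPGroup').to_le inf_le_left
    exact h1.comap_subtype
  obtain ⟨S, hS⟩ := hRp.exists_le_sylow
  obtain ⟨n, hn⟩ := MulAction.exists_smul_eq N (P.subtype hPN) S
  have hnN : (n : G) ∈ N := n.2
  set P' : Sylow p G := (n : G) • P with hP'
  set Q' : Sylow p G := (n : G) • Q with hQ'
  have hmemP' : ∀ x, x ∈ (P' : Subgroup G) ↔ (n : G)⁻¹ * x * n ∈ (P : Subgroup G) := fun x => Cfsg.Agent.Lib.SylowCount.mem_smul_sylow _ _ _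
  have hmemQ' : ∀ x, x ∈ (Q' : Subgroup G) ↔ (n : G)⁻¹ * x * n ∈ (Q : Subgroup G) := fun x => Cfsg.Agent.Lib.SylowCount.mem_smul_sylow _ _ _
  have hinf : (P' : Subgroup G) ⊓ (Q' : Subgroup G) = D := by
    ext x
    rw [Subgroup.mem_inf, hmemP', hmemQ', ← Subgroup.mem_inf]
    have := (Subgroup.mem_normalizer_iff.1 (N.inv_mem hnN)) x
    simp only [inv_inv] at this
    rw [this.symm]
  -- R ∩ Q' ≤ D
  have hle : (R : Subgroup G) ⊓ (Q' : Subgroup G) ≤ D := by
    intro x hx
    have hxQ' : x ∈ (Q' : Subgroup G) := hx.2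
    have hxN : x ∈ N := by
      have h1 := (hmemQ' x).1 hxQ'
      have h2 := hQN h1
      have e : x = (n : G) * ((n : G)⁻¹ * x * n) * (n : G)⁻¹ := by group
      rw [e]
      exact N.mul_mem (N.mul_mem hnN h2) (N.inv_mem hnN)
    have h3 : (⟨x, hxN⟩ : N) ∈ (S : Subgroup N) := hS (by rw [Subgroup.mem_subgroupOf]; exact ⟨hx.1, hxN⟩)
    rw [← hn] at h3
    have h4 := (Cfsg.Agent.Lib.SylowCount.mem_smul_sylow n _ _).1 h3
    have h5 : x ∈ (P' : Subgroup G) := by
      rw [hmemP']
      have h6 : ((n⁻¹ * ⟨x, hxN⟩ * n : N) : G) ∈ (P : Subgroup G) := h4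
      simpa using h6
    rw [← hinf]
    exact ⟨h5, hxQ'⟩
  have hcard := hmin (R, Q')
  have heq : (R : Subgroup G) ⊓ (Q' : Subgroup G) = D := Subgroup.eq_of_le_of_card_ge hle hcard
  rw [← heq]
  exact inf_le_left

end Cfsg.Agent.S1009
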