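import Cfsg.Statements.S1013
import Cfsg.Agent.Lib.SylowCount
-- import your own Cfsg.Agent.* helpers here

set_option autoImplicit false
set_option linter.all false
open Cfsg

namespace Cfsg.Agent.S1013

open Subgroup in
/-- The elementary core: a subgroup `K` normal in `G`, with Sylow subgroup `P` of order `p`, and the
normalizer of `P` in `K` equal to `P`, has a normal `p`-complement characteristic under `G`. -/
theorem complement_normal {G : Type*} [Group G] [Finite G] {p : ℕ} [Fact p.Prime] (K : Subgroup G) [hK : K.Normal]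
    (P : Sylow p G) (hPK : (P : Subgroup G) ≤ K) (hcard : Nat.card (P : Subgroup G) = p)
    (hN : K ⊓ normalizer ((P : Subgroup G) : Set G) ≤ P) :
    ∃ M : Subgroup G, M.Normal ∧ M ≤ K ∧ ¬ p ∣ Nat.card M ∧ Nat.card K = Nat.card M * p := by
  classical
  have hcomm : ∀ a ∈ (P : Subgroup G), ∀ b ∈ (P : Subgroup G), a * b = b * a := by
    haveI : Fact (Nat.card (P : Subgroup G)).Prime := ⟨by rw [hcard]; exact Fact.out⟩
    haveI : IsCyclic (P : Subgroup G) := isCyclic_of_prime_card rfl
    intro a ha b hb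
    have h : (⟨a, ha⟩ : (P : Subgroup G)) * ⟨b, hb⟩ = ⟨b, hb⟩ * ⟨a, ha⟩ :=
      (IsCyclic.commGroup (α := (P : Subgroup G))).mul_comm _ _
    exact congrArg Subtype.val h
  let P₀ : Sylow p K := P.subtype hPK
  have hP₀ : normalizer ((P₀ : Subgroup K) : Set K) ≤ centralizer ((P₀ : Subgroup K) : Set K) := by
    intro x hx
    have hxN : (x : G) ∈ normalizer ((P : Subgroup G) : Set G) := by
      rw [Subgroup.mem_normalizer_iff]
      intro y
      constructor
      · intro hy
        have h1 : (⟨y, hPK hy⟩ : K) ∈ (P₀ : Subgroup K) := by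
          rw [Sylow.coe_subtype]
          exact hy
        have h2 := (Subgroup.mem_normalizer_iff.1 hx _).1 h1
        rw [Sylow.coe_subtype] at h2
        exact h2
      · intro hy
        have hyK : y ∈ K := by
          have := hK.conj_mem _ (hPK hy) (x : G)⁻¹
          have e : (x : G)⁻¹ * ((x : G) * y * (x : G)⁻¹) * (x : G)⁻¹⁻¹ = y := by group
          rwa [e] at this
        have h1 : (x : K) * ⟨y, hyK⟩ * x⁻¹ ∈ (P₀ : Subgroup K) := by
          rw [Sylow.coe_subtype]
          exact hy
        have h2 := (Subgroup.mem_normalizer_iff.1 hx _).2 h1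
        rw [Sylow.coe_subtype] at h2
        exact h2
    have hxP := hN ⟨x.2, hxN⟩
    rw [Subgroup.mem_centralizer_iff]
    intro y hy
    rw [Sylow.coe_subtype] at hy
    exact Subtype.ext (hcomm y hy x hxP)
  have hc := MonoidHom.ker_transferSylow_isComplement' P₀ hP₀
  set M₀ : Subgroup K := (MonoidHom.transferSylow P₀ hP₀).ker with hM₀
  haveI hM₀n : M₀.Normal := inferInstance
  have hcardP₀ : Nat.card (P₀ : Subgroup K) = p := by
    rw [Sylow.coe_subtype]
    exact (Nat.card_congr (Subgroup.subgroupOfEquivOfLe hPK).toEquiv).trans hcard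
  have hindex : M₀.index = p := by rw [hc.symm.index_eq_card, hcardP₀]
  have hcop : ¬ p ∣ Nat.card M₀ := by
    rw [← hc.index_eq_card]
    exact P₀.not_dvd_index
  have hmul : Nat.card K = Nat.card M₀ * p := by
    rw [← hindex]
    exact (Subgroup.card_mul_index M₀).symm
  have hpr : p.Prime := Fact.out
  have hmem : ∀ z : K, Nat.Coprime (orderOf z) p → z ∈ M₀ := by
    intro z hz
    have h1 : orderOf (QuotientGroup.mk z : K ⧸ M₀) ∣ p := by
      rw [← hindex]
      exact orderOf_dvd_natCard _
    have h2 : orderOf (QuotientGroup.mk z : K ⧸ M₀) ∣ orderOf z := orderOf_map_dvd (QuotientGroup.mk' M₀) z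
    have h3 : orderOf (QuotientGroup.mk z : K ⧸ M₀) = 1 :=
      Nat.eq_one_of_dvd_coprimes hz h2 h1
    rw [orderOf_eq_one_iff] at h3
    exact (QuotientGroup.eq_one_iff z).1 h3
  refine ⟨M₀.map K.subtype, ⟨fun y hy g => ?_⟩, ?_, ?_, ?_⟩
  · obtain ⟨m, hm, rfl⟩ := hy
    have hzK : g * (m : G) * g⁻¹ ∈ K := hK.conj_mem _ m.2 g
    refine ⟨⟨_, hzK⟩, hmem _ ?_, rfl⟩
    have h1 : orderOf (⟨g * (m : G) * g⁻¹, hzK⟩ : K) = orderOf m := by
      rw [← Subgroup.orderOf_coe, ← Subgroup.orderOf_coe m]
      show orderOf (g * (m : G) * g⁻¹) = _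
      rw [← MulAut.conj_apply, MulEquiv.orderOf_eq]
    rw [h1]
    have h2 : orderOf m ∣ Nat.card M₀ := by
      have := Subgroup.orderOf_dvd_natCard M₀ hm
      exact this
    exact Nat.Coprime.coprime_dvd_left h2 ((Nat.Prime.coprime_iff_not_dvd hpr).2 hcop).symm
  · rintro _ ⟨m, -, rfl⟩
    exact m.2
  · rwa [Nat.card_congr (M₀.equivMapOfInjective K.subtype K.subtype_injective).symm.toEquiv]
  · rw [Nat.card_congr (M₀.equivMapOfInjective K.subtype K.subtype_injective).symm.toEquiv]
    exact hmul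



/-- Let G be a transitive permutation group of prime degree p having more than one Sylow p-subgroup, and suppose a Sylow p-subgroup P has prime index in its normalizer. Then G is simple. -/
theorem result {α : Type*} [Fintype α] [DecidableEq α] {p : ℕ} [Fact p.Prime] (hα : Fintype.card α = p) (G : Subgroup (Equiv.Perm α)) [MulAction.IsPretransitive ↥G α] (P : Sylow p ↥G) (hn : 1 < Nat.card (Sylow p ↥G)) (ht : (((P : Subgroup ↥G).subgroupOf (Subgroup.normalizer ((P : Subgroup ↥G) : Set ↥G))).index).Prime) : IsSimpleGroup ↥G := by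
  classical
  have hpr : p.Prime := Fact.out
  have hcardα : Nat.card α = p := by rw [Nat.card_eq_fintype_card, hα]
  haveI hprim : MulAction.IsPreprimitive ↥G α :=
    MulAction.IsPreprimitive.of_prime_card (by rw [hcardα]; exact hpr)
  have htrans : ∀ K : Subgroup ↥G, K.Normal → K ≠ ⊥ → MulAction.IsPretransitive K α := by
    intro K hK hne
    refine MulAction.IsQuasiPreprimitive.isPretransitive_of_normal ?_
    intro hfix
    apply hne
    rw [Subgroup.eq_bot_iff_forall]
    intro x hx
    apply Subtype.ext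
    apply Equiv.ext
    intro a
    have : a ∈ MulAction.fixedPoints K α := by rw [hfix]; trivial
    exact this ⟨x, hx⟩
  have hdvd' : ∀ (K : Subgroup ↥G), MulAction.IsPretransitive K α → p ∣ Nat.card K := by
    intro K hK
    obtain ⟨a⟩ : Nonempty α := by
      have : 0 < Nat.card α := by rw [hcardα]; exact hpr.pos
      exact (Nat.card_pos_iff.1 this).1
    rw [← hcardα, ← MulAction.index_stabilizer_of_transitive K a]
    exact Subgroup.index_dvd_card _
  have hpG : p ∣ Nat.card ↥G := by
    have h := hdvd' ⊤ (by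
      constructor
      intro a b
      obtain ⟨g, hg⟩ := MulAction.exists_smul_eq ↥G a b
      exact ⟨⟨g, trivial⟩, hg⟩)
    rwa [Subgroup.card_top] at h
  have hGp2 : ¬ p ^ 2 ∣ Nat.card ↥G := by
    intro h
    have h1 : Nat.card ↥G ∣ (p).factorial := by
      have := Subgroup.card_subgroup_dvd_card G
      rw [Nat.card_eq_fintype_card (α := Equiv.Perm α), Fintype.card_perm, hα] at this
      exact this
    have h2 := h.trans h1
    obtain ⟨k, hk⟩ : ∃ k, p = k + 1 := ⟨p - 1, (Nat.sub_add_cancel hpr.pos).symm⟩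
    have h3 : p ^ 2 ∣ p * (p - 1).factorial := by
      have e : p * (p - 1).factorial = p.factorial := Nat.mul_factorial_pred hpr.ne_zero
      rwa [e]
    rw [pow_two] at h3
    have h4 := Nat.dvd_of_mul_dvd_mul_left hpr.pos h3
    rw [hpr.dvd_factorial] at h4
    omega
  have hcardS : ∀ Q : Sylow p ↥G, Nat.card (Q : Subgroup ↥G) = p := by
    intro Q
    obtain ⟨k, hk⟩ := IsPGroup.iff_card.1 Q.isPGroup'
    have h1 : p ∣ Nat.card (Q : Subgroup ↥G) := Sylow.dvd_card_of_dvd_card Q hpG
    have h2 : Nat.card (Q : Subgroup ↥G) ∣ Nat.card ↥G := Subgroup.card_subgroup_dvd_card _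
    rw [hk] at h1 h2 ⊢
    rcases k with _ | _ | k
    · simp at h1
      exact absurd h1 hpr.one_lt.ne'
    · simp
    · exfalso
      apply hGp2
      exact (pow_dvd_pow p (by omega)).trans h2
  have hnormal : ∀ K : Subgroup ↥G, K.Normal → K ≠ ⊥ → p ∣ Nat.card K := fun K hK hne =>
    hdvd' K (htrans K hK hne)
  haveI : Nontrivial ↥G := by
    have : 1 < Nat.card ↥G := lt_of_lt_of_le hpr.one_lt (Nat.le_of_dvd Nat.card_pos hpG)
    exact Finite.one_lt_card_iff_nontrivial.1 this
  refine ⟨fun K hK => ?_⟩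
  by_cases hne : K = ⊥
  · exact Or.inl hne
  right
  have hpK := hnormal K hK hne
  have hPK : (P : Subgroup ↥G) ≤ K := by
    obtain ⟨x, hx⟩ := exists_prime_orderOf_dvd_card' p hpK
    let x' : ↥G := x
    have hx' : orderOf x' = p := by
      rw [← hx]
      exact Subgroup.orderOf_coe x
    have hpz : IsPGroup p (Subgroup.zpowers x') := by
      refine IsPGroup.iff_card.2 ⟨1, ?_⟩
      rw [Nat.card_zpowers, hx', pow_one]
    obtain ⟨Q, hQ⟩ := hpz.exists_le_sylow
    have hQe : (Q : Subgroup ↥G) = Subgroup.zpowers x' := by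
      symm
      apply Subgroup.eq_of_le_of_card_ge hQ
      rw [hcardS Q, Nat.card_zpowers, hx']
    have hQK : (Q : Subgroup ↥G) ≤ K := by
      rw [hQe, Subgroup.zpowers_le]
      exact x.2
    obtain ⟨g, hg⟩ := MulAction.exists_smul_eq ↥G Q P
    intro y hy
    have h1 : y ∈ (g • Q : Sylow p ↥G) := by rw [hg]; exact hy
    rw [Cfsg.Agent.Lib.SylowCount.mem_smul_sylow] at h1
    have h2 := hK.conj_mem _ (hQK h1) g
    have e : g * (g⁻¹ * y * g) * g⁻¹ = y := by group
    rwa [e] at h2
  have hsup := Sylow.normalizer_sup_eq_top' P hPK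
  let N := Subgroup.normalizer ((P : Subgroup ↥G) : Set ↥G)
  let P' : Subgroup N := (P : Subgroup ↥G).subgroupOf N
  let N₀ : Subgroup N := K.subgroupOf N
  have hP'N₀ : P' ≤ N₀ := fun x hx => hPK hx
  have hmul := Subgroup.relIndex_mul_index hP'N₀
  rcases (Nat.prime_mul_iff.1 (hmul ▸ ht)) with ⟨_, h2⟩ | ⟨_, h2⟩
  · have hN₀ : N₀ = ⊤ := by
      rw [Subgroup.index_eq_one] at h2
      exact h2
    have hNK : N ≤ K := by
      intro x hx
      have : (⟨x, hx⟩ : N) ∈ N₀ := by
        rw [hN₀]
        trivial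
      exact this
    have hsup' : N ⊔ K = ⊤ := hsup
    rw [sup_eq_right.2 hNK] at hsup'
    exact hsup'
  · -- the relative index is one
    have hle : N₀ ≤ P' := by
      rw [← Subgroup.relIndex_eq_one]
      exact h2
    exfalso
    have hcompl := complement_normal K P hPK (hcardS P) (by
      rintro x ⟨hx1, hx2⟩
      exact hle (show (⟨x, hx2⟩ : N) ∈ N₀ from hx1))
    obtain ⟨M, hMn, hMK, hMp, hMc⟩ := hcompl
    have hMbot : M = ⊥ := by
      by_contra hcon
      exact hMp (hnormal M hMn hcon)
    have hKP : K = (P : Subgroup ↥G) := by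
      symm
      apply Subgroup.eq_of_le_of_card_ge hPK
      rw [hMc, hMbot, Subgroup.card_bot, one_mul, hcardS P]
    have hPn : (P : Subgroup ↥G).Normal := hKP ▸ hK
    have : Unique (Sylow p ↥G) := Sylow.unique_of_normal P hPn
    have h3 : Nat.card (Sylow p ↥G) = 1 := Nat.card_unique
    omega

end Cfsg.Agent.S1013
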