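import Cfsg.Statements.S1018
import Cfsg.Agent.Lib.SylowCount
-- import your own Cfsg.Agent.* helpers here

set_option autoImplicit false
set_option linter.all false
open Cfsg

namespace Cfsg.Agent.S1018

/-- Let P be a Sylow p-subgroup of order p of a finite group G, and consider the action of G on the left cosets of the normalizer N of P. Then every element of order p fixes exactly one coset, and an element of N that does not centralize P fixes at most as many cosets as there are orbits of P. -/
theorem result {G : Type*} [Group G] [Finite G] (p : ℕ) [Fact p.Prime] (P : Sylow p G) (hP : Nat.card ↥(P : Subgroup G) = p) : (∀ y : G, orderOf y = p → Nat.card (MulAction.fixedBy (G ⧸ Subgroup.normalizer ((P : Subgroup G) : Set G)) y) = 1) ∧ ∀ x : G, x ∈ Subgroup.normalizer ((P : Subgroup G) : Set G) → x ∉ Subgroup.centralizer ((P : Subgroup G) : Set G) → Nat.card (MulAction.fixedBy (G ⧸ Subgroup.normalizer ((P : Subgroup G) : Set G)) x) ≤ Nat.card (MulAction.orbitRel.Quotient ↥(P : Subgroup G) (G ⧸ Subgroup.normalizer ((P : Subgroup G) : Set G))) := by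
  classical
  set N : Subgroup G := Subgroup.normalizer ((P : Subgroup G) : Set G) with hNdef
  have hpp : p.Prime := Fact.out
  have hzp : ∀ x ∈ (P : Subgroup G), x ≠ 1 → Subgroup.zpowers x = (P : Subgroup G) := by
    intro x hx hx1
    apply Subgroup.eq_of_le_of_card_ge (by simpa using hx)
    rw [Nat.card_zpowers, hP]
    have h1 : orderOf x ∣ p := by
      rw [← hP]
      have := Subgroup.orderOf_dvd_natCard (P : Subgroup G) hx
      exact this
    rcases (Nat.dvd_prime hpp).1 h1 with h2 | h2
    · exact absurd (orderOf_eq_one_iff.1 h2) hx1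
    · exact h2.ge
  have hPN : (P : Subgroup G) ≤ N := Subgroup.le_normalizer
  constructor
  · intro y hy
    -- a p-element of N lies in P
    have hy1 : y ≠ 1 := by
      rintro rfl
      rw [orderOf_one] at hy
      exact hpp.one_lt.ne hy
    have hpg : IsPGroup p (Subgroup.zpowers y) := by
      apply IsPGroup.of_card (n := 1)
      rw [Nat.card_zpowers, hy, pow_one]
    obtain ⟨S, hS⟩ := hpg.exists_le_sylow
    obtain ⟨a, ha⟩ := MulAction.exists_smul_eq G P S
    have hyS : y ∈ (S : Subgroup G) := hS (Subgroup.mem_zpowers y)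
    rw [← ha] at hyS
    have hya := (Cfsg.Agent.Lib.SylowCount.mem_smul_sylow a y P).1 hyS
    have hfix : ((a : G ⧸ N)) ∈ MulAction.fixedBy (G ⧸ N) y :=
      (Cfsg.Agent.Lib.SylowCount.mem_fixedBy_mk_iff N y a).2 (hPN hya)
    rw [Nat.card_eq_one_iff_unique]
    refine ⟨⟨?_⟩, ⟨⟨_, hfix⟩⟩⟩
    rintro ⟨q, hq⟩ ⟨q', hq'⟩
    apply Subtype.ext
    -- all fixed cosets equal `a N`
    have key : ∀ (r : G ⧸ N), r ∈ MulAction.fixedBy (G ⧸ N) y → r = (a : G ⧸ N) := by
      intro r hr
      induction r using QuotientGroup.induction_on with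
      | H b =>
        have hb := (Cfsg.Agent.Lib.SylowCount.mem_fixedBy_mk_iff N y b).1 hr
        -- b⁻¹ y b has order p in N so it lies in P
        have hord : orderOf (b⁻¹ * y * b) = p := by
          have : b⁻¹ * y * b = (MulAut.conj b⁻¹) y := by simp [MulAut.conj_apply]
          rw [this, MulEquiv.orderOf_eq, hy]
        have hinP : b⁻¹ * y * b ∈ (P : Subgroup G) := by
          -- P is the unique Sylow of N
          have h2 : IsPGroup p (Subgroup.zpowers (b⁻¹ * y * b)) := by
            apply IsPGroup.of_card (n := 1)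
            rw [Nat.card_zpowers, hord, pow_one]
          have h3 := (h2.inf_normalizer_sylow P)
          have hmem : b⁻¹ * y * b ∈ Subgroup.zpowers (b⁻¹ * y * b) ⊓ Subgroup.normalizer ((P : Subgroup G) : Set G) :=
            ⟨Subgroup.mem_zpowers _, hb⟩
          have := h3.le hmem
          exact this.2
        -- compare with a
        have hb1 : b⁻¹ * y * b ≠ 1 := by
          intro h1
          rw [h1, orderOf_one] at hord
          exact hpp.one_lt.ne hord
        have hya1 : a⁻¹ * y * a ≠ 1 := by
          intro h1
          apply hy1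
          have e : y = a * (a⁻¹ * y * a) * a⁻¹ := by group
          rw [e, h1]; group
        have hz1 := hzp _ hinP hb1
        have hz2 := hzp _ hya hya1
        -- a⁻¹ b normalizes P
        have hnorm : a⁻¹ * b ∈ N := by
          rw [hNdef, Subgroup.mem_normalizer_iff]
          intro h
          -- P = ⟨a⁻¹ y a⟩ , and conjugation by a⁻¹ b carries b⁻¹ y b to a⁻¹ y a
          have hconj : (a⁻¹ * b) * (b⁻¹ * y * b) * (a⁻¹ * b)⁻¹ = a⁻¹ * y * a := by group
          have hmap : ((P : Subgroup G)).map (MulAut.conj (a⁻¹ * b)).toMonoidHom = (P : Subgroup G) := by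
            conv_lhs => rw [← hz1]
            rw [MonoidHom.map_zpowers]
            show Subgroup.zpowers ((a⁻¹ * b) * (b⁻¹ * y * b) * (a⁻¹ * b)⁻¹) = _
            rw [hconj, hz2]
          constructor
          · intro hh
            rw [← hmap]
            exact ⟨h, hh, rfl⟩
          · intro hh
            rw [← hmap] at hh
            obtain ⟨w, hw, hw2⟩ := hh
            have hw3 : (a⁻¹ * b) * w * (a⁻¹ * b)⁻¹ = (a⁻¹ * b) * h * (a⁻¹ * b)⁻¹ := hw2
            have : w = h := by
              simpa using hw3
            rwa [← this]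
        symm
        rw [QuotientGroup.eq]
        exact hnorm
    show q = q'
    rw [key q hq, key q' hq']
  · intro x hxN hxC
    classical
    haveI : Finite (MulAction.orbitRel.Quotient (P : Subgroup G) (G ⧸ N)) := Quotient.finite _
    refine Nat.card_le_card_of_injective (fun r : MulAction.fixedBy (G ⧸ N) x => (Quotient.mk'' r.1 : MulAction.orbitRel.Quotient (P : Subgroup G) (G ⧸ N))) ?_
    rintro ⟨r, hr⟩ ⟨r', hr'⟩ hrr
    apply Subtype.ext
    show r = r'
    simp only at hrr
    have h1 : r ∈ MulAction.orbit (P : Subgroup G) r' := by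
      exact Quotient.exact hrr
    obtain ⟨u, hu⟩ := h1
    -- u : P, u • r' = r
    have hr1 : x • r' = r' := hr'
    have hr2 : x • r = r := hr
    have hu' : (u : G) • r' = r := hu
    by_cases hu1 : (u : G) = 1
    · rw [← hu', hu1, one_smul]
    -- v = u⁻¹ x u x⁻¹ fixes r' and lies in P
    have hxP := (Subgroup.mem_normalizer_iff.1 hxN)
    set v : G := (u : G)⁻¹ * (x * (u : G) * x⁻¹) with hv
    have hvP : v ∈ (P : Subgroup G) := (P : Subgroup G).mul_mem ((P : Subgroup G).inv_mem u.2) ((hxP u).1 u.2)
    have hvfix : v • r' = r' := by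
      have e1 : x⁻¹ • r' = r' := by
        conv_lhs => rw [← hr1]
        rw [inv_smul_smul]
      calc v • r' = (u : G)⁻¹ • (x • ((u : G) • (x⁻¹ • r'))) := by
            simp [hv, mul_smul, mul_assoc]
        _ = (u : G)⁻¹ • (x • ((u : G) • r')) := by rw [e1]
        _ = (u : G)⁻¹ • (x • r) := by rw [hu']
        _ = (u : G)⁻¹ • r := by rw [hr2]
        _ = r' := by rw [← hu', inv_smul_smul]
    by_cases hv1 : v = 1
    · -- x commutes with u, hence with P
      exfalso
      apply hxC
      have hcomm : x * (u : G) * x⁻¹ = u := by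
        have : (u : G)⁻¹ * (x * (u : G) * x⁻¹) = 1 := hv1
        have h2 : x * (u : G) * x⁻¹ = (u : G) * ((u : G)⁻¹ * (x * (u : G) * x⁻¹)) := by group
        rw [h2, this, mul_one]
      rw [Subgroup.mem_centralizer_iff]
      intro w hw
      have hz := hzp _ u.2 hu1
      have hw2 : w ∈ Subgroup.zpowers (u : G) := by rw [hz]; exact hw
      obtain ⟨k, hk⟩ := hw2
      simp only at hk
      rw [← hk]
      have h3 : Commute x (u : G) := by
        show x * (u : G) = (u : G) * x
        have h4 : x * (u : G) = (x * (u : G) * x⁻¹) * x := by group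
        rw [h4, hcomm]
      exact (h3.zpow_right k).symm.eq
    · -- v generates P hence P fixes r'
      have hz := hzp _ hvP hv1
      have huv : (u : G) ∈ Subgroup.zpowers v := by rw [hz]; exact u.2
      obtain ⟨k, hk⟩ := huv
      simp only at hk
      have hfix : ∀ k : ℤ, v ^ k • r' = r' := by
        intro k
        have hs : v ∈ MulAction.stabilizer G r' := hvfix
        exact (MulAction.stabilizer G r').zpow_mem hs k
      rw [← hu', ← hk, hfix k]

end Cfsg.Agent.S1018
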