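import Cfsg.Statements.S1014
import Cfsg.Agent.Lib.SylowCount
import Cfsg.Agent.S1018
-- import your own Cfsg.Agent.* helpers here

set_option autoImplicit false
set_option linter.all false
open Cfsg

namespace Cfsg.Agent.S1014

/-- No finite simple group has order 1104 = 2^4 * 3 * 23. -/
theorem result {G : Type*} [Group G] [Finite G] [IsSimpleGroup G] : Nat.card G ≠ 1104 := by
  intro h
  classical
  have hnc : ¬ IsMulCommutative G :=
    Cfsg.Agent.Lib.SylowCount.not_comm_of_not_prime (by rw [h]; norm_num)
  haveI hp23 : Fact (Nat.Prime 23) := ⟨by norm_num⟩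
  obtain ⟨P⟩ : Nonempty (Sylow 23 G) := inferInstance
  have hd : 23 ∣ Nat.card G := by rw [h]; norm_num
  have hfac : Nat.card G = 23 ^ 1 * 48 := by rw [h]; norm_num
  have hcardP := Cfsg.Agent.Lib.SylowCount.card_sylow_of_factor P 1 48 hfac (by norm_num)
  rw [pow_one] at hcardP
  have h1 := Cfsg.Agent.Lib.SylowCount.card_sylow_dvd_cofactor (G := G) (p := 23) 1 48 hfac (by norm_num)
  have h2 := Cfsg.Agent.Lib.SylowCount.card_sylow_mod (G := G) 23
  have h3 := Cfsg.Agent.Lib.SylowCount.card_sylow_ne_one_of_simple (G := G) (p := 23) hnc hd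
  generalize hn : Nat.card (Sylow 23 G) = n at h1 h2 h3
  have hle : n ≤ 48 := Nat.le_of_dvd (by norm_num) h1
  have h24 : n = 24 := by
    interval_cases n <;> first | rfl | omega
  subst h24
  set N : Subgroup G := Subgroup.normalizer ((P : Subgroup G) : Set G) with hNdef
  have hN : Nat.card N = 46 := Cfsg.Agent.Lib.SylowCount.card_normalizer_of_card_sylow P 24 46 hn (by rw [h]) (by norm_num)
  have hidx : N.index = 24 := by
    have := N.card_mul_index
    rw [hN, h] at this
    omega
  -- an involution of N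
  obtain ⟨t, ht⟩ := exists_prime_orderOf_dvd_card' (G := N) 2 (by rw [hN]; norm_num)
  -- N/C has order 2
  have hBur := Cfsg.Agent.Lib.SylowCount.not_normalizer_le_centralizer_of_simple hnc P hd
  have hrel := Cfsg.Agent.Lib.SylowCount.relIndex_centralizer_dvd_card_mulAut (P : Subgroup G)
  rw [Cfsg.Agent.Lib.SylowCount.card_mulAut_of_card_prime hcardP] at hrel
  have hrel2 := Subgroup.relIndex_dvd_card (Subgroup.centralizer ((P : Subgroup G) : Set G)) N
  rw [hN] at hrel2
  have hrel1 : (Subgroup.centralizer ((P : Subgroup G) : Set G)).relIndex N ≠ 1 := by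
    intro h1
    exact hBur (Subgroup.relIndex_eq_one.1 h1)
  have hrel3 : (Subgroup.centralizer ((P : Subgroup G) : Set G)).relIndex N = 2 := by
    have h4 : (Subgroup.centralizer ((P : Subgroup G) : Set G)).relIndex N ∣ 2 := by
      have := Nat.dvd_gcd hrel2 hrel
      simpa using this
    rcases (Nat.dvd_prime Nat.prime_two).1 h4 with h5 | h5
    · exact absurd h5 hrel1
    · exact h5
  -- t does not centralize P
  have htC : (t : G) ∉ Subgroup.centralizer ((P : Subgroup G) : Set G) := by
    intro htc
    have hmem : t ∈ (Subgroup.centralizer ((P : Subgroup G) : Set G)).subgroupOf N := by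
      rw [Subgroup.mem_subgroupOf]; exact htc
    have h5 := Subgroup.orderOf_dvd_natCard _ hmem
    have h6 := ((Subgroup.centralizer ((P : Subgroup G) : Set G)).subgroupOf N).card_mul_index
    rw [hN] at h6
    have h7 : ((Subgroup.centralizer ((P : Subgroup G) : Set G)).subgroupOf N).index = 2 := hrel3
    rw [h7] at h6
    have h8 : Nat.card ((Subgroup.centralizer ((P : Subgroup G) : Set G)).subgroupOf N) = 23 := by omega
    rw [h8, ht] at h5
    norm_num at h5
  -- cosets
  have hS := Cfsg.Agent.S1018.result (p := 23) P hcardP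
  have hFle := hS.2 (t : G) t.2 htC
  -- a generator of P
  obtain ⟨y, hy⟩ := exists_prime_orderOf_dvd_card' (G := (P : Subgroup G)) 23 (by rw [hcardP])
  have hyo : orderOf (y : G) = 23 := by rw [Subgroup.orderOf_coe]; exact hy
  have hyfix := hS.1 (y : G) hyo
  have hynot1 : y ≠ 1 := by
    rintro rfl
    rw [orderOf_one] at hy
    norm_num at hy
  let ω₀ : G ⧸ N := ((1 : G) : G ⧸ N)
  have hfix0 : ∀ u ∈ N, u • ω₀ = ω₀ := by
    intro u hu
    have := (Cfsg.Agent.Lib.SylowCount.mem_fixedBy_mk_iff N u (1 : G)).2 (by simpa using hu)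
    exact this
  have hy0 : ω₀ ∈ MulAction.fixedBy (G ⧸ N) (y : G) := hfix0 _ (Subgroup.le_normalizer y.2)
  have hyuniq : ∀ r, (y : G) • r = r → r = ω₀ := by
    intro r hr
    rw [Nat.card_eq_one_iff_unique] at hyfix
    haveI := hyfix.1
    have := Subsingleton.elim (⟨r, hr⟩ : MulAction.fixedBy (G ⧸ N) (y : G)) ⟨ω₀, hy0⟩
    exact congrArg Subtype.val this
  -- number of orbits at most two
  haveI : Finite (MulAction.orbitRel.Quotient (P : Subgroup G) (G ⧸ N)) := Quotient.finite _
  have hcΩ : Nat.card (G ⧸ N) = 24 := hidx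
  have hPtoZ : ∀ r : G ⧸ N, r ≠ ω₀ → Nat.card (MulAction.orbit (P : Subgroup G) r) = 23 := by
    intro r hr
    have h5 := Cfsg.Agent.Lib.SylowCount.card_orbit_mul_card_stabilizer (H := (P : Subgroup G)) r
    rw [hcardP] at h5
    have h6 : Nat.card (MulAction.stabilizer (P : Subgroup G) r) = 1 := by
      have h7 : Nat.card (MulAction.stabilizer (P : Subgroup G) r) ∣ 23 := Dvd.intro_left _ h5
      rcases (Nat.dvd_prime (by norm_num)).1 h7 with h8 | h8
      · exact h8
      · exfalso
        have h9 : MulAction.stabilizer (P : Subgroup G) r = ⊤ :=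
          Subgroup.eq_top_of_card_eq _ (by rw [h8, hcardP])
        have h10 : y ∈ MulAction.stabilizer (P : Subgroup G) r := by rw [h9]; exact Subgroup.mem_top y
        exact hr (hyuniq r h10)
    rw [h6, mul_one] at h5
    exact h5
  have hsameorbit : ∀ r r' : G ⧸ N, r ≠ ω₀ → r' ≠ ω₀ → r' ∈ MulAction.orbit (P : Subgroup G) r := by
    intro r r' hr hr'
    by_contra hcon
    -- the set orbit r ∪ {ω₀, r'} has 25 elements
    have horbit := hPtoZ r hr
    have hω : ω₀ ∉ MulAction.orbit (P : Subgroup G) r := by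
      rintro ⟨u, hu⟩
      apply hr
      have : (u : G) • r = ω₀ := hu
      have h11 := hfix0 ((u : G)⁻¹) (N.inv_mem (Subgroup.le_normalizer u.2))
      calc r = (u : G)⁻¹ • ((u : G) • r) := (inv_smul_smul _ _).symm
        _ = ω₀ := by rw [this]; exact h11
    haveI : Fintype (G ⧸ N) := Fintype.ofFinite _
    have hle := Set.ncard_le_ncard (s := MulAction.orbit (P : Subgroup G) r ∪ {ω₀, r'}) (t := Set.univ) (Set.subset_univ _) (Set.toFinite _)
    rw [Set.ncard_union_eq (by
        rw [Set.disjoint_right]
        rintro a (rfl | rfl)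
        · exact hω
        · exact hcon) (Set.toFinite _) (Set.toFinite _), Set.ncard_pair hr'.symm, Set.ncard_univ, hcΩ, ← Nat.card_coe_set_eq, horbit] at hle
    omega
  have horb : Nat.card (MulAction.orbitRel.Quotient (P : Subgroup G) (G ⧸ N)) ≤ 2 := by
    have hinj : Function.Injective (fun q : MulAction.orbitRel.Quotient (P : Subgroup G) (G ⧸ N) => decide (q = Quotient.mk'' ω₀)) := by
      intro q q' hq
      induction q using Quotient.inductionOn' with
      | h r =>
        induction q' using Quotient.inductionOn' with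
        | h r' =>
          simp only [decide_eq_decide] at hq
          by_cases hr : r = ω₀
          · have h5 := hq.1 (by rw [hr])
            rw [hr, h5]
          · have hr' : r' ≠ ω₀ := by
              rintro rfl
              exact hr (by
                have := hq.2 rfl
                have h6 : r ∈ MulAction.orbit (P : Subgroup G) ω₀ := Quotient.exact this
                obtain ⟨u, hu⟩ := h6
                have h7 := hfix0 u (Subgroup.le_normalizer u.2)
                rw [← hu]; exact h7)
            exact Quotient.sound' (hsameorbit r' r hr' hr)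
    have := Nat.card_le_card_of_injective _ hinj
    simpa using this
  have hFle2 : Nat.card (MulAction.fixedBy (G ⧸ N) (t : G)) ≤ 2 := hFle.trans horb
  have hFpos : 1 ≤ Nat.card (MulAction.fixedBy (G ⧸ N) (t : G)) := by
    haveI : Nonempty (MulAction.fixedBy (G ⧸ N) (t : G)) := ⟨⟨ω₀, hfix0 _ t.2⟩⟩
    exact Nat.card_pos
  haveI : Fintype (G ⧸ N) := Fintype.ofFinite _
  have hsq : (t : G) ^ 2 = 1 := by
    have : t ^ 2 = 1 := by rw [← ht]; exact pow_orderOf_eq_one t
    exact congrArg Subtype.val this
  obtain ⟨hev, hsign⟩ := Cfsg.Agent.Lib.SylowCount.sign_toPerm_of_sq_one (Ω := G ⧸ N) (t : G) hsq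
  rw [hcΩ] at hev hsign
  have hF2 : Nat.card (MulAction.fixedBy (G ⧸ N) (t : G)) = 2 := by
    obtain ⟨k, hk⟩ := hev
    omega
  rw [hF2] at hsign
  have hs1 := Cfsg.Agent.Lib.SylowCount.sign_eq_one_of_simple hnc (MulAction.toPermHom G (G ⧸ N)) (t : G)
  have hs2 : Equiv.Perm.sign (MulAction.toPermHom G (G ⧸ N) (t : G)) = (-1 : ℤˣ) ^ 11 := hsign
  rw [hs2] at hs1
  revert hs1
  decide

end Cfsg.Agent.S1014
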