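import Cfsg.Statements.S1015
import Cfsg.Agent.Lib.SylowCount
import Cfsg.Agent.S0985
-- import your own Cfsg.Agent.* helpers here

set_option autoImplicit false
set_option linter.all false
open Cfsg

namespace Cfsg.Agent.S1015

/-- No finite simple group has order 1200 = 2^4 * 3 * 5^2. -/
theorem result {G : Type*} [Group G] [Finite G] [IsSimpleGroup G] : Nat.card G ≠ 1200 := by
  intro h
  classical
  have hnc : ¬ IsMulCommutative G :=
    Cfsg.Agent.Lib.SylowCount.not_comm_of_not_prime (by rw [h]; norm_num)
  haveI hp5 : Fact (Nat.Prime 5) := ⟨by norm_num⟩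
  obtain ⟨P⟩ : Nonempty (Sylow 5 G) := inferInstance
  have hd : 5 ∣ Nat.card G := by rw [h]; norm_num
  have hfac : Nat.card G = 5 ^ 2 * 48 := by rw [h]; norm_num
  have hcard25 : ∀ S : Sylow 5 G, Nat.card (S : Subgroup G) = 25 := fun S => by
    rw [Cfsg.Agent.Lib.SylowCount.card_sylow_of_factor S 2 48 hfac (by norm_num)]; norm_num
  have h1 := Cfsg.Agent.Lib.SylowCount.card_sylow_dvd_cofactor (G := G) (p := 5) 2 48 hfac (by norm_num)
  have h2 := Cfsg.Agent.Lib.SylowCount.card_sylow_mod (G := G) 5
  have h3 := Cfsg.Agent.Lib.SylowCount.card_sylow_ne_one_of_simple (G := G) (p := 5) hnc hd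
  generalize hn : Nat.card (Sylow 5 G) = n at h1 h2 h3
  have hle : n ≤ 48 := Nat.le_of_dvd (by norm_num) h1
  have hcases : n = 6 ∨ n = 16 := by
    interval_cases n <;> first | omega | simp_all
  rcases hcases with rfl | rfl
  · -- index six
    have hidx : (Subgroup.normalizer ((P : Subgroup G) : Set G)).index = 6 := by
      exact (Sylow.card_eq_index_normalizer P).symm.trans hn
    have hne : Subgroup.normalizer ((P : Subgroup G) : Set G) ≠ ⊤ := by
      intro hh
      rw [hh, Subgroup.index_top] at hidx
      omega
    have := Cfsg.Agent.Lib.SylowCount.two_mul_card_dvd_factorial hnc _ hne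
    rw [hidx, h] at this
    revert this
    decide
  · -- Sylow intersection
    obtain ⟨A, B, hAB, hidx⟩ := Cfsg.Agent.S0985.result (G := G) 5 2 (by
      rw [hn]; decide)
    have hidx' : ((B : Subgroup G).subgroupOf (A : Subgroup G)).index ≤ 5 := by simpa using hidx
    have hc1 := ((B : Subgroup G).subgroupOf (A : Subgroup G)).card_mul_index
    rw [hcard25 A] at hc1
    generalize hi : ((B : Subgroup G).subgroupOf (A : Subgroup G)).index = i at hc1 hidx'
    have hi1 : i ≠ 1 := by
      rintro rfl
      have h4 : (A : Subgroup G) ≤ (B : Subgroup G) := by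
        have := Subgroup.index_eq_one.1 hi
        rwa [Subgroup.subgroupOf_eq_top] at this
      have h5 := A.is_maximal' (B.isPGroup') h4
      exact hAB (Sylow.ext h5.symm)
    have hcd : Nat.card ((B : Subgroup G).subgroupOf (A : Subgroup G)) = 5 := by
      have hi0 : i ≠ 0 := by rintro rfl; simp at hc1
      have hi5 : i = 5 := by
        have hdvd : i ∣ 25 := Dvd.intro_left _ hc1
        interval_cases i <;> first | omega | (revert hdvd; decide)
      subst hi5
      omega
    rw [Cfsg.Agent.Lib.SylowCount.card_subgroupOf_eq] at hcd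
    set D : Subgroup G := (B : Subgroup G) ⊓ (A : Subgroup G) with hD
    set M : Subgroup G := Subgroup.normalizer (D : Set G) with hM
    have hcomm : ∀ S : Sylow 5 G, ∀ a ∈ (S : Subgroup G), ∀ b ∈ (S : Subgroup G), a * b = b * a := by
      intro S a ha b hb
      have := IsPGroup.commutative_of_card_eq_prime_sq (p := 5) (G := (S : Subgroup G)) (by rw [hcard25 S]; norm_num) ⟨a, ha⟩ ⟨b, hb⟩
      exact congrArg Subtype.val this
    have hAM : (A : Subgroup G) ≤ M := Cfsg.Agent.Lib.SylowCount.le_normalizer_of_comm (hcomm A) inf_le_right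
    have hBM : (B : Subgroup G) ≤ M := Cfsg.Agent.Lib.SylowCount.le_normalizer_of_comm (hcomm B) inf_le_left
    have hMtop : M ≠ ⊤ := by
      intro hh
      have hnorm : D.Normal := Subgroup.normalizer_eq_top_iff.1 hh
      rcases IsSimpleGroup.eq_bot_or_eq_top_of_normal D hnorm with h6 | h6
      · rw [h6, Subgroup.card_bot] at hcd; omega
      · rw [h6, Subgroup.card_top, h] at hcd; omega
    -- |M| ≥ 150
    let SA : Sylow 5 M := A.subtype hAM
    let SB : Sylow 5 M := B.subtype hBM
    have hSne : SA ≠ SB := fun hh => hAB (Sylow.subtype_injective hh)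
    have hn1 : Nat.card (Sylow 5 M) ≠ 1 := by
      intro hh
      haveI := (Nat.card_eq_one_iff_unique.1 hh).1
      exact hSne (Subsingleton.elim _ _)
    have hn2 := Cfsg.Agent.Lib.SylowCount.card_sylow_mod (G := M) 5
    have hn3 := Sylow.card_dvd_index SA
    have hcSA : Nat.card (SA : Subgroup M) = 25 := by
      have : Nat.card (SA : Subgroup M) = Nat.card (A : Subgroup G) :=
        Nat.card_congr (Subgroup.subgroupOfEquivOfLe hAM).toEquiv
      rw [this, hcard25 A]
    have hn4 := (SA : Subgroup M).card_mul_index
    rw [hcSA] at hn4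
    have hpos : 0 < (SA : Subgroup M).index := Nat.pos_of_ne_zero Subgroup.index_ne_zero_of_finite
    have hge : 6 ≤ (SA : Subgroup M).index := by
      have hle2 := Nat.le_of_dvd hpos hn3
      have : 6 ≤ Nat.card (Sylow 5 M) := by
        by_contra hlt
        push Not at hlt
        interval_cases (Nat.card (Sylow 5 M)) <;> omega
      omega
    have hM150 : 150 ≤ Nat.card M := by rw [← hn4]; omega
    have hMi := M.card_mul_index
    rw [h] at hMi
    have hmle : M.index ≤ 8 := by
      by_contra hlt
      push Not at hlt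
      have : 150 * 9 ≤ Nat.card M * M.index := Nat.mul_le_mul hM150 hlt
      omega
    have hfact := Cfsg.Agent.Lib.SylowCount.two_mul_card_dvd_factorial hnc M hMtop
    rw [h] at hfact
    generalize M.index = m at hmle hfact
    revert hfact
    interval_cases m <;> decide

end Cfsg.Agent.S1015
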