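import Cfsg.Statements.S1025
import Cfsg.Agent.Lib.ChevEG2
import Cfsg.Agent.Lib.ChevEB2
import Cfsg.Agent.Lib.ChevED4
import Cfsg.Agent.Lib.ChevEF4
import Cfsg.Agent.Lib.ChevEE6
import Cfsg.Agent.Lib.ChevEE7
import Cfsg.Agent.Lib.ChevEE8
import Cfsg.Agent.Lib.ChevAll4

set_option autoImplicit false
open Cfsg

namespace Cfsg.Agent.S1025

open Cfsg.Agent.Lib.ChevSym


/-- Chevalley's commutator formula: for roots `s ≠ ±r`, `x_s(u) x_r(t) = x_r(t) x_s(u) · ∏_{i,j>0} x_{ir+js}(C_{ijrs} (-t)^i u^j)`, the product (in order of increasing `i + j`) and the constants being those of `commWord`. -/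
theorem result {F : Type*} [Field F] (D : Cfsg.Lie.ChevalleyDatum) (hD : D ∈ [Cfsg.Lie.chevG2, Cfsg.Lie.chevB2, Cfsg.Lie.chevD4, Cfsg.Lie.chevF4, Cfsg.Lie.chevE6, Cfsg.Lie.chevE7, Cfsg.Lie.chevE8]) (r s : ℕ) (hr : r < D.nroots) (hs : s < D.nroots)
    (hrs : s ≠ r) (hneg : s ≠ D.neg r) (t u : F) :
    D.x F s u * D.x F r t = D.x F r t * D.x F s u * D.wordMat F (D.commWord F r s t u) := by
  simp only [List.mem_cons, List.not_mem_nil, or_false] at hD
  rcases hD with rfl | rfl | rfl | rfl | rfl | rfl | rfl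
  · exact core1025 ⟨goodG2, good2G2, good3G2, good4G2⟩ good5G2 okAllG2 hr hs hrs hneg t u
  · exact core1025 ⟨goodB2, good2B2, good3B2, good4B2⟩ good5B2 okAllB2 hr hs hrs hneg t u
  · exact core1025 ⟨goodD4, good2D4, good3D4, good4D4⟩ good5D4 okAllD4 hr hs hrs hneg t u
  · exact core1025 ⟨goodF4, good2F4, good3F4, good4F4⟩ good5F4 okAllF4 hr hs hrs hneg t u
  · exact core1025 ⟨goodE6, good2E6, good3E6, good4E6⟩ good5E6 okAllE6 hr hs hrs hneg t u
  · exact core1025 ⟨goodE7, good2E7, good3E7, good4E7⟩ good5E7 okAllE7 hr hs hrs hneg t u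
  · exact core1025 ⟨goodE8, good2E8, good3E8, good4E8⟩ good5E8 okAllE8 hr hs hrs hneg t u

end Cfsg.Agent.S1025
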