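import Cfsg.Statements.S1046
import Cfsg.Agent.Lib.ChevAll2
import Cfsg.Agent.Lib.ChevCanon

set_option autoImplicit false
open Cfsg

namespace Cfsg.Agent.S1046

open Cfsg.Agent.Lib.ChevSym


/-- Two elements of `H` conjugate in the Chevalley group are conjugate by an element of `N`. -/
theorem result {F : Type*} [Field F] (D : Cfsg.Lie.ChevalleyDatum) (hD : D ∈ [Cfsg.Lie.chevG2, Cfsg.Lie.chevB2, Cfsg.Lie.chevD4, Cfsg.Lie.chevF4, Cfsg.Lie.chevE6, Cfsg.Lie.chevE7, Cfsg.Lie.chevE8]) (h₁ h₂ g : GL D.Idx F) (h1 : h₁ ∈ D.diagonalSubgroup F) (h2 : h₂ ∈ D.diagonalSubgroup F)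
    (hg : g ∈ D.group F) (hc : g * h₁ * g⁻¹ = h₂) :
    ∃ n ∈ D.monomialSubgroup F, n * h₁ * n⁻¹ = h₂ := by
  obtain ⟨C, T, tp, X, A, B5, B6⟩ := Cfsg.Agent.Lib.ChevSym.exists_good6 hD
  exact core1046 A B5 h1 h2 hg hc

end Cfsg.Agent.S1046
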