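import Cfsg.Statements.S1060
import Cfsg.Agent.Lib.ChevAll4

set_option autoImplicit false
open Cfsg

namespace Cfsg.Agent.S1060

open Cfsg.Agent.Lib.ChevSym


/-- `gcd(2, q-1) · |B₂(q)| = q⁴ (q² - 1)(q⁴ - 1)`. -/
theorem result {F : Type*} [Field F] [Fintype F] {q : ℕ} (hq : Fintype.card F = q) : Nat.gcd 2 (q - 1) * Nat.card ↥(Cfsg.Lie.chevB2.group F) = q ^ 4 * (q ^ 2 - 1) * (q ^ 4 - 1) := by
  have h := card_type (g := Nat.gcd 2 (q - 1)) hq ⟨goodB2, good2B2, good3B2, good4B2⟩ good5B2 pivB2 coxB2 chainB2 [2, 4] polyB2 (by have := hcardB2 (F := F); subst hq; simpa [Nat.gcd_comm] using this)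
  rw [show Cfsg.Lie.chevB2.nroots / 2 = 4 by decide +kernel] at h
  simpa only [List.map_cons, List.map_nil, List.prod_cons, List.prod_nil, mul_one, one_mul, mul_assoc] using h

end Cfsg.Agent.S1060
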