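import Cfsg.Statements.S1120
import Cfsg.Agent.Lib.RankOneSetup2
import Cfsg.Agent.Lib.H2Basic
import Cfsg.Agent.Lib.FitCore
import Cfsg.Agent.Lib.CoprimeGen
-- import your own Cfsg.Agent.* helpers here

set_option autoImplicit false
set_option linter.all false
open Cfsg

namespace Cfsg.Agent.S1120

/-- In the rank-one set-up (`G` finite and doubly transitive on `Ω`, `t` an involution moving `a`, `Q` normal in `G_a` with `G_a = Q D`, `Q ⊓ D = 1` for the two-point stabiliser `D = G_a ⊓ G_{t • a}`, `|Q|` even, `|D|` odd), if `G` has 2-rank at least 2 then `O_{2'}(G)` equals the normal core of `G_a`. -/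
theorem result {G Ω : Type*} [Group G] [Finite G] [MulAction G Ω] {a : Ω} {t : G} {Q : Subgroup G}
    (hS : Cfsg.IsRankOneSetup G Ω a t Q)
    (h2 : ∃ x y : G, x ≠ 1 ∧ y ≠ 1 ∧ x ≠ y ∧ x * x = 1 ∧ y * y = 1 ∧ x * y = y * x) :
    Cfsg.pPrimeCore 2 G = (MulAction.stabilizer G a).normalCore := by
  classical
  obtain ⟨x, y, hx1, hy1, hxy, hxx, hyy, hc⟩ := h2
  obtain ⟨e, he⟩ := Cfsg.Agent.Lib.RankOneSetup.invol_has_fixed hS hxx
  have hye : y • e = e := by
    have h1 : x • (y • e) = y • e := by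
      rw [← mul_smul, hc, mul_smul, he]
    exact Cfsg.Agent.Lib.RankOneSetup.invol_fix_unique hS hxx hx1 h1 he
  have hxye : (x * y) • e = e := by rw [mul_smul, hye, he]
  haveI : (Cfsg.pPrimeCore 2 G).Normal := Cfsg.Agent.Lib.FitCore.pPrimeCore_normal 2
  apply le_antisymm
  · rw [Subgroup.normal_le_normalCore]
    -- `O(G)` fixes `e`
    have hV : ∀ v ∈ Cfsg.Agent.Lib.H2Basic.kleinOf x y hxx hyy hc, v • e = e := by
      intro v hv
      rcases Cfsg.Agent.Lib.H2Basic.mem_kleinOf.1 hv with rfl | rfl | rfl | rfl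
      · exact one_smul _ _
      · exact he
      · exact hye
      · exact hxye
    have hVV : ∀ v ∈ Cfsg.Agent.Lib.H2Basic.kleinOf x y hxx hyy hc, v * v = 1 := by
      intro v hv
      rcases Cfsg.Agent.Lib.H2Basic.mem_kleinOf.1 hv with rfl | rfl | rfl | rfl
      · simp
      · exact hxx
      · exact hyy
      · calc x * y * (x * y) = x * (y * x) * y := by group
          _ = x * (x * y) * y := by rw [hc]
          _ = (x * x) * (y * y) := by group
          _ = 1 := by rw [hxx, hyy, one_mul]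
    have hcomm : ∀ u ∈ Cfsg.Agent.Lib.H2Basic.kleinOf x y hxx hyy hc, ∀ v ∈ Cfsg.Agent.Lib.H2Basic.kleinOf x y hxx hyy hc, u * v = v * u := by
      intro u hu v hv
      have h1 := hVV _ (Subgroup.mul_mem _ hu hv)
      have hu' := hVV u hu
      have hv' := hVV v hv
      have hui : u⁻¹ = u := inv_eq_of_mul_eq_one_left hu'
      have hvi : v⁻¹ = v := inv_eq_of_mul_eq_one_left hv'
      have h2 := inv_eq_of_mul_eq_one_left h1
      rw [mul_inv_rev, hui, hvi] at h2
      exact h2.symm
    have hgen := Cfsg.Agent.Lib.CoprimeGen.gen_all (p := 2) (Cfsg.Agent.Lib.H2Basic.kleinOf x y hxx hyy hc) (Cfsg.pPrimeCore 2 G) hcomm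
      (fun a' ha' => by rw [pow_two]; exact hVV a' ha')
      (by
        rw [Cfsg.Agent.Lib.H2Basic.card_kleinOf hx1 hy1 hxy]
        norm_num)
      (fun a' _ x' hx' => Subgroup.Normal.conj_mem inferInstance x' hx' a')
      (Cfsg.Agent.Lib.FitCore.not_dvd_card_pPrimeCore 2 Nat.prime_two)
    have hfix : Cfsg.pPrimeCore 2 G ≤ MulAction.stabilizer G e := by
      refine hgen.trans (iSup_le ?_)
      rintro ⟨B, hB, hBi⟩ c ⟨-, hcB⟩
      have hBne : B ≠ ⊥ := by
        rintro rfl
        rw [Subgroup.relIndex_bot_left, Cfsg.Agent.Lib.H2Basic.card_kleinOf hx1 hy1 hxy] at hBi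
        omega
      obtain ⟨v, hv, hv1⟩ := (Subgroup.bot_or_exists_ne_one B).resolve_left hBne
      have hcv : v * c = c * v := (Subgroup.mem_centralizer_iff.1 hcB) v hv
      have h1 : v • (c • e) = c • e := by
        rw [← mul_smul, hcv, mul_smul, hV v (hB hv)]
      exact Cfsg.Agent.Lib.RankOneSetup.invol_fix_unique hS (hVV v (hB hv)) hv1 h1 (hV v (hB hv))
    intro o ho
    obtain ⟨g, hg⟩ := Cfsg.Agent.Lib.RankOneSetup.exists_smul_a hS e
    have h1 : g * o * g⁻¹ ∈ Cfsg.pPrimeCore 2 G := Subgroup.Normal.conj_mem inferInstance o ho g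
    have h2 : (g * o * g⁻¹) • e = e := hfix h1
    rw [← hg, mul_smul, mul_smul, inv_smul_smul] at h2
    exact smul_left_cancel g h2
  · apply le_sSup
    refine ⟨inferInstance, ?_⟩
    refine Nat.Coprime.symm ((Nat.Prime.coprime_iff_not_dvd Nat.prime_two).2 ?_)
    intro h2
    haveI : Fact (Nat.Prime 2) := ⟨Nat.prime_two⟩
    obtain ⟨u, hu⟩ := exists_prime_orderOf_dvd_card' (G := (MulAction.stabilizer G a).normalCore) 2 h2
    have hu1 : (u : G) ≠ 1 := by
      intro h
      have : u = 1 := Subtype.ext h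
      rw [this, orderOf_one] at hu
      omega
    have huu : (u : G) * u = 1 := by
      have h3 : u ^ 2 = 1 := by rw [← hu]; exact pow_orderOf_eq_one u
      have h4 : (u : G) ^ 2 = 1 := by
        have := congrArg Subtype.val h3
        simpa using this
      rw [← pow_two]; exact h4
    have h5 : (u : G) • a = a := (Subgroup.normalCore_le _) u.2
    have h6 : (u : G) • (t • a) = t • a := by
      have h7 : t * u * t⁻¹ ∈ MulAction.stabilizer G a := (Subgroup.normalCore_le _) (Subgroup.Normal.conj_mem inferInstance _ u.2 t)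
      have h8 : (t * u * t⁻¹) • a = a := h7
      rw [Cfsg.Agent.Lib.RankOneSetup.t_inv hS, mul_smul, mul_smul] at h8
      have h9 : (u : G) • t • a = t • (t • (u : G) • t • a) := by
        rw [← mul_smul t t, hS.mul_self, one_smul]
      rw [h9, h8]
    exact Cfsg.Agent.Lib.RankOneSetup.ta_ne hS (Cfsg.Agent.Lib.RankOneSetup.invol_fix_unique hS huu hu1 h6 h5)

end Cfsg.Agent.S1120
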