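import Cfsg.Statements.S1121
import Cfsg.Agent.Lib.RankOneSetup
-- import your own Cfsg.Agent.* helpers here

set_option autoImplicit false
set_option linter.all false
open Cfsg

namespace Cfsg.Agent.S1121

/-- In the rank-one set-up (`G` finite and doubly transitive on `Ω`, `t` an involution moving `a`, `Q` normal in `G_a` with `G_a = Q D`, `Q ⊓ D = 1` for the two-point stabiliser `D = G_a ⊓ G_{t • a}`, `|Q|` even, `|D|` odd): if `s` is an involution of `G_a` and `u` an involution outside `G_a`, then `s u` has odd order; and any two involutions of `G` are conjugate. -/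
theorem result {G Ω : Type*} [Group G] [Finite G] [MulAction G Ω] {a : Ω} {t : G} {Q : Subgroup G}
    (hS : Cfsg.IsRankOneSetup G Ω a t Q) :
    (∀ s u : G, s ∈ MulAction.stabilizer G a → s ≠ 1 → s * s = 1 → u ∉ MulAction.stabilizer G a → u ≠ 1 → u * u = 1 → Odd (orderOf (s * u))) ∧
      ∀ u v : G, u ≠ 1 → u * u = 1 → v ≠ 1 → v * v = 1 → ∃ g : G, g * u * g⁻¹ = v := by
  classical
  open Cfsg.Agent.Lib.RankOneSetup in
  refine ⟨fun s u hs hs1 hss hu hu1 huu => odd_mul_invol hS hs hs1 hss hu hu1 huu, ?_⟩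
  open Cfsg.Agent.Lib.RankOneSetup in
  intro u v hu1 huu hv1 hvv
  open Cfsg.Agent.Lib.RankOneSetup in
  obtain ⟨b, hb⟩ := invol_has_fixed hS huu
  open Cfsg.Agent.Lib.RankOneSetup in
  obtain ⟨c, hc⟩ := invol_has_fixed hS hvv
  -- Use the transported odd product statement
  have key : ∀ x y : G, x * x = 1 → x ≠ 1 → y * y = 1 → y ≠ 1 → ∀ e f : Ω, x • e = e → y • f = f → e ≠ f →
      ∃ g : G, g * y * g⁻¹ = x := by
    intro x y hxx hx1 hyy hy1 e f he hf hef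
    -- conjugate so that e = a
    obtain ⟨g₀, hg₀⟩ := Cfsg.Agent.Lib.RankOneSetup.exists_smul_a hS e
    have h1 : (g₀⁻¹ * x * g₀) • a = a := by
      rw [mul_smul, mul_smul, hg₀, he, ← hg₀, inv_smul_smul]
    have h2 : (g₀⁻¹ * y * g₀) • a ≠ a := by
      intro h
      have h3 : y • e = e := by
        have h4 : g₀ • (g₀⁻¹ * y * g₀) • a = g₀ • a := by rw [h]
        rw [← mul_smul] at h4
        have h5 : g₀ * (g₀⁻¹ * y * g₀) = y * g₀ := by group
        rw [h5, mul_smul, hg₀] at h4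
        exact h4
      exact hef (Cfsg.Agent.Lib.RankOneSetup.invol_fix_unique hS hyy hy1 h3 hf)
    have hxx' : (g₀⁻¹ * x * g₀) * (g₀⁻¹ * x * g₀) = 1 := by
      calc (g₀⁻¹ * x * g₀) * (g₀⁻¹ * x * g₀) = g₀⁻¹ * (x * x) * g₀ := by group
        _ = 1 := by rw [hxx]; group
    have hyy' : (g₀⁻¹ * y * g₀) * (g₀⁻¹ * y * g₀) = 1 := by
      calc (g₀⁻¹ * y * g₀) * (g₀⁻¹ * y * g₀) = g₀⁻¹ * (y * y) * g₀ := by group
        _ = 1 := by rw [hyy]; group
    have hx1' : g₀⁻¹ * x * g₀ ≠ 1 := by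
      intro h
      apply hx1
      have : x = g₀ * (g₀⁻¹ * x * g₀) * g₀⁻¹ := by group
      rw [this, h]; group
    have hy1' : g₀⁻¹ * y * g₀ ≠ 1 := by
      intro h
      apply hy1
      have : y = g₀ * (g₀⁻¹ * y * g₀) * g₀⁻¹ := by group
      rw [this, h]; group
    have h3 := Cfsg.Agent.Lib.RankOneSetup.odd_mul_invol hS h1 hx1' hxx' h2 hy1' hyy'
    obtain ⟨g, hg⟩ := Cfsg.Agent.Lib.RankOneSetup.conj_of_odd hS hxx' hyy' h3
    refine ⟨g₀ * g * g₀⁻¹, ?_⟩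
    calc g₀ * g * g₀⁻¹ * y * (g₀ * g * g₀⁻¹)⁻¹ = g₀ * (g * (g₀⁻¹ * y * g₀) * g⁻¹) * g₀⁻¹ := by group
      _ = g₀ * (g₀⁻¹ * x * g₀) * g₀⁻¹ := by rw [hg]
      _ = x := by group
  by_cases hbc : c = b
  · -- same fixed point: go through another point
    obtain ⟨d, hd⟩ : ∃ d : Ω, d ≠ b := by
      by_cases h : b = a
      · exact ⟨t • a, by rw [h]; exact Cfsg.Agent.Lib.RankOneSetup.ta_ne hS⟩
      · exact ⟨a, fun h2 => h h2.symm⟩
    obtain ⟨g₁, hg₁⟩ : ∃ g₁ : G, g₁ • b = d := by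
      obtain ⟨g₂, hg₂⟩ := Cfsg.Agent.Lib.RankOneSetup.exists_smul_a hS b
      obtain ⟨g₃, hg₃⟩ := Cfsg.Agent.Lib.RankOneSetup.exists_smul_a hS d
      refine ⟨g₃ * g₂⁻¹, ?_⟩
      rw [mul_smul, ← hg₂, inv_smul_smul, hg₃]
    let w := g₁ * u * g₁⁻¹
    have hww : w * w = 1 := by
      calc w * w = g₁ * (u * u) * g₁⁻¹ := by simp only [w]; group
        _ = 1 := by rw [huu]; group
    have hw1 : w ≠ 1 := by
      intro h
      apply hu1
      have h2 : u = g₁⁻¹ * w * g₁ := by simp only [w]; group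
      rw [h2, h]; group
    have hwd : w • d = d := by
      show (g₁ * u * g₁⁻¹) • d = d
      rw [mul_smul, mul_smul, ← hg₁, inv_smul_smul, hb]
    obtain ⟨g₄, hg₄⟩ := key v w hvv hv1 hww hw1 c d hc hwd (by rw [hbc]; exact hd.symm)
    refine ⟨g₄ * g₁, ?_⟩
    calc g₄ * g₁ * u * (g₄ * g₁)⁻¹ = g₄ * w * g₄⁻¹ := by simp only [w]; group
      _ = v := hg₄
  · exact key v u hvv hv1 huu hu1 c b hc hb hbc

end Cfsg.Agent.S1121
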