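import Cfsg.Statements.S1123
import Cfsg.Agent.Lib.RankOneSetup
-- import your own Cfsg.Agent.* helpers here

set_option autoImplicit false
set_option linter.all false
open Cfsg

namespace Cfsg.Agent.S1123

/-- In the rank-one set-up (`G` finite and doubly transitive on `Ω`, `t` an involution moving `a`, `Q` normal in `G_a` with `G_a = Q D`, `Q ⊓ D = 1` for the two-point stabiliser `D = G_a ⊓ G_{t • a}`, `|Q|` even, `|D|` odd), there is a unique pair `(s, r)` with `s` an involution of `G_a`, `r ∈ Q` and `t s t = r⁻¹ t r`. -/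
theorem result {G Ω : Type*} [Group G] [Finite G] [MulAction G Ω] {a : Ω} {t : G} {Q : Subgroup G}
    (hS : Cfsg.IsRankOneSetup G Ω a t Q) :
    ∃! p : G × G, p.1 ∈ Cfsg.involutionsIn (MulAction.stabilizer G a : Set G) ∧ p.2 ∈ Q ∧
      t * p.1 * t = p.2⁻¹ * t * p.2 := by
  classical
  obtain ⟨c, hc⟩ := Cfsg.Agent.Lib.RankOneSetup.invol_has_fixed hS hS.mul_self
  have hca : c ≠ a := by
    rintro rfl
    exact hS.not_mem hc
  obtain ⟨r₀, hr₀, hr₀e⟩ := Cfsg.Agent.Lib.RankOneSetup.exists_Q_smul hS hca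
  have htinv := Cfsg.Agent.Lib.RankOneSetup.t_inv hS
  obtain ⟨y, hy⟩ : ∃ y, y = r₀⁻¹ * t * r₀ := ⟨_, rfl⟩
  have hyy : y * y = 1 := by
    rw [hy]
    calc r₀⁻¹ * t * r₀ * (r₀⁻¹ * t * r₀) = r₀⁻¹ * (t * t) * r₀ := by group
      _ = 1 := by rw [hS.mul_self]; group
  have hy1 : y ≠ 1 := by
    intro h
    apply hS.ne_one
    have h2 : t = r₀ * y * r₀⁻¹ := by rw [hy]; group
    rw [h2, h]; group
  have hyfix : y • (t • a) = t • a := by
    rw [hy, mul_smul, mul_smul, hr₀e, hc, ← hr₀e, inv_smul_smul]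
  refine ⟨(t * y * t, r₀), ⟨⟨?_, ?_, ?_⟩, hr₀, ?_⟩, ?_⟩
  · show (t * y * t) • a = a
    rw [mul_smul, mul_smul, hyfix, Cfsg.Agent.Lib.RankOneSetup.t_t_a hS]
  · intro h
    apply hy1
    have h2 : y = t * (t * y * t) * t := by
      calc y = (t * t) * y * (t * t) := by rw [hS.mul_self]; group
        _ = _ := by group
    have h' : t * y * t = 1 := h
    rw [h2, h']
    simpa using hS.mul_self
  · calc t * y * t * (t * y * t) = t * y * (t * t) * y * t := by group
      _ = t * (y * y) * t := by rw [hS.mul_self]; group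
      _ = t * t := by rw [hyy]; group
      _ = 1 := hS.mul_self
  · show t * (t * y * t) * t = r₀⁻¹ * t * r₀
    rw [← hy]
    calc t * (t * y * t) * t = (t * t) * y * (t * t) := by group
      _ = y := by rw [hS.mul_self]; group
  · rintro ⟨s, r⟩ ⟨⟨hsa, hs1, hss⟩, hr, he⟩
    simp only at hsa hs1 hss hr he
    have hsa' : s • a = a := hsa
    have h1 : (r⁻¹ * t * r) • (t • a) = t • a := by
      rw [← he, mul_smul, mul_smul, Cfsg.Agent.Lib.RankOneSetup.t_t_a hS, hsa']
    -- r⁻¹ t r fixes r⁻¹ c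
    have hrr : (r⁻¹ * t * r) * (r⁻¹ * t * r) = 1 := by
      calc (r⁻¹ * t * r) * (r⁻¹ * t * r) = r⁻¹ * (t * t) * r := by group
        _ = 1 := by rw [hS.mul_self]; group
    have hr1 : r⁻¹ * t * r ≠ 1 := by
      intro h
      apply hS.ne_one
      have h2 : t = r * (r⁻¹ * t * r) * r⁻¹ := by group
      rw [h2, h]; group
    have h2 : (r⁻¹ * t * r) • (r⁻¹ • c) = r⁻¹ • c := by
      rw [mul_smul, mul_smul, smul_inv_smul, hc]
    have h3 : t • a = r⁻¹ • c := Cfsg.Agent.Lib.RankOneSetup.invol_fix_unique hS hrr hr1 h1 h2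
    have h4 : r • t • a = r₀ • t • a := by
      have h40 : r • t • a = c := by rw [h3, smul_inv_smul]
      exact h40.trans hr₀e.symm
    have h5 : r = r₀ := Cfsg.Agent.Lib.RankOneSetup.Q_inj hS hr hr₀ h4
    simp only [Prod.mk.injEq]
    refine ⟨?_, h5⟩
    have h6 : s = t * (t * s * t) * t := by
      calc s = (t * t) * s * (t * t) := by rw [hS.mul_self]; group
        _ = _ := by group
    rw [h6, he, h5, ← hy]

end Cfsg.Agent.S1123
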