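import Cfsg.Statements.S1124
import Cfsg.Agent.Lib.OddInv
-- import your own Cfsg.Agent.* helpers here

set_option autoImplicit false
set_option linter.all false
open scoped Pointwise
open Cfsg

namespace Cfsg.Agent.S1124

/-- Let `t` be an element of order 2 of a finite group normalising a subgroup `X` of odd order, `Y = C_X(t)` and `Z` the set of elements of `X` inverted by `t`. Then `(y, z) ↦ y z` is a bijection `Y × Z → X`, so `|X| = |Y| |Z|`, and the subgroup generated by `Z` is normal in `X`. -/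
theorem result {M : Type*} [Group M] [Finite M]
    (t : M) (ht : orderOf t = 2) (X : Subgroup M) (hodd : Odd (Nat.card X))
    (hnorm : ∀ x ∈ X, t * x * t⁻¹ ∈ X) :
    (∀ x ∈ X, ∃! p : M × M, p.1 ∈ X ⊓ Subgroup.centralizer {t} ∧ p.2 ∈ Cfsg.invertedBy X t ∧ x = p.1 * p.2) ∧
      Nat.card X = Nat.card ↥(X ⊓ Subgroup.centralizer {t}) * Nat.card (Cfsg.invertedBy X t) ∧
      ∀ x ∈ X, MulAut.conj x • Subgroup.closure (Cfsg.invertedBy X t) = Subgroup.closure (Cfsg.invertedBy X t) := by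
  classical
  have ht2 : t * t = 1 := by rw [← pow_two, ← ht]; exact pow_orderOf_eq_one t
  have hcent : ∀ y, y ∈ Subgroup.centralizer ({t} : Set M) ↔ y * t = t * y := fun y => Subgroup.mem_centralizer_singleton_iff
  have hdec : ∀ x ∈ X, ∃! p : M × M, p.1 ∈ X ⊓ Subgroup.centralizer {t} ∧ p.2 ∈ Cfsg.invertedBy X t ∧ x = p.1 * p.2 := by
    intro x hx
    obtain ⟨y, z, hyX, hy, hzX, hzi, hxe⟩ := Cfsg.Agent.Lib.OddInv.exists_decomp ht2 hodd hnorm hx
    refine ⟨(y, z), ⟨⟨hyX, (hcent y).2 hy⟩, ⟨hzX, hzi⟩, hxe⟩, ?_⟩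
    rintro ⟨y', z'⟩ ⟨⟨hy'X, hy'⟩, ⟨hz'X, hz'i⟩, hxe'⟩
    have h := Cfsg.Agent.Lib.OddInv.decomp_unique (t := t) hodd hy ((hcent y').1 hy') hzX hz'X hzi hz'i (hxe.symm.trans hxe')
    simp only [Prod.mk.injEq]
    exact ⟨h.1.symm, h.2.symm⟩
  refine ⟨hdec, ?_, ?_⟩
  · -- bijection
    have hbij : Function.Bijective (fun p : ↥(X ⊓ Subgroup.centralizer {t}) × (Cfsg.invertedBy X t) =>
        (⟨(p.1 : M) * (p.2 : M), X.mul_mem p.1.2.1 p.2.2.1⟩ : X)) := by
      constructor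
      · rintro ⟨⟨y, hy⟩, ⟨z, hz⟩⟩ ⟨⟨y', hy'⟩, ⟨z', hz'⟩⟩ h
        have h1 : y * z = y' * z' := congrArg Subtype.val h
        have h := Cfsg.Agent.Lib.OddInv.decomp_unique (t := t) hodd ((hcent y).1 hy.2) ((hcent y').1 hy'.2) hz.1 hz'.1 hz.2 hz'.2 h1
        obtain ⟨rfl, rfl⟩ := h
        rfl
      · rintro ⟨x, hx⟩
        obtain ⟨y, z, hyX, hy, hzX, hzi, hxe⟩ := Cfsg.Agent.Lib.OddInv.exists_decomp ht2 hodd hnorm hx
        exact ⟨(⟨y, hyX, (hcent y).2 hy⟩, ⟨z, hzX, hzi⟩), Subtype.ext hxe.symm⟩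
    rw [← Nat.card_prod]
    exact (Nat.card_eq_of_bijective _ hbij).symm
  · intro x hx
    have hle : ∀ w ∈ X, ∀ u ∈ Subgroup.closure (Cfsg.invertedBy X t), w * u * w⁻¹ ∈ Subgroup.closure (Cfsg.invertedBy X t) := by
      intro w hw u hu
      obtain ⟨y, z, hyX, hy, hzX, hzi, hxe⟩ := Cfsg.Agent.Lib.OddInv.exists_decomp ht2 hodd hnorm hw
      have hzc : z ∈ Subgroup.closure (Cfsg.invertedBy X t) := Subgroup.subset_closure ⟨hzX, hzi⟩
      have hyN : ∀ v ∈ Subgroup.closure (Cfsg.invertedBy X t), y * v * y⁻¹ ∈ Subgroup.closure (Cfsg.invertedBy X t) := by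
        intro v hv
        induction hv using Subgroup.closure_induction with
        | mem v hv =>
          apply Subgroup.subset_closure
          refine ⟨X.mul_mem (X.mul_mem hyX hv.1) (X.inv_mem hyX), ?_⟩
          have h1 : t * y * t⁻¹ = y := by rw [← hy]; group
          have h2 : t * (y * v * y⁻¹) * t⁻¹ = (t * y * t⁻¹) * (t * v * t⁻¹) * (t * y * t⁻¹)⁻¹ := by group
          rw [h2, h1, hv.2]
          group
        | one => simp
        | mul a b _ _ ha hb =>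
          have : y * (a * b) * y⁻¹ = (y * a * y⁻¹) * (y * b * y⁻¹) := by group
          rw [this]
          exact Subgroup.mul_mem _ ha hb
        | inv a _ ha =>
          have : y * a⁻¹ * y⁻¹ = (y * a * y⁻¹)⁻¹ := by group
          rw [this]
          exact Subgroup.inv_mem _ ha
      have h1 : w * u * w⁻¹ = y * (z * u * z⁻¹) * y⁻¹ := by rw [hxe]; group
      rw [h1]
      exact hyN _ (Subgroup.mul_mem _ (Subgroup.mul_mem _ hzc hu) (Subgroup.inv_mem _ hzc))
    apply le_antisymm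
    · rintro _ ⟨u, hu, rfl⟩
      exact hle x hx u hu
    · intro u hu
      refine ⟨x⁻¹ * u * x, ?_, ?_⟩
      · have := hle x⁻¹ (X.inv_mem hx) u hu
        simpa using this
      · show x * (x⁻¹ * u * x) * x⁻¹ = u
        group

end Cfsg.Agent.S1124
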