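import Cfsg.Statements.S1127
import Cfsg.Agent.Lib.RankOneSetup2
import Cfsg.Agent.S1123
-- import your own Cfsg.Agent.* helpers here

set_option autoImplicit false
set_option linter.all false
open Cfsg

namespace Cfsg.Agent.S1127

/-- In the rank-one set-up (`G` finite and doubly transitive on `Ω`, `t` an involution moving `a`, `Q` normal in `G_a` with `G_a = Q D`, `Q ⊓ D = 1` for the two-point stabiliser `D = G_a ⊓ G_{t • a}`, `|Q|` even, `|D|` odd): if `s` is an involution of `G_a` and `r ∈ Q` satisfy `t s t = r⁻¹ t r`, then `C_D(t) = C_D(s)`; moreover `C_D(t) ⊓ C_D(K) = C_D(I ∩ G_a)`, where `K` is the set of elements of `D` inverted by `t` and `I ∩ G_a` the set of involutions of `G_a`. -/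
theorem result {G Ω : Type*} [Group G] [Finite G] [MulAction G Ω] {a : Ω} {t : G} {Q : Subgroup G}
    (hS : Cfsg.IsRankOneSetup G Ω a t Q) :
    (∀ s r : G, s ∈ Cfsg.involutionsIn (MulAction.stabilizer G a : Set G) → r ∈ Q → t * s * t = r⁻¹ * t * r →
        (MulAction.stabilizer G a ⊓ MulAction.stabilizer G (t • a)) ⊓ Subgroup.centralizer {t} = (MulAction.stabilizer G a ⊓ MulAction.stabilizer G (t • a)) ⊓ Subgroup.centralizer {s}) ∧
      (MulAction.stabilizer G a ⊓ MulAction.stabilizer G (t • a)) ⊓ Subgroup.centralizer {t} ⊓ Subgroup.centralizer (Cfsg.invertedBy (MulAction.stabilizer G a ⊓ MulAction.stabilizer G (t • a)) t) =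
        (MulAction.stabilizer G a ⊓ MulAction.stabilizer G (t • a)) ⊓ Subgroup.centralizer (Cfsg.involutionsIn (MulAction.stabilizer G a : Set G)) := by
  classical
  have ht := Cfsg.Agent.Lib.RankOneSetup.t_inv hS
  have hcent : ∀ x y : G, y ∈ Subgroup.centralizer ({x} : Set G) ↔ y * x = x * y := fun x y => Subgroup.mem_centralizer_singleton_iff
  have hfirst : ∀ s r : G, s ∈ Cfsg.involutionsIn (MulAction.stabilizer G a : Set G) → r ∈ Q → t * s * t = r⁻¹ * t * r →
        (MulAction.stabilizer G a ⊓ MulAction.stabilizer G (t • a)) ⊓ Subgroup.centralizer {t} = (MulAction.stabilizer G a ⊓ MulAction.stabilizer G (t • a)) ⊓ Subgroup.centralizer {s} := by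
    intro s r hs hr he
    obtain ⟨hsa, hs1, hss⟩ := hs
    have hsa' : s • a = a := hsa
    have hle : ∀ d, d ∈ (MulAction.stabilizer G a ⊓ MulAction.stabilizer G (t • a)) → d * t = t * d → d * s = s * d := by
      intro d hd hdt
      have hdinv : d⁻¹ * t = t * d⁻¹ := by
        calc d⁻¹ * t = d⁻¹ * (t * d) * d⁻¹ := by group
          _ = d⁻¹ * (d * t) * d⁻¹ := by rw [hdt]
          _ = t * d⁻¹ := by group
      have hp : ((s, r) : G × G).1 ∈ Cfsg.involutionsIn (MulAction.stabilizer G a : Set G) ∧ ((s, r) : G × G).2 ∈ Q ∧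
          t * ((s, r) : G × G).1 * t = ((s, r) : G × G).2⁻¹ * t * ((s, r) : G × G).2 := ⟨⟨hsa, hs1, hss⟩, hr, he⟩
      have hp' : ((d * s * d⁻¹, d * r * d⁻¹) : G × G).1 ∈ Cfsg.involutionsIn (MulAction.stabilizer G a : Set G) ∧ ((d * s * d⁻¹, d * r * d⁻¹) : G × G).2 ∈ Q ∧
          t * ((d * s * d⁻¹, d * r * d⁻¹) : G × G).1 * t = ((d * s * d⁻¹, d * r * d⁻¹) : G × G).2⁻¹ * t * ((d * s * d⁻¹, d * r * d⁻¹) : G × G).2 := by
        refine ⟨⟨?_, ?_, ?_⟩, hS.conj_mem d hd.1 r hr, ?_⟩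
        · exact Subgroup.mul_mem _ (Subgroup.mul_mem _ hd.1 hsa) (Subgroup.inv_mem _ hd.1)
        · intro h
          apply hs1
          have h' : d * s * d⁻¹ = 1 := h
          have : s = d⁻¹ * (d * s * d⁻¹) * d := by group
          rw [this, h']; group
        · show d * s * d⁻¹ * (d * s * d⁻¹) = 1
          calc d * s * d⁻¹ * (d * s * d⁻¹) = d * (s * s) * d⁻¹ := by group
            _ = 1 := by rw [hss]; group
        · show t * (d * s * d⁻¹) * t = (d * r * d⁻¹)⁻¹ * t * (d * r * d⁻¹)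
          calc t * (d * s * d⁻¹) * t = (t * d) * s * (d⁻¹ * t) := by group
            _ = (d * t) * s * (t * d⁻¹) := by rw [hdt, hdinv]
            _ = d * (t * s * t) * d⁻¹ := by group
            _ = d * (r⁻¹ * t * r) * d⁻¹ := by rw [he]
            _ = d * r⁻¹ * (d⁻¹ * d) * t * r * d⁻¹ := by group
            _ = d * r⁻¹ * d⁻¹ * (d * t) * r * d⁻¹ := by group
            _ = d * r⁻¹ * d⁻¹ * (t * d) * r * d⁻¹ := by rw [hdt]
            _ = (d * r * d⁻¹)⁻¹ * t * (d * r * d⁻¹) := by group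
      have h := (Cfsg.Agent.S1123.result hS).unique hp hp'
      have h1 : s = d * s * d⁻¹ := congrArg Prod.fst h
      calc d * s = d * s * d⁻¹ * d := by group
        _ = s * d := by rw [← h1]
    apply le_antisymm
    · rintro d ⟨hd, hdt⟩
      exact ⟨hd, (hcent s d).2 (hle d hd ((hcent t d).1 hdt))⟩
    · rintro d ⟨hd, hds⟩
      refine ⟨hd, ?_⟩
      have hds' := (hcent s d).1 hds
      obtain ⟨y, z, hyD, hy, hzD, hzi, hxe⟩ := Cfsg.Agent.Lib.OddInv.exists_decomp hS.mul_self hS.odd_card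
        (fun x hx => by rw [ht]; exact Cfsg.Agent.Lib.RankOneSetup.t_conj_D hS hx) hd
      have hys := hle y hyD hy
      have hzs : z * s = s * z := by
        have h1 : z = y⁻¹ * d := by rw [hxe]; group
        have hys' : y⁻¹ * s = s * y⁻¹ := by
          calc y⁻¹ * s = y⁻¹ * (s * y) * y⁻¹ := by group
            _ = y⁻¹ * (y * s) * y⁻¹ := by rw [hys]
            _ = s * y⁻¹ := by group
        rw [h1]
        calc y⁻¹ * d * s = y⁻¹ * (d * s) := by group
          _ = y⁻¹ * (s * d) := by rw [hds']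
          _ = (y⁻¹ * s) * d := by group
          _ = s * y⁻¹ * d := by rw [hys']
          _ = s * (y⁻¹ * d) := by group
      have h2 : z⁻¹ * s * z = (1 : G)⁻¹ * s * 1 := by
        calc z⁻¹ * s * z = z⁻¹ * (s * z) := by group
          _ = z⁻¹ * (z * s) := by rw [hzs]
          _ = (1 : G)⁻¹ * s * 1 := by group
      have h1K : (1 : G) ∈ Cfsg.invertedBy (MulAction.stabilizer G a ⊓ MulAction.stabilizer G (t • a)) t := by
        refine ⟨Subgroup.one_mem _, ?_⟩
        group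
      have h3 := Cfsg.Agent.Lib.RankOneSetup2.inverted_conj_inj hS hsa' hs1 hss ⟨hzD, hzi⟩ h1K h2
      rw [hxe, h3, mul_one]
      exact (hcent t y).2 hy
  refine ⟨hfirst, ?_⟩
  obtain ⟨⟨s₀, r₀⟩, ⟨hs₀, hr₀, he₀⟩, -⟩ := Cfsg.Agent.S1123.result hS
  simp only at hs₀ hr₀ he₀
  have hC := hfirst s₀ r₀ hs₀ hr₀ he₀
  obtain ⟨hs₀a, hs₀1, hs₀s⟩ := id hs₀
  have hs₀a' : s₀ • a = a := hs₀a
  have hmemI : ∀ k ∈ Cfsg.invertedBy (MulAction.stabilizer G a ⊓ MulAction.stabilizer G (t • a)) t, k⁻¹ * s₀ * k ∈ Cfsg.involutionsIn (MulAction.stabilizer G a : Set G) := by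
    intro k hk
    refine ⟨?_, ?_, ?_⟩
    · exact Subgroup.mul_mem _ (Subgroup.mul_mem _ (Subgroup.inv_mem _ hk.1.1) hs₀a) hk.1.1
    · intro h
      apply hs₀1
      have h' : k⁻¹ * s₀ * k = 1 := h
      have : s₀ = k * (k⁻¹ * s₀ * k) * k⁻¹ := by group
      rw [this, h']; group
    · show k⁻¹ * s₀ * k * (k⁻¹ * s₀ * k) = 1
      calc k⁻¹ * s₀ * k * (k⁻¹ * s₀ * k) = k⁻¹ * (s₀ * s₀) * k := by group
        _ = 1 := by rw [hs₀s]; group
  apply le_antisymm
  · rintro d ⟨⟨hd, hdt⟩, hdK⟩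
    refine ⟨hd, ?_⟩
    refine Subgroup.mem_centralizer_iff.2 ?_
    rintro s' ⟨hs'a, hs'1, hs's⟩
    obtain ⟨k, hk, hke⟩ := Cfsg.Agent.Lib.RankOneSetup2.exists_inverted_conj hS hs₀a' hs₀1 hs₀s hs'a hs'1 hs's
    have hd0 : d ∈ (MulAction.stabilizer G a ⊓ MulAction.stabilizer G (t • a)) ⊓ Subgroup.centralizer {s₀} := by
      rw [← hC]
      exact ⟨hd, hdt⟩
    have hds := (hcent s₀ d).1 hd0.2
    have hdk : k * d = d * k := (Subgroup.mem_centralizer_iff.1 hdK) k hk
    have hdk' : k⁻¹ * d = d * k⁻¹ := by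
      calc k⁻¹ * d = k⁻¹ * (d * k) * k⁻¹ := by group
        _ = k⁻¹ * (k * d) * k⁻¹ := by rw [hdk]
        _ = d * k⁻¹ := by group
    rw [← hke]
    calc k⁻¹ * s₀ * k * d = k⁻¹ * s₀ * (k * d) := by group
      _ = k⁻¹ * s₀ * (d * k) := by rw [hdk]
      _ = k⁻¹ * (s₀ * d) * k := by group
      _ = k⁻¹ * (d * s₀) * k := by rw [hds]
      _ = (k⁻¹ * d) * s₀ * k := by group
      _ = (d * k⁻¹) * s₀ * k := by rw [hdk']
      _ = d * (k⁻¹ * s₀ * k) := by group
  · rintro d ⟨hd, hdI⟩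
    have hdI' := Subgroup.mem_centralizer_iff.1 hdI
    have hd0 : d ∈ (MulAction.stabilizer G a ⊓ MulAction.stabilizer G (t • a)) ⊓ Subgroup.centralizer {t} := by
      rw [hC]
      exact ⟨hd, (hcent s₀ d).2 (hdI' s₀ hs₀).symm⟩
    refine ⟨hd0, ?_⟩
    refine Subgroup.mem_centralizer_iff.2 ?_
    intro k hk
    have hk1 := hdI' _ (hmemI k hk)
    -- `k d k⁻¹` commutes with `s₀`
    have hmem : k * d * k⁻¹ ∈ (MulAction.stabilizer G a ⊓ MulAction.stabilizer G (t • a)) ⊓ Subgroup.centralizer {s₀} := by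
      refine ⟨Subgroup.mul_mem _ (Subgroup.mul_mem _ hk.1 hd) (Subgroup.inv_mem _ hk.1), ?_⟩
      refine (hcent s₀ _).2 ?_
      calc k * d * k⁻¹ * s₀ = k * d * (k⁻¹ * s₀ * k) * k⁻¹ := by group
        _ = k * (k⁻¹ * s₀ * k) * d * k⁻¹ := by rw [mul_assoc k d, ← hk1]; group
        _ = s₀ * (k * d * k⁻¹) := by group
    rw [← hC] at hmem
    have hct := (hcent t _).1 hmem.2
    have hdt := (hcent t d).1 hd0.2
    have hki : t * k * t⁻¹ = k⁻¹ := hk.2
    rw [ht] at hki
    have hte : t * k = k⁻¹ * t := by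
      calc t * k = (t * k * t) * t := by rw [mul_assoc (t * k), hS.mul_self, mul_one]
        _ = k⁻¹ * t := by rw [hki]
    have hkinv : t * k⁻¹ = k * t := by
      calc t * k⁻¹ = t * k⁻¹ * (t * t) := by rw [hS.mul_self, mul_one]
        _ = t * (k⁻¹ * t) * t := by group
        _ = t * (t * k) * t := by rw [hte]
        _ = (t * t) * k * t := by group
        _ = k * t := by rw [hS.mul_self, one_mul]
    have h5 : k * d * k⁻¹ = k⁻¹ * d * k := by
      have h6 : t * (k * d * k⁻¹) * t = k⁻¹ * d * k := by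
        calc t * (k * d * k⁻¹) * t = (t * k) * d * (k⁻¹ * t) := by group
          _ = (k⁻¹ * t) * d * (t * k) := by rw [hte]
          _ = k⁻¹ * (t * d * t) * k := by group
          _ = k⁻¹ * (d * t * t) * k := by rw [hdt]
          _ = k⁻¹ * d * k := by rw [mul_assoc d, hS.mul_self, mul_one]
      rw [← h6]
      calc k * d * k⁻¹ = (k * d * k⁻¹) * (t * t) := by rw [hS.mul_self, mul_one]
        _ = ((k * d * k⁻¹) * t) * t := by group
        _ = t * (k * d * k⁻¹) * t := by rw [hct]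
    -- `d` commutes with `k²`
    have h7 : Commute (k ^ 2) d := by
      show k ^ 2 * d = d * k ^ 2
      rw [pow_two]
      calc k * k * d = k * (k * d * k⁻¹) * k := by group
        _ = k * (k⁻¹ * d * k) * k := by rw [h5]
        _ = d * (k * k) := by group
    obtain ⟨m, hm⟩ := Cfsg.Agent.Lib.RankOneSetup2.odd_orderOf_mem_D hS hk.1
    have h8 : (k ^ 2) ^ (m + 1) = k := by
      rw [← pow_mul]
      have : 2 * (m + 1) = orderOf k + 1 := by omega
      rw [this, pow_succ, pow_orderOf_eq_one, one_mul]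
    have h9 : Commute k d := by
      rw [← h8]
      exact h7.pow_left _
    exact h9.eq

end Cfsg.Agent.S1127
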