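import Cfsg.Statements.S1134
import Cfsg.Agent.Lib.RankOneSetup2
-- import your own Cfsg.Agent.* helpers here

set_option autoImplicit false
set_option linter.all false
open Cfsg

namespace Cfsg.Agent.S1134

/-- In the rank-one set-up (`G` finite and doubly transitive on `Ω`, `t` an involution moving `a`, `Q` normal in `G_a` with `G_a = Q D`, `Q ⊓ D = 1` for the two-point stabiliser `D = G_a ⊓ G_{t • a}`, `|Q|` even, `|D|` odd), with the action faithful and `G` containing two distinct commuting involutions, with `V = C_D(t)`: subsets of `V` conjugate in `G` are conjugate in `V`. -/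
theorem result {G Ω : Type*} [Group G] [Finite G] [MulAction G Ω] [FaithfulSMul G Ω] {a : Ω} {t : G} {Q : Subgroup G}
    (hS : Cfsg.IsRankOneSetup G Ω a t Q)
    (h2 : ∃ x y : G, x ≠ 1 ∧ y ≠ 1 ∧ x ≠ y ∧ x * x = 1 ∧ y * y = 1 ∧ x * y = y * x)
    (X : Set G) (hX : X ⊆ (((MulAction.stabilizer G a ⊓ MulAction.stabilizer G (t • a)) ⊓ Subgroup.centralizer {t} : Subgroup G) : Set G)) (g : G)
    (hY : (fun x => g * x * g⁻¹) '' X ⊆ (((MulAction.stabilizer G a ⊓ MulAction.stabilizer G (t • a)) ⊓ Subgroup.centralizer {t} : Subgroup G) : Set G)) :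
    ∃ v ∈ (MulAction.stabilizer G a ⊓ MulAction.stabilizer G (t • a)) ⊓ Subgroup.centralizer {t}, (fun x => v * x * v⁻¹) '' X = (fun x => g * x * g⁻¹) '' X := by
  classical
  have hta := Cfsg.Agent.Lib.RankOneSetup.ta_ne hS
  have htinv := Cfsg.Agent.Lib.RankOneSetup.t_inv hS
  obtain ⟨c, hc⟩ := Cfsg.Agent.Lib.RankOneSetup.invol_has_fixed hS hS.mul_self
  have hca : c ≠ a := by
    rintro rfl
    exact hta hc
  have hcta : c ≠ t • a := by
    intro h
    apply hta
    have h1 : t • t • a = t • a := by rw [← h]; exact hc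
    rw [Cfsg.Agent.Lib.RankOneSetup.t_t_a hS] at h1
    exact h1.symm
  have hV : ∀ y ∈ (((MulAction.stabilizer G a ⊓ MulAction.stabilizer G (t • a)) ⊓ Subgroup.centralizer {t} : Subgroup G) : Set G),
      y • a = a ∧ y • (t • a) = t • a ∧ y • c = c := by
    rintro y ⟨hyD, hyt⟩
    refine ⟨hyD.1, hyD.2, ?_⟩
    have h1 : y * t = t * y := Subgroup.mem_centralizer_singleton_iff.1 hyt
    have h2 : t • (y • c) = y • c := by
      rw [← mul_smul, ← h1, mul_smul, hc]
    exact Cfsg.Agent.Lib.RankOneSetup.invol_fix_unique hS hS.mul_self hS.ne_one h2 hc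
  obtain ⟨Y, hY'⟩ : ∃ Y, Y = (fun x => g * x * g⁻¹) '' X := ⟨_, rfl⟩
  rw [← hY'] at hY ⊢
  have hYfix := fun y (hy : y ∈ Y) => hV y (hY hy)
  obtain ⟨h, hhc, hh1, hh2⟩ := Cfsg.Agent.Lib.RankOneSetup2.exists_comm_two_trans hS Y (b := a) (c := t • a) (d := c) hta.symm hca.symm hcta.symm
    hYfix (b₁ := g • a) (b₂ := g • (t • a)) (c₁ := a) (c₂ := t • a)
    (by
      intro y hy
      rw [hY'] at hy
      obtain ⟨x, hx, rfl⟩ := hy
      have hx' := hV x (hX hx)
      refine ⟨?_, ?_, (hV _ (hY (by rw [hY']; exact ⟨x, hx, rfl⟩))).1, (hV _ (hY (by rw [hY']; exact ⟨x, hx, rfl⟩))).2.1⟩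
      · show (g * x * g⁻¹) • g • a = g • a
        rw [mul_smul, mul_smul, inv_smul_smul, hx'.1]
      · show (g * x * g⁻¹) • g • (t • a) = g • (t • a)
        rw [mul_smul, mul_smul, inv_smul_smul, hx'.2.1])
    (fun e => hta.symm (smul_left_cancel g e)) hta.symm
  obtain ⟨g₁, hg₁⟩ : ∃ g₁, g₁ = h * g := ⟨_, rfl⟩
  have hg₁D : g₁ ∈ MulAction.stabilizer G a ⊓ MulAction.stabilizer G (t • a) := by
    constructor
    · show g₁ • a = a
      rw [hg₁, mul_smul, hh1]
    · show g₁ • (t • a) = t • a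
      rw [hg₁, mul_smul, hh2]
  obtain ⟨v, k, hvD, hv, hkD, hki, hg₁e⟩ := Cfsg.Agent.Lib.OddInv.exists_decomp hS.mul_self hS.odd_card
    (fun x hx => by rw [htinv]; exact Cfsg.Agent.Lib.RankOneSetup.t_conj_D hS hx) hg₁D
  refine ⟨v, ⟨hvD, Subgroup.mem_centralizer_singleton_iff.2 hv⟩, ?_⟩
  have hvinv : v⁻¹ * t = t * v⁻¹ := by
    calc v⁻¹ * t = v⁻¹ * (t * v) * v⁻¹ := by group
      _ = v⁻¹ * (v * t) * v⁻¹ := by rw [hv]
      _ = t * v⁻¹ := by group
  rw [htinv] at hki
  have hte : t * k = k⁻¹ * t := by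
    calc t * k = (t * k * t) * t := by rw [mul_assoc (t * k), hS.mul_self, mul_one]
      _ = k⁻¹ * t := by rw [hki]
  have hkinv : t * k⁻¹ = k * t := by
    calc t * k⁻¹ = t * k⁻¹ * (t * t) := by rw [hS.mul_self, mul_one]
      _ = t * (k⁻¹ * t) * t := by group
      _ = t * (t * k) * t := by rw [hte]
      _ = (t * t) * k * t := by group
      _ = k * t := by rw [hS.mul_self, one_mul]
  -- elementwise equality
  have hkey : ∀ x ∈ X, v * x * v⁻¹ = g * x * g⁻¹ := by
    intro x hx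
    have hx' := hX hx
    have hxt : x * t = t * x := Subgroup.mem_centralizer_singleton_iff.1 hx'.2
    have hy : g * x * g⁻¹ ∈ Y := by rw [hY']; exact ⟨x, hx, rfl⟩
    have hyh := hhc _ hy
    have h1 : g₁ * x * g₁⁻¹ = g * x * g⁻¹ := by
      rw [hg₁]
      calc h * g * x * (h * g)⁻¹ = h * (g * x * g⁻¹) * h⁻¹ := by group
        _ = (g * x * g⁻¹) * h * h⁻¹ := by rw [← hyh]
        _ = g * x * g⁻¹ := by group
    have hyV := hY hy
    have hyt : (g * x * g⁻¹) * t = t * (g * x * g⁻¹) := Subgroup.mem_centralizer_singleton_iff.1 hyV.2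
    -- `w = k x k⁻¹` commutes with `t`
    have hw : (k * x * k⁻¹) * t = t * (k * x * k⁻¹) := by
      have h2 : k * x * k⁻¹ = v⁻¹ * (g * x * g⁻¹) * v := by
        rw [← h1, hg₁e]
        group
      rw [h2]
      calc v⁻¹ * (g * x * g⁻¹) * v * t = v⁻¹ * (g * x * g⁻¹) * (v * t) := by group
        _ = v⁻¹ * (g * x * g⁻¹) * (t * v) := by rw [hv]
        _ = v⁻¹ * ((g * x * g⁻¹) * t) * v := by group
        _ = v⁻¹ * (t * (g * x * g⁻¹)) * v := by rw [hyt]
        _ = (v⁻¹ * t) * (g * x * g⁻¹) * v := by group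
        _ = (t * v⁻¹) * (g * x * g⁻¹) * v := by rw [hvinv]
        _ = t * (v⁻¹ * (g * x * g⁻¹) * v) := by group
    have h3 : k * x * k⁻¹ = k⁻¹ * x * k := by
      calc k * x * k⁻¹ = t * (t * (k * x * k⁻¹)) := by rw [← mul_assoc, hS.mul_self, one_mul]
        _ = t * ((k * x * k⁻¹) * t) := by rw [hw]
        _ = (t * k) * x * (k⁻¹ * t) := by group
        _ = (k⁻¹ * t) * x * (t * k) := by rw [hte]
        _ = k⁻¹ * (t * x * t) * k := by group
        _ = k⁻¹ * (x * t * t) * k := by rw [hxt]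
        _ = k⁻¹ * x * k := by rw [mul_assoc x, hS.mul_self, mul_one]
    have h7 : Commute (k ^ 2) x := by
      show k ^ 2 * x = x * k ^ 2
      rw [pow_two]
      calc k * k * x = k * (k * x * k⁻¹) * k := by group
        _ = k * (k⁻¹ * x * k) * k := by rw [h3]
        _ = x * (k * k) := by group
    obtain ⟨m, hm⟩ := Cfsg.Agent.Lib.RankOneSetup2.odd_orderOf_mem_D hS hkD
    have h8 : (k ^ 2) ^ (m + 1) = k := by
      rw [← pow_mul]
      have : 2 * (m + 1) = orderOf k + 1 := by omega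
      rw [this, pow_succ, pow_orderOf_eq_one, one_mul]
    have h9 : Commute k x := by
      rw [← h8]
      exact h7.pow_left _
    rw [← h1, hg₁e]
    calc v * x * v⁻¹ = v * (k * x * k⁻¹) * v⁻¹ := by
          rw [h9.eq]; group
      _ = v * k * x * (v * k)⁻¹ := by group
  rw [hY']
  apply Set.image_congr
  exact hkey

end Cfsg.Agent.S1134
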