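import Cfsg.Statements.S1135
import Cfsg.Agent.Lib.RankOneSetup3
-- import your own Cfsg.Agent.* helpers here

set_option autoImplicit false
set_option linter.all false
open Cfsg

namespace Cfsg.Agent.S1135

/-- In the rank-one set-up (`G` finite and doubly transitive on `Ω`, `t` an involution moving `a`, `Q` normal in `G_a` with `G_a = Q D`, `Q ⊓ D = 1` for the two-point stabiliser `D = G_a ⊓ G_{t • a}`, `|Q|` even, `|D|` odd), with the action faithful and `G` containing two distinct commuting involutions: if `x = u v` with `u, v` involutions and `x² ≠ 1`, then `x` is conjugate to `u' t` for some involution `u'` of `G_a`, and `|C_G(x)|` is odd. -/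
theorem result {G Ω : Type*} [Group G] [Finite G] [MulAction G Ω] [FaithfulSMul G Ω] {a : Ω} {t : G} {Q : Subgroup G}
    (hS : Cfsg.IsRankOneSetup G Ω a t Q)
    (h2 : ∃ x y : G, x ≠ 1 ∧ y ≠ 1 ∧ x ≠ y ∧ x * x = 1 ∧ y * y = 1 ∧ x * y = y * x)
    (u v : G) (hu1 : u ≠ 1) (hu2 : u * u = 1) (hv1 : v ≠ 1) (hv2 : v * v = 1) (hx : (u * v) * (u * v) ≠ 1) :
    (∃ g : G, ∃ u' ∈ Cfsg.involutionsIn (MulAction.stabilizer G a : Set G), g * (u * v) * g⁻¹ = u' * t) ∧
      Odd (Nat.card ↥(Subgroup.centralizer {u * v})) := by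
  classical
  have hO := Cfsg.Agent.Lib.RankOneSetup3.oddStab hS
  have hta := Cfsg.Agent.Lib.RankOneSetup.ta_ne hS
  have htinv := Cfsg.Agent.Lib.RankOneSetup.t_inv hS
  obtain ⟨c, hc⟩ := Cfsg.Agent.Lib.RankOneSetup.invol_has_fixed hS hS.mul_self
  have hca : c ≠ a := by
    rintro rfl
    exact hta hc
  obtain ⟨eu, heu⟩ := Cfsg.Agent.Lib.RankOneSetup.invol_has_fixed hS hu2
  obtain ⟨ev, hev⟩ := Cfsg.Agent.Lib.RankOneSetup.invol_has_fixed hS hv2
  have hne : eu ≠ ev := by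
    rintro rfl
    apply hx
    have hcomm := Cfsg.Agent.Lib.RankOneSetup3.invol_comm hS h2 heu hu1 hu2 hev hv1 hv2
    calc u * v * (u * v) = u * (v * u) * v := by group
      _ = u * (u * v) * v := by rw [hcomm]
      _ = (u * u) * (v * v) := by group
      _ = 1 := by rw [hu2, hv2, one_mul]
  obtain ⟨g, hg1, hg2⟩ := Cfsg.Agent.Lib.RankOneSetup.two_trans hS hne hca.symm
  -- conjugates
  have hconjinv : ∀ {y : G} (f : G), y ≠ 1 → y * y = 1 → f * y * f⁻¹ ≠ 1 ∧ (f * y * f⁻¹) * (f * y * f⁻¹) = 1 := by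
    intro y f hy1 hyy
    constructor
    · intro h
      apply hy1
      have : y = f⁻¹ * (f * y * f⁻¹) * f := by group
      rw [this, h]; group
    · calc (f * y * f⁻¹) * (f * y * f⁻¹) = f * (y * y) * f⁻¹ := by group
        _ = 1 := by rw [hyy]; group
  obtain ⟨hu''1, hu''2⟩ := hconjinv g hu1 hu2
  obtain ⟨hv''1, hv''2⟩ := hconjinv g hv1 hv2
  have hu''a : (g * u * g⁻¹) • a = a := by
    rw [← hg1, mul_smul, mul_smul, inv_smul_smul, heu]
  have hv''c : (g * v * g⁻¹) • c = c := by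
    rw [← hg2, mul_smul, mul_smul, inv_smul_smul, hev]
  -- a swap of `c` and `a`
  obtain ⟨s₀, hs₀, hs₀1, hs₀s⟩ := Cfsg.Agent.Lib.RankOneSetup2.exists_invol_Q hS
  obtain ⟨τ, hττ, hτ1, hτc, hτa, -, -⟩ := Cfsg.Agent.Lib.OddTwoPoint.exists_swap_between hO (x := c) (y := a) hca hS.mul_self hS.ne_one hc hs₀s hs₀1 (hS.le hs₀)
  have hτx : τ • c ≠ c := by rw [hτc]; exact hca.symm
  obtain ⟨k, hk, hke⟩ := Cfsg.Agent.Lib.OddTwoPoint.exists_inverted_conj hO hττ hτx hv''c hv''1 hv''2 hc hS.ne_one hS.mul_self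
  have hka : k • a = a := by
    have := hk.1.2
    rw [hτc] at this
    exact this
  have hkia : k⁻¹ • a = a := by
    conv_lhs => rw [← hka]
    exact inv_smul_smul k a
  obtain ⟨hu'1, hu'2⟩ := hconjinv k⁻¹ hu''1 hu''2
  rw [inv_inv] at hu'1 hu'2
  obtain ⟨u', hu'⟩ : ∃ u', u' = k⁻¹ * (g * u * g⁻¹) * k := ⟨_, rfl⟩
  rw [← hu'] at hu'1 hu'2
  have hu'a : u' • a = a := by
    rw [hu', mul_smul, mul_smul, hka, hu''a, hkia]
  have hconj : (k⁻¹ * g) * (u * v) * (k⁻¹ * g)⁻¹ = u' * t := by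
    rw [hu', ← hke]
    group
  refine ⟨⟨k⁻¹ * g, u', ⟨hu'a, hu'1, hu'2⟩, hconj⟩, ?_⟩
  -- the centraliser has odd order
  obtain ⟨f, hf⟩ : ∃ f, f = k⁻¹ * g := ⟨_, rfl⟩
  rw [← hf] at hconj
  obtain ⟨z, hz⟩ : ∃ z, z = u' * t := ⟨_, rfl⟩
  rw [← hz] at hconj
  have hz1 : z ≠ 1 := by
    intro h
    apply hx
    have h2' : u * v = f⁻¹ * z * f := by rw [← hconj]; group
    rw [h2', h]
    group
  have hzodd : Odd (orderOf z) := by
    rw [hz]
    exact Cfsg.Agent.Lib.RankOneSetup.odd_mul_invol hS hu'a hu'1 hu'2 hta hS.ne_one hS.mul_self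
  rw [← Nat.not_even_iff_odd]
  intro heven
  haveI : Fact (Nat.Prime 2) := ⟨Nat.prime_two⟩
  obtain ⟨j₀, hj₀⟩ := exists_prime_orderOf_dvd_card' (G := ↥(Subgroup.centralizer ({u * v} : Set G))) 2 (even_iff_two_dvd.1 heven)
  have hj₀1 : (j₀ : G) ≠ 1 := by
    intro h
    have h3 : j₀ = 1 := Subtype.ext h
    rw [h3, orderOf_one] at hj₀
    omega
  have hj₀j₀ : (j₀ : G) * j₀ = 1 := by
    have h3 : j₀ ^ 2 = 1 := by rw [← hj₀]; exact pow_orderOf_eq_one j₀
    have h4 : (j₀ : G) ^ 2 = 1 := by exact_mod_cast congrArg Subtype.val h3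
    rw [← pow_two]; exact h4
  have hj₀c : (j₀ : G) * (u * v) = (u * v) * j₀ := Subgroup.mem_centralizer_singleton_iff.1 j₀.2
  obtain ⟨hj1, hjj⟩ := hconjinv f hj₀1 hj₀j₀
  obtain ⟨j, hj⟩ : ∃ j, j = f * (j₀ : G) * f⁻¹ := ⟨_, rfl⟩
  rw [← hj] at hj1 hjj
  have hjz : j * z = z * j := by
    rw [hj, ← hconj]
    calc f * (j₀ : G) * f⁻¹ * (f * (u * v) * f⁻¹) = f * ((j₀ : G) * (u * v)) * f⁻¹ := by group
      _ = f * ((u * v) * j₀) * f⁻¹ := by rw [hj₀c]
      _ = _ := by group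
  obtain ⟨e, he⟩ := Cfsg.Agent.Lib.RankOneSetup.invol_has_fixed hS hjj
  -- `u'` or `t` moves `e`
  have hu'i : u'⁻¹ = u' := inv_eq_of_mul_eq_one_left hu'2
  by_cases hte : t • e = e
  · have hu'e : u' • e ≠ e := by
      intro h
      have h3 := Cfsg.Agent.Lib.RankOneSetup.invol_fix_unique hS hu'2 hu'1 h hu'a
      have h4 := Cfsg.Agent.Lib.RankOneSetup.invol_fix_unique hS hS.mul_self hS.ne_one hte hc
      exact hca (h4.symm.trans h3)
    refine Cfsg.Agent.Lib.RankOneSetup2.no_invert hS hzodd hz1 hu'2 ?_ hjj hj1 hjz he hu'e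
    rw [hz, hu'i, mul_inv_rev, htinv, hu'i]
    calc u' * (u' * t) * u' = (u' * u') * t * u' := by group
      _ = t * u' := by rw [hu'2, one_mul]
  · refine Cfsg.Agent.Lib.RankOneSetup2.no_invert hS hzodd hz1 hS.mul_self ?_ hjj hj1 hjz he hte
    rw [hz, htinv, mul_inv_rev, htinv, hu'i]
    calc t * (u' * t) * t = t * u' * (t * t) := by group
      _ = t * u' := by rw [hS.mul_self, mul_one]

end Cfsg.Agent.S1135
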