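import Cfsg.Statements.S1160
import Cfsg.Agent.Lib.FpfOdd
-- import your own Cfsg.Agent.* helpers here

set_option autoImplicit false
open Cfsg

namespace Cfsg.Agent.S1160

/-- Let `p ≠ 2` be prime and `P` a finite `p`-group acting faithfully by additive automorphisms on a finite elementary abelian `q`-group `E` (`q` prime), such that `|P_a|` is the same for all `a ≠ 0`. Then `P` is cyclic and every non-identity element of `P` fixes only `0`. -/
theorem result {P E : Type*} [Group P] [Finite P]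
    [AddCommGroup E] [Finite E] [DistribMulAction P E] [FaithfulSMul P E]
    {p q : ℕ} [Fact p.Prime] (hp2 : p ≠ 2) (hP : IsPGroup p P) (hq : q.Prime) (hE : ∀ e : E, q • e = 0)
    (hconst : ∀ a b : E, a ≠ 0 → b ≠ 0 →
      Nat.card (MulAction.stabilizer P a) = Nat.card (MulAction.stabilizer P b)) :
    IsCyclic P ∧ ∀ g : P, g ≠ 1 → ∀ a : E, g • a = a → a = 0 := by
  classical
  by_cases hP1 : Subsingleton P
  · exact ⟨isCyclic_of_subsingleton, fun g hg => absurd (Subsingleton.elim g 1) hg⟩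
  haveI hnt : Nontrivial P := not_subsingleton_iff_nontrivial.mp hP1
  have hpp : p.Prime := Fact.out
  obtain ⟨g0, hg0⟩ := exists_ne (1 : P)
  obtain ⟨v0, hv0⟩ := Cfsg.Agent.Lib.FpfOdd.exists_moved (E := E) hg0
  have hEnt : Nontrivial E := ⟨⟨g0 • v0, v0, hv0⟩⟩
  obtain ⟨e1, he1⟩ := exists_ne (0 : E)
  have hv00 : v0 ≠ 0 := by
    rintro rfl
    exact hv0 (smul_zero _)
  have hqp : q ≠ p := by
    rintro rfl
    have hmod := hP.card_modEq_card_fixedPoints E
    have hdvd : q ∣ Nat.card E := by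
      haveI : Fact q.Prime := ⟨hq⟩
      have hord : addOrderOf e1 = q := addOrderOf_eq_prime (hE e1) he1
      rw [← hord]
      exact addOrderOf_dvd_natCard e1
    have h0 : (0 : E) ∈ MulAction.fixedPoints P E := fun g => smul_zero g
    haveI : Nonempty (MulAction.fixedPoints P E) := ⟨⟨0, h0⟩⟩
    have hfpos : 0 < Nat.card (MulAction.fixedPoints P E) := Nat.card_pos
    have h2 : q ∣ Nat.card (MulAction.fixedPoints P E) := by
      have h3 : Nat.card E ≡ 0 [MOD q] := (Nat.modEq_zero_iff_dvd).mpr hdvd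
      exact (Nat.modEq_zero_iff_dvd).mp (hmod.symm.trans h3)
    have hgt : 1 < Nat.card (MulAction.fixedPoints P E) :=
      lt_of_lt_of_le hq.one_lt (Nat.le_of_dvd hfpos h2)
    haveI : Nontrivial (MulAction.fixedPoints P E) := Finite.one_lt_card_iff_nontrivial.mp hgt
    obtain ⟨a, ha⟩ := exists_ne (⟨0, h0⟩ : MulAction.fixedPoints P E)
    have ha0 : (a : E) ≠ 0 := fun e => ha (Subtype.ext e)
    have hstab : MulAction.stabilizer P (a : E) = ⊤ := by
      rw [eq_top_iff]
      intro g _
      exact a.2 g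
    have hcardv := hconst (a : E) v0 ha0 hv00
    rw [hstab, Subgroup.card_top] at hcardv
    have hstabv : MulAction.stabilizer P v0 = ⊤ := Subgroup.eq_top_of_card_eq _ hcardv.symm
    have hgv : g0 ∈ MulAction.stabilizer P v0 := by
      rw [hstabv]
      trivial
    exact hv0 hgv
  have hco : Nat.Coprime p q := (Nat.coprime_primes hpp hq).mpr (Ne.symm hqp)
  obtain ⟨m, -, hm⟩ := Nat.exists_mul_mod_eq_one_of_coprime hco hq.one_lt
  have hinv : ∀ e : E, m • (p • e) = e := by
    intro e
    rw [smul_smul, mul_comm m p]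
    have h1 : p * m = (p * m / q) * q + 1 := by
      have := Nat.div_add_mod (p * m) q
      rw [hm] at this
      rw [mul_comm (p * m / q)]
      omega
    rw [h1, add_smul, one_smul, mul_smul, hE, smul_zero, zero_add]
  obtain ⟨z, -, hzc, hzo⟩ := Cfsg.Agent.Lib.NormalPP.exists_order_p_in_center hP ⊤ top_ne_bot
  have hzcomm : ∀ g : P, g * z = z * g := fun g => (Subgroup.mem_center_iff.mp hzc) g
  have hzp : z ^ p = 1 := by
    rw [← hzo]
    exact pow_orderOf_eq_one z
  have hz1 : z ≠ 1 := by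
    rintro rfl
    rw [orderOf_one] at hzo
    exact hpp.one_lt.ne hzo
  have hcyc : IsCyclic P := by
    by_contra hnc
    obtain ⟨U, hU, hUc, hUp, hUcard⟩ := Cfsg.Agent.Lib.H6OddNormal.exists_normal_elem_odd hp2 hP hnc
    haveI := hU
    set L := Subgroup.zpowers z with hL
    haveI hLn : L.Normal := by
      constructor
      rintro _ ⟨k, rfl⟩ t
      refine ⟨k, ?_⟩
      show z ^ k = t * z ^ k * t⁻¹
      have : Commute t (z ^ k) := (show Commute t z from hzcomm t).zpow_right k
      rw [this.eq]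
      group
    have hLcard : Nat.card L = p := by
      rw [hL, Nat.card_zpowers, hzo]
    let π := QuotientGroup.mk' L
    haveI hUm : (U.map π).Normal := hU.map π (QuotientGroup.mk'_surjective L)
    have hne : U.map π ≠ ⊥ := by
      intro h
      have hle : U ≤ L := by
        intro u hu
        have h1 : π u ∈ U.map π := Subgroup.mem_map_of_mem _ hu
        rw [h, Subgroup.mem_bot] at h1
        exact (QuotientGroup.eq_one_iff u).mp h1
      have h2 := Subgroup.card_le_of_le hle
      rw [hUcard, hLcard] at h2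
      nlinarith [hpp.two_le]
    obtain ⟨ybar, hyb, hyb1, hybc⟩ := Cfsg.Agent.Lib.PGroupBasic.exists_ne_one_mem_center_of_normal
      (hP.to_quotient L) (U.map π) hne
    obtain ⟨y, hyU, rfl⟩ := hyb
    refine Cfsg.Agent.Lib.FpfOdd.main_noncyc hpp hp2 m hinv hconst hzcomm hzp hz1 (hUp y hyU) ?_ ?_ hEnt
    · intro h
      apply hyb1
      exact (QuotientGroup.eq_one_iff y).mpr h
    · intro h
      have h1 := (Subgroup.mem_center_iff.mp hybc) (π h)
      rw [← QuotientGroup.eq_one_iff]
      show π (h * y * h⁻¹ * y⁻¹) = 1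
      simp only [map_mul, map_inv]
      rw [h1]
      group
  refine ⟨hcyc, ?_⟩
  intro g hg a ha
  obtain ⟨k, hk⟩ := (IsPGroup.iff_orderOf.mp hP) g
  have hk0 : k ≠ 0 := by
    rintro rfl
    rw [pow_zero, orderOf_eq_one_iff] at hk
    exact hg hk
  have hk' : orderOf g = p ^ (k - 1) * p := by
    rw [hk, ← pow_succ]
    congr 1
    omega
  have hposk : 0 < p ^ (k - 1) := pow_pos hpp.pos _
  have hg₁ : orderOf (g ^ p ^ (k - 1)) = p := by
    rw [orderOf_pow_of_dvd (by positivity) ⟨p, hk'⟩, hk']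
    exact Nat.mul_div_cancel_left _ hposk
  have hzin : z ∈ Subgroup.zpowers (g ^ p ^ (k - 1)) := by
    refine Cfsg.Agent.Lib.NormalPP.cyclic_pow_mem hpp.pos _ ?_ ?_ z hzp
    · rw [Nat.card_zpowers, hg₁]
    · rintro _ ⟨t, rfl⟩
      show ((g ^ p ^ (k - 1)) ^ t) ^ p = 1
      have hg₁p : (g ^ p ^ (k - 1)) ^ p = 1 := by
        have := pow_orderOf_eq_one (g ^ p ^ (k - 1))
        rwa [hg₁] at this
      rw [← zpow_natCast, ← zpow_mul, mul_comm, zpow_mul, zpow_natCast, hg₁p, one_zpow]
  obtain ⟨t, ht⟩ := hzin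
  have hgst : g ∈ MulAction.stabilizer P a := ha
  have h1 : (g ^ p ^ (k - 1)) ^ t ∈ MulAction.stabilizer P a :=
    Subgroup.zpow_mem _ (Subgroup.pow_mem _ hgst _) t
  have h2 : z ∈ MulAction.stabilizer P a := by
    have h3 : (g ^ p ^ (k - 1)) ^ t = z := ht
    rwa [h3] at h1
  exact Cfsg.Agent.Lib.FpfOdd.central_fpf m hinv hconst hzcomm hzp hz1 a h2

end Cfsg.Agent.S1160
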