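import Cfsg.Statements.S1165
import Cfsg.Agent.Lib.RankOneSetup
-- import your own Cfsg.Agent.* helpers here

set_option autoImplicit false
set_option linter.all false
open Cfsg

namespace Cfsg.Agent.S1165

/-- In the rank-one set-up (`G` finite and doubly transitive on `Ω`, `t` an involution moving `a`, `Q` normal in `G_a` with `G_a = Q D`, `Q ⊓ D = 1` for the two-point stabiliser `D = G_a ⊓ G_{t • a}`, `|Q|` even, `|D|` odd): every `x ∈ Q`, `x ≠ 1`, determines unique `g, f ∈ Q`, `h ∈ D` with `t x t = g h t f` (a consequence of the canonical form). For these: (H1) the `f`-part of `x⁻¹` is `g⁻¹`; (H2) the `f`-part of `f` is `x`; (H3) for `a ∈ D` the `f`-part of `a⁻¹ x a` is `(t a t)⁻¹ f (t a t)`; (H4) the `h`-part of `a⁻¹ x a` is `(t a t)⁻¹ h a`, that of `x⁻¹` is `t h⁻¹ t`, and that of `f` is `h⁻¹`. -/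
theorem result {G Ω : Type*} [Group G] [Finite G] [MulAction G Ω] {a : Ω} {t : G} {Q : Subgroup G}
    (hS : Cfsg.IsRankOneSetup G Ω a t Q)
    (x g h f : G) (hx : x ∈ Q) (hx1 : x ≠ 1) (hg : g ∈ Q) (hh : h ∈ (MulAction.stabilizer G a ⊓ MulAction.stabilizer G (t • a))) (hf : f ∈ Q)
    (heq : t * x * t = g * h * t * f) :
    (∀ g₁ h₁ f₁ : G, g₁ ∈ Q → h₁ ∈ (MulAction.stabilizer G a ⊓ MulAction.stabilizer G (t • a)) → f₁ ∈ Q → t * x⁻¹ * t = g₁ * h₁ * t * f₁ →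
        f₁ = g⁻¹ ∧ h₁ = t * h⁻¹ * t) ∧
      (∀ g₂ h₂ f₂ : G, g₂ ∈ Q → h₂ ∈ (MulAction.stabilizer G a ⊓ MulAction.stabilizer G (t • a)) → f₂ ∈ Q → t * f * t = g₂ * h₂ * t * f₂ →
        f₂ = x ∧ h₂ = h⁻¹) ∧
      ∀ c ∈ (MulAction.stabilizer G a ⊓ MulAction.stabilizer G (t • a)), ∀ g₃ h₃ f₃ : G, g₃ ∈ Q → h₃ ∈ (MulAction.stabilizer G a ⊓ MulAction.stabilizer G (t • a)) → f₃ ∈ Q →
        t * (c⁻¹ * x * c) * t = g₃ * h₃ * t * f₃ →
          f₃ = (t * c * t)⁻¹ * f * (t * c * t) ∧ h₃ = (t * c * t)⁻¹ * h * c := by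
  classical
  have hT : t * t = 1 := hS.mul_self
  have htinv := Cfsg.Agent.Lib.RankOneSetup.t_inv hS
  have hcanon := fun {g h f g' h' f' : G} => @Cfsg.Agent.Lib.RankOneSetup.canon_unique G Ω _ _ _ a t Q hS g h f g' h' f'
  refine ⟨?_, ?_, ?_⟩
  · intro g₁ h₁ f₁ hg₁ hh₁ hf₁ he
    have hthi : t * h⁻¹ * t ∈ Cfsg.Agent.Lib.RankOneSetup.Dd a t :=
      Cfsg.Agent.Lib.RankOneSetup.t_conj_D hS (Subgroup.inv_mem _ hh)
    have h1 : t * x⁻¹ * t = f⁻¹ * (t * h⁻¹ * t) * t * g⁻¹ := by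
      have h2 : x⁻¹ = t * (t * x * t)⁻¹ * t := by
        calc x⁻¹ = (t * t) * x⁻¹ * (t * t) := by rw [hT]; group
          _ = t * (t⁻¹ * x⁻¹ * t⁻¹) * t := by rw [htinv]; group
          _ = t * (t * x * t)⁻¹ * t := by
            have : (t * x * t)⁻¹ = t⁻¹ * x⁻¹ * t⁻¹ := by group
            rw [this]
      calc t * x⁻¹ * t = t * (t * (t * x * t)⁻¹ * t) * t := by rw [← h2]
        _ = (t * t) * (g * h * t * f)⁻¹ * (t * t) := by rw [heq]; group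
        _ = (g * h * t * f)⁻¹ := by rw [hT]; group
        _ = f⁻¹ * t⁻¹ * h⁻¹ * g⁻¹ := by group
        _ = f⁻¹ * t * h⁻¹ * g⁻¹ := by rw [htinv]
        _ = f⁻¹ * t * h⁻¹ * (t * t) * g⁻¹ := by rw [hT]; group
        _ = f⁻¹ * (t * h⁻¹ * t) * t * g⁻¹ := by group
    obtain ⟨_, h3, h4⟩ := hcanon hg₁ hh₁ hf₁ (Q.inv_mem hf) hthi (Q.inv_mem hg) (he.symm.trans h1)
    exact ⟨h4, h3⟩
  · intro g₂ h₂ f₂ hg₂ hh₂ hf₂ he
    have hhi : h⁻¹ ∈ Cfsg.Agent.Lib.RankOneSetup.Dd a t := Subgroup.inv_mem _ hh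
    have hg' : h⁻¹ * g⁻¹ * h⁻¹⁻¹ ∈ Q := hS.conj_mem h⁻¹ hhi.1 _ (Q.inv_mem hg)
    have h1 : t * f * t = (h⁻¹ * g⁻¹ * h⁻¹⁻¹) * h⁻¹ * t * x := by
      have h2 : f = t⁻¹ * h⁻¹ * g⁻¹ * (t * x * t) := by
        rw [heq]; group
      rw [h2, htinv]
      calc t * (t * h⁻¹ * g⁻¹ * (t * x * t)) * t = (t * t) * h⁻¹ * g⁻¹ * t * x * (t * t) := by group
        _ = h⁻¹ * g⁻¹ * t * x := by rw [hT]; group
        _ = _ := by group
    obtain ⟨_, h3, h4⟩ := hcanon hg₂ hh₂ hf₂ hg' hhi hx (he.symm.trans h1)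
    exact ⟨h4, h3⟩
  · intro c hc g₃ h₃ f₃ hg₃ hh₃ hf₃ he
    obtain ⟨c', hc'⟩ : ∃ c', c' = t * c * t := ⟨_, rfl⟩
    have hc'D : c' ∈ Cfsg.Agent.Lib.RankOneSetup.Dd a t := by
      rw [hc']; exact Cfsg.Agent.Lib.RankOneSetup.t_conj_D hS hc
    have hcc : t * c' * t = c := by
      rw [hc']
      calc t * (t * c * t) * t = (t * t) * c * (t * t) := by group
        _ = c := by rw [hT]; group
    have hg' : c'⁻¹ * g * c'⁻¹⁻¹ ∈ Q := hS.conj_mem c'⁻¹ (Subgroup.inv_mem _ hc'D.1) _ hg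
    have hf' : c'⁻¹ * f * c'⁻¹⁻¹ ∈ Q := hS.conj_mem c'⁻¹ (Subgroup.inv_mem _ hc'D.1) _ hf
    have hh' : c'⁻¹ * h * c ∈ Cfsg.Agent.Lib.RankOneSetup.Dd a t :=
      Subgroup.mul_mem _ (Subgroup.mul_mem _ (Subgroup.inv_mem _ hc'D) hh) hc
    have h1 : t * (c⁻¹ * x * c) * t = (c'⁻¹ * g * c'⁻¹⁻¹) * (c'⁻¹ * h * c) * t * (c'⁻¹ * f * c'⁻¹⁻¹) := by
      have h2 : t * c⁻¹ * t = c'⁻¹ := by
        rw [hc']
        simp only [mul_inv_rev, htinv]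
        group
      have h3 : t * c * t = c' := hc'.symm
      calc t * (c⁻¹ * x * c) * t = (t * c⁻¹ * t) * (t * x * t) * (t * c * t) := by
            calc t * (c⁻¹ * x * c) * t = t * c⁻¹ * (t * t) * x * (t * t) * c * t := by rw [hT]; group
              _ = _ := by group
        _ = c'⁻¹ * (g * h * t * f) * c' := by rw [h2, heq, h3]
        _ = c'⁻¹ * g * h * t * c' * (t * t) * c'⁻¹ * f * c' := by rw [hT]; group
        _ = (c'⁻¹ * g * c'⁻¹⁻¹) * (c'⁻¹ * h) * (t * c' * t) * t * (c'⁻¹ * f * c'⁻¹⁻¹) := by group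
        _ = _ := by rw [hcc]; group
    obtain ⟨_, h3, h4⟩ := hcanon hg₃ hh₃ hf₃ hg' hh' hf' (he.symm.trans h1)
    refine ⟨?_, ?_⟩
    · rw [h4, hc']
      group
    · rw [h3, hc']

end Cfsg.Agent.S1165
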