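import Cfsg.Statements.S1166
import Cfsg.Agent.Lib.RankOneSetup
-- import your own Cfsg.Agent.* helpers here

set_option autoImplicit false
set_option linter.all false
open Cfsg

namespace Cfsg.Agent.S1166

/-- In the rank-one set-up (`G` finite and doubly transitive on `Ω`, `t` an involution moving `a`, `Q` normal in `G_a` with `G_a = Q D`, `Q ⊓ D = 1` for the two-point stabiliser `D = G_a ⊓ G_{t • a}`, `|Q|` even, `|D|` odd), with `t x t = g_x h_x t f_x` and `t y t = g_y h_y t f_y` (`g, f ∈ Q`, `h ∈ D`) for `x, y ∈ Q ∖ 1` with `x y ≠ 1`: then `z = f_x g_y ≠ 1`, and if `t z t = g_z h_z t f_z` and `t (x y) t = g' h' t f'` then `f' = (t h_y t)⁻¹ f_z (t h_y t) f_y` and `h' = h_x h_z h_y` (H6). -/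
theorem result {G Ω : Type*} [Group G] [Finite G] [MulAction G Ω] {a : Ω} {t : G} {Q : Subgroup G}
    (hS : Cfsg.IsRankOneSetup G Ω a t Q)
    (x y gx hx fx gy hy fy : G) (hxQ : x ∈ Q) (hx1 : x ≠ 1) (hyQ : y ∈ Q) (hy1 : y ≠ 1) (hxy : x * y ≠ 1)
    (hgx : gx ∈ Q) (hhx : hx ∈ (MulAction.stabilizer G a ⊓ MulAction.stabilizer G (t • a))) (hfx : fx ∈ Q) (ex : t * x * t = gx * hx * t * fx)
    (hgy : gy ∈ Q) (hhy : hy ∈ (MulAction.stabilizer G a ⊓ MulAction.stabilizer G (t • a))) (hfy : fy ∈ Q) (ey : t * y * t = gy * hy * t * fy) :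
    fx * gy ≠ 1 ∧
      ∀ gz hz fz g' h' f' : G, gz ∈ Q → hz ∈ (MulAction.stabilizer G a ⊓ MulAction.stabilizer G (t • a)) → fz ∈ Q → t * (fx * gy) * t = gz * hz * t * fz →
        g' ∈ Q → h' ∈ (MulAction.stabilizer G a ⊓ MulAction.stabilizer G (t • a)) → f' ∈ Q → t * (x * y) * t = g' * h' * t * f' →
          f' = (t * hy * t)⁻¹ * fz * (t * hy * t) * fy ∧ h' = hx * hz * hy := by
  classical
  have hT : t * t = 1 := hS.mul_self
  have htinv := Cfsg.Agent.Lib.RankOneSetup.t_inv hS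
  have hcanon := fun {g h f g' h' f' : G} => @Cfsg.Agent.Lib.RankOneSetup.canon_unique G Ω _ _ _ a t Q hS g h f g' h' f'
  have hprod : t * (x * y) * t = gx * hx * (t * (fx * gy) * hy * t) * fy := by
    calc t * (x * y) * t = (t * x * t) * (t * y * t) := by
          calc t * (x * y) * t = t * x * (t * t) * y * t := by rw [hT]; group
            _ = _ := by group
      _ = gx * hx * (t * (fx * gy) * hy * t) * fy := by rw [ex, ey]; group
  refine ⟨?_, ?_⟩
  · intro h0
    apply hxy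
    rw [h0] at hprod
    have h1 : t * hy * t ∈ Cfsg.Agent.Lib.RankOneSetup.Dd a t := Cfsg.Agent.Lib.RankOneSetup.t_conj_D hS hhy
    have h2 : (t * (x * y) * t) • a = a := by
      rw [hprod]
      have h3 : t * 1 * hy * t = t * hy * t := by group
      rw [h3, mul_smul, mul_smul, hS.le hfy |> fun e => (e : fy • a = a), h1.1, mul_smul, hhx.1]
      exact hS.le hgx
    have h3 : (x * y) • (t • a) = t • a := by
      have h4 : (t * (t * (x * y) * t) * t) • (t • a) = t • a := by
        rw [mul_smul, mul_smul, Cfsg.Agent.Lib.RankOneSetup.t_t_a hS, h2]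
      have h5 : t * (t * (x * y) * t) * t = x * y := by
        calc t * (t * (x * y) * t) * t = (t * t) * (x * y) * (t * t) := by group
          _ = _ := by rw [hT]; group
      rwa [h5] at h4
    exact Cfsg.Agent.Lib.RankOneSetup.Q_fix_ta hS (Q.mul_mem hxQ hyQ) h3
  · intro gz hz fz g' h' f' hgz hhz hfz ez hg' hh' hf' exy
    obtain ⟨c, hc⟩ : ∃ c, c = t * hy * t := ⟨_, rfl⟩
    have hcD : c ∈ Cfsg.Agent.Lib.RankOneSetup.Dd a t := by
      rw [hc]; exact Cfsg.Agent.Lib.RankOneSetup.t_conj_D hS hhy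
    have htc : t * c * t = hy := by
      rw [hc]
      calc t * (t * hy * t) * t = (t * t) * hy * (t * t) := by group
        _ = hy := by rw [hT]; group
    have hG : gx * (hx * gz * hx⁻¹) ∈ Q := Q.mul_mem hgx (hS.conj_mem hx hhx.1 gz hgz)
    have hD : hx * hz * hy ∈ Cfsg.Agent.Lib.RankOneSetup.Dd a t :=
      Subgroup.mul_mem _ (Subgroup.mul_mem _ hhx hhz) hhy
    have hF : c⁻¹ * fz * c⁻¹⁻¹ * fy ∈ Q := Q.mul_mem (hS.conj_mem c⁻¹ (Subgroup.inv_mem _ hcD.1) fz hfz) hfy
    have h1 : t * (x * y) * t = (gx * (hx * gz * hx⁻¹)) * (hx * hz * hy) * t * (c⁻¹ * fz * c⁻¹⁻¹ * fy) := by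
      have h2 : t * (fx * gy) * hy * t = (t * (fx * gy) * t) * (t * hy * t) := by
        calc t * (fx * gy) * hy * t = t * (fx * gy) * (t * t) * hy * t := by rw [hT]; group
          _ = _ := by group
      rw [hprod, h2, ez, ← hc]
      -- gx hx (gz hz t fz) c fy
      have h3 : t * fz * c = hy * t * (c⁻¹ * fz * c) := by
        rw [← htc]
        calc t * fz * c = t * c * (t * t) * c⁻¹ * fz * c := by rw [hT]; group
          _ = _ := by group
      calc gx * hx * (gz * hz * t * fz * c) * fy = gx * hx * gz * hz * (t * fz * c) * fy := by group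
        _ = gx * hx * gz * hz * (hy * t * (c⁻¹ * fz * c)) * fy := by rw [h3]
        _ = _ := by group
    obtain ⟨_, h3, h4⟩ := hcanon hg' hh' hf' hG hD hF (exy.symm.trans h1)
    refine ⟨?_, h3⟩
    rw [h4, ← hc]
    group

end Cfsg.Agent.S1166
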