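import Cfsg.Statements.S1176
import Cfsg.Agent.Lib.H2Basic
import Cfsg.Agent.Lib.IsolatedH2
-- import your own Cfsg.Agent.* helpers here

set_option autoImplicit false
set_option linter.all false
open Cfsg

namespace Cfsg.Agent.S1176

/-- Let x₀ be an involution of the finite group G and D its conjugacy class. Assume (a) for each x ∈ D the subgroup W(x) generated by the members of D commuting with x is a 2-group of nilpotency class at most 2, and (b) the product of two distinct commuting members of D again lies in D. Then for all x, y ∈ D, if xy has even order greater than 2, its order is 4. -/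
theorem result {G : Type*} [Group G] [Finite G] (x₀ : G) (hx₀ : orderOf x₀ = 2) (ha : ∀ x : G, IsConj x₀ x → IsPGroup 2 ↥(Subgroup.closure {y : G | IsConj x₀ y ∧ Commute y x}) ∧ ⁅⁅Subgroup.closure {y : G | IsConj x₀ y ∧ Commute y x}, Subgroup.closure {y : G | IsConj x₀ y ∧ Commute y x}⁆, Subgroup.closure {y : G | IsConj x₀ y ∧ Commute y x}⁆ = ⊥) (hb : ∀ x y : G, IsConj x₀ x → IsConj x₀ y → x ≠ y → Commute x y → IsConj x₀ (x * y)) (x y : G) (hx : IsConj x₀ x) (hy : IsConj x₀ y) (heven : Even (orderOf (x * y))) (hgt : 2 < orderOf (x * y)) : orderOf (x * y) = 4 := by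
  classical
  have hxo : orderOf x = 2 := by rw [← Cfsg.Agent.Lib.SylowCount.orderOf_eq_of_isConj hx]; exact hx₀
  have hyo : orderOf y = 2 := by rw [← Cfsg.Agent.Lib.SylowCount.orderOf_eq_of_isConj hy]; exact hx₀
  have hx1 : x * x = 1 := Cfsg.Agent.Lib.IsolatedH2.mul_self_of_orderOf_two hxo
  have hy1 : y * y = 1 := Cfsg.Agent.Lib.IsolatedH2.mul_self_of_orderOf_two hyo
  have hxi : x⁻¹ = x := inv_eq_of_mul_eq_one_left hx1
  have hyi : y⁻¹ = y := inv_eq_of_mul_eq_one_left hy1
  obtain ⟨m, hm⟩ := heven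
  obtain ⟨r, hr⟩ : ∃ r, r = x * y := ⟨_, rfl⟩
  rw [← hr] at hm hgt ⊢
  have hmm : orderOf r = 2 * m := by omega
  have hm2 : 2 ≤ m := by omega
  have hxr : x * r = y := by rw [hr, ← mul_assoc, hx1, one_mul]
  have hry : r * y = x := by rw [hr, mul_assoc, hy1, mul_one]
  have hxrx : x * r * x = r⁻¹ := by
    rw [hxr, hr, mul_inv_rev, hxi, hyi]
  -- x inverts r
  have hinv : ∀ k : ℕ, x * r ^ k * x = (r⁻¹) ^ k := by
    intro k
    induction k with
    | zero => simpa using hx1
    | succ k ih =>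
      calc x * r ^ (k + 1) * x = (x * r ^ k * x) * (x * r * x) := by
            rw [pow_succ]
            calc x * (r ^ k * r) * x = x * r ^ k * 1 * r * x := by group
              _ = x * r ^ k * (x * x) * r * x := by rw [hx1]
              _ = _ := by group
        _ = (r⁻¹) ^ (k + 1) := by rw [ih, hxrx, pow_succ]
  have hcx : ∀ k : ℕ, r ^ k * x = x * (r⁻¹) ^ k := by
    intro k
    rw [← hinv k]
    calc r ^ k * x = 1 * r ^ k * x := by group
      _ = (x * x) * r ^ k * x := by rw [hx1]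
      _ = _ := by group
  have hcx' : ∀ k : ℕ, (r⁻¹) ^ k * x = x * r ^ k := by
    intro k
    rw [← hinv k]
    calc x * r ^ k * x * x = x * r ^ k * (x * x) := by group
      _ = x * r ^ k := by rw [hx1]; group
  obtain ⟨z, hz⟩ : ∃ z, z = r ^ m := ⟨_, rfl⟩
  have hz1 : z ≠ 1 := by
    rw [hz]
    exact pow_ne_one_of_lt_orderOf (by omega) (by omega)
  have hzz : z * z = 1 := by
    rw [hz, ← pow_add, show m + m = orderOf r by omega, pow_orderOf_eq_one]
  have hzi : z⁻¹ = z := inv_eq_of_mul_eq_one_left hzz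
  have hrz : ∀ k : ℕ, (r⁻¹) ^ k = (r ^ k)⁻¹ := fun k => inv_pow r k
  have hxz : Commute x z := by
    show x * z = z * x
    have := hcx m
    rw [hrz, ← hz, hzi] at this
    exact this.symm
  have hrz' : Commute r z := by
    rw [hz]; exact (Commute.refl r).pow_right m
  have hyz : Commute y z := by
    rw [← hxr]; exact hxz.mul_left hrz'
  -- x z is in the class
  have hxzD : IsConj x₀ (x * z) := by
    rcases Nat.even_or_odd' m with ⟨k, hk | hk⟩
    · refine hx.trans (isConj_iff.2 ⟨r ^ k, ?_⟩)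
      rw [hcx k, mul_assoc, ← hrz k, ← pow_add, ← two_mul, ← hk, hrz, ← hz, hzi]
    · refine hy.trans (isConj_iff.2 ⟨(r⁻¹) ^ k, ?_⟩)
      rw [← hxr]
      calc (r⁻¹) ^ k * (x * r) * ((r⁻¹) ^ k)⁻¹ = ((r⁻¹) ^ k * x) * r * ((r⁻¹) ^ k)⁻¹ := by group
        _ = x * r ^ k * r * r ^ k := by rw [hcx' k, hrz k, inv_inv]
        _ = x * r ^ (2 * k + 1) := by
          group
        _ = x * z := by rw [hz, hk]
  have hne : x ≠ x * z := by
    intro h
    apply hz1
    have := mul_left_cancel (a := x) (b := 1) (c := z) (by rw [mul_one]; exact h)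
    exact this.symm
  have hzD : IsConj x₀ z := by
    have := hb x (x * z) hx hxzD hne ((Commute.refl x).mul_right hxz)
    rwa [← mul_assoc, hx1, one_mul] at this
  obtain ⟨-, hcl⟩ := ha z hzD
  obtain ⟨W, hW⟩ : ∃ W, W = Subgroup.closure {y : G | IsConj x₀ y ∧ Commute y z} := ⟨_, rfl⟩
  rw [← hW] at hcl
  have hxW : x ∈ W := by rw [hW]; exact Subgroup.subset_closure ⟨hx, hxz⟩
  have hyW : y ∈ W := by rw [hW]; exact Subgroup.subset_closure ⟨hy, hyz⟩
  have h1 : (x * y * x⁻¹ * y⁻¹) * x * (x * y * x⁻¹ * y⁻¹)⁻¹ * x⁻¹ = (1 : G) := by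
    have : (x * y * x⁻¹ * y⁻¹) * x * (x * y * x⁻¹ * y⁻¹)⁻¹ * x⁻¹ ∈ ⁅⁅W, W⁆, W⁆ := Subgroup.commutator_mem_commutator (Subgroup.commutator_mem_commutator hxW hyW) hxW
    rw [hcl, Subgroup.mem_bot] at this
    exact this
  have h2 : r ^ 4 = 1 := by
    have e1 : x * y * x⁻¹ * y⁻¹ = r * r := by
      rw [hxi, hyi, hr]; group
    rw [e1] at h1
    have e2 : r * r * x * (r * r)⁻¹ * x⁻¹ = r ^ 4 := by
      have h5 := hcx 2
      rw [hxi]
      have h6 : r * r * x = x * (r⁻¹ * r⁻¹) := by simpa [sq] using h5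
      rw [h6]
      calc x * (r⁻¹ * r⁻¹) * (r * r)⁻¹ * x = x * ((r⁻¹ ^ 4) * x) := by group
        _ = (x * x) * r ^ 4 := by rw [hcx' 4]; group
        _ = r ^ 4 := by rw [hx1, one_mul]
    rwa [e2] at h1
  have h3 : orderOf r ∣ 4 := orderOf_dvd_of_pow_eq_one h2
  have h4 : orderOf r ≤ 4 := Nat.le_of_dvd (by norm_num) h3
  omega

end Cfsg.Agent.S1176
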