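import Cfsg.Statements.S1177
import Cfsg.Agent.Lib.H2Basic
-- import your own Cfsg.Agent.* helpers here

set_option autoImplicit false
set_option linter.all false
open Cfsg

namespace Cfsg.Agent.S1177

/-- Let A be a nontrivial elementary abelian 2-subgroup of a finite group G which is a T.I. set (each conjugate of A meets A trivially or equals A) and which does not commute elementwise with any conjugate of A other than A itself. Then for every a ∈ A, a ≠ 1, every conjugate of A contained in C_G(a) is equal to A (A is weakly closed in C_G(a)). -/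
theorem result {G : Type*} [Group G] [Finite G] (A : Subgroup G) (hA : Cfsg.IsElementaryAbelian 2 A) (hA1 : A ≠ ⊥) (hTI : ∀ g : G, A.map (MulAut.conj g).toMonoidHom ⊓ A = ⊥ ∨ A.map (MulAut.conj g).toMonoidHom = A) (hb : ∀ g : G, (∀ a ∈ A, ∀ b ∈ A.map (MulAut.conj g).toMonoidHom, a * b = b * a) → A.map (MulAut.conj g).toMonoidHom = A) (a : G) (ha : a ∈ A) (ha1 : a ≠ 1) (g : G) (hg : A.map (MulAut.conj g).toMonoidHom ≤ Subgroup.centralizer ({a} : Set G)) : A.map (MulAut.conj g).toMonoidHom = A := by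
  classical
  by_contra hne
  have hbot : A.map (MulAut.conj g).toMonoidHom ⊓ A = ⊥ := (hTI g).resolve_right hne
  -- every b in the conjugate normalizes A
  have hnorm : ∀ b ∈ A.map (MulAut.conj g).toMonoidHom, b ∈ Subgroup.normalizer (A : Set G) := by
    intro b hb
    have hcomm : b * a * b⁻¹ = a := by
      have := hg hb
      rw [Subgroup.mem_centralizer_singleton_iff] at this
      rw [this]; group
    rcases hTI b with h | h
    · exfalso
      apply ha1
      have : a ∈ A.map (MulAut.conj b).toMonoidHom ⊓ A := by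
        refine ⟨?_, ha⟩
        have := Cfsg.Agent.Lib.H2Basic.conj_mem_map_conj (A := A) b ha
        rwa [hcomm] at this
      rw [h] at this
      exact this
    · exact Cfsg.Agent.Lib.H2Basic.mem_normalizer_of_map_conj_eq h
  -- every x in A normalizes the conjugate
  have hnorm2 : ∀ x ∈ A, x ≠ 1 → ∃ b ∈ A.map (MulAut.conj g).toMonoidHom, b ≠ 1 ∧ b * x = x * b := by
    intro x hx hx1
    -- pigeonhole: A^g → A \ {1}
    let B := A.map (MulAut.conj g).toMonoidHom
    have hcardB : Nat.card B = Nat.card A := Cfsg.Agent.Lib.H2Basic.card_map_conj A g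
    let f : B → {y : A // y ≠ 1} := fun b => ⟨⟨b.1 * x * b.1⁻¹, (Subgroup.mem_normalizer_iff.1 (hnorm b.1 b.2) x).1 hx⟩, by
      intro h
      have h2 : b.1 * x * b.1⁻¹ = 1 := congrArg Subtype.val h
      apply hx1
      have : x = b.1⁻¹ * (b.1 * x * b.1⁻¹) * b.1 := by group
      rw [this, h2]; group⟩
    have hnotinj : ¬ Function.Injective f := by
      intro hinj
      have h1 := Nat.card_le_card_of_injective f hinj
      have h2 : Nat.card {y : A // y ≠ 1} < Nat.card A := by
        have : Nat.card {y : A // y ≠ 1} + 1 = Nat.card A := by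
          haveI := Fintype.ofFinite A
          rw [Nat.card_eq_fintype_card, Nat.card_eq_fintype_card, Fintype.card_subtype_compl]
          have hp : 0 < Fintype.card A := Fintype.card_pos
          simp
          omega
        omega
      omega
    unfold Function.Injective at hnotinj
    push Not at hnotinj
    obtain ⟨b1, b2, hb, hb12⟩ := hnotinj
    have hb' : b1.1 * x * b1.1⁻¹ = b2.1 * x * b2.1⁻¹ := by
      have := congrArg (fun y : {y : A // y ≠ 1} => (y.1 : G)) hb
      exact this
    refine ⟨b2.1⁻¹ * b1.1, B.mul_mem (B.inv_mem b2.2) b1.2, ?_, ?_⟩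
    · intro h
      apply hb12
      apply Subtype.ext
      exact (inv_mul_eq_one.1 h).symm
    · have : b2.1⁻¹ * b1.1 * x * b1.1⁻¹ * b2.1 = x := by
        calc b2.1⁻¹ * b1.1 * x * b1.1⁻¹ * b2.1 = b2.1⁻¹ * (b1.1 * x * b1.1⁻¹) * b2.1 := by group
          _ = b2.1⁻¹ * (b2.1 * x * b2.1⁻¹) * b2.1 := by rw [hb']
          _ = x := by group
      calc b2.1⁻¹ * b1.1 * x = (b2.1⁻¹ * b1.1 * x * b1.1⁻¹ * b2.1) * (b2.1⁻¹ * b1.1) := by group
        _ = x * (b2.1⁻¹ * b1.1) := by rw [this]
  have hnorm3 : ∀ x ∈ A, x ∈ Subgroup.normalizer ((A.map (MulAut.conj g).toMonoidHom : Subgroup G) : Set G) := by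
    intro x hx
    by_cases hx1 : x = 1
    · rw [hx1]; exact Subgroup.one_mem _
    obtain ⟨b, hb, hb1, hbx⟩ := hnorm2 x hx hx1
    -- conjugate back by g
    have hgx : g⁻¹ * x * g ∈ Subgroup.normalizer (A : Set G) := by
      rcases hTI (g⁻¹ * x * g) with h | h
      · exfalso
        apply hb1
        have hb2 : g⁻¹ * b * g ∈ A := (Cfsg.Agent.Lib.H2Basic.mem_map_conj_iff A g b).1 hb
        have : g⁻¹ * b * g ∈ A.map (MulAut.conj (g⁻¹ * x * g)).toMonoidHom ⊓ A := by
          refine ⟨?_, hb2⟩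
          have h3 := Cfsg.Agent.Lib.H2Basic.conj_mem_map_conj (A := A) (g⁻¹ * x * g) hb2
          have e : (g⁻¹ * x * g) * (g⁻¹ * b * g) * (g⁻¹ * x * g)⁻¹ = g⁻¹ * b * g := by
            calc (g⁻¹ * x * g) * (g⁻¹ * b * g) * (g⁻¹ * x * g)⁻¹ = g⁻¹ * (x * b) * x⁻¹ * g := by group
              _ = g⁻¹ * (b * x) * x⁻¹ * g := by rw [hbx]
              _ = g⁻¹ * b * g := by group
          rwa [e] at h3
        rw [h, Subgroup.mem_bot] at this
        have e : b = g * (g⁻¹ * b * g) * g⁻¹ := by group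
        rw [e, this]; group
      · exact Cfsg.Agent.Lib.H2Basic.mem_normalizer_of_map_conj_eq h
    apply Cfsg.Agent.Lib.H2Basic.mem_normalizer_of_map_conj_eq
    have h1 := Cfsg.Agent.Lib.H2Basic.map_conj_eq_of_mem_normalizer hgx
    have h2 : (A.map (MulAut.conj (g⁻¹ * x * g)).toMonoidHom).map (MulAut.conj g).toMonoidHom = A.map (MulAut.conj g).toMonoidHom := by rw [h1]
    rw [Cfsg.Agent.Lib.H2Basic.map_conj_mul] at h2
    rw [Cfsg.Agent.Lib.H2Basic.map_conj_mul]
    have e : x * g = g * (g⁻¹ * x * g) := by group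
    rw [e]; exact h2
  apply hne
  apply hb
  intro x hx b hb'
  have h1 : x * b * x⁻¹ * b⁻¹ ∈ A.map (MulAut.conj g).toMonoidHom ⊓ A := by
    constructor
    · have := (Subgroup.mem_normalizer_iff.1 (hnorm3 x hx) b).1 hb'
      exact Subgroup.mul_mem _ this (Subgroup.inv_mem _ hb')
    · have := (Subgroup.mem_normalizer_iff.1 (hnorm b hb') x⁻¹).1 (A.inv_mem hx)
      have e : x * b * x⁻¹ * b⁻¹ = x * (b * x⁻¹ * b⁻¹) := by group
      rw [e]; exact A.mul_mem hx this
  rw [hbot, Subgroup.mem_bot] at h1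
  have e : x * b = (x * b * x⁻¹ * b⁻¹) * (b * x) := by group
  rw [e, h1, one_mul]

end Cfsg.Agent.S1177
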