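import Cfsg.Statements.S1178
import Cfsg.Agent.Lib.H2Basic
-- import your own Cfsg.Agent.* helpers here

set_option autoImplicit false
set_option linter.all false
open Cfsg

namespace Cfsg.Agent.S1178

/-- Let A be a subgroup of a Sylow 2-subgroup S of the finite group G which is weakly closed in S. If a conjugate g A g⁻¹ commutes elementwise with A, then g A g⁻¹ = A. -/
theorem result {G : Type*} [Group G] [Finite G] (S : Sylow 2 G) (A : Subgroup G) (hW : Cfsg.IsWeaklyClosed A (S : Subgroup G)) (g : G) (hc : ∀ a ∈ A, ∀ b ∈ A.map (MulAut.conj g).toMonoidHom, a * b = b * a) : A.map (MulAut.conj g).toMonoidHom = A := by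
  classical
  open Cfsg.Agent.Lib.H2Basic in
  have hAS : A ≤ (S : Subgroup G) := hW.1
  have hAp : IsPGroup 2 A := S.isPGroup'.to_le hAS
  have hAg : IsPGroup 2 (A.map (MulAut.conj g).toMonoidHom) := hAp.map _
  have hle : A.map (MulAut.conj g).toMonoidHom ≤ Subgroup.normalizer (A : Set G) := by
    intro b hb
    exact Cfsg.Agent.Lib.H2Basic.mem_normalizer_of_forall_comm (fun a ha => (hc a ha b hb).symm)
  have hsup : IsPGroup 2 ((A.map (MulAut.conj g).toMonoidHom ⊔ A : Subgroup G)) :=
    hAg.to_sup_of_normal_right' hAp hle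
  obtain ⟨h, hh⟩ := Cfsg.Agent.Lib.H2Basic.exists_conj_le_sylow hsup S
  have h1 : A.map (MulAut.conj h).toMonoidHom ≤ (S : Subgroup G) :=
    le_trans (Subgroup.map_mono le_sup_right) hh
  have h2 : (A.map (MulAut.conj g).toMonoidHom).map (MulAut.conj h).toMonoidHom ≤ (S : Subgroup G) :=
    le_trans (Subgroup.map_mono le_sup_left) hh
  have e1 := hW.2 h h1
  rw [Cfsg.Agent.Lib.H2Basic.map_conj_mul] at h2
  have e2 := hW.2 (h * g) h2
  rw [← Cfsg.Agent.Lib.H2Basic.map_conj_mul, ← e1] at e2
  rw [e1] at e2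
  exact Cfsg.Agent.Lib.H2Basic.map_conj_inj (e2.trans e1.symm)

end Cfsg.Agent.S1178
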