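import Cfsg.Statements.S1181
import Cfsg.Agent.Lib.IsolatedH2
-- import your own Cfsg.Agent.* helpers here

set_option autoImplicit false
set_option linter.all false
open Cfsg

namespace Cfsg.Agent.S1181

/-- Let z be an isolated involution of the finite group G and N a normal subgroup with z ∉ N. Then the centralizer of zN in G/N is the image of C_G(z), and zN is an isolated involution of G/N. -/
theorem result {G : Type*} [Group G] [Finite G] (z : G) (hz : Cfsg.IsIsolatedInvolution z) (N : Subgroup G) [N.Normal] (hzN : z ∉ N) : Subgroup.centralizer ({(QuotientGroup.mk z : G ⧸ N)} : Set (G ⧸ N)) = (Subgroup.centralizer ({z} : Set G)).map (QuotientGroup.mk' N) ∧ Cfsg.IsIsolatedInvolution (QuotientGroup.mk z : G ⧸ N) := by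
  classical
  have hz1 : z * z = 1 := Cfsg.Agent.Lib.IsolatedH2.mul_self_of_orderOf_two hz.1
  have hzi : z⁻¹ = z := inv_eq_of_mul_eq_one_left hz1
  constructor
  · apply le_antisymm
    · intro q hq
      induction q using QuotientGroup.induction_on with
      | H g =>
        rw [Subgroup.mem_centralizer_singleton_iff] at hq
        have hq2 : ((g * z * g⁻¹ * z : G) : G ⧸ N) = 1 := by
          have e : ((g * z * g⁻¹ * z : G) : G ⧸ N) = ((g : G ⧸ N) * (z : G ⧸ N)) * (g : G ⧸ N)⁻¹ * (z : G ⧸ N) := rfl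
          rw [e, hq]
          have e2 : ((z : G ⧸ N) * (z : G ⧸ N)) = 1 := by
            rw [← QuotientGroup.mk_mul, hz1]; rfl
          calc (z : G ⧸ N) * (g : G ⧸ N) * (g : G ⧸ N)⁻¹ * (z : G ⧸ N) = (z : G ⧸ N) * (z : G ⧸ N) := by group
            _ = 1 := e2
        have hmem : g * z * g⁻¹ * z ∈ N := (QuotientGroup.eq_one_iff _).1 hq2
        obtain ⟨k, hk, hodd, hinv, hkz⟩ := Cfsg.Agent.Lib.IsolatedH2.exists_mem_zpowers_conj hz g
        have hkN : k ∈ N := (Subgroup.zpowers_le.2 hmem) hk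
        refine ⟨k⁻¹ * g, ?_, ?_⟩
        · rw [SetLike.mem_coe, Subgroup.mem_centralizer_singleton_iff]
          calc k⁻¹ * g * z = k⁻¹ * (g * z * g⁻¹) * g := by group
            _ = k⁻¹ * (k * z * k⁻¹) * g := by rw [hkz]
            _ = z * (k⁻¹ * g) := by group
        · show ((k⁻¹ * g : G) : G ⧸ N) = (g : G ⧸ N)
          rw [QuotientGroup.eq]
          have : (k⁻¹ * g)⁻¹ * g = g⁻¹ * k * g := by group
          rw [this]
          have := (inferInstance : N.Normal).conj_mem k hkN g⁻¹
          simpa using this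
    · rintro _ ⟨c, hc, rfl⟩
      rw [Subgroup.mem_centralizer_singleton_iff]
      rw [SetLike.mem_coe, Subgroup.mem_centralizer_singleton_iff] at hc
      show ((c * z : G) : G ⧸ N) = ((z * c : G) : G ⧸ N)
      rw [hc]
  · constructor
    · apply orderOf_eq_prime
      · rw [← QuotientGroup.mk_pow, pow_two, hz1]; rfl
      · intro h
        exact hzN ((QuotientGroup.eq_one_iff _).1 h)
    · intro q hq
      induction q using QuotientGroup.induction_on with
      | H g =>
        have hq2 : (z : G ⧸ N) * ((g * z * g⁻¹ : G) : G ⧸ N) = ((g * z * g⁻¹ : G) : G ⧸ N) * (z : G ⧸ N) := hq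
        set t := g * z * g⁻¹ with ht
        clear_value t
        have ht1 : t * t = 1 := by
          rw [ht]
          calc g * z * g⁻¹ * (g * z * g⁻¹) = g * (z * z) * g⁻¹ := by group
            _ = 1 := by rw [hz1]; group
        have hti : t⁻¹ = t := inv_eq_of_mul_eq_one_left ht1
        have hodd := Cfsg.Agent.Lib.IsolatedH2.odd_orderOf_mul hz g
        rw [← ht] at hodd
        -- (z t)^2 ∈ N
        have hsq : (z * t) ^ 2 ∈ N := by
          rw [← QuotientGroup.eq_one_iff, pow_two]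
          have e : ((z * t * (z * t) : G) : G ⧸ N) = (z : G ⧸ N) * (t : G ⧸ N) * ((z : G ⧸ N) * (t : G ⧸ N)) := rfl
          rw [e, hq2]
          have e2 : ((z : G ⧸ N) * (z : G ⧸ N)) = 1 := by
            rw [← QuotientGroup.mk_mul, hz1]; rfl
          have e3 : ((t : G ⧸ N) * (t : G ⧸ N)) = 1 := by
            rw [← QuotientGroup.mk_mul, ht1]; rfl
          calc (t : G ⧸ N) * (z : G ⧸ N) * ((t : G ⧸ N) * (z : G ⧸ N)) = (t : G ⧸ N) * ((z : G ⧸ N) * (t : G ⧸ N)) * (z : G ⧸ N) := by group
            _ = (t : G ⧸ N) * ((t : G ⧸ N) * (z : G ⧸ N)) * (z : G ⧸ N) := by rw [hq2]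
            _ = ((t : G ⧸ N) * (t : G ⧸ N)) * ((z : G ⧸ N) * (z : G ⧸ N)) := by group
            _ = 1 := by rw [e2, e3, one_mul]
        have hN : z * t ∈ N := (Subgroup.zpowers_le.2 hsq) (Cfsg.Agent.Lib.IsolatedH2.mem_zpowers_sq_of_odd hodd)
        have e0 : ((g : G ⧸ N) * (z : G ⧸ N) * (g : G ⧸ N)⁻¹) = (t : G ⧸ N) := by rw [ht]; rfl
        show ((g : G ⧸ N) * (z : G ⧸ N) * (g : G ⧸ N)⁻¹) = (z : G ⧸ N)
        rw [e0]
        rw [QuotientGroup.eq]
        have : t⁻¹ * z = (z * t)⁻¹ := by rw [mul_inv_rev, hti, hzi]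
        rw [this]
        exact N.inv_mem hN

end Cfsg.Agent.S1181
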