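import Cfsg.Statements.S1182
import Cfsg.Agent.Lib.IsolatedH2
-- import your own Cfsg.Agent.* helpers here

set_option autoImplicit false
set_option linter.all false
open Cfsg

namespace Cfsg.Agent.S1182

/-- Let z be an isolated involution of the finite group G and H a subgroup normalized by z. If x, y ∈ H both commute with z and y = h x h⁻¹ for some h ∈ H, then y = c x c⁻¹ for some c ∈ H commuting with z. -/
theorem result {G : Type*} [Group G] [Finite G] (z : G) (hz : Cfsg.IsIsolatedInvolution z) (H : Subgroup G) (hzH : z ∈ Subgroup.normalizer (H : Set G)) (x y : G) (hx : x ∈ H) (hy : y ∈ H) (hxz : Commute x z) (hyz : Commute y z) (h : G) (hh : h ∈ H) (hconj : h * x * h⁻¹ = y) : ∃ c ∈ H, Commute c z ∧ c * x * c⁻¹ = y := by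
  have hz1 : z * z = 1 := Cfsg.Agent.Lib.IsolatedH2.mul_self_of_orderOf_two hz.1
  have hzi : z⁻¹ = z := inv_eq_of_mul_eq_one_left hz1
  obtain ⟨k, hk, hodd, hinv, hkz⟩ := Cfsg.Agent.Lib.IsolatedH2.exists_mem_zpowers_conj hz h
  -- t z lies in H
  have htz : (h * z * h⁻¹) * z ∈ H := by
    have h1 : (h * z * h⁻¹) * z = h * (z * h⁻¹ * z⁻¹) := by rw [hzi]; group
    rw [h1]
    exact H.mul_mem hh ((Subgroup.mem_normalizer_iff.1 hzH h⁻¹).1 (H.inv_mem hh))
  have hkH : k ∈ H := (Subgroup.zpowers_le.2 htz) hk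
  refine ⟨k⁻¹ * h, H.mul_mem (H.inv_mem hkH) hh, ?_, ?_⟩
  · show k⁻¹ * h * z = z * (k⁻¹ * h)
    calc k⁻¹ * h * z = k⁻¹ * (h * z * h⁻¹) * h := by group
      _ = k⁻¹ * (k * z * k⁻¹) * h := by rw [hkz]
      _ = z * (k⁻¹ * h) := by group
  · set w := (k⁻¹ * h) * x * (k⁻¹ * h)⁻¹ with hw
    have hcw : Commute w z := by
      have hc : Commute (k⁻¹ * h) z := by
        show k⁻¹ * h * z = z * (k⁻¹ * h)
        calc k⁻¹ * h * z = k⁻¹ * (h * z * h⁻¹) * h := by group
          _ = k⁻¹ * (k * z * k⁻¹) * h := by rw [hkz]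
          _ = z * (k⁻¹ * h) := by group
      exact (hc.mul_left hxz).mul_left hc.inv_left
    have hyw : y = k * w * k⁻¹ := by
      rw [hw, ← hconj]
      group
    -- conjugating by z
    have hk1 := Cfsg.Agent.Lib.IsolatedH2.mul_eq_of_inverts hz1 hinv
    have hk2 : z * k = k⁻¹ * z := by
      have h1 : z * k * z⁻¹ = k⁻¹ := hinv
      calc z * k = (z * k * z⁻¹) * z := by group
        _ = k⁻¹ * z := by rw [h1]
    have hzw : z * w = w * z := hcw.eq.symm
    have hzy : z * y = y * z := hyz.eq.symm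
    have h3 : k⁻¹ * w * k = k * w * k⁻¹ := by
      have h4 : z * (k * w * k⁻¹) = (k⁻¹ * w * k) * z := by
        calc z * (k * w * k⁻¹) = (z * k) * w * k⁻¹ := by group
          _ = (k⁻¹ * z) * w * k⁻¹ := by rw [hk2]
          _ = k⁻¹ * (z * w) * k⁻¹ := by group
          _ = k⁻¹ * (w * z) * k⁻¹ := by rw [hzw]
          _ = k⁻¹ * w * (z * k⁻¹) := by group
          _ = k⁻¹ * w * (k * z) := by rw [hk1]
          _ = (k⁻¹ * w * k) * z := by group
      rw [← hyw] at h4 ⊢
      rw [hzy] at h4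
      exact (mul_right_cancel h4).symm
    have h5 : Commute w (k ^ 2) := by
      show w * k ^ 2 = k ^ 2 * w
      calc w * k ^ 2 = k * (k⁻¹ * w * k) * k := by rw [pow_two]; group
        _ = k * (k * w * k⁻¹) * k := by rw [h3]
        _ = k ^ 2 * w := by rw [pow_two]; group
    have h6 : k ∈ Subgroup.zpowers (k ^ 2) := Cfsg.Agent.Lib.IsolatedH2.mem_zpowers_sq_of_odd hodd
    obtain ⟨n, hn⟩ := h6
    simp only at hn
    have h7 : Commute w k := by
      rw [← hn]; exact h5.zpow_right n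
    rw [hyw]
    calc w = w * k * k⁻¹ := by group
      _ = k * w * k⁻¹ := by rw [h7.eq]

end Cfsg.Agent.S1182
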