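import Cfsg.Statements.S1183
import Cfsg.Agent.Lib.IsolatedH2
import Cfsg.Agent.Lib.PResidual
import Cfsg.Agent.S1182
-- import your own Cfsg.Agent.* helpers here

set_option autoImplicit false
set_option linter.all false
open Cfsg

namespace Cfsg.Agent.S1183

/-- Let z be an isolated involution of the finite group G and C = C_G(z). Then the subgroup of G generated by its elements of odd order is all of G if and only if the subgroup of C generated by its elements of odd order is all of C. -/
theorem result {G : Type*} [Group G] [Finite G] (z : G) (hz : Cfsg.IsIsolatedInvolution z) : Cfsg.pResidual 2 G = ⊤ ↔ Cfsg.pResidual 2 ↥(Subgroup.centralizer ({z} : Set G)) = ⊤ := by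
  classical
  have hz1 : z * z = 1 := Cfsg.Agent.Lib.IsolatedH2.mul_self_of_orderOf_two hz.1
  have hzi : z⁻¹ = z := inv_eq_of_mul_eq_one_left hz1
  set C : Subgroup G := Subgroup.centralizer ({z} : Set G) with hC
  have hzo : orderOf z = 2 ^ 1 := by rw [hz.1, pow_one]
  -- a Sylow 2-subgroup containing z lies in C
  have hpg : IsPGroup 2 (Subgroup.zpowers z) := by
    apply IsPGroup.of_card (n := 1)
    rw [Nat.card_zpowers, hzo]
  obtain ⟨S, hS⟩ := hpg.exists_le_sylow
  have hzS : z ∈ (S : Subgroup G) := hS (Subgroup.mem_zpowers z)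
  have hSC : (S : Subgroup G) ≤ C := by
    intro x hx
    rw [hC, Subgroup.mem_centralizer_singleton_iff]
    have hodd := Cfsg.Agent.Lib.IsolatedH2.odd_orderOf_mul hz x
    have hmem : z * (x * z * x⁻¹) ∈ (S : Subgroup G) :=
      (S : Subgroup G).mul_mem hzS ((S : Subgroup G).mul_mem ((S : Subgroup G).mul_mem hx hzS) ((S : Subgroup G).inv_mem hx))
    have h2 : orderOf (z * (x * z * x⁻¹)) ∣ Nat.card (S : Subgroup G) := Subgroup.orderOf_dvd_natCard _ hmem
    rw [Sylow.card_eq_multiplicity] at h2
    obtain ⟨k, -, hk⟩ := (Nat.dvd_prime_pow Nat.prime_two).1 h2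
    have hk0 : k = 0 := by
      by_contra hne
      rw [hk] at hodd
      exact (Nat.not_even_iff_odd.2 hodd) ((Nat.even_pow).2 ⟨even_two, hne⟩)
    rw [hk0, pow_zero, orderOf_eq_one_iff] at hk
    have h3 : x * z * x⁻¹ = z := by
      have := eq_inv_of_mul_eq_one_right hk
      rw [this, hzi]
    calc x * z = (x * z * x⁻¹) * x := by group
      _ = z * x := by rw [h3]
  have hindex : Odd C.index := by
    have h1 : C.index ∣ (S : Subgroup G).index := Subgroup.index_dvd_of_le hSC
    have h2 : ¬ 2 ∣ C.index := fun h3 => Sylow.not_dvd_index S (h3.trans h1)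
    exact Nat.odd_iff.2 (by omega)
  -- fusion control
  have hfus : ∀ (x y h : G), x ∈ C → y ∈ C → h * x * h⁻¹ = y → ∃ c ∈ C, c * x * c⁻¹ = y := by
    intro x y h hx hy hxy
    obtain ⟨c, -, hc, hcx⟩ := Cfsg.Agent.S1182.result z hz ⊤ (Subgroup.mem_normalizer_iff.2 (fun h => by simp)) x y (Subgroup.mem_top x) (Subgroup.mem_top y)
      (Subgroup.mem_centralizer_singleton_iff.1 hx) (Subgroup.mem_centralizer_singleton_iff.1 hy) h (Subgroup.mem_top h) hxy
    exact ⟨c, Subgroup.mem_centralizer_singleton_iff.2 hc, hcx⟩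
  constructor
  · intro hG
    by_contra hne
    haveI hRn : (Cfsg.pResidual 2 C).Normal := Cfsg.Agent.Lib.PResidual.pResidual_normal 2 C
    let Q := C ⧸ Cfsg.pResidual 2 C
    have hQp : IsPGroup 2 Q := Cfsg.Agent.Lib.PResidual.isPGroup_quotient_pResidual
    let ϕ : C →* Abelianization Q := Abelianization.of.comp (QuotientGroup.mk' (Cfsg.pResidual 2 C))
    have hpow : ∀ c : C, ∃ k : ℕ, (ϕ c) ^ (2 ^ k) = 1 := by
      intro c
      obtain ⟨k, hk⟩ := hQp (QuotientGroup.mk' (Cfsg.pResidual 2 C) c)
      refine ⟨k, ?_⟩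
      rw [← map_pow]
      show Abelianization.of ((QuotientGroup.mk' (Cfsg.pResidual 2 C) c) ^ (2 ^ k)) = 1
      rw [hk, map_one]
    have hApow : ∀ a : Abelianization Q, ∃ k : ℕ, a ^ (2 ^ k) = 1 := by
      intro a
      induction a using QuotientGroup.induction_on with
      | H q =>
        obtain ⟨k, hk⟩ := hQp q
        refine ⟨k, ?_⟩
        show (Abelianization.of q) ^ (2 ^ k) = 1
        rw [← map_pow, hk, map_one]
    let T : G →* Abelianization Q := MonoidHom.transfer ϕ
    -- T vanishes on odd order elements hence everywhere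
    have hT : ∀ g : G, T g = 1 := by
      intro g
      have hg : g ∈ Cfsg.pResidual 2 G := by rw [hG]; exact Subgroup.mem_top g
      have hle : Cfsg.pResidual 2 G ≤ T.ker := by
        unfold Cfsg.pResidual
        rw [Subgroup.closure_le]
        intro x hx
        show T x = 1
        obtain ⟨k, hk⟩ := hApow (T x)
        have h1 : (T x) ^ (orderOf x) = 1 := by
          rw [← map_pow, pow_orderOf_eq_one, map_one]
        have h2 : orderOf (T x) ∣ Nat.gcd (orderOf x) (2 ^ k) :=
          Nat.dvd_gcd (orderOf_dvd_of_pow_eq_one h1) (orderOf_dvd_of_pow_eq_one hk)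
        have h3 : Nat.Coprime (orderOf x) (2 ^ k) := Nat.Coprime.pow_right k hx
        rw [h3] at h2
        exact orderOf_eq_one_iff.1 (Nat.dvd_one.1 h2)
      exact hle hg
    -- T on C
    have hTC : ∀ c : C, (ϕ c) ^ C.index = 1 := by
      intro c
      have h1 := Cfsg.Agent.Lib.IsolatedH2.transfer_eq_pow_of_conj ϕ c (by
        intro k g₀ hm
        obtain ⟨d, hd, hdc⟩ := hfus ((c : G) ^ k) (g₀⁻¹ * (c : G) ^ k * g₀) g₀⁻¹ (C.pow_mem c.2 k) hm (by group)
        have e : (⟨g₀⁻¹ * (c : G) ^ k * g₀, hm⟩ : C) = ⟨d, hd⟩ * (c ^ k) * (⟨d, hd⟩ : C)⁻¹ := by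
          apply Subtype.ext
          simpa using hdc.symm
        rw [e, map_mul, map_mul, map_inv, mul_comm (ϕ ⟨d, hd⟩), mul_assoc, mul_inv_cancel, mul_one])
      rw [← h1]
      exact hT _
    have hϕ : ∀ c : C, ϕ c = 1 := by
      intro c
      obtain ⟨k, hk⟩ := hpow c
      have h1 := hTC c
      have h2 : orderOf (ϕ c) ∣ Nat.gcd C.index (2 ^ k) :=
        Nat.dvd_gcd (orderOf_dvd_of_pow_eq_one h1) (orderOf_dvd_of_pow_eq_one hk)
      have h3 : Nat.Coprime C.index (2 ^ k) := Nat.Coprime.pow_right k (Nat.coprime_two_right.2 hindex)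
      rw [h3] at h2
      exact orderOf_eq_one_iff.1 (Nat.dvd_one.1 h2)
    -- so Q is perfect, and nilpotent hence trivial
    have hperf : commutator Q = ⊤ := by
      rw [eq_top_iff]
      intro q _
      induction q using QuotientGroup.induction_on with
      | H c =>
        have h1 := hϕ c
        have h2 : (Abelianization.of (c : Q)) = 1 := h1
        exact (QuotientGroup.eq_one_iff _).1 h2
    haveI : Group.IsNilpotent Q := hQp.isNilpotent
    have hser : ∀ n, (⊤ : Subgroup Q).lowerCentralSeries n = ⊤ := by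
      intro n
      induction n with
      | zero => exact Subgroup.lowerCentralSeries_zero _
      | succ n ih =>
        show ⁅(⊤ : Subgroup Q).lowerCentralSeries n, (⊤ : Subgroup Q)⁆ = ⊤
        rw [ih]
        exact hperf
    obtain ⟨n, hn⟩ := nilpotent_iff_lowerCentralSeries.1 (inferInstance : Group.IsNilpotent Q)
    rw [hser n] at hn
    apply hne
    rw [eq_top_iff]
    intro c _
    have : (c : Q) ∈ (⊤ : Subgroup Q) := Subgroup.mem_top _
    rw [hn, Subgroup.mem_bot] at this
    exact (QuotientGroup.eq_one_iff _).1 this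
  · intro hCtop
    rw [eq_top_iff]
    intro g _
    -- C ≤ pResidual
    have hCle : C ≤ Cfsg.pResidual 2 G := by
      intro c hc
      have h1 : (⟨c, hc⟩ : C) ∈ Cfsg.pResidual 2 C := by rw [hCtop]; exact Subgroup.mem_top _
      have h2 : (Cfsg.pResidual 2 C).map C.subtype ≤ Cfsg.pResidual 2 G := by
        unfold Cfsg.pResidual
        rw [Subgroup.map_le_iff_le_comap, Subgroup.closure_le]
        intro x hx
        apply Subgroup.subset_closure
        show Nat.Coprime (orderOf (x : G)) 2
        rw [Subgroup.orderOf_coe]; exact hx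
      exact h2 ⟨_, h1, rfl⟩
    obtain ⟨k, ⟨⟨hodd, hinv⟩, hc⟩, -⟩ := Cfsg.Agent.Lib.IsolatedH2.existsUnique_coset hz g
    have hk : k ∈ Cfsg.pResidual 2 G := Subgroup.subset_closure (Nat.coprime_two_right.2 hodd)
    have hg : g = k * (g⁻¹ * k)⁻¹ := by group
    rw [hg]
    exact (Cfsg.pResidual 2 G).mul_mem hk ((Cfsg.pResidual 2 G).inv_mem (hCle hc))

end Cfsg.Agent.S1183
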