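import Cfsg.Statements.S1184
import Cfsg.Agent.Lib.IsolatedH2
-- import your own Cfsg.Agent.* helpers here

set_option autoImplicit false
set_option linter.all false
open Cfsg

namespace Cfsg.Agent.S1184

/-- Let z be an isolated involution of the finite group G. If s and t are distinct conjugates of z, then st does not commute with z. -/
theorem result {G : Type*} [Group G] [Finite G] (z : G) (hz : Cfsg.IsIsolatedInvolution z) (g h : G) (hne : g * z * g⁻¹ ≠ h * z * h⁻¹) : ¬ Commute (g * z * g⁻¹ * (h * z * h⁻¹)) z := by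
  intro hc
  have hz1 : z * z = 1 := Cfsg.Agent.Lib.IsolatedH2.mul_self_of_orderOf_two hz.1
  have hzi : z⁻¹ = z := inv_eq_of_mul_eq_one_left hz1
  set s := g * z * g⁻¹ with hs
  set t := h * z * h⁻¹ with ht
  have hs1 : s * s = 1 := by
    rw [hs]
    calc g * z * g⁻¹ * (g * z * g⁻¹) = g * (z * z) * g⁻¹ := by group
      _ = 1 := by rw [hz1]; group
  have ht1 : t * t = 1 := by
    rw [ht]
    calc h * z * h⁻¹ * (h * z * h⁻¹) = h * (z * z) * h⁻¹ := by group
      _ = 1 := by rw [hz1]; group
  have hsi : s⁻¹ = s := inv_eq_of_mul_eq_one_left hs1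
  have hti : t⁻¹ = t := inv_eq_of_mul_eq_one_left ht1
  have hv : Odd (orderOf (z * s)) := Cfsg.Agent.Lib.IsolatedH2.odd_orderOf_mul hz g
  have hw : Odd (orderOf (z * t)) := Cfsg.Agent.Lib.IsolatedH2.odd_orderOf_mul hz h
  have hsq : (z * s) ^ 2 = (z * t) ^ 2 := by
    have h1 : s * t * z = z * (s * t) := hc.eq
    have hvi : (z * s)⁻¹ = s * z := by rw [mul_inv_rev, hzi, hsi]
    have hwi : (z * t)⁻¹ = t * z := by rw [mul_inv_rev, hzi, hti]
    have h2 : (z * s)⁻¹ * (z * t) = (z * s) * (z * t)⁻¹ := by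
      rw [hvi, hwi]
      calc (s * z) * (z * t) = s * (z * z) * t := by group
        _ = s * t := by rw [hz1]; group
        _ = z * z * (s * t) := by rw [hz1]; group
        _ = z * (z * (s * t)) := by group
        _ = z * (s * t * z) := by rw [h1]
        _ = (z * s) * (t * z) := by group
    calc (z * s) ^ 2 = (z * s) * ((z * s) * (z * t)⁻¹) * (z * t) := by rw [pow_two]; group
      _ = (z * s) * ((z * s)⁻¹ * (z * t)) * (z * t) := by rw [h2]
      _ = (z * t) ^ 2 := by rw [pow_two]; group
  have heq := Cfsg.Agent.Lib.IsolatedH2.eq_of_sq_eq hv hw hsq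
  exact hne (mul_left_cancel heq)

end Cfsg.Agent.S1184
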