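import Cfsg.Statements.S1186
import Cfsg.Agent.Lib.IsolatedH2
-- import your own Cfsg.Agent.* helpers here

set_option autoImplicit false
set_option linter.all false
open Cfsg

namespace Cfsg.Agent.S1186

/-- Let z be an isolated involution of the finite group G, C = C_G(z), K the set of elements of odd order inverted by z, and s an involution of C. Then |G| = |C| · |C_K(sz)| · |C_K(s)|. -/
theorem result {G : Type*} [Group G] [Finite G] (z : G) (hz : Cfsg.IsIsolatedInvolution z) (s : G) (hs : orderOf s = 2) (hsz : Commute s z) : Nat.card G = Nat.card (Subgroup.centralizer ({z} : Set G)) * Nat.card {k : G // Odd (orderOf k) ∧ z * k * z⁻¹ = k⁻¹ ∧ Commute k (s * z)} * Nat.card {k : G // Odd (orderOf k) ∧ z * k * z⁻¹ = k⁻¹ ∧ Commute k s} := by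
  classical
  have hz1 : z * z = 1 := Cfsg.Agent.Lib.IsolatedH2.mul_self_of_orderOf_two hz.1
  have hzi : z⁻¹ = z := inv_eq_of_mul_eq_one_left hz1
  have hs1 : s * s = 1 := Cfsg.Agent.Lib.IsolatedH2.mul_self_of_orderOf_two hs
  have hsi : s⁻¹ = s := inv_eq_of_mul_eq_one_left hs1
  have hszc : s * z = z * s := hsz.eq
  rw [Cfsg.Agent.Lib.IsolatedH2.card_eq_card_mul_card hz]
  suffices hK : Nat.card {k : G // Odd (orderOf k) ∧ z * k * z⁻¹ = k⁻¹} =
      Nat.card {k : G // Odd (orderOf k) ∧ z * k * z⁻¹ = k⁻¹ ∧ Commute k (s * z)} *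
      Nat.card {k : G // Odd (orderOf k) ∧ z * k * z⁻¹ = k⁻¹ ∧ Commute k s} by
    rw [hK]; ring
  let K := {k : G // Odd (orderOf k) ∧ z * k * z⁻¹ = k⁻¹}
  let A := {k : G // Odd (orderOf k) ∧ z * k * z⁻¹ = k⁻¹ ∧ Commute k (s * z)}
  let B := {k : G // Odd (orderOf k) ∧ z * k * z⁻¹ = k⁻¹ ∧ Commute k s}
  have hex : ∀ g : G, ∃ k : K, k.1 * z * k.1⁻¹ = g * z * g⁻¹ := by
    intro g
    obtain ⟨k, -, h1, h2, h3⟩ := Cfsg.Agent.Lib.IsolatedH2.exists_mem_zpowers_conj hz g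
    exact ⟨⟨k, h1, h2⟩, h3⟩
  choose kOf hkOf using hex
  have huniq : ∀ (k k' : K), k.1 * z * k.1⁻¹ = k'.1 * z * k'.1⁻¹ → k = k' := by
    intro k k' h
    exact Subtype.ext (Cfsg.Agent.Lib.IsolatedH2.eq_of_conj_eq hz1 k.2.1 k'.2.1 k.2.2 k'.2.2 h)
  -- conjugation by s
  let σ : G ≃* G := MulAut.conj s
  have hσ : ∀ x, σ x = s * x * s⁻¹ := fun x => MulAut.conj_apply s x
  have hσz : σ z = z := by
    rw [hσ, hszc, mul_assoc, mul_inv_cancel, mul_one]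
  have hσσ : ∀ x, σ (σ x) = x := by
    intro x
    rw [hσ, hσ, hsi]
    calc s * (s * x * s) * s = (s * s) * x * (s * s) := by group
      _ = x := by rw [hs1]; group
  -- elements of A are inverted by s
  have hAinv : ∀ a : A, σ a.1 = a.1⁻¹ := by
    intro a
    have h1 : a.1 * (s * z) = (s * z) * a.1 := a.2.2.2
    have h2 : z * a.1 * z⁻¹ = a.1⁻¹ := a.2.2.1
    have h3 : (s * z) * a.1 * (s * z)⁻¹ = a.1 := by
      calc (s * z) * a.1 * (s * z)⁻¹ = (a.1 * (s * z)) * (s * z)⁻¹ := by rw [h1]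
        _ = a.1 := by group
    have h4 : s * (z * a.1 * z⁻¹) * s⁻¹ = a.1 := by
      calc s * (z * a.1 * z⁻¹) * s⁻¹ = (s * z) * a.1 * (s * z)⁻¹ := by group
        _ = a.1 := h3
    rw [h2] at h4
    have h5 : σ a.1⁻¹ = a.1 := by rw [hσ]; exact h4
    rw [map_inv] at h5
    exact inv_eq_iff_eq_inv.1 h5
  have hBc : ∀ c : B, σ c.1 = c.1 := by
    intro c
    have h1 : c.1 * s = s * c.1 := c.2.2.2
    rw [hσ, ← h1, mul_assoc, mul_inv_cancel, mul_one]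
  -- fourth power formula
  have hfour : ∀ a' t₀ : G, σ a' = a'⁻¹ → t₀ * a'⁻¹ = a' * t₀ → t₀ * t₀ = 1 → σ t₀ = t₀ →
      (a' * t₀ * a'⁻¹) * σ (a' * t₀ * a'⁻¹) = a' ^ 4 := by
    intro a' t₀ h1 h2 h3 h4
    rw [map_mul, map_mul, map_inv, h1, h4, inv_inv]
    calc a' * t₀ * a'⁻¹ * (a'⁻¹ * t₀ * a') = a' * (t₀ * a'⁻¹) * a'⁻¹ * t₀ * a' := by group
      _ = a' * (a' * t₀) * a'⁻¹ * t₀ * a' := by rw [h2]
      _ = a' * a' * (t₀ * a'⁻¹) * t₀ * a' := by group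
      _ = a' * a' * (a' * t₀) * t₀ * a' := by rw [h2]
      _ = a' * a' * a' * (t₀ * t₀) * a' := by group
      _ = a' ^ 4 := by rw [h3]; simp [pow_succ]
  let φ : B × A → K := fun p => kOf (p.1.1 * p.2.1)
  have hφ : ∀ p : B × A, (φ p).1 * z * (φ p).1⁻¹ = (p.1.1 * p.2.1) * z * (p.1.1 * p.2.1)⁻¹ := fun p => hkOf _
  -- data attached to (c, a)
  have hdata : ∀ p : B × A, ∃ a' t₀ : G, a' = p.1.1 * p.2.1 * p.1.1⁻¹ ∧ t₀ = p.1.1 * z * p.1.1⁻¹ ∧ Odd (orderOf a') ∧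
      σ a' = a'⁻¹ ∧ t₀ * a'⁻¹ = a' * t₀ ∧ t₀ * t₀ = 1 ∧ σ t₀ = t₀ ∧
      (p.1.1 * p.2.1) * z * (p.1.1 * p.2.1)⁻¹ = a' * t₀ * a'⁻¹ := by
    rintro ⟨c, a⟩
    have hcs := hBc c
    have has := hAinv a
    refine ⟨c.1 * a.1 * c.1⁻¹, c.1 * z * c.1⁻¹, rfl, rfl, ?_, ?_, ?_, ?_, ?_, ?_⟩
    · have : orderOf (c.1 * a.1 * c.1⁻¹) = orderOf a.1 :=
        (Cfsg.Agent.Lib.SylowCount.orderOf_eq_of_isConj (isConj_iff.2 ⟨c.1, rfl⟩)).symm
      rw [this]; exact a.2.1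
    · simp only [map_mul, map_inv, hcs, has]
      group
    · have h2 : z * a.1 * z⁻¹ = a.1⁻¹ := a.2.2.1
      have h3 : z * a.1⁻¹ = a.1 * z := by
        have h4 := Cfsg.Agent.Lib.IsolatedH2.mul_eq_of_inverts hz1 h2
        exact h4.symm
      calc c.1 * z * c.1⁻¹ * (c.1 * a.1 * c.1⁻¹)⁻¹ = c.1 * (z * a.1⁻¹) * c.1⁻¹ := by group
        _ = c.1 * (a.1 * z) * c.1⁻¹ := by rw [h3]
        _ = _ := by group
    · calc c.1 * z * c.1⁻¹ * (c.1 * z * c.1⁻¹) = c.1 * (z * z) * c.1⁻¹ := by group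
        _ = 1 := by rw [hz1]; group
    · simp only [map_mul, map_inv, hcs, hσz]
    · group
  have hinj : Function.Injective φ := by
    intro p q hpq
    obtain ⟨a', t₀, ha', ht₀, hodd, h1, h2, h3, h4, h5⟩ := hdata p
    obtain ⟨b', u₀, hb', hu₀, hodd2, h1', h2', h3', h4', h5'⟩ := hdata q
    have ht : a' * t₀ * a'⁻¹ = b' * u₀ * b'⁻¹ := by
      rw [← h5, ← h5', ← hφ p, ← hφ q, hpq]
    have e1 := hfour a' t₀ h1 h2 h3 h4
    have e2 := hfour b' u₀ h1' h2' h3' h4'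
    rw [ht, e2] at e1
    have hodd' : Odd (orderOf (a' ^ 2)) := by
      apply Odd.of_dvd_nat hodd
      exact orderOf_dvd_iff_pow_eq_one.2 (by rw [← pow_mul, mul_comm, pow_mul, pow_orderOf_eq_one, one_pow])
    have hodd2' : Odd (orderOf (b' ^ 2)) := by
      apply Odd.of_dvd_nat hodd2
      exact orderOf_dvd_iff_pow_eq_one.2 (by rw [← pow_mul, mul_comm, pow_mul, pow_orderOf_eq_one, one_pow])
    have e3 : (a' ^ 2) ^ 2 = (b' ^ 2) ^ 2 := by
      rw [← pow_mul, ← pow_mul]; exact e1.symm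
    have e4 := Cfsg.Agent.Lib.IsolatedH2.eq_of_sq_eq hodd' hodd2' e3
    have e5 : a' = b' := Cfsg.Agent.Lib.IsolatedH2.eq_of_sq_eq hodd hodd2 e4
    subst e5
    have e6 : t₀ = u₀ := by
      have := ht
      simpa using this
    have e7 : (⟨p.1.1, p.1.2.1, p.1.2.2.1⟩ : K) = ⟨q.1.1, q.1.2.1, q.1.2.2.1⟩ := by
      apply huniq
      show p.1.1 * z * p.1.1⁻¹ = q.1.1 * z * q.1.1⁻¹
      rw [← ht₀, ← hu₀, e6]
    have e8 : p.1.1 = q.1.1 := congrArg (fun x : K => x.1) e7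
    have e9 : p.2.1 = q.2.1 := by
      rw [ha', e8] at hb'
      have := hb'
      simpa using this
    exact Prod.ext (Subtype.ext e8) (Subtype.ext e9)
  have hsurj : Function.Surjective φ := by
    intro k
    obtain ⟨t, ht⟩ : ∃ t, t = k.1 * z * k.1⁻¹ := ⟨_, rfl⟩
    have ht1 : t * t = 1 := by
      rw [ht]
      calc k.1 * z * k.1⁻¹ * (k.1 * z * k.1⁻¹) = k.1 * (z * z) * k.1⁻¹ := by group
        _ = 1 := by rw [hz1]; group
    have hti : t⁻¹ = t := inv_eq_of_mul_eq_one_left ht1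
    obtain ⟨t', ht'⟩ : ∃ t', t' = σ t := ⟨_, rfl⟩
    have ht'1 : t' * t' = 1 := by
      rw [ht', ← map_mul, ht1, map_one]
    have ht'i : t'⁻¹ = t' := inv_eq_of_mul_eq_one_left ht'1
    have hσt' : σ t' = t := by rw [ht', hσσ]
    obtain ⟨v, hv⟩ : ∃ v, v = t * t' := ⟨_, rfl⟩
    have hvodd : Odd (orderOf v) := by
      have h1 := Cfsg.Agent.Lib.IsolatedH2.odd_orderOf_mul_conj hz k.1 (s * k.1)
      have e : (s * k.1) * z * (s * k.1)⁻¹ = t' := by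
        rw [ht', hσ, ht]; group
      rw [e, ← ht, ← hv] at h1
      exact h1
    have hvs : s * v * s⁻¹ = v⁻¹ := by
      rw [← hσ, hv, map_mul, ← ht', hσt', mul_inv_rev, hti, ht'i]
    have hvt : t * v * t⁻¹ = v⁻¹ := by
      rw [hti, hv, mul_inv_rev, hti, ht'i]
      calc t * (t * t') * t = (t * t) * t' * t := by group
        _ = t' * t := by rw [ht1, one_mul]
    obtain ⟨a'', ha''m, ha''2, ha''odd⟩ := Cfsg.Agent.Lib.IsolatedH2.exists_sqrt hvodd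
    obtain ⟨a', ha'm, ha'2, ha'odd⟩ := Cfsg.Agent.Lib.IsolatedH2.exists_sqrt ha''odd
    have ha'v : a' ∈ Subgroup.zpowers v := (Subgroup.zpowers_le.2 ha''m) ha'm
    have ha's : σ a' = a'⁻¹ := by
      rw [hσ]; exact Cfsg.Agent.Lib.IsolatedH2.inverts_of_mem_zpowers hvs ha'v
    have ha't := Cfsg.Agent.Lib.IsolatedH2.inverts_of_mem_zpowers hvt ha'v
    have hta : t * a' = a'⁻¹ * t := by
      calc t * a' = (t * a' * t⁻¹) * t := by group
        _ = a'⁻¹ * t := by rw [ha't]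
    have hta' : t' * a'⁻¹ = a' * t' := by
      have h1 := congrArg σ hta
      rw [map_mul, map_mul, map_inv, ha's, inv_inv, ← ht'] at h1
      exact h1
    have ha'4 : a' * a' * a' * a' = t * t' := by
      rw [← hv, ← ha''2, ← ha'2]
      simp [pow_two, mul_assoc]
    obtain ⟨t₀, ht₀⟩ : ∃ t₀, t₀ = a'⁻¹ * t * a' := ⟨_, rfl⟩
    have ht₀1 : t₀ * t₀ = 1 := by
      rw [ht₀]
      calc a'⁻¹ * t * a' * (a'⁻¹ * t * a') = a'⁻¹ * (t * t) * a' := by group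
        _ = 1 := by rw [ht1]; group
    have hσt₀ : σ t₀ = t₀ := by
      have e1 : σ t₀ = a' * t' * a'⁻¹ := by
        rw [ht₀, map_mul, map_mul, map_inv, ha's, inv_inv, ← ht']
      rw [e1, mul_assoc, hta', ← mul_assoc, ht₀]
      have e2 : a'⁻¹ * t * a' = a'⁻¹ * (a'⁻¹ * t) := by rw [mul_assoc, hta]
      rw [e2, ← mul_assoc]
      have e3 : t = (t * t') * t' := by rw [mul_assoc, ht'1, mul_one]
      rw [e3, ← ha'4]
      simp only [mul_assoc, ht'1, mul_one]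
      simp
    -- the element c
    let c0 : K := kOf (a'⁻¹ * k.1)
    have hc0 : c0.1 * z * c0.1⁻¹ = t₀ := by
      rw [hkOf, ht₀, ht]; group
    have hcfix : σ c0.1 = c0.1 := by
      have hodd : Odd (orderOf (σ c0.1)) := by
        rw [MulEquiv.orderOf_eq]; exact c0.2.1
      have hinv : z * σ c0.1 * z⁻¹ = (σ c0.1)⁻¹ := by
        have h1 := congrArg σ c0.2.2
        rw [map_mul, map_mul, map_inv, map_inv, hσz] at h1
        exact h1
      have h3 : (⟨σ c0.1, hodd, hinv⟩ : K) = c0 := by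
        apply huniq
        show σ c0.1 * z * (σ c0.1)⁻¹ = c0.1 * z * c0.1⁻¹
        have h4 := congrArg σ hc0
        rw [map_mul, map_mul, map_inv, hσz, hσt₀] at h4
        rw [h4, hc0]
      exact congrArg (fun x : K => x.1) h3
    let cB : B := ⟨c0.1, c0.2.1, c0.2.2, by
      show c0.1 * s = s * c0.1
      have := hcfix
      rw [hσ] at this
      calc c0.1 * s = (s * c0.1 * s⁻¹) * s := by rw [this]
        _ = s * c0.1 := by group⟩
    -- the element a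
    have hzt₀ : t₀ * a' * t₀⁻¹ = a'⁻¹ := by
      have ht₀i : t₀⁻¹ = t₀ := inv_eq_of_mul_eq_one_left ht₀1
      rw [ht₀i, ht₀]
      calc a'⁻¹ * t * a' * a' * (a'⁻¹ * t * a') = a'⁻¹ * (t * a') * t * a' := by group
        _ = a'⁻¹ * (a'⁻¹ * t) * t * a' := by rw [hta]
        _ = a'⁻¹ * a'⁻¹ * (t * t) * a' := by group
        _ = a'⁻¹ := by rw [ht1]; group
    have haodd : Odd (orderOf (c0.1⁻¹ * a' * c0.1)) := by
      have : orderOf (c0.1⁻¹ * a' * c0.1) = orderOf a' :=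
        (Cfsg.Agent.Lib.SylowCount.orderOf_eq_of_isConj (isConj_iff.2 ⟨c0.1⁻¹, by group⟩)).symm
      rw [this]; exact ha'odd
    have hainv : z * (c0.1⁻¹ * a' * c0.1) * z⁻¹ = (c0.1⁻¹ * a' * c0.1)⁻¹ := by
      have e : z = c0.1⁻¹ * t₀ * c0.1 := by rw [← hc0]; group
      have e' : z⁻¹ = c0.1⁻¹ * t₀⁻¹ * c0.1 := by rw [← hc0]; group
      calc z * (c0.1⁻¹ * a' * c0.1) * z⁻¹ = (c0.1⁻¹ * t₀ * c0.1) * (c0.1⁻¹ * a' * c0.1) * (c0.1⁻¹ * t₀⁻¹ * c0.1) := by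
            rw [← e', ← e]
        _ = c0.1⁻¹ * (t₀ * a' * t₀⁻¹) * c0.1 := by group
        _ = _ := by rw [hzt₀]; group
    have hasig : σ (c0.1⁻¹ * a' * c0.1) = (c0.1⁻¹ * a' * c0.1)⁻¹ := by
      simp only [map_mul, map_inv, hcfix, ha's]
      group
    have hacomm : Commute (c0.1⁻¹ * a' * c0.1) (s * z) := by
      show (c0.1⁻¹ * a' * c0.1) * (s * z) = (s * z) * (c0.1⁻¹ * a' * c0.1)
      obtain ⟨a, ha⟩ : ∃ a, a = c0.1⁻¹ * a' * c0.1 := ⟨_, rfl⟩
      rw [← ha] at hasig hainv ⊢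
      rw [hσ] at hasig
      have h1 : z * a = a⁻¹ * z := by
        calc z * a = (z * a * z⁻¹) * z := by group
          _ = a⁻¹ * z := by rw [hainv]
      have h2 : s * a⁻¹ = a * s := by
        have h3 : σ a⁻¹ = a := by
          rw [map_inv, hσ, hasig, inv_inv]
        rw [hσ] at h3
        calc s * a⁻¹ = (s * a⁻¹ * s⁻¹) * s := by group
          _ = a * s := by rw [h3]
      calc a * (s * z) = a * s * z := by group
        _ = s * a⁻¹ * z := by rw [h2]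
        _ = s * (a⁻¹ * z) := by group
        _ = s * (z * a) := by rw [h1]
        _ = s * z * a := by group
    let aA : A := ⟨c0.1⁻¹ * a' * c0.1, haodd, hainv, hacomm⟩
    refine ⟨(cB, aA), ?_⟩
    apply huniq
    rw [hφ]
    show (c0.1 * (c0.1⁻¹ * a' * c0.1)) * z * (c0.1 * (c0.1⁻¹ * a' * c0.1))⁻¹ = k.1 * z * k.1⁻¹
    rw [← ht]
    calc (c0.1 * (c0.1⁻¹ * a' * c0.1)) * z * (c0.1 * (c0.1⁻¹ * a' * c0.1))⁻¹ = a' * (c0.1 * z * c0.1⁻¹) * a'⁻¹ := by group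
      _ = a' * t₀ * a'⁻¹ := by rw [hc0]
      _ = t := by rw [ht₀]; group
  have hcard : Nat.card K = Nat.card (B × A) := (Nat.card_congr (Equiv.ofBijective φ ⟨hinj, hsurj⟩)).symm
  show Nat.card K = Nat.card A * Nat.card B
  rw [hcard, Nat.card_prod, mul_comm]

end Cfsg.Agent.S1186
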