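import Cfsg.Statements.S1224
import Cfsg.Agent.Lib.OddTwoPoint
-- import your own Cfsg.Agent.* helpers here

set_option autoImplicit false
set_option linter.all false
open Cfsg

namespace Cfsg.Agent.S1224

/-- Let H be a strongly embedded subgroup of the finite group G and x ≠ y two cosets in G/H. Then the number of involutions i of G with i • x = y equals the number of involutions lying in H. -/
theorem result {G : Type*} [Group G] [Finite G] (H : Subgroup G) (hH : Cfsg.IsStronglyEmbedded H) (x y : G ⧸ H) (hxy : x ≠ y) : Nat.card {i : G // orderOf i = 2 ∧ i • x = y} = Nat.card {t : G // orderOf t = 2 ∧ t ∈ H} := by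
  classical
  have hO := Cfsg.Agent.Lib.OddTwoPoint.oddStab hH
  obtain ⟨t, htH, ht1, htt⟩ := Cfsg.Agent.Lib.OddTwoPoint.exists_invol hH
  have hord : ∀ i : G, orderOf i = 2 ↔ i * i = 1 ∧ i ≠ 1 := by
    intro i
    constructor
    · intro h
      refine ⟨by rw [← pow_two, ← h]; exact pow_orderOf_eq_one i, ?_⟩
      rintro rfl
      rw [orderOf_one] at h
      omega
    · rintro ⟨h1, h2⟩
      exact orderOf_eq_prime (by rw [pow_two]; exact h1) h2
  induction x using QuotientGroup.induction_on with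
  | H g₀ =>
  induction y using QuotientGroup.induction_on with
  | H g₁ =>
  -- an involution fixing `y`
  have hr : (g₁ * t * g₁⁻¹) • (QuotientGroup.mk g₁ : G ⧸ H) = QuotientGroup.mk g₁ := by
    apply Cfsg.Agent.Lib.OddTwoPoint.smul_mk_of_mem_conj hH
    have : g₁⁻¹ * (g₁ * t * g₁⁻¹) * g₁ = t := by group
    rw [this]; exact htH
  have hcard := Cfsg.Agent.Lib.OddTwoPoint.card_swaps hO hxy (r₀ := g₁ * t * g₁⁻¹)
    (by
      calc g₁ * t * g₁⁻¹ * (g₁ * t * g₁⁻¹) = g₁ * (t * t) * g₁⁻¹ := by group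
        _ = 1 := by rw [htt]; group)
    (by
      intro h
      apply ht1
      have : t = g₁⁻¹ * (g₁ * t * g₁⁻¹) * g₁ := by group
      rw [this, h]; group) hr
  calc Nat.card {i : G // orderOf i = 2 ∧ i • (QuotientGroup.mk g₀ : G ⧸ H) = QuotientGroup.mk g₁}
      = Nat.card {i : G // i * i = 1 ∧ i ≠ 1 ∧ i • (QuotientGroup.mk g₀ : G ⧸ H) = QuotientGroup.mk g₁} := by
        apply Nat.card_congr
        apply Equiv.subtypeEquivRight
        intro i
        rw [hord i, and_assoc]
    _ = Nat.card {s : G // s * s = 1 ∧ s ≠ 1 ∧ s • (QuotientGroup.mk g₀ : G ⧸ H) = QuotientGroup.mk g₀} := hcard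
    _ = Nat.card {t : G // orderOf t = 2 ∧ t ∈ H} := by
        apply Nat.card_eq_of_bijective (fun s : {s : G // s * s = 1 ∧ s ≠ 1 ∧ s • (QuotientGroup.mk g₀ : G ⧸ H) = QuotientGroup.mk g₀} =>
          (⟨g₀⁻¹ * s * g₀, by
            obtain ⟨s, hs, hs1, hsx⟩ := s
            refine ⟨(hord _).2 ⟨?_, ?_⟩, Cfsg.Agent.Lib.OddTwoPoint.mem_conj_of_smul_mk hH hsx⟩
            · calc g₀⁻¹ * s * g₀ * (g₀⁻¹ * s * g₀) = g₀⁻¹ * (s * s) * g₀ := by group
                _ = 1 := by rw [hs]; group
            · intro h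
              apply hs1
              have : s = g₀ * (g₀⁻¹ * s * g₀) * g₀⁻¹ := by group
              rw [this, h]; group⟩ : {t : G // orderOf t = 2 ∧ t ∈ H}))
        constructor
        · rintro ⟨s, hs⟩ ⟨s', hs'⟩ h
          have h1 : g₀⁻¹ * s * g₀ = g₀⁻¹ * s' * g₀ := congrArg Subtype.val h
          apply Subtype.ext
          show s = s'
          have h2 : s = g₀ * (g₀⁻¹ * s * g₀) * g₀⁻¹ := by group
          have h3 : s' = g₀ * (g₀⁻¹ * s' * g₀) * g₀⁻¹ := by group
          rw [h2, h1, ← h3]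
        · rintro ⟨u, hu, huH⟩
          obtain ⟨hu1, hu2⟩ := (hord u).1 hu
          refine ⟨⟨g₀ * u * g₀⁻¹, ?_, ?_, ?_⟩, Subtype.ext ?_⟩
          · calc g₀ * u * g₀⁻¹ * (g₀ * u * g₀⁻¹) = g₀ * (u * u) * g₀⁻¹ := by group
              _ = 1 := by rw [hu1]; group
          · intro h
            apply hu2
            have : u = g₀⁻¹ * (g₀ * u * g₀⁻¹) * g₀ := by group
            rw [this, h]; group
          · apply Cfsg.Agent.Lib.OddTwoPoint.smul_mk_of_mem_conj hH
            have : g₀⁻¹ * (g₀ * u * g₀⁻¹) * g₀ = u := by group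
            rw [this]; exact huH
          · show g₀⁻¹ * (g₀ * u * g₀⁻¹) * g₀ = u
            group

end Cfsg.Agent.S1224
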