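import Cfsg.Statements.S1225
import Cfsg.Agent.Lib.OddTwoPoint
-- import your own Cfsg.Agent.* helpers here

set_option autoImplicit false
set_option linter.all false
open Cfsg

namespace Cfsg.Agent.S1225

/-- Let H be a strongly embedded subgroup of the finite group G, u an involution outside H and D = H ∩ uHu⁻¹. Then any two involutions of H are conjugate by an element of D, and any two involutions of G are conjugate in G. -/
theorem result {G : Type*} [Group G] [Finite G] (H : Subgroup G) (hH : Cfsg.IsStronglyEmbedded H) (u : G) (hu : orderOf u = 2) (huH : u ∉ H) (s t : G) (hs : orderOf s = 2) (hsH : s ∈ H) (ht : orderOf t = 2) (htH : t ∈ H) : (∃ d ∈ (H ⊓ H.map (MulAut.conj u).toMonoidHom), d * s * d⁻¹ = t) ∧ ∀ a b : G, orderOf a = 2 → orderOf b = 2 → IsConj a b := by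
  classical
  have hO := Cfsg.Agent.Lib.OddTwoPoint.oddStab hH
  have hord : ∀ i : G, orderOf i = 2 ↔ i * i = 1 ∧ i ≠ 1 := by
    intro i
    constructor
    · intro h
      refine ⟨by rw [← pow_two, ← h]; exact pow_orderOf_eq_one i, ?_⟩
      rintro rfl
      rw [orderOf_one] at h
      omega
    · rintro ⟨h1, h2⟩
      exact orderOf_eq_prime (by rw [pow_two]; exact h1) h2
  obtain ⟨huu, hu1⟩ := (hord u).1 hu
  have hux : u • (QuotientGroup.mk 1 : G ⧸ H) ≠ QuotientGroup.mk 1 := by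
    intro h
    apply huH
    have h1 := Cfsg.Agent.Lib.OddTwoPoint.mem_conj_of_smul_mk hH h
    simpa using h1
  have hfix : ∀ {v : G}, v ∈ H → v • (QuotientGroup.mk 1 : G ⧸ H) = QuotientGroup.mk 1 := by
    intro v hv
    apply Cfsg.Agent.Lib.OddTwoPoint.smul_mk_of_mem_conj hH
    simpa using hv
  have hfix' : ∀ {v : G}, v • (QuotientGroup.mk 1 : G ⧸ H) = QuotientGroup.mk 1 → v ∈ H := by
    intro v hv
    have h1 := Cfsg.Agent.Lib.OddTwoPoint.mem_conj_of_smul_mk hH hv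
    simpa using h1
  have hconj : ∀ s t : G, orderOf s = 2 → s ∈ H → orderOf t = 2 → t ∈ H → ∃ d ∈ (H ⊓ H.map (MulAut.conj u).toMonoidHom), d * s * d⁻¹ = t := by
    intro s t hs hsH ht htH
    obtain ⟨hss, hs1⟩ := (hord s).1 hs
    obtain ⟨htt, ht1⟩ := (hord t).1 ht
    obtain ⟨k, hk, hke⟩ := Cfsg.Agent.Lib.OddTwoPoint.exists_inverted_conj hO huu hux (hfix hsH) hs1 hss (hfix htH) ht1 htt
    refine ⟨k⁻¹, ⟨H.inv_mem (hfix' hk.1.1), ?_⟩, ?_⟩
    · -- membership in the conjugate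
      have h2 : k • (u • (QuotientGroup.mk 1 : G ⧸ H)) = u • (QuotientGroup.mk 1 : G ⧸ H) := hk.1.2
      have h3 : u⁻¹ * k * u ∈ H := by
        apply hfix'
        rw [mul_smul, mul_smul, h2, inv_smul_smul]
      refine ⟨(u⁻¹ * k * u)⁻¹, H.inv_mem h3, ?_⟩
      show u * (u⁻¹ * k * u)⁻¹ * u⁻¹ = k⁻¹
      group
    · rw [inv_inv]; exact hke
  refine ⟨hconj s t hs hsH ht htH, ?_⟩
  have hto : ∀ a : G, orderOf a = 2 → ∃ g : G, g⁻¹ * a * g ∈ H ∧ orderOf (g⁻¹ * a * g) = 2 := by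
    intro a ha
    obtain ⟨haa, ha1⟩ := (hord a).1 ha
    obtain ⟨b, hb⟩ := hO.has_fix a haa
    induction b using QuotientGroup.induction_on with
    | H g =>
    refine ⟨g, Cfsg.Agent.Lib.OddTwoPoint.mem_conj_of_smul_mk hH hb, ?_⟩
    have h4 := MulEquiv.orderOf_eq (MulAut.conj g⁻¹) a
    rw [MulAut.conj_apply] at h4
    have h5 : g⁻¹ * a * g⁻¹⁻¹ = g⁻¹ * a * g := by group
    rw [h5] at h4
    rw [h4, ha]
  intro a b ha hb
  obtain ⟨g, hg, hg2⟩ := hto a ha
  obtain ⟨g', hg', hg2'⟩ := hto b hb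
  obtain ⟨d, -, hd⟩ := hconj _ _ hg2 hg hg2' hg'
  rw [isConj_iff]
  refine ⟨g' * d * g⁻¹, ?_⟩
  calc g' * d * g⁻¹ * a * (g' * d * g⁻¹)⁻¹ = g' * (d * (g⁻¹ * a * g) * d⁻¹) * g'⁻¹ := by group
    _ = g' * (g'⁻¹ * b * g') * g'⁻¹ := by rw [hd]
    _ = b := by group

end Cfsg.Agent.S1225
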