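import Cfsg.Statements.S1226
import Cfsg.Agent.Lib.BalanceL5
import Cfsg.Agent.Lib.H2Basic
-- import your own Cfsg.Agent.* helpers here

set_option autoImplicit false
set_option linter.all false
open Cfsg

namespace Cfsg.Agent.S1226

/-- Let G be a finite group with a Sylow 2-subgroup T that is neither cyclic nor normal, such that the centralizer of every involution is an elementary abelian 2-group. Then N_G(T) is a strongly embedded subgroup of G. -/
theorem result {G : Type*} [Group G] [Finite G] (T : Sylow 2 G) (hnc : ¬ IsCyclic (T : Subgroup G)) (hnn : ¬ (T : Subgroup G).Normal) (hC : ∀ t : G, orderOf t = 2 → IsMulCommutative (Subgroup.centralizer ({t} : Set G)) ∧ ∀ c ∈ Subgroup.centralizer ({t} : Set G), c ^ 2 = 1) : Cfsg.IsStronglyEmbedded (Subgroup.normalizer ((T : Subgroup G) : Set G)) := by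
  classical
  have hTp : IsPGroup 2 (T : Subgroup G) := T.isPGroup'
  have hT1 : (T : Subgroup G) ≠ ⊥ := by
    intro h
    apply hnc
    rw [h]
    infer_instance
  have hcentral : ∀ s ∈ (T : Subgroup G), orderOf s = 2 → (∀ x ∈ (T : Subgroup G), x * s = s * x) →
      Subgroup.centralizer ({s} : Set G) = (T : Subgroup G) := by
    intro s hs hso hsc
    have hle : (T : Subgroup G) ≤ Subgroup.centralizer ({s} : Set G) := by
      intro x hx
      exact Subgroup.mem_centralizer_singleton_iff.2 (hsc x hx)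
    obtain ⟨hc1, hc2⟩ := hC s hso
    have hp : IsPGroup 2 (Subgroup.centralizer ({s} : Set G)) := by
      rw [IsPGroup.iff_orderOf]
      rintro ⟨c, hc⟩
      refine ⟨if c = 1 then 0 else 1, ?_⟩
      split_ifs with h1
      · simp only [pow_zero, orderOf_eq_one_iff]
        exact Subtype.ext h1
      · rw [pow_one, Subgroup.orderOf_mk]
        exact orderOf_eq_prime (hc2 c hc) h1
    exact T.is_maximal' hp hle
  -- a central involution of T
  obtain ⟨z, hzo, hzT, hzc⟩ : ∃ z : G, orderOf z = 2 ∧ z ∈ (T : Subgroup G) ∧ ∀ x ∈ (T : Subgroup G), x * z = z * x := by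
    have hTn : Nontrivial (T : Subgroup G) := Subgroup.nontrivial_iff_ne_bot _ |>.2 hT1
    haveI := hTn
    obtain ⟨y, hyc, hy1⟩ : ∃ y ∈ Subgroup.center (T : Subgroup G), y ≠ 1 := by
      haveI := hTp.center_nontrivial
      obtain ⟨y, hy⟩ := exists_ne (1 : Subgroup.center (T : Subgroup G))
      exact ⟨y, y.2, fun h => hy (Subtype.ext h)⟩
    obtain ⟨k, hk⟩ := IsPGroup.iff_orderOf.1 hTp y
    have hk0 : k ≠ 0 := by
      rintro rfl
      rw [pow_zero] at hk
      exact hy1 (orderOf_eq_one_iff.1 hk)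
    have hd : 2 ∣ orderOf y := by
      rw [hk]
      exact dvd_pow_self 2 hk0
    refine ⟨((y ^ (orderOf y / 2) : (T : Subgroup G)) : G), ?_, Subtype.property _, ?_⟩
    · rw [Subgroup.orderOf_coe]
      exact orderOf_pow_orderOf_div (orderOf_pos y).ne' hd
    · intro x hx
      have hyz : y ^ (orderOf y / 2) ∈ Subgroup.center (T : Subgroup G) := Subgroup.pow_mem _ hyc _
      have := Subgroup.mem_center_iff.1 hyz ⟨x, hx⟩
      exact congrArg Subtype.val this
  have hTz : Subgroup.centralizer ({z} : Set G) = (T : Subgroup G) := hcentral z hzT hzo hzc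
  have hTcomm : ∀ a ∈ (T : Subgroup G), ∀ b ∈ (T : Subgroup G), a * b = b * a := by
    intro a ha b hb
    have h1 := (Cfsg.Agent.Lib.BalanceL5.imc_iff' _).1 (hC z hzo).1
    rw [hTz] at h1
    exact h1 a ha b hb
  have hinv : ∀ s ∈ (T : Subgroup G), orderOf s = 2 → Subgroup.centralizer ({s} : Set G) = (T : Subgroup G) :=
    fun s hs hso => hcentral s hs hso (fun x hx => hTcomm x hx s hs)
  -- 2-elements normalizing T lie in T
  have hin : ∀ s ∈ Subgroup.normalizer ((T : Subgroup G) : Set G), orderOf s = 2 → s ∈ (T : Subgroup G) := by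
    intro s hs hso
    have hsp : IsPGroup 2 (Subgroup.zpowers s) := by
      rw [IsPGroup.iff_card, Nat.card_zpowers, hso]
      exact ⟨1, by norm_num⟩
    have hle : Subgroup.zpowers s ≤ Subgroup.normalizer ((T : Subgroup G) : Set G) :=
      (Subgroup.zpowers_le).2 hs
    have hQ := hsp.to_sup_of_normal_right' hTp hle
    have h1 := T.is_maximal' hQ le_sup_right
    rw [← h1]
    exact (le_sup_left : Subgroup.zpowers s ≤ _) (Subgroup.mem_zpowers s)
  refine ⟨?_, ?_, ?_⟩
  · intro h
    exact hnn (Subgroup.normalizer_eq_top_iff.1 h)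
  · have h1 : 2 ∣ Nat.card (T : Subgroup G) := by
      have : Nat.card (T : Subgroup G) ≠ 1 := by
        intro h
        exact hT1 (Subgroup.card_eq_one.1 h)
      obtain ⟨n, hn⟩ := IsPGroup.iff_card.1 hTp
      rw [hn] at this ⊢
      refine dvd_pow_self 2 ?_
      rintro rfl
      exact this rfl
    have h2 : Nat.card (T : Subgroup G) ∣ Nat.card (Subgroup.normalizer ((T : Subgroup G) : Set G)) :=
      Subgroup.card_dvd_of_le Subgroup.le_normalizer
    exact even_iff_two_dvd.2 (h1.trans h2)
  · intro g hg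
    by_contra hodd
    rw [Nat.not_odd_iff_even, even_iff_two_dvd] at hodd
    haveI : Fact (Nat.Prime 2) := ⟨Nat.prime_two⟩
    obtain ⟨⟨s, hs⟩, hso⟩ := exists_prime_orderOf_dvd_card' 2 hodd
    rw [Subgroup.orderOf_mk] at hso
    obtain ⟨hs1, hs2⟩ := hs
    have hsT : s ∈ (T : Subgroup G) := hin s hs1 hso
    obtain ⟨s', hs'1, hs'2⟩ := hs2
    have hs'e : g * s' * g⁻¹ = s := hs'2
    have hs'o : orderOf s' = 2 := by
      have h9 := MulEquiv.orderOf_eq (MulAut.conj g) s'
      have h10 : (MulAut.conj g) s' = s := hs'2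
      rw [h10, hso] at h9
      exact h9.symm
    have hs'T : s' ∈ (T : Subgroup G) := hin s' hs'1 hs'o
    apply hg
    apply Cfsg.Agent.Lib.H2Basic.mem_normalizer_of_conj_le
    intro a ha
    -- g a g⁻¹ centralizes s
    have h1 : a * s' = s' * a := hTcomm a ha s' hs'T
    have h2 : g * a * g⁻¹ ∈ Subgroup.centralizer ({s} : Set G) := by
      refine Subgroup.mem_centralizer_singleton_iff.2 ?_
      rw [← hs'e]
      calc g * a * g⁻¹ * (g * s' * g⁻¹) = g * (a * s') * g⁻¹ := by group
        _ = g * (s' * a) * g⁻¹ := by rw [h1]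
        _ = g * s' * g⁻¹ * (g * a * g⁻¹) := by group
    rw [hinv s hsT hso] at h2
    exact h2

end Cfsg.Agent.S1226
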