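import Cfsg.Statements.S1228
import Cfsg.Agent.Lib.CitAbelian
-- import your own Cfsg.Agent.* helpers here

set_option autoImplicit false
set_option linter.all false
open Cfsg

namespace Cfsg.Agent.S1228

/-- Let G be a finite group with a Sylow 2-subgroup T that is neither cyclic nor normal, such that the centralizer of every involution is an elementary abelian 2-group; put H = N_G(T), let u be an involution outside H and D = H ∩ uHu⁻¹. Then N_G(D) = D ⊔ ⟨u⟩, and a coset gH is fixed by every element of D exactly when gH = H or gH = uH. -/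
theorem result {G : Type*} [Group G] [Finite G] (T : Sylow 2 G) (hnc : ¬ IsCyclic (T : Subgroup G)) (hnn : ¬ (T : Subgroup G).Normal) (hC : ∀ t : G, orderOf t = 2 → IsMulCommutative (Subgroup.centralizer ({t} : Set G)) ∧ ∀ c ∈ Subgroup.centralizer ({t} : Set G), c ^ 2 = 1) (u : G) (hu : orderOf u = 2) (huH : u ∉ Subgroup.normalizer ((T : Subgroup G) : Set G)) : Subgroup.normalizer ((Subgroup.normalizer ((T : Subgroup G) : Set G) ⊓ (Subgroup.normalizer ((T : Subgroup G) : Set G)).map (MulAut.conj u).toMonoidHom : Subgroup G) : Set G) = (Subgroup.normalizer ((T : Subgroup G) : Set G) ⊓ (Subgroup.normalizer ((T : Subgroup G) : Set G)).map (MulAut.conj u).toMonoidHom) ⊔ Subgroup.zpowers u ∧ ∀ g : G, ((∀ d ∈ Subgroup.normalizer ((T : Subgroup G) : Set G) ⊓ (Subgroup.normalizer ((T : Subgroup G) : Set G)).map (MulAut.conj u).toMonoidHom, d • (QuotientGroup.mk g : G ⧸ Subgroup.normalizer ((T : Subgroup G) : Set G)) = QuotientGroup.mk g) ↔ (QuotientGroup.mk g : G ⧸ Subgroup.normalizer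 ((T : Subgroup G) : Set G)) = QuotientGroup.mk 1 ∨ (QuotientGroup.mk g : G ⧸ Subgroup.normalizer ((T : Subgroup G) : Set G)) = QuotientGroup.mk u) := by
  classical
  have hne := Cfsg.Agent.Lib.CitAbelian.ne_bot_of_not_cyclic hnc
  have huu : u * u = 1 := by rw [← pow_two, ← hu]; exact pow_orderOf_eq_one u
  have hui : u⁻¹ = u := inv_eq_of_mul_eq_one_left huu
  have hux : u • Cfsg.Agent.Lib.CitAbelian.x₀ T ≠ Cfsg.Agent.Lib.CitAbelian.x₀ T := fun h => huH (Cfsg.Agent.Lib.CitAbelian.fix_x0_iff.1 h)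
  have hDD := Cfsg.Agent.Lib.CitAbelian.DD_eq (T := T) u
  have hD1 := Cfsg.Agent.Lib.CitAbelian.DD_ne_one hnn hne hC hnc huu hux
  have hinv := fun {d : G} (hd : d ∈ MulAction.stabilizer G (Cfsg.Agent.Lib.CitAbelian.x₀ T) ⊓ MulAction.stabilizer G (u • Cfsg.Agent.Lib.CitAbelian.x₀ T)) =>
    Cfsg.Agent.Lib.CitAbelian.DD_inv hne hC hnn huu hux hd
  change Subgroup.normalizer ((Cfsg.Agent.Lib.CitAbelian.HH T ⊓ (Cfsg.Agent.Lib.CitAbelian.HH T).map (MulAut.conj u).toMonoidHom : Subgroup G) : Set G) = (Cfsg.Agent.Lib.CitAbelian.HH T ⊓ (Cfsg.Agent.Lib.CitAbelian.HH T).map (MulAut.conj u).toMonoidHom) ⊔ Subgroup.zpowers u ∧ _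
  rw [hDD]
  have hfix : ∀ g : G, (∀ d ∈ MulAction.stabilizer G (Cfsg.Agent.Lib.CitAbelian.x₀ T) ⊓ MulAction.stabilizer G (u • Cfsg.Agent.Lib.CitAbelian.x₀ T), d • (QuotientGroup.mk g : G ⧸ Cfsg.Agent.Lib.CitAbelian.HH T) = QuotientGroup.mk g) ↔ ((QuotientGroup.mk g : G ⧸ Cfsg.Agent.Lib.CitAbelian.HH T) = QuotientGroup.mk 1 ∨ (QuotientGroup.mk g : G ⧸ Cfsg.Agent.Lib.CitAbelian.HH T) = QuotientGroup.mk u) := by
    intro g
    have huk : (QuotientGroup.mk u : G ⧸ Cfsg.Agent.Lib.CitAbelian.HH T) = u • Cfsg.Agent.Lib.CitAbelian.x₀ T := by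
      show _ = (QuotientGroup.mk (u * 1) : G ⧸ Cfsg.Agent.Lib.CitAbelian.HH T)
      rw [mul_one]
    constructor
    · intro h
      by_cases hg : (QuotientGroup.mk g : G ⧸ Cfsg.Agent.Lib.CitAbelian.HH T) = QuotientGroup.mk 1
      · exact Or.inl hg
      · right
        rw [huk]
        exact Cfsg.Agent.Lib.CitAbelian.fix_DD hne hC hnn huu hux hD1 hg h
    · rintro (h | h) d hd
      · rw [h]
        exact hd.1
      · rw [h, huk]
        exact hd.2
  refine ⟨?_, ?_⟩
  · apply le_antisymm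
    · intro g hg
      have hgn : ∀ d ∈ MulAction.stabilizer G (Cfsg.Agent.Lib.CitAbelian.x₀ T) ⊓ MulAction.stabilizer G (u • Cfsg.Agent.Lib.CitAbelian.x₀ T),
          g * d * g⁻¹ ∈ MulAction.stabilizer G (Cfsg.Agent.Lib.CitAbelian.x₀ T) ⊓ MulAction.stabilizer G (u • Cfsg.Agent.Lib.CitAbelian.x₀ T) := by
        intro d hd
        exact (Subgroup.mem_set_normalizer_iff.1 hg d).1 hd
      have hgni : ∀ d ∈ MulAction.stabilizer G (Cfsg.Agent.Lib.CitAbelian.x₀ T) ⊓ MulAction.stabilizer G (u • Cfsg.Agent.Lib.CitAbelian.x₀ T),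
          g⁻¹ * d * g ∈ MulAction.stabilizer G (Cfsg.Agent.Lib.CitAbelian.x₀ T) ⊓ MulAction.stabilizer G (u • Cfsg.Agent.Lib.CitAbelian.x₀ T) := by
        intro d hd
        have h1 := (Subgroup.mem_set_normalizer_iff.1 ((Subgroup.normalizer _).inv_mem hg) d).1 hd
        simpa using h1
      have hgx : ∀ d ∈ MulAction.stabilizer G (Cfsg.Agent.Lib.CitAbelian.x₀ T) ⊓ MulAction.stabilizer G (u • Cfsg.Agent.Lib.CitAbelian.x₀ T),
          d • (g • Cfsg.Agent.Lib.CitAbelian.x₀ T) = g • Cfsg.Agent.Lib.CitAbelian.x₀ T := by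
        intro d hd
        have h1 := (hgni d hd).1
        have h2 : (g⁻¹ * d * g) • Cfsg.Agent.Lib.CitAbelian.x₀ T = Cfsg.Agent.Lib.CitAbelian.x₀ T := h1
        rw [mul_smul, mul_smul] at h2
        calc d • g • Cfsg.Agent.Lib.CitAbelian.x₀ T = g • (g⁻¹ • d • g • Cfsg.Agent.Lib.CitAbelian.x₀ T) := by
              rw [smul_inv_smul]
          _ = g • Cfsg.Agent.Lib.CitAbelian.x₀ T := by rw [h2]
      by_cases hg0 : g • Cfsg.Agent.Lib.CitAbelian.x₀ T = Cfsg.Agent.Lib.CitAbelian.x₀ T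
      · exact Subgroup.mem_sup_left (Cfsg.Agent.Lib.CitAbelian.norm_H hne hC hnn huu hux hD1 (Cfsg.Agent.Lib.CitAbelian.fix_x0_iff.1 hg0) hgn)
      · have hgu := Cfsg.Agent.Lib.CitAbelian.fix_DD hne hC hnn huu hux hD1 hg0 hgx
        -- `u * g` fixes the base point
        have h1 : (u * g) • Cfsg.Agent.Lib.CitAbelian.x₀ T = Cfsg.Agent.Lib.CitAbelian.x₀ T := by
          rw [mul_smul, hgu, ← mul_smul, huu, one_smul]
        have h2 : u * g ∈ MulAction.stabilizer G (Cfsg.Agent.Lib.CitAbelian.x₀ T) ⊓ MulAction.stabilizer G (u • Cfsg.Agent.Lib.CitAbelian.x₀ T) := by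
          apply Cfsg.Agent.Lib.CitAbelian.norm_H hne hC hnn huu hux hD1 (Cfsg.Agent.Lib.CitAbelian.fix_x0_iff.1 h1)
          intro d hd
          have h3 := hgn d hd
          have h4 := hinv h3
          have h5 : u * g * d * (u * g)⁻¹ = u * (g * d * g⁻¹) * u⁻¹ := by group
          rw [h5, h4]
          exact Subgroup.inv_mem _ h3
        have h6 : g = u⁻¹ * (u * g) := by group
        rw [h6]
        exact Subgroup.mul_mem _ (Subgroup.mem_sup_right (Subgroup.inv_mem _ (Subgroup.mem_zpowers u))) (Subgroup.mem_sup_left h2)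
    · apply sup_le
      · intro d hd
        refine Subgroup.mem_set_normalizer_iff.2 ?_
        intro x
        constructor
        · intro hx
          exact Subgroup.mul_mem _ (Subgroup.mul_mem _ hd hx) (Subgroup.inv_mem _ hd)
        · intro hx
          have h1 := Subgroup.mul_mem _ (Subgroup.mul_mem _ (Subgroup.inv_mem _ hd) hx) hd
          have h2 : d⁻¹ * (d * x * d⁻¹) * d = x := by group
          rwa [h2] at h1
      · rw [Subgroup.zpowers_le]
        refine Subgroup.mem_set_normalizer_iff.2 ?_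
        intro x
        constructor
        · intro hx
          rw [hinv hx]
          exact Subgroup.inv_mem _ hx
        · intro hx
          have h1 := hinv hx
          have h3 : u * (u * x * u⁻¹) * u⁻¹ = x := by
            rw [hui]
            calc u * (u * x * u) * u = (u * u) * x * (u * u) := by group
              _ = x := by rw [huu]; group
          rw [h3] at h1
          rw [h1]
          exact Subgroup.inv_mem _ hx
  · exact hfix

end Cfsg.Agent.S1228
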