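import Cfsg.Statements.S1231
import Cfsg.Agent.Lib.H2Basic
import Cfsg.Agent.Lib.SylowIn
import Cfsg.Agent.Lib.SylowCount
import Cfsg.Agent.Lib.StrongEmb
-- import your own Cfsg.Agent.* helpers here

set_option autoImplicit false
set_option linter.all false
open Cfsg

namespace Cfsg.Agent.S1231


open Cfsg.Agent.Lib.H2Basic Cfsg.Agent.Lib.SylowIn in
theorem pRank_of_inj {X Y : Type*} [Group X] [Group Y] {p n : ℕ} (f : Y →* X)
    (hf : Function.Injective f) (h : Cfsg.PRankLE p n X) : Cfsg.PRankLE p n Y := by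
  intro A hc he
  have h1 := h (A.map f) (by
    constructor
    constructor
    rintro ⟨_, a, ha, rfl⟩ ⟨_, b, hb, rfl⟩
    apply Subtype.ext
    have := hc.is_comm.comm ⟨a, ha⟩ ⟨b, hb⟩
    have h2 : a * b = b * a := congrArg Subtype.val this
    show f a * f b = f b * f a
    rw [← map_mul, ← map_mul, h2]) (by
      rintro _ ⟨a, ha, rfl⟩
      rw [← map_pow, he a ha, map_one])
  rwa [Subgroup.card_map_of_injective hf] at h1

theorem pRank_mono {G : Type*} [Group G] {p n : ℕ} {A B : Subgroup G} (hAB : A ≤ B)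
    (h : Cfsg.PRankLE p n ↥B) : Cfsg.PRankLE p n ↥A :=
  pRank_of_inj (Subgroup.inclusion hAB) (Subgroup.inclusion_injective hAB) h

theorem pRank_conj {G : Type*} [Group G] {p n : ℕ} {A : Subgroup G} (g : G)
    (h : Cfsg.PRankLE p n ↥A) : Cfsg.PRankLE p n ↥(A.map (MulAut.conj g).toMonoidHom) :=
  pRank_of_inj (Subgroup.equivMapOfInjective A _ (MulAut.conj g).injective).symm.toMonoidHom
    (MulEquiv.injective _) h

theorem pRank_conj' {G : Type*} [Group G] {p n : ℕ} {A : Subgroup G} (g : G)
    (h : ¬ Cfsg.PRankLE p n ↥A) : ¬ Cfsg.PRankLE p n ↥(A.map (MulAut.conj g).toMonoidHom) := by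
  intro h2
  apply h
  exact pRank_of_inj (Subgroup.equivMapOfInjective A _ (MulAut.conj g).injective).toMonoidHom
    (MulEquiv.injective _) h2



/-- Let H be a subgroup of the finite group G, p a prime, k ≥ 1, and P a Sylow p-subgroup of H whose p-rank is at least k. Then N_G(X) ≤ H for every subgroup X of P of p-rank at least k if and only if H ∩ gHg⁻¹ has p-rank less than k for every g ∉ H. -/
theorem result {G : Type*} [Group G] [Finite G] {p : ℕ} [Fact p.Prime] (k : ℕ) (hk : 1 ≤ k) (H : Subgroup G) (P : Sylow p ↥H) (hP : ¬ Cfsg.PRankLE p (k - 1) ↥(P : Subgroup ↥H)) : (∀ X : Subgroup G, X ≤ (P : Subgroup ↥H).map H.subtype → ¬ Cfsg.PRankLE p (k - 1) ↥X → Subgroup.normalizer (X : Set G) ≤ H) ↔ (∀ g : G, g ∉ H → Cfsg.PRankLE p (k - 1) ↥(H ⊓ H.map (MulAut.conj g).toMonoidHom)) := by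
  classical
  constructor
  · intro hX
    -- every `p`-subgroup of `H` of large rank has its normalizer in `H`
    have hN : ∀ X : Subgroup G, X ≤ H → IsPGroup p X → ¬ Cfsg.PRankLE p (k - 1) ↥X →
        Subgroup.normalizer (X : Set G) ≤ H := by
      intro X hXH hXp hXr g hg
      have h1 : IsPGroup p (X.subgroupOf H) :=
        hXp.of_equiv (Subgroup.subgroupOfEquivOfLe hXH).symm
      obtain ⟨h, hh⟩ := Cfsg.Agent.Lib.H2Basic.exists_conj_le_sylow h1 P
      have h2 : X.map (MulAut.conj (h : G)).toMonoidHom ≤ (P : Subgroup ↥H).map H.subtype := by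
        rintro _ ⟨q, hq, rfl⟩
        refine ⟨_, hh ⟨⟨q, hXH hq⟩, hq, rfl⟩, ?_⟩
        simp [MulAut.conj_apply]
      have h3 := hX _ h2 (pRank_conj' _ hXr)
      have h4 : (h : G) * g * (h : G)⁻¹ ∈ Subgroup.normalizer
          ((X.map (MulAut.conj (h : G)).toMonoidHom : Subgroup G) : Set G) := by
        apply Cfsg.Agent.Lib.H2Basic.mem_normalizer_of_map_conj_eq
        have e := Cfsg.Agent.Lib.H2Basic.map_conj_eq_of_mem_normalizer hg
        rw [Cfsg.Agent.Lib.H2Basic.map_conj_mul]
        have e2 : (h : G) * g * (h : G)⁻¹ * (h : G) = (h : G) * g := by group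
        rw [e2]
        conv_rhs => rw [← e]
        rw [Cfsg.Agent.Lib.H2Basic.map_conj_mul]
      have h5 := h3 h4
      have e3 : g = (h : G)⁻¹ * ((h : G) * g * (h : G)⁻¹) * (h : G) := by group
      rw [e3]
      exact H.mul_mem (H.mul_mem (H.inv_mem h.2) h5) h.2
    intro g hg
    by_contra hcon
    -- the family of pairs
    let F : Subgroup G → G → Prop := fun E x => E ≤ H ∧ E ≤ H.map (MulAut.conj x).toMonoidHom ∧ x ∉ H ∧
      IsPGroup p E ∧ ¬ Cfsg.PRankLE p (k - 1) ↥E
    have hne : ∃ E x, F E x := by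
      unfold Cfsg.PRankLE at hcon
      push Not at hcon
      obtain ⟨A, hc, he, hcard⟩ := hcon
      refine ⟨A.map (Subgroup.subtype _), g, ?_, ?_, hg, ?_, ?_⟩
      · rintro _ ⟨a, -, rfl⟩
        exact a.2.1
      · rintro _ ⟨a, -, rfl⟩
        exact a.2.2
      · rintro ⟨_, a, ha, rfl⟩
        refine ⟨1, ?_⟩
        apply Subtype.ext
        have := he a ha
        have h3 : (a : G) ^ p = 1 := congrArg Subtype.val this
        rw [pow_one]
        exact h3
      · intro hr
        have := hr ⊤ (by
          constructor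
          constructor
          rintro ⟨⟨_, a, ha, rfl⟩, _⟩ ⟨⟨_, b, hb, rfl⟩, _⟩
          apply Subtype.ext
          apply Subtype.ext
          have := hc.is_comm.comm ⟨a, ha⟩ ⟨b, hb⟩
          have h2 : a * b = b * a := congrArg Subtype.val this
          have h3 : (a : G) * b = b * a := congrArg Subtype.val h2
          exact h3) (by
            rintro ⟨_, a, ha, rfl⟩ -
            apply Subtype.ext
            have := he a ha
            have h3 : (a : G) ^ p = 1 := congrArg Subtype.val this
            exact h3)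
        rw [Subgroup.card_top, Subgroup.card_map_of_injective (Subgroup.subtype_injective _)] at this
        omega
    -- a pair of maximal order
    have hmax : ∃ E x, F E x ∧ ∀ E' x', F E' x' → Nat.card E' ≤ Nat.card E := by
      have key : ∀ n E x, F E x → Nat.card G - Nat.card E = n →
          ∃ E x, F E x ∧ ∀ E' x', F E' x' → Nat.card E' ≤ Nat.card E := by
        intro n
        induction n using Nat.strong_induction_on with
        | _ n ih =>
          intro E x hF hn
          by_cases h : ∀ E' x', F E' x' → Nat.card E' ≤ Nat.card E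
          · exact ⟨E, x, hF, h⟩
          · push Not at h
            obtain ⟨E', x', hF', hc⟩ := h
            have h1 := Subgroup.card_le_card_group E'
            exact ih _ (by omega) E' x' hF' rfl
      obtain ⟨E, x, hF⟩ := hne
      exact key _ E x hF rfl
    obtain ⟨E, x, hF, hE⟩ := hmax
    -- the extremal pair is Sylow
    have hsyl : ∀ E x, F E x → (∀ E' x', F E' x' → Nat.card E' ≤ Nat.card E) →
        Cfsg.Agent.Lib.SylowIn.IsSylowIn p E H := by
      intro E x hF hE
      obtain ⟨hEH, hEx, hxH, hEp, hEr⟩ := hF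
      have h1 : IsPGroup p (E.subgroupOf H) :=
        hEp.of_equiv (Subgroup.subgroupOfEquivOfLe hEH).symm
      obtain ⟨R, hR⟩ := h1.exists_le_sylow
      refine ⟨R, ?_⟩
      symm
      by_contra hne2
      have hlt : E.subgroupOf H < (R : Subgroup ↥H) := lt_of_le_of_ne hR hne2
      -- the image in `G`
      let R' : Subgroup G := (R : Subgroup ↥H).map H.subtype
      have hR'p : IsPGroup p R' := R.isPGroup'.map H.subtype
      have hER' : E ≤ R' := by
        intro e he
        exact ⟨⟨e, hEH he⟩, hR he, rfl⟩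
      have hlt' : E < R' := by
        refine lt_of_le_of_ne hER' ?_
        intro heq
        apply hne2
        apply le_antisymm hR
        intro r hr
        have : (r : G) ∈ R' := ⟨r, hr, rfl⟩
        rw [← heq] at this
        exact this
      obtain ⟨y, hyR, hyE, hyN⟩ := Cfsg.Agent.Lib.SylowCount.exists_mem_normalizer_of_lt hR'p hlt'
      -- normalizer control
      have hE' : E.map (MulAut.conj x⁻¹).toMonoidHom ≤ H := by
        rintro _ ⟨e, he, rfl⟩
        obtain ⟨h, hh, rfl⟩ := hEx he
        have e5 : (MulAut.conj x⁻¹).toMonoidHom ((MulAut.conj x).toMonoidHom h) = h := by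
          simp [MulAut.conj_apply]
          group
        rw [e5]
        exact hh
      have hNE : Subgroup.normalizer (E : Set G) ≤ H.map (MulAut.conj x).toMonoidHom := by
        intro n hn
        have h2 := hN _ hE' (hEp.map _) (pRank_conj' _ hEr)
        have h3 : x⁻¹ * n * x⁻¹⁻¹ ∈ Subgroup.normalizer
            ((E.map (MulAut.conj x⁻¹).toMonoidHom : Subgroup G) : Set G) := by
          apply Cfsg.Agent.Lib.H2Basic.mem_normalizer_of_map_conj_eq
          have e := Cfsg.Agent.Lib.H2Basic.map_conj_eq_of_mem_normalizer hn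
          rw [Cfsg.Agent.Lib.H2Basic.map_conj_mul]
          have e2 : x⁻¹ * n * x⁻¹⁻¹ * x⁻¹ = x⁻¹ * n := by group
          rw [e2]
          conv_rhs => rw [← e]
          rw [Cfsg.Agent.Lib.H2Basic.map_conj_mul]
        have h4 := h2 h3
        refine ⟨_, h4, ?_⟩
        simp [MulAut.conj_apply]
        group
      let E₂ : Subgroup G := R' ⊓ Subgroup.normalizer (E : Set G)
      have hE₂ : F E₂ x := by
        refine ⟨?_, ?_, hxH, ?_, ?_⟩
        · rintro z ⟨⟨w, -, rfl⟩, -⟩
          exact w.2
        · rintro z ⟨-, hz⟩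
          exact hNE hz
        · exact hR'p.to_le inf_le_left
        · intro hr
          apply hEr
          refine pRank_mono ?_ hr
          exact le_inf hER' Subgroup.le_normalizer
      have hlt3 : E < E₂ := by
        refine lt_of_le_of_ne (le_inf hER' Subgroup.le_normalizer) ?_
        intro heq
        apply hyE
        rw [heq]
        exact ⟨hyR, hyN⟩
      have h5 := hE _ _ hE₂
      exact hlt3.ne (Subgroup.eq_of_le_of_card_ge hlt3.le h5)
    have hS1 := hsyl E x hF hE
    obtain ⟨hEH, hEx, hxH, hEp, hEr⟩ := id hF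
    -- the conjugate pair
    have hF' : F (E.map (MulAut.conj x⁻¹).toMonoidHom) x⁻¹ := by
      refine ⟨?_, ?_, fun h => hxH (by simpa using H.inv_mem h), hEp.map _, pRank_conj' _ hEr⟩
      · rintro _ ⟨e, he, rfl⟩
        obtain ⟨h, hh, rfl⟩ := hEx he
        have e5 : (MulAut.conj x⁻¹).toMonoidHom ((MulAut.conj x).toMonoidHom h) = h := by
          simp [MulAut.conj_apply]
          group
        rw [e5]
        exact hh
      · exact Subgroup.map_mono hEH
    have hS2 := hsyl _ x⁻¹ hF' (by
      intro E' x' h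
      rw [Cfsg.Agent.Lib.H2Basic.card_map_conj]
      exact hE E' x' h)
    obtain ⟨h, hh, he⟩ := Cfsg.Agent.Lib.StrongEmb.IsSylowIn.exists_conj hS1 hS2 hEH hF'.1
    apply hxH
    have h3 : x * h ∈ Subgroup.normalizer (E : Set G) := by
      apply Cfsg.Agent.Lib.H2Basic.mem_normalizer_of_map_conj_eq
      rw [← Cfsg.Agent.Lib.H2Basic.map_conj_mul, ← he, Cfsg.Agent.Lib.H2Basic.map_conj_mul]
      ext z
      simp [MulAut.conj_apply]
    have h4 := hN E hEH hEp hEr h3
    have e3 : x = (x * h) * h⁻¹ := by group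
    rw [e3]
    exact H.mul_mem h4 (H.inv_mem hh)
  · intro h X hXP hXr g hg
    by_contra hgH
    have hXH : X ≤ H := by
      intro x hx
      obtain ⟨y, -, rfl⟩ := hXP hx
      exact y.2
    apply hXr
    refine pRank_mono ?_ (h g hgH)
    intro x hx
    refine ⟨hXH hx, ?_⟩
    have e := Cfsg.Agent.Lib.H2Basic.map_conj_eq_of_mem_normalizer hg
    rw [← e] at hx
    obtain ⟨y, hy, rfl⟩ := hx
    exact ⟨y, hXH hy, rfl⟩

end Cfsg.Agent.S1231
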