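import Cfsg.Statements.S1236
import Cfsg.Agent.Lib.QuasiDihedral
import Cfsg.Agent.Lib.H2Basic
import Cfsg.Agent.Lib.BalanceL5
import Cfsg.Agent.Lib.NormalE
-- import your own Cfsg.Agent.* helpers here

set_option autoImplicit false
set_option linter.all false
open Cfsg

namespace Cfsg.Agent.S1236

theorem zmod_two_unique {m : ℕ} (hm : 2 ≤ m) {x y : ZMod m} (hx : 2 * x = 0) (hy : 2 * y = 0) (hx0 : x ≠ 0) (hy0 : y ≠ 0) :
    x = y := by
  haveI : NeZero m := ⟨by omega⟩
  have key : ∀ z : ZMod m, 2 * z = 0 → z ≠ 0 → 2 * z.val = m := by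
    intro z hz hz0
    have h1 : ((2 * z.val : ℕ) : ZMod m) = 0 := by
      push_cast
      rw [ZMod.natCast_zmod_val, hz]
    have h2 : m ∣ 2 * z.val := (ZMod.natCast_eq_zero_iff _ _).1 h1
    have h3 : z.val < m := ZMod.val_lt z
    have h4 : z.val ≠ 0 := fun h => hz0 ((ZMod.val_eq_zero z).1 h)
    obtain ⟨c, hc⟩ := h2
    have h5 : c = 1 := by
      have h6 : c < 2 := by
        by_contra h7
        have : m * 2 ≤ m * c := Nat.mul_le_mul_left m (by omega)
        omega
      have h7 : c ≠ 0 := by
        rintro rfl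
        omega
      omega
    rw [hc, h5, mul_one]
  have h1 := key x hx hx0
  have h2 := key y hy hy0
  apply ZMod.val_injective
  omega

theorem card_le_of_two {G : Type*} [Group G] [Finite G] (T : Subgroup G) (u : G) (h : ∀ a ∈ T, a = 1 ∨ a = u) : Nat.card T ≤ 2 := by
  have hle : (T : Set G) ⊆ {1, u} := by
    intro a ha
    rcases h a ha with h1 | h1
    · left; exact h1
    · right; exact h1
  have h1 := Set.ncard_le_ncard hle (Set.toFinite _)
  have h2 := Set.ncard_insert_le (1 : G) {u}
  rw [Set.ncard_singleton] at h2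
  have h3 : Nat.card T = (T : Set G).ncard := Nat.card_coe_set_eq _
  omega

theorem dih_self_centralizing {m : ℕ} (hm : 2 ≤ m) (T : Subgroup (DihedralGroup m)) (hc : Nat.card T = 4)
    (hsq : ∀ a ∈ T, a * a = 1) (g : DihedralGroup m) (hg : ∀ a ∈ T, g * a = a * g) : g ∈ T := by
  classical
  haveI : NeZero m := ⟨by omega⟩
  have hsq' : ∀ i : ZMod m, DihedralGroup.r i ∈ T → 2 * i = 0 := by
    intro i hi
    have h1 := hsq _ hi
    rw [DihedralGroup.r_mul_r] at h1
    have h3 : i + i = 0 := DihedralGroup.r.inj h1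
    rw [two_mul]; exact h3
  have hrot : ∀ i j : ZMod m, DihedralGroup.r i ∈ T → DihedralGroup.r j ∈ T → i ≠ 0 → j ≠ 0 → i = j := by
    intro i j hi hj hi0 hj0
    exact zmod_two_unique hm (hsq' i hi) (hsq' j hj) hi0 hj0
  obtain ⟨i, hi⟩ : ∃ i, DihedralGroup.sr i ∈ T := by
    by_contra hno
    push Not at hno
    have hall : ∀ a ∈ T, ∃ i, a = DihedralGroup.r i := by
      intro a ha
      cases a with
      | r i => exact ⟨i, rfl⟩
      | sr i => exact absurd ha (hno i)
    obtain ⟨d, hd0, hd⟩ : ∃ d : ZMod m, d ≠ 0 ∧ DihedralGroup.r d ∈ T := by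
      by_contra hno2
      push Not at hno2
      have : T ≤ ⊥ := by
        intro a ha
        obtain ⟨i, rfl⟩ := hall a ha
        by_cases h0 : i = 0
        · rw [h0]; rfl
        · exact absurd ha (hno2 i h0)
      have h1 : T = ⊥ := le_bot_iff.1 this
      rw [h1, Subgroup.card_bot] at hc
      omega
    have := card_le_of_two T (DihedralGroup.r d) (by
      intro a ha
      obtain ⟨i, rfl⟩ := hall a ha
      by_cases h0 : i = 0
      · left; rw [h0]; rfl
      · right; rw [hrot i d ha hd h0 hd0])
    omega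
  obtain ⟨j, hj, hij⟩ : ∃ j, DihedralGroup.sr j ∈ T ∧ j ≠ i := by
    by_contra hno
    push Not at hno
    have := card_le_of_two T (DihedralGroup.sr i) (by
      intro a ha
      cases a with
      | r d =>
        by_cases h0 : d = 0
        · left; rw [h0]; rfl
        · exfalso
          have h1 := T.mul_mem hi ha
          rw [DihedralGroup.sr_mul_r] at h1
          have h2 := hno _ h1
          apply h0
          simpa using h2
      | sr l =>
        right
        rw [hno l ha])
    omega
  have hrd : DihedralGroup.r (j - i) ∈ T := by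
    have h1 := T.mul_mem hi hj
    rw [DihedralGroup.sr_mul_sr] at h1
    exact h1
  have hd0 : j - i ≠ 0 := sub_ne_zero.2 hij
  have h1 := hg _ hi
  cases g with
  | r k =>
    rw [DihedralGroup.r_mul_sr, DihedralGroup.sr_mul_r] at h1
    have h2 : i - k = i + k := DihedralGroup.sr.inj h1
    by_cases h0 : k = 0
    · rw [h0]
      exact T.one_mem
    · have h3 : 2 * k = 0 := by
        have h5 : 2 * k = (i + k) - (i - k) := by ring
        rw [h5, h2, sub_self]
      have h4 : k = j - i := zmod_two_unique hm h3 (hsq' _ hrd) h0 hd0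
      rw [h4]
      exact hrd
  | sr l =>
    rw [DihedralGroup.sr_mul_sr, DihedralGroup.sr_mul_sr] at h1
    have h2 : i - l = l - i := DihedralGroup.r.inj h1
    by_cases h0 : l = i
    · rw [h0]; exact hi
    · have h3 : 2 * (l - i) = 0 := by
        have h4 : (l - i) + (l - i) = 0 := by
          calc (l - i) + (l - i) = (l - i) + (i - l) := by rw [h2]
            _ = 0 := by ring
        rw [two_mul]; exact h4
      have h4 : l - i = j - i := zmod_two_unique hm h3 (hsq' _ hrd) (sub_ne_zero.2 h0) hd0
      have h5 : l = j := sub_left_inj.1 h4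
      rw [h5]; exact hj


/-- Let R be a finite group, t a central involution of R such that R ⧸ ⟨t⟩ is dihedral (of order ≥ 4) or quasi-dihedral, and A ≤ R an elementary abelian subgroup of order 8 containing t. Then C_R(A) = A. -/
theorem result {R : Type*} [Group R] [Finite R] (t : R) (ht : orderOf t = 2) (htz : t ∈ Subgroup.center R) [(Subgroup.zpowers t).Normal] (hq : (∃ m : ℕ, 2 ≤ m ∧ Nonempty (R ⧸ Subgroup.zpowers t ≃* DihedralGroup m)) ∨ Cfsg.IsQuasiDihedral (R ⧸ Subgroup.zpowers t)) (A : Subgroup R) (hA : Cfsg.IsElementaryAbelian 2 A) (hA8 : Nat.card A = 8) (htA : t ∈ A) : Subgroup.centralizer (A : Set R) = A := by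
  classical
  haveI : Fact (Nat.Prime 2) := ⟨Nat.prime_two⟩
  have hAc := (Cfsg.Agent.Lib.BalanceL5.imc_iff' A).1 hA.1
  have hAsq : ∀ a ∈ A, a * a = 1 := fun a ha => by rw [← pow_two]; exact hA.2 a ha
  let π := QuotientGroup.mk' (Subgroup.zpowers t)
  have hkerA : (Subgroup.zpowers t) ≤ A := (Subgroup.zpowers_le).2 htA
  let V : Subgroup (R ⧸ Subgroup.zpowers t) := A.map π
  have hVc : Nat.card V = 4 := by
    have h1 := Cfsg.Agent.Lib.NormalE.card_comap_mk (N := Subgroup.zpowers t) V
    have h2 : V.comap (QuotientGroup.mk' (Subgroup.zpowers t)) = A := by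
      apply Subgroup.comap_map_eq_self
      rw [QuotientGroup.ker_mk']
      exact hkerA
    rw [h2, hA8, Nat.card_zpowers, ht] at h1
    omega
  have hVsq : ∀ a ∈ V, a * a = 1 := by
    rintro _ ⟨a, ha, rfl⟩
    rw [← map_mul, hAsq a ha, map_one]
  have hcenter : ∀ v : R ⧸ Subgroup.zpowers t, (∀ a ∈ V, v * a = a * v) → v ∈ V := by
    rcases hq with ⟨m, hm, ⟨e⟩⟩ | hqd
    · intro v hv
      have h1 : e v ∈ V.map e.toMonoidHom := by
        apply Cfsg.Agent.S1236.dih_self_centralizing hm (V.map e.toMonoidHom)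
        · rw [Cfsg.Agent.Lib.BalanceL5.card_map_of_inj e.toMonoidHom V (fun s _ hs => e.injective (by simpa using hs)), hVc]
        · rintro _ ⟨a, ha, rfl⟩
          show e a * e a = 1
          rw [← map_mul, hVsq a ha, map_one]
        · rintro _ ⟨a, ha, rfl⟩
          show e v * e a = e a * e v
          rw [← map_mul, ← map_mul, hv a ha]
      obtain ⟨w, hw, hwe⟩ := h1
      have : w = v := e.injective hwe
      rwa [← this]
    · intro v hv
      obtain ⟨n, x, y, hn, hc, hQD⟩ := Cfsg.Agent.Lib.QuasiDihedral.exists_qd hqd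
      have hK : IsKleinFour V := Cfsg.Agent.Lib.H2Basic.isKleinFour_of V hVc hVsq
      have h1 := hQD.klein_centralizer V hK
      rw [← h1, Subgroup.mem_centralizer_iff]
      intro a ha
      exact (hv a ha).symm
  apply le_antisymm
  · intro c hc
    have h1 : π c ∈ V := by
      apply hcenter
      rintro _ ⟨a, ha, rfl⟩
      show π c * π a = π a * π c
      have : a * c = c * a := Subgroup.mem_centralizer_iff.1 hc a ha
      rw [← map_mul, ← map_mul, this]
    obtain ⟨a, ha, hae⟩ := h1
    have h2 : a⁻¹ * c ∈ Subgroup.zpowers t := QuotientGroup.eq.1 hae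
    have h3 := A.mul_mem ha (hkerA h2)
    simpa using h3
  · intro a ha
    rw [Subgroup.mem_centralizer_iff]
    intro b hb
    exact hAc b hb a ha

end Cfsg.Agent.S1236
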