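import Cfsg.Statements.S1243
import Cfsg.Agent.Lib.SylowCount
import Cfsg.Agent.Lib.H2Basic
-- import your own Cfsg.Agent.* helpers here

set_option autoImplicit false
set_option linter.all false
open Cfsg

namespace Cfsg.Agent.S1243

/-- Let T be a Sylow p-subgroup of the finite group G and W ≤ T a subgroup weakly closed in T. If d and g d g⁻¹ both centralize W, then g d g⁻¹ = h d h⁻¹ for some h ∈ N_G(W). -/
theorem result {G : Type*} [Group G] [Finite G] {p : ℕ} [Fact p.Prime] (T : Sylow p G) (W : Subgroup G) (hW : Cfsg.IsWeaklyClosed W (T : Subgroup G)) (d g : G) (hd : d ∈ Subgroup.centralizer (W : Set G)) (hgd : g * d * g⁻¹ ∈ Subgroup.centralizer (W : Set G)) : ∃ h ∈ Subgroup.normalizer (W : Set G), h * d * h⁻¹ = g * d * g⁻¹ := by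
  classical
  obtain ⟨hWT, hcl⟩ := hW
  -- d₁ = g d g⁻¹
  set d₁ := g * d * g⁻¹ with hd₁
  let C : Subgroup G := Subgroup.centralizer ({d₁} : Set G)
  have hWC : W ≤ C := by
    intro w hw
    refine Subgroup.mem_centralizer_singleton_iff.2 ?_
    exact (Subgroup.mem_centralizer_iff.1 hgd w hw)
  let W' : Subgroup G := W.map (MulAut.conj g).toMonoidHom
  have hW'C : W' ≤ C := by
    rintro _ ⟨w, hw, rfl⟩
    refine Subgroup.mem_centralizer_singleton_iff.2 ?_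
    have h1 : w * d = d * w := (Subgroup.mem_centralizer_iff.1 hd w hw)
    show g * w * g⁻¹ * (g * d * g⁻¹) = (g * d * g⁻¹) * (g * w * g⁻¹)
    calc g * w * g⁻¹ * (g * d * g⁻¹) = g * (w * d) * g⁻¹ := by group
      _ = g * (d * w) * g⁻¹ := by rw [h1]
      _ = _ := by group
  have hWp : IsPGroup p W := T.isPGroup'.to_le hWT
  have hW'p : IsPGroup p W' := hWp.map _
  let W₁ : Subgroup C := W.subgroupOf C
  let W₂ : Subgroup C := W'.subgroupOf C
  have hW₁p : IsPGroup p W₁ := hWp.of_equiv (Subgroup.subgroupOfEquivOfLe hWC).symm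
  have hW₂p : IsPGroup p W₂ := hW'p.of_equiv (Subgroup.subgroupOfEquivOfLe hW'C).symm
  obtain ⟨Q₁, hQ₁⟩ := hW₁p.exists_le_sylow
  obtain ⟨Q₂, hQ₂⟩ := hW₂p.exists_le_sylow
  obtain ⟨c, hc⟩ := MulAction.exists_smul_eq C Q₂ Q₁
  -- c conjugates W' into Q₁
  let Q : Subgroup G := (Q₁ : Subgroup C).map C.subtype
  have hQp : IsPGroup p Q := Q₁.isPGroup'.map _
  obtain ⟨R, hR⟩ := hQp.exists_le_sylow
  obtain ⟨r, hr⟩ := MulAction.exists_smul_eq G R T
  have hmemT : ∀ y ∈ R, r * y * r⁻¹ ∈ (T : Subgroup G) := by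
    intro y hy
    rw [← hr]
    refine (Cfsg.Agent.Lib.SylowCount.mem_smul_sylow _ _ _).2 ?_
    have : r⁻¹ * (r * y * r⁻¹) * r = y := by group
    rw [this]
    exact hy
  have hWR : W ≤ R := by
    intro w hw
    apply hR
    exact ⟨⟨w, hWC hw⟩, hQ₁ hw, rfl⟩
  have h1 : W.map (MulAut.conj r).toMonoidHom ≤ (T : Subgroup G) := by
    rintro _ ⟨w, hw, rfl⟩
    exact hmemT w (hWR hw)
  have h2 := hcl r h1
  -- h = c g
  have hcgR : ∀ w ∈ W, (c : G) * (g * w * g⁻¹) * (c : G)⁻¹ ∈ R := by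
    intro w hw
    apply hR
    have h3 : (⟨g * w * g⁻¹, hW'C ⟨w, hw, rfl⟩⟩ : C) ∈ (Q₂ : Subgroup C) := hQ₂ ⟨w, hw, rfl⟩
    have h4 : c * (⟨g * w * g⁻¹, hW'C ⟨w, hw, rfl⟩⟩ : C) * c⁻¹ ∈ (Q₁ : Subgroup C) := by
      rw [← hc]
      refine (Cfsg.Agent.Lib.SylowCount.mem_smul_sylow _ _ _).2 ?_
      have : c⁻¹ * (c * (⟨g * w * g⁻¹, hW'C ⟨w, hw, rfl⟩⟩ : C) * c⁻¹) * c = ⟨g * w * g⁻¹, hW'C ⟨w, hw, rfl⟩⟩ := by group
      rw [this]
      exact h3
    exact ⟨_, h4, rfl⟩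
  have h3 : W.map (MulAut.conj (r * ((c : G) * g))).toMonoidHom ≤ (T : Subgroup G) := by
    rintro _ ⟨w, hw, rfl⟩
    have h4 := hmemT _ (hcgR w hw)
    show (r * ((c : G) * g)) * w * (r * ((c : G) * g))⁻¹ ∈ (T : Subgroup G)
    have h5 : (r * ((c : G) * g)) * w * (r * ((c : G) * g))⁻¹ = r * ((c : G) * (g * w * g⁻¹) * (c : G)⁻¹) * r⁻¹ := by group
    rw [h5]
    exact h4
  have h4 := hcl _ h3
  have h5 : ((c : G) * g) ∈ Subgroup.normalizer (W : Set G) := by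
    apply Cfsg.Agent.Lib.H2Basic.mem_normalizer_of_map_conj_eq
    -- W^{r c g} = W, W^r = W
    have h6 : (W.map (MulAut.conj ((c : G) * g)).toMonoidHom).map (MulAut.conj r).toMonoidHom = W.map (MulAut.conj r).toMonoidHom := by
      rw [Cfsg.Agent.Lib.H2Basic.map_conj_mul, h4, h2]
    exact Subgroup.map_injective (MulAut.conj r).injective h6
  refine ⟨(c : G) * g, h5, ?_⟩
  have h7 : (c : G) * d₁ = d₁ * (c : G) := Subgroup.mem_centralizer_singleton_iff.1 c.2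
  calc (c : G) * g * d * ((c : G) * g)⁻¹ = (c : G) * d₁ * (c : G)⁻¹ := by rw [hd₁]; group
    _ = d₁ := by rw [h7]; group

end Cfsg.Agent.S1243
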