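import Cfsg.Statements.S1244
import Mathlib
import Cfsg.Agent.Lib.TransferCtl
-- import your own Cfsg.Agent.* helpers here

set_option autoImplicit false
set_option linter.all false
open Cfsg

namespace Cfsg.Agent.S1244

/-- Let G be a finite group with no subgroup of index 2 whose Sylow 2-subgroup S is commutative, and let R ≤ S be a subgroup whose 2-rank is exactly one less than the 2-rank r of S. Then every involution of S is conjugate, by an element of N_G(S), to an element of R. -/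
theorem result {G : Type*} [Group G] [Finite G] (hG : ∀ H : Subgroup G, H.index ≠ 2) (S : Sylow 2 G) (hS : IsMulCommutative (S : Subgroup G)) (r : ℕ) (hr1 : 1 ≤ r) (hSr : Cfsg.PRankLE 2 r (S : Subgroup G) ∧ ¬ Cfsg.PRankLE 2 (r - 1) (S : Subgroup G)) (R : Subgroup G) (hRS : R ≤ S) (hRr : Cfsg.PRankLE 2 (r - 1) R ∧ (r = 1 ∨ ¬ Cfsg.PRankLE 2 (r - 2) R)) (t : G) (ht : orderOf t = 2) (htS : t ∈ S) : ∃ n ∈ Subgroup.normalizer ((S : Subgroup G) : Set G), n * t * n⁻¹ ∈ R := by
  classical
  haveI hStwo : Fact (Nat.Prime 2) := ⟨Nat.prime_two⟩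
  have hcommS : ∀ a ∈ (S : Subgroup G), ∀ b ∈ (S : Subgroup G), a * b = b * a := by
    intro a ha b hb
    have h1 : (⟨a, ha⟩ : (S : Subgroup G)) * ⟨b, hb⟩ = ⟨b, hb⟩ * ⟨a, ha⟩ := hS.is_comm.comm _ _
    exact congrArg Subtype.val h1
  by_contra hcon
  push Not at hcon
  letI : CommGroup ↥(S : Subgroup G) :=
    { (inferInstance : Group ↥(S : Subgroup G)) with mul_comm := hS.is_comm.comm }
  let ϕ : ↥(S : Subgroup G) →* ↥(S : Subgroup G) := MonoidHom.id _
  haveI : (S : Subgroup G).FiniteIndex := inferInstance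
  -- the transfer is trivial
  have hτ : ∀ g : G, ϕ.transfer g = 1 := by
    by_contra hne
    push Not at hne
    obtain ⟨g₀, hg₀⟩ := hne
    have hK : (ϕ.transfer).ker ≠ ⊤ := by
      intro h
      apply hg₀
      have : g₀ ∈ (ϕ.transfer).ker := by rw [h]; trivial
      exact this
    have hq : IsPGroup 2 (G ⧸ (ϕ.transfer).ker) := by
      intro q
      obtain ⟨g, rfl⟩ := QuotientGroup.mk'_surjective _ q
      obtain ⟨k, hk⟩ := S.isPGroup' (ϕ.transfer g)
      refine ⟨k, ?_⟩
      rw [← map_pow]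
      apply (QuotientGroup.eq_one_iff _).2
      show ϕ.transfer (g ^ 2 ^ k) = 1
      rw [map_pow]
      exact hk
    obtain ⟨N, -, hN⟩ := Cfsg.Agent.Lib.IndexP.exists_index_of_pquot (p := 2) _ hq hK
    exact hG N hN
  -- the elements of order at most two
  let Ω : Subgroup ↥(S : Subgroup G) :=
    { carrier := {x | x ^ 2 = 1}
      mul_mem' := by
        intro a b ha hb
        show (a * b) ^ 2 = 1
        rw [mul_pow, ha, hb, one_mul]
      one_mem' := by
        show (1 : ↥(S : Subgroup G)) ^ 2 = 1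
        simp
      inv_mem' := by
        intro a ha
        show a⁻¹ ^ 2 = 1
        rw [inv_pow, ha, inv_one] }
  let R' : Subgroup ↥(S : Subgroup G) := R.subgroupOf (S : Subgroup G)
  let Ω₀ : Subgroup ↥(S : Subgroup G) := Ω ⊓ R'
  have hΩ₀ : Ω₀ ≤ Ω := inf_le_left
  have hcommsub : ∀ A : Subgroup ↥(S : Subgroup G), IsMulCommutative A := fun A => by
    refine ⟨⟨?_⟩⟩
    rintro ⟨a, ha⟩ ⟨b, hb⟩
    apply Subtype.ext
    exact mul_comm a b
  have hpS : IsPGroup 2 ↥(S : Subgroup G) := S.isPGroup'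
  have hpow : ∀ A : Subgroup ↥(S : Subgroup G), ∃ j, Nat.card A = 2 ^ j := fun A =>
    IsPGroup.iff_card.1 (hpS.to_subgroup A)
  -- cardinalities
  have hΩle : Nat.card Ω ≤ 2 ^ r := hSr.1 Ω (hcommsub Ω) (fun a ha => ha)
  have hΩge : 2 ^ (r - 1) < Nat.card Ω := by
    have h1 := hSr.2
    unfold Cfsg.PRankLE at h1
    push Not at h1
    obtain ⟨A, -, hA, hAc⟩ := h1
    have h2 : A ≤ Ω := fun a ha => hA a ha
    exact hAc.trans_le (Subgroup.card_le_of_le h2)
  have hΩcard : Nat.card Ω = 2 ^ r := by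
    obtain ⟨j, hj⟩ := hpow Ω
    rw [hj] at hΩle hΩge ⊢
    have h1 : j ≤ r := (Nat.pow_le_pow_iff_right (by norm_num)).1 hΩle
    have h2 : r - 1 < j := (Nat.pow_lt_pow_iff_right (by norm_num)).1 hΩge
    have : j = r := by omega
    rw [this]
  have hΩ₀sub : Ω₀.map (S : Subgroup G).subtype ≤ R := by
    rintro _ ⟨x, hx, rfl⟩
    exact hx.2
  have hΩ₀card1 : Nat.card Ω₀ = Nat.card ↥((Ω₀.map (S : Subgroup G).subtype).subgroupOf R) := by
    rw [Nat.card_congr (Subgroup.subgroupOfEquivOfLe hΩ₀sub).toEquiv,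
      Subgroup.card_map_of_injective (S : Subgroup G).subtype_injective]
  have hΩ₀le : Nat.card Ω₀ ≤ 2 ^ (r - 1) := by
    rw [hΩ₀card1]
    apply hRr.1
    · refine ⟨⟨?_⟩⟩
      rintro ⟨⟨a, ha⟩, ha'⟩ ⟨⟨b, hb⟩, hb'⟩
      apply Subtype.ext
      apply Subtype.ext
      exact hcommS a (hRS ha) b (hRS hb)
    · rintro ⟨a, ha⟩ ha'
      obtain ⟨x, hx, hxa⟩ := ha'
      apply Subtype.ext
      have h1 : x ^ 2 = 1 := hx.1
      have h2 := congrArg Subtype.val h1
      simp only [SubmonoidClass.coe_pow, OneMemClass.coe_one] at h2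
      show a ^ 2 = 1
      have hxa' : (x : G) = a := hxa
      rw [← hxa']
      exact h2
  have hΩ₀card : Nat.card Ω₀ = 2 ^ (r - 1) := by
    obtain ⟨j, hj⟩ := hpow Ω₀
    rw [hj] at hΩ₀le ⊢
    have h1 : j ≤ r - 1 := (Nat.pow_le_pow_iff_right (by norm_num)).1 hΩ₀le
    rcases hRr.2 with hr | hr
    · subst hr
      have : j = 0 := by omega
      simp [this]
    · unfold Cfsg.PRankLE at hr
      push Not at hr
      obtain ⟨B, -, hB, hBc⟩ := hr
      have h2 : 2 ^ (r - 2) < Nat.card Ω₀ := by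
        have hB' : (B.map R.subtype).subgroupOf (S : Subgroup G) ≤ Ω₀ := by
          intro x hx
          obtain ⟨b, hb, hbx⟩ := hx
          refine ⟨?_, ?_⟩
          · show x ^ 2 = 1
            apply Subtype.ext
            have h3 := hB b hb
            have h4 := congrArg Subtype.val h3
            simp only [SubmonoidClass.coe_pow, OneMemClass.coe_one] at h4
            have h5 : (b : G) = x := hbx
            simp only [SubmonoidClass.coe_pow, OneMemClass.coe_one]
            rw [← h5]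
            exact h4
          · show (x : G) ∈ R
            have h5 : (b : G) = x := hbx
            rw [← h5]
            exact b.2
        have h6 : Nat.card ↥((B.map R.subtype).subgroupOf (S : Subgroup G)) = Nat.card B := by
          have hle : B.map R.subtype ≤ (S : Subgroup G) := by
            rintro _ ⟨b, -, rfl⟩
            exact hRS b.2
          rw [Nat.card_congr (Subgroup.subgroupOfEquivOfLe hle).toEquiv,
            Subgroup.card_map_of_injective R.subtype_injective]
        have h7 := Subgroup.card_le_of_le hB'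
        rw [h6] at h7
        exact hBc.trans_le h7
      rw [hj] at h2
      have h3 : r - 2 < j := (Nat.pow_lt_pow_iff_right (by norm_num)).1 h2
      have : j = r - 1 := by omega
      rw [this]
  have hidx2 : (Ω₀.subgroupOf Ω).index = 2 := by
    have h1 := Subgroup.card_mul_index (Ω₀.subgroupOf Ω)
    have h2 : Nat.card ↥(Ω₀.subgroupOf Ω) = 2 ^ (r - 1) := by
      rw [Nat.card_congr (Subgroup.subgroupOfEquivOfLe hΩ₀).toEquiv, hΩ₀card]
    rw [h2, hΩcard] at h1
    have h3 : (2 : ℕ) ^ r = 2 ^ (r - 1) * 2 := by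
      rw [← pow_succ]
      congr 1
      omega
    rw [h3] at h1
    exact Nat.eq_of_mul_eq_mul_left (by positivity) h1
  -- the hyperplane criterion in `Ω`
  have hplane : ∀ a ∈ Ω, ∀ b ∈ Ω, (a * b ∈ R' ↔ (a ∈ R' ↔ b ∈ R')) := by
    intro a ha b hb
    have h1 := Subgroup.mul_mem_iff_of_index_two hidx2 (a := ⟨a, ha⟩) (b := ⟨b, hb⟩)
    have e : ∀ x (hx : x ∈ Ω), ((⟨x, hx⟩ : ↥Ω) ∈ Ω₀.subgroupOf Ω ↔ x ∈ R') := by
      intro x hx
      rw [Subgroup.mem_subgroupOf]
      exact ⟨fun h => h.2, fun h => ⟨hx, h⟩⟩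
    rw [e a ha, e b hb] at h1
    have h2 : (⟨a, ha⟩ * ⟨b, hb⟩ : ↥Ω) ∈ Ω₀.subgroupOf Ω ↔ a * b ∈ R' := by
      rw [Subgroup.mem_subgroupOf]
      exact ⟨fun h => h.2, fun h => ⟨Ω.mul_mem ha hb, h⟩⟩
    rw [← h2]
    exact h1
  -- the transfer formula
  haveI : Fintype (Quotient (MulAction.orbitRel (Subgroup.zpowers t) (G ⧸ (S : Subgroup G)))) := Fintype.ofFinite _
  have ht2 : t ^ 2 = 1 := by
    rw [← ht]
    exact pow_orderOf_eq_one t
  let m : Quotient (MulAction.orbitRel (Subgroup.zpowers t) (G ⧸ (S : Subgroup G))) → ℕ :=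
    fun q => Function.minimalPeriod (t • ·) q.out
  let f : Quotient (MulAction.orbitRel (Subgroup.zpowers t) (G ⧸ (S : Subgroup G))) → ↥(S : Subgroup G) :=
    fun q => ⟨q.out.out⁻¹ * t ^ m q * q.out.out, QuotientGroup.out_conj_pow_minimalPeriod_mem (S : Subgroup G) t q.out⟩
  have hm : ∀ q, m q = 1 ∨ m q = 2 := by
    intro q
    have h1 : Function.IsPeriodicPt (t • ·) 2 q.out := by
      show (t • ·)^[2] q.out = q.out
      simp only [Function.iterate_succ, Function.iterate_zero, Function.comp, id, smul_smul]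
      rw [← pow_two, ht2, one_smul]
    have h2 : m q ∣ 2 := h1.minimalPeriod_dvd
    exact (Nat.dvd_prime Nat.prime_two).1 h2
  have hfΩ : ∀ q, f q ∈ Ω := by
    intro q
    show f q ^ 2 = 1
    apply Subtype.ext
    have e : ((f q ^ 2 : ↥(S : Subgroup G)) : G) = (q.out.out⁻¹ * t ^ m q * q.out.out) ^ 2 := rfl
    rw [e]
    generalize q.out.out = c
    have e2 : (c⁻¹ * t ^ m q * c) ^ 2 = c⁻¹ * (t ^ 2) ^ m q * c := by
      rw [← pow_mul, mul_comm 2, pow_mul]
      generalize t ^ m q = w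
      simp [pow_two, mul_assoc]
    rw [e2, ht2]
    simp
  have hfR : ∀ q, f q ∈ R' ↔ Even (m q) := by
    intro q
    rcases hm q with h | h
    · have h1 : ¬ Even (m q) := by
        rw [h]
        decide
      refine ⟨fun hq => ?_, fun hq => absurd hq h1⟩
      exfalso
      have hq' : q.out.out⁻¹ * t ^ m q * q.out.out ∈ R := hq
      rw [h, pow_one] at hq'
      have hS' : q.out.out⁻¹ * t * q.out.out ∈ (S : Subgroup G) := hRS hq'
      obtain ⟨n, hn, hne⟩ := Cfsg.Agent.Lib.TransferCtl.burnside_fusion S hcommS htS (c := q.out.out⁻¹)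
        (by simpa using hS')
      apply hcon n hn
      rw [hne]
      simpa using hq'
    · have h1 : Even (m q) := by
        rw [h]
        decide
      refine ⟨fun _ => h1, fun _ => ?_⟩
      show q.out.out⁻¹ * t ^ m q * q.out.out ∈ R
      rw [h, ht2]
      simp [R.one_mem]
  have key : ∀ F : Finset (Quotient (MulAction.orbitRel (Subgroup.zpowers t) (G ⧸ (S : Subgroup G)))),
      (∏ q ∈ F, f q) ∈ Ω ∧ ((∏ q ∈ F, f q) ∈ R' ↔ Even (∑ q ∈ F, m q)) := by
    intro F
    induction F using Finset.induction_on with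
    | empty =>
      refine ⟨?_, ?_⟩
      · simp [Ω.one_mem]
      · simp [R'.one_mem]
    | insert a F ha ih =>
      rw [Finset.prod_insert ha, Finset.sum_insert ha]
      refine ⟨Ω.mul_mem (hfΩ a) ih.1, ?_⟩
      rw [hplane _ (hfΩ a) _ ih.1, hfR a, ih.2, Nat.even_add]
  have h1 := hτ t
  rw [MonoidHom.transfer_eq_prod_quotient_orbitRel_zpowers_quot] at h1
  have h2 : (∏ q, f q) = 1 := h1
  have h3 := (key Finset.univ).2
  rw [h2] at h3
  have h4 : Even (∑ q, m q) := h3.1 R'.one_mem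
  have h5 : (S : Subgroup G).index = ∑ q, m q := Subgroup.index_eq_sum_minimalPeriod (S : Subgroup G) t
  rw [← h5] at h4
  exact S.not_dvd_index h4.two_dvd

end Cfsg.Agent.S1244
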