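import Cfsg.Statements.S1246
import Mathlib
import Cfsg.Agent.Lib.CompsLocal
import Cfsg.Agent.Lib.PCore
import Cfsg.Agent.Lib.FitCore
import Cfsg.Agent.Lib.H2Basic
import Cfsg.Agent.Lib.CharP
import Cfsg.Agent.Lib.Layer
import Cfsg.Agent.Lib.Comps
import Cfsg.Agent.Lib.SylowCount
-- import your own Cfsg.Agent.* helpers here

set_option autoImplicit false
set_option linter.all false
open Cfsg

namespace Cfsg.Agent.S1246

open Subgroup in
theorem chr_step {G : Type*} [Group G] [Finite G] {p : ℕ} [Fact p.Prime] (V V₁ : Subgroup G) (h1 : V ≤ V₁)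
    (h2 : V₁ ≤ normalizer (V : Set G)) (hp1 : IsPGroup p V₁)
    (hc : centralizer (Cfsg.pCore p ↥(centralizer (V : Set G)) : Set ↥(centralizer (V : Set G))) ≤ Cfsg.pCore p ↥(centralizer (V : Set G))) :
    centralizer (Cfsg.pCore p ↥(centralizer (V₁ : Set G)) : Set ↥(centralizer (V₁ : Set G))) ≤ Cfsg.pCore p ↥(centralizer (V₁ : Set G)) := by
  classical
  set M := normalizer (V : Set G) with hMdef
  have hVp : IsPGroup p V := hp1.to_le h1
  have hVM : V ≤ M := Subgroup.le_normalizer
  have hCM : centralizer (V : Set G) ≤ M := by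
    intro x hx
    exact Cfsg.Agent.Lib.H2Basic.mem_normalizer_of_forall_comm fun a ha =>
      (Subgroup.mem_centralizer_iff.1 hx a ha).symm
  let S : Subgroup ↥M := (centralizer (V : Set G)).subgroupOf M
  have hS : centralizer (Cfsg.pCore p ↥S : Set ↥S) ≤ Cfsg.pCore p ↥S :=
    Cfsg.Agent.Lib.PCore.centralizer_pCore_le_of_equiv (Subgroup.subgroupOfEquivOfLe hCM).symm hc
  have hcont : centralizer (Cfsg.pCore p ↥M : Set ↥M) ≤ S := by
    intro y hy
    show (y : G) ∈ centralizer (V : Set G)
    refine Subgroup.mem_centralizer_iff.2 fun v hv => ?_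
    have hvM : v ∈ M := hVM hv
    have hV : V.subgroupOf M ≤ Cfsg.pCore p ↥M :=
      Cfsg.Agent.Lib.FitCore.le_pCore p _ Subgroup.normal_in_normalizer
        (hVp.comap_of_injective M.subtype M.subtype_injective)
    have h3 := Subgroup.mem_centralizer_iff.1 hy ⟨v, hvM⟩ (hV hv)
    exact congrArg Subtype.val h3
  have hM := Cfsg.Agent.Lib.CompsLocal.char_of_subgroup_contains S hcont hS
  let T : Subgroup ↥M := V₁.subgroupOf M
  have hT : IsPGroup p T := hp1.comap_of_injective M.subtype M.subtype_injective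
  have hN := Cfsg.Agent.Lib.CompsLocal.char_normalizer hM T hT
  set W := normalizer (T : Set ↥M) with hWdef
  let C' : Subgroup ↥W := (centralizer (T : Set ↥M)).subgroupOf W
  haveI hC'n : C'.Normal := by
    constructor
    intro x hx g
    rw [Subgroup.mem_subgroupOf] at hx ⊢
    refine Subgroup.mem_centralizer_iff.2 fun t ht => ?_
    have hg : (g : ↥M) ∈ normalizer (T : Set ↥M) := g.2
    have ht' : (g : ↥M)⁻¹ * t * (g : ↥M) ∈ T := by
      have := (Subgroup.mem_normalizer_iff.1 ((normalizer (T : Set ↥M)).inv_mem hg) t).1 ht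
      simpa using this
    have h4 := Subgroup.mem_centralizer_iff.1 hx _ ht'
    simp only [Subgroup.coe_mul, InvMemClass.coe_inv] at h4 ⊢
    calc t * ((g : ↥M) * (x : ↥M) * (g : ↥M)⁻¹)
        = (g : ↥M) * (((g : ↥M)⁻¹ * t * (g : ↥M)) * (x : ↥M)) * (g : ↥M)⁻¹ := by group
      _ = (g : ↥M) * ((x : ↥M) * ((g : ↥M)⁻¹ * t * (g : ↥M))) * (g : ↥M)⁻¹ := by rw [h4]
      _ = _ := by group
  have hC' := Cfsg.Agent.Lib.CharP.char_of_normal hN C'
  let f : ↥C' →* G := M.subtype.comp (W.subtype.comp C'.subtype)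
  have finj : Function.Injective f := by
    intro a b hab
    apply Subtype.ext
    apply Subtype.ext
    apply Subtype.ext
    exact hab
  have hrange : f.range = centralizer (V₁ : Set G) := by
    ext y
    constructor
    · rintro ⟨x, rfl⟩
      refine Subgroup.mem_centralizer_iff.2 fun v hv => ?_
      have h5 : ((x : ↥W) : ↥M) ∈ centralizer (T : Set ↥M) := x.2
      have h6 := Subgroup.mem_centralizer_iff.1 h5 ⟨v, h2 hv⟩ hv
      exact congrArg Subtype.val h6
    · intro hy
      have hyC : y ∈ centralizer (V : Set G) := Subgroup.centralizer_le h1 hy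
      have hyM : y ∈ M := hCM hyC
      have hyT : (⟨y, hyM⟩ : ↥M) ∈ centralizer (T : Set ↥M) := by
        refine Subgroup.mem_centralizer_iff.2 fun t ht => ?_
        apply Subtype.ext
        exact Subgroup.mem_centralizer_iff.1 hy (t : G) ht
      have hyW : (⟨y, hyM⟩ : ↥M) ∈ W :=
        Cfsg.Agent.Lib.H2Basic.mem_normalizer_of_forall_comm fun a ha =>
          (Subgroup.mem_centralizer_iff.1 hyT a ha).symm
      exact ⟨⟨⟨⟨y, hyM⟩, hyW⟩, hyT⟩, rfl⟩
  let e : ↥C' ≃* ↥(centralizer (V₁ : Set G)) :=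
    (MonoidHom.ofInjective finj).trans (MulEquiv.subgroupCongr hrange)
  exact Cfsg.Agent.Lib.PCore.centralizer_pCore_le_of_equiv e hC'



/-- Let V ≤ U be p-subgroups of the finite group G. If the generalized Fitting subgroup of C_G(V) is a p-group, then so is that of C_G(U). -/
theorem result {G : Type*} [Group G] [Finite G] {p : ℕ} [Fact p.Prime] (U V : Subgroup G) (hVU : V ≤ U) (hU : IsPGroup p U) (hV : IsPGroup p ↥(Cfsg.generalizedFittingSubgroup ↥(Subgroup.centralizer (V : Set G)))) : IsPGroup p ↥(Cfsg.generalizedFittingSubgroup ↥(Subgroup.centralizer (U : Set G))) := by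
  classical
  have hFn : (Cfsg.generalizedFittingSubgroup ↥(Subgroup.centralizer (V : Set G))).Normal := Cfsg.Agent.Lib.Layer.genFitting_normal _
  have h0 : Subgroup.centralizer (Cfsg.pCore p ↥(Subgroup.centralizer (V : Set G)) : Set ↥(Subgroup.centralizer (V : Set G))) ≤ Cfsg.pCore p ↥(Subgroup.centralizer (V : Set G)) := by
    have h1 := Cfsg.Agent.Lib.FitCore.le_pCore p _ hFn hV
    exact (Subgroup.centralizer_le h1).trans (Cfsg.Agent.Lib.Comps.bender.trans h1)
  have key : ∀ (k : ℕ) (W : Subgroup G), W ≤ U → Nat.card U - Nat.card W ≤ k →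
      Subgroup.centralizer (Cfsg.pCore p ↥(Subgroup.centralizer (W : Set G)) : Set ↥(Subgroup.centralizer (W : Set G))) ≤ Cfsg.pCore p ↥(Subgroup.centralizer (W : Set G)) →
      Subgroup.centralizer (Cfsg.pCore p ↥(Subgroup.centralizer (U : Set G)) : Set ↥(Subgroup.centralizer (U : Set G))) ≤ Cfsg.pCore p ↥(Subgroup.centralizer (U : Set G)) := by
    intro k
    induction k with
    | zero =>
      intro W hW hk hc
      have h1 : Nat.card U ≤ Nat.card W := by omega
      have h2 : W = U := Subgroup.eq_of_le_of_card_ge hW h1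
      rw [← h2]
      exact hc
    | succ k ih =>
      intro W hW hk hc
      rcases hW.lt_or_eq with hlt | heq
      · obtain ⟨x, hxU, hxW, hxN⟩ := Cfsg.Agent.Lib.SylowCount.exists_mem_normalizer_of_lt hU hlt
        have hle : W ≤ U ⊓ Subgroup.normalizer (W : Set G) := le_inf hW Subgroup.le_normalizer
        have hgt : W < U ⊓ Subgroup.normalizer (W : Set G) :=
          lt_of_le_of_ne hle (fun h => hxW (h ▸ (⟨hxU, hxN⟩ : x ∈ U ⊓ Subgroup.normalizer (W : Set G))))
        have hc1 : Nat.card W < Nat.card ↥(U ⊓ Subgroup.normalizer (W : Set G)) := Nat.lt_of_le_of_ne (Subgroup.card_le_of_le hle) (fun h => hgt.ne (Subgroup.eq_of_le_of_card_ge hle h.ge))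
        refine ih (U ⊓ Subgroup.normalizer (W : Set G)) inf_le_left (by omega) ?_
        exact chr_step W _ hle inf_le_right (hU.to_le inf_le_left) hc
      · rw [← heq]
        exact hc
  have h2 := key _ V hVU le_rfl h0
  have h3 := Cfsg.Agent.Lib.CompsLocal.genFitting_of_centralizer_pCore_le h2
  rw [h3]
  exact Cfsg.Agent.Lib.PCore.isPGroup_pCore p _

end Cfsg.Agent.S1246
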