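import Cfsg.Statements.S1253
import Cfsg.Agent.Lib.ZStarStrong
-- import your own Cfsg.Agent.* helpers here

set_option autoImplicit false
open Cfsg

namespace Cfsg.Agent.S1253

/-- Let z be an isolated involution of the finite group G with centralizer C, p an odd prime and P a Sylow p-subgroup of G normalized by z. Then P ∩ C has p-power-free index in C (it is a Sylow p-subgroup of C), and |P : C_P(z)| equals the number of elements x ∈ P with z x z⁻¹ = x⁻¹. -/
theorem result {G : Type*} [Group G] [Finite G] (z : G) (hz : Cfsg.IsIsolatedInvolution z) {p : ℕ} [Fact p.Prime] (hp : p ≠ 2) (P : Sylow p G) (hzP : z ∈ Subgroup.normalizer ((P : Subgroup G) : Set G)) : ¬ p ∣ ((P : Subgroup G) ⊓ Subgroup.centralizer ({z} : Set G)).relIndex (Subgroup.centralizer ({z} : Set G)) ∧ ((P : Subgroup G) ⊓ Subgroup.centralizer ({z} : Set G)).relIndex (P : Subgroup G) = Nat.card {x : G // x ∈ P ∧ z * x * z⁻¹ = x⁻¹} := by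
  classical
  have hiso := Cfsg.Agent.Lib.ZStar.iso_of_isolated hz
  have hzz := hiso.1
  have hzi : z⁻¹ = z := inv_eq_of_mul_eq_one_left hzz
  constructor
  · let C : Subgroup G := Subgroup.centralizer ({z} : Set G)
    let W : Subgroup C := ((P : Subgroup G) ⊓ C).subgroupOf C
    have hWp : IsPGroup p W := by
      have h1 : IsPGroup p (W.map C.subtype) := by
        refine P.isPGroup'.to_le ?_
        rintro _ ⟨x, hx, rfl⟩
        exact hx.1
      exact (h1.comap_of_injective C.subtype C.subtype_injective).to_le (fun x hx => ⟨x, hx, rfl⟩)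
    obtain ⟨U, hU⟩ := hWp.exists_le_sylow
    let U₀ : Subgroup G := (U : Subgroup C).map C.subtype
    have hU₀p : IsPGroup p U₀ := U.isPGroup'.map _
    have hU₀C : U₀ ≤ C := by
      rintro _ ⟨x, -, rfl⟩
      exact x.2
    have hzU₀ : z ∈ Subgroup.normalizer (U₀ : Set G) := by
      rw [Subgroup.mem_normalizer_iff]
      intro h
      have key : ∀ h ∈ U₀, z * h * z⁻¹ = h := by
        intro h hh
        have h2 : h * z = z * h := Subgroup.mem_centralizer_singleton_iff.1 (hU₀C hh)
        rw [← h2]; group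
      constructor
      · intro hh
        show z * h * z⁻¹ ∈ U₀
        rw [key h hh]
        exact hh
      · intro hh
        have h2 := key _ hh
        have h3 : z * (z * h * z⁻¹) * z⁻¹ = h := by
          calc z * (z * h * z⁻¹) * z⁻¹ = (z * z) * h * (z * z)⁻¹ := by group
            _ = h := by rw [hzz]; group
        rw [h3] at h2
        show h ∈ U₀
        rw [h2]
        exact hh
    let s : Set (Subgroup G) := {R | IsPGroup p R ∧ z ∈ Subgroup.normalizer (R : Set G)}
    obtain ⟨T₀, hT₀le, hT₀⟩ := s.toFinite.exists_le_maximal (show U₀ ∈ s from ⟨hU₀p, hzU₀⟩)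
    obtain ⟨T, hT⟩ := Cfsg.Agent.Lib.ZStarSyl.isSylow_of_max z hiso T₀ hT₀.prop.1 hT₀.prop.2
      (fun R h1 h2 h3 => le_antisymm (hT₀.le_of_ge ⟨h1, h2⟩ h3) h3)
    have hzT : z ∈ Subgroup.normalizer ((T : Subgroup G) : Set G) := by
      rw [hT]
      exact hT₀.prop.2
    obtain ⟨c, hcz, hc⟩ := Cfsg.Agent.Lib.ZStarStrong.exists_centralizing_conj z hiso P T hzP hzT
    have hcC : c ∈ C := Subgroup.mem_centralizer_singleton_iff.2 hcz
    have hcard : Nat.card (U : Subgroup C) ≤ Nat.card W := by
      let cC : C := ⟨c, hcC⟩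
      have hmem : ∀ u : ↥(U : Subgroup C), cC⁻¹ * (u : C) * cC ∈ W := by
        intro u
        refine ⟨?_, (C.mul_mem (C.mul_mem (C.inv_mem hcC) (u : C).2) hcC)⟩
        have h1 : ((u : C) : G) ∈ (T : Subgroup G) := by
          rw [hT]
          exact hT₀le ⟨u, u.2, rfl⟩
        rw [← hc] at h1
        exact (Cfsg.Agent.Lib.SylowCount.mem_smul_sylow c _ P).1 h1
      let f : ↥(U : Subgroup C) → W := fun u => ⟨cC⁻¹ * (u : C) * cC, hmem u⟩
      have hf : Function.Injective f := by
        intro a b hab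
        have h1 : cC⁻¹ * (a : C) * cC = cC⁻¹ * (b : C) * cC := congrArg Subtype.val hab
        apply Subtype.ext
        simpa [mul_assoc] using h1
      exact Nat.card_le_card_of_injective f hf
    have hWU : W = (U : Subgroup C) := Subgroup.eq_of_le_of_card_ge hU hcard
    show ¬ p ∣ W.index
    rw [hWU]
    exact U.not_dvd_index
  · refine Cfsg.Agent.Lib.ZStarStrong.card_inverted z hzz (P : Subgroup G) hzP (fun x hx => ?_)
    obtain ⟨k, hk⟩ := (IsPGroup.iff_orderOf.1 P.isPGroup') ⟨x, hx⟩
    have hk' : orderOf x = p ^ k := by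
      rw [← Subgroup.orderOf_mk x hx]; exact hk
    rw [hk']
    exact ((Fact.out : p.Prime).odd_of_ne_two hp).pow

end Cfsg.Agent.S1253
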