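import Cfsg.Statements.S1262
import Cfsg.Agent.Lib.Comps
-- import your own Cfsg.Agent.* helpers here

set_option autoImplicit false
set_option linter.all false
open Cfsg

namespace Cfsg.Agent.S1262

/-- Let L be a component of the finite group G and H a solvable subgroup normalized by L. Then ⁅L, H⁆ = 1. -/
theorem result {G : Type*} [Group G] [Finite G] (L H : Subgroup G) (hL : Cfsg.IsComponent L) (hsolv : Group.IsSolvable ↥H) (hinv : L ≤ Subgroup.normalizer (H : Set G)) : ⁅L, H⁆ = ⊥ := by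
  open Cfsg.Agent.Lib.Comps Subgroup in
  have hY : (L ⊔ H) ≤ normalizer (H : Set G) := sup_le hinv le_normalizer
  have hn : (H.subgroupOf (L ⊔ H)).Normal := (normal_subgroupOf_iff_le_normalizer le_sup_right).2 hY
  have hs : Group.IsSolvable (H.subgroupOf (L ⊔ H)) :=
    solvable_of_solvable_injective (f := (Subgroup.subgroupOfEquivOfLe (le_sup_right : H ≤ L ⊔ H)).toMonoidHom) (MulEquiv.injective _)
  have h1 := Cfsg.Agent.Lib.Comps.comp_comm_of_normal_solvable (Cfsg.Agent.Lib.Comps.isComponent_subgroupOf hL (le_sup_left : L ≤ L ⊔ H)) hn hs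
  rw [Subgroup.commutator_eq_bot_iff_le_centralizer]
  intro l hl
  rw [Subgroup.mem_centralizer_iff]
  intro h hh
  have h2 := (Subgroup.commutator_eq_bot_iff_le_centralizer.1 h1) (show (⟨l, (le_sup_left : L ≤ L ⊔ H) hl⟩ : ↥(L ⊔ H)) ∈ L.subgroupOf (L ⊔ H) from hl)
  have h3 := (Subgroup.mem_centralizer_iff.1 h2) ⟨h, (le_sup_right : H ≤ L ⊔ H) hh⟩ hh
  exact congrArg Subtype.val h3

end Cfsg.Agent.S1262
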