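import Cfsg.Statements.S1263
import Cfsg.Agent.Lib.Comps
import Cfsg.Agent.Lib.H2Basic
-- import your own Cfsg.Agent.* helpers here

set_option autoImplicit false
set_option linter.all false
open Cfsg

namespace Cfsg.Agent.S1263

theorem mem_iSup_of_commuting {G : Type*} [Group G] (𝒮 : Set (Subgroup G)) (hf : 𝒮.Finite)
    (hc : ∀ S ∈ 𝒮, ∀ T ∈ 𝒮, S ≠ T → ⁅S, T⁆ = ⊥) :
    ∀ x ∈ sSup 𝒮, (∀ S ∈ 𝒮, x ∈ Subgroup.centralizer (S : Set G)) →
      x ∈ ⨆ S : 𝒮, (S : Subgroup G) ⊓ Subgroup.centralizer ((S : Subgroup G) : Set G) := by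
  induction 𝒮, hf using Set.Finite.induction_on with
  | empty =>
    intro x hx _
    simp only [sSup_empty, Subgroup.mem_bot] at hx
    rw [hx]
    exact Subgroup.one_mem _
  | @insert L 𝒯 hL hfin ih =>
    intro x hx hcen
    have hct : ∀ S ∈ 𝒯, ∀ T ∈ 𝒯, S ≠ T → ⁅S, T⁆ = ⊥ := fun S hS T hT h =>
      hc S (Set.mem_insert_of_mem _ hS) T (Set.mem_insert_of_mem _ hT) h
    rw [sSup_insert] at hx
    set B := sSup 𝒯 with hB
    have hLB : B ≤ Subgroup.centralizer (L : Set G) := by
      refine sSup_le fun T hT => ?_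
      have hne : L ≠ T := fun h => hL (h ▸ hT)
      have := hc L (Set.mem_insert _ _) T (Set.mem_insert_of_mem _ hT) hne
      have h2 : ⁅T, L⁆ = ⊥ := by rw [Subgroup.commutator_comm]; exact this
      exact Subgroup.commutator_eq_bot_iff_le_centralizer.1 h2
    have hBn : B ≤ Subgroup.normalizer (L : Set G) := fun b hb =>
      Cfsg.Agent.Lib.H2Basic.mem_normalizer_of_forall_comm
        (fun a ha => ((Subgroup.mem_centralizer_iff.1 (hLB hb)) a ha).symm)
    rw [← SetLike.mem_coe, sup_comm, Subgroup.coe_mul_of_left_le_normalizer_right B L hBn] at hx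
    obtain ⟨b, hb, l, hl, rfl⟩ := Set.mem_mul.1 hx
    have hxL := hcen L (Set.mem_insert _ _)
    have hbL := hLB hb
    have hlL : l ∈ Subgroup.centralizer (L : Set G) := by
      have := Subgroup.mul_mem _ (Subgroup.inv_mem _ hbL) hxL
      simpa using this
    have hbT : ∀ T ∈ 𝒯, b ∈ Subgroup.centralizer (T : Set G) := by
      intro T hT
      have h1 := hcen T (Set.mem_insert_of_mem _ hT)
      have hne : L ≠ T := fun h => hL (h ▸ hT)
      have h2 := hc L (Set.mem_insert _ _) T (Set.mem_insert_of_mem _ hT) hne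
      have h3 : l ∈ Subgroup.centralizer (T : Set G) :=
        (Subgroup.commutator_eq_bot_iff_le_centralizer.1 h2) hl
      have := Subgroup.mul_mem _ h1 (Subgroup.inv_mem _ h3)
      simpa using this
    have hmem := ih hct b hb hbT
    refine Subgroup.mul_mem _ ?_ ?_
    · have hle : (⨆ S : 𝒯, (S : Subgroup G) ⊓ Subgroup.centralizer ((S : Subgroup G) : Set G)) ≤
          ⨆ S : ↥(insert L 𝒯), (S : Subgroup G) ⊓ Subgroup.centralizer ((S : Subgroup G) : Set G) := by
        refine iSup_le fun S => ?_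
        exact le_iSup_of_le (⟨S, Set.mem_insert_of_mem _ S.2⟩ : ↥(insert L 𝒯)) le_rfl
      exact hle hmem
    · have hle : L ⊓ Subgroup.centralizer (L : Set G) ≤
          ⨆ S : ↥(insert L 𝒯), (S : Subgroup G) ⊓ Subgroup.centralizer ((S : Subgroup G) : Set G) :=
        le_iSup_of_le (⟨L, Set.mem_insert _ _⟩ : ↥(insert L 𝒯)) le_rfl
      exact hle ⟨hl, hlL⟩



/-- For a finite group G, Z(E(G)) is the subgroup generated by the centres Z(L) of the components L of G (all viewed as subgroups of G). -/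
theorem result {G : Type*} [Group G] [Finite G] : (Subgroup.center ↥(Cfsg.layer G)).map (Cfsg.layer G).subtype = ⨆ L : {K : Subgroup G // Cfsg.IsComponent K}, (Subgroup.center ↥(L : Subgroup G)).map (L : Subgroup G).subtype := by
  classical
  set E := Cfsg.layer G with hE
  have hfin : {K : Subgroup G | Cfsg.IsComponent K}.Finite := Set.toFinite _
  have hcomm : ∀ S ∈ {K : Subgroup G | Cfsg.IsComponent K}, ∀ T ∈ {K : Subgroup G | Cfsg.IsComponent K},
      S ≠ T → ⁅S, T⁆ = ⊥ := by
    intro S hS T hT hne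
    rcases Cfsg.Agent.Lib.Comps.comp_comm_comp hS hT with h | h
    · exact absurd h hne
    · exact h
  apply le_antisymm
  · rintro _ ⟨x, hx, rfl⟩
    have hxE : (x : G) ∈ sSup {K : Subgroup G | Cfsg.IsComponent K} := x.2
    have hxc : ∀ S ∈ {K : Subgroup G | Cfsg.IsComponent K}, (x : G) ∈ Subgroup.centralizer (S : Set G) := by
      intro S hS
      rw [Subgroup.mem_centralizer_iff]
      intro s hs
      have hsE : s ∈ E := (le_sSup hS : S ≤ Cfsg.layer G) hs
      exact congrArg Subtype.val (Subgroup.mem_center_iff.1 hx ⟨s, hsE⟩)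
    have h1 := mem_iSup_of_commuting _ hfin hcomm _ hxE hxc
    have hle : (⨆ S : ↥{K : Subgroup G | Cfsg.IsComponent K}, (S : Subgroup G) ⊓ Subgroup.centralizer ((S : Subgroup G) : Set G)) ≤
        ⨆ L : {K : Subgroup G // Cfsg.IsComponent K}, (Subgroup.center ↥(L : Subgroup G)).map (L : Subgroup G).subtype := by
      refine iSup_le fun S => ?_
      refine le_iSup_of_le (⟨S, S.2⟩ : {K : Subgroup G // Cfsg.IsComponent K}) ?_
      rintro y ⟨hy1, hy2⟩
      refine ⟨⟨y, hy1⟩, Subgroup.mem_center_iff.2 ?_, rfl⟩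
      intro g
      apply Subtype.ext
      exact Subgroup.mem_centralizer_iff.1 hy2 g g.2
    exact hle h1
  · refine iSup_le fun L => ?_
    rintro _ ⟨x, hx, rfl⟩
    have hLE : (L : Subgroup G) ≤ E := le_sSup L.2
    refine ⟨⟨x, hLE x.2⟩, Subgroup.mem_center_iff.2 ?_, rfl⟩
    rintro ⟨g, hg⟩
    apply Subtype.ext
    show g * (x : G) = x * g
    -- g lies in the join of components, all of which commute with x
    have hgc : E ≤ Subgroup.centralizer ({(x : G)} : Set G) := by
      refine sSup_le fun S hS => ?_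
      by_cases hSL : S = L
      · subst hSL
        intro s hs
        rw [Subgroup.mem_centralizer_singleton_iff]
        exact congrArg Subtype.val (Subgroup.mem_center_iff.1 hx ⟨s, hs⟩)
      · have h2 := hcomm S hS L L.2 hSL
        intro s hs
        rw [Subgroup.mem_centralizer_singleton_iff]
        have h3 := (Subgroup.commutator_eq_bot_iff_le_centralizer.1 h2) hs
        exact (Subgroup.mem_centralizer_iff.1 h3 x x.2).symm
    exact Subgroup.mem_centralizer_singleton_iff.1 (hgc hg)

end Cfsg.Agent.S1263
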