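import Cfsg.Statements.S1264
import Cfsg.Agent.Lib.Comps
import Cfsg.Agent.Lib.SolvCore
import Cfsg.Agent.Lib.H2Basic
-- import your own Cfsg.Agent.* helpers here

set_option autoImplicit false
set_option linter.all false
open Cfsg

namespace Cfsg.Agent.S1264

/-- Let G be finite, C = C_G(F(G)) the centralizer of the Fitting subgroup, and N a solvable subgroup of C normalized by C. Then N ≤ Z(F(G)). -/
theorem result {G : Type*} [Group G] [Finite G] (N : Subgroup G) (hN : N ≤ Subgroup.centralizer (Cfsg.fittingSubgroup G : Set G)) (hnorm : Subgroup.centralizer (Cfsg.fittingSubgroup G : Set G) ≤ Subgroup.normalizer (N : Set G)) (hsolv : Group.IsSolvable ↥N) : N ≤ (Subgroup.center ↥(Cfsg.fittingSubgroup G)).map (Cfsg.fittingSubgroup G).subtype := by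
  classical
  set F := Cfsg.fittingSubgroup G with hF
  set C := Subgroup.centralizer (F : Set G) with hC
  haveI hFn : F.Normal := Cfsg.Agent.Lib.FitCore.fitting_normal
  haveI hCn : C.Normal := inferInstance
  set D : ℕ → Subgroup G := fun n => (derivedSeries N n).map N.subtype with hD
  have hD0 : D 0 = N := by
    simp only [hD, derivedSeries_zero]
    rw [← MonoidHom.range_eq_map, Subgroup.range_subtype]
  have hDs : ∀ n, D (n + 1) = ⁅D n, D n⁆ := by
    intro n
    simp only [hD, derivedSeries_succ, Subgroup.map_commutator]
  have hDle : ∀ n, D n ≤ N := fun n => Subgroup.map_subtype_le _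
  have hDC : ∀ n, D n ≤ C := fun n => (hDle n).trans hN
  have hnorm' : ∀ n, C ≤ Subgroup.normalizer (D n : Set G) := by
    intro n
    induction n with
    | zero => rw [hD0]; exact hnorm
    | succ n ih =>
      intro g hg
      have h1 := Cfsg.Agent.Lib.H2Basic.map_conj_eq_of_mem_normalizer (ih hg)
      apply Cfsg.Agent.Lib.H2Basic.mem_normalizer_of_map_conj_eq
      rw [hDs, Subgroup.map_commutator, h1]
  obtain ⟨n, hn⟩ := (isSolvable_def N).1 hsolv
  have hDn : D n = ⊥ := by
    simp only [hD, hn, Subgroup.map_bot]
  have key : ∀ k, k ≤ n → D (n - k) ≤ F := by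
    intro k
    induction k with
    | zero => intro _; simp only [Nat.sub_zero]; rw [hDn]; exact bot_le
    | succ k ih =>
      intro hk
      have h1 := ih (by omega)
      have hm : n - k = (n - (k + 1)) + 1 := by omega
      rw [hm, hDs] at h1
      set A := D (n - (k + 1)) with hA
      have hAC : A ≤ C := hDC _
      have hsub : A.IsSubnormal := by
        refine Subgroup.IsSubnormal.trans hAC ?_ hCn.isSubnormal
        apply Subgroup.Normal.isSubnormal
        rw [Subgroup.normal_subgroupOf_iff_le_normalizer hAC]
        exact hnorm' _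
      have hnil : Group.IsNilpotent A := by
        apply Cfsg.Agent.Lib.SolvCore.isNilpotent_of_commutator_central
        intro u hu v hv w hw
        have h2 : u * v * u⁻¹ * v⁻¹ ∈ F := by
          apply h1
          have := Subgroup.commutator_mem_commutator hu hv
          rwa [commutatorElement_def] at this
        have h3 := Subgroup.mem_centralizer_iff.1 (hAC hw) _ h2
        exact h3
      exact Cfsg.Agent.Lib.Comps.subnormal_nilpotent_le_fitting hsub hnil
  have hNF : N ≤ F := by
    have := key n le_rfl
    rwa [Nat.sub_self, hD0] at this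
  intro x hx
  refine ⟨⟨x, hNF hx⟩, Subgroup.mem_center_iff.2 ?_, rfl⟩
  intro g
  apply Subtype.ext
  exact Subgroup.mem_centralizer_iff.1 (hN hx) g g.2

end Cfsg.Agent.S1264
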