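import Cfsg.Statements.S1268
import Cfsg.Agent.Lib.CompsLocal
-- import your own Cfsg.Agent.* helpers here

set_option autoImplicit false
set_option linter.all false
open Cfsg

namespace Cfsg.Agent.S1268

/-- Let G be finite with F*(G) = O_p(G). Then F*(N) = O_p(N) for N the normalizer of any p-subgroup P of G. -/
theorem result {G : Type*} [Group G] [Finite G] (p : ℕ) [Fact p.Prime] (h : Cfsg.generalizedFittingSubgroup G = Cfsg.pCore p G) (P : Subgroup G) (hP : IsPGroup p ↥P) : Cfsg.generalizedFittingSubgroup ↥(Subgroup.normalizer ((P : Subgroup G) : Set G)) = Cfsg.pCore p ↥(Subgroup.normalizer ((P : Subgroup G) : Set G)) := by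
  exact Cfsg.Agent.Lib.CompsLocal.genFitting_of_centralizer_pCore_le
    (Cfsg.Agent.Lib.CompsLocal.char_normalizer
      (Cfsg.Agent.Lib.CompsLocal.centralizer_pCore_le_of_genFitting h) P hP)

end Cfsg.Agent.S1268
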