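import Cfsg.Statements.S1271
import Cfsg.Agent.Lib.BalanceL3
-- import your own Cfsg.Agent.* helpers here

set_option autoImplicit false
set_option linter.all false
open Cfsg

namespace Cfsg.Agent.S1271

/-- Let G be finite with O_{p'}(G) = 1. Suppose that for every component L of G and every subgroup H ≥ L in which L is normal, the quotient H / C_H(L) is balanced for the prime p. Then G is balanced for p. -/
theorem result {G : Type*} [Group G] [Finite G] (p : ℕ) [Fact p.Prime] (hO : Cfsg.pPrimeCore p G = ⊥) (h : ∀ L : Subgroup G, Cfsg.IsComponent L → ∀ H : Subgroup G, L ≤ H → (L.subgroupOf H).Normal → ∀ [((Subgroup.centralizer (L : Set G)).subgroupOf H).Normal], Cfsg.IsBalancedFor p (↥H ⧸ (Subgroup.centralizer (L : Set G)).subgroupOf H)) : Cfsg.IsBalancedFor p G := by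
  classical
  intro x hxo
  have hpp : p.Prime := Fact.out
  have hall : ∀ L : Subgroup G, Cfsg.IsComponent L → ∀ a ∈ L, ∀ w ∈ Cfsg.centralizerPPrimeCore p x, a * w = w * a := by
    intro L hL
    have hcomm : ⁅L, Cfsg.centralizerPPrimeCore p x⁆ = ⊥ := by
      by_cases hN : x ∈ Subgroup.normalizer (L : Set G)
      · by_cases hnC : x ∈ Subgroup.centralizer (L : Set G)
        · apply Cfsg.Agent.Lib.BalanceL.core_comm_of_ne hO hL hxo
          have h1 : ⁅L, Subgroup.zpowers x⁆ = ⊥ := by
            rw [Subgroup.commutator_comm, Subgroup.commutator_eq_bot_iff_le_centralizer, Subgroup.zpowers_le]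
            exact hnC
          rw [h1]
          exact (Cfsg.Agent.Lib.Comps.comp_ne_bot hL).symm
        · apply Cfsg.Agent.Lib.BalanceL3.core_comm_of_balanced hO hL hxo hN hnC
          intro H hLH hHN _
          have hLn : (L.subgroupOf H).Normal := by
            rw [Subgroup.normal_subgroupOf_iff_le_normalizer hLH]
            exact hHN
          exact h L hL H hLH hLn
      · exact Cfsg.Agent.Lib.BalanceL.core_comm_of_not_norm hO hL hxo hN
    intro a ha w hw
    exact (Subgroup.commutator_eq_bot_iff_le_centralizer.1 (by rw [Subgroup.commutator_comm]; exact hcomm) hw |> fun h => Subgroup.mem_centralizer_iff.1 h a ha)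
  have := Cfsg.Agent.Lib.BalanceL2.eq_bot_of_comm_layer hO hxo le_rfl hall
  rw [this]
  exact bot_le

end Cfsg.Agent.S1271
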