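import Cfsg.Statements.S1278
import Cfsg.Agent.Lib.PComps2
-- import your own Cfsg.Agent.* helpers here

set_option autoImplicit false
set_option linter.all false
open Cfsg

namespace Cfsg.Agent.S1278

/-- Let K ≠ L be 2-components of the finite group X. Then ⁅K, L⁆ ≤ O(K) ⊓ O(L), and if K is quasisimple then ⁅K, L⁆ = 1. -/
theorem result {X : Type*} [Group X] [Finite X] (K L : Subgroup X) (hK : Cfsg.IsPComponent 2 K) (hL : Cfsg.IsPComponent 2 L) (hne : K ≠ L) : ⁅K, L⁆ ≤ ((Cfsg.oddCore ↥K).map K.subtype) ⊓ ((Cfsg.oddCore ↥L).map L.subtype) ∧ (Cfsg.IsQuasisimple ↥K → ⁅K, L⁆ = ⊥) := by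
  refine ⟨le_inf (Cfsg.Agent.Lib.PComps2.pcomp_comm_le hK hL hne) ?_, Cfsg.Agent.Lib.PComps2.pcomp_comm_eq_bot hK hL hne⟩
  rw [Subgroup.commutator_comm]
  exact Cfsg.Agent.Lib.PComps2.pcomp_comm_le hL hK hne.symm

end Cfsg.Agent.S1278
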