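import Cfsg.Statements.S1282
import Cfsg.Agent.Lib.CoprimeGen
import Cfsg.Agent.Lib.SylowCount
-- import your own Cfsg.Agent.* helpers here

set_option autoImplicit false
set_option linter.all false
open Cfsg

namespace Cfsg.Agent.S1282

/-- Let A be an elementary abelian p-subgroup of rank at least 3 of the finite group G, q ≠ p a prime, and Q₁, Q₂ q-subgroups normalized by A with D = Q₁ ∩ Q₂ different from both. Then there is a non-identity a ∈ A such that, for i = 1 and i = 2, N_{Q_i}(D) ∩ C_G(a) is not contained in D. -/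
theorem result {G : Type*} [Group G] [Finite G] (p : ℕ) [Fact p.Prime] (A : Subgroup G) (hA : Cfsg.IsElementaryAbelian p A) (hA3 : p ^ 3 ≤ Nat.card ↥A) (q : ℕ) [Fact q.Prime] (hqp : q ≠ p) (Q₁ Q₂ : Subgroup G) (h₁ : IsPGroup q ↥Q₁) (h₂ : IsPGroup q ↥Q₂) (hA₁ : A ≤ Subgroup.normalizer (Q₁ : Set G)) (hA₂ : A ≤ Subgroup.normalizer (Q₂ : Set G)) (hD₁ : Q₁ ⊓ Q₂ ≠ Q₁) (hD₂ : Q₁ ⊓ Q₂ ≠ Q₂) : ∃ a ∈ A, a ≠ 1 ∧ ¬ (Subgroup.normalizer ((Q₁ ⊓ Q₂ : Subgroup G) : Set G) ⊓ Q₁ ⊓ Subgroup.centralizer {a} ≤ Q₁ ⊓ Q₂) ∧ ¬ (Subgroup.normalizer ((Q₁ ⊓ Q₂ : Subgroup G) : Set G) ⊓ Q₂ ⊓ Subgroup.centralizer {a} ≤ Q₁ ⊓ Q₂) := by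
  classical
  have hp : p.Prime := Fact.out
  have hq' : q.Prime := Fact.out
  have hcomm : ∀ a ∈ A, ∀ b ∈ A, a * b = b * a := fun a ha b hb => by
    haveI := hA.1
    exact congrArg Subtype.val (mul_comm' (⟨a, ha⟩ : A) ⟨b, hb⟩)
  set D := Q₁ ⊓ Q₂ with hD
  have hcard2 : p ^ 2 ≤ Nat.card A := le_trans (Nat.pow_le_pow_right hp.pos (by norm_num)) hA3
  have hAD : A ≤ Subgroup.normalizer (D : Set G) := fun a ha =>
    Subgroup.inf_normalizer_le_normalizer_inf ⟨hA₁ ha, hA₂ ha⟩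
  -- the step for one factor
  have key : ∀ R : Subgroup G, IsPGroup q R → A ≤ Subgroup.normalizer (R : Set G) → D ≤ R → D ≠ R →
      ∃ B : Subgroup G, B ≤ A ∧ B.relIndex A = p ∧ ∃ x ∈ Subgroup.normalizer (D : Set G) ⊓ R, x ∉ D ∧
        x ∈ Subgroup.centralizer (B : Set G) := by
    intro R hR hAR hDR hne
    set K := Subgroup.normalizer (D : Set G) ⊓ R with hK
    have hKq : IsPGroup q K := hR.to_le inf_le_right
    have hKs : Group.IsSolvable K := by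
      haveI := hKq.isNilpotent
      infer_instance
    have hKp : ¬ p ∣ Nat.card K := by
      intro h
      obtain ⟨n, hn⟩ := IsPGroup.iff_card.1 hKq
      rw [hn] at h
      have := (Nat.prime_dvd_prime_iff_eq hp hq').1 (hp.dvd_of_dvd_pow h)
      exact hqp this.symm
    have hAK : ∀ a ∈ A, ∀ x ∈ K, a * x * a⁻¹ ∈ K := by
      intro a ha x hx
      refine ⟨?_, (Subgroup.mem_normalizer_iff.1 (hAR ha) x).1 hx.2⟩
      exact Subgroup.mul_mem _ (Subgroup.mul_mem _ (hAD ha) hx.1) (Subgroup.inv_mem _ (hAD ha))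
    have hAN : ∀ a ∈ A, ∀ x ∈ D, a * x * a⁻¹ ∈ D := fun a ha x hx =>
      (Subgroup.mem_normalizer_iff.1 (hAD ha) x).1 hx
    have hDK : D ≤ K := le_inf Subgroup.le_normalizer hDR
    obtain ⟨x, hxR, hxD, hxN⟩ := Cfsg.Agent.Lib.SylowCount.exists_mem_normalizer_of_lt hR (lt_of_le_of_ne hDR hne)
    have hneK : D ≠ K := fun h => hxD (h ▸ (⟨hxN, hxR⟩ : x ∈ K))
    exact Cfsg.Agent.Lib.CoprimeGen.exists_hyperplane_fixed A K D hcomm hA.2 hcard2 hAK hAN hKp hKs hDK inf_le_left hneK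
  obtain ⟨B₁, hB₁, hB₁i, x₁, hx₁K, hx₁D, hx₁C⟩ := key Q₁ h₁ hA₁ inf_le_left hD₁
  obtain ⟨B₂, hB₂, hB₂i, x₂, hx₂K, hx₂D, hx₂C⟩ := key Q₂ h₂ hA₂ inf_le_right hD₂
  obtain ⟨a, ⟨ha₁, ha₂⟩, ha1⟩ := Cfsg.Agent.Lib.CoprimeGen.exists_mem_inf_of_hyperplanes hB₁ hB₂ hB₁i hB₂i hA3
  refine ⟨a, hB₁ ha₁, ha1, ?_, ?_⟩
  · intro hle
    apply hx₁D
    apply hle
    exact ⟨hx₁K, Subgroup.mem_centralizer_singleton_iff.2 (Subgroup.mem_centralizer_iff.1 hx₁C a ha₁).symm⟩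
  · intro hle
    apply hx₂D
    apply hle
    exact ⟨hx₂K, Subgroup.mem_centralizer_singleton_iff.2 (Subgroup.mem_centralizer_iff.1 hx₂C a ha₂).symm⟩

end Cfsg.Agent.S1282
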