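import Cfsg.Statements.S1286
-- import your own Cfsg.Agent.* helpers here

set_option autoImplicit false
set_option linter.all false
open Cfsg

namespace Cfsg.Agent.S1286

open Equiv in
/-- the group -/
abbrev X5 : Type := Equiv.Perm (Fin 5)

def a5 : X5 := Equiv.swap 0 1
def b5 : X5 := Equiv.swap 2 3
def x5 : X5 := Equiv.swap 2 3 * Equiv.swap 3 4
def y5 : X5 := Equiv.swap 0 1 * Equiv.swap 1 4

def A5 : Subgroup X5 where
  carrier := {g | g = 1 ∨ g = a5 ∨ g = b5 ∨ g = a5 * b5}
  one_mem' := Or.inl rfl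
  mul_mem' := by
    have h : ∀ g ∈ ({1, a5, b5, a5 * b5} : Finset X5), ∀ h ∈ ({1, a5, b5, a5 * b5} : Finset X5),
        g * h ∈ ({1, a5, b5, a5 * b5} : Finset X5) := by decide +kernel
    intro g k hg hk
    have h1 : g ∈ ({1, a5, b5, a5 * b5} : Finset X5) := by
      simp only [Finset.mem_insert, Finset.mem_singleton]; exact hg
    have h2 : k ∈ ({1, a5, b5, a5 * b5} : Finset X5) := by
      simp only [Finset.mem_insert, Finset.mem_singleton]; exact hk
    have h3 := h g h1 k h2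
    simp only [Finset.mem_insert, Finset.mem_singleton] at h3
    exact h3
  inv_mem' := by
    have h : ∀ g ∈ ({1, a5, b5, a5 * b5} : Finset X5), g⁻¹ ∈ ({1, a5, b5, a5 * b5} : Finset X5) := by
      decide +kernel
    intro g hg
    have h1 : g ∈ ({1, a5, b5, a5 * b5} : Finset X5) := by
      simp only [Finset.mem_insert, Finset.mem_singleton]; exact hg
    have h3 := h g h1
    simp only [Finset.mem_insert, Finset.mem_singleton] at h3
    exact h3

open Classical in
noncomputable def θ5 (g : X5) : Subgroup X5 :=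
  if g = a5 then Subgroup.zpowers x5 else if g = b5 then Subgroup.zpowers y5 else ⊥

theorem θ5_a : θ5 a5 = Subgroup.zpowers x5 := by simp [θ5]
theorem θ5_b : θ5 b5 = Subgroup.zpowers y5 := by
  have h : b5 ≠ a5 := by decide +kernel
  simp [θ5, h]
theorem θ5_c : θ5 (a5 * b5) = ⊥ := by
  have h : a5 * b5 ≠ a5 := by decide +kernel
  have h' : a5 * b5 ≠ b5 := by decide +kernel
  simp [θ5, h, h']

theorem mem_three {x0 : X5} (h3 : x0 ^ 3 = 1) {z : X5} (hz : z ∈ Subgroup.zpowers x0) :
    z = 1 ∨ z = x0 ∨ z = x0⁻¹ := by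
  obtain ⟨n, rfl⟩ := hz
  show x0 ^ n = 1 ∨ x0 ^ n = x0 ∨ x0 ^ n = x0⁻¹
  have h2 : x0 ^ n = x0 ^ (n % 3) := by
    conv_lhs => rw [← Int.mul_ediv_add_emod n 3, zpow_add, zpow_mul]
    have h4 : x0 ^ (3 : ℤ) = 1 := by exact_mod_cast h3
    rw [h4, one_zpow, one_mul]
  have h5 : n % 3 = 0 ∨ n % 3 = 1 ∨ n % 3 = 2 := by omega
  rcases h5 with h5 | h5 | h5
  · left; rw [h2, h5, zpow_zero]
  · right; left; rw [h2, h5, zpow_one]
  · right; right
    rw [h2, h5, eq_inv_iff_mul_eq_one, ← zpow_add_one]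
    exact_mod_cast h3

theorem conj_stable {x0 b : X5} (h : b * x0 * b⁻¹ = x0 ∨ b * x0 * b⁻¹ = x0⁻¹) {z : X5}
    (hz : z ∈ Subgroup.zpowers x0) : b * z * b⁻¹ ∈ Subgroup.zpowers x0 := by
  have hle : Subgroup.zpowers x0 ≤ (Subgroup.zpowers x0).comap (MulAut.conj b).toMonoidHom := by
    rw [Subgroup.zpowers_le]
    show b * x0 * b⁻¹ ∈ Subgroup.zpowers x0
    rcases h with h | h <;> rw [h]
    · exact Subgroup.mem_zpowers x0
    · exact Subgroup.inv_mem _ (Subgroup.mem_zpowers x0)
  exact hle hz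



/-- There exist a finite group X, an elementary abelian subgroup A of order 4 and a solvable A-signalizer functor θ on X for the prime 2 which is not complete. -/
theorem result : ∃ (X : Type) (_ : Group X) (_ : Finite X) (A : Subgroup X) (θ : X → Subgroup X), Cfsg.IsElementaryAbelian 2 A ∧ Nat.card ↥A = 4 ∧ Cfsg.IsSolvableSignalizerFunctor 2 A θ ∧ ¬ Cfsg.IsCompleteSignalizerFunctor 2 A θ := by
  have hx3 : x5 ^ 3 = 1 := by decide +kernel
  have hy3 : y5 ^ 3 = 1 := by decide +kernel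
  have hx1 : x5 ≠ 1 := by decide +kernel
  have hy1 : y5 ≠ 1 := by decide +kernel
  haveI : Fact (Nat.Prime 3) := ⟨Nat.prime_three⟩
  have hxo : orderOf x5 = 3 := orderOf_eq_prime hx3 hx1
  have hyo : orderOf y5 = 3 := orderOf_eq_prime hy3 hy1
  have hmem : ∀ g, g ∈ A5 ↔ g = 1 ∨ g = a5 ∨ g = b5 ∨ g = a5 * b5 := fun g => Iff.rfl
  have hsig : Cfsg.IsSolvableSignalizerFunctor 2 A5 θ5 := by
    refine ⟨⟨?_, ?_, ?_, ?_⟩, ?_⟩
    · rintro g hg hg1
      rcases (hmem g).1 hg with rfl | rfl | rfl | rfl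
      · exact absurd rfl hg1
      · rw [θ5_a, Subgroup.zpowers_le, Subgroup.mem_centralizer_singleton_iff]; decide +kernel
      · rw [θ5_b, Subgroup.zpowers_le, Subgroup.mem_centralizer_singleton_iff]; decide +kernel
      · rw [θ5_c]; exact bot_le
    · rintro g hg hg1
      rcases (hmem g).1 hg with rfl | rfl | rfl | rfl
      · exact absurd rfl hg1
      · rw [θ5_a, Nat.card_zpowers, hxo]; decide +kernel
      · rw [θ5_b, Nat.card_zpowers, hyo]; decide +kernel
      · rw [θ5_c, Subgroup.card_bot]; decide +kernel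
    · rintro g hg hg1 b hb z hz
      have hdec1 : ∀ b ∈ ({1, a5, b5, a5 * b5} : Finset X5), b * x5 * b⁻¹ = x5 ∨ b * x5 * b⁻¹ = x5⁻¹ := by decide +kernel
      have hdec2 : ∀ b ∈ ({1, a5, b5, a5 * b5} : Finset X5), b * y5 * b⁻¹ = y5 ∨ b * y5 * b⁻¹ = y5⁻¹ := by decide +kernel
      have hb' : b ∈ ({1, a5, b5, a5 * b5} : Finset X5) := by simpa using (hmem b).1 hb
      rcases (hmem g).1 hg with rfl | rfl | rfl | rfl
      · exact absurd rfl hg1
      · rw [θ5_a] at hz ⊢; exact conj_stable (hdec1 b hb') hz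
      · rw [θ5_b] at hz ⊢; exact conj_stable (hdec2 b hb') hz
      · rw [θ5_c] at hz ⊢
        rw [Subgroup.mem_bot] at hz ⊢
        rw [hz]; simp
    · rintro g hg hg1 b hb hb1 z ⟨hz1, hz2⟩
      have hz2' : z * b = b * z := Subgroup.mem_centralizer_singleton_iff.1 hz2
      have key : ∀ x0 : X5, x0 ^ 3 = 1 → x0 * b ≠ b * x0 → x0⁻¹ * b ≠ b * x0⁻¹ → z ∈ Subgroup.zpowers x0 → z = 1 := by
        intro x0 h3 h4 h5 hz
        rcases mem_three h3 hz with h | h | h
        · exact h
        · exact absurd (h ▸ hz2') h4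
        · exact absurd (h ▸ hz2') h5
      rcases (hmem g).1 hg with rfl | rfl | rfl | rfl
      · exact absurd rfl hg1
      · rcases (hmem b).1 hb with rfl | rfl | rfl | rfl
        · exact absurd rfl hb1
        · exact hz1
        · rw [θ5_a] at hz1
          rw [key x5 hx3 (by decide +kernel) (by decide +kernel) hz1]; exact Subgroup.one_mem _
        · rw [θ5_a] at hz1
          rw [key x5 hx3 (by decide +kernel) (by decide +kernel) hz1]; exact Subgroup.one_mem _
      · rcases (hmem b).1 hb with rfl | rfl | rfl | rfl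
        · exact absurd rfl hb1
        · rw [θ5_b] at hz1
          rw [key y5 hy3 (by decide +kernel) (by decide +kernel) hz1]; exact Subgroup.one_mem _
        · exact hz1
        · rw [θ5_b] at hz1
          rw [key y5 hy3 (by decide +kernel) (by decide +kernel) hz1]; exact Subgroup.one_mem _
      · have hz1' : z ∈ (⊥ : Subgroup X5) := by rw [← θ5_c]; exact hz1
        rw [Subgroup.mem_bot] at hz1'
        rw [hz1']; exact Subgroup.one_mem _
    · rintro g hg hg1
      have hsz : ∀ x0 : X5, Group.IsSolvable (Subgroup.zpowers x0) := by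
        intro x0
        apply isSolvable_of_comm
        rintro ⟨_, n, rfl⟩ ⟨_, m, rfl⟩
        apply Subtype.ext
        show x0 ^ n * x0 ^ m = x0 ^ m * x0 ^ n
        rw [← zpow_add, ← zpow_add, add_comm]
      rcases (hmem g).1 hg with rfl | rfl | rfl | rfl
      · exact absurd rfl hg1
      · rw [θ5_a]; exact hsz _
      · rw [θ5_b]; exact hsz _
      · rw [θ5_c]; infer_instance
  refine ⟨X5, inferInstance, inferInstance, A5, θ5, ?_, ?_, hsig, ?_⟩
  · refine ⟨⟨⟨?_⟩⟩, ?_⟩
    · rintro ⟨g, hg⟩ ⟨k, hk⟩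
      apply Subtype.ext
      show g * k = k * g
      have hdec : ∀ g ∈ ({1, a5, b5, a5 * b5} : Finset X5), ∀ h ∈ ({1, a5, b5, a5 * b5} : Finset X5), g * h = h * g := by decide +kernel
      exact hdec g (by simpa using (hmem g).1 hg) k (by simpa using (hmem k).1 hk)
    · intro g hg
      have hdec : ∀ g ∈ ({1, a5, b5, a5 * b5} : Finset X5), g ^ 2 = 1 := by decide +kernel
      exact hdec g (by simpa using (hmem g).1 hg)
  · have h1 : (A5 : Set X5) = ((({1, a5, b5, a5 * b5} : Finset X5)) : Set X5) := by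
      ext g
      simp [hmem]
    have h2 : Nat.card A5 = Nat.card ((A5 : Set X5)) := rfl
    rw [h2, h1, Nat.card_coe_set_eq, Set.ncard_coe_finset]
    decide
  · rintro ⟨-, Y, -, hodd, heq⟩
    have hxY : x5 ∈ Y := by
      have h1 := heq a5 ((hmem _).2 (Or.inr (Or.inl rfl))) (by decide +kernel)
      rw [θ5_a] at h1
      have h2 : x5 ∈ Y ⊓ Subgroup.centralizer {a5} := by
        rw [h1]; exact Subgroup.mem_zpowers x5
      exact h2.1
    have hyY : y5 ∈ Y := by
      have h1 := heq b5 ((hmem _).2 (Or.inr (Or.inr (Or.inl rfl)))) (by decide +kernel)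
      rw [θ5_b] at h1
      have h2 : y5 ∈ Y ⊓ Subgroup.centralizer {b5} := by
        rw [h1]; exact Subgroup.mem_zpowers y5
      exact h2.1
    have hw : x5 * x5 * y5 * x5 * y5 ∈ Y :=
      Y.mul_mem (Y.mul_mem (Y.mul_mem (Y.mul_mem hxY hxY) hyY) hxY) hyY
    have hw2 : (x5 * x5 * y5 * x5 * y5) ^ 2 = 1 := by decide +kernel
    have hw1 : x5 * x5 * y5 * x5 * y5 ≠ 1 := by decide +kernel
    haveI : Fact (Nat.Prime 2) := ⟨Nat.prime_two⟩
    have ho : orderOf (x5 * x5 * y5 * x5 * y5) = 2 := orderOf_eq_prime hw2 hw1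
    apply hodd
    have h1 : orderOf (⟨_, hw⟩ : Y) ∣ Nat.card Y := orderOf_dvd_natCard _
    rwa [Subgroup.orderOf_mk, ho] at h1

end Cfsg.Agent.S1286
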