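import Cfsg.Statements.S1288
import Cfsg.Agent.Lib.CoprimeGen
import Cfsg.Agent.Lib.H2Basic
import Cfsg.Agent.Lib.PComps
import Cfsg.Agent.Lib.PCore
import Cfsg.Agent.Lib.FitCore
import Cfsg.Agent.Lib.SolvCore
import Cfsg.Agent.Lib.CoprimeAct
-- import your own Cfsg.Agent.* helpers here

set_option autoImplicit false
set_option linter.all false
open Cfsg

namespace Cfsg.Agent.S1288

open scoped commutatorElement

open Subgroup Cfsg in
theorem pPrimePCore_apply_equiv {K K' : Type*} [Group K] [Group K'] (q : ℕ) (e : K ≃* K') {x : K}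
    (hx : x ∈ pPrimePCore q K) : e x ∈ pPrimePCore q K' := by
  haveI h1 : (pPrimeCore q K).Normal := Cfsg.Agent.Lib.FitCore.pPrimeCore_normal q
  haveI h2 : (pPrimeCore q K').Normal := Cfsg.Agent.Lib.FitCore.pPrimeCore_normal q
  have hmap : (pPrimeCore q K).map e.toMonoidHom = pPrimeCore q K' := Cfsg.Agent.Lib.PComps.pPrimeCore_map_equiv e
  let e' : K ⧸ pPrimeCore q K ≃* K' ⧸ pPrimeCore q K' := QuotientGroup.congr _ _ e hmap
  have h3 : (pCore q (K ⧸ pPrimeCore q K)).map e'.toMonoidHom = pCore q (K' ⧸ pPrimeCore q K') :=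
    Cfsg.Agent.Lib.PCore.pCore_map_equiv e'
  show QuotientGroup.mk' (pPrimeCore q K') (e x) ∈ pCore q (K' ⧸ pPrimeCore q K')
  rw [← h3]
  exact ⟨QuotientGroup.mk' (pPrimeCore q K) x, hx, rfl⟩



/-- Let A be a noncyclic elementary abelian p-subgroup of a finite group H normalizing a solvable subgroup K of order prime to p, q a prime dividing |K|, and U ≤ K a subgroup of order prime to q such that ⁅U, C_K(B)⁆ has order prime to q for every subgroup B of index p in A. Then U ≤ O_{q'}(K). -/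
theorem result {H : Type*} [Group H] [Finite H] (p : ℕ) [Fact p.Prime] (A K : Subgroup H) (hA : Cfsg.IsElementaryAbelian p A) (hA2 : p ^ 2 ≤ Nat.card ↥A) (hK : ¬ p ∣ Nat.card ↥K) (hKs : Group.IsSolvable ↥K) (hAK : A ≤ Subgroup.normalizer (K : Set H)) (q : ℕ) [Fact q.Prime] (hqK : q ∣ Nat.card ↥K) (U : Subgroup H) (hU : U ≤ K) (hUq : ¬ q ∣ Nat.card ↥U) (hcomm : ∀ B : Subgroup H, B ≤ A → B.relIndex A = p → ¬ q ∣ Nat.card ↥⁅U, K ⊓ Subgroup.centralizer (B : Set H)⁆) : U ≤ (Cfsg.pPrimeCore q ↥K).map K.subtype := by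
  classical
  have hpp : p.Prime := Fact.out
  have hqq : q.Prime := Fact.out
  have hAc : ∀ a ∈ A, ∀ b ∈ A, a * b = b * a := fun a ha b hb => by
    haveI := hA.1
    exact congrArg Subtype.val (mul_comm' (⟨a, ha⟩ : A) ⟨b, hb⟩)
  set O := Cfsg.pPrimeCore q ↥K with hO
  haveI hOn : O.Normal := Cfsg.Agent.Lib.FitCore.pPrimeCore_normal q
  let π := QuotientGroup.mk' O
  have hπs : Function.Surjective π := QuotientGroup.mk'_surjective O
  set P := Cfsg.pCore q (↥K ⧸ O) with hP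
  haveI hPn : P.Normal := Cfsg.Agent.Lib.FitCore.pCore_normal q
  have hPp : IsPGroup q P := Cfsg.Agent.Lib.FitCore.pCore_isPGroup q
  set R := (Cfsg.pPrimePCore q ↥K).map K.subtype with hR
  have hRK : R ≤ K := by
    rintro _ ⟨x, -, rfl⟩
    exact x.2
  have hRA : ∀ a ∈ A, ∀ x ∈ R, a * x * a⁻¹ ∈ R := by
    rintro a ha _ ⟨x, hx, rfl⟩
    let e : ↥K ≃* ↥K := (K.equivMapOfInjective _ (MulAut.conj a).injective).trans
      (MulEquiv.subgroupCongr (Cfsg.Agent.Lib.H2Basic.map_conj_eq_of_mem_normalizer (hAK ha)))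
    exact ⟨e x, pPrimePCore_apply_equiv q e hx, rfl⟩
  have hRp : ¬ p ∣ Nat.card R := fun h => hK (dvd_trans h (Subgroup.card_dvd_of_le hRK))
  have hgen := Cfsg.Agent.Lib.CoprimeGen.gen_all A R hAc hA.2 hA2 hRA hRp
  -- the key commutation
  have hmain : ∀ u : ↥K, (u : H) ∈ U → ∀ z ∈ P, π u * z = z * π u := by
    intro u hu z hz
    obtain ⟨x', rfl⟩ := hπs z
    have hx'R : (x' : H) ∈ R := ⟨x', hz, rfl⟩
    let C' : Subgroup H := ((Subgroup.centralizer ({π u} : Set (↥K ⧸ O))).comap π).map K.subtype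
    have hle : (⨆ B : {B : Subgroup H // B ≤ A ∧ B.relIndex A = p}, R ⊓ Subgroup.centralizer ((B : Subgroup H) : Set H)) ≤ C' := by
      apply iSup_le
      rintro ⟨B, hBA, hBi⟩ x ⟨⟨x₀, hx₀, rfl⟩, hxC⟩
      refine ⟨x₀, ?_, rfl⟩
      have hx₀P : π x₀ ∈ P := hx₀
      have hv : ((⁅u, x₀⁆ : ↥K) : H) ∈ ⁅U, K ⊓ Subgroup.centralizer ((B : Subgroup H) : Set H)⁆ := by
        have := Subgroup.commutator_mem_commutator hu (show (x₀ : H) ∈ K ⊓ Subgroup.centralizer ((B : Subgroup H) : Set H) from ⟨x₀.2, hxC⟩)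
        exact this
      have h1 : π ⁅u, x₀⁆ ∈ P := by
        rw [commutatorElement_def, map_mul, map_mul, map_mul, map_inv, map_inv]
        have h2 : π u * π x₀ * (π u)⁻¹ ∈ P := hPn.conj_mem _ hx₀P _
        exact P.mul_mem h2 (P.inv_mem hx₀P)
      have h3 : π ⁅u, x₀⁆ = 1 := by
        apply Cfsg.Agent.Lib.CoprimeAct.eq_one_of_mem_pgroup_of_coprime hPp h1
        apply Nat.Coprime.symm
        rw [Nat.Prime.coprime_iff_not_dvd hqq]
        intro hd
        apply hcomm B hBA hBi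
        refine dvd_trans hd (dvd_trans (orderOf_map_dvd π _) ?_)
        rw [← Subgroup.orderOf_coe]
        exact Subgroup.orderOf_dvd_natCard _ hv
      rw [commutatorElement_def, map_mul, map_mul, map_mul, map_inv, map_inv] at h3
      show π x₀ ∈ Subgroup.centralizer ({π u} : Set (↥K ⧸ O))
      apply Subgroup.mem_centralizer_singleton_iff.2
      have h4 : π u * π x₀ * (π u)⁻¹ = π x₀ := by
        rwa [mul_inv_eq_one] at h3
      rw [mul_inv_eq_iff_eq_mul] at h4
      exact h4.symm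
    obtain ⟨x'', hx'', hxe⟩ := hle (hgen hx'R)
    have hxe' : x'' = x' := Subtype.ext hxe
    rw [hxe'] at hx''
    have h5 : π x' * π u = π u * π x' := Subgroup.mem_centralizer_singleton_iff.1 hx''
    exact h5.symm
  intro u hu
  let u' : ↥K := ⟨u, hU hu⟩
  have hsq : Group.IsSolvable (↥K ⧸ O) := solvable_of_surjective hπs
  have h1 : π u' ∈ P := by
    apply Cfsg.Agent.Lib.SolvCore.centralizer_pCore_le hsq Cfsg.Agent.Lib.PComps.pPrimeCore_quotient_eq_bot
    apply Subgroup.mem_centralizer_iff.2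
    intro z hz
    exact (hmain u' hu z hz).symm
  have h2 : π u' = 1 := by
    apply Cfsg.Agent.Lib.CoprimeAct.eq_one_of_mem_pgroup_of_coprime hPp h1
    apply Nat.Coprime.symm
    rw [Nat.Prime.coprime_iff_not_dvd hqq]
    intro hd
    apply hUq
    refine dvd_trans hd (dvd_trans (orderOf_map_dvd π _) ?_)
    rw [← Subgroup.orderOf_coe]
    exact Subgroup.orderOf_dvd_natCard U hu
  have h3 : u' ∈ π.ker := h2
  rw [QuotientGroup.ker_mk'] at h3
  exact ⟨u', h3, rfl⟩

end Cfsg.Agent.S1288
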