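import Cfsg.Statements.S1297
import Cfsg.Agent.Lib.BalanceL5
-- import your own Cfsg.Agent.* helpers here

set_option autoImplicit false
set_option linter.all false
open Cfsg

namespace Cfsg.Agent.S1297

/-- Let G be finite. Suppose that for every involution x, writing C = C_G(x), every component K of C / O(C) has K / Z(K) locally balanced. Then G is balanced. -/
theorem result {G : Type*} [Group G] [Finite G] (h : ∀ x : G, orderOf x = 2 → ∀ K : Subgroup (↥(Subgroup.centralizer ({x} : Set G)) ⧸ Cfsg.oddCore ↥(Subgroup.centralizer ({x} : Set G))), Cfsg.IsComponent K → Cfsg.IsLocallyBalanced (↥K ⧸ Subgroup.center ↥K)) : Cfsg.IsBalanced G := by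
  classical
  haveI hf : Fact (Nat.Prime 2) := ⟨Nat.prime_two⟩
  have hk : Cfsg.IsKBalanced 2 1 G := by
    apply Cfsg.Agent.Lib.BalanceL5.kBalanced_of_local le_rfl
    intro x hx K hK H hH A hA hcard
    rcases Subgroup.bot_or_exists_ne_one A with h0 | ⟨a, ha, ha1⟩
    · exfalso
      rw [h0, Subgroup.card_bot] at hcard
      omega
    · have hao : orderOf a = 2 := orderOf_eq_prime (hA.2 a ha) ha1
      have h1 := h x hx K hK H hH a hao
      rw [eq_bot_iff, ← h1]
      exact iInf_le (fun a : {a : ↥H // a ∈ A ∧ a ≠ 1} => Cfsg.centralizerPPrimeCore 2 (a : ↥H)) ⟨a, ha, ha1⟩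
  have key : ∀ x y : G, orderOf x = 2 → orderOf y = 2 → x * y = y * x →
      Cfsg.centralizerPPrimeCore 2 x ⊓ Subgroup.centralizer {y} ≤
        Cfsg.centralizerPPrimeCore 2 y ⊓ Subgroup.centralizer {x} := by
    intro x y hx hy hxy
    rintro v ⟨hv1, hv2⟩
    have hx2 : x ^ 2 = 1 := by rw [← hx]; exact pow_orderOf_eq_one x
    have hz : ∀ a ∈ Subgroup.zpowers x, a ^ 2 = 1 := by
      rintro a ha
      obtain ⟨i, rfl⟩ := Subgroup.mem_zpowers_iff.1 ha
      rw [← zpow_natCast, ← zpow_mul, mul_comm, zpow_mul]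
      have : x ^ ((2 : ℕ) : ℤ) = 1 := by exact_mod_cast hx2
      rw [this, one_zpow]
    have hza : ∀ a ∈ Subgroup.zpowers x, a ≠ 1 → a = x := by
      rintro a ha ha1
      obtain ⟨i, rfl⟩ := Subgroup.mem_zpowers_iff.1 ha
      rcases Int.even_or_odd i with ⟨j, rfl⟩ | ⟨j, rfl⟩
      · exfalso
        apply ha1
        rw [← two_mul, zpow_mul]
        have : x ^ (2 : ℤ) = 1 := by exact_mod_cast hx2
        rw [this, one_zpow]
      · rw [zpow_add, zpow_mul]
        have : x ^ (2 : ℤ) = 1 := by exact_mod_cast hx2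
        rw [this, one_zpow, one_mul, zpow_one]
    have hel : Cfsg.IsElementaryAbelian 2 (Subgroup.zpowers x) := by
      refine ⟨(Cfsg.Agent.Lib.BalanceL5.imc_iff' _).2 ?_, hz⟩
      rintro a ha b hb
      obtain ⟨i, rfl⟩ := Subgroup.mem_zpowers_iff.1 ha
      obtain ⟨j, rfl⟩ := Subgroup.mem_zpowers_iff.1 hb
      rw [← zpow_add, ← zpow_add, add_comm]
    have hcomm : ∀ a ∈ Subgroup.zpowers x, a * y = y * a := by
      rintro a ha
      obtain ⟨i, rfl⟩ := Subgroup.mem_zpowers_iff.1 ha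
      have h1 : Commute x y := hxy
      exact (h1.zpow_left i).eq
    refine ⟨hk (Subgroup.zpowers x) hel (by rw [Nat.card_zpowers, hx, pow_one]) y hy hcomm ⟨?_, hv2⟩,
      Cfsg.Agent.Lib.BalanceL.core_le_centralizer x hv1⟩
    apply Cfsg.Agent.Lib.BalanceL5.mem_delta
    intro a ha ha1
    rw [hza a ha ha1]
    exact hv1
  intro x y hx hy hxy
  exact le_antisymm (key x y hx hy hxy) (key y x hy hx hxy.symm)

end Cfsg.Agent.S1297
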