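import Cfsg.Statements.S1300
-- import your own Cfsg.Agent.* helpers here

set_option autoImplicit false
set_option linter.all false
open Cfsg

namespace Cfsg.Agent.S1300

/-- For a finite group G, balance in the sense of commuting involutions is the same as 1-balance for the prime 2. -/
theorem result {G : Type*} [Group G] [Finite G] : Cfsg.IsBalanced G ↔ Cfsg.IsKBalanced 2 1 G := by
  have hdelta : ∀ x : G, orderOf x = 2 → Cfsg.signalizerDelta 2 (Subgroup.zpowers x) = Cfsg.centralizerPPrimeCore 2 x := by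
    intro x hx
    unfold Cfsg.signalizerDelta
    apply le_antisymm
    · exact iInf_le_of_le ⟨x, Subgroup.mem_zpowers x, fun h => by rw [h, orderOf_one] at hx; omega⟩ le_rfl
    · refine le_iInf ?_
      rintro ⟨a, ha, ha1⟩
      have hx2 : x ^ 2 = 1 := by rw [← hx]; exact pow_orderOf_eq_one x
      have hax : a = x := by
        obtain ⟨n, rfl⟩ := ha
        rcases Int.even_or_odd' n with ⟨m, rfl | rfl⟩
        · exfalso; apply ha1
          show x ^ (2 * m) = 1
          rw [zpow_mul, zpow_two, ← pow_two, hx2, one_zpow]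
        · show x ^ (2 * m + 1) = x
          rw [zpow_add, zpow_mul, zpow_two, ← pow_two, hx2, one_zpow, one_mul, zpow_one]
      subst hax
      exact le_rfl
  have hea : ∀ x : G, orderOf x = 2 → Cfsg.IsElementaryAbelian 2 (Subgroup.zpowers x) := by
    intro x hx
    refine ⟨?_, ?_⟩
    · refine ⟨⟨?_⟩⟩
      rintro ⟨_, a, rfl⟩ ⟨_, b, rfl⟩
      apply Subtype.ext
      show x ^ a * x ^ b = x ^ b * x ^ a
      rw [← zpow_add, ← zpow_add, add_comm]
    · rintro _ ⟨a, rfl⟩
      show (x ^ a) ^ 2 = 1
      rw [← zpow_natCast, ← zpow_mul, mul_comm, zpow_mul, zpow_natCast, ← hx, pow_orderOf_eq_one, one_zpow]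
  have hcoreC : ∀ x : G, Cfsg.centralizerPPrimeCore 2 x ≤ Subgroup.centralizer {x} := by
    intro x
    exact Subgroup.map_subtype_le _
  constructor
  · intro hB A hA hc b hb hcomm
    have h2 : Nat.card A = 2 := by rw [hc]; norm_num
    obtain ⟨u, v, huv, huvu⟩ := Nat.card_eq_two_iff.1 h2
    have hne : ∃ a : A, a ≠ 1 := by
      by_contra hcon
      push Not at hcon
      exact huv ((hcon u).trans (hcon v).symm)
    obtain ⟨a, ha1⟩ := hne
    have hA2 : ∀ c : A, c ≠ 1 → c = a := by
      intro c hc1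
      have h3 : (1 : A) ≠ a := Ne.symm ha1
      have hu : ∀ d : A, d = u ∨ d = v := fun d => by
        have : d ∈ ({u, v} : Set A) := by rw [huvu]; trivial
        simpa using this
      rcases hu c with rfl | rfl <;> rcases hu a with rfl | rfl <;> rcases hu (1 : A) with h1 | h1 <;> simp_all
    have ha1' : (a : G) ≠ 1 := fun h => ha1 (Subtype.ext h)
    have hao : orderOf (a : G) = 2 := orderOf_eq_prime (hA.2 a a.2) ha1'
    have hdl : Cfsg.signalizerDelta 2 A ≤ Cfsg.centralizerPPrimeCore 2 (a : G) :=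
      iInf_le_of_le ⟨a, a.2, ha1'⟩ le_rfl
    intro z hz
    have h5 : z ∈ Cfsg.centralizerPPrimeCore 2 (a : G) ⊓ Subgroup.centralizer {b} := ⟨hdl hz.1, hz.2⟩
    rw [hB (a : G) b hao hb (hcomm a a.2)] at h5
    exact h5.1
  · intro hK x y hx hy hxy
    have hkey : ∀ x y : G, orderOf x = 2 → orderOf y = 2 → x * y = y * x →
        Cfsg.centralizerPPrimeCore 2 x ⊓ Subgroup.centralizer {y} ≤ Cfsg.centralizerPPrimeCore 2 y ⊓ Subgroup.centralizer {x} := by
      intro x y hx hy hxy
      have h1 := hK (Subgroup.zpowers x) (hea x hx) (by rw [Nat.card_zpowers, hx]; norm_num) y hy (by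
        rintro _ ⟨n, rfl⟩
        exact ((show Commute x y from hxy).zpow_left n).eq)
      rw [hdelta x hx] at h1
      exact le_inf h1 (inf_le_left.trans (hcoreC x))
    exact le_antisymm (hkey x y hx hy hxy) (hkey y x hy hx hxy.symm)

end Cfsg.Agent.S1300
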