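import Cfsg.Statements.S1303
import Cfsg.Agent.Lib.SolvP
import Cfsg.Agent.Lib.CharBurnside
-- import your own Cfsg.Agent.* helpers here

set_option autoImplicit false
set_option linter.all false
open Cfsg

namespace Cfsg.Agent.S1303

/-- The group X = SL(2, 3): it is 2-constrained, O_{2'}(X) = 1, its centre A = Z(X) contains every involution of X = C_X(A), and X has a subgroup of order 3 (normalized by A) not contained in O_{2'}(X). -/
theorem result : Cfsg.IsPConstrained 2 (Matrix.SpecialLinearGroup (Fin 2) (ZMod 3)) ∧ Cfsg.pPrimeCore 2 (Matrix.SpecialLinearGroup (Fin 2) (ZMod 3)) = ⊥ ∧ (∀ t : Matrix.SpecialLinearGroup (Fin 2) (ZMod 3), orderOf t = 2 → t ∈ Subgroup.center (Matrix.SpecialLinearGroup (Fin 2) (ZMod 3))) ∧ ∃ Q : Subgroup (Matrix.SpecialLinearGroup (Fin 2) (ZMod 3)), Nat.card ↥Q = 3 ∧ ¬ (Q ≤ Cfsg.pPrimeCore 2 (Matrix.SpecialLinearGroup (Fin 2) (ZMod 3))) := by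
  haveI : Fact (Nat.Prime 2) := ⟨Nat.prime_two⟩
  have hcard : Fintype.card (Matrix.SpecialLinearGroup (Fin 2) (ZMod 3)) = 24 := by decide +kernel
  have hcard' : Nat.card (Matrix.SpecialLinearGroup (Fin 2) (ZMod 3)) = 24 := by
    rw [Nat.card_eq_fintype_card, hcard]
  have hcore : Cfsg.pPrimeCore 2 (Matrix.SpecialLinearGroup (Fin 2) (ZMod 3)) = ⊥ := by
    rw [eq_bot_iff]
    refine sSup_le ?_
    rintro N ⟨hN, hc⟩
    intro g hg
    have hodd : ∀ x ∈ N, x ^ 3 = 1 := by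
      intro x hx
      have h1 : orderOf (⟨x, hx⟩ : N) ∣ Nat.card N := orderOf_dvd_natCard _
      rw [Subgroup.orderOf_mk] at h1
      have h2 : (orderOf x).Coprime 2 := Nat.Coprime.coprime_dvd_left h1 hc
      have h3 : orderOf x ∣ 24 := by rw [← hcard']; exact orderOf_dvd_natCard _
      have h4 : orderOf x ∣ 3 := by
        have h5 : (orderOf x).Coprime 8 := Nat.Coprime.pow_right 3 h2
        have h6 : orderOf x ∣ 8 * 3 := h3
        exact h5.dvd_of_dvd_mul_left h6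
      exact orderOf_dvd_iff_pow_eq_one.1 h4
    have hdec1 : ∀ g q : Matrix.SpecialLinearGroup (Fin 2) (ZMod 3), q ^ 4 = 1 → (g * q * g⁻¹ * q⁻¹) ^ 4 = 1 := by
      decide +kernel
    have hdec2 : ∀ g : Matrix.SpecialLinearGroup (Fin 2) (ZMod 3), g ^ 3 = 1 → (∀ q : Matrix.SpecialLinearGroup (Fin 2) (ZMod 3), q ^ 4 = 1 → g * q = q * g) → g = 1 := by
      decide +kernel
    have hdec3 : ∀ c : Matrix.SpecialLinearGroup (Fin 2) (ZMod 3), c ^ 3 = 1 → c ^ 4 = 1 → c = 1 := by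
      decide +kernel
    refine Subgroup.mem_bot.2 (hdec2 g (hodd g hg) ?_)
    intro q hq
    have hc1 : g * q * g⁻¹ * q⁻¹ ∈ N := by
      have h1 : g * q * g⁻¹ * q⁻¹ = g * (q * g⁻¹ * q⁻¹) := by group
      rw [h1]
      exact N.mul_mem hg (hN.conj_mem _ (N.inv_mem hg) q)
    have hc2 := hdec3 _ (hodd _ hc1) (hdec1 g q hq)
    calc g * q = (g * q * g⁻¹ * q⁻¹) * (q * g) := by group
      _ = q * g := by rw [hc2, one_mul]
  have hsolv : Group.IsSolvable (Matrix.SpecialLinearGroup (Fin 2) (ZMod 3)) :=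
    Cfsg.Agent.Lib.CharBurnside.solvable_two_prime 2 3 Nat.prime_two Nat.prime_three _ _ 3 1 rfl
      (by rw [hcard']; norm_num)
  refine ⟨Cfsg.Agent.Lib.SolvP.isPConstrained_of_solvable hsolv, hcore, ?_, ?_⟩
  · intro t ht
    rw [Subgroup.mem_center_iff]
    have hdec : ∀ t : Matrix.SpecialLinearGroup (Fin 2) (ZMod 3), t ^ 2 = 1 → t ≠ 1 → ∀ g : Matrix.SpecialLinearGroup (Fin 2) (ZMod 3), g * t = t * g := by
      decide +kernel
    intro g
    exact hdec t (orderOf_dvd_iff_pow_eq_one.1 (by rw [ht])) (by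
      intro h; rw [h, orderOf_one] at ht; omega) g
  · have hex : ∃ u : Matrix.SpecialLinearGroup (Fin 2) (ZMod 3), u ^ 3 = 1 ∧ u ≠ 1 := by decide +kernel
    obtain ⟨u, hu3, hu1⟩ := hex
    haveI : Fact (Nat.Prime 3) := ⟨Nat.prime_three⟩
    have hu : orderOf u = 3 := orderOf_eq_prime hu3 hu1
    refine ⟨Subgroup.zpowers u, by rw [Nat.card_zpowers, hu], ?_⟩
    rw [hcore, le_bot_iff, Subgroup.zpowers_eq_bot]
    exact hu1

end Cfsg.Agent.S1303
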