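import Cfsg.Statements.S1304
import Cfsg.Agent.Lib.Comps
-- import your own Cfsg.Agent.* helpers here

set_option autoImplicit false
set_option linter.all false
open Cfsg

namespace Cfsg.Agent.S1304

/-- Let X be a perfect group and α an automorphism of X with α(x) x⁻¹ central for every x. Then α is the identity. -/
theorem result {X : Type*} [Group X] (hperf : commutator X = ⊤) (α : X ≃* X) (h : ∀ x : X, α x * x⁻¹ ∈ Subgroup.center X) : ∀ x : X, α x = x := by
  have hc : ∀ x y : X, α (x * y * x⁻¹ * y⁻¹) = x * y * x⁻¹ * y⁻¹ := by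
    intro x y
    have hx := Subgroup.mem_center_iff.1 (h x)
    have hy := Subgroup.mem_center_iff.1 (h y)
    obtain ⟨c, hcc⟩ : ∃ c, c = α x * x⁻¹ := ⟨_, rfl⟩
    obtain ⟨d, hdd⟩ : ∃ d, d = α y * y⁻¹ := ⟨_, rfl⟩
    rw [← hcc] at hx
    rw [← hdd] at hy
    have ex : α x = c * x := by rw [hcc]; group
    have ey : α y = d * y := by rw [hdd]; group
    simp only [map_mul, map_inv, ex, ey]
    have e1 : c * x * (d * y) * (c * x)⁻¹ * (d * y)⁻¹ = x * y * x⁻¹ * y⁻¹ := by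
      calc c * x * (d * y) * (c * x)⁻¹ * (d * y)⁻¹
          = c * (x * d) * y * x⁻¹ * c⁻¹ * y⁻¹ * d⁻¹ := by group
        _ = c * (d * x) * y * x⁻¹ * c⁻¹ * y⁻¹ * d⁻¹ := by rw [← hy x]
        _ = c * d * (x * y * x⁻¹ * c⁻¹) * y⁻¹ * d⁻¹ := by group
        _ = c * d * (c⁻¹ * (x * y * x⁻¹)) * y⁻¹ * d⁻¹ := by
            rw [((show Commute (x * y * x⁻¹) c from hx (x * y * x⁻¹)).inv_right).eq]
        _ = c * d * c⁻¹ * (x * y * x⁻¹) * y⁻¹ * d⁻¹ := by group
        _ = d * (c * c⁻¹) * (x * y * x⁻¹) * y⁻¹ * d⁻¹ := by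
            rw [← hx d]; group
        _ = d * (x * y * x⁻¹ * y⁻¹) * d⁻¹ := by group
        _ = (x * y * x⁻¹ * y⁻¹) * d * d⁻¹ := by rw [← hy]
        _ = x * y * x⁻¹ * y⁻¹ := by group
    exact e1
  have hFix : (⊤ : Subgroup X) ≤ MonoidHom.eqLocus α.toMonoidHom (MonoidHom.id X) := by
    rw [← hperf, commutator_def, Subgroup.commutator_le]
    intro g₁ _ g₂ _
    exact hc g₁ g₂
  intro x
  exact hFix (Subgroup.mem_top x)

end Cfsg.Agent.S1304
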