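import Cfsg.Statements.S1314
import Cfsg.Agent.Lib.Comps
import Cfsg.Agent.Lib.H2Basic
-- import your own Cfsg.Agent.* helpers here

set_option autoImplicit false
set_option linter.all false
open Cfsg

namespace Cfsg.Agent.S1314

/-- Let x be an involution of a group G and L a perfect subgroup with ⁅L, x L x⁻¹⁆ = 1. Then l ↦ l (x l x⁻¹) is a group homomorphism π from L to G whose kernel is central in L and whose image lies in C_G(x); and the commutator subgroup of C_{L ⊔ xLx⁻¹}(x) equals the image of π. -/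
theorem result {G : Type*} [Group G] [Finite G] (x : G) (hx : orderOf x = 2) (L : Subgroup G) (hperf : ⁅L, L⁆ = L) (hcomm : ⁅L, L.map (MulAut.conj x).toMonoidHom⁆ = ⊥) : ∃ π : ↥L →* G, (∀ l : ↥L, π l = (l : G) * (x * (l : G) * x⁻¹)) ∧ π.ker ≤ Subgroup.center ↥L ∧ π.range ≤ Subgroup.centralizer ({x} : Set G) ∧ ⁅(L ⊔ L.map (MulAut.conj x).toMonoidHom) ⊓ Subgroup.centralizer ({x} : Set G), (L ⊔ L.map (MulAut.conj x).toMonoidHom) ⊓ Subgroup.centralizer ({x} : Set G)⁆ = π.range := by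
  classical
  have hcm : ∀ a ∈ L, ∀ b ∈ L, a * (x * b * x⁻¹) = (x * b * x⁻¹) * a := by
    intro a ha b hb
    have h1 := (Subgroup.commutator_eq_bot_iff_le_centralizer.1 hcomm) ha
    exact ((Subgroup.mem_centralizer_iff.1 h1) _ ⟨b, hb, rfl⟩).symm
  have hx2 : x * x = 1 := by
    rw [← pow_two, ← hx]
    exact pow_orderOf_eq_one x
  have hxi : x⁻¹ = x := inv_eq_of_mul_eq_one_left hx2
  let π : ↥L →* G := MonoidHom.mk' (fun l : ↥L => (l : G) * (x * (l : G) * x⁻¹)) (by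
    intro a b
    have e := hcm (b : G) b.2 (a : G) a.2
    show (a : G) * (b : G) * (x * ((a : G) * (b : G)) * x⁻¹) = _
    calc (a : G) * (b : G) * (x * ((a : G) * (b : G)) * x⁻¹)
        = (a : G) * ((b : G) * (x * (a : G) * x⁻¹)) * (x * (b : G) * x⁻¹) := by group
      _ = (a : G) * ((x * (a : G) * x⁻¹) * (b : G)) * (x * (b : G) * x⁻¹) := by rw [e]
      _ = _ := by group)
  have hπ : ∀ l : ↥L, π l = (l : G) * (x * (l : G) * x⁻¹) := fun l => rfl
  have hker : π.ker ≤ Subgroup.center ↥L := by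
    intro l hl
    rw [Subgroup.mem_center_iff]
    intro y
    apply Subtype.ext
    have h1 : (l : G) * (x * (l : G) * x⁻¹) = 1 := hl
    have h2 : x * (l : G) * x⁻¹ = (l : G)⁻¹ := eq_inv_of_mul_eq_one_right h1
    have h3 := hcm (y : G) y.2 (l : G) l.2
    rw [h2] at h3
    show (y : G) * (l : G) = (l : G) * (y : G)
    have h4 : Commute (y : G) (l : G)⁻¹ := h3
    have h5 := h4.inv_right
    rw [inv_inv] at h5
    exact h5
  have hrange : π.range ≤ Subgroup.centralizer ({x} : Set G) := by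
    rintro _ ⟨l, rfl⟩
    rw [Subgroup.mem_centralizer_singleton_iff]
    show (l : G) * (x * (l : G) * x⁻¹) * x = x * ((l : G) * (x * (l : G) * x⁻¹))
    have e := hcm (l : G) l.2 (l : G) l.2
    calc (l : G) * (x * (l : G) * x⁻¹) * x = (l : G) * (x * (l : G) * x⁻¹) * x := rfl
      _ = (x * (l : G) * x⁻¹) * (l : G) * x := by rw [e]
      _ = x * ((l : G) * (x⁻¹ * (l : G) * x)) := by group
      _ = x * ((l : G) * (x * (l : G) * x⁻¹)) := by rw [hxi]
  refine ⟨π, hπ, hker, hrange, ?_⟩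
  have hdec : ∀ g ∈ (L ⊔ L.map (MulAut.conj x).toMonoidHom) ⊓ Subgroup.centralizer ({x} : Set G),
      ∃ (m : ↥L) (z w : G), z ∈ L ∧ w ∈ L ∧ z = x * w * x⁻¹ ∧ g = π m * z := by
    rintro g ⟨hg1, hg2⟩
    have hN : L ≤ Subgroup.normalizer ((L.map (MulAut.conj x).toMonoidHom : Subgroup G) : Set G) := by
      intro l hl
      apply Cfsg.Agent.Lib.H2Basic.mem_normalizer_of_forall_comm
      rintro _ ⟨b, hb, rfl⟩
      exact hcm l hl b hb
    have hg1' : g ∈ L ⊔ L.map (MulAut.conj x).toMonoidHom := hg1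
    rw [← SetLike.mem_coe, Subgroup.coe_mul_of_left_le_normalizer_right L _ hN] at hg1'
    obtain ⟨l, hl, _, ⟨m, hm, rfl⟩, rfl⟩ := Set.mem_mul.1 hg1'
    have hg2' := Subgroup.mem_centralizer_singleton_iff.1 hg2
    change l * (x * m * x⁻¹) * x = x * (l * (x * m * x⁻¹)) at hg2'
    -- the key relation
    have h1 : (x * l * x⁻¹) * m = l * (x * m * x⁻¹) := by
      have e1 : x * (l * (x * m * x⁻¹)) * x⁻¹ = (x * l * x⁻¹) * m := by
        calc x * (l * (x * m * x⁻¹)) * x⁻¹ = (x * l * x⁻¹) * (x * x * m * x⁻¹ * x⁻¹) := by group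
          _ = (x * l * x⁻¹) * m := by rw [hx2]; rw [hxi]; simp [mul_assoc, hx2]
      rw [← e1, ← hg2']
      group
    have h2 : m * (x * l * x⁻¹) = l * (x * m * x⁻¹) := by
      rw [hcm m hm l hl]
      exact h1
    have hz : m⁻¹ * l = x * (l * m⁻¹) * x⁻¹ := by
      have : (x * (l * m⁻¹) * x⁻¹) = (x * l * x⁻¹) * (x * m * x⁻¹)⁻¹ := by group
      rw [this, eq_mul_inv_iff_mul_eq, mul_assoc, ← h2]
      group
    refine ⟨⟨m, hm⟩, m⁻¹ * l, l * m⁻¹, L.mul_mem (L.inv_mem hm) hl, L.mul_mem hl (L.inv_mem hm), hz, ?_⟩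
    show l * ((MulAut.conj x).toMonoidHom m) = m * (x * m * x⁻¹) * (m⁻¹ * l)
    have e2 := hcm (m⁻¹ * l) (L.mul_mem (L.inv_mem hm) hl) m hm
    calc l * ((MulAut.conj x).toMonoidHom m) = m * ((m⁻¹ * l) * (x * m * x⁻¹)) := by
          show l * (x * m * x⁻¹) = _
          group
      _ = m * ((x * m * x⁻¹) * (m⁻¹ * l)) := by rw [e2]
      _ = _ := by group
  apply le_antisymm
  · rw [Subgroup.commutator_le]
    intro g₁ hg₁ g₂ hg₂
    obtain ⟨m₁, z₁, w₁, hz₁, hw₁, e₁, rfl⟩ := hdec g₁ hg₁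
    obtain ⟨m₂, z₂, w₂, hz₂, hw₂, e₂, rfl⟩ := hdec g₂ hg₂
    have cz : ∀ {z w : G}, z ∈ L → w ∈ L → z = x * w * x⁻¹ → ∀ m : ↥L, Commute (π m) z := by
      intro z w hz hw e m
      have h1 : Commute (m : G) z := by
        rw [e]
        exact hcm _ m.2 _ hw
      have h2 : Commute (x * (m : G) * x⁻¹) z := (show Commute z (x * (m : G) * x⁻¹) from hcm z hz _ m.2).symm
      exact h1.mul_left h2
    have c12 : Commute z₁ z₂ := by
      rw [e₂]
      exact hcm _ hz₁ _ hw₂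
    have key := Cfsg.Agent.Lib.Comps.comm_mul_mul (π m₁) z₁ (π m₂) z₂ (cz hz₁ hw₁ e₁ m₂).symm (cz hz₁ hw₁ e₁ m₁) (cz hz₂ hw₂ e₂ m₁) (cz hz₁ hw₁ e₁ m₂) (cz hz₂ hw₂ e₂ m₂)
    rw [key]
    simp only [commutatorElement_def]
    have e3 : z₁ * z₂ * z₁⁻¹ * z₂⁻¹ = 1 := by
      rw [c12.eq]
      group
    rw [e3, mul_one, ← map_inv, ← map_inv, ← map_mul, ← map_mul, ← map_mul]
    exact ⟨_, rfl⟩
  · haveI : Group.IsPerfect ↥L := Subgroup.isPerfect_iff.2 hperf
    have hp : ⁅π.range, π.range⁆ = π.range := Subgroup.isPerfect_iff.1 (Group.IsPerfect.range π)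
    rw [← hp]
    have hle : π.range ≤ (L ⊔ L.map (MulAut.conj x).toMonoidHom) ⊓ Subgroup.centralizer ({x} : Set G) := by
      refine le_inf ?_ hrange
      rintro _ ⟨l, rfl⟩
      exact mul_mem (Subgroup.mem_sup_left l.2) (Subgroup.mem_sup_right ⟨l, l.2, rfl⟩)
    exact Subgroup.commutator_mono hle hle

end Cfsg.Agent.S1314
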