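import Cfsg.Statements.S1321
import Cfsg.Agent.Lib.Comps
import Cfsg.Agent.Lib.H2Basic
import Cfsg.Agent.Lib.Layer
-- import your own Cfsg.Agent.* helpers here

set_option autoImplicit false
set_option linter.all false
open Cfsg

namespace Cfsg.Agent.S1321

open scoped commutatorElement



/-- Let X be finite and U ≤ X. Then E(X) is generated by C_{E(X)}(U) together with ⁅E(X), U⁆ (indeed it is their product, ⁅E(X), U⁆ being normal in E(X)). -/
theorem result {X : Type*} [Group X] [Finite X] (U : Subgroup X) : Cfsg.layer X = (Cfsg.layer X ⊓ Subgroup.centralizer (U : Set X)) ⊔ ⁅Cfsg.layer X, U⁆ ∧ ⁅Cfsg.layer X, U⁆ ≤ Cfsg.layer X := by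
  classical
  set E := Cfsg.layer X with hE
  haveI hEn : E.Normal := Cfsg.Agent.Lib.Layer.layer_normal X
  set B := ⁅E, U⁆ with hB
  have hBE : B ≤ E := by
    rw [hB, Subgroup.commutator_le]
    intro e he u hu
    rw [commutatorElement_def]
    have h1 : e * u * e⁻¹ * u⁻¹ = e * (u * e⁻¹ * u⁻¹) := by group
    rw [h1]
    exact E.mul_mem he (hEn.conj_mem _ (E.inv_mem he) u)
  have hEnorm : E ≤ Subgroup.normalizer (B : Set X) := by
    intro g hg
    apply Cfsg.Agent.Lib.H2Basic.mem_normalizer_of_conj_le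
    have hle : B ≤ B.comap (MulAut.conj g).toMonoidHom := by
      rw [hB, Subgroup.commutator_le]
      intro e he u hu
      show g * ⁅e, u⁆ * g⁻¹ ∈ ⁅E, U⁆
      have hkey : g * ⁅e, u⁆ * g⁻¹ = ⁅g * e, u⁆ * ⁅g, u⁆⁻¹ := by
        simp only [commutatorElement_def]
        group
      rw [hkey]
      refine Subgroup.mul_mem _ ?_ (Subgroup.inv_mem _ ?_)
      · exact Subgroup.commutator_mem_commutator (E.mul_mem hg he) hu
      · exact Subgroup.commutator_mem_commutator hg hu
    intro a ha
    exact hle ha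
  have hBs : B.IsSubnormal := by
    refine Subgroup.IsSubnormal.trans hBE ?_ hEn.isSubnormal
    apply Subgroup.Normal.isSubnormal
    rw [Subgroup.normal_subgroupOf_iff_le_normalizer hBE]
    exact hEnorm
  refine ⟨le_antisymm ?_ (sup_le inf_le_left hBE), hBE⟩
  refine sSup_le fun K hK => ?_
  rcases Cfsg.Agent.Lib.Comps.comp_lemma hK hBs with h | h
  · exact h.trans le_sup_right
  · have hKE : K ≤ E := le_sSup hK
    have h1 : ⁅⁅U, K⁆, K⁆ = ⊥ := by
      apply le_bot_iff.1
      have h2 : ⁅U, K⁆ ≤ B := by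
        rw [Subgroup.commutator_comm]
        exact Subgroup.commutator_mono hKE le_rfl
      have h3 : ⁅B, K⁆ = ⊥ := by rw [Subgroup.commutator_comm]; exact h
      rw [← h3]
      exact Subgroup.commutator_mono h2 le_rfl
    have h2 := Cfsg.Agent.Lib.Comps.comm_eq_bot_of_comm_comm (Cfsg.Agent.Lib.Comps.comp_perfect hK) h1
    have h3 : ⁅K, U⁆ = ⊥ := by rw [Subgroup.commutator_comm]; exact h2
    exact (le_inf hKE (Subgroup.commutator_eq_bot_iff_le_centralizer.1 h3)).trans le_sup_left

end Cfsg.Agent.S1321
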