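import Cfsg.Statements.S1331
import Cfsg.Agent.Lib.CoprimeGen
-- import your own Cfsg.Agent.* helpers here

set_option autoImplicit false
set_option linter.all false
open Cfsg

namespace Cfsg.Agent.S1331

/-- Let θ be a solvable A-signalizer functor on the finite group G for the prime p, A elementary abelian of rank at least 3, X a member of the family of θ, and B ≤ A with |B| ≥ p². Then X is generated by the subgroups X ∩ ⋂_{d ∈ D, d ≠ 1} θ d, D ranging over the subgroups of index p in B. -/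
theorem result {G : Type*} [Group G] [Finite G] (p : ℕ) [Fact p.Prime] (A : Subgroup G) (hA : Cfsg.IsElementaryAbelian p A) (hA3 : p ^ 3 ≤ Nat.card ↥A) (θ : G → Subgroup G) (hθ : Cfsg.IsSolvableSignalizerFunctor p A θ) (X : Subgroup G) (hX : X ∈ Cfsg.signalizerFamily p A θ) (B : Subgroup G) (hB : B ≤ A) (hB2 : p ^ 2 ≤ Nat.card ↥B) : X = ⨆ D : {D : Subgroup G // D ≤ B ∧ D.relIndex B = p}, X ⊓ Cfsg.signalizerInf (D : Subgroup G) θ := by
  obtain ⟨hXs, hXp, hXA, hXθ⟩ := hX
  have hcomm : ∀ a ∈ A, ∀ b ∈ A, a * b = b * a := fun a ha b hb => by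
    haveI := hA.1
    exact congrArg Subtype.val (mul_comm' (⟨a, ha⟩ : A) ⟨b, hb⟩)
  apply le_antisymm
  · refine (Cfsg.Agent.Lib.CoprimeGen.gen_solvable B X (fun a ha b hb => hcomm a (hB ha) b (hB hb))
      (fun a ha => hA.2 a (hB ha)) hB2 (fun a ha => hXA a (hB ha)) hXp hXs).trans ?_
    refine iSup_le fun D => ?_
    refine le_trans ?_ (le_iSup (fun D : {D : Subgroup G // D ≤ B ∧ D.relIndex B = p} =>
      X ⊓ Cfsg.signalizerInf (D : Subgroup G) θ) D)
    refine le_inf inf_le_left ?_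
    rintro x ⟨hx1, hx2⟩
    unfold Cfsg.signalizerInf
    rw [Subgroup.mem_iInf]
    rintro ⟨d, hd, hd1⟩
    refine hXθ d (hB (D.2.1 hd)) hd1 ⟨hx1, Subgroup.mem_centralizer_singleton_iff.2 ?_⟩
    exact (Subgroup.mem_centralizer_iff.1 hx2 d hd).symm
  · exact iSup_le fun D => inf_le_left

end Cfsg.Agent.S1331
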