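import Cfsg.Statements.S1335
import Cfsg.Agent.Lib.SylowCount
-- import your own Cfsg.Agent.* helpers here

set_option autoImplicit false
set_option linter.all false
open Cfsg

namespace Cfsg.Agent.S1335

/-- Let H be a subgroup of the finite group G, p a prime, k ≥ 1, P a Sylow p-subgroup of H of p-rank at least k, and suppose N_G(X) ≤ H for every subgroup X ≤ P of p-rank at least k. Then P is a Sylow p-subgroup of G. -/
theorem result {G : Type*} [Group G] [Finite G] {p : ℕ} [Fact p.Prime] (k : ℕ) (hk : 1 ≤ k) (H : Subgroup G) (P : Sylow p ↥H) (hP : ¬ Cfsg.PRankLE p (k - 1) ↥(P : Subgroup ↥H)) (hΓ : (∀ X : Subgroup G, X ≤ (P : Subgroup ↥H).map H.subtype → ¬ Cfsg.PRankLE p (k - 1) ↥X → Subgroup.normalizer (X : Set G) ≤ H)) : ∃ Q : Sylow p G, (Q : Subgroup G) = (P : Subgroup ↥H).map H.subtype := by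
  classical
  set P₀ : Subgroup G := (P : Subgroup ↥H).map H.subtype with hP₀
  have hP₀p : IsPGroup p P₀ := P.isPGroup'.map _
  obtain ⟨Q, hQ⟩ := hP₀p.exists_le_sylow
  refine ⟨Q, ?_⟩
  by_contra hne
  have hlt : P₀ < (Q : Subgroup G) := lt_of_le_of_ne hQ (Ne.symm hne)
  obtain ⟨x, hxQ, hxP, hxN⟩ := Cfsg.Agent.Lib.SylowCount.exists_mem_normalizer_of_lt Q.isPGroup' hlt
  -- rank of P₀
  have hrank : ¬ Cfsg.PRankLE p (k - 1) ↥P₀ := by
    intro hle
    apply hP
    intro A hA hA2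
    have e : (P : Subgroup ↥H) ≃* P₀ := Subgroup.equivMapOfInjective _ _ H.subtype_injective
    have h1 := hle (A.map e.toMonoidHom) ?_ ?_
    · rwa [Subgroup.card_map_of_injective e.injective] at h1
    · refine ⟨⟨?_⟩⟩
      rintro ⟨_, a, ha, rfl⟩ ⟨_, b, hb, rfl⟩
      apply Subtype.ext
      have h2 : (⟨a, ha⟩ : A) * ⟨b, hb⟩ = ⟨b, hb⟩ * ⟨a, ha⟩ := by
        haveI := hA
        exact mul_comm' _ _
      have h3 : a * b = b * a := congrArg Subtype.val h2
      show e.toMonoidHom a * e.toMonoidHom b = e.toMonoidHom b * e.toMonoidHom a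
      rw [← map_mul, ← map_mul, h3]
    · rintro _ ⟨a, ha, rfl⟩
      rw [← map_pow, hA2 a ha, map_one]
  have hxH : x ∈ H := hΓ P₀ le_rfl hrank hxN
  -- the p-subgroup Q ∩ H contains P, so is P
  have hQH : IsPGroup p ((Q : Subgroup G).subgroupOf H) :=
    Q.isPGroup'.comap_of_injective H.subtype H.subtype_injective
  have hle : (P : Subgroup ↥H) ≤ (Q : Subgroup G).subgroupOf H := by
    intro a ha
    exact hQ ⟨a, ha, rfl⟩
  have heq := P.is_maximal' hQH hle
  have hxmem : (⟨x, hxH⟩ : H) ∈ (P : Subgroup ↥H) := by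
    rw [← heq]
    exact hxQ
  exact hxP ⟨_, hxmem, rfl⟩

end Cfsg.Agent.S1335
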