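import Cfsg.Statements.S1386
import Mathlib
import Cfsg.Agent.Lib.LinChar
import Cfsg.Agent.Lib.H2Basic
import Cfsg.Agent.Lib.Replacement
-- import your own Cfsg.Agent.* helpers here

set_option autoImplicit false
set_option linter.all false
open Cfsg

namespace Cfsg.Agent.S1386

theorem card_compl {G : Type*} [Group G] [Finite G] {A B M : Subgroup G} (h : Cfsg.IsComplIn A B M) :
    Nat.card A * Nat.card B = Nat.card M := by
  obtain ⟨hA, hB, hd, hm⟩ := h
  have h1 : Nat.card A * Nat.card B = Nat.card (↥A × ↥B) := Nat.card_prod _ _ |>.symm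
  rw [h1]
  refine Nat.card_congr (Equiv.ofBijective (fun p : ↥A × ↥B => (⟨p.1 * p.2, M.mul_mem (hA p.1.2) (hB p.2.2)⟩ : M)) ⟨?_, ?_⟩)
  · rintro ⟨a, b⟩ ⟨a', b'⟩ e
    have e1 : (a : G) * b = a' * b' := congrArg Subtype.val e
    have e2 : (a' : G)⁻¹ * a = b' * (b : G)⁻¹ := by
      calc (a' : G)⁻¹ * a = (a' : G)⁻¹ * (a * b) * (b : G)⁻¹ := by group
        _ = (a' : G)⁻¹ * (a' * b') * (b : G)⁻¹ := by rw [e1]
        _ = b' * (b : G)⁻¹ := by group
    have e3 : (a' : G)⁻¹ * a ∈ A ⊓ B := ⟨A.mul_mem (A.inv_mem a'.2) a.2, by rw [e2]; exact B.mul_mem b'.2 (B.inv_mem b.2)⟩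
    rw [hd, Subgroup.mem_bot] at e3
    have e4 : (a : G) = a' := by
      have := inv_mul_eq_one.1 e3
      exact this.symm
    have e5 : (b : G) = b' := by
      rw [e4] at e1
      exact mul_left_cancel e1
    exact Prod.ext (Subtype.ext e4) (Subtype.ext e5)
  · rintro ⟨m, hm'⟩
    obtain ⟨a, ha, b, hb, e⟩ := hm m hm'
    exact ⟨(⟨a, ha⟩, ⟨b, hb⟩), Subtype.ext e.symm⟩

theorem relIndex_eq {G : Type*} [Group G] [Finite G] {A B M : Subgroup G} (h : Cfsg.IsComplIn A B M) :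
    B.relIndex M = Nat.card A := by
  have h1 := card_compl h
  have h2 : Nat.card (B.subgroupOf M) * (B.subgroupOf M).index = Nat.card M := Subgroup.card_mul_index _
  have h3 : Nat.card (B.subgroupOf M) = Nat.card B :=
    Nat.card_congr (Subgroup.subgroupOfEquivOfLe h.2.1).toEquiv
  rw [h3] at h2
  rw [Subgroup.relIndex]
  have hpos : 0 < Nat.card B := Nat.card_pos
  apply Nat.eq_of_mul_eq_mul_left hpos
  rw [h2, ← h1, mul_comm]



/-- Let G be a finite group, W₁, W₂ subgroups forming a self-normalizing cyclic pair, S a subgroup with W₂ ≤ S and W₁ a complement to S' in S, and (W₁, U, W₂') type-P data for S. Then W₂' = W₂ (that is, C_{S'}(W₁) = W₂). -/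
theorem result {G : Type*} [Group G] [Finite G] (W₁ W₂ S U W₂' : Subgroup G) (hW : Cfsg.IsSelfNormalizingCyclic W₁ W₂)
    (hSW : Cfsg.IsComplIn ⁅S, S⁆ W₁ S) (hW₂S : W₂ ≤ S) (hP : Cfsg.IsTypePWith S W₁ U W₂') :
    W₂' = W₂ := by
  classical
  obtain ⟨hW1, hW2, hW12, hcomm, hcyc, hN⟩ := hW
  have hcompl := hSW
  obtain ⟨hS'S, hW₁S, hS'W, hdec⟩ := hSW
  obtain ⟨x, hx, hx1⟩ := (Subgroup.bot_or_exists_ne_one W₁).resolve_left hW1
  have hz := hP.W₂_centralizer x hx hx1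
  have hcop : Nat.Coprime (Nat.card W₁) (Nat.card ↥⁅S, S⁆) := by
    have := hP.W₁_hall
    rwa [relIndex_eq hcompl] at this
  -- part 1
  have h1 : W₂ ≤ W₂' := by
    intro w hw
    obtain ⟨s, hs, a, ha, e⟩ := hdec w (hW₂S hw)
    have hwa : a * w = w * a := hcomm a ha w hw
    have hsa : s * a = a * s := by
      have e1 : s = w * a⁻¹ := by rw [e]; group
      have e2 : a * w * a⁻¹ = w := by rw [hwa]; group
      rw [e1]
      calc w * a⁻¹ * a = w := by group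
        _ = a * w * a⁻¹ := e2.symm
        _ = a * (w * a⁻¹) := by group
    obtain ⟨m, hm1, hm2⟩ := Nat.chineseRemainder hcop 1 0
    have hpow1 : a ^ m = a := by
      have h1 := hm1.of_dvd (Subgroup.orderOf_dvd_natCard W₁ ha)
      have h2 : a ^ m = a ^ 1 := pow_eq_pow_iff_modEq.2 h1
      simpa using h2
    have hpow2 : s ^ m = 1 := by
      have h1 : Nat.card ↥⁅S, S⁆ ∣ m := (Nat.modEq_zero_iff_dvd).1 hm2
      exact orderOf_dvd_iff_pow_eq_one.1 ((Subgroup.orderOf_dvd_natCard _ hs).trans h1)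
    have h3 : w ^ m = a := by
      rw [e, (show Commute s a from hsa).mul_pow, hpow1, hpow2, one_mul]
    have h4 : a ∈ W₁ ⊓ W₂ := ⟨ha, by rw [← h3]; exact W₂.pow_mem hw m⟩
    rw [hW12, Subgroup.mem_bot] at h4
    rw [h4, mul_one] at e
    rw [← hz]
    refine ⟨by rw [e]; exact hs, Subgroup.mem_centralizer_iff.2 ?_⟩
    intro y hy
    rw [Set.mem_singleton_iff] at hy
    subst hy
    exact hcomm y hx w hw
  apply le_antisymm _ h1
  intro y hy
  obtain ⟨z, hz', hz1⟩ := (Subgroup.bot_or_exists_ne_one W₂).resolve_left hW2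
  have hyS : y ∈ ⁅S, S⁆ ⊓ Subgroup.centralizer ({x} : Set G) := by
    rw [hz]
    exact hy
  have hyx : x * y = y * x := Subgroup.mem_centralizer_iff.1 hyS.2 x rfl
  obtain ⟨-, -, -, -, hcyc', -⟩ := hP.selfNormalizing
  have hyz : y * z = z * y := by
    have := (IsCyclic.commGroup (α := ↥(W₁ ⊔ W₂'))).mul_comm ⟨y, (le_sup_right : W₂' ≤ W₁ ⊔ W₂') hy⟩ ⟨z, (le_sup_right : W₂' ≤ W₁ ⊔ W₂') (h1 hz')⟩
    exact congrArg Subtype.val this
  have hX : ({x * z} : Set G) ⊆ (↑(W₁ ⊔ W₂) : Set G) \ (↑W₁ ∪ ↑W₂) := by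
    intro u hu
    rw [Set.mem_singleton_iff] at hu
    subst hu
    refine ⟨Subgroup.mul_mem _ ((le_sup_left : W₁ ≤ W₁ ⊔ W₂) hx) ((le_sup_right : W₂ ≤ W₁ ⊔ W₂) hz'), ?_⟩
    rintro (h | h)
    · have h2 : z ∈ W₁ := by
        have : z = x⁻¹ * (x * z) := by group
        rw [this]
        exact W₁.mul_mem (W₁.inv_mem hx) h
      have h3 : z ∈ W₁ ⊓ W₂ := ⟨h2, hz'⟩
      rw [hW12, Subgroup.mem_bot] at h3
      exact hz1 h3
    · have h2 : x ∈ W₂ := by
        have : x = (x * z) * z⁻¹ := by group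
        rw [this]
        exact W₂.mul_mem h (W₂.inv_mem hz')
      have h3 : x ∈ W₁ ⊓ W₂ := ⟨hx, h2⟩
      rw [hW12, Subgroup.mem_bot] at h3
      exact hx1 h3
  have hNX := hN _ hX ⟨_, rfl⟩
  have hyN : y ∈ Subgroup.normalizer ({x * z} : Set G) := by
    apply Cfsg.Agent.Lib.LinChar.mem_norm_singleton
    calc y * (x * z) * y⁻¹ = (y * x) * z * y⁻¹ := by group
      _ = (x * y) * z * y⁻¹ := by rw [hyx]
      _ = x * (y * z) * y⁻¹ := by group
      _ = x * (z * y) * y⁻¹ := by rw [hyz]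
      _ = x * z := by group
  rw [hNX] at hyN
  have hle : W₁ ≤ Subgroup.normalizer (W₂ : Set G) := fun a ha =>
    Cfsg.Agent.Lib.H2Basic.mem_normalizer_of_forall_comm fun b hb => hcomm a ha b hb
  obtain ⟨a, ha, b, hb, e⟩ := Cfsg.Agent.Lib.Replacement.mem_sup_of_le_normalizer hle hyN
  have hbS : b ∈ ⁅S, S⁆ := by
    have h2 := h1 hb
    rw [← hz] at h2
    exact h2.1
  have haS : a ∈ ⁅S, S⁆ ⊓ W₁ := by
    refine ⟨?_, ha⟩
    have : a = y * b⁻¹ := by rw [e]; group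
    rw [this]
    exact Subgroup.mul_mem _ hyS.1 (Subgroup.inv_mem _ hbS)
  rw [hS'W, Subgroup.mem_bot] at haS
  rw [e, haS, one_mul]
  exact hb

end Cfsg.Agent.S1386
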