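import Cfsg.Statements.S1441
import Cfsg.Agent.Lib.CoprimeAct
-- import your own Cfsg.Agent.* helpers here

set_option autoImplicit false
set_option linter.all false
open Cfsg

namespace Cfsg.Agent.S1441


open scoped commutatorElement


/-- Let G be a finite group, H a solvable subgroup and A a subgroup normalizing H. Suppose there is a chain H = H₀ ≥ H₁ ≥ ⋯ ≥ H_n = 1 of subgroups normal in H and normalized by A such that A acts trivially on each factor H_{i-1}/H_i (that is, [H_{i-1}, A] ≤ H_i). Then every prime dividing the index of C_A(H) in A divides the order of H. -/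
theorem result {G : Type*} [Group G] [Finite G] (H A : Subgroup G) (hH : Group.IsSolvable H) (hA : (A ≤ Subgroup.normalizer (H : Set G)))
    (n : ℕ) (c : Fin (n + 1) → Subgroup G) (hc0 : c 0 = H) (hcn : c (Fin.last n) = ⊥) (hanti : Antitone c)
    (hcN : ∀ i, H ≤ Subgroup.normalizer ((c i : Subgroup G) : Set G)) (hcA : ∀ i, A ≤ Subgroup.normalizer ((c i : Subgroup G) : Set G))
    (htriv : ∀ i : Fin n, ⁅c i.castSucc, A⁆ ≤ c i.succ) :
    ∀ p : ℕ, p.Prime → p ∣ (A ⊓ Subgroup.centralizer (H : Set G)).relIndex A → p ∣ Nat.card H := by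
  classical
  intro p hp hdvd
  by_contra hpH
  haveI : Fact p.Prime := ⟨hp⟩
  -- `p`-elements of `A` centralize `H`
  have hel : ∀ a ∈ A, ∀ k, orderOf a = p ^ k → ∀ x ∈ H, a * x * a⁻¹ = x := by
    intro a ha k hk
    have hstep : ∀ i : Fin (n + 1), ∀ x ∈ c i, a * x * a⁻¹ = x := by
      intro i
      induction i using Fin.reverseInduction with
      | last =>
        intro x hx
        rw [hcn] at hx
        rw [Subgroup.mem_bot.1 hx]
        group
      | cast i ih =>
        intro x hx
        have hw : ⁅x, a⁆ ∈ c i.succ := htriv i (Subgroup.commutator_mem_commutator hx ha)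
        have hac := ih _ hw
        have hcH : c i.succ ≤ H := by
          rw [← hc0]
          exact hanti (Fin.zero_le _)
        have h1 : a * x * a⁻¹ = ⁅x, a⁆⁻¹ * x := by
          rw [commutatorElement_def]
          group
        have h2 : a * ⁅x, a⁆⁻¹ = ⁅x, a⁆⁻¹ * a := by
          have h3 : a * ⁅x, a⁆ = ⁅x, a⁆ * a := by
            rwa [mul_inv_eq_iff_eq_mul] at hac
          exact Commute.inv_right (show Commute a _ from h3)
        have h4 := Cfsg.Agent.Lib.CoprimeAct.pow_eq_one_of_conj h1 h2 (n := p ^ k) (by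
          rw [← hk]
          exact pow_orderOf_eq_one a)
        -- the order of the commutator is a power of `p` and divides `|H|`
        have h5 : orderOf (⁅x, a⁆⁻¹) ∣ p ^ k := orderOf_dvd_of_pow_eq_one h4
        have h6 : orderOf (⁅x, a⁆⁻¹) ∣ Nat.card H :=
          Subgroup.orderOf_dvd_natCard H (H.inv_mem (hcH hw))
        have h7 : (p ^ k).Coprime (Nat.card H) :=
          Nat.Coprime.pow_left k ((Nat.Prime.coprime_iff_not_dvd hp).2 hpH)
        have h8 : orderOf (⁅x, a⁆⁻¹) = 1 := Nat.eq_one_of_dvd_coprimes h7 h5 h6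
        rw [h1, orderOf_eq_one_iff.1 h8, one_mul]
    have h0 := hstep 0
    rw [hc0] at h0
    exact h0
  -- a Sylow subgroup of `A` lies in the centralizer
  obtain ⟨T⟩ : Nonempty (Sylow p A) := inferInstance
  have hT : (T : Subgroup A) ≤ (A ⊓ Subgroup.centralizer (H : Set G)).subgroupOf A := by
    intro t ht
    rw [Subgroup.mem_subgroupOf]
    refine ⟨t.2, Subgroup.mem_centralizer_iff.2 fun h hh => ?_⟩
    obtain ⟨k, hk⟩ := (IsPGroup.iff_orderOf.1 T.isPGroup') ⟨t, ht⟩
    rw [Subgroup.orderOf_mk] at hk
    have hk : orderOf (t : G) = p ^ k := by rw [Subgroup.orderOf_coe]; exact hk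
    have := hel t t.2 k hk h hh
    rw [mul_inv_eq_iff_eq_mul] at this
    exact this.symm
  have h1 := Subgroup.index_dvd_of_le hT
  exact T.not_dvd_index (hdvd.trans h1)

end Cfsg.Agent.S1441
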