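import Cfsg.Statements.S1443
import Cfsg.Agent.Lib.CoprimeAB
-- import your own Cfsg.Agent.* helpers here

set_option autoImplicit false
set_option linter.all false
open Cfsg

namespace Cfsg.Agent.S1443

/-- Let G be a finite group, p an odd prime, H a p-subgroup, E an elementary abelian subgroup of H, and A a subgroup of order coprime to p normalizing H. If A centralizes every element of order p in H ∩ C_G(E), then A centralizes H. -/
theorem result {G : Type*} [Group G] [Finite G] (p : ℕ) [Fact p.Prime] (hp : p ≠ 2) (H E A : Subgroup G) (hH : IsPGroup p H) (hE : E ≤ H) (hEe : Cfsg.IsElementaryAbelian p E)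
    (hA : (A ≤ Subgroup.normalizer (H : Set G))) (hcop : (Nat.card A).Coprime p)
    (hfix : ∀ x ∈ (H ⊓ Subgroup.centralizer (E : Set G)), orderOf x = p → A ≤ Subgroup.centralizer ({x} : Set G)) :
    A ≤ Subgroup.centralizer (H : Set G) := by
  classical
  have hEc : ∀ e ∈ E, ∀ a ∈ A, a * e = e * a := by
    intro e he a ha
    by_cases h1 : e = 1
    · rw [h1, mul_one, one_mul]
    have hord : orderOf e = p := orderOf_eq_prime (hEe.2 e he) h1
    have hmem : e ∈ H ⊓ Subgroup.centralizer (E : Set G) := by
      refine ⟨hE he, Subgroup.mem_centralizer_iff.2 fun f hf => ?_⟩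
      have := hEe.1.is_comm.comm ⟨f, hf⟩ ⟨e, he⟩
      exact congrArg Subtype.val this
    have := hfix e hmem hord ha
    rw [Subgroup.mem_centralizer_iff] at this
    exact (this e rfl).symm
  have hXp : IsPGroup p ↥(H ⊓ Subgroup.centralizer (E : Set G)) := hH.to_le inf_le_left
  have hXfix : ∀ x ∈ H ⊓ Subgroup.centralizer (E : Set G), ∀ a ∈ A, a * x = x * a := by
    intro x hx a ha
    have haN : a ∈ Subgroup.normalizer (((H ⊓ Subgroup.centralizer (E : Set G)) : Subgroup G) : Set G) := by
      refine Cfsg.Agent.Lib.H2Basic.mem_normalizer_of_conj_le fun y hy => ?_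
      refine ⟨(Subgroup.mem_normalizer_iff.1 (hA ha) y).1 hy.1, Subgroup.mem_centralizer_iff.2 fun e he => ?_⟩
      have h1 : y * e = e * y := (Subgroup.mem_centralizer_iff.1 hy.2 e he).symm
      have h2 := hEc e he a ha
      have h3 : a⁻¹ * e = e * a⁻¹ := by
        rw [inv_mul_eq_iff_eq_mul, ← mul_assoc, h2, mul_assoc, mul_inv_cancel, mul_one]
      calc e * (a * y * a⁻¹) = (e * a) * y * a⁻¹ := by group
        _ = (a * e) * y * a⁻¹ := by rw [h2]
        _ = a * (e * y) * a⁻¹ := by group
        _ = a * (y * e) * a⁻¹ := by rw [h1]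
        _ = a * y * (e * a⁻¹) := by group
        _ = a * y * (a⁻¹ * e) := by rw [h3]
        _ = (a * y * a⁻¹) * e := by group
    have hao : (orderOf a).Coprime p := Nat.Coprime.coprime_dvd_left (Subgroup.orderOf_dvd_natCard A ha) hcop
    refine Cfsg.Agent.Lib.CoprimeAB.omega_lemma hp hXp haN hao ?_ x hx
    intro y hy hyp
    by_cases h1 : y = 1
    · rw [h1, mul_one, one_mul]
    have hord : orderOf y = p := orderOf_eq_prime hyp h1
    have := hfix y hy hord ha
    rw [Subgroup.mem_centralizer_iff] at this
    exact (this y rfl).symm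
  have key := Cfsg.Agent.Lib.CoprimeAB.ab_lemma (P := H) (A := A) (B := E) hH (hH.to_le hE) hA
    (hE.trans Subgroup.le_normalizer) (fun a ha e he => hEc e he a ha) hcop (by
      intro x hx hxE a ha
      refine hXfix x ⟨hx, Subgroup.mem_centralizer_iff.2 fun e he => (hxE e he).symm⟩ a ha)
  intro a ha
  refine Subgroup.mem_centralizer_iff.2 fun h hh => (key h hh a ha).symm

end Cfsg.Agent.S1443
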