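import Cfsg.Statements.S1457
import Mathlib
import Cfsg.Agent.S1465
import Cfsg.Agent.Lib.OddStable
-- import your own Cfsg.Agent.* helpers here

set_option autoImplicit false
set_option linter.all false
open Cfsg

namespace Cfsg.Agent.S1457

/-- Let G be a solvable group of odd order, p a prime, S a Sylow p-subgroup of G and A an abelian subgroup of S normal in S. Then A ≤ O_{p',p}(G). -/
theorem result {G : Type*} [Group G] [Finite G] [Group.IsSolvable G] (hodd : Odd (Nat.card G)) (p : ℕ) [Fact p.Prime] (S : Sylow p G) (A : Subgroup G) (hA : A ≤ (S : Subgroup G)) (hAc : IsMulCommutative A)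
    (hAn : (S : Subgroup G) ≤ Subgroup.normalizer (A : Set G)) :
    A ≤ Cfsg.pPrimePCore p G := by
  classical
  by_cases hp : p = 2
  · subst hp
    have hS1 : (S : Subgroup G) = ⊥ := by
      obtain ⟨k, hk⟩ := IsPGroup.iff_card.1 S.isPGroup'
      have h1 : Nat.card (S : Subgroup G) ∣ Nat.card G := Subgroup.card_subgroup_dvd_card _
      have h2 : Odd (Nat.card (S : Subgroup G)) := Odd.of_dvd_nat hodd h1
      rw [hk] at h2
      have hk0 : k = 0 := by
        by_contra hk0
        have : Even (2 ^ k) := (Nat.even_pow.2 ⟨even_two, hk0⟩)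
        exact (Nat.not_even_iff_odd.2 h2) this
      subst hk0
      rw [pow_zero] at hk
      exact Subgroup.card_eq_one.1 hk
    rw [hS1] at hA
    exact hA.trans bot_le
  · let O := Cfsg.pPrimeCore p G
    haveI hOn : O.Normal := Cfsg.Agent.Lib.FitCore.pPrimeCore_normal p
    let f := QuotientGroup.mk' O
    have hf : Function.Surjective f := QuotientGroup.mk'_surjective O
    have hoddQ : Odd (Nat.card (G ⧸ O)) := Odd.of_dvd_nat hodd ⟨Nat.card O, Subgroup.card_eq_card_quotient_mul_card_subgroup O⟩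
    haveI hsQ : Group.IsSolvable (G ⧸ O) := inferInstance
    let Abar := A.map f
    let Sbar : Sylow p (G ⧸ O) := S.mapSurjective hf
    have hSbar : (Sbar : Subgroup (G ⧸ O)) = (S : Subgroup G).map f := Sylow.coe_mapSurjective _ _ 
    let P := Cfsg.pCore p (G ⧸ O)
    haveI hPn : P.Normal := Cfsg.Agent.Lib.FitCore.pCore_normal p
    have hPp : IsPGroup p P := Cfsg.Agent.Lib.PCore.isPGroup_pCore p _
    have hPS : P ≤ Sbar := Cfsg.Agent.Lib.PCore.pCore_le_sylow Sbar
    have hab : IsMulCommutative Abar := by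
      refine ⟨⟨?_⟩⟩
      rintro ⟨_, x, hx, rfl⟩ ⟨_, y, hy, rfl⟩
      apply Subtype.ext
      have h1 : (⟨x, hx⟩ : A) * ⟨y, hy⟩ = ⟨y, hy⟩ * ⟨x, hx⟩ := hAc.is_comm.comm _ _
      have h2 : x * y = y * x := congrArg Subtype.val h1
      show f x * f y = f y * f x
      rw [← map_mul, ← map_mul, h2]
    have hAp : IsPGroup p Abar := (S.isPGroup'.to_le hA).map f
    have hAN : P ≤ Subgroup.normalizer (Abar : Set (G ⧸ O)) := by
      refine hPS.trans ?_
      rw [hSbar]
      refine (Subgroup.map_mono hAn).trans ?_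
      exact Subgroup.le_normalizer_map f
    have hm := Cfsg.Agent.S1465.result (G := G ⧸ O) hoddQ p hp P hPp {Abar} (by
      intro B hB
      rw [Set.mem_singleton_iff] at hB
      subst hB
      exact ⟨hab, hAp, hAN⟩)
    have h2 := hm.2 Cfsg.Agent.Lib.SolvCore.pPrimeCore_quot_eq_bot inf_le_left
    rw [sSup_singleton] at h2
    intro a ha
    exact h2 ⟨a, ha, rfl⟩

end Cfsg.Agent.S1457
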