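import Cfsg.Statements.S1458
import Mathlib
import Cfsg.Agent.Lib.OddStable
import Cfsg.Agent.Lib.ZJOmega
import Cfsg.Agent.Lib.ZJGood
import Cfsg.Agent.Lib.ZJApps
import Cfsg.Agent.Lib.ZJQuot
-- import your own Cfsg.Agent.* helpers here

set_option autoImplicit false
set_option linter.all false
open Cfsg

namespace Cfsg.Agent.S1458

/-- Let G be a solvable group of odd order, p a prime and S a Sylow p-subgroup of G. Then the subgroup generated by the centre of the Thompson subgroup of S and O_{p'}(G) is normal in G. -/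
theorem result {G : Type*} [Group G] [Finite G] [Group.IsSolvable G] (hodd : Odd (Nat.card G)) (p : ℕ) [Fact p.Prime] (S : Sylow p G) :
    (Cfsg.centerThompsonOf p (S : Subgroup G) ⊔ Cfsg.pPrimeCore p G).Normal := by
  classical
  let O := Cfsg.pPrimeCore p G
  haveI hOn : O.Normal := Cfsg.Agent.Lib.FitCore.pPrimeCore_normal p
  have hY0 : Cfsg.centerThompsonOf p (S : Subgroup G) ≤ (S : Subgroup G) := by
    rw [Cfsg.Agent.Lib.ZJApps.centerThompsonOf_eq]
    exact inf_le_left.trans (Cfsg.Agent.Lib.ZJ.JJ_le (e := p) _)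
  by_cases hp : p = 2
  · subst hp
    have hS1 : (S : Subgroup G) = ⊥ := by
      obtain ⟨k, hk⟩ := IsPGroup.iff_card.1 S.isPGroup'
      have h1 : Nat.card (S : Subgroup G) ∣ Nat.card G := Subgroup.card_subgroup_dvd_card _
      have h2 : Odd (Nat.card (S : Subgroup G)) := Odd.of_dvd_nat hodd h1
      rw [hk] at h2
      have hk0 : k = 0 := by
        by_contra hk0
        have : Even (2 ^ k) := (Nat.even_pow.2 ⟨even_two, hk0⟩)
        exact (Nat.not_even_iff_odd.2 h2) this
      subst hk0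
      rw [pow_zero] at hk
      exact Subgroup.card_eq_one.1 hk
    have hY1 : Cfsg.centerThompsonOf 2 (S : Subgroup G) = ⊥ := le_bot_iff.1 (hY0.trans (le_of_eq hS1))
    rw [hY1, bot_sup_eq]
    exact hOn
  · let f := QuotientGroup.mk' O
    have hf : Function.Surjective f := QuotientGroup.mk'_surjective O
    have hoddQ : Odd (Nat.card (G ⧸ O)) := Odd.of_dvd_nat hodd ⟨Nat.card O, Subgroup.card_eq_card_quotient_mul_card_subgroup O⟩
    have hO : ¬ p ∣ Nat.card O := Cfsg.Agent.Lib.FitCore.not_dvd_card_pPrimeCore p Fact.out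
    have hstab : Cfsg.IsNormalizerPStable p (G ⧸ O) := Cfsg.Agent.Lib.OddStable.stable_of_odd hp hoddQ
    let Sbar : Sylow p (G ⧸ O) := S.mapSurjective hf
    have hSbar : (Sbar : Subgroup (G ⧸ O)) = (S : Subgroup G).map f := Sylow.coe_mapSurjective _ _
    have hY := Cfsg.Agent.Lib.ZJOmega.goodZ (p := p) hp
    have h1 := hY.nrm (G ⧸ O) Sbar ((S : Subgroup G).map f) (by
        rw [← hSbar]
        exact ⟨le_rfl, fun _ _ _ h => h⟩)
      (Cfsg.Agent.Lib.SolvCore.centralizer_pCore_le inferInstance Cfsg.Agent.Lib.SolvCore.pPrimeCore_quot_eq_bot)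
      (fun B hBn hB => Cfsg.Agent.Lib.ZJApps.stabOn_of_normalizerStable hstab hBn hB)
    have hinj := Cfsg.Agent.Lib.ZJQuot.mk_inj (V := (S : Subgroup G)) hO S.isPGroup'
    rw [← hY.map G (G ⧸ O) f (S : Subgroup G) hinj] at h1
    have h2 : ((Cfsg.Agent.Lib.ZJOmega.YZ p G (S : Subgroup G)).map f).comap f = Cfsg.Agent.Lib.ZJOmega.YZ p G (S : Subgroup G) ⊔ O := by
      rw [Subgroup.comap_map_eq, QuotientGroup.ker_mk']
    have h3 := Subgroup.Normal.comap h1 f
    rw [h2] at h3
    exact h3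

end Cfsg.Agent.S1458
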