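import Cfsg.Statements.S1461
import Cfsg.Agent.Lib.CoprimeDec
import Cfsg.Agent.Lib.PLength
import Cfsg.Agent.Lib.H2Basic
import Cfsg.Agent.Lib.SchurZ
import Cfsg.Agent.Lib.Replacement
-- import your own Cfsg.Agent.* helpers here

set_option autoImplicit false
set_option linter.all false
open Cfsg

namespace Cfsg.Agent.S1461

/-- Let G be a finite solvable group, p a prime with G = O_{p',p,p'}(G), and S a Sylow p-subgroup. Then: if S ≤ G' then S ≤ [N_G(S), N_G(S)]; if Y ⊆ S and xYx⁻¹ ⊆ S then x = g c for some g ∈ N_G(S) and c centralizing Y; and for every p-subgroup Q there is x ∈ C_G(Q ∩ S) with xQx⁻¹ ≤ S. -/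
theorem result {G : Type*} [Group G] [Finite G] [Group.IsSolvable G] (p : ℕ) [Fact p.Prime] (hpl : Cfsg.PLengthLE p 1 G) (S : Sylow p G) :
    ((S : Subgroup G) ≤ commutator G → (S : Subgroup G) ≤ ⁅Subgroup.normalizer ((S : Subgroup G) : Set G), Subgroup.normalizer ((S : Subgroup G) : Set G)⁆) ∧
      (∀ (Y : Set G) (x : G), Y ⊆ (S : Subgroup G) → (fun y => x * y * x⁻¹) '' Y ⊆ (S : Subgroup G) →
        ∃ g ∈ Subgroup.normalizer ((S : Subgroup G) : Set G), ∃ c ∈ Subgroup.centralizer Y, g * c = x) ∧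
      ∀ Q : Subgroup G, IsPGroup p Q → ∃ x ∈ Subgroup.centralizer ((Q ⊓ (S : Subgroup G) : Subgroup G) : Set G), Q.map (MulAut.conj x).toMonoidHom ≤ (S : Subgroup G) := by
  classical
  set K := Cfsg.pPrimeCore p G with hKdef
  haveI hKn : K.Normal := Cfsg.pPrimeCore_normal p G
  let U := Subgroup.normalizer ((S : Subgroup G) : Set G)
  have hKU : K ⊔ U = ⊤ := Cfsg.Agent.Lib.PLength.sup_normalizer_eq_top hpl S
  have hSU : (S : Subgroup G) ≤ U := Subgroup.le_normalizer
  have hKp : (Nat.card K).Coprime p := Cfsg.Agent.Lib.PComps.card_coprime_pPrimeCore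
  have hcopS : (Nat.card (S : Subgroup G)).Coprime (Nat.card K) := by
    obtain ⟨k, hk⟩ := IsPGroup.iff_card.1 S.isPGroup'
    rw [hk]
    exact (hKp.pow_right k).symm
  have hSK : K ⊓ (S : Subgroup G) = ⊥ := Cfsg.Agent.Lib.SchurZ.inf_eq_bot_of_coprime hcopS.symm
  refine ⟨?_, ?_, ?_⟩
  · intro hle s hs
    have h1 := Cfsg.Agent.Lib.CoprimeDec.inf_commutator_eq K U (S : Subgroup G) hKU hSU hcopS
    have h2 : s ∈ (S : Subgroup G) ⊓ commutator G := ⟨hs, hle hs⟩
    rw [h1] at h2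
    exact h2.2
  · intro Y x hY hxY
    let H := Subgroup.closure Y
    have hHS : H ≤ (S : Subgroup G) := (Subgroup.closure_le _).2 hY
    have hcopH : (Nat.card H).Coprime (Nat.card K) :=
      hcopS.coprime_dvd_left (Subgroup.card_dvd_of_le hHS)
    have hmap : H.map (MulAut.conj x).toMonoidHom ≤ U := by
      refine le_trans ?_ hSU
      rw [Subgroup.map_le_iff_le_comap]
      refine (Subgroup.closure_le _).2 ?_
      intro y hy
      exact hxY ⟨y, hy, rfl⟩
    obtain ⟨u, hu, c, hc, e⟩ := Cfsg.Agent.Lib.CoprimeDec.exists_decomp_of_conj_le K U H hKU (hHS.trans hSU) hcopH (Or.inl inferInstance) x hmap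
    refine ⟨u, hu, c, ?_, e.symm⟩
    exact Subgroup.centralizer_le Subgroup.subset_closure hc.2
  · intro Q hQ
    -- `Q ≤ K S`
    obtain ⟨g, hg⟩ := Cfsg.Agent.Lib.H2Basic.exists_conj_le_sylow hQ S
    haveI hTn : (Cfsg.pPrimePCore p G).Normal := Cfsg.Agent.Lib.PLength.pPrimePCore_normal
    have hsup := Cfsg.Agent.Lib.PLength.sup_eq hpl S
    have hQT : Q ≤ K ⊔ (S : Subgroup G) := by
      rw [hsup]
      intro q hq
      have h1 : g * q * g⁻¹ ∈ (S : Subgroup G) := hg ⟨q, hq, rfl⟩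
      have h2 := hTn.conj_mem _ (Cfsg.Agent.Lib.PLength.sylow_le hpl S h1) g⁻¹
      have e : g⁻¹ * (g * q * g⁻¹) * g⁻¹⁻¹ = q := by group
      rwa [e] at h2
    let B := (K ⊔ Q) ⊓ (S : Subgroup G)
    have hBS : B ≤ (S : Subgroup G) := inf_le_right
    have hKB : K ⊔ B = K ⊔ Q := by
      apply le_antisymm
      · exact sup_le le_sup_left (inf_le_left)
      · intro y hy
        have hy' : y ∈ K ⊔ (S : Subgroup G) := sup_le le_sup_left hQT hy
        have hle : K ≤ Subgroup.normalizer ((S : Subgroup G) : Set G) ∨ (S : Subgroup G) ≤ Subgroup.normalizer (K : Set G) := Or.inr (fun w _ => by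
          rw [Subgroup.normalizer_eq_top K]
          trivial)
        have hle' : (S : Subgroup G) ≤ Subgroup.normalizer (K : Set G) := fun w _ => by
          rw [Subgroup.normalizer_eq_top K]
          trivial
        obtain ⟨s, hs, k, hk, e⟩ := Cfsg.Agent.Lib.Replacement.mem_sup_of_le_normalizer hle' (by rwa [sup_comm] at hy')
        have hsB : s ∈ B := by
          refine ⟨?_, hs⟩
          have : s = y * k⁻¹ := by rw [e]; group
          rw [this]
          exact Subgroup.mul_mem _ hy (Subgroup.inv_mem _ ((le_sup_left : K ≤ K ⊔ Q) hk))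
        rw [e]
        exact Subgroup.mul_mem _ ((le_sup_right : B ≤ K ⊔ B) hsB) ((le_sup_left : K ≤ K ⊔ B) hk)
    have hQc : (Nat.card K).Coprime (Nat.card Q) := by
      obtain ⟨k, hk⟩ := IsPGroup.iff_card.1 hQ
      rw [hk]
      exact hKp.pow_right k
    have h1 := Cfsg.Agent.Lib.SchurZ.card_sup_of_disjoint K B (le_bot_iff.1 (hSK ▸ inf_le_inf_left K hBS))
    have h2 := Cfsg.Agent.Lib.SchurZ.card_sup_of_disjoint K Q (Cfsg.Agent.Lib.SchurZ.inf_eq_bot_of_coprime hQc)
    have hcard : Nat.card B = Nat.card Q := by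
      rw [hKB, h2] at h1
      exact (Nat.eq_of_mul_eq_mul_left Nat.card_pos h1).symm
    have hQN : Q ≤ Subgroup.normalizer (K : Set G) := fun w _ => by
      rw [Subgroup.normalizer_eq_top K]
      trivial
    obtain ⟨n, hn, hnQ⟩ := Cfsg.Agent.Lib.SchurZ.sz_conj_ambient K Q B hQN inf_le_left hcard hQc (Or.inl inferInstance)
    refine ⟨n, ?_, ?_⟩
    · refine Subgroup.mem_centralizer_iff.2 ?_
      intro r hr
      obtain ⟨hrQ, hrS⟩ := hr
      have h3 : n * r * n⁻¹ ∈ B := by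
        rw [← hnQ]
        exact ⟨r, hrQ, rfl⟩
      have h4 : n * r * n⁻¹ * r⁻¹ ∈ K ⊓ (S : Subgroup G) := by
        refine ⟨?_, (S : Subgroup G).mul_mem (hBS h3) ((S : Subgroup G).inv_mem hrS)⟩
        have : n * r * n⁻¹ * r⁻¹ = n * (r * n⁻¹ * r⁻¹) := by group
        rw [this]
        exact K.mul_mem hn (hKn.conj_mem _ (K.inv_mem hn) r)
      rw [hSK, Subgroup.mem_bot] at h4
      have h5 : n * r * n⁻¹ = r := mul_inv_eq_one.1 h4
      have h6 : n * r = r * n := mul_inv_eq_iff_eq_mul.1 h5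
      exact h6.symm
    · rw [hnQ]
      exact hBS

end Cfsg.Agent.S1461
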