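import Cfsg.Statements.S1462
import Mathlib
import Cfsg.Agent.Lib.PLength
import Cfsg.Agent.Lib.H2Basic
import Cfsg.Agent.Lib.SchurZ
import Cfsg.Agent.Lib.Replacement
import Cfsg.Agent.Lib.CoprimeAB
import Cfsg.Agent.Lib.SolvCore
-- import your own Cfsg.Agent.* helpers here

set_option autoImplicit false
set_option linter.all false
open Cfsg

namespace Cfsg.Agent.S1462

/-- Let G be a finite solvable group, p an odd prime with G = O_{p',p,p'}(G), E an elementary abelian p-subgroup contained in no larger elementary abelian p-subgroup of G, and L a subgroup of order coprime to p normalized by E. Then L ≤ O_{p'}(G). -/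
theorem result {G : Type*} [Group G] [Finite G] [Group.IsSolvable G] (p : ℕ) [Fact p.Prime] (hp : p ≠ 2) (hpl : Cfsg.PLengthLE p 1 G) (E L : Subgroup G) (hE : Cfsg.IsElementaryAbelian p E)
    (hEmax : ∀ B : Subgroup G, Cfsg.IsElementaryAbelian p B → E ≤ B → B = E) (hL : (Nat.card L).Coprime p) (hEL : E ≤ Subgroup.normalizer (L : Set G)) :
    L ≤ Cfsg.pPrimeCore p G := by
  classical
  set K := Cfsg.pPrimeCore p G with hKdef
  haveI hKn : K.Normal := Cfsg.pPrimeCore_normal p G
  have hKp : (Nat.card K).Coprime p := Cfsg.Agent.Lib.PComps.card_coprime_pPrimeCore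
  obtain ⟨hEc, hEp⟩ := hE
  have hEpg : IsPGroup p E := fun e => ⟨1, by
    apply Subtype.ext
    simpa using hEp e e.2⟩
  obtain ⟨S, hES⟩ := hEpg.exists_le_sylow
  have hSK : K ⊓ (S : Subgroup G) = ⊥ := by
    apply Cfsg.Agent.Lib.SchurZ.inf_eq_bot_of_coprime
    obtain ⟨k, hk⟩ := IsPGroup.iff_card.1 S.isPGroup'
    rw [hk]
    exact hKp.pow_right k
  have hKU := Cfsg.Agent.Lib.PLength.sup_normalizer_eq_top hpl S
  have hT := Cfsg.Agent.Lib.PLength.sup_eq hpl S
  haveI hTn : (Cfsg.pPrimePCore p G).Normal := Cfsg.Agent.Lib.PLength.pPrimePCore_normal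
  let π := QuotientGroup.mk' K
  have hπ : ∀ y : G, π y = 1 ↔ y ∈ K := fun y => QuotientGroup.eq_one_iff y
  -- a `p'`-element of `T` lies in `K`
  have hT_p' : ∀ y ∈ Cfsg.pPrimePCore p G, (orderOf y).Coprime p → y ∈ K := by
    intro y hy hyc
    have h1 : π y ∈ Cfsg.pCore p (G ⧸ K) := hy
    have h2 := (Cfsg.Agent.Lib.FitCore.pCore_isPGroup (G := G ⧸ K) p)
    obtain ⟨k, hk⟩ := h2 ⟨π y, h1⟩
    have hk' : (π y) ^ p ^ k = 1 := congrArg Subtype.val hk
    have h3 : orderOf (π y) ∣ p ^ k := orderOf_dvd_of_pow_eq_one hk'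
    have h4 : orderOf (π y) ∣ orderOf y := orderOf_map_dvd π y
    have h5 := Nat.eq_one_of_dvd_coprimes (hyc.pow_right k) h4 h3
    exact (hπ y).1 (orderOf_eq_one_iff.1 h5)
  intro x hx
  have hxo : (orderOf x).Coprime p := hL.coprime_dvd_left (Subgroup.orderOf_dvd_natCard L hx)
  have hle : Subgroup.normalizer ((S : Subgroup G) : Set G) ≤ Subgroup.normalizer (K : Set G) := fun w _ => by
    rw [Subgroup.normalizer_eq_top K]
    trivial
  obtain ⟨u, hu, k, hk, exu⟩ := Cfsg.Agent.Lib.Replacement.mem_sup_of_le_normalizer hle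
    (show x ∈ Subgroup.normalizer ((S : Subgroup G) : Set G) ⊔ K by rw [sup_comm, hKU]; trivial)
  have hπux : π u = π x := by
    rw [exu, map_mul, (hπ k).2 hk, mul_one]
  -- `u` has order prime to `p`
  have huo : (orderOf u).Coprime p := by
    have h1 : π (u ^ orderOf x) = 1 := by
      rw [map_pow, hπux, ← map_pow, pow_orderOf_eq_one, map_one]
    have h2 : u ^ orderOf x ∈ K := (hπ _).1 h1
    have h3 : (u ^ orderOf x) ^ Nat.card K = 1 := orderOf_dvd_iff_pow_eq_one.1 (Subgroup.orderOf_dvd_natCard K h2)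
    rw [← pow_mul] at h3
    have h4 := orderOf_dvd_of_pow_eq_one h3
    exact Nat.Coprime.coprime_dvd_left h4 (Nat.Coprime.mul_left hxo hKp)
  -- `u` centralizes `E`
  have hue : ∀ e ∈ E, u * e = e * u := by
    intro e he
    have heN := hEL he
    have h1 : x * e * x⁻¹ * e⁻¹ ∈ L := by
      have h2 : e * x⁻¹ * e⁻¹ ∈ L := (Subgroup.mem_normalizer_iff.1 heN x⁻¹).1 (L.inv_mem hx)
      have : x * e * x⁻¹ * e⁻¹ = x * (e * x⁻¹ * e⁻¹) := by group
      rw [this]
      exact L.mul_mem hx h2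
    have heT : e ∈ Cfsg.pPrimePCore p G := Cfsg.Agent.Lib.PLength.sylow_le hpl S (hES he)
    have h2 : x * e * x⁻¹ * e⁻¹ ∈ Cfsg.pPrimePCore p G :=
      Subgroup.mul_mem _ (hTn.conj_mem e heT x) (Subgroup.inv_mem _ heT)
    have h3 : x * e * x⁻¹ * e⁻¹ ∈ K :=
      hT_p' _ h2 (hL.coprime_dvd_left (Subgroup.orderOf_dvd_natCard L h1))
    have h4 : π (u * e * u⁻¹ * e⁻¹) = 1 := by
      have h5 : π (x * e * x⁻¹ * e⁻¹) = 1 := (hπ _).2 h3
      simp only [map_mul, map_inv] at h5 ⊢
      rw [hπux]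
      exact h5
    have h5 : u * e * u⁻¹ * e⁻¹ ∈ K ⊓ (S : Subgroup G) := by
      refine ⟨(hπ _).1 h4, ?_⟩
      exact (S : Subgroup G).mul_mem ((Subgroup.mem_normalizer_iff.1 hu e).1 (hES he)) ((S : Subgroup G).inv_mem (hES he))
    rw [hSK, Subgroup.mem_bot] at h5
    have h6 : u * e * u⁻¹ = e := mul_inv_eq_one.1 h5
    exact mul_inv_eq_iff_eq_mul.1 h6
  -- elements of order `p` of `C_S(E)`
  have hord : ∀ z ∈ (S : Subgroup G), (∀ e ∈ E, z * e = e * z) → z ^ p = 1 → z ∈ E := by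
    intro z hz hze hzp
    have hzN : Subgroup.zpowers z ≤ Subgroup.normalizer (E : Set G) := by
      rw [Subgroup.zpowers_le]
      exact Cfsg.Agent.Lib.H2Basic.mem_normalizer_of_forall_comm fun b hb => hze b hb
    have hform : ∀ y ∈ E ⊔ Subgroup.zpowers z, ∃ i : ℤ, ∃ e ∈ E, y = z ^ i * e := by
      intro y hy
      rw [sup_comm] at hy
      obtain ⟨a, ha, b, hb, e⟩ := Cfsg.Agent.Lib.Replacement.mem_sup_of_le_normalizer hzN hy
      obtain ⟨i, rfl⟩ := Subgroup.mem_zpowers_iff.1 ha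
      exact ⟨i, b, hb, e⟩
    have hcz : ∀ (i : ℤ), ∀ e ∈ E, z ^ i * e = e * z ^ i := by
      intro i e he
      exact ((show Commute z e from hze e he).zpow_left i)
    have hEcomm : ∀ a ∈ E, ∀ b ∈ E, a * b = b * a := by
      intro a ha b hb
      have := hEc.is_comm.comm ⟨a, ha⟩ ⟨b, hb⟩
      exact congrArg Subtype.val this
    have hB : Cfsg.IsElementaryAbelian p (E ⊔ Subgroup.zpowers z) := by
      refine ⟨⟨⟨?_⟩⟩, ?_⟩
      · rintro ⟨a, ha⟩ ⟨b, hb⟩
        apply Subtype.ext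
        obtain ⟨i, e, he, rfl⟩ := hform a ha
        obtain ⟨j, f, hf, rfl⟩ := hform b hb
        change z ^ i * e * (z ^ j * f) = z ^ j * f * (z ^ i * e)
        calc z ^ i * e * (z ^ j * f) = z ^ i * (e * z ^ j) * f := by group
          _ = z ^ i * (z ^ j * e) * f := by rw [hcz j e he]
          _ = z ^ (i + j) * (e * f) := by rw [zpow_add]; group
          _ = z ^ (j + i) * (f * e) := by rw [hEcomm e he f hf, add_comm]
          _ = z ^ j * (z ^ i * f) * e := by rw [zpow_add]; group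
          _ = z ^ j * (f * z ^ i) * e := by rw [hcz i f hf]
          _ = z ^ j * f * (z ^ i * e) := by group
      · intro y hy
        obtain ⟨i, e, he, rfl⟩ := hform y hy
        have h1 : Commute (z ^ i) e := hcz i e he
        rw [h1.mul_pow, hEp e he, mul_one, ← zpow_natCast, ← zpow_mul, mul_comm, zpow_mul, zpow_natCast, hzp, one_zpow]
    have h2 := hEmax _ hB le_sup_left
    rw [← h2]
    exact (le_sup_right : Subgroup.zpowers z ≤ E ⊔ Subgroup.zpowers z) (Subgroup.mem_zpowers z)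
  -- `u` centralizes `C_S(E)`
  have hCP : IsPGroup p ((S : Subgroup G) ⊓ Subgroup.centralizer (E : Set G) : Subgroup G) :=
    S.isPGroup'.to_le inf_le_left
  have huC : u ∈ Subgroup.normalizer (((S : Subgroup G) ⊓ Subgroup.centralizer (E : Set G) : Subgroup G) : Set G) := by
    apply Cfsg.Agent.Lib.H2Basic.mem_normalizer_of_conj_le
    rintro a ⟨haS, haC⟩
    refine ⟨(Subgroup.mem_normalizer_iff.1 hu a).1 haS, Subgroup.mem_centralizer_iff.2 ?_⟩
    intro e he
    have h1 := Subgroup.mem_centralizer_iff.1 haC e he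
    have h2 := hue e he
    have h3 : u⁻¹ * e = e * u⁻¹ := by
      rw [inv_mul_eq_iff_eq_mul, ← mul_assoc, h2, mul_assoc, mul_inv_cancel, mul_one]
    calc e * (u * a * u⁻¹) = (e * u) * a * u⁻¹ := by group
      _ = (u * e) * a * u⁻¹ := by rw [h2]
      _ = u * (e * a) * u⁻¹ := by group
      _ = u * (a * e) * u⁻¹ := by rw [h1]
      _ = u * a * (e * u⁻¹) := by group
      _ = u * a * (u⁻¹ * e) := by rw [h3]
      _ = u * a * u⁻¹ * e := by group
  have huCc := Cfsg.Agent.Lib.CoprimeAB.omega_lemma hp hCP huC huo (fun z hz hzp => by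
    have h1 : z ∈ E := hord z hz.1 (fun e he => (Subgroup.mem_centralizer_iff.1 hz.2 e he).symm) hzp
    exact hue z h1)
  -- `u` centralizes `S`
  have huS := Cfsg.Agent.Lib.CoprimeAB.ab_lemma (P := (S : Subgroup G)) (A := Subgroup.zpowers u) (B := E)
    S.isPGroup' hEpg ((Subgroup.zpowers_le).2 hu) (hES.trans Subgroup.le_normalizer)
    (fun a ha b hb => by
      obtain ⟨i, rfl⟩ := Subgroup.mem_zpowers_iff.1 ha
      exact ((show Commute u b from hue b hb).zpow_left i))
    (by rw [Nat.card_zpowers]; exact huo)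
    (fun z hz hze a ha => by
      obtain ⟨i, rfl⟩ := Subgroup.mem_zpowers_iff.1 ha
      have h1 : u * z = z * u := huCc z ⟨hz, Subgroup.mem_centralizer_iff.2 fun e he => (hze e he).symm⟩
      exact ((show Commute u z from h1).zpow_left i))
  -- conclusion
  have hcentral : π u ∈ Subgroup.centralizer (Cfsg.pCore p (G ⧸ K) : Set (G ⧸ K)) := by
    refine Subgroup.mem_centralizer_iff.2 ?_
    intro y hy
    obtain ⟨t, rfl⟩ := QuotientGroup.mk'_surjective K y
    have ht : t ∈ Cfsg.pPrimePCore p G := hy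
    rw [← hT, sup_comm] at ht
    have hle2 : (S : Subgroup G) ≤ Subgroup.normalizer (K : Set G) := fun w _ => by
      rw [Subgroup.normalizer_eq_top K]
      trivial
    obtain ⟨s, hs, k', hk', e⟩ := Cfsg.Agent.Lib.Replacement.mem_sup_of_le_normalizer hle2 ht
    have h1 : QuotientGroup.mk' K t = π s := by
      rw [e]
      change π (s * k') = π s
      rw [map_mul, (hπ k').2 hk', mul_one]
    rw [h1]
    change π s * π u = π u * π s
    rw [← map_mul, ← map_mul, huS s hs u (Subgroup.mem_zpowers u)]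
  have h1 := Cfsg.Agent.Lib.SolvCore.centralizer_pCore_le (G := G ⧸ K) (p := p) inferInstance Cfsg.Agent.Lib.PComps.pPrimeCore_quotient_eq_bot hcentral
  have h2 : u ∈ K := hT_p' u h1 huo
  rw [exu]
  exact K.mul_mem h2 hk

end Cfsg.Agent.S1462
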