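import Cfsg.Statements.S1463
import Mathlib
import Cfsg.Agent.Lib.GL2Odd
-- import your own Cfsg.Agent.* helpers here

set_option autoImplicit false
set_option linter.all false
open scoped MatrixGroups
open Cfsg

namespace Cfsg.Agent.S1463

/-- Let F be a field of odd characteristic p and H a finite subgroup of odd order of GL(2, F) that leaves no 1-dimensional subspace of F² invariant. Then p does not divide the order of H. -/
theorem result {F : Type*} [Field F] (p : ℕ) [Fact p.Prime] [CharP F p] (hp : p ≠ 2)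
    (H : Subgroup (GL (Fin 2) F)) [Finite H] (hodd : Odd (Nat.card H))
    (hirr : ∀ v : Fin 2 → F, v ≠ 0 → ∃ g ∈ H, (g : Matrix (Fin 2) (Fin 2) F).mulVec v ∉ Submodule.span F {v}) :
    ¬ p ∣ Nat.card H := by
  classical
  intro hpH
  obtain ⟨t₀, ht₀⟩ := exists_prime_orderOf_dvd_card' (G := H) p hpH
  let d : H →* (F)ˣ := Matrix.GeneralLinearGroup.det.comp H.subtype
  let N : Subgroup H := d.ker
  have hNn : N.Normal := MonoidHom.normal_ker d
  let m : N →* Matrix (Fin 2) (Fin 2) F := (Units.coeHom _).comp (H.subtype.comp N.subtype)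
  have hm : Function.Injective m := by
    intro a b hab
    apply Subtype.ext
    apply Subtype.ext
    exact Units.ext hab
  have hdet : ∀ g, (m g).det = 1 := by
    intro g
    have h1 : d (g : H) = 1 := g.2
    have h2 := congrArg (fun u : Fˣ => (u : F)) h1
    simpa [d, m] using h2
  have hoddN : Odd (Nat.card N) := Odd.of_dvd_nat hodd (Subgroup.card_subgroup_dvd_card N)
  have ht₀N : t₀ ∈ N := by
    have h1 : (d t₀) ^ p = 1 := by
      rw [← map_pow, ← ht₀, pow_orderOf_eq_one, map_one]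
    have h2 : ((d t₀ : Fˣ) : F) ^ p = 1 := by
      have := congrArg (fun u : Fˣ => (u : F)) h1
      simpa using this
    have h3 : ((d t₀ : Fˣ) : F) = 1 := by
      have h4 : (((d t₀ : Fˣ) : F) - 1) ^ p = 0 := by
        rw [sub_pow_char, h2]
        simp
      have h5 := pow_eq_zero_iff (Fact.out : p.Prime).ne_zero |>.1 h4
      exact sub_eq_zero.1 h5
    show d t₀ = 1
    exact Units.ext h3
  have hpN : p ∣ Nat.card N := by
    have h1 : orderOf (⟨t₀, ht₀N⟩ : N) = p := by
      rw [Subgroup.orderOf_mk]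
      exact ht₀
    rw [← h1]
    exact orderOf_dvd_natCard _
  have huniq := Cfsg.Agent.Lib.GL2Odd.sylow_unique (F := F) (p := p) m hm hdet hoddN hp hpN
  haveI hsub : Subsingleton (Sylow p N) := by
    haveI : Finite (Sylow p N) := inferInstance
    exact (Nat.card_eq_one_iff_unique.1 huniq).1
  obtain ⟨S⟩ : Nonempty (Sylow p N) := inferInstance
  obtain ⟨e, he0, he⟩ := Cfsg.Agent.Lib.GL2Odd.sylow_fixed_vector (F := F) m hm hdet hpN S
  have hSne : (S : Subgroup N) ≠ ⊥ := S.ne_bot_of_dvd_card hpN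
  obtain ⟨t, htS, ht1⟩ := (Subgroup.bot_or_exists_ne_one (S : Subgroup N)).resolve_left hSne
  have hchar : (S : Subgroup N).Characteristic := Sylow.characteristic_of_subsingleton (p := p) S
  have hinv : ∀ h : H, ∃ μ : F, μ ≠ 0 ∧ ((h : GL (Fin 2) F) : Matrix (Fin 2) (Fin 2) F).mulVec e = μ • e := by
    intro h
    let φ : N ≃* N := MulAut.conjNormal h
    have hmem : φ t ∈ (S : Subgroup N) := by
      have hfix := hchar.fixed φ
      have : t ∈ (S : Subgroup N).comap φ.toMonoidHom := by rw [hfix]; exact htS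
      exact this
    have hfix2 := (he (φ t)).1 hmem
    have hmt : m t ≠ 1 := by
      intro h1
      exact ht1 (hm (by rw [h1, map_one]))
    have hG : ((h : GL (Fin 2) F) : Matrix (Fin 2) (Fin 2) F) * ((h⁻¹ : H) : GL (Fin 2) F).val = 1 := by
      have : ((h : GL (Fin 2) F) * ((h⁻¹ : H) : GL (Fin 2) F)) = 1 := by
        rw [← Subgroup.coe_mul, mul_inv_cancel, Subgroup.coe_one]
      have h2 := congrArg (fun u : GL (Fin 2) F => (u : Matrix (Fin 2) (Fin 2) F)) this
      simpa using h2
    have hG' : ((h⁻¹ : H) : GL (Fin 2) F).val * ((h : GL (Fin 2) F) : Matrix (Fin 2) (Fin 2) F) = 1 := by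
      have : (((h⁻¹ : H) : GL (Fin 2) F) * (h : GL (Fin 2) F)) = 1 := by
        rw [← Subgroup.coe_mul, inv_mul_cancel, Subgroup.coe_one]
      have h2 := congrArg (fun u : GL (Fin 2) F => (u : Matrix (Fin 2) (Fin 2) F)) this
      simpa using h2
    refine Cfsg.Agent.Lib.GL2Odd.eigen_of_conj he0 hmt ((he t).1 htS) _ _ hG hG' ?_
    have hφ : m (φ t) = ((h : GL (Fin 2) F) : Matrix (Fin 2) (Fin 2) F) * m t * ((h⁻¹ : H) : GL (Fin 2) F).val := by
      simp [m, φ, MulAut.conjNormal_apply]
    rw [← hφ]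
    exact hfix2
  obtain ⟨g, hg, hgn⟩ := hirr e he0
  obtain ⟨μ, hμ, hμe⟩ := hinv ⟨g, hg⟩
  apply hgn
  have : (g : Matrix (Fin 2) (Fin 2) F).mulVec e = μ • e := hμe
  rw [this]
  exact Submodule.smul_mem _ _ (Submodule.mem_span_singleton_self e)

end Cfsg.Agent.S1463
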