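import Cfsg.Statements.S1469
import Mathlib
import Cfsg.Agent.Lib.PuigOdd
-- import your own Cfsg.Agent.* helpers here

set_option autoImplicit false
set_option linter.all false
open Cfsg

namespace Cfsg.Agent.S1469

/-- Let p be an odd prime, G a solvable group of odd order and S a Sylow p-subgroup, and let Z be the centre of the Puig subgroup L(S), viewed inside G. Then G is generated by O_{p'}(G) and N_G(Z); and if O_{p'}(G) = 1 then Z is normal in G. -/
theorem result {G : Type*} [Group G] [Finite G] [Group.IsSolvable G] (hodd : Odd (Nat.card G)) (p : ℕ) [Fact p.Prime] (hp : p ≠ 2) (S : Sylow p G) :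
    Cfsg.pPrimeCore p G ⊔ Subgroup.normalizer ((((Subgroup.center ↥(Cfsg.puigSubgroup ↥(S : Subgroup G))).map (Cfsg.puigSubgroup ↥(S : Subgroup G)).subtype).map (S : Subgroup G).subtype : Subgroup G) : Set G) = ⊤ ∧
      (Cfsg.pPrimeCore p G = ⊥ → (((Subgroup.center ↥(Cfsg.puigSubgroup ↥(S : Subgroup G))).map (Cfsg.puigSubgroup ↥(S : Subgroup G)).subtype).map (S : Subgroup G).subtype).Normal) := by
  classical
  rw [Cfsg.Agent.Lib.PuigOdd.coe_center]
  constructor
  · let O := Cfsg.pPrimeCore p G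
    haveI hOn : O.Normal := Cfsg.Agent.Lib.FitCore.pPrimeCore_normal p
    let f := QuotientGroup.mk' O
    have hf : Function.Surjective f := QuotientGroup.mk'_surjective O
    have hoddQ : Odd (Nat.card (G ⧸ O)) := Odd.of_dvd_nat hodd ⟨Nat.card O, Subgroup.card_eq_card_quotient_mul_card_subgroup O⟩
    have hO : ¬ p ∣ Nat.card O := Cfsg.Agent.Lib.FitCore.not_dvd_card_pPrimeCore p Fact.out
    let Sbar : Sylow p (G ⧸ O) := S.mapSurjective hf
    have hSbar : (Sbar : Subgroup (G ⧸ O)) = (S : Subgroup G).map f := Sylow.coe_mapSurjective _ _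
    have hnorm := Cfsg.Agent.Lib.PuigOdd.center_normal hp _ (G ⧸ O) rfl hoddQ Cfsg.Agent.Lib.SolvCore.pPrimeCore_quot_eq_bot Sbar
    rw [hSbar] at hnorm
    have hinj := Cfsg.Agent.Lib.ZJQuot.mk_inj (V := (S : Subgroup G)) hO S.isPGroup'
    have hmap := Cfsg.Agent.Lib.PuigOdd.map_ZL f hinj
    rw [← hmap] at hnorm
    have h2 : ((Cfsg.Agent.Lib.PuigOdd.ZL (S : Subgroup G)).map f).comap f = O ⊔ Cfsg.Agent.Lib.PuigOdd.ZL (S : Subgroup G) := by
      rw [Subgroup.comap_map_eq, QuotientGroup.ker_mk', sup_comm]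
    have h3 : (O ⊔ Cfsg.Agent.Lib.PuigOdd.ZL (S : Subgroup G)).Normal := by
      rw [← h2]
      exact Subgroup.Normal.comap hnorm f
    rw [eq_top_iff]
    intro g _
    obtain ⟨o, ho, n, hn, rfl⟩ := Cfsg.Agent.Lib.ZJQuot.frattini_p' hO (Cfsg.Agent.Lib.PuigOdd.isPGroup_ZL S.isPGroup') h3 g
    exact Subgroup.mul_mem_sup ho hn
  · intro hO
    exact Cfsg.Agent.Lib.PuigOdd.center_normal hp _ G rfl hodd hO S

end Cfsg.Agent.S1469
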