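import Cfsg.Statements.S1470
import Mathlib
import Cfsg.Agent.Lib.NormLine
-- import your own Cfsg.Agent.* helpers here

set_option autoImplicit false
set_option linter.all false
open Cfsg

namespace Cfsg.Agent.S1470

/-- Let p and q be odd primes with (p^q − 1)/(p − 1) coprime to p − 1, and let E be the set of elements a of the field with p ^ q elements whose norm to the prime field is 1 and for which 2 − a also has norm 1. If a⁻¹ ∈ E for every a ∈ E and E has at least two elements, then p ≤ q. -/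
theorem result (p q : ℕ) [Fact p.Prime] [Fact q.Prime] (hp : p ≠ 2) (hq : q ≠ 2) (hA : Nat.Coprime ((p ^ q - 1) / (p - 1)) (p - 1))
    (hinv : ∀ a ∈ {a : GaloisField p q | Algebra.norm (ZMod p) a = 1 ∧ Algebra.norm (ZMod p) (2 - a) = 1}, a⁻¹ ∈ {a : GaloisField p q | Algebra.norm (ZMod p) a = 1 ∧ Algebra.norm (ZMod p) (2 - a) = 1})
    (h2 : 2 ≤ Set.ncard {a : GaloisField p q | Algebra.norm (ZMod p) a = 1 ∧ Algebra.norm (ZMod p) (2 - a) = 1}) :
    p ≤ q := by
  have hq0 : q ≠ 0 := (Fact.out : q.Prime).ne_zero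
  obtain ⟨a, haE, ha1⟩ := Set.exists_ne_of_one_lt_ncard (lt_of_lt_of_le Nat.one_lt_two h2) (1 : GaloisField p q)
  have h := Cfsg.Agent.Lib.NormLine.char_le_of_inv_closed (p := p) (L := GaloisField p q)
    (by rw [GaloisField.finrank p hq0]; exact hq0) (fun a h1 h2 => hinv a ⟨h1, h2⟩) a haE ha1
  rwa [GaloisField.finrank p hq0] at h

end Cfsg.Agent.S1470
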