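import Cfsg.Statements.S1471
import Mathlib
import Cfsg.Agent.Lib.NormJacobi
-- import your own Cfsg.Agent.* helpers here

set_option autoImplicit false
set_option linter.all false
open Cfsg

namespace Cfsg.Agent.S1471

/-- Let p and q be odd primes with (p^q − 1)/(p − 1) coprime to p − 1. Then there are at least two elements a of the field with p ^ q elements such that both a and 2 − a have norm 1 to the prime field. -/
theorem result (p q : ℕ) [Fact p.Prime] [Fact q.Prime] (hp : p ≠ 2) (hq : q ≠ 2) (hA : Nat.Coprime ((p ^ q - 1) / (p - 1)) (p - 1)) :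
    2 ≤ Set.ncard {a : GaloisField p q | Algebra.norm (ZMod p) a = 1 ∧ Algebra.norm (ZMod p) (2 - a) = 1} := by
  classical
  have hp' : p.Prime := Fact.out
  have hq' : q.Prime := Fact.out
  have hq0 : q ≠ 0 := hq'.ne_zero
  letI : Fintype (GaloisField p q) := Fintype.ofFinite _
  have h2' : (2 : GaloisField p q) ≠ 0 := by
    have h1 : ((2 : ℕ) : ZMod p) ≠ 0 := by
      rw [Ne, ZMod.natCast_eq_zero_iff]
      intro h
      exact hp ((Nat.prime_dvd_prime_iff_eq hp' Nat.prime_two).1 h)
    intro h
    apply h1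
    apply (algebraMap (ZMod p) (GaloisField p q)).injective
    rw [map_natCast, map_zero]
    exact_mod_cast h
  have hex : ∃ a : GaloisField p q, a ≠ 1 ∧ Algebra.norm (ZMod p) a = 1 ∧ Algebra.norm (ZMod p) (2 - a) = 1 := by
    by_cases h3 : q = 3
    · exact Cfsg.Agent.Lib.NormJacobi.exists_second_solution_three (by rw [GaloisField.finrank p hq0]; exact h3)
    · apply Cfsg.Agent.Lib.NormJacobi.exists_second_solution hp h2'
      have hq5 : 4 ≤ q := by
        have h4 : q ≠ 4 := by
          rintro rfl
          exact absurd hq' (by norm_num)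
        have := hq'.two_le
        omega
      rw [← Nat.card_eq_fintype_card, GaloisField.card p q hq0]
      exact Nat.pow_le_pow_right hp'.pos hq5
  obtain ⟨a, ha1, ha2, ha3⟩ := hex
  have h1E : (1 : GaloisField p q) ∈ {a : GaloisField p q | Algebra.norm (ZMod p) a = 1 ∧ Algebra.norm (ZMod p) (2 - a) = 1} := by
    refine ⟨map_one _, ?_⟩
    have : (2 : GaloisField p q) - 1 = 1 := by ring
    rw [this, map_one]
  have hE : a ∈ {a : GaloisField p q | Algebra.norm (ZMod p) a = 1 ∧ Algebra.norm (ZMod p) (2 - a) = 1} := ⟨ha2, ha3⟩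
  have hlt : 1 < Set.ncard {a : GaloisField p q | Algebra.norm (ZMod p) a = 1 ∧ Algebra.norm (ZMod p) (2 - a) = 1} := by
    rw [Set.one_lt_ncard_iff (Set.toFinite _)]
    exact ⟨a, 1, hE, h1E, ha1⟩
  exact hlt

end Cfsg.Agent.S1471
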