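import Cfsg.Statements.S1477
import Cfsg.Agent.Lib.CNBasic
-- import your own Cfsg.Agent.* helpers here

set_option autoImplicit false
set_option linter.all false
open Cfsg

namespace Cfsg.Agent.S1477

/-- Let G be a finite group in which every non-identity element has nilpotent centralizer, and H a nilpotent subgroup not properly contained in any nilpotent subgroup. Then the order of H is coprime to its index; if the order of H is not a prime power then H ∩ gHg⁻¹ = 1 whenever gHg⁻¹ ≠ H; and if H ∩ gHg⁻¹ = 1 whenever gHg⁻¹ ≠ H, then C_G(x) ≤ H for every non-identity x ∈ H. -/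
theorem result {G : Type*} [Group G] [Finite G] (hCN : Cfsg.IsCNGroup G) (H : Subgroup G) (hH : Group.IsNilpotent H)
    (hmax : ∀ L : Subgroup G, Group.IsNilpotent L → H ≤ L → L = H) :
    (Nat.card H).Coprime H.index ∧
      (¬ IsPrimePow (Nat.card H) → Nat.card H ≠ 1 → ∀ g : G, H.map (MulAut.conj g).toMonoidHom ≠ H → H ⊓ H.map (MulAut.conj g).toMonoidHom = ⊥) ∧
      ((∀ g : G, H.map (MulAut.conj g).toMonoidHom ≠ H → H ⊓ H.map (MulAut.conj g).toMonoidHom = ⊥) → ∀ x ∈ H, x ≠ 1 → Subgroup.centralizer ({x} : Set G) ≤ H) := by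
  classical
  open Cfsg.Agent.Lib.CNBasic in
  have hcent : ∀ z, z ≠ 1 → (∀ h ∈ H, h * z = z * h) → Subgroup.centralizer ({z} : Set G) = H := by
    intro z hz hc
    exact hmax _ (hCN z hz) (fun h hh => Cfsg.Agent.Lib.CNBasic.mem_centralizer_singleton.2 (hc h hh))
  -- the central elements
  have hpart : ∀ (p : ℕ) [Fact p.Prime], p ∣ Nat.card H → ∀ P₀ : Subgroup G, P₀ ≤ H → IsPGroup p P₀ → ¬ p ∣ P₀.relIndex H → P₀ ≠ ⊥ := by
    intro p _ hpH P₀ hle _ hrel h0
    subst h0
    apply hrel
    rw [Subgroup.relIndex_bot_left]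
    exact hpH
  have hPzc : ∀ {P₀ : Subgroup G} {z : G}, z ∈ P₀ ⊓ Subgroup.centralizer (P₀ : Set G) → ∀ y ∈ P₀, y * z = z * y :=
    fun hz y hy => Subgroup.mem_centralizer_iff.1 hz.2 y hy
  have hHall : (Nat.card H).Coprime H.index := by
    apply Nat.coprime_of_dvd
    intro p hp hpH hpi
    haveI : Fact p.Prime := ⟨hp⟩
    obtain ⟨P₀, hle, hP₀, hrel, hN, hall⟩ := Cfsg.Agent.Lib.CNBasic.exists_sylow_part hH p
    have hP₀1 := hpart p hpH P₀ hle hP₀ hrel
    obtain ⟨P, hP⟩ := hP₀.exists_le_sylow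
    have hlt : P₀ < (P : Subgroup G) := by
      refine lt_of_le_of_ne hP ?_
      intro e
      apply P.not_dvd_index
      have h1 : (P : Subgroup G) ≤ H := e ▸ hle
      exact hpi.trans (Subgroup.index_dvd_of_le h1)
    obtain ⟨x, hxP, hxnot, hxN⟩ := Cfsg.Agent.Lib.SylowCount.exists_mem_normalizer_of_lt P.isPGroup' hlt
    have hxp : IsPGroup p (Subgroup.zpowers x) := P.isPGroup'.to_le ((Subgroup.zpowers_le).2 hxP)
    have hAp : IsPGroup p (P₀ ⊓ Subgroup.centralizer (P₀ : Set G) : Subgroup G) := hP₀.to_le inf_le_left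
    have hxA : x ∈ Subgroup.normalizer ((P₀ ⊓ Subgroup.centralizer (P₀ : Set G) : Subgroup G) : Set G) := by
      apply Cfsg.Agent.Lib.H2Basic.mem_normalizer_of_conj_le
      rintro a ⟨haP, haC⟩
      refine ⟨(Subgroup.mem_normalizer_iff.1 hxN a).1 haP, Subgroup.mem_centralizer_iff.2 ?_⟩
      intro y hy
      have h1 : x⁻¹ * y * x ∈ P₀ := by
        have := (Subgroup.mem_normalizer_iff.1 (Subgroup.inv_mem _ hxN) y).1 hy
        simpa using this
      have h2 := Subgroup.mem_centralizer_iff.1 haC _ h1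
      calc y * (x * a * x⁻¹) = x * ((x⁻¹ * y * x) * a) * x⁻¹ := by group
        _ = x * (a * (x⁻¹ * y * x)) * x⁻¹ := by rw [h2]
        _ = x * a * x⁻¹ * y := by group
    obtain ⟨z, hz, hz1, hxz⟩ := Cfsg.Agent.Lib.CNBasic.exists_fixed_of_pelement hAp (Cfsg.Agent.Lib.CNBasic.center_part_ne_bot hP₀ hP₀1) hxp hxA
    have hc := Cfsg.Agent.Lib.CNBasic.central_of_center_part hH hle hP₀ hall hz.1 (hPzc hz)
    have hxH : x ∈ H := by
      rw [← hcent z hz1 hc]
      exact Cfsg.Agent.Lib.CNBasic.mem_centralizer_singleton.2 hxz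
    exact hxnot (hall x hxH hxp)
  have hQidx : ∀ (q : ℕ) [Fact q.Prime] (Q₀ : Subgroup G), q ∣ Nat.card H → Q₀ ≤ H → ¬ q ∣ Q₀.relIndex H → ¬ q ∣ Q₀.index := by
    intro q _ Q₀ hqH hle hrel hd
    rw [← Subgroup.relIndex_mul_index hle] at hd
    rcases (Nat.Prime.dvd_mul Fact.out).1 hd with h | h
    · exact hrel h
    · exact Nat.Prime.not_coprime_iff_dvd.2 ⟨q, Fact.out, hqH, h⟩ hHall
  have hpel : ∀ {q : ℕ} [Fact q.Prime] {Q : Subgroup G} {a : G}, IsPGroup q Q → a ∈ Q → IsPGroup q (Subgroup.zpowers a) :=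
    fun hQ ha => hQ.to_le ((Subgroup.zpowers_le).2 ha)
  have hord : ∀ {q : ℕ} [Fact q.Prime] {a : G}, IsPGroup q (Subgroup.zpowers a) → ∃ k, orderOf a = q ^ k := by
    intro q _ a h
    obtain ⟨k, hk⟩ := IsPGroup.iff_card.1 h
    rw [Nat.card_zpowers] at hk
    exact ⟨k, hk⟩
  refine ⟨hHall, ?_, ?_⟩
  · intro hnpp hne1 g hg
    by_contra hne
    obtain ⟨x, hx, hx1⟩ := (Subgroup.bot_or_exists_ne_one _).resolve_left hne
    have hxo : orderOf x ≠ 1 := fun h => hx1 (orderOf_eq_one_iff.1 h)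
    obtain ⟨p, hp, hpd⟩ := Nat.exists_prime_and_dvd hxo
    haveI : Fact p.Prime := ⟨hp⟩
    have hyo : orderOf (x ^ (orderOf x / p)) = p := orderOf_pow_orderOf_div (orderOf_pos x).ne' hpd
    set y := x ^ (orderOf x / p) with hy
    have hy1 : y ≠ 1 := by
      intro h
      rw [h, orderOf_one] at hyo
      exact hp.one_lt.ne hyo
    have hyH : y ∈ H := H.pow_mem hx.1 _
    have hyHg : y ∈ H.map (MulAut.conj g).toMonoidHom := Subgroup.pow_mem _ hx.2 _
    have hyg : g⁻¹ * y * g ∈ H := (Cfsg.Agent.Lib.H2Basic.mem_map_conj_iff H g y).1 hyHg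
    have hygo : orderOf (g⁻¹ * y * g) = p := by
      have : g⁻¹ * y * g = (MulAut.conj g⁻¹) y := by simp [MulAut.conj_apply]
      rw [this, MulEquiv.orderOf_eq]
      exact hyo
    have hpH : p ∣ Nat.card H := by
      rw [← hyo]
      exact Subgroup.orderOf_dvd_natCard H hyH
    obtain ⟨q, hq, hqne, hqH⟩ : ∃ q, q.Prime ∧ q ≠ p ∧ q ∣ Nat.card H := by
      by_contra hcon
      push Not at hcon
      apply hnpp
      have h1 := Nat.eq_prime_pow_of_unique_prime_dvd (Nat.card_pos (α := H)).ne' (p := p) (by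
        intro d hd hdd
        by_contra hne'
        exact hcon d hd hne' hdd)
      rw [h1]
      apply (Nat.Prime.prime hp).isPrimePow.pow
      intro h0
      rw [h0, pow_zero] at h1
      exact hne1 h1
    haveI : Fact q.Prime := ⟨hq⟩
    obtain ⟨Q₀, hle, hQ₀, hrel, hN, hall⟩ := Cfsg.Agent.Lib.CNBasic.exists_sylow_part hH q
    have hidx := hQidx q Q₀ hqH hle hrel
    have hQ₀1 := hpart q hqH Q₀ hle hQ₀ hrel
    have hcomm : ∀ a ∈ Q₀, a * y = y * a := by
      intro a ha
      apply Cfsg.Agent.Lib.CNBasic.comm_of_nilp hH (hle ha) hyH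
      obtain ⟨k, hk⟩ := hord (hpel hQ₀ ha)
      rw [hk, hyo]
      exact Nat.Coprime.pow_left k ((Nat.coprime_primes hq hp).2 hqne)
    obtain ⟨R₀, hR₀, hR₀p, -, -, hRall⟩ := Cfsg.Agent.Lib.CNBasic.exists_sylow_part (hCN y hy1) q
    have hQR : Q₀ ≤ R₀ := fun a ha => hRall a (Cfsg.Agent.Lib.CNBasic.mem_centralizer_singleton.2 (hcomm a ha)) (hpel hQ₀ ha)
    have hRQ := Cfsg.Agent.Lib.CNBasic.le_of_pgroup hQR hR₀p hidx
    have hconj : ∀ a ∈ Q₀, g * a * g⁻¹ ∈ Q₀ := by
      intro a ha
      have h1 : g * a * g⁻¹ ∈ Subgroup.centralizer ({y} : Set G) := by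
        apply Cfsg.Agent.Lib.CNBasic.mem_centralizer_singleton.2
        have h2 : a * (g⁻¹ * y * g) = (g⁻¹ * y * g) * a := by
          apply Cfsg.Agent.Lib.CNBasic.comm_of_nilp hH (hle ha) hyg
          obtain ⟨k, hk⟩ := hord (hpel hQ₀ ha)
          rw [hk, hygo]
          exact Nat.Coprime.pow_left k ((Nat.coprime_primes hq hp).2 hqne)
        calc g * a * g⁻¹ * y = g * (a * (g⁻¹ * y * g)) * g⁻¹ := by group
          _ = g * ((g⁻¹ * y * g) * a) * g⁻¹ := by rw [h2]
          _ = y * (g * a * g⁻¹) := by group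
      apply hRQ
      apply hRall _ h1
      have e : Subgroup.zpowers (g * a * g⁻¹) = (Subgroup.zpowers a).map (MulAut.conj g).toMonoidHom := by
        rw [MonoidHom.map_zpowers]
        rfl
      rw [e]
      exact (hpel hQ₀ ha).map _
    have hgN : g ∈ Subgroup.normalizer (Q₀ : Set G) := Cfsg.Agent.Lib.H2Basic.mem_normalizer_of_conj_le hconj
    obtain ⟨w, hw, hw1⟩ := (Subgroup.bot_or_exists_ne_one _).resolve_left (Cfsg.Agent.Lib.CNBasic.center_part_ne_bot hQ₀ hQ₀1)
    have hwc := Cfsg.Agent.Lib.CNBasic.central_of_center_part hH hle hQ₀ hall hw.1 (hPzc hw)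
    have hCw := hcent w hw1 hwc
    have hw' : g * w * g⁻¹ ∈ Q₀ ⊓ Subgroup.centralizer (Q₀ : Set G) := by
      refine ⟨hconj w hw.1, Subgroup.mem_centralizer_iff.2 ?_⟩
      intro b hb
      have h1 : g⁻¹ * b * g ∈ Q₀ := by
        have := (Subgroup.mem_normalizer_iff.1 (Subgroup.inv_mem _ hgN) b).1 hb
        simpa using this
      have h2 := Subgroup.mem_centralizer_iff.1 hw.2 _ h1
      calc b * (g * w * g⁻¹) = g * ((g⁻¹ * b * g) * w) * g⁻¹ := by group
        _ = g * (w * (g⁻¹ * b * g)) * g⁻¹ := by rw [h2]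
        _ = g * w * g⁻¹ * b := by group
    have hw'1 : g * w * g⁻¹ ≠ 1 := by
      intro h
      apply hw1
      have : w = g⁻¹ * (g * w * g⁻¹) * g := by group
      rw [this, h]
      group
    have hwc' := Cfsg.Agent.Lib.CNBasic.central_of_center_part hH hle hQ₀ hall hw'.1 (hPzc hw')
    have hCw' := hcent _ hw'1 hwc'
    apply hg
    refine Subgroup.eq_of_le_of_card_ge ?_ (by rw [Cfsg.Agent.Lib.H2Basic.card_map_conj])
    rintro _ ⟨h, hh, rfl⟩
    change g * h * g⁻¹ ∈ H
    rw [← hCw']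
    apply Cfsg.Agent.Lib.CNBasic.mem_centralizer_singleton.2
    have h1 := hwc h hh
    calc g * h * g⁻¹ * (g * w * g⁻¹) = g * (h * w) * g⁻¹ := by group
      _ = g * (w * h) * g⁻¹ := by rw [h1]
      _ = g * w * g⁻¹ * (g * h * g⁻¹) := by group
  · intro hTI x hx hx1
    have hxo : orderOf x ≠ 1 := fun h => hx1 (orderOf_eq_one_iff.1 h)
    obtain ⟨p, hp, hpd⟩ := Nat.exists_prime_and_dvd hxo
    haveI : Fact p.Prime := ⟨hp⟩
    have hyo : orderOf (x ^ (orderOf x / p)) = p := orderOf_pow_orderOf_div (orderOf_pos x).ne' hpd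
    set y := x ^ (orderOf x / p) with hy
    have hy1 : y ≠ 1 := by
      intro h
      rw [h, orderOf_one] at hyo
      exact hp.one_lt.ne hyo
    have hyH : y ∈ H := H.pow_mem hx _
    have hpH : p ∣ Nat.card H := by
      rw [← hyo]
      exact Subgroup.orderOf_dvd_natCard H hyH
    obtain ⟨P₀, hle, hP₀, hrel, hN, hall⟩ := Cfsg.Agent.Lib.CNBasic.exists_sylow_part hH p
    have hP₀1 := hpart p hpH P₀ hle hP₀ hrel
    obtain ⟨z, hz, hz1⟩ := (Subgroup.bot_or_exists_ne_one _).resolve_left (Cfsg.Agent.Lib.CNBasic.center_part_ne_bot hP₀ hP₀1)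
    have hzc := Cfsg.Agent.Lib.CNBasic.central_of_center_part hH hle hP₀ hall hz.1 (hPzc hz)
    have hCz := hcent z hz1 hzc
    have hqel : ∀ (q : ℕ) [Fact q.Prime] (b : G), b ∈ Subgroup.centralizer ({x} : Set G) → IsPGroup q (Subgroup.zpowers b) → b ∈ H := by
      intro q _ b hb hbq
      have hbx : b * x = x * b := Cfsg.Agent.Lib.CNBasic.mem_centralizer_singleton.1 hb
      by_cases hqH : q ∣ Nat.card H
      · -- `b` normalizes `H`
        have hbH : H.map (MulAut.conj b).toMonoidHom = H := by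
          by_contra hne
          have h1 := hTI b hne
          have h2 : x ∈ H ⊓ H.map (MulAut.conj b).toMonoidHom := by
            refine ⟨hx, ?_⟩
            refine ⟨x, hx, ?_⟩
            change b * x * b⁻¹ = x
            rw [hbx]
            group
          rw [h1, Subgroup.mem_bot] at h2
          exact hx1 h2
        have hbN : ∀ a ∈ H, b * a * b⁻¹ ∈ H := by
          intro a ha
          rw [← hbH]
          exact ⟨a, ha, rfl⟩
        obtain ⟨Q₀, hle', hQ₀, hrel', hN', hall'⟩ := Cfsg.Agent.Lib.CNBasic.exists_sylow_part hH q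
        have hidx := hQidx q Q₀ hqH hle' hrel'
        have hbQ : b ∈ Subgroup.normalizer (Q₀ : Set G) := by
          apply Cfsg.Agent.Lib.H2Basic.mem_normalizer_of_conj_le
          intro a ha
          apply hall' _ (hbN a (hle' ha))
          have e : Subgroup.zpowers (b * a * b⁻¹) = (Subgroup.zpowers a).map (MulAut.conj b).toMonoidHom := by
            rw [MonoidHom.map_zpowers]
            rfl
          rw [e]
          exact (hpel hQ₀ ha).map _
        exact hle' (Cfsg.Agent.Lib.CNBasic.mem_of_normalizes hQ₀ hidx hbq hbQ)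
      · -- `b` and `z` commute in `C(y)`
        have hby : b ∈ Subgroup.centralizer ({y} : Set G) := by
          apply Cfsg.Agent.Lib.CNBasic.mem_centralizer_singleton.2
          exact ((show Commute b x from hbx).pow_right _)
        have hzy : z ∈ Subgroup.centralizer ({y} : Set G) := by
          apply Cfsg.Agent.Lib.CNBasic.mem_centralizer_singleton.2
          exact hPzc hz y (hall y hyH (by
            rw [IsPGroup.iff_card, Nat.card_zpowers, hyo]
            exact ⟨1, (pow_one p).symm⟩)) |>.symm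
        have hcop : (orderOf b).Coprime (orderOf z) := by
          obtain ⟨k, hk⟩ := hord hbq
          rw [hk]
          apply Nat.Coprime.pow_left
          have h1 : orderOf z ∣ Nat.card H := Subgroup.orderOf_dvd_natCard H (hle hz.1)
          exact ((Nat.Prime.coprime_iff_not_dvd Fact.out).2 hqH).coprime_dvd_right h1
        have h3 := Cfsg.Agent.Lib.CNBasic.cn_comm hCN hy1 hby hzy hcop
        rw [← hCz]
        exact Cfsg.Agent.Lib.CNBasic.mem_centralizer_singleton.2 h3
    -- strong induction on the order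
    have key : ∀ (n : ℕ) (b : G), b ∈ Subgroup.centralizer ({x} : Set G) → orderOf b = n → b ∈ H := by
      intro n
      induction n using Nat.strong_induction_on with
      | _ n ih =>
        intro b hb hbn
        by_cases hn1 : n = 1
        · subst hn1
          rw [orderOf_eq_one_iff] at hbn
          rw [hbn]
          exact H.one_mem
        obtain ⟨q, hq, hqn⟩ := Nat.exists_prime_and_dvd hn1
        haveI : Fact q.Prime := ⟨hq⟩
        obtain ⟨c, d, e, -, hcc, ⟨k, hd⟩, hcz, hdz⟩ := Cfsg.Agent.Lib.PResidual.exists_decomp (p := q) b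
        have hcC : c ∈ Subgroup.centralizer ({x} : Set G) := (Subgroup.zpowers_le.2 hb) hcz
        have hdC : d ∈ Subgroup.centralizer ({x} : Set G) := (Subgroup.zpowers_le.2 hb) hdz
        have hdH : d ∈ H := hqel q d hdC (by
          rw [IsPGroup.iff_card, Nat.card_zpowers]
          exact ⟨k, hd⟩)
        have hcn : orderOf c ∣ n := by
          rw [← hbn]
          exact orderOf_dvd_of_mem_zpowers hcz
        have hnpos : 0 < n := by
          rw [← hbn]
          exact orderOf_pos b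
        have hlt : orderOf c < n := by
          apply lt_of_le_of_ne (Nat.le_of_dvd hnpos hcn)
          intro e'
          rw [e'] at hcc
          exact hq.one_lt.ne' (Nat.eq_one_of_dvd_coprimes hcc hqn dvd_rfl)
        have hcH := ih _ hlt c hcC rfl
        rw [e]
        exact H.mul_mem hcH hdH
    intro b hb
    exact key _ b hb rfl

end Cfsg.Agent.S1477
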