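import Cfsg.Statements.S1486
import Cfsg.Agent.Lib.CharCentral

set_option autoImplicit false
set_option linter.style.haveILetI false
set_option linter.unusedVariables false
open scoped ComplexConjugate
open Cfsg

namespace Cfsg.Agent.S1486

/-- Let H be a normal subgroup of the finite group G and θ, φ irreducible characters of H. If φ is a G-conjugate of θ then the functions induced from θ and φ coincide; if φ is not a G-conjugate of θ then the induced functions are orthogonal. -/
theorem result {G : Type*} [Group G] [Fintype G] (H : Subgroup G) [hN : H.Normal] (θ φ : H → ℂ) (hθ : Cfsg.IsIrrCharacter H θ) (hφ : Cfsg.IsIrrCharacter H φ) : ((∃ g : G, φ = fun h : H => θ ⟨g * h * g⁻¹, hN.conj_mem h h.2 g⟩) → Cfsg.indFun H φ = Cfsg.indFun H θ) ∧ ((¬ ∃ g : G, φ = fun h : H => θ ⟨g * h * g⁻¹, hN.conj_mem h h.2 g⟩) → Cfsg.classInner (Cfsg.indFun H φ) (Cfsg.indFun H θ) = 0) := by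
  classical
  constructor
  · rintro ⟨g, rfl⟩
    exact Cfsg.Agent.Lib.CharCentral.indFun_conjFun H θ g
  · intro hno
    letI : Fintype H := Fintype.ofFinite _
    rw [Cfsg.Agent.Lib.CharNormal.classInner_ind_ind]
    have h4 : ∀ x : G, Cfsg.classInner φ (Cfsg.Agent.Lib.CharNormal.conjFun H θ x) = 0 := by
      intro x
      rw [Cfsg.Agent.Lib.CharIrr.classInner_irr hφ (Cfsg.Agent.Lib.CharNormal.isIrr_conjFun H hθ x), if_neg]
      intro h
      exact hno ⟨x, h⟩
    simp [h4]

end Cfsg.Agent.S1486
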