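import Cfsg.Statements.S1487
import Cfsg.Agent.Lib.CharCentral

set_option autoImplicit false
set_option linter.style.haveILetI false
set_option linter.unusedVariables false
open scoped ComplexConjugate
open Cfsg

namespace Cfsg.Agent.S1487

/-- Let A ≤ H be normal subgroups of the finite group G and θ an irreducible character of H. Then θ takes the value θ 1 on all of A if and only if the function induced from θ to G takes its value at 1 on all of A. -/
theorem result {G : Type*} [Group G] [Fintype G] (A H : Subgroup G) [A.Normal] [H.Normal] (hAH : A ≤ H) (θ : H → ℂ) (hθ : Cfsg.IsIrrCharacter H θ) : (∀ a : H, (a : G) ∈ A → θ a = θ 1) ↔ (∀ a : G, a ∈ A → Cfsg.indFun H θ a = Cfsg.indFun H θ 1) := by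
  classical
  haveI : Fintype H := Fintype.ofFinite _
  have hcard : (Nat.card H : ℂ) ≠ 0 := by exact_mod_cast Nat.card_pos.ne'
  have hone : ∀ x : G, Cfsg.Agent.Lib.CharNormal.conjFun H θ x 1 = θ 1 := by
    intro x
    rw [Cfsg.Agent.Lib.CharNormal.conjFun_apply]
    congr 1
    apply Subtype.ext
    simp
  have hind1 : Cfsg.indFun H θ 1 = (Nat.card H : ℂ)⁻¹ * ((Nat.card G : ℂ) * θ 1) := by
    have := Cfsg.Agent.Lib.CharNormal.indFun_coe H θ 1
    simp only [Subgroup.coe_one] at this
    rw [this]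
    simp only [hone, Finset.sum_const, Finset.card_univ, nsmul_eq_mul, Nat.card_eq_fintype_card]
  constructor
  · intro h a ha
    have haH := hAH ha
    have h2 := Cfsg.Agent.Lib.CharNormal.indFun_coe H θ ⟨a, haH⟩
    simp only at h2
    rw [h2, hind1]
    congr 1
    have h3 : ∀ x : G, Cfsg.Agent.Lib.CharNormal.conjFun H θ x ⟨a, haH⟩ = θ 1 := by
      intro x
      rw [Cfsg.Agent.Lib.CharNormal.conjFun_apply]
      apply h
      exact ‹A.Normal›.conj_mem a ha x
    simp only [h3, Finset.sum_const, Finset.card_univ, nsmul_eq_mul, Nat.card_eq_fintype_card]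
  · intro h a ha
    have hind := h a ha
    have h2 := Cfsg.Agent.Lib.CharNormal.indFun_coe H θ a
    rw [h2, hind1] at hind
    have hsum : ∑ x : G, Cfsg.Agent.Lib.CharNormal.conjFun H θ x a = (Nat.card G : ℂ) * θ 1 :=
      mul_left_cancel₀ (inv_ne_zero hcard) hind
    obtain ⟨d, hd⟩ := Cfsg.Agent.Lib.CharOps.exists_degree (Cfsg.Agent.Lib.CharOps.IsIrrCharacter.isCharacter' hθ)
    have hle : ∀ x : G, ‖Cfsg.Agent.Lib.CharNormal.conjFun H θ x a‖ ≤ (d : ℝ) := by
      intro x
      obtain ⟨n, ρ, _, rfl⟩ := hθ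
      have := Cfsg.Agent.Lib.CharCore.norm_character_le ρ (⟨x * a * x⁻¹, ‹H.Normal›.conj_mem a a.2 x⟩ : H)
      rw [Cfsg.Agent.Lib.CharNormal.conjFun_apply]
      have h4 : ρ.character 1 = (Module.finrank ℂ (Fin n → ℂ) : ℂ) := Representation.char_one ρ
      have h5 : ((d : ℕ) : ℂ) = (Module.finrank ℂ (Fin n → ℂ) : ℂ) := by rw [← hd, h4]
      have h6 : d = Module.finrank ℂ (Fin n → ℂ) := by exact_mod_cast h5
      rw [h6]
      exact this
    have := Cfsg.Agent.Lib.CharCentral.eq_of_sum_eq_card (fun x : G => Cfsg.Agent.Lib.CharNormal.conjFun H θ x a) d hle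
      (by rw [hsum, hd, Nat.card_eq_fintype_card]; simp) 1
    rw [Cfsg.Agent.Lib.CharNormal.conjFun_one] at this
    rw [this, hd]
    simp

end Cfsg.Agent.S1487
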