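import Cfsg.Statements.S1488
import Cfsg.Agent.Lib.CharCentral
import Cfsg.Agent.Lib.CharDeg

set_option autoImplicit false
set_option linter.style.haveILetI false
set_option linter.unusedVariables false
open Cfsg

namespace Cfsg.Agent.S1488

/-- Let A be a normal subgroup of the finite group G contained in the subgroup H, let θ be a function on H and θ₁ a function on the image of H in G ⧸ A whose composite with the projection is θ. Then the function induced from θ₁ to G ⧸ A, composed with the projection G → G ⧸ A, equals the function induced from θ to G. -/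
theorem result {G : Type*} [Group G] [Fintype G] (A H : Subgroup G) [A.Normal] (hAH : A ≤ H) [Fintype (G ⧸ A)] [Fintype ↥(H.map (QuotientGroup.mk' A))] (θ : H → ℂ) (θ₁ : ↥(H.map (QuotientGroup.mk' A)) → ℂ) (hθ : ∀ x : H, θ₁ ⟨QuotientGroup.mk' A x, Subgroup.mem_map_of_mem _ x.2⟩ = θ x) (g : G) : Cfsg.indFun (H.map (QuotientGroup.mk' A)) θ₁ (QuotientGroup.mk' A g) = Cfsg.indFun H θ g := by
  classical
  have hAH' : ∀ x : G, (QuotientGroup.mk' A x ∈ H.map (QuotientGroup.mk' A)) ↔ x ∈ H := by
    intro x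
    constructor
    · rintro ⟨y, hy, hxy⟩
      have h1 : (y : G ⧸ A) = x := hxy
      have h2 := QuotientGroup.eq.mp h1
      have h3 : y⁻¹ * x ∈ H := hAH h2
      have : x = y * (y⁻¹ * x) := by group
      rw [this]
      exact H.mul_mem hy h3
    · intro hx
      exact Subgroup.mem_map_of_mem _ hx
  have hindex : (H.map (QuotientGroup.mk' A)).index = H.index := by
    rw [Subgroup.index_map, QuotientGroup.ker_mk', sup_eq_left.mpr hAH]
    simp [MonoidHom.range_eq_top.mpr (QuotientGroup.mk'_surjective A)]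
  have hcard : Nat.card H = Nat.card (H.map (QuotientGroup.mk' A)) * Nat.card A := by
    have h1 := Subgroup.card_mul_index H
    have h2 := Subgroup.card_mul_index (H.map (QuotientGroup.mk' A))
    have h3 := Subgroup.card_eq_card_quotient_mul_card_subgroup A
    have hpos : 0 < H.index := Nat.pos_of_ne_zero Subgroup.index_ne_zero_of_finite
    rw [hindex] at h2
    rw [h3, ← h2] at h1
    apply Nat.eq_of_mul_eq_mul_right hpos
    rw [h1]
    ring
  rw [Cfsg.Agent.Lib.CharOps.indFun_apply, Cfsg.Agent.Lib.CharOps.indFun_apply]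
  have hAc : (Nat.card A : ℂ) ≠ 0 := by exact_mod_cast Nat.card_pos.ne'
  have hHc : (Nat.card (H.map (QuotientGroup.mk' A)) : ℂ) ≠ 0 := by exact_mod_cast Nat.card_pos.ne'
  let F : G ⧸ A → ℂ := fun q => Cfsg.extendByZero (H.map (QuotientGroup.mk' A)) θ₁ (q⁻¹ * QuotientGroup.mk' A g * q)
  have hF : ∀ x : G, Cfsg.extendByZero H θ (x⁻¹ * g * x) = F (x : G ⧸ A) := by
    intro x
    simp only [F]
    have e : ((x : G ⧸ A))⁻¹ * QuotientGroup.mk' A g * (x : G ⧸ A) = QuotientGroup.mk' A (x⁻¹ * g * x) := rfl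
    rw [e]
    by_cases hm : x⁻¹ * g * x ∈ H
    · rw [Cfsg.Agent.Lib.CharOps.extendByZero_of_mem _ _ hm,
        Cfsg.Agent.Lib.CharOps.extendByZero_of_mem _ _ ((hAH' _).mpr hm)]
      exact (hθ ⟨_, hm⟩).symm
    · rw [Cfsg.Agent.Lib.CharOps.extendByZero_of_not_mem _ _ hm,
        Cfsg.Agent.Lib.CharOps.extendByZero_of_not_mem _ _ (fun h => hm ((hAH' _).mp h))]
  have hsum : ∑ x : G, F (x : G ⧸ A) = (Nat.card A : ℂ) * ∑ q, F q := by
    rw [← Finset.sum_fiberwise (s := Finset.univ) (g := fun x : G => (x : G ⧸ A)), Finset.mul_sum]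
    refine Finset.sum_congr rfl fun q _ => ?_
    have h1 : ∀ x ∈ Finset.univ.filter (fun x : G => (x : G ⧸ A) = q), F (x : G ⧸ A) = F q := by
      intro x hx
      rw [(Finset.mem_filter.mp hx).2]
    rw [Finset.sum_congr rfl h1, Finset.sum_const, nsmul_eq_mul]
    congr 2
    rw [← Cfsg.Agent.Lib.CharDeg.card_fiber_mk A q, Nat.card_eq_fintype_card, Fintype.card_subtype]
  simp only [hF]
  rw [hsum, hcard]
  push_cast
  field_simp
  rfl

end Cfsg.Agent.S1488
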