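import Cfsg.Statements.S1489
import Cfsg.Agent.Lib.CharCliff2

set_option autoImplicit false
set_option linter.style.haveILetI false
set_option linter.unusedVariables false
open scoped ComplexConjugate
open Cfsg

namespace Cfsg.Agent.S1489

/-- Let H be a normal subgroup of the finite group G, θ an irreducible character of H, and T the inertia group of θ (the elements g with θ(g h g⁻¹) = θ(h) for all h ∈ H). If ψ and ψ' are irreducible characters of T having nonzero inner product with the function induced from θ to T, then the function induced from ψ to G is an irreducible character of G, and it equals the one induced from ψ' only if ψ = ψ'. -/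
theorem result {G : Type*} [Group G] [Fintype G] (H T : Subgroup G) [hN : H.Normal] [Fintype T] (θ : H → ℂ) (hθ : Cfsg.IsIrrCharacter H θ) (hT : ∀ g : G, g ∈ T ↔ ∀ h : H, θ ⟨g * h * g⁻¹, hN.conj_mem h h.2 g⟩ = θ h) (hHT : H ≤ T) (ψ ψ' : T → ℂ) (hψ : Cfsg.IsIrrCharacter T ψ) (hψ' : Cfsg.IsIrrCharacter T ψ') (hc : Cfsg.classInner (Cfsg.indFun (H.subgroupOf T) (fun x => θ ⟨(x : T), Subgroup.mem_subgroupOf.mp x.2⟩)) ψ ≠ 0) (hc' : Cfsg.classInner (Cfsg.indFun (H.subgroupOf T) (fun x => θ ⟨(x : T), Subgroup.mem_subgroupOf.mp x.2⟩)) ψ' ≠ 0) : Cfsg.IsIrrCharacter G (Cfsg.indFun T ψ) ∧ (Cfsg.indFun T ψ = Cfsg.indFun T ψ' → ψ = ψ') := by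
  classical
  have hTeq : T = Cfsg.Agent.Lib.CharCliff.inertia H θ := by
    ext g
    rw [hT, Cfsg.Agent.Lib.CharCliff.mem_inertia H]
    constructor
    · intro h
      funext n
      exact h n
    · intro h n
      exact congrFun h n
  subst hTeq
  have key : ∀ ψ : Cfsg.Agent.Lib.CharCliff.inertia H θ → ℂ, Cfsg.IsIrrCharacter _ ψ →
      Cfsg.classInner (Cfsg.indFun (H.subgroupOf (Cfsg.Agent.Lib.CharCliff.inertia H θ)) (fun x => θ ⟨(x : Cfsg.Agent.Lib.CharCliff.inertia H θ), Subgroup.mem_subgroupOf.mp x.2⟩)) ψ ≠ 0 →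
      ∃ e : ℕ, e ≠ 0 ∧ ∀ (a : H) (ha : (a : G) ∈ Cfsg.Agent.Lib.CharCliff.inertia H θ), ψ ⟨a, ha⟩ = (e : ℂ) * θ a := by
    intro ψ hψ hc
    apply Cfsg.Agent.Lib.CharCliff2.restrict_of_over H hθ hHT hψ
    intro h0
    apply hc
    rw [Cfsg.Agent.Lib.CharOps.frobenius_reciprocity _ _ (Cfsg.Agent.Lib.CharOps.IsCharacter.isClassFunction' (Cfsg.Agent.Lib.CharOps.IsIrrCharacter.isCharacter' hψ))]
    rw [← Cfsg.Agent.Lib.CharIrr.classInner_conj, h0]
    simp
  obtain ⟨e, he0, hval⟩ := key ψ hψ hc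
  obtain ⟨e', he0', hval'⟩ := key ψ' hψ' hc'
  exact ⟨Cfsg.Agent.Lib.CharCliff2.isIrr_ind_of_over H hθ hHT hψ he0 hval,
    Cfsg.Agent.Lib.CharCliff2.ind_injective_of_over H hθ hHT hψ hψ' he0 he0' hval hval'⟩

end Cfsg.Agent.S1489
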