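import Cfsg.Statements.S1490
import Cfsg.Agent.Lib.CharLinear
import Cfsg.Agent.S0147

set_option autoImplicit false
set_option linter.style.haveILetI false
set_option linter.unusedVariables false
open scoped ComplexConjugate
open Cfsg

namespace Cfsg.Agent.S1490

/-- Let H be a normal subgroup of the finite group G, θ an irreducible character of H with inertia group T, and suppose the commutator of any two elements of T lies in H (T/H abelian). Then there are a positive integer e and a finite set C of irreducible characters of G with e ^ 2 * |C| * |H| = |T|, such that the function induced from θ is e times the sum of the members of C and every member of C has degree [G:T] * e * θ(1). -/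
theorem result {G : Type*} [Group G] [Fintype G] (H T : Subgroup G) [hN : H.Normal] (θ : H → ℂ) (hθ : Cfsg.IsIrrCharacter H θ) (hT : ∀ g : G, g ∈ T ↔ ∀ h : H, θ ⟨g * h * g⁻¹, hN.conj_mem h h.2 g⟩ = θ h) (hab : ∀ x ∈ T, ∀ y ∈ T, x * y * x⁻¹ * y⁻¹ ∈ H) : ∃ (e : ℕ) (C : Finset (G → ℂ)), 0 < e ∧ (∀ χ ∈ C, Cfsg.IsIrrCharacter G χ) ∧ e ^ 2 * C.card * Nat.card H = Nat.card T ∧ Cfsg.indFun H θ = (e : ℂ) • ∑ χ ∈ C, χ ∧ ∀ χ ∈ C, χ 1 = (T.index : ℂ) * e * θ 1 := by
  classical
  have hTeq : T = Cfsg.Agent.Lib.CharCliff.inertia H θ := by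
    ext g
    rw [hT, Cfsg.Agent.Lib.CharCliff.mem_inertia H]
    constructor
    · intro h
      funext n
      exact h n
    · intro h n
      exact congrFun h n
  subst hTeq
  open Cfsg.Agent.Lib.CharCliff Cfsg.Agent.Lib.CharCliff2 Cfsg.Agent.Lib.CharOps Cfsg.Agent.Lib.CharIrr Cfsg.Agent.Lib.CharGen Cfsg.Agent.Lib.CharAb Cfsg.Agent.Lib.CharKernel Cfsg.Agent.Lib.CharLinear in
    letI : Fintype H := Fintype.ofFinite _
    letI : Fintype (inertia H θ) := Fintype.ofFinite _
    letI : Fintype (H.subgroupOf (inertia H θ)) := Fintype.ofFinite _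
    have hle : H ≤ inertia H θ := le_inertia H (IsCharacter.isClassFunction' (IsIrrCharacter.isCharacter' hθ))
    let E : H.subgroupOf (inertia H θ) ≃* H := Subgroup.subgroupOfEquivOfLe hle
    let θ' : H.subgroupOf (inertia H θ) → ℂ := fun x => θ ⟨(x : inertia H θ), Subgroup.mem_subgroupOf.mp x.2⟩
    have hθ' : IsIrrCharacter _ θ' := isIrr_comp_mulEquiv E hθ
    have hθ'c : IsCharacter _ θ' := IsIrrCharacter.isCharacter' hθ'
    let Φ : inertia H θ → ℂ := indFun (H.subgroupOf (inertia H θ)) θ'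
    have hΦ : IsCharacter _ Φ := isCharacter_indFun _ hθ'c
    obtain ⟨d, hd0, hd⟩ := exists_degree_pos hθ
    have hind0 : (H.subgroupOf (inertia H θ)).index ≠ 0 := Subgroup.index_ne_zero_of_finite
    have hΦ1 : Φ 1 = ((H.subgroupOf (inertia H θ)).index : ℂ) * d := by
      show indFun _ θ' 1 = _
      rw [indFun_one]
      congr 1
    have hΦ10 : Φ 1 ≠ 0 := by
      rw [hΦ1]
      have : (((H.subgroupOf (inertia H θ)).index * d : ℕ) : ℂ) ≠ 0 := by
        have : (H.subgroupOf (inertia H θ)).index * d ≠ 0 := Nat.mul_ne_zero hind0 hd0.ne'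
        exact_mod_cast this
      simpa using this
    -- constituents of `Φ`
    have key : ∀ ψ : inertia H θ → ℂ, IsIrrCharacter _ ψ → classInner Φ ψ ≠ 0 →
        ∃ e : ℕ, e ≠ 0 ∧ (∀ (a : H) (ha : (a : G) ∈ inertia H θ), ψ ⟨a, ha⟩ = (e : ℂ) * θ a) := by
      intro ψ hψ hc
      apply restrict_of_over H hθ hle hψ
      intro h0
      apply hc
      show classInner (indFun _ θ') ψ = 0
      rw [frobenius_reciprocity _ _ (IsCharacter.isClassFunction' (IsIrrCharacter.isCharacter' hψ))]
      rw [← classInner_conj, h0]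
      simp
    have hrestr : ∀ (ψ : inertia H θ → ℂ) (e : ℕ), (∀ (a : H) (ha : (a : G) ∈ inertia H θ), ψ ⟨a, ha⟩ = (e : ℂ) * θ a) →
        (fun x : H.subgroupOf (inertia H θ) => ψ (x : inertia H θ)) = (e : ℂ) • θ' := by
      intro ψ e h
      funext x
      have h1 := h ⟨(x : inertia H θ), Subgroup.mem_subgroupOf.mp x.2⟩ x.1.2
      simpa [θ'] using h1
    have hinner : ∀ (ψ : inertia H θ → ℂ) (e : ℕ), IsIrrCharacter _ ψ →
        (∀ (a : H) (ha : (a : G) ∈ inertia H θ), ψ ⟨a, ha⟩ = (e : ℂ) * θ a) → classInner Φ ψ = e := by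
      intro ψ e hψ h
      show classInner (indFun _ θ') ψ = _
      rw [frobenius_reciprocity _ _ (IsCharacter.isClassFunction' (IsIrrCharacter.isCharacter' hψ))]
      rw [hrestr ψ e h, classInner_smul_right, classInner_irr hθ' hθ', if_pos rfl]
      simp
    have hdeg : ∀ (ψ : inertia H θ → ℂ) (e : ℕ),
        (∀ (a : H) (ha : (a : G) ∈ inertia H θ), ψ ⟨a, ha⟩ = (e : ℂ) * θ a) → ψ 1 = (e : ℂ) * d := by
      intro ψ e h
      have h6 := h 1 (hle (Subgroup.one_mem H))
      have h7 : (1 : inertia H θ) = ⟨((1 : H) : G), hle (Subgroup.one_mem H)⟩ := rfl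
      rw [h7, h6, hd]
    obtain ⟨ψ₀, hψ₀, hψ₀ne⟩ := exists_constituent hΦ hΦ10
    obtain ⟨e₀, he₀0, hval₀⟩ := key ψ₀ hψ₀ hψ₀ne
    -- the permutation character of `T/H`
    let π : inertia H θ → ℂ := indFun (H.subgroupOf (inertia H θ)) (fun _ => 1)
    have hone : IsCharacter (H.subgroupOf (inertia H θ)) (fun _ => (1 : ℂ)) := isCharacter_one
    have hπ : IsCharacter _ π := isCharacter_indFun _ hone
    have hnorm : (H.subgroupOf (inertia H θ)).Normal := inferInstance
    have hπker : ∀ b ∈ H.subgroupOf (inertia H θ), π b = π 1 := by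
      intro b hb
      show indFun _ _ b = indFun _ _ 1
      rw [indFun_apply, indFun_apply]
      congr 1
      refine Finset.sum_congr rfl fun x _ => ?_
      have h1 : x⁻¹ * b * x ∈ H.subgroupOf (inertia H θ) := by
        have := hnorm.conj_mem b hb x⁻¹
        simpa using this
      have h2 : x⁻¹ * 1 * x ∈ H.subgroupOf (inertia H θ) := by simp
      rw [extendByZero_of_mem _ _ h1, extendByZero_of_mem _ _ h2]
    have hproj : (e₀ : ℂ) • Φ = fun g => ψ₀ g * π g := by
      funext g
      have h1 := indFun_mul_restrict (H.subgroupOf (inertia H θ)) (fun _ => (1 : ℂ))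
        (IsCharacter.isClassFunction' (IsIrrCharacter.isCharacter' hψ₀)) g
      have h2 : (fun h : H.subgroupOf (inertia H θ) => (1 : ℂ) * ψ₀ h) = (e₀ : ℂ) • θ' := by
        rw [← hrestr ψ₀ e₀ hval₀]
        simp
      rw [h2, indFun_smul] at h1
      rw [mul_comm]
      exact h1
    -- all constituents have the same degree
    have hsame : ∀ ψ : inertia H θ → ℂ, IsIrrCharacter _ ψ → classInner Φ ψ ≠ 0 → ψ 1 = ψ₀ 1 := by
      intro ψ hψ hne
      have h1 : classInner (fun g => ψ₀ g * π g) ψ ≠ 0 := by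
        rw [← hproj, classInner_smul_left]
        exact mul_ne_zero (by exact_mod_cast he₀0) hne
      have hπe := classFunction_expand (IsCharacter.isClassFunction' hπ)
      have h2 : (fun g => ψ₀ g * π g) = ∑ l : IrrCharacter (inertia H θ), classInner π (l : inertia H θ → ℂ) • (fun g => ψ₀ g * (l : inertia H θ → ℂ) g) := by
        funext g
        conv_lhs => rw [hπe]
        simp [Finset.sum_apply, Finset.mul_sum, mul_left_comm]
      rw [h2, classInner_sum_left] at h1
      obtain ⟨l, -, hl⟩ := Finset.exists_ne_zero_of_sum_ne_zero h1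
      rw [classInner_smul_left] at hl
      have hl1 : classInner π (l : inertia H θ → ℂ) ≠ 0 := left_ne_zero_of_mul hl
      have hl2 : classInner (fun g => ψ₀ g * (l : inertia H θ → ℂ) g) ψ ≠ 0 := right_ne_zero_of_mul hl
      have hlker : ∀ x y : inertia H θ, (l : inertia H θ → ℂ) (x * y * x⁻¹ * y⁻¹) = (l : inertia H θ → ℂ) 1 := by
        intro x y
        apply ker_of_constituent hπ l.2 hl1
        apply hπker
        rw [Subgroup.mem_subgroupOf]
        exact hab x x.2 y y.2
      have hl3 : (l : inertia H θ → ℂ) 1 = 1 := degree_one_of_comm l.2 hlker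
      have hirr := isIrr_mul_linear hψ₀ (IsIrrCharacter.isCharacter' l.2) hl3
      have heq : (fun g => ψ₀ g * (l : inertia H θ → ℂ) g) = ψ := by
        by_contra hne'
        apply hl2
        rw [classInner_irr hirr hψ, if_neg hne']
      rw [← heq]
      simp [hl3]
    have hsame_e : ∀ ψ : inertia H θ → ℂ, IsIrrCharacter _ ψ → classInner Φ ψ ≠ 0 →
        (∀ (a : H) (ha : (a : G) ∈ inertia H θ), ψ ⟨a, ha⟩ = (e₀ : ℂ) * θ a) := by
      intro ψ hψ hne
      obtain ⟨e, he0, hval⟩ := key ψ hψ hne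
      have h1 := hsame ψ hψ hne
      rw [hdeg ψ e hval, hdeg ψ₀ e₀ hval₀] at h1
      have hd' : (d : ℂ) ≠ 0 := by exact_mod_cast hd0.ne'
      have h2 : (e : ℂ) = e₀ := mul_right_cancel₀ hd' h1
      have h3 : e = e₀ := by exact_mod_cast h2
      subst h3
      exact hval
    -- the set of constituents
    let C' : Finset (IrrCharacter (inertia H θ)) := Finset.univ.filter (fun ψ => classInner Φ (ψ : inertia H θ → ℂ) ≠ 0)
    have hΦexp : Φ = (e₀ : ℂ) • ∑ ψ ∈ C', (ψ : inertia H θ → ℂ) := by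
      conv_lhs => rw [classFunction_expand (IsCharacter.isClassFunction' hΦ)]
      rw [Finset.smul_sum, Finset.sum_filter]
      refine Finset.sum_congr rfl fun ψ _ => ?_
      split_ifs with h
      · rw [hinner ψ e₀ ψ.2 (hsame_e ψ ψ.2 h)]
      · push Not at h
        rw [h]
        simp
    have hcard : (H.subgroupOf (inertia H θ)).index = e₀ ^ 2 * C'.card := by
      have h1 := congrFun hΦexp 1
      rw [hΦ1] at h1
      have h2 : (∑ ψ ∈ C', (ψ : inertia H θ → ℂ)) 1 = C'.card * ((e₀ : ℂ) * d) := by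
        have h20 : ∀ ψ ∈ C', (ψ : inertia H θ → ℂ) 1 = (e₀ : ℂ) * d := fun ψ hψ =>
          hdeg ψ e₀ (hsame_e ψ ψ.2 (Finset.mem_filter.mp hψ).2)
        rw [Finset.sum_apply, Finset.sum_congr rfl h20]
        simp
      rw [Pi.smul_apply, h2, smul_eq_mul] at h1
      have hd' : (d : ℂ) ≠ 0 := by exact_mod_cast hd0.ne'
      have h3 : ((H.subgroupOf (inertia H θ)).index : ℂ) = ((e₀ ^ 2 * C'.card : ℕ) : ℂ) := by
        apply mul_right_cancel₀ hd'
        rw [h1]
        push_cast
        ring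
      exact_mod_cast h3
    -- induce to `G`
    have hC'over : ∀ ψ ∈ C', (∀ (a : H) (ha : (a : G) ∈ inertia H θ), (ψ : inertia H θ → ℂ) ⟨a, ha⟩ = (e₀ : ℂ) * θ a) :=
      fun ψ hψ => hsame_e ψ ψ.2 (Finset.mem_filter.mp hψ).2
    have hinj : Set.InjOn (fun ψ : IrrCharacter (inertia H θ) => indFun (inertia H θ) (ψ : inertia H θ → ℂ)) C' := by
      intro ψ hψ ψ' hψ' heq
      apply Subtype.ext
      exact ind_injective_of_over H hθ hle ψ.2 ψ'.2 he₀0 he₀0 (hC'over ψ hψ) (hC'over ψ' hψ') heq
    refine ⟨e₀, C'.image (fun ψ : IrrCharacter (inertia H θ) => indFun (inertia H θ) (ψ : inertia H θ → ℂ)), Nat.pos_of_ne_zero he₀0, ?_, ?_, ?_, ?_⟩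
    · intro χ hχ
      obtain ⟨ψ, hψ, rfl⟩ := Finset.mem_image.mp hχ
      exact isIrr_ind_of_over H hθ hle ψ.2 he₀0 (hC'over ψ hψ)
    · rw [Finset.card_image_of_injOn hinj]
      have h1 : Nat.card (inertia H θ) = (H.subgroupOf (inertia H θ)).index * Nat.card (H.subgroupOf (inertia H θ)) := by
        rw [mul_comm, Subgroup.card_mul_index]
      have h2 : Nat.card (H.subgroupOf (inertia H θ)) = Nat.card H := Nat.card_congr E.toEquiv
      rw [h1, h2, hcard]
    · rw [← Cfsg.Agent.S0147.result H (inertia H θ) hle θ]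
      show _ = _
      rw [Finset.sum_image hinj]
      have h3 : indFun (H.subgroupOf (inertia H θ)) (fun x => θ ⟨(x : inertia H θ), Subgroup.mem_subgroupOf.mp x.2⟩) = Φ := rfl
      rw [h3, hΦexp, indFun_smul, indFun_sum]
    · intro χ hχ
      obtain ⟨ψ, hψ, rfl⟩ := Finset.mem_image.mp hχ
      rw [indFun_one, hdeg ψ e₀ (hC'over ψ hψ), hd]
      ring

end Cfsg.Agent.S1490
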