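import Cfsg.Statements.S1492
import Cfsg.Agent.Lib.CharKernel
import Cfsg.Agent.Lib.CharDeg

set_option autoImplicit false
set_option linter.style.haveILetI false
set_option linter.unusedVariables false
open scoped ComplexConjugate
open Cfsg

namespace Cfsg.Agent.S1492

/-- Let ψ be an irreducible character of the finite group G and B ≤ D ≤ C subgroups with B normal in C, every commutator of an element of D with an element of C lying in B (so D/B is central in C/B), and ψ constant equal to ψ 1 on B. Then ψ(1) ^ 2 * |C| * |D| ≤ |G| ^ 2. -/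
theorem result {G : Type*} [Group G] [Finite G] (ψ : G → ℂ) (hψ : Cfsg.IsIrrCharacter G ψ) (B C D : Subgroup G) (hBD : B ≤ D) (hDC : D ≤ C) (hBn : ∀ c ∈ C, ∀ b ∈ B, c * b * c⁻¹ ∈ B) (hcent : ∀ d ∈ D, ∀ c ∈ C, d * c * d⁻¹ * c⁻¹ ∈ B) (hker : ∀ b ∈ B, ψ b = ψ 1) : ‖ψ 1‖ ^ 2 * (Nat.card C : ℝ) * (Nat.card D : ℝ) ≤ (Nat.card G : ℝ) ^ 2 := by
  classical
  cases nonempty_fintype G
  open Cfsg.Agent.Lib.CharKernel Cfsg.Agent.Lib.CharIrr Cfsg.Agent.Lib.CharOps Cfsg.Agent.Lib.CharCore Cfsg.Agent.Lib.CharClass in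
  letI : Fintype C := Fintype.ofFinite _
  obtain ⟨φ, hφ, hne⟩ := exists_constituent_restrict C hψ
  obtain ⟨n, ρ, hρ, rfl⟩ := hφ
  have hψc := Cfsg.Agent.Lib.CharOps.IsIrrCharacter.isCharacter' hψ
  -- `B` acts trivially
  have hBt : ∀ (b : C), (b : G) ∈ B → ρ b = LinearMap.id := by
    intro b hb
    rw [← character_eq_finrank_iff, ← Representation.char_one ρ]
    exact ker_of_constituent (isCharacter_restrict C hψc)
      (Cfsg.Agent.Lib.CharBasic.isIrrCharacter_character ρ hρ) hne (by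
        show ψ b = ψ ((1 : C) : G)
        rw [hker b hb]; rfl)
  -- `D` acts by scalars
  have hDs : ∀ (d : D), ∃ ω : ℂ, ρ ⟨d, hDC d.2⟩ = ω • (LinearMap.id : (Fin n → ℂ) →ₗ[ℂ] (Fin n → ℂ)) := by
    intro d
    haveI := hρ
    apply schur_scalar ρ
    intro c
    have h1 := hBt ⟨(d : G) * c * (d : G)⁻¹ * (c : G)⁻¹, by
      exact C.mul_mem (C.mul_mem (C.mul_mem (hDC d.2) c.2) (C.inv_mem (hDC d.2))) (C.inv_mem c.2)⟩
      (hcent d d.2 c c.2)
    have h2 : (⟨d, hDC d.2⟩ : C) * c = (⟨(d : G) * c * (d : G)⁻¹ * (c : G)⁻¹, by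
        exact C.mul_mem (C.mul_mem (C.mul_mem (hDC d.2) c.2) (C.inv_mem (hDC d.2))) (C.inv_mem c.2)⟩ : C) *
        (c * ⟨d, hDC d.2⟩) := by
      apply Subtype.ext
      simp
    have h3 := congrArg ρ h2
    simp only [map_mul] at h3
    rw [h1] at h3
    exact h3
  letI : Fintype D := Fintype.ofFinite _
  set e := Module.finrank ℂ (Fin n → ℂ) with he
  have hnorm : ∀ d : D, ‖ρ.character ⟨d, hDC d.2⟩‖ = (e : ℝ) := fun d =>
    (norm_character_eq_iff ρ _).mpr (hDs d)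
  have hinner := classInner_irr (Cfsg.Agent.Lib.CharBasic.isIrrCharacter_character ρ hρ)
    (Cfsg.Agent.Lib.CharBasic.isIrrCharacter_character ρ hρ)
  rw [if_pos rfl, Cfsg.classInner] at hinner
  have hCpos : (0 : ℝ) < Nat.card C := by exact_mod_cast Nat.card_pos
  have hCne : (Nat.card C : ℂ) ≠ 0 := by exact_mod_cast Nat.card_pos.ne'
  have hsum : ∑ c : C, ‖ρ.character c‖ ^ 2 = (Nat.card C : ℝ) := by
    have h1 : ∑ c : C, ρ.character c * conj (ρ.character c) = (Nat.card C : ℂ) := by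
      field_simp at hinner
      exact hinner
    have h3 : ((∑ c : C, ‖ρ.character c‖ ^ 2 : ℝ) : ℂ) = (Nat.card C : ℂ) := by
      rw [← h1]
      push_cast
      exact Finset.sum_congr rfl fun g _ => (Complex.mul_conj' _).symm
    exact_mod_cast h3
  let ι : D → C := fun d => ⟨d, hDC d.2⟩
  have hι : Function.Injective ι := fun a b h => Subtype.ext (congrArg (fun x : C => (x : G)) h)
  have hle : (Nat.card D : ℝ) * (e : ℝ) ^ 2 ≤ (Nat.card C : ℝ) := by
    rw [← hsum]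
    have h1 : ∑ d : D, ‖ρ.character (ι d)‖ ^ 2 = (Nat.card D : ℝ) * (e : ℝ) ^ 2 := by
      simp only [ι, hnorm, Finset.sum_const, Finset.card_univ, nsmul_eq_mul, Nat.card_eq_fintype_card]
    rw [← h1, ← Finset.sum_image (f := fun c : C => ‖ρ.character c‖ ^ 2) (fun a _ b _ h => hι h)]
    exact Finset.sum_le_univ_sum_of_nonneg (fun _ => by positivity)
  obtain ⟨k, hk⟩ := Cfsg.Agent.Lib.CharOps.exists_degree hψc
  have hdeg : k ≤ C.index * e := degree_le_index_mul C hψ (Cfsg.Agent.Lib.CharBasic.isIrrCharacter_character ρ hρ) hne k e hk (Representation.char_one ρ)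
  rw [hk, Complex.norm_natCast]
  have hcard : (Nat.card C : ℝ) * (C.index : ℝ) = (Nat.card G : ℝ) := by
    exact_mod_cast Subgroup.card_mul_index C
  have hk' : (k : ℝ) ≤ (C.index : ℝ) * e := by exact_mod_cast hdeg
  have hD0 : (0 : ℝ) ≤ Nat.card D := by positivity
  calc (k : ℝ) ^ 2 * (Nat.card C : ℝ) * (Nat.card D : ℝ)
      ≤ ((C.index : ℝ) * e) ^ 2 * (Nat.card C : ℝ) * (Nat.card D : ℝ) := by
        have : (k : ℝ) ^ 2 ≤ ((C.index : ℝ) * e) ^ 2 := pow_le_pow_left₀ (by positivity) hk' 2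
        gcongr
    _ = (C.index : ℝ) ^ 2 * (Nat.card C : ℝ) * ((Nat.card D : ℝ) * (e : ℝ) ^ 2) := by ring
    _ ≤ (C.index : ℝ) ^ 2 * (Nat.card C : ℝ) * (Nat.card C : ℝ) := by gcongr
    _ = (Nat.card G : ℝ) ^ 2 := by rw [← hcard]; ring

end Cfsg.Agent.S1492
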