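import Cfsg.Statements.S1493
import Cfsg.Agent.Lib.CharGalois2
import Cfsg.Agent.Lib.CharOps
import Cfsg.Agent.Lib.CharIrr
-- import your own Cfsg.Agent.* helpers here

set_option autoImplicit false
set_option linter.all false
open Cfsg

namespace Cfsg.Agent.S1493

/-- Let G be a finite group of order a * b with a and b coprime, let k be coprime to a, and let χ be a character of G. Then there is a character χ' of G such that χ'(g) = χ(g ^ k) whenever the order of g divides a and χ'(g) = χ(g) whenever the order of g is coprime to a; moreover χ' is irreducible if χ is. -/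
theorem result {G : Type*} [Group G] [Finite G] (a b k : ℕ) (hab : Nat.card G = a * b) (hcop : Nat.Coprime a b) (hk : Nat.Coprime k a) (χ : G → ℂ) (hχ : Cfsg.IsCharacter G χ) : ∃ χ' : G → ℂ, Cfsg.IsCharacter G χ' ∧ (Cfsg.IsIrrCharacter G χ → Cfsg.IsIrrCharacter G χ') ∧ (∀ g : G, orderOf g ∣ a → χ' g = χ (g ^ k)) ∧ (∀ g : G, Nat.Coprime (orderOf g) a → χ' g = χ g) := by
  classical
  letI : Fintype G := Fintype.ofFinite G
  obtain ⟨t, ht1, ht2⟩ := Nat.chineseRemainder hcop k 1
  have hta : Nat.Coprime t a := by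
    have h := Nat.ModEq.gcd_eq ht1
    rw [Nat.Coprime, h]
    exact hk
  have htb : Nat.Coprime t b := by
    have h := Nat.ModEq.gcd_eq ht2
    rw [Nat.Coprime, h]
    simp
  have ht : t.Coprime (Nat.card G) := by
    rw [hab]
    exact Nat.Coprime.mul_right hta htb
  refine ⟨fun g => χ (g ^ t), ?_, fun h => Cfsg.Agent.Lib.CharGalois2.isIrr_pow h ht, ?_, ?_⟩
  · have hexp := Cfsg.Agent.Lib.CharIrr.classFunction_expand (Cfsg.Agent.Lib.CharOps.IsCharacter.isClassFunction' hχ)
    have hnat : ∀ θ : Cfsg.IrrCharacter G, ∃ n : ℕ, Cfsg.classInner χ θ.1 = n := fun θ =>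
      Cfsg.Agent.Lib.CharOps.exists_nat_classInner hχ (Cfsg.Agent.Lib.CharOps.IsIrrCharacter.isCharacter' θ.2)
    choose n hn using hnat
    have h1 : (fun g => χ (g ^ t)) = ∑ θ : Cfsg.IrrCharacter G, n θ • (fun g => θ.1 (g ^ t)) := by
      funext g
      have h2 := congrFun hexp (g ^ t)
      simp only [Finset.sum_apply, Pi.smul_apply, smul_eq_mul, hn] at h2
      simp only [Finset.sum_apply, Pi.smul_apply, nsmul_eq_mul]
      exact h2
    rw [h1]
    refine Cfsg.Agent.Lib.CharOps.isCharacter_sum _ _ fun θ _ => ?_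
    have h3 := Cfsg.Agent.Lib.CharOps.isCharacter_nsmul
      (Cfsg.Agent.Lib.CharOps.IsIrrCharacter.isCharacter' (Cfsg.Agent.Lib.CharGalois2.isIrr_pow θ.2 ht)) (n θ)
    rwa [Nat.cast_smul_eq_nsmul] at h3
  · intro g hg
    show χ (g ^ t) = χ (g ^ k)
    congr 1
    exact (pow_eq_pow_iff_modEq).2 (ht1.of_dvd hg)
  · intro g hg
    show χ (g ^ t) = χ g
    congr 1
    have h1 : orderOf g ∣ a * b := by
      rw [← hab]
      exact orderOf_dvd_natCard g
    have h2 : orderOf g ∣ b := hg.dvd_of_dvd_mul_left h1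
    have h3 : g ^ t = g ^ 1 := (pow_eq_pow_iff_modEq).2 (ht2.of_dvd h2)
    rwa [pow_one] at h3

end Cfsg.Agent.S1493
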