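import Cfsg.Statements.S1494
import Cfsg.Agent.Lib.CharLinear

set_option autoImplicit false
set_option linter.style.haveILetI false
set_option linter.unusedVariables false
open Cfsg

namespace Cfsg.Agent.S1494

/-- Let χ be a generalized character of the finite group G, p a prime, x an element of order p and y an element commuting with x. Then χ(x * y) − χ(y) = (1 − ε) * ω for some algebraic integer ω, where ε = exp(2πi/p). -/
theorem result {G : Type*} [Group G] [Finite G] (χ : G → ℂ) (hχ : Cfsg.IsGeneralizedCharacter G χ) (p : ℕ) (hp : p.Prime) (x y : G) (hx : orderOf x = p) (hxy : x * y = y * x) : ∃ ω : ℂ, IsIntegral ℤ ω ∧ χ (x * y) - χ y = (1 - Complex.exp (2 * Real.pi * Complex.I / p)) * ω := by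
  classical
  cases nonempty_fintype G
  open Cfsg.Agent.Lib.CharOps Cfsg.Agent.Lib.CharIrr Cfsg.Agent.Lib.CharAb Cfsg.Agent.Lib.CharCore in
    let ε : ℂ := Complex.exp (2 * Real.pi * Complex.I / p)
    have hε : IsPrimitiveRoot ε p := Complex.isPrimitiveRoot_exp p hp.ne_zero
    haveI : NeZero p := ⟨hp.ne_zero⟩
    have hεint : IsIntegral ℤ ε := IsIntegral.of_pow hp.pos (by rw [hε.pow_eq_one]; exact isIntegral_one)
    -- the abelian subgroup
    let H : Subgroup G := Subgroup.closure {x, y}
    have hxH : x ∈ H := Subgroup.subset_closure (by simp)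
    have hyH : y ∈ H := Subgroup.subset_closure (by simp)
    have hcomm : ∀ a ∈ ({x, y} : Set G), ∀ b ∈ ({x, y} : Set G), a * b = b * a := by
      rintro a (rfl | rfl) b (rfl | rfl)
      · rfl
      · exact hxy
      · exact hxy.symm
      · rfl
    letI : Fintype H := Fintype.ofFinite _
    have hHcomm : ∀ a b : H, a * b = b * a := fun a b =>
      (Subgroup.isMulCommutative_closure hcomm).is_comm.comm a b
    have hlin : ∀ l : IrrCharacter H, (l : H → ℂ) 1 = 1 := commutative_iff_apply_one.mp hHcomm
    -- the statement for a linear character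
    have hlinear : ∀ l : IrrCharacter H, ∃ ω : ℂ, IsIntegral ℤ ω ∧
        (l : H → ℂ) (⟨x, hxH⟩ * ⟨y, hyH⟩) - (l : H → ℂ) ⟨y, hyH⟩ = (1 - ε) * ω := by
      intro l
      have hlc := IsIrrCharacter.isCharacter' l.2
      have hmul := degree_one_mul hlc (hlin l)
      have hpow : (l : H → ℂ) ⟨x, hxH⟩ ^ p = 1 := by
        have h1 := homOfDegreeOne_apply hlc (hlin l) ⟨x, hxH⟩
        rw [← h1, ← Units.val_pow_eq_pow_val, ← map_pow]
        have h2 : (⟨x, hxH⟩ : H) ^ p = 1 := by
          apply Subtype.ext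
          rw [Subgroup.coe_pow]
          show x ^ p = 1
          rw [← hx, pow_orderOf_eq_one]
        rw [h2]
        simp
      obtain ⟨j, -, hj⟩ := hε.eq_pow_of_pow_eq_one hpow
      refine ⟨-((l : H → ℂ) ⟨y, hyH⟩ * ∑ i ∈ Finset.range j, ε ^ i), ?_, ?_⟩
      · apply IsIntegral.neg
        apply IsIntegral.mul
        · obtain ⟨n, ρ, hρ⟩ := hlc
          rw [← hρ]
          exact isIntegral_character ρ _
        · exact IsIntegral.sum _ fun i _ => hεint.pow i
      · rw [hmul, ← hj]
        have := mul_geom_sum ε j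
        linear_combination (l : H → ℂ) ⟨y, hyH⟩ * (-this)
    have hchar : ∀ a : G → ℂ, IsCharacter G a → ∃ ω : ℂ, IsIntegral ℤ ω ∧ a (x * y) - a y = (1 - ε) * ω := by
      intro a ha
      have hres := isCharacter_restrict H ha
      have hexp := classFunction_expand (IsCharacter.isClassFunction' hres)
      choose m hm using fun l : IrrCharacter H => exists_nat_classInner hres (IsIrrCharacter.isCharacter' l.2)
      choose ω hω hωe using hlinear
      refine ⟨∑ l : IrrCharacter H, (m l : ℂ) * ω l, ?_, ?_⟩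
      · refine IsIntegral.sum _ fun l _ => IsIntegral.mul ?_ (hω l)
        have h0 : IsIntegral ℤ ((m l : ℤ) : ℂ) := isIntegral_algebraMap
        simpa using h0
      · have h1 := congrFun hexp (⟨x, hxH⟩ * ⟨y, hyH⟩)
        have h2 := congrFun hexp ⟨y, hyH⟩
        simp only [Finset.sum_apply, Pi.smul_apply, smul_eq_mul, hm] at h1 h2
        have h3 : a (x * y) = ∑ l : IrrCharacter H, (m l : ℂ) * (l : H → ℂ) (⟨x, hxH⟩ * ⟨y, hyH⟩) := h1
        have h4 : a y = ∑ l : IrrCharacter H, (m l : ℂ) * (l : H → ℂ) ⟨y, hyH⟩ := h2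
        rw [h3, h4, ← Finset.sum_sub_distrib, Finset.mul_sum]
        refine Finset.sum_congr rfl fun l _ => ?_
        have := hωe l
        linear_combination (m l : ℂ) * this
    obtain ⟨a, b, ha, hb, rfl⟩ := hχ
    obtain ⟨ωa, hωa, hea⟩ := hchar a ha
    obtain ⟨ωb, hωb, heb⟩ := hchar b hb
    refine ⟨ωa - ωb, hωa.sub hωb, ?_⟩
    simp only [Pi.sub_apply]
    linear_combination hea - heb

end Cfsg.Agent.S1494
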