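import Cfsg.Statements.S1495
import Mathlib
-- import your own Cfsg.Agent.* helpers here

set_option autoImplicit false
set_option linter.all false
open Cfsg

namespace Cfsg.Agent.S1495

/-- Let p be a prime, ε = exp(2πi/p), and n an integer such that n = (1 − ε) * ω for some algebraic integer ω. Then p divides n. -/
theorem result (p : ℕ) (hp : p.Prime) (n : ℤ) (ω : ℂ) (hω : IsIntegral ℤ ω) (h : (n : ℂ) = (1 - Complex.exp (2 * Real.pi * Complex.I / p)) * ω) : (p : ℤ) ∣ n := by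
  classical
  haveI : Fact p.Prime := ⟨hp⟩
  have hprim : IsPrimitiveRoot (Complex.exp (2 * Real.pi * Complex.I / p)) p := by
    exact_mod_cast Complex.isPrimitiveRoot_exp p hp.ne_zero
  set ε := Complex.exp (2 * Real.pi * Complex.I / p) with hε
  by_contra hnd
  have hcop : IsCoprime n (p : ℤ) := by
    have h1 : Prime (p : ℤ) := Nat.prime_iff_prime_int.1 hp
    exact ((Prime.coprime_iff_not_dvd h1).2 hnd).symm
  obtain ⟨a, b, hab⟩ := hcop
  have hne1 : ∀ μ : ℂ, IsPrimitiveRoot μ p → 1 - μ ≠ 0 := by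
    intro μ hμ e
    exact hμ.ne_one hp.one_lt (sub_eq_zero.1 e).symm
  have hint : ∀ μ : ℂ, IsPrimitiveRoot μ p → IsIntegral ℤ μ := fun μ hμ => hμ.isIntegral hp.pos
  have hprod : ∏ μ ∈ primitiveRoots p ℂ, (1 - μ) = (p : ℂ) := by
    have h1 := Polynomial.eval_one_cyclotomic_prime (R := ℂ) (p := p)
    rw [Polynomial.cyclotomic_eq_prod_X_sub_primitiveRoots hprim, Polynomial.eval_prod] at h1
    simpa using h1
  have hεmem : ε ∈ primitiveRoots p ℂ := (mem_primitiveRoots hp.pos).2 hprim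
  -- 1/(1-ε) is integral
  have hu : IsIntegral ℤ (1 - ε)⁻¹ := by
    have e1 : (1 - ε)⁻¹ = (a : ℂ) * ω + (b : ℂ) * ∏ μ ∈ (primitiveRoots p ℂ).erase ε, (1 - μ) := by
      have e2 : (p : ℂ) = (1 - ε) * ∏ μ ∈ (primitiveRoots p ℂ).erase ε, (1 - μ) := by
        rw [← hprod, Finset.mul_prod_erase _ _ hεmem]
      have e3 : ((a * n + b * p : ℤ) : ℂ) = 1 := by rw [hab]; simp
      push_cast at e3
      rw [h, e2] at e3
      field_simp [hne1 ε hprim]
      linear_combination -e3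
    rw [e1]
    have ha : IsIntegral ℤ (a : ℂ) := by
      have := isIntegral_algebraMap (R := ℤ) (A := ℂ) (x := a)
      simpa using this
    have hb : IsIntegral ℤ (b : ℂ) := by
      have := isIntegral_algebraMap (R := ℤ) (A := ℂ) (x := b)
      simpa using this
    refine (ha.mul hω).add (hb.mul ?_)
    refine IsIntegral.prod _ fun μ hμ => ?_
    have hμ' : IsPrimitiveRoot μ p := (mem_primitiveRoots hp.pos).1 (Finset.mem_of_mem_erase hμ)
    exact isIntegral_one.sub (hint μ hμ')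
  have hall : ∀ μ ∈ primitiveRoots p ℂ, IsIntegral ℤ (1 - μ)⁻¹ := by
    intro μ hμ
    have hμ' : IsPrimitiveRoot μ p := (mem_primitiveRoots hp.pos).1 hμ
    obtain ⟨i, -, hi⟩ := hμ'.eq_pow_of_pow_eq_one hprim.pow_eq_one
    have e1 : (1 - ε) = (1 - μ) * ∑ j ∈ Finset.range i, μ ^ j := by
      rw [mul_neg_geom_sum, hi]
    have e2 : (1 - μ)⁻¹ = (1 - ε)⁻¹ * ∑ j ∈ Finset.range i, μ ^ j := by
      have h1 := hne1 μ hμ'
      have h2 := hne1 ε hprim
      rw [eq_comm, inv_mul_eq_div, div_eq_iff h2, e1]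
      field_simp
    rw [e2]
    refine hu.mul ?_
    exact IsIntegral.sum _ fun j _ => (hint μ hμ').pow j
  have hinv : IsIntegral ℤ (p : ℂ)⁻¹ := by
    rw [← hprod, ← Finset.prod_inv_distrib]
    exact IsIntegral.prod _ hall
  have hq : IsIntegral ℤ ((p : ℚ)⁻¹) := by
    have e : algebraMap ℚ ℂ ((p : ℚ)⁻¹) = (p : ℂ)⁻¹ := by simp
    rw [← e] at hinv
    exact (isIntegral_algebraMap_iff (algebraMap ℚ ℂ).injective).1 hinv
  obtain ⟨m, hm⟩ := IsIntegrallyClosed.isIntegral_iff.1 hq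
  have hp0 : (p : ℚ) ≠ 0 := by exact_mod_cast hp.ne_zero
  have e5 : (p : ℚ) * (m : ℚ) = 1 := by
    have : (m : ℚ) = (p : ℚ)⁻¹ := by simpa using hm
    rw [this]
    field_simp
  have e6 : (p : ℤ) * m = 1 := by exact_mod_cast e5
  have e7 : (p : ℤ) ∣ 1 := ⟨m, e6.symm⟩
  have e8 := Int.natAbs_dvd_natAbs.2 e7
  simp at e8
  exact hp.one_lt.ne' e8

end Cfsg.Agent.S1495
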