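import Cfsg.Statements.S1496
import Cfsg.Agent.Lib.SchurZ
-- import your own Cfsg.Agent.* helpers here

set_option autoImplicit false
set_option linter.all false
open Cfsg

namespace Cfsg.Agent.S1496

/-- Let H be a subgroup of the finite group G and g an element normalising H whose order is coprime to the order of H. Then for every h ∈ H there are x ∈ H and c ∈ H commuting with g such that x * (h * g) * x⁻¹ = c * g. -/
theorem result {G : Type*} [Group G] [Finite G] (H : Subgroup G) (g : G) (hg : g ∈ Subgroup.normalizer (H : Set G)) (hcop : Nat.Coprime (orderOf g) (Nat.card H)) (h : G) (hh : h ∈ H) : ∃ x ∈ H, ∃ c ∈ H, c * g = g * c ∧ x * (h * g) * x⁻¹ = c * g := by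
  classical
  -- H is normalized by the cyclic group ⟨g⟩
  set A : Subgroup G := Subgroup.zpowers g with hAdef
  have hAN : A ≤ Subgroup.normalizer (H : Set G) := (Subgroup.zpowers_le).2 hg
  have hcardA : Nat.card A = orderOf g := Nat.card_zpowers g
  have hinf : ∀ k : ℕ, g ^ k ∈ H → g ^ k = 1 := by
    intro k hk
    have h1 : orderOf (g ^ k) ∣ Nat.card H := Subgroup.orderOf_dvd_natCard H hk
    have h2 : orderOf (g ^ k) ∣ orderOf g := orderOf_pow_dvd k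
    exact orderOf_eq_one_iff.1 (Nat.Coprime.eq_one_of_dvd (hcop.coprime_dvd_left h2 |>.symm |>.coprime_dvd_left h1) (dvd_refl _) |> fun h => by simpa using h)
  -- conjugation of H by g
  have hgH : ∀ u ∈ H, g * u * g⁻¹ ∈ H := fun u hu => (Subgroup.mem_set_normalizer_iff.1 hg u).1 hu
  have hgH' : ∀ u ∈ H, g⁻¹ * u * g ∈ H := by
    intro u hu
    have := (Subgroup.mem_set_normalizer_iff.1 hg (g⁻¹ * u * g)).2 (by
      have h1 : g * (g⁻¹ * u * g) * g⁻¹ = u := by group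
      rw [h1]; exact hu)
    exact this
  -- the powers of y = h g lie in the cosets H g^k
  obtain ⟨y, hydef⟩ : ∃ y, y = h * g := ⟨_, rfl⟩
  have hypow : ∀ k : ℕ, ∃ u ∈ H, y ^ k = u * g ^ k := by
    intro k
    induction k with
    | zero => exact ⟨1, H.one_mem, by simp⟩
    | succ k ih =>
      obtain ⟨u, hu, he⟩ := ih
      have hgk : ∀ (m : ℕ), ∀ v ∈ H, g ^ m * v * (g ^ m)⁻¹ ∈ H := by
        intro m
        induction m with
        | zero => intro v hv; simpa using hv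
        | succ m ihm =>
          intro v hv
          have h1 : g ^ (m + 1) * v * (g ^ (m + 1))⁻¹ = g ^ m * (g * v * g⁻¹) * (g ^ m)⁻¹ := by
            rw [pow_succ]; group
          rw [h1]
          exact ihm _ (hgH v hv)
      refine ⟨u * (g ^ k * h * (g ^ k)⁻¹), H.mul_mem hu (hgk k h hh), ?_⟩
      rw [pow_succ, he, hydef, pow_succ]
      group
  -- decomposition
  set n := orderOf g with hn
  set N := Nat.card H with hNdef
  have hn0 : 0 < n := orderOf_pos g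
  have hyn : y ^ n ∈ H := by
    obtain ⟨u, hu, he⟩ := hypow n
    rw [he, hn, pow_orderOf_eq_one, mul_one]
    exact hu
  have hyN : y ^ (n * N) = 1 := by
    rw [pow_mul]
    exact orderOf_dvd_iff_pow_eq_one.1 (Subgroup.orderOf_dvd_natCard H hyn)
  -- Bezout: a n + b N = 1 with integers; use `Nat.exists_mul_mod_eq_one_of_coprime`-free approach via zpow
  have hbez : (n : ℤ) * Nat.gcdA n N + (N : ℤ) * Nat.gcdB n N = 1 := by
    have := Nat.gcd_eq_gcd_ab n N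
    rw [hcop] at this
    exact_mod_cast this.symm
  obtain ⟨y₁, hy₁⟩ : ∃ y₁, y₁ = y ^ ((n : ℤ) * Nat.gcdA n N) := ⟨_, rfl⟩
  obtain ⟨y₂, hy₂⟩ : ∃ y₂, y₂ = y ^ ((N : ℤ) * Nat.gcdB n N) := ⟨_, rfl⟩
  have hy12 : y = y₁ * y₂ := by
    rw [hy₁, hy₂, ← zpow_add, hbez, zpow_one]
  have hy₁H : y₁ ∈ H := by
    rw [hy₁, zpow_mul, zpow_natCast]
    exact H.zpow_mem hyn _
  have hcomm12 : y₁ * y₂ = y₂ * y₁ := by
    rw [hy₁, hy₂, ← zpow_add, ← zpow_add, add_comm]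
  have hy₂n : y₂ ^ n = 1 := by
    rw [hy₂, ← zpow_natCast, ← zpow_mul]
    have h1 : (N : ℤ) * Nat.gcdB n N * (n : ℤ) = ((n * N : ℕ) : ℤ) * Nat.gcdB n N := by push_cast; ring
    rw [h1, zpow_mul, zpow_natCast, hyN, one_zpow]
  -- y₂ = h₂ g with h₂ ∈ H
  obtain ⟨h₂, hh₂, hy₂e⟩ : ∃ h₂ ∈ H, y₂ = h₂ * g := by
    refine ⟨y₁⁻¹ * h, H.mul_mem (H.inv_mem hy₁H) hh, ?_⟩
    have h1 : y₂ = y₁⁻¹ * y := by rw [hy12]; group
    rw [h1, hydef]; group
  have hy₂pow : ∀ k : ℕ, ∃ u ∈ H, y₂ ^ k = u * g ^ k := by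
    intro k
    induction k with
    | zero => exact ⟨1, H.one_mem, by simp⟩
    | succ k ih =>
      obtain ⟨u, hu, he⟩ := ih
      have hgk : ∀ (m : ℕ), ∀ v ∈ H, g ^ m * v * (g ^ m)⁻¹ ∈ H := by
        intro m
        induction m with
        | zero => intro v hv; simpa using hv
        | succ m ihm =>
          intro v hv
          have h1 : g ^ (m + 1) * v * (g ^ (m + 1))⁻¹ = g ^ m * (g * v * g⁻¹) * (g ^ m)⁻¹ := by
            rw [pow_succ]; group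
          rw [h1]
          exact ihm _ (hgH v hv)
      refine ⟨u * (g ^ k * h₂ * (g ^ k)⁻¹), H.mul_mem hu (hgk k h₂ hh₂), ?_⟩
      rw [pow_succ, he, hy₂e, pow_succ]
      group
  have hy₂o : orderOf y₂ = n := by
    apply Nat.dvd_antisymm (orderOf_dvd_of_pow_eq_one hy₂n)
    obtain ⟨u, hu, he⟩ := hy₂pow (orderOf y₂)
    rw [pow_orderOf_eq_one] at he
    have h1 : g ^ orderOf y₂ ∈ H := by
      have h2 : g ^ orderOf y₂ = u⁻¹ := by
        exact (eq_inv_of_mul_eq_one_right he.symm)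
      rw [h2]; exact H.inv_mem hu
    have h3 := hinf _ h1
    exact orderOf_dvd_of_pow_eq_one h3
  -- conjugacy of complements
  have hsol : Group.IsSolvable H ∨ Group.IsSolvable A := by
    right
    haveI : IsCyclic A := inferInstance
    haveI : CommGroup A := IsCyclic.commGroup
    infer_instance
  have hBle : Subgroup.zpowers y₂ ≤ H ⊔ A := by
    rw [Subgroup.zpowers_le, hy₂e]
    exact Subgroup.mul_mem _ ((le_sup_left : H ≤ _) hh₂) ((le_sup_right : A ≤ _) (Subgroup.mem_zpowers g))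
  obtain ⟨c₀, hc₀, hc₀e⟩ := Cfsg.Agent.Lib.SchurZ.sz_conj_ambient H A (Subgroup.zpowers y₂) hAN hBle
    (by rw [Nat.card_zpowers, hy₂o, hcardA]) (by rw [hcardA]; exact hcop.symm) hsol
  -- c₀ g c₀⁻¹ = y₂^k and so equal to y₂
  have h1 : c₀ * g * c₀⁻¹ ∈ Subgroup.zpowers y₂ := by
    rw [← hc₀e]
    exact ⟨g, Subgroup.mem_zpowers g, rfl⟩
  obtain ⟨k, hk⟩ := (mem_powers_iff_mem_zpowers).2 h1 |> (Submonoid.mem_powers_iff _ _).1
  obtain ⟨u, hu, hue⟩ := hy₂pow k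
  have hk' : y₂ ^ k = c₀ * g * c₀⁻¹ := hk
  have hc₀g : c₀ * g * c₀⁻¹ = (c₀ * (g * c₀⁻¹ * g⁻¹)) * g := by group
  have hv : c₀ * (g * c₀⁻¹ * g⁻¹) ∈ H := H.mul_mem hc₀ (hgH _ (H.inv_mem hc₀))
  have h3 : g ^ k * g⁻¹ ∈ H := by
    have h4 : g ^ k * g⁻¹ = u⁻¹ * (c₀ * (g * c₀⁻¹ * g⁻¹)) := by
      have h5 : u * g ^ k = (c₀ * (g * c₀⁻¹ * g⁻¹)) * g := by rw [← hue, hk', hc₀g]
      calc g ^ k * g⁻¹ = u⁻¹ * (u * g ^ k) * g⁻¹ := by group
        _ = u⁻¹ * ((c₀ * (g * c₀⁻¹ * g⁻¹)) * g) * g⁻¹ := by rw [h5]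
        _ = u⁻¹ * (c₀ * (g * c₀⁻¹ * g⁻¹)) := by group
    rw [h4]
    exact H.mul_mem (H.inv_mem hu) hv
  have hgn1 : g ^ (n - 1) = g⁻¹ := by
    apply eq_inv_of_mul_eq_one_left
    rw [← pow_succ, Nat.sub_add_cancel hn0, hn, pow_orderOf_eq_one]
  have h4 : g ^ (k + (n - 1)) = 1 := by
    apply hinf
    rw [pow_add, hgn1]
    exact h3
  have h5 : n ∣ k + (n - 1) := by
    rw [hn]
    exact orderOf_dvd_of_pow_eq_one h4
  have h6 : y₂ ^ (k + (n - 1)) = 1 := by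
    have h10 : orderOf y₂ ∣ k + (n - 1) := by rw [hy₂o]; exact h5
    exact orderOf_dvd_iff_pow_eq_one.1 h10
  have hyn1 : y₂ ^ (n - 1) = y₂⁻¹ := by
    apply eq_inv_of_mul_eq_one_left
    rw [← pow_succ, Nat.sub_add_cancel hn0, hy₂n]
  rw [pow_add, hyn1] at h6
  have h7 : y₂ ^ k = y₂ := mul_inv_eq_one.1 h6
  have h8 : c₀ * g * c₀⁻¹ = y₂ := by rw [← hk', h7]
  refine ⟨c₀⁻¹, H.inv_mem hc₀, c₀⁻¹ * y₁ * c₀, H.mul_mem (H.mul_mem (H.inv_mem hc₀) hy₁H) hc₀, ?_, ?_⟩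
  · have h9 : g = c₀⁻¹ * y₂ * c₀ := by rw [← h8]; group
    rw [h9]
    calc c₀⁻¹ * y₁ * c₀ * (c₀⁻¹ * y₂ * c₀) = c₀⁻¹ * (y₁ * y₂) * c₀ := by group
      _ = c₀⁻¹ * (y₂ * y₁) * c₀ := by rw [hcomm12]
      _ = c₀⁻¹ * y₂ * c₀ * (c₀⁻¹ * y₁ * c₀) := by group
  · have h9 : g = c₀⁻¹ * y₂ * c₀ := by rw [← h8]; group
    rw [← hydef, hy12]
    rw [h9]
    group

end Cfsg.Agent.S1496
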