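import Cfsg.Statements.S1497
-- import your own Cfsg.Agent.* helpers here

set_option autoImplicit false
set_option linter.all false
open Cfsg

namespace Cfsg.Agent.S1497

/-- Let A be a nonempty subset of the finite group G not containing 1 and L a subgroup. Then A is a TI-subset whose normaliser is L if and only if the Dade hypothesis holds for A, L and the constant choice H(a) = ⊥. -/
theorem result {G : Type*} [Group G] [Finite G] (A : Set G) (hA : A.Nonempty) (h1 : (1 : G) ∉ A) (L : Subgroup G) : (Cfsg.IsTISubset A ∧ Subgroup.normalizer A = L) ↔ Cfsg.DadeHypothesis A L (fun _ => ⊥) := by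
  classical
  have hbot : ∀ S : Subgroup G, (⊥ : Subgroup G) ⊔ S = S := fun S => bot_sup_eq S
  constructor
  · rintro ⟨hTI, hN⟩
    have hfus : ∀ a ∈ A, ∀ g : G, g * a * g⁻¹ ∈ A → g ∈ L := by
      intro a ha g hg
      by_contra hgL
      rw [← hN] at hgL
      have := hTI g hgL a ha hg
      exact h1 (this ▸ ha)
    refine ⟨h1, ?_, ?_, ?_, ?_, ?_, ?_, ?_, ?_⟩
    · intro a ha
      apply hfus a ha a
      have : a * a * a⁻¹ = a := by group
      rw [this]; exact ha
    · intro x hx a ha
      rw [← hN] at hx
      exact (hx a).1 ha
    · intro a ha g hg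
      exact ⟨g, hfus a ha g hg, rfl⟩
    · intro a _
      exact bot_le
    · intro a _ c _ u hu
      have h2 : u = 1 := hu
      rw [h2]
      simp
    · intro a _
      exact bot_inf_eq _
    · intro a ha
      rw [bot_sup_eq]
      apply le_antisymm inf_le_right
      intro c hc
      refine ⟨?_, hc⟩
      apply hfus a ha c
      have h2 : c * a = a * c := Subgroup.mem_centralizer_singleton_iff.1 hc
      rw [h2]
      have : a * c * c⁻¹ = a := by group
      rw [this]; exact ha
    · intro a _ b _
      rw [Subgroup.card_bot]
      exact Nat.coprime_one_left _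
  · intro hD
    have hfus : ∀ a ∈ A, ∀ g : G, g * a * g⁻¹ ∈ A → g ∈ L := by
      intro a ha g hg
      obtain ⟨x, hx, hxe⟩ := hD.fusion a ha g hg
      have h2 := hD.sup_eq a ha
      rw [bot_sup_eq] at h2
      have h3 : x⁻¹ * g ∈ Subgroup.centralizer ({a} : Set G) := by
        refine Subgroup.mem_centralizer_singleton_iff.2 ?_
        calc x⁻¹ * g * a = x⁻¹ * (g * a * g⁻¹) * g := by group
          _ = x⁻¹ * (x * a * x⁻¹) * g := by rw [hxe]
          _ = a * (x⁻¹ * g) := by group
      rw [← h2] at h3
      have h4 := L.mul_mem hx h3.1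
      simpa using h4
    have hLN : Subgroup.normalizer A = L := by
      apply le_antisymm
      · intro g hg
        obtain ⟨a, ha⟩ := hA
        exact hfus a ha g ((hg a).1 ha)
      · intro x hx
        show ∀ a, a ∈ A ↔ x * a * x⁻¹ ∈ A
        intro a
        constructor
        · intro ha
          exact hD.conj_mem x hx a ha
        · intro ha
          have := hD.conj_mem x⁻¹ (L.inv_mem hx) _ ha
          simpa [mul_assoc] using this
    refine ⟨?_, hLN⟩
    intro g hg x hx hgx
    exfalso
    apply hg
    rw [hLN]
    exact hfus x hx g hgx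

end Cfsg.Agent.S1497
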