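import Cfsg.Statements.S1503
import Cfsg.Agent.Lib.LinChar
import Cfsg.Agent.Lib.CharIrr
import Cfsg.Agent.Lib.CharOps
-- import your own Cfsg.Agent.* helpers here

set_option autoImplicit false
set_option linter.all false
open Cfsg

namespace Cfsg.Agent.S1503

/-- Let W₁, W₂ ≤ G with W = W₁ ⊔ W₂ and let χ an orthonormal family of irreducible characters of G up to sign, indexed by the linear characters ω of W, with χ_1 = 1, χ_ω = ω on W outside W₁ ∪ W₂, and the induction identity for (1 − φ)(1 − ψ). If θ is an irreducible character of G orthogonal to χ ω for every linear character ω of W, then θ vanishes at every element of W lying outside W₁ ∪ W₂. -/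
theorem result {G : Type*} [Group G] [Fintype G] (W₁ W₂ : Subgroup G) (hW : Cfsg.IsSelfNormalizingCyclic W₁ W₂) (χ : (↥(W₁ ⊔ W₂) →* ℂˣ) → (G → ℂ)) (hχ : Cfsg.IsCyclicTIFamily W₁ W₂ χ) (θ : G → ℂ) (hθ : Cfsg.IsIrrCharacter G θ) (horth : ∀ ω, Cfsg.classInner θ (χ ω) = 0) (w : ↥(W₁ ⊔ W₂)) (hw₁ : (w : G) ∉ W₁) (hw₂ : (w : G) ∉ W₂) : θ w = 0 := by
  classical
  have hcomm : ∀ a ∈ W₁, ∀ b ∈ W₂, a * b = b * a := hW.2.2.2.1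
  have hdisj : W₁ ⊓ W₂ = ⊥ := hW.2.2.1
  have hcl : Cfsg.IsClassFunction G θ := Cfsg.Agent.Lib.CharIrr.irr_isClassFunction (Cfsg.Agent.Lib.CharOps.IsIrrCharacter.isCharacter' hθ)
  letI : Fintype ↥(W₁ ⊔ W₂) := Fintype.ofFinite _
  letI : Fintype (↥(W₁ ⊔ W₂) →* ℂˣ) := Fintype.ofFinite _
  have h0 : (Nat.card ↥(W₁ ⊔ W₂) : ℂ) ≠ 0 := by exact_mod_cast Nat.card_pos.ne'
  -- the vanishing sums
  have hS : ∀ φ ψ : ↥(W₁ ⊔ W₂) →* ℂˣ, Cfsg.Agent.Lib.LinChar.Triv2 W₁ W₂ φ → Cfsg.Agent.Lib.LinChar.Triv1 W₁ W₂ ψ →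
      ∑ v : ↥(W₁ ⊔ W₂), (1 - ((φ v : ℂˣ) : ℂ)) * (1 - ((ψ v : ℂˣ) : ℂ)) * (starRingEnd ℂ) (θ v) = 0 := by
    intro φ ψ hφ hψ
    by_cases hφ1 : φ = 1
    · subst hφ1
      simp
    by_cases hψ1 : ψ = 1
    · subst hψ1
      simp
    have h1 : Cfsg.classInner θ (Cfsg.indFun (W₁ ⊔ W₂) (fun w => 1 - (φ w : ℂ) - (ψ w : ℂ) + (φ w : ℂ) * (ψ w : ℂ))) = 0 := by
      rw [Cfsg.Agent.Lib.LinChar.inner_one_of_induced hχ θ hφ1 hψ1 hφ hψ, horth, horth, horth, horth]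
      ring
    have h2 : Cfsg.classInner (Cfsg.indFun (W₁ ⊔ W₂) (fun w => 1 - (φ w : ℂ) - (ψ w : ℂ) + (φ w : ℂ) * (ψ w : ℂ))) θ = 0 := by
      rw [← Cfsg.Agent.Lib.CharIrr.classInner_conj, h1, map_zero]
    rw [Cfsg.Agent.Lib.CharOps.frobenius_reciprocity _ _ hcl, Cfsg.classInner] at h2
    have h3 := (mul_eq_zero.1 h2).resolve_left (inv_ne_zero h0)
    rw [← h3]
    refine Finset.sum_congr rfl fun v _ => ?_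
    ring
  set P : Finset (↥(W₁ ⊔ W₂) →* ℂˣ) := Finset.univ.filter (fun φ => Cfsg.Agent.Lib.LinChar.Triv2 W₁ W₂ φ) with hP
  set Q : Finset (↥(W₁ ⊔ W₂) →* ℂˣ) := Finset.univ.filter (fun ψ => Cfsg.Agent.Lib.LinChar.Triv1 W₁ W₂ ψ) with hQ
  let K₂ : Subgroup ↥(W₁ ⊔ W₂) := W₂.subgroupOf (W₁ ⊔ W₂)
  let K₁ : Subgroup ↥(W₁ ⊔ W₂) := W₁.subgroupOf (W₁ ⊔ W₂)
  have hPm : ∀ f, f ∈ P ↔ ∀ k ∈ K₂, f k = 1 := by
    intro f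
    simp only [hP, Finset.mem_filter, Finset.mem_univ, true_and]
    exact Iff.rfl
  have hQm : ∀ f, f ∈ Q ↔ ∀ k ∈ K₁, f k = 1 := by
    intro f
    simp only [hQ, Finset.mem_filter, Finset.mem_univ, true_and]
    exact Iff.rfl
  have hPc : (P.card : ℂ) ≠ 0 := by
    have : (1 : ↥(W₁ ⊔ W₂) →* ℂˣ) ∈ P := (hPm _).2 fun _ _ => rfl
    exact_mod_cast (Finset.card_pos.2 ⟨_, this⟩).ne'
  have hQc : (Q.card : ℂ) ≠ 0 := by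
    have : (1 : ↥(W₁ ⊔ W₂) →* ℂˣ) ∈ Q := (hQm _).2 fun _ _ => rfl
    exact_mod_cast (Finset.card_pos.2 ⟨_, this⟩).ne'
  -- dual orthogonality
  have hA : ∀ v : ↥(W₁ ⊔ W₂), ∑ φ ∈ P, ((φ⁻¹ w : ℂˣ) : ℂ) * (1 - ((φ v : ℂˣ) : ℂ)) = if w⁻¹ * v ∈ K₂ then -(P.card : ℂ) else 0 := by
    intro v
    have e : ∀ φ ∈ P, ((φ⁻¹ w : ℂˣ) : ℂ) * (1 - ((φ v : ℂˣ) : ℂ)) = ((φ w⁻¹ : ℂˣ) : ℂ) - ((φ (w⁻¹ * v) : ℂˣ) : ℂ) := by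
      intro φ _
      simp only [MonoidHom.inv_apply, map_inv, map_mul, Units.val_mul, mul_sub, mul_one]
    rw [Finset.sum_congr rfl e, Finset.sum_sub_distrib]
    have hz : w⁻¹ ∉ K₂ := fun h => hw₂ (by simpa [K₂, Subgroup.mem_subgroupOf] using h)
    rw [Cfsg.Agent.Lib.LinChar.sum_dual hW K₂ P hPm _ hz]
    split_ifs with h
    · have : ∀ φ ∈ P, ((φ (w⁻¹ * v) : ℂˣ) : ℂ) = 1 := by
        intro φ hφ
        rw [(hPm φ).1 hφ _ h]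
        rfl
      rw [Finset.sum_congr rfl this]
      simp
    · rw [Cfsg.Agent.Lib.LinChar.sum_dual hW K₂ P hPm _ h]
      simp
  have hB : ∀ v : ↥(W₁ ⊔ W₂), ∑ φ ∈ Q, ((φ⁻¹ w : ℂˣ) : ℂ) * (1 - ((φ v : ℂˣ) : ℂ)) = if w⁻¹ * v ∈ K₁ then -(Q.card : ℂ) else 0 := by
    intro v
    have e : ∀ φ ∈ Q, ((φ⁻¹ w : ℂˣ) : ℂ) * (1 - ((φ v : ℂˣ) : ℂ)) = ((φ w⁻¹ : ℂˣ) : ℂ) - ((φ (w⁻¹ * v) : ℂˣ) : ℂ) := by
      intro φ _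
      simp only [MonoidHom.inv_apply, map_inv, map_mul, Units.val_mul, mul_sub, mul_one]
    rw [Finset.sum_congr rfl e, Finset.sum_sub_distrib]
    have hz : w⁻¹ ∉ K₁ := fun h => hw₁ (by simpa [K₁, Subgroup.mem_subgroupOf] using h)
    rw [Cfsg.Agent.Lib.LinChar.sum_dual hW K₁ Q hQm _ hz]
    split_ifs with h
    · have : ∀ φ ∈ Q, ((φ (w⁻¹ * v) : ℂˣ) : ℂ) = 1 := by
        intro φ hφ
        rw [(hQm φ).1 hφ _ h]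
        rfl
      rw [Finset.sum_congr rfl this]
      simp
    · rw [Cfsg.Agent.Lib.LinChar.sum_dual hW K₁ Q hQm _ h]
      simp
  -- the double sum
  have hD : ∑ φ ∈ P, ∑ ψ ∈ Q, ((φ⁻¹ w : ℂˣ) : ℂ) * ((ψ⁻¹ w : ℂˣ) : ℂ) *
      ∑ v : ↥(W₁ ⊔ W₂), (1 - ((φ v : ℂˣ) : ℂ)) * (1 - ((ψ v : ℂˣ) : ℂ)) * (starRingEnd ℂ) (θ v) = 0 := by
    refine Finset.sum_eq_zero fun φ hφ => Finset.sum_eq_zero fun ψ hψ => ?_
    rw [hS φ ψ ((Finset.mem_filter.1 hφ).2) ((Finset.mem_filter.1 hψ).2), mul_zero]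
  have hD2 : ∑ φ ∈ P, ∑ ψ ∈ Q, ((φ⁻¹ w : ℂˣ) : ℂ) * ((ψ⁻¹ w : ℂˣ) : ℂ) *
      ∑ v : ↥(W₁ ⊔ W₂), (1 - ((φ v : ℂˣ) : ℂ)) * (1 - ((ψ v : ℂˣ) : ℂ)) * (starRingEnd ℂ) (θ v) =
      ∑ v : ↥(W₁ ⊔ W₂), (∑ φ ∈ P, ((φ⁻¹ w : ℂˣ) : ℂ) * (1 - ((φ v : ℂˣ) : ℂ))) * (∑ ψ ∈ Q, ((ψ⁻¹ w : ℂˣ) : ℂ) * (1 - ((ψ v : ℂˣ) : ℂ))) * (starRingEnd ℂ) (θ v) := by
    have step : ∑ v : ↥(W₁ ⊔ W₂), (∑ φ ∈ P, ((φ⁻¹ w : ℂˣ) : ℂ) * (1 - ((φ v : ℂˣ) : ℂ))) * (∑ ψ ∈ Q, ((ψ⁻¹ w : ℂˣ) : ℂ) * (1 - ((ψ v : ℂˣ) : ℂ))) * (starRingEnd ℂ) (θ v) =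
        ∑ v : ↥(W₁ ⊔ W₂), ∑ φ ∈ P, ∑ ψ ∈ Q, (((φ⁻¹ w : ℂˣ) : ℂ) * (1 - ((φ v : ℂˣ) : ℂ))) * (((ψ⁻¹ w : ℂˣ) : ℂ) * (1 - ((ψ v : ℂˣ) : ℂ))) * (starRingEnd ℂ) (θ v) := by
      refine Finset.sum_congr rfl fun v _ => ?_
      rw [Finset.sum_mul_sum]
      rw [Finset.sum_mul]
      refine Finset.sum_congr rfl fun φ _ => ?_
      rw [Finset.sum_mul]
    rw [step]
    symm
    rw [Finset.sum_comm]
    refine Finset.sum_congr rfl fun φ _ => ?_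
    rw [Finset.sum_comm]
    refine Finset.sum_congr rfl fun ψ _ => ?_
    rw [Finset.mul_sum]
    refine Finset.sum_congr rfl fun v _ => ?_
    ring
  rw [hD2] at hD
  simp only [hA, hB] at hD
  rw [Finset.sum_eq_single w] at hD
  · have e1 : w⁻¹ * w ∈ K₂ := by
      rw [inv_mul_cancel]
      exact Subgroup.one_mem _
    have e2 : w⁻¹ * w ∈ K₁ := by
      rw [inv_mul_cancel]
      exact Subgroup.one_mem _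
    rw [if_pos e1, if_pos e2] at hD
    have h5 : (-(P.card : ℂ)) * (-(Q.card : ℂ)) ≠ 0 := mul_ne_zero (neg_ne_zero.2 hPc) (neg_ne_zero.2 hQc)
    have h6 := (mul_eq_zero.1 hD).resolve_left h5
    simpa using h6
  · intro v _ hv
    by_cases e1 : w⁻¹ * v ∈ K₂
    · by_cases e2 : w⁻¹ * v ∈ K₁
      · exfalso
        have h7 : ((w⁻¹ * v : ↥(W₁ ⊔ W₂)) : G) ∈ W₁ ⊓ W₂ := ⟨e2, e1⟩
        rw [hdisj, Subgroup.mem_bot] at h7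
        apply hv
        have h8 : w⁻¹ * v = 1 := Subtype.ext h7
        exact (inv_mul_eq_one.1 h8).symm
      · rw [if_neg e2]
        simp
    · rw [if_neg e1]
      simp
  · intro h
    exact absurd (Finset.mem_univ _) h

end Cfsg.Agent.S1503
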