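import Cfsg.Statements.S1504
import Cfsg.Agent.Lib.LinChar
-- import your own Cfsg.Agent.* helpers here

set_option autoImplicit false
set_option linter.all false
open Cfsg

namespace Cfsg.Agent.S1504

/-- Let W₁, W₂ be subgroups of a finite group with W₁ ⊓ W₂ = ⊥ whose elements commute, and W = W₁ ⊔ W₂. For linear characters φ, ψ of W with φ trivial on W₂ and ψ trivial on W₁, the function (1 − φ)(1 − ψ) vanishes on W₁ ∪ W₂; and the family of these functions, indexed by pairs (φ, ψ) with φ ≠ 1 ≠ ψ, is linearly independent over ℂ. -/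
theorem result {G : Type*} [Group G] [Finite G] (W₁ W₂ : Subgroup G) (hdisj : W₁ ⊓ W₂ = ⊥) (hcomm : ∀ a ∈ W₁, ∀ b ∈ W₂, a * b = b * a) : (∀ φ ψ : ↥(W₁ ⊔ W₂) →* ℂˣ, (∀ w : ↥(W₁ ⊔ W₂), (w : G) ∈ W₂ → φ w = 1) → (∀ w : ↥(W₁ ⊔ W₂), (w : G) ∈ W₁ → ψ w = 1) → ∀ w : ↥(W₁ ⊔ W₂), ((w : G) ∈ W₁ ∨ (w : G) ∈ W₂) → (1 - (φ w : ℂ) - (ψ w : ℂ) + (φ w : ℂ) * (ψ w : ℂ)) = 0) ∧ LinearIndependent ℂ (fun p : {p : (↥(W₁ ⊔ W₂) →* ℂˣ) × (↥(W₁ ⊔ W₂) →* ℂˣ) // p.1 ≠ 1 ∧ p.2 ≠ 1 ∧ (∀ w : ↥(W₁ ⊔ W₂), (w : G) ∈ W₂ → p.1 w = 1) ∧ (∀ w : ↥(W₁ ⊔ W₂), (w : G) ∈ W₁ → p.2 w = 1)} => fun w : ↥(W₁ ⊔ W₂) => 1 - (p.1.1 w : ℂ) - (p.1.2 w : ℂ) + (p.1.1 w : ℂ) * (p.1.2 w : ℂ)) := by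
  classical
  haveI : Fintype G := Fintype.ofFinite G
  refine ⟨?_, ?_⟩
  · intro φ ψ h2 h1 w hw
    exact Cfsg.Agent.Lib.LinChar.alpha_vanish h2 h1 w hw
  · haveI : Fintype ↥(W₁ ⊔ W₂) := Fintype.ofFinite _
    rw [linearIndependent_iff']
    intro s g hs i hi
    obtain ⟨⟨φ₀, ψ₀⟩, h1, h2, h3, h4⟩ := i
    have hT : ∑ w : ↥(W₁ ⊔ W₂), (∑ j ∈ s, g j • (fun w : ↥(W₁ ⊔ W₂) => 1 - (j.1.1 w : ℂ) - (j.1.2 w : ℂ) + (j.1.1 w : ℂ) * (j.1.2 w : ℂ))) w * ((φ₀⁻¹ w : ℂˣ) : ℂ) * ((ψ₀⁻¹ w : ℂˣ) : ℂ) = 0 := by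
      rw [hs]
      simp
    simp only [Finset.sum_apply, Pi.smul_apply, smul_eq_mul, Finset.sum_mul] at hT
    rw [Finset.sum_comm] at hT
    have hj : ∀ j ∈ s, ∑ w : ↥(W₁ ⊔ W₂), g j * (1 - (j.1.1 w : ℂ) - (j.1.2 w : ℂ) + (j.1.1 w : ℂ) * (j.1.2 w : ℂ)) * ((φ₀⁻¹ w : ℂˣ) : ℂ) * ((ψ₀⁻¹ w : ℂˣ) : ℂ) =
        g j * ((Nat.card ↥(W₁ ⊔ W₂) : ℂ) * (if j.1.1 = φ₀ then 1 else 0) * (if j.1.2 = ψ₀ then 1 else 0)) := by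
      intro j _
      rw [← Cfsg.Agent.Lib.LinChar.sum_alpha_dual hcomm j.2.2.2.1 j.2.2.2.2 h3 h4 h1 h2, Finset.mul_sum]
      refine Finset.sum_congr rfl fun w _ => ?_
      simp only [Cfsg.Agent.Lib.LinChar.alpha]
      ring
    rw [Finset.sum_congr rfl hj] at hT
    rw [Finset.sum_eq_single ⟨(φ₀, ψ₀), h1, h2, h3, h4⟩] at hT
    · have h0 : (Nat.card ↥(W₁ ⊔ W₂) : ℂ) ≠ 0 := by exact_mod_cast Nat.card_pos.ne'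
      simp only [if_true, mul_one] at hT
      exact (mul_eq_zero.1 hT).resolve_right h0
    · intro b _ hb
      by_cases e1 : b.1.1 = φ₀
      · by_cases e2 : b.1.2 = ψ₀
        · exact absurd (Subtype.ext (Prod.ext e1 e2)) hb
        · rw [if_neg e2]
          simp
      · rw [if_neg e1]
        simp
    · intro h
      exact absurd hi h

end Cfsg.Agent.S1504
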