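import Cfsg.Statements.S1505
import Cfsg.Agent.Lib.LinChar
-- import your own Cfsg.Agent.* helpers here

set_option autoImplicit false
set_option linter.all false
open Cfsg

namespace Cfsg.Agent.S1505

open Classical in
/-- Let W₁, W₂ ≤ G form a self-normalising cyclic subgroup W = W₁ ⊔ W₂. For nontrivial linear characters φ, φ' of W trivial on W₂ and ψ, ψ' trivial on W₁, put α = (1 − φ)(1 − ψ) and α' = (1 − φ')(1 − ψ'). Then the function induced from α to G has inner product 1 with the principal character, and the inner product of the functions induced from α and α' is 1 + a + b + ab where a = 1 if φ = φ' (else 0) and b = 1 if ψ = ψ' (else 0). -/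
theorem result {G : Type*} [Group G] [Fintype G] (W₁ W₂ : Subgroup G) (hW : Cfsg.IsSelfNormalizingCyclic W₁ W₂) (φ φ' ψ ψ' : ↥(W₁ ⊔ W₂) →* ℂˣ) (hφ : φ ≠ 1) (hφ' : φ' ≠ 1) (hψ : ψ ≠ 1) (hψ' : ψ' ≠ 1) (hφ₂ : ∀ w : ↥(W₁ ⊔ W₂), (w : G) ∈ W₂ → φ w = 1 ∧ φ' w = 1) (hψ₁ : ∀ w : ↥(W₁ ⊔ W₂), (w : G) ∈ W₁ → ψ w = 1 ∧ ψ' w = 1) : Cfsg.classInner (Cfsg.indFun (W₁ ⊔ W₂) (fun w => 1 - (φ w : ℂ) - (ψ w : ℂ) + (φ w : ℂ) * (ψ w : ℂ))) (fun _ => 1) = 1 ∧ Cfsg.classInner (Cfsg.indFun (W₁ ⊔ W₂) (fun w => 1 - (φ w : ℂ) - (ψ w : ℂ) + (φ w : ℂ) * (ψ w : ℂ))) (Cfsg.indFun (W₁ ⊔ W₂) (fun w => 1 - (φ' w : ℂ) - (ψ' w : ℂ) + (φ' w : ℂ) * (ψ' w : ℂ))) = 1 + (if φ = φ' then 1 else 0) + (if ψ = ψ' then 1 else 0) + (if φ = φ' then 1 else 0) * (if ψ = ψ' then 1 else 0) := by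
  have hcomm : ∀ a ∈ W₁, ∀ b ∈ W₂, a * b = b * a := hW.2.2.2.1
  letI : Fintype ↥(W₁ ⊔ W₂) := Fintype.ofFinite _
  have h0 : (Nat.card ↥(W₁ ⊔ W₂) : ℂ) ≠ 0 := by exact_mod_cast Nat.card_pos.ne'
  have t1 : Cfsg.Agent.Lib.LinChar.Triv2 W₁ W₂ φ := fun w hw => (hφ₂ w hw).1
  have t2 : Cfsg.Agent.Lib.LinChar.Triv2 W₁ W₂ φ' := fun w hw => (hφ₂ w hw).2
  have t3 : Cfsg.Agent.Lib.LinChar.Triv1 W₁ W₂ ψ := fun w hw => (hψ₁ w hw).1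
  have t4 : Cfsg.Agent.Lib.LinChar.Triv1 W₁ W₂ ψ' := fun w hw => (hψ₁ w hw).2
  have u1 : Cfsg.Agent.Lib.LinChar.Triv2 W₁ W₂ (1 : ↥(W₁ ⊔ W₂) →* ℂˣ) := fun _ _ => rfl
  have u2 : Cfsg.Agent.Lib.LinChar.Triv1 W₁ W₂ (1 : ↥(W₁ ⊔ W₂) →* ℂˣ) := fun _ _ => rfl
  refine ⟨?_, ?_⟩
  · rw [Cfsg.Agent.Lib.CharOps.frobenius_reciprocity _ _ (fun _ _ => rfl), Cfsg.classInner]
    have e : ∀ w : ↥(W₁ ⊔ W₂), (1 - (φ w : ℂ) - (ψ w : ℂ) + (φ w : ℂ) * (ψ w : ℂ)) * (starRingEnd ℂ) 1 =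
        (((1 : ↥(W₁ ⊔ W₂) →* ℂˣ) w : ℂˣ) : ℂ) * (((1 : ↥(W₁ ⊔ W₂) →* ℂˣ) w : ℂˣ) : ℂ) - (φ w : ℂ) * (((1 : ↥(W₁ ⊔ W₂) →* ℂˣ) w : ℂˣ) : ℂ) - (((1 : ↥(W₁ ⊔ W₂) →* ℂˣ) w : ℂˣ) : ℂ) * (ψ w : ℂ) + (φ w : ℂ) * (ψ w : ℂ) := by
      intro w
      simp
    simp only [e, Finset.sum_add_distrib, Finset.sum_sub_distrib]
    rw [Cfsg.Agent.Lib.LinChar.sum_mul_char hcomm u1 u2, Cfsg.Agent.Lib.LinChar.sum_mul_char hcomm t1 u2, Cfsg.Agent.Lib.LinChar.sum_mul_char hcomm u1 t3, Cfsg.Agent.Lib.LinChar.sum_mul_char hcomm t1 t3, if_pos rfl, if_neg hφ, if_neg hψ]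
    field_simp
    ring
  · rw [Cfsg.Agent.Lib.CharOps.frobenius_reciprocity _ _ (Cfsg.Agent.Lib.CharOps.indFun_isClassFunction _ _), Cfsg.classInner]
    have e : ∀ w : ↥(W₁ ⊔ W₂), (1 - (φ w : ℂ) - (ψ w : ℂ) + (φ w : ℂ) * (ψ w : ℂ)) * (starRingEnd ℂ) (Cfsg.indFun (W₁ ⊔ W₂) (fun w => 1 - (φ' w : ℂ) - (ψ' w : ℂ) + (φ' w : ℂ) * (ψ' w : ℂ)) w) =
        Cfsg.Agent.Lib.LinChar.alpha φ ψ w * (starRingEnd ℂ) (Cfsg.Agent.Lib.LinChar.alpha φ' ψ' w) := by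
      intro w
      by_cases hw : (w : G) ∈ W₁ ∨ (w : G) ∈ W₂
      · have := Cfsg.Agent.Lib.LinChar.alpha_vanish t1 t3 w hw
        rw [show (1 - (φ w : ℂ) - (ψ w : ℂ) + (φ w : ℂ) * (ψ w : ℂ)) = Cfsg.Agent.Lib.LinChar.alpha φ ψ w from rfl, this]
        simp
      · push Not at hw
        rw [show (fun w : ↥(W₁ ⊔ W₂) => 1 - (φ' w : ℂ) - (ψ' w : ℂ) + (φ' w : ℂ) * (ψ' w : ℂ)) = Cfsg.Agent.Lib.LinChar.alpha φ' ψ' from rfl]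
        rw [Cfsg.Agent.Lib.LinChar.ind_eq hW _ (Cfsg.Agent.Lib.LinChar.alpha_vanish t2 t4) w hw.1 hw.2]
        rfl
    simp only [e]
    rw [Cfsg.Agent.Lib.LinChar.sum_alpha hcomm t1 t2 t3 t4 hφ hφ' hψ hψ']
    field_simp
    ring_nf

end Cfsg.Agent.S1505
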