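import Cfsg.Statements.S1509
import Cfsg.Agent.Lib.CharKernel

set_option autoImplicit false
set_option linter.style.haveILetI false
set_option linter.unusedVariables false
open scoped ComplexConjugate
open Cfsg

namespace Cfsg.Agent.S1509

private theorem Lfalse (b c u v x y : ℂ) (hb2 : b * b = 1) (hc2 : c * c = 1) (h1 : b * y = c * x)
    (h2 : u * x = v * y) (hmix : v * b + u * c = 0) (hx : x ≠ 0) (hv : v ≠ 0) (hb : b ≠ 0) : False := by
  have hy : y = b * c * x := by linear_combination (b) * h1 - y * hb2
  have hu0 : x * (u - v * b * c) = 0 := by linear_combination h2 + v * hy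
  have hu : u - v * b * c = 0 := (mul_eq_zero.mp hu0).resolve_left hx
  have h3 : 2 * (v * b) = 0 := by linear_combination hmix - c * hu - v * b * hc2
  have h4 : v * b = 0 := by simpa using h3
  exact (mul_ne_zero hv hb) h4

/-- Let α, β, γ, δ be functions on a finite group X each of which is an irreducible character or the negative of one, and u, v nonzero real numbers. Suppose ⟨α, β⟩ = ⟨γ, δ⟩ = 0, ⟨α − β, uγ − vδ⟩ = 0, α 1 = β 1 and u γ 1 = v δ 1. Then also ⟨α, γ⟩ = ⟨α, δ⟩ = ⟨β, γ⟩ = ⟨β, δ⟩ = 0. -/
theorem result {X : Type*} [Group X] [Fintype X] (α β γ δ : X → ℂ) (hα : Cfsg.IsIrrCharacter X α ∨ Cfsg.IsIrrCharacter X (-α)) (hβ : Cfsg.IsIrrCharacter X β ∨ Cfsg.IsIrrCharacter X (-β)) (hγ : Cfsg.IsIrrCharacter X γ ∨ Cfsg.IsIrrCharacter X (-γ)) (hδ : Cfsg.IsIrrCharacter X δ ∨ Cfsg.IsIrrCharacter X (-δ)) (u v : ℝ) (hu : u ≠ 0) (hv : v ≠ 0) (hab : Cfsg.classInner α β = 0) (hcd : Cfsg.classInner γ δ = 0) (hmix : Cfsg.classInner (α - β) ((u : ℂ) • γ - (v : ℂ) • δ) = 0) (h1 : α 1 = β 1) (h2 : (u : ℂ) * γ 1 = (v : ℂ) * δ 1) : Cfsg.classInner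 α γ = 0 ∧ Cfsg.classInner α δ = 0 ∧ Cfsg.classInner β γ = 0 ∧ Cfsg.classInner β δ = 0 := by
  classical
  open Cfsg.Agent.Lib.CharIrr Cfsg.Agent.Lib.CharOps in
  -- sign analysis
  have hneg : ∀ x y : X → ℂ, Cfsg.classInner x (-y) = - Cfsg.classInner x y := by
    intro x y
    have := classInner_smul_right (-1) x y
    simpa using this
  have hneg' : ∀ x y : X → ℂ, Cfsg.classInner (-x) y = - Cfsg.classInner x y := by
    intro x y
    have := classInner_smul_left (-1) x y
    simpa using this
  have key : ∀ a c : X → ℂ, (Cfsg.IsIrrCharacter X a ∨ Cfsg.IsIrrCharacter X (-a)) →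
      (Cfsg.IsIrrCharacter X c ∨ Cfsg.IsIrrCharacter X (-c)) →
      Cfsg.classInner a c = 0 ∨ (Cfsg.classInner a c = 1 ∧ a = c) ∨ (Cfsg.classInner a c = -1 ∧ a = -c) := by
    intro a c ha hc
    rcases ha with ha | ha <;> rcases hc with hc | hc
    · rw [classInner_irr ha hc]
      by_cases h : a = c
      · right; left; exact ⟨if_pos h, h⟩
      · left; exact if_neg h
    · have e := classInner_irr ha hc
      rw [hneg] at e
      by_cases h : a = -c
      · right; right
        rw [if_pos h] at e
        exact ⟨by linear_combination -e, h⟩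
      · left
        rw [if_neg h] at e
        linear_combination -e
    · have e := classInner_irr ha hc
      rw [hneg'] at e
      by_cases h : -a = c
      · right; right
        rw [if_pos h] at e
        exact ⟨by linear_combination -e, by rw [← h, neg_neg]⟩
      · left
        rw [if_neg h] at e
        linear_combination -e
    · have e := classInner_irr ha hc
      rw [hneg', hneg] at e
      by_cases h : -a = -c
      · right; left
        rw [if_pos h] at e
        exact ⟨by linear_combination e, neg_injective h⟩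
      · left
        rw [if_neg h] at e
        linear_combination e
  -- expansion
  have hexp : Cfsg.classInner (α - β) ((u : ℂ) • γ - (v : ℂ) • δ) =
      (u : ℂ) * Cfsg.classInner α γ - (v : ℂ) * Cfsg.classInner α δ - (u : ℂ) * Cfsg.classInner β γ +
        (v : ℂ) * Cfsg.classInner β δ := by
    rw [sub_eq_add_neg α, sub_eq_add_neg ((u : ℂ) • γ), classInner_add_left, classInner_add_right,
      classInner_add_right, hneg', hneg', hneg, hneg, classInner_smul_right, classInner_smul_right,
      classInner_smul_right, classInner_smul_right]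
    simp only [Complex.conj_ofReal]
    ring
  rw [hexp] at hmix
  have hu' : (u : ℂ) ≠ 0 := by exact_mod_cast hu
  have hv' : (v : ℂ) ≠ 0 := by exact_mod_cast hv
  -- nonvanishing of degrees
  have hdeg : ∀ a : X → ℂ, (Cfsg.IsIrrCharacter X a ∨ Cfsg.IsIrrCharacter X (-a)) → a 1 ≠ 0 := by
    intro a ha
    rcases ha with ha | ha
    · exact degree_ne_zero ha
    · have := degree_ne_zero ha
      intro h
      apply this
      simp [h]
  have hnn : ∀ a : X → ℂ, (Cfsg.IsIrrCharacter X a ∨ Cfsg.IsIrrCharacter X (-a)) → Cfsg.classInner a a = 1 := by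
    intro a ha
    rcases ha with ha | ha
    · rw [classInner_irr ha ha, if_pos rfl]
    · have := classInner_irr ha ha
      rw [if_pos rfl, hneg', hneg, neg_neg] at this
      exact this
  have hne_of : ∀ a c d : X → ℂ, (Cfsg.IsIrrCharacter X c ∨ Cfsg.IsIrrCharacter X (-c)) → Cfsg.classInner c d = 0 →
      Cfsg.classInner a c ≠ 0 → (Cfsg.IsIrrCharacter X d ∨ Cfsg.IsIrrCharacter X (-d)) → (Cfsg.IsIrrCharacter X a ∨ Cfsg.IsIrrCharacter X (-a)) → Cfsg.classInner a d = 0 := by
    intro a c d hc hcd hac hd ha
    rcases key a c ha hc with h | ⟨h, e⟩ | ⟨h, e⟩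
    · exact absurd h hac
    · rw [e]; exact hcd
    · rw [e, hneg', hcd, neg_zero]
  have key' : ∀ a c : X → ℂ, (Cfsg.IsIrrCharacter X a ∨ Cfsg.IsIrrCharacter X (-a)) →
      (Cfsg.IsIrrCharacter X c ∨ Cfsg.IsIrrCharacter X (-c)) → Cfsg.classInner a c ≠ 0 →
      a = Cfsg.classInner a c • c ∧ Cfsg.classInner a c * Cfsg.classInner a c = 1 := by
    intro a c ha hc hne
    rcases key a c ha hc with h | ⟨h, e⟩ | ⟨h, e⟩
    · exact absurd h hne
    · rw [h]
      exact ⟨by rw [one_smul]; exact e, by norm_num⟩
    · rw [h]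
      refine ⟨?_, by norm_num⟩
      rw [neg_smul, one_smul]
      exact e
  have hdc : Cfsg.classInner δ γ = 0 := by
    rw [← classInner_conj, hcd]
    simp
  have hba : Cfsg.classInner β α = 0 := by
    rw [← classInner_conj, hab]
    simp
  have hγ1 := hdeg γ hγ
  have hδ1 := hdeg δ hδ
  by_cases ha : Cfsg.classInner α γ = 0
  · by_cases hb : Cfsg.classInner α δ = 0
    · -- then `c` and `d` vanish
      rw [ha, hb] at hmix
      by_cases hc : Cfsg.classInner β γ = 0
      · rw [hc] at hmix
        have hd : Cfsg.classInner β δ = 0 := by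
          have : (v : ℂ) * Cfsg.classInner β δ = 0 := by linear_combination hmix
          exact (mul_eq_zero.mp this).resolve_left hv'
        exact ⟨ha, hb, hc, hd⟩
      · have hd := hne_of β γ δ hγ hcd hc hδ hβ
        rw [hd] at hmix
        exfalso
        apply hc
        have : (u : ℂ) * Cfsg.classInner β γ = 0 := by linear_combination -hmix
        exact (mul_eq_zero.mp this).resolve_left hu'
    · exfalso
      have hd : Cfsg.classInner β δ = 0 := by
        by_contra hd
        obtain ⟨e1, hb2⟩ := key' α δ hα hδ hb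
        obtain ⟨e2, hd2⟩ := key' β δ hβ hδ hd
        have hab' := hab
        rw [e1, e2, classInner_smul_left, classInner_smul_right, hnn δ hδ, mul_one] at hab'
        rcases mul_eq_zero.mp hab' with h | h
        · exact hb h
        · apply hd
          simpa using h
      rw [ha, hd] at hmix
      have hc : Cfsg.classInner β γ ≠ 0 := by
        intro hc
        rw [hc] at hmix
        apply hb
        have : (v : ℂ) * Cfsg.classInner α δ = 0 := by linear_combination -hmix
        exact (mul_eq_zero.mp this).resolve_left hv'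
      obtain ⟨e1, hb2⟩ := key' α δ hα hδ hb
      obtain ⟨e2, hc2⟩ := key' β γ hβ hγ hc
      have h11 : Cfsg.classInner α δ * δ 1 = Cfsg.classInner β γ * γ 1 := by
        have h3 := congrFun e1 1
        have h4 := congrFun e2 1
        simp only [Pi.smul_apply, smul_eq_mul] at h3 h4
        rw [← h3, ← h4]
        exact h1
      apply Lfalse _ _ _ _ _ _ hb2 hc2 h11 h2 (by linear_combination -hmix) hγ1 hv' hb
  · exfalso
    have hb := hne_of α γ δ hγ hcd ha hδ hα
    obtain ⟨e1, ha2⟩ := key' α γ hα hγ ha
    have hc : Cfsg.classInner β γ = 0 := by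
      have hba' := hba
      rw [e1, classInner_smul_right] at hba'
      rcases mul_eq_zero.mp hba' with h | h
      · exfalso
        apply ha
        simpa using h
      · exact h
    rw [hb, hc] at hmix
    have hd : Cfsg.classInner β δ ≠ 0 := by
      intro hd
      rw [hd] at hmix
      apply ha
      have : (u : ℂ) * Cfsg.classInner α γ = 0 := by linear_combination hmix
      exact (mul_eq_zero.mp this).resolve_left hu'
    obtain ⟨e2, hd2⟩ := key' β δ hβ hδ hd
    have h11 : Cfsg.classInner β δ * δ 1 = Cfsg.classInner α γ * γ 1 := by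
      have h3 := congrFun e1 1
      have h4 := congrFun e2 1
      simp only [Pi.smul_apply, smul_eq_mul] at h3 h4
      rw [← h3, ← h4]
      exact h1.symm
    apply Lfalse _ _ _ _ _ _ hd2 ha2 h11 h2 (by linear_combination hmix) hγ1 hv' hd

end Cfsg.Agent.S1509
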