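import Cfsg.Statements.S1510
import Mathlib
import Cfsg.Agent.Lib.H2Basic
import Cfsg.Agent.Lib.Replacement
-- import your own Cfsg.Agent.* helpers here

set_option autoImplicit false
set_option linter.all false
open Cfsg

namespace Cfsg.Agent.S1510

theorem cyclic_sup {G : Type*} [Group G] (A B : Subgroup G) (h : ∀ a ∈ A, ∀ b ∈ B, a * b = b * a)
    (hA : IsCyclic A) (hB : IsCyclic B) (hcop : Nat.Coprime (Nat.card A) (Nat.card B)) : IsCyclic ↥(A ⊔ B) := by
  have hc : ∀ (x : A) (y : B), Commute (A.subtype x) (B.subtype y) := fun x y => h x.1 x.2 y.1 y.2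
  let f := MonoidHom.noncommCoprod A.subtype B.subtype hc
  have hr : f.range = A ⊔ B := by
    rw [MonoidHom.noncommCoprod_range]
    simp
  haveI : IsCyclic (A × B) := Group.isCyclic_prod_iff.2 ⟨hA, hB, hcop⟩
  have h2 : IsCyclic f.range := by
    exact isCyclic_of_surjective f.rangeRestrict f.rangeRestrict_surjective
  rw [hr] at h2
  exact h2



/-- Let L be a finite group with a normal subgroup K and a nontrivial cyclic subgroup W₁ of order coprime to its index, K ⊓ W₁ = ⊥ and K ⊔ W₁ = ⊤; let W₂ ≠ ⊥ be a cyclic subgroup of K with K ⊓ C_L(x) = W₂ for every non-identity x ∈ W₁, and suppose W₁ ⊔ W₂ has odd order. Then (W₁, W₂) is a self-normalising cyclic pair in L. -/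
theorem result {L : Type*} [Group L] [Fintype L] (K W₁ W₂ : Subgroup L) [hK : K.Normal] (hKW₁ : K ⊓ W₁ = ⊥) (hKW₁' : K ⊔ W₁ = ⊤) (hW₁ : W₁ ≠ ⊥) (hW₁c : IsCyclic W₁) (hHall : Nat.Coprime (Nat.card W₁) W₁.index) (hW₂ : W₂ ≠ ⊥) (hW₂c : IsCyclic W₂) (hW₂K : W₂ ≤ K) (hC : ∀ x ∈ W₁, x ≠ 1 → K ⊓ Subgroup.centralizer ({x} : Set L) = W₂) (hodd : Odd (Nat.card ↥(W₁ ⊔ W₂))) : Cfsg.IsSelfNormalizingCyclic W₁ W₂ := by
  classical
  have hW12 : W₁ ⊓ W₂ = ⊥ := le_bot_iff.1 (fun x hx => by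
    rw [← hKW₁]
    exact ⟨hW₂K hx.2, hx.1⟩)
  have hcomm : ∀ a ∈ W₁, ∀ b ∈ W₂, a * b = b * a := by
    intro a ha b hb
    by_cases h1 : a = 1
    · simp [h1]
    · rw [← hC a ha h1] at hb
      exact Subgroup.mem_centralizer_iff.1 hb.2 a rfl
  have hcompl : Subgroup.IsComplement' K W₁ := by
    apply Subgroup.isComplement'_of_disjoint_and_mul_eq_univ
    · exact disjoint_iff.2 hKW₁
    · rw [← Subgroup.normal_mul, hKW₁']
      rfl
  have hidx : W₁.index = Nat.card K := hcompl.index_eq_card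
  have hcop : Nat.Coprime (Nat.card W₁) (Nat.card W₂) := by
    rw [hidx] at hHall
    exact hHall.coprime_dvd_right (Subgroup.card_dvd_of_le hW₂K)
  have hcyc : IsCyclic ↥(W₁ ⊔ W₂) := cyclic_sup W₁ W₂ hcomm hW₁c hW₂c hcop
  refine ⟨hW₁, hW₂, hW12, hcomm, hcyc, ?_⟩
  intro X hX hXne
  have hWc : ∀ a ∈ W₁ ⊔ W₂, ∀ b ∈ W₁ ⊔ W₂, a * b = b * a := by
    intro a ha b hb
    have := (IsCyclic.commGroup (α := ↥(W₁ ⊔ W₂))).mul_comm ⟨a, ha⟩ ⟨b, hb⟩
    exact congrArg Subtype.val this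
  have hle : W₁ ≤ Subgroup.normalizer (W₂ : Set L) := fun a ha =>
    Cfsg.Agent.Lib.H2Basic.mem_normalizer_of_forall_comm fun b hb => hcomm a ha b hb
  have hXsub : ∀ y ∈ X, ∀ z ∈ W₁ ⊔ W₂, z * y * z⁻¹ = y := by
    intro y hy z hz
    have := hWc z hz y (hX hy).1
    rw [this]
    group
  have hWN : ∀ z ∈ W₁ ⊔ W₂, z ∈ Subgroup.normalizer X := by
    intro z hz
    rw [Subgroup.mem_set_normalizer_iff]
    intro y
    constructor
    · intro hy
      rwa [hXsub y hy z hz]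
    · intro hy
      have e3 : y = z⁻¹ * (z * y * z⁻¹) * z⁻¹⁻¹ := by group
      rw [e3]
      rw [hXsub _ hy z⁻¹ (Subgroup.inv_mem _ hz)]
      exact hy
  apply le_antisymm
  · -- the normalizer of X lies in W
    intro g hg
    obtain ⟨x, hx⟩ := hXne
    have hx0 := hX hx
    obtain ⟨a, ha, b, hb, e⟩ := Cfsg.Agent.Lib.Replacement.mem_sup_of_le_normalizer hle hx0.1
    have ha1 : a ≠ 1 := by
      rintro rfl
      apply hx0.2
      right
      rw [e, one_mul]
      exact hb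
    -- write g = w k
    have hgtop : g ∈ W₁ ⊔ K := by
      rw [sup_comm, hKW₁']
      trivial
    have hKle : W₁ ≤ Subgroup.normalizer (K : Set L) := fun w _ => by
      rw [Subgroup.normalizer_eq_top K]
      trivial
    obtain ⟨w₀, hw₀, k, hk, eg⟩ := Cfsg.Agent.Lib.Replacement.mem_sup_of_le_normalizer hKle hgtop
    have hwN : w₀ ∈ Subgroup.normalizer X := hWN _ ((le_sup_left : W₁ ≤ W₁ ⊔ W₂) hw₀)
    have hkN : k ∈ Subgroup.normalizer X := by
      have : k = w₀⁻¹ * g := by rw [eg]; group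
      rw [this]
      exact Subgroup.mul_mem _ (Subgroup.inv_mem _ hwN) hg
    -- conjugate x by k
    have hkx : k * x * k⁻¹ ∈ X := (Subgroup.mem_set_normalizer_iff.1 hkN x).1 hx
    obtain ⟨a', ha', b', hb', e'⟩ := Cfsg.Agent.Lib.Replacement.mem_sup_of_le_normalizer hle (hX hkx).1
    -- the Hall part
    obtain ⟨m, hm1, hm2⟩ := Nat.chineseRemainder hcop 1 0
    have hpow1 : ∀ u ∈ W₁, u ^ m = u := by
      intro u hu
      have h1 := hm1.of_dvd (Subgroup.orderOf_dvd_natCard W₁ hu)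
      have h2 : u ^ m = u ^ 1 := pow_eq_pow_iff_modEq.2 h1
      simpa using h2
    have hpow2 : ∀ u ∈ W₂, u ^ m = 1 := by
      intro u hu
      have h1 : Nat.card W₂ ∣ m := (Nat.modEq_zero_iff_dvd).1 hm2
      exact orderOf_dvd_iff_pow_eq_one.1 ((Subgroup.orderOf_dvd_natCard W₂ hu).trans h1)
    have h3 : x ^ m = a := by
      rw [e, (show Commute a b from hcomm a ha b hb).mul_pow, hpow1 a ha, hpow2 b hb, mul_one]
    have h4 : (k * x * k⁻¹) ^ m = a' := by
      rw [e', (show Commute a' b' from hcomm a' ha' b' hb').mul_pow, hpow1 a' ha', hpow2 b' hb', mul_one]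
    have h5 : k * a * k⁻¹ = a' := by
      rw [← h4, conj_pow, h3]
    have h6 : a' * a⁻¹ ∈ K ⊓ W₁ := by
      refine ⟨?_, Subgroup.mul_mem _ ha' (Subgroup.inv_mem _ ha)⟩
      rw [← h5]
      have : k * a * k⁻¹ * a⁻¹ = k * (a * k⁻¹ * a⁻¹) := by group
      rw [this]
      exact Subgroup.mul_mem _ hk (hK.conj_mem _ (Subgroup.inv_mem _ hk) a)
    rw [hKW₁, Subgroup.mem_bot, mul_inv_eq_one] at h6
    have h7 : k * a * k⁻¹ = a := by rw [h5, h6]
    have h8 : k ∈ W₂ := by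
      rw [← hC a ha ha1]
      refine ⟨hk, ?_⟩
      refine Subgroup.mem_centralizer_iff.2 ?_
      intro y hy
      rw [Set.mem_singleton_iff] at hy
      subst hy
      exact (mul_inv_eq_iff_eq_mul.1 h7).symm
    rw [eg]
    exact Subgroup.mul_mem _ ((le_sup_left : W₁ ≤ W₁ ⊔ W₂) hw₀) ((le_sup_right : W₂ ≤ W₁ ⊔ W₂) h8)
  · intro z hz
    exact hWN z hz

end Cfsg.Agent.S1510
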