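import Cfsg.Statements.S1512
import Mathlib
import Cfsg.Agent.Lib.SchurZ
-- import your own Cfsg.Agent.* helpers here

set_option autoImplicit false
set_option linter.all false
open Cfsg

namespace Cfsg.Agent.S1512

theorem key {L : Type*} [Group L] [Finite L] (K : Subgroup L) [hK : K.Normal] (x k c : L) (hk : k ∈ K)
    (hcop : Nat.Coprime (orderOf x) (Nat.card K)) (hc : (k * x) * c = c * (k * x)) :
    ∃ n ∈ K, x * (n⁻¹ * c * n) = (n⁻¹ * c * n) * x := by
  classical
  obtain ⟨t, ht1, ht2⟩ := Nat.chineseRemainder hcop 1 0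
  have hmem : ∀ u : L, QuotientGroup.mk' K u = 1 ↔ u ∈ K := fun u => QuotientGroup.eq_one_iff u
  let π := QuotientGroup.mk' K
  set z := k * x with hz
  have hπz : π z = π x := by
    rw [hz, map_mul]
    have : π k = 1 := (hmem k).2 hk
    rw [this, one_mul]
  have hxt : x ^ t = x := by
    have h2 : x ^ t = x ^ 1 := pow_eq_pow_iff_modEq.2 ht1
    simpa using h2
  set y := z ^ t with hy
  have hπy : π y = π x := by
    rw [hy, map_pow, hπz, ← map_pow, hxt]
  have hyq : y ^ orderOf x = 1 := by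
    have h1 : π (z ^ orderOf x) = 1 := by
      rw [map_pow, hπz, ← map_pow, pow_orderOf_eq_one, map_one]
    have h2 : z ^ orderOf x ∈ K := (hmem _).1 h1
    have h3 : (z ^ orderOf x) ^ Nat.card K = 1 := by
      have : (⟨z ^ orderOf x, h2⟩ : K) ^ Nat.card K = 1 := pow_card_eq_one'
      exact congrArg Subtype.val this
    obtain ⟨s, hs⟩ : Nat.card K ∣ t := (Nat.modEq_zero_iff_dvd).1 ht2
    rw [hy, ← pow_mul, hs]
    calc z ^ (Nat.card K * s * orderOf x) = ((z ^ orderOf x) ^ Nat.card K) ^ s := by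
          rw [← pow_mul, ← pow_mul]
          congr 1
          ring
      _ = 1 := by rw [h3, one_pow]
  have hord : orderOf y = orderOf x := by
    apply Nat.dvd_antisymm (orderOf_dvd_of_pow_eq_one hyq)
    have h1 : π (x ^ orderOf y) = 1 := by
      rw [map_pow, ← hπy, ← map_pow, pow_orderOf_eq_one, map_one]
    have h2 : x ^ orderOf y ∈ K := (hmem _).1 h1
    have h3 : orderOf (x ^ orderOf y) ∣ Nat.card K := Subgroup.orderOf_dvd_natCard K h2
    have h4 : orderOf (x ^ orderOf y) ∣ orderOf x := orderOf_pow_dvd _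
    have h5 : orderOf (x ^ orderOf y) = 1 := Nat.eq_one_of_dvd_coprimes hcop h4 h3
    rw [orderOf_eq_one_iff] at h5
    exact orderOf_dvd_of_pow_eq_one h5
  let A := Subgroup.zpowers x
  let B := Subgroup.zpowers y
  have hcA : Nat.card A = orderOf x := Nat.card_zpowers x
  have hcB : Nat.card B = orderOf y := Nat.card_zpowers y
  have hAN : A ≤ Subgroup.normalizer (K : Set L) := by
    rw [Subgroup.normalizer_eq_top K]
    exact le_top
  have hyx : y * x⁻¹ ∈ K := by
    apply (hmem _).1
    change π (y * x⁻¹) = 1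
    rw [map_mul, hπy, map_inv, mul_inv_cancel]
  have hBle : B ≤ K ⊔ A := by
    rw [Subgroup.zpowers_le]
    have : y = (y * x⁻¹) * x := by group
    rw [this]
    exact Subgroup.mul_mem _ ((le_sup_left : K ≤ K ⊔ A) hyx) ((le_sup_right : A ≤ K ⊔ A) (Subgroup.mem_zpowers x))
  have hcop' : Nat.Coprime (Nat.card K) (Nat.card A) := by
    rw [hcA]
    exact hcop.symm
  haveI : IsCyclic A := inferInstance
  letI : CommGroup A := IsCyclic.commGroup
  have hsolv : Group.IsSolvable A ∨ Group.IsSolvable K := Or.inl (by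
    exact isSolvable_of_comm (fun a b => mul_comm a b))
  obtain ⟨n, hn, hnA⟩ := Cfsg.Agent.Lib.SchurZ.sz_conj_ambient K A B hAN hBle (by rw [hcB, hcA, hord]) hcop' hsolv.symm
  have hyB : y ∈ A.map (MulAut.conj n).toMonoidHom := by
    rw [hnA]
    exact Subgroup.mem_zpowers y
  obtain ⟨w, hw, hwe⟩ := hyB
  have hwe' : n * w * n⁻¹ = y := hwe
  have hwx : w = x := by
    have h1 : π y = π w := by
      rw [← hwe', map_mul, map_mul, map_inv]
      have : π n = 1 := (hmem n).2 hn
      rw [this]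
      simp
    have h2 : w * x⁻¹ ∈ K := by
      apply (hmem _).1
      change π (w * x⁻¹) = 1
      rw [map_mul, ← h1, hπy, map_inv, mul_inv_cancel]
    have h3 : w * x⁻¹ ∈ A := Subgroup.mul_mem _ hw (Subgroup.inv_mem _ (Subgroup.mem_zpowers x))
    have h4 : w * x⁻¹ ∈ K ⊓ A := ⟨h2, h3⟩
    rw [Cfsg.Agent.Lib.SchurZ.inf_eq_bot_of_coprime hcop', Subgroup.mem_bot, mul_inv_eq_one] at h4
    exact h4
  subst hwx
  refine ⟨n, hn, ?_⟩
  have hyc : y * c = c * y := by
    have : Commute z c := hc
    exact (this.pow_left t)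
  rw [← hwe'] at hyc
  calc w * (n⁻¹ * c * n) = n⁻¹ * ((n * w * n⁻¹) * c) * n := by group
    _ = n⁻¹ * (c * (n * w * n⁻¹)) * n := by rw [hyc]
    _ = (n⁻¹ * c * n) * w := by group



/-- Let K be a normal subgroup of the finite group L and x a non-identity element whose order is coprime to the order of K, such that K ⊓ C_L(y) = W₂ for every non-identity element y of the cyclic group generated by x. Then the number of conjugacy classes of K mapped to themselves by conjugation by x is at most Nat.card W₂. -/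
theorem result {L : Type*} [Group L] [Finite L] (K W₂ : Subgroup L) [hK : K.Normal] (x : L) (hx1 : x ≠ 1) (hx : Nat.Coprime (orderOf x) (Nat.card K)) (hC : ∀ y ∈ Subgroup.zpowers x, y ≠ 1 → K ⊓ Subgroup.centralizer ({y} : Set L) = W₂) : Nat.card {C : ConjClasses K // ConjClasses.map (MulEquiv.toMonoidHom ((MulAut.conjNormal x : MulAut K))) C = C} ≤ Nat.card W₂ := by
  classical
  have hW₂ : W₂ = K ⊓ Subgroup.centralizer ({x} : Set L) := (hC x (Subgroup.mem_zpowers x) hx1).symm
  have hfix : ∀ w : W₂, x * (w : L) * x⁻¹ = w := by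
    intro w
    have h1 : (w : L) ∈ K ⊓ Subgroup.centralizer ({x} : Set L) := by
      rw [← hW₂]
      exact w.2
    have h2 := Subgroup.mem_centralizer_iff.1 h1.2 x rfl
    rw [h2]
    group
  have hWK : ∀ w : W₂, (w : L) ∈ K := by
    intro w
    have h1 : (w : L) ∈ K ⊓ Subgroup.centralizer ({x} : Set L) := by
      rw [← hW₂]
      exact w.2
    exact h1.1
  let F : W₂ → {C : ConjClasses K // ConjClasses.map (MulEquiv.toMonoidHom ((MulAut.conjNormal x : MulAut K))) C = C} :=
    fun w => ⟨ConjClasses.mk ⟨w, hWK w⟩, by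
      change ConjClasses.mk _ = ConjClasses.mk _
      congr 1
      apply Subtype.ext
      rw [MulEquiv.coe_toMonoidHom, MulAut.conjNormal_apply]
      exact hfix w⟩
  refine Nat.card_le_card_of_surjective F ?_
  rintro ⟨C, hC'⟩
  obtain ⟨c, rfl⟩ := ConjClasses.mk_surjective C
  have h1 : IsConj ((MulAut.conjNormal x : MulAut K) c) c := by
    apply ConjClasses.mk_eq_mk_iff_isConj.1
    exact hC'
  rw [isConj_iff] at h1
  obtain ⟨k, hk⟩ := h1
  have hk' : (k : L) * (x * (c : L) * x⁻¹) * (k : L)⁻¹ = c := by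
    have := congrArg Subtype.val hk
    simpa [MulAut.conjNormal_apply] using this
  have hz : ((k : L) * x) * (c : L) = (c : L) * ((k : L) * x) := by
    have : ((k : L) * x) * (c : L) = ((k : L) * (x * (c : L) * x⁻¹) * (k : L)⁻¹) * ((k : L) * x) := by group
    rw [this, hk']
  obtain ⟨n, hn, hnc⟩ := key K x k c k.2 hx hz
  have hmem : (n⁻¹ * (c : L) * n) ∈ W₂ := by
    rw [hW₂]
    refine ⟨?_, ?_⟩
    · have : n⁻¹ * (c : L) * n = n⁻¹ * (c : L) * n⁻¹⁻¹ := by group
      rw [this]
      exact hK.conj_mem _ c.2 _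
    · refine Subgroup.mem_centralizer_iff.2 ?_
      intro y hy
      rw [Set.mem_singleton_iff] at hy
      subst hy
      exact hnc
  refine ⟨⟨_, hmem⟩, ?_⟩
  apply Subtype.ext
  apply ConjClasses.mk_eq_mk_iff_isConj.2
  rw [isConj_iff]
  refine ⟨⟨n, hn⟩, ?_⟩
  apply Subtype.ext
  simp
  group

end Cfsg.Agent.S1512
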