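import Cfsg.Statements.S1515
import Mathlib
import Cfsg.Agent.Lib.CharIrr
import Cfsg.Agent.Lib.CharGen
-- import your own Cfsg.Agent.* helpers here

set_option autoImplicit false
set_option linter.all false
open Cfsg

namespace Cfsg.Agent.S1515

theorem inner_sub {G : Type*} [Group G] [Fintype G] (a b c d : G → ℂ) :
    Cfsg.classInner (a - b) (c - d) =
      Cfsg.classInner a c - Cfsg.classInner a d - Cfsg.classInner b c + Cfsg.classInner b d := by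
  simp only [Cfsg.classInner, Pi.sub_apply, map_sub, sub_mul, mul_sub, Finset.sum_sub_distrib]
  ring



/-- Let (S, τ, R) be a coherence system from L to G, χ ∈ S, and ψ an integer combination of S with ⟨χ, ψ⟩ = ⟨conj χ, ψ⟩ = 0. Let τ₁ be a linear isometry on the integer combinations of χ − ψ and χ − conj χ, with virtual-character values, agreeing with τ on integer multiples of χ − conj χ. Then the sum over α ∈ R χ of the squared absolute values of ⟨τ₁(χ − ψ), α⟩ is at least ⟨χ, χ⟩; and if ⟨τ₁(χ − ψ), τ₁(χ − ψ)⟩ minus that sum is at least ⟨ψ, ψ⟩, then the sum equals ⟨χ, χ⟩ and every ⟨τ₁(χ − ψ), α⟩ with α ∈ R χ is 0 or 1. -/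
theorem result {L : Type*} [Group L] [Fintype L] {G : Type*} [Group G] [Fintype G] (S : Set (L → ℂ)) (τ : (L → ℂ) → (G → ℂ)) (R : (L → ℂ) → Finset (G → ℂ)) (hS : Cfsg.IsCoherenceSystem S τ R) (χ : L → ℂ) (hχ : χ ∈ S) (ψ : L → ℂ) (hψ : ψ ∈ Cfsg.zspan S) (h1 : Cfsg.classInner χ ψ = 0) (h2 : Cfsg.classInner (Cfsg.conjFun χ) ψ = 0) (τ₁ : (L → ℂ) → (G → ℂ)) (hτ₁ : Cfsg.IsLinearIsometryOn (Cfsg.zspan {χ - ψ, χ - Cfsg.conjFun χ}) τ₁) (hagree : ∀ n : ℤ, τ₁ (n • (χ - Cfsg.conjFun χ)) = τ (n • (χ - Cfsg.conjFun χ))) : (Cfsg.classInner χ χ).re ≤ ∑ α ∈ R χ, ‖Cfsg.classInner (τ₁ (χ - ψ)) α‖ ^ 2 ∧ ((Cfsg.classInner ψ ψ).re ≤ (Cfsg.classInner (τ₁ (χ - ψ)) (τ₁ (χ - ψ))).re - ∑ α ∈ R χ, ‖Cfsg.classInner (τ₁ (χ - ψ)) α‖ ^ 2 → (∑ α ∈ R χ, ‖Cfsg.classInner (τ₁ (χ - ψ)) α‖ ^ 2 = (Cfsg.classInner χ χ).re ∧ ∀ α ∈ R χ, Cfsg.classInner (τ₁ (χ - ψ)) α = 0 ∨ Cfsg.classInner (τ₁ (χ - ψ)) α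 = 1)) := by
  classical
  have hmem1 : χ - ψ ∈ Cfsg.zspan {χ - ψ, χ - Cfsg.conjFun χ} := Submodule.subset_span (by simp)
  have hmem2 : χ - Cfsg.conjFun χ ∈ Cfsg.zspan {χ - ψ, χ - Cfsg.conjFun χ} := Submodule.subset_span (by simp)
  obtain ⟨-, -, hinner, hgen⟩ := hτ₁
  have hcm := hS.conj_mem χ hχ
  have h0 : Cfsg.classInner χ (Cfsg.conjFun χ) = 0 := hS.orthogonal χ hχ _ hcm (hS.conj_ne χ hχ).symm
  have h1' : Cfsg.classInner ψ χ = 0 := by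
    rw [← Cfsg.Agent.Lib.CharIrr.classInner_conj, h1, map_zero]
  have h2' : Cfsg.classInner ψ (Cfsg.conjFun χ) = 0 := by
    rw [← Cfsg.Agent.Lib.CharIrr.classInner_conj, h2, map_zero]
  have hd : τ₁ (χ - Cfsg.conjFun χ) = ∑ α ∈ R χ, α := by
    have := hagree 1
    rw [one_smul] at this
    rw [this, hS.sum_eq χ hχ]
  have hsum : ∑ α ∈ R χ, Cfsg.classInner (τ₁ (χ - ψ)) α = Cfsg.classInner χ χ := by
    rw [← Cfsg.Agent.Lib.CharIrr.classInner_sum_right, ← hd, hinner _ hmem1 _ hmem2, inner_sub, h0, h1', h2']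
    ring
  have hnorm : Cfsg.classInner (τ₁ (χ - ψ)) (τ₁ (χ - ψ)) = Cfsg.classInner χ χ + Cfsg.classInner ψ ψ := by
    rw [hinner _ hmem1 _ hmem1, inner_sub, h1, h1']
    ring
  have hint : ∀ α ∈ R χ, ∃ m : ℤ, Cfsg.classInner (τ₁ (χ - ψ)) α = m := fun α hα =>
    Cfsg.Agent.Lib.CharGen.exists_int_classInner (hgen _ hmem1) (hS.virtual χ hχ α hα)
  choose! m hm using hint
  have hsum2 : ∑ α ∈ R χ, ((m α : ℤ) : ℂ) = Cfsg.classInner χ χ := by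
    rw [← hsum]
    exact Finset.sum_congr rfl fun α hα => (hm α hα).symm
  have hre : (Cfsg.classInner χ χ).re = ∑ α ∈ R χ, ((m α : ℤ) : ℝ) := by
    rw [← hsum2, Complex.re_sum]
    simp
  have hsq : ∀ α ∈ R χ, ‖Cfsg.classInner (τ₁ (χ - ψ)) α‖ ^ 2 = ((m α : ℤ) : ℝ) ^ 2 := by
    intro α hα
    rw [hm α hα, Complex.norm_intCast, sq_abs]
  have hle : ∀ α ∈ R χ, ((m α : ℤ) : ℝ) ≤ ((m α : ℤ) : ℝ) ^ 2 := by
    intro α _
    have : m α ≤ m α ^ 2 := by nlinarith [sq_nonneg (m α), Int.le_self_sq (m α)]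
    exact_mod_cast this
  have hrw : ∑ α ∈ R χ, ‖Cfsg.classInner (τ₁ (χ - ψ)) α‖ ^ 2 = ∑ α ∈ R χ, ((m α : ℤ) : ℝ) ^ 2 :=
    Finset.sum_congr rfl hsq
  refine ⟨?_, ?_⟩
  · rw [hrw, hre]
    exact Finset.sum_le_sum hle
  · intro hh
    rw [hnorm, Complex.add_re, hrw] at hh
    have hle2 : ∑ α ∈ R χ, ((m α : ℤ) : ℝ) ^ 2 ≤ ∑ α ∈ R χ, ((m α : ℤ) : ℝ) := by
      rw [← hre]
      linarith
    have heq : ∑ α ∈ R χ, ((m α : ℤ) : ℝ) = ∑ α ∈ R χ, ((m α : ℤ) : ℝ) ^ 2 :=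
      le_antisymm (Finset.sum_le_sum hle) hle2
    refine ⟨by rw [hrw, hre, heq], ?_⟩
    intro α hα
    have hall := (Finset.sum_eq_sum_iff_of_le hle).1 heq α hα
    have h3 : m α = m α ^ 2 := by exact_mod_cast hall
    have h4 : m α * (m α - 1) = 0 := by linear_combination -h3
    rw [hm α hα]
    rcases mul_eq_zero.1 h4 with h5 | h5
    · left
      simp [h5]
    · right
      have : m α = 1 := by linarith
      simp [this]

end Cfsg.Agent.S1515
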