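import Cfsg.Statements.S1527
-- import your own Cfsg.Agent.* helpers here

set_option autoImplicit false
set_option linter.all false
open Cfsg

namespace Cfsg.Agent.S1527

/-- Let G be a finite group and H i (i in a finite index type) subgroups of pairwise coprime orders, each of whose underlying sets is a TI-subset of G, such that every non-identity element of G is conjugate to an element of some H i. Then Nat.card G − 1 = Σ_i [G : N_G(H i)] · (Nat.card (H i) − 1). -/
theorem result {G : Type*} [Group G] [Finite G] {ι : Type*} [Fintype ι] (H : ι → Subgroup G) (hcop : ∀ i j, i ≠ j → Nat.Coprime (Nat.card (H i)) (Nat.card (H j))) (hTI : ∀ i, Cfsg.IsTISubset (H i : Set G)) (hcover : ∀ g : G, g ≠ 1 → ∃ i, ∃ x : G, x * g * x⁻¹ ∈ H i) : Nat.card G - 1 = ∑ i, (Subgroup.normalizer (H i : Set G)).index * (Nat.card (H i) - 1) := by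
  classical
  -- the cosets of the normalizers
  let N := fun i => Subgroup.normalizer (H i : Set G)
  let D := Σ i, (G ⧸ N i) × {x : H i // x ≠ 1}
  let Φ : D → {g : G // g ≠ 1} := fun p =>
    ⟨(p.2.1.out : G) * (p.2.2 : H p.1) * (p.2.1.out : G)⁻¹, by
      intro h
      apply p.2.2.2
      apply Subtype.ext
      have h1 : (p.2.2 : G) = (p.2.1.out : G)⁻¹ * ((p.2.1.out : G) * (p.2.2 : H p.1) * (p.2.1.out : G)⁻¹) * (p.2.1.out : G) := by group
      rw [h1, h]
      simp⟩
  have hΦ : Function.Bijective Φ := by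
    constructor
    · rintro ⟨i, q, x⟩ ⟨j, q', x'⟩ h
      have h1 : (q.out : G) * ((x : H i) : G) * (q.out : G)⁻¹ = (q'.out : G) * ((x' : H j) : G) * (q'.out : G)⁻¹ :=
        congrArg Subtype.val h
      -- same index
      have hij : i = j := by
        by_contra hne
        have h2 : orderOf ((x : H i) : G) = orderOf ((x' : H j) : G) := by
          have e1 := MulEquiv.orderOf_eq (MulAut.conj (q.out : G)) ((x : H i) : G)
          have e2 := MulEquiv.orderOf_eq (MulAut.conj (q'.out : G)) ((x' : H j) : G)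
          have e3 : (MulAut.conj (q.out : G)) ((x : H i) : G) = (MulAut.conj (q'.out : G)) ((x' : H j) : G) := h1
          rw [e3] at e1
          exact e1.symm.trans e2
        have h3 : orderOf ((x : H i) : G) ∣ Nat.card (H i) := Subgroup.orderOf_dvd_natCard _ (x : H i).2
        have h4 : orderOf ((x : H i) : G) ∣ Nat.card (H j) := by
          rw [h2]; exact Subgroup.orderOf_dvd_natCard _ (x' : H j).2
        have h5 : orderOf ((x : H i) : G) = 1 := Nat.Coprime.eq_one_of_dvd ((hcop i j hne).coprime_dvd_left h3) h4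
        have h6 := orderOf_eq_one_iff.1 h5
        exact x.2 (Subtype.ext h6)
      subst hij
      -- same coset
      have hconj : ((q'.out : G)⁻¹ * q.out) * ((x : H i) : G) * ((q'.out : G)⁻¹ * q.out)⁻¹ = ((x' : H i) : G) := by
        calc ((q'.out : G)⁻¹ * q.out) * ((x : H i) : G) * ((q'.out : G)⁻¹ * q.out)⁻¹
            = (q'.out : G)⁻¹ * ((q.out : G) * ((x : H i) : G) * (q.out : G)⁻¹) * q'.out := by group
          _ = (q'.out : G)⁻¹ * ((q'.out : G) * ((x' : H i) : G) * (q'.out : G)⁻¹) * q'.out := by rw [h1]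
          _ = _ := by group
      have hN : (q'.out : G)⁻¹ * q.out ∈ N i := by
        by_contra hnot
        have h7 := hTI i _ hnot ((x : H i) : G) (x : H i).2 (by rw [hconj]; exact (x' : H i).2)
        exact x.2 (Subtype.ext h7)
      have hq : q' = q := by
        have h8 : ((q'.out : G) : G ⧸ N i) = (q.out : G) := QuotientGroup.eq.2 hN
        rw [QuotientGroup.out_eq', QuotientGroup.out_eq'] at h8
        exact h8
      subst hq
      have hx : x = x' := by
        apply Subtype.ext
        apply Subtype.ext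
        exact mul_left_cancel (mul_right_cancel h1)
      rw [hx]
    · rintro ⟨g, hg⟩
      obtain ⟨i, y, hy⟩ := hcover g hg
      -- g = y⁻¹ (y g y⁻¹) y
      let q : G ⧸ N i := ((y⁻¹ : G) : G ⧸ N i)
      have hq : ((q.out : G)⁻¹ * y⁻¹) ∈ N i := by
        have h1 : ((q.out : G) : G ⧸ N i) = ((y⁻¹ : G) : G ⧸ N i) := Quotient.out_eq' q
        exact QuotientGroup.eq.1 h1
      obtain ⟨n, hn⟩ : ∃ n, n = (q.out : G)⁻¹ * y⁻¹ := ⟨_, rfl⟩
      have hnN : n ∈ N i := hn ▸ hq
      have hmem : n * (y * g * y⁻¹) * n⁻¹ ∈ H i := (hnN _).1 hy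
      have hne : n * (y * g * y⁻¹) * n⁻¹ ≠ 1 := by
        intro h
        apply hg
        have h2 : y * g * y⁻¹ = 1 := by
          have h3 : y * g * y⁻¹ = n⁻¹ * (n * (y * g * y⁻¹) * n⁻¹) * n := by group
          rw [h3, h]
          simp
        have h3 : g = y⁻¹ * (y * g * y⁻¹) * y := by group
        rw [h3, h2]
        simp
      refine ⟨⟨i, q, ⟨⟨_, hmem⟩, fun h => hne (congrArg Subtype.val h)⟩⟩, ?_⟩
      apply Subtype.ext
      show (q.out : G) * (n * (y * g * y⁻¹) * n⁻¹) * (q.out : G)⁻¹ = g
      rw [hn]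
      group
  have hcard := Nat.card_eq_of_bijective Φ hΦ
  have h1 : Nat.card {g : G // g ≠ 1} = Nat.card G - 1 := by
    haveI := Fintype.ofFinite G
    rw [Nat.card_eq_fintype_card, Nat.card_eq_fintype_card, Fintype.card_subtype_compl]
    simp
  have h2 : ∀ i, Nat.card {x : H i // x ≠ 1} = Nat.card (H i) - 1 := by
    intro i
    haveI := Fintype.ofFinite (H i)
    rw [Nat.card_eq_fintype_card, Nat.card_eq_fintype_card, Fintype.card_subtype_compl]
    simp
  rw [← h1, ← hcard]
  show Nat.card (Σ i, (G ⧸ N i) × {x : H i // x ≠ 1}) = _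
  rw [Nat.card_sigma]
  apply Finset.sum_congr rfl
  intro i _
  rw [Nat.card_prod, h2]
  rfl

end Cfsg.Agent.S1527
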