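import Cfsg.Statements.S1529
import Mathlib
import Cfsg.Agent.Lib.CharIso
import Cfsg.Agent.Lib.CharIrr
import Cfsg.Agent.Lib.CharOps
-- import your own Cfsg.Agent.* helpers here

set_option autoImplicit false
set_option linter.all false
open Cfsg

namespace Cfsg.Agent.S1529

/-- Let N be a subgroup of the finite group G, S a set of irreducible characters of N with at least two members, and τ₁ a linear isometry on the integer combinations of S with virtual-character values such that τ₁ α vanishes at 1 whenever α ∈ ℤ[S] does. Then there is ε ∈ {1, −1} such that ε • τ₁ χ is an irreducible character of G for every χ ∈ S, and distinct members of S give distinct characters. -/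
theorem result {G : Type*} [Group G] [Fintype G] (N : Subgroup G) [Fintype N] (S : Set (N → ℂ)) (hirr : ∀ χ ∈ S, Cfsg.IsIrrCharacter N χ) (htwo : ∃ χ ∈ S, ∃ ψ ∈ S, χ ≠ ψ) (τ₁ : (N → ℂ) → (G → ℂ)) (hτ₁ : Cfsg.IsLinearIsometryOn (Cfsg.zspan S) τ₁) (h0 : ∀ α ∈ Cfsg.zspan S, α 1 = 0 → τ₁ α 1 = 0) : ∃ ε : ℂ, (ε = 1 ∨ ε = -1) ∧ (∀ χ ∈ S, Cfsg.IsIrrCharacter G (ε • τ₁ χ)) ∧ (∀ χ ∈ S, ∀ ψ ∈ S, τ₁ χ = τ₁ ψ → χ = ψ) := by
  classical
  obtain ⟨hadd, hsmul, hinner, hgen⟩ := hτ₁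
  have hmem : ∀ χ ∈ S, χ ∈ Cfsg.zspan S := fun χ hχ => Submodule.subset_span hχ
  have hnorm : ∀ χ ∈ S, Cfsg.classInner (τ₁ χ) (τ₁ χ) = 1 := by
    intro χ hχ
    rw [hinner _ (hmem χ hχ) _ (hmem χ hχ), Cfsg.Agent.Lib.CharIrr.classInner_irr (hirr χ hχ) (hirr χ hχ), if_pos rfl]
  obtain ⟨χ₀, h₀, -⟩ := htwo
  have hex : ∀ χ ∈ S, ∃ μ : G → ℂ, Cfsg.IsIrrCharacter G μ ∧ (τ₁ χ = μ ∨ τ₁ χ = -μ) :=
    fun χ hχ => Cfsg.Agent.Lib.CharIso.exists_irr_of_norm_one (hgen χ (hmem χ hχ)) (hnorm χ hχ)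
  obtain ⟨n₀, hn₀, e₀⟩ := Cfsg.Agent.Lib.CharOps.exists_degree_pos (hirr χ₀ h₀)
  have hrel : ∀ χ ∈ S, ∀ n : ℕ, χ 1 = n → (n₀ : ℂ) * τ₁ χ 1 = (n : ℂ) * τ₁ χ₀ 1 := by
    intro χ hχ n en
    have h1 : ((n₀ : ℤ) • χ) ∈ Cfsg.zspan S := Submodule.smul_mem _ _ (hmem χ hχ)
    have h2 : ((-(n : ℤ)) • χ₀) ∈ Cfsg.zspan S := Submodule.smul_mem _ _ (hmem χ₀ h₀)
    have h3 : ((n₀ : ℤ) • χ + (-(n : ℤ)) • χ₀) ∈ Cfsg.zspan S := Submodule.add_mem _ h1 h2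
    have h4 : ((n₀ : ℤ) • χ + (-(n : ℤ)) • χ₀) 1 = 0 := by
      simp only [Pi.add_apply, Pi.smul_apply, en, e₀]
      simp
      ring
    have h5 := h0 _ h3 h4
    rw [hadd _ h1 _ h2, hsmul _ (hmem χ hχ), hsmul _ (hmem χ₀ h₀)] at h5
    simp only [Pi.add_apply, Pi.smul_apply] at h5
    simp only [zsmul_eq_mul] at h5
    push_cast at h5
    linear_combination h5
  have hinj : ∀ χ ∈ S, ∀ ψ ∈ S, τ₁ χ = τ₁ ψ → χ = ψ := by
    intro χ hχ ψ hψ e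
    have h1 := hinner _ (hmem χ hχ) _ (hmem ψ hψ)
    rw [← e, hnorm χ hχ, Cfsg.Agent.Lib.CharIrr.classInner_irr (hirr χ hχ) (hirr ψ hψ)] at h1
    by_contra hne
    rw [if_neg hne] at h1
    exact one_ne_zero h1
  obtain ⟨μ₀, hμ₀, h0'⟩ := hex χ₀ h₀
  obtain ⟨a₀, ha₀, ea₀⟩ := Cfsg.Agent.Lib.CharOps.exists_degree_pos hμ₀
  rcases h0' with h0' | h0'
  · refine ⟨1, Or.inl rfl, ?_, hinj⟩
    intro χ hχ
    obtain ⟨μ, hμ, hor⟩ := hex χ hχ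
    obtain ⟨n, hn, en⟩ := Cfsg.Agent.Lib.CharOps.exists_degree_pos (hirr χ hχ)
    obtain ⟨a, ha, ea⟩ := Cfsg.Agent.Lib.CharOps.exists_degree_pos hμ
    have hr := hrel χ hχ n en
    rcases hor with hor | hor
    · rw [hor, one_smul]
      exact hμ
    · exfalso
      rw [hor, h0'] at hr
      simp only [Pi.neg_apply, ea, ea₀] at hr
      have : ((n₀ : ℤ) * (-(a : ℤ)) : ℤ) = (n : ℤ) * (a₀ : ℤ) := by exact_mod_cast hr
      have h7 : 0 < (n : ℤ) * (a₀ : ℤ) := by positivity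
      have h8 : 0 < (n₀ : ℤ) * (a : ℤ) := by positivity
      linarith
  · refine ⟨-1, Or.inr rfl, ?_, hinj⟩
    intro χ hχ
    obtain ⟨μ, hμ, hor⟩ := hex χ hχ
    obtain ⟨n, hn, en⟩ := Cfsg.Agent.Lib.CharOps.exists_degree_pos (hirr χ hχ)
    obtain ⟨a, ha, ea⟩ := Cfsg.Agent.Lib.CharOps.exists_degree_pos hμ
    have hr := hrel χ hχ n en
    rcases hor with hor | hor
    · exfalso
      rw [hor, h0'] at hr
      simp only [Pi.neg_apply, ea, ea₀] at hr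
      have : ((n₀ : ℤ) * (a : ℤ) : ℤ) = (n : ℤ) * (-(a₀ : ℤ)) := by exact_mod_cast hr
      have h7 : 0 < (n : ℤ) * (a₀ : ℤ) := by positivity
      have h8 : 0 < (n₀ : ℤ) * (a : ℤ) := by positivity
      linarith
    · rw [hor]
      have : (-1 : ℂ) • (-μ) = μ := by simp
      rw [this]
      exact hμ

end Cfsg.Agent.S1529
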