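import Cfsg.Statements.S1536
import Cfsg.Agent.Lib.CharLinear
import Cfsg.Agent.Lib.CharPerm
import Cfsg.Agent.Lib.SchurZ

set_option autoImplicit false
set_option linter.style.haveILetI false
set_option linter.unusedVariables false
open scoped ComplexConjugate
open Cfsg

namespace Cfsg.Agent.S1536

/-- Let H be a normal subgroup of the finite group M whose order is coprime to its index. For x ∈ M: some non-principal irreducible character of H is unchanged under h ↦ θ(x h x⁻¹) if and only if some non-identity element of H commutes with x. -/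
theorem result {M : Type*} [Group M] [Finite M] (H : Subgroup M) [hN : H.Normal] (hHall : Nat.Coprime (Nat.card H) H.index) (x : M) : (∃ θ : H → ℂ, Cfsg.IsIrrCharacter H θ ∧ θ ≠ (fun _ => 1) ∧ (fun h : H => θ ⟨x * h * x⁻¹, hN.conj_mem h h.2 x⟩) = θ) ↔ ∃ h ∈ H, h ≠ 1 ∧ x * h = h * x := by
  classical
  letI : Fintype H := Fintype.ofFinite _
  cases nonempty_fintype M
  open Cfsg.Agent.Lib.CharPerm in
    let α : H ≃* H := MulAut.conjNormal x
    have hαapp : ∀ h : H, ((α h : H) : M) = x * h * x⁻¹ := fun h => rfl
    have hcard := card_fixed_aut α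
    let one : IrrCharacter H := ⟨fun _ => 1, Cfsg.Agent.Lib.CharIso.isIrr_one⟩
    have hone : ((one : IrrCharacter H) : H → ℂ) ∘ α = (one : H → ℂ) := rfl
    constructor
    · rintro ⟨θ, hθ, hne, hfix⟩
      -- two fixed characters, hence two fixed classes
      have h2 : 1 < Nat.card {χ : IrrCharacter H // (χ : H → ℂ) ∘ α = (χ : H → ℂ)} := by
        rw [Finite.one_lt_card_iff_nontrivial]
        refine ⟨⟨⟨⟨θ, hθ⟩, hfix⟩, ⟨one, hone⟩, fun h => hne ?_⟩⟩
        exact congrArg (fun z : IrrCharacter H => (z : H → ℂ)) (congrArg Subtype.val h)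
      rw [← hcard, Finite.one_lt_card_iff_nontrivial] at h2
      obtain ⟨⟨c₀, hc₀⟩, hc1⟩ : ∃ c : {C : ConjClasses H // ConjClasses.map α.toMonoidHom C = C}, c.1 ≠ ConjClasses.mk 1 := by
        by_contra hall
        push Not at hall
        obtain ⟨a, b, hab⟩ := h2
        exact hab (Subtype.ext ((hall a).trans (hall b).symm))
      obtain ⟨n, rfl⟩ := ConjClasses.exists_rep c₀
      have hn1 : n ≠ 1 := fun h => hc1 (by show ConjClasses.mk n = _; rw [h])
      have h3 : IsConj (α n) n := ConjClasses.mk_eq_mk_iff_isConj.mp hc₀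
      obtain ⟨m, hm⟩ := isConj_iff.mp h3
      have h4 : (m : M) * (x * n * x⁻¹) * (m : M)⁻¹ = n := congrArg Subtype.val hm
      -- the element `c = m x` centralizes `n`
      have hc : ((m : M) * x) * n = n * ((m : M) * x) := by
        calc (m : M) * x * n = ((m : M) * (x * n * x⁻¹) * (m : M)⁻¹) * ((m : M) * x) := by group
          _ = n * ((m : M) * x) := by rw [h4]
      -- Chinese remainder exponents
      let q := Nat.card H
      let i := H.index
      have hq : 0 < q := Nat.card_pos
      have hi : 0 < i := Nat.pos_of_ne_zero Subgroup.index_ne_zero_of_finite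
      obtain ⟨e₂, he₂q, he₂i⟩ : ∃ e : ℕ, e ≡ 0 [MOD q] ∧ e ≡ 1 [MOD i] := by
        obtain ⟨e, he⟩ := Nat.chineseRemainder hHall 0 1
        exact ⟨e, he.1, he.2⟩
      obtain ⟨e₁, he₁q, he₁i⟩ : ∃ e : ℕ, e ≡ 1 [MOD q] ∧ e ≡ 0 [MOD i] := by
        obtain ⟨e, he⟩ := Nat.chineseRemainder hHall 1 0
        exact ⟨e, he.1, he.2⟩
      have hpowH : ∀ g : M, g ^ i ∈ H := fun g => Subgroup.pow_index_mem H g
      have hone_of : ∀ g : M, g ∈ H → g ^ i = 1 → g = 1 := by
        intro g hg hgi
        have h5 : orderOf g ∣ i := orderOf_dvd_of_pow_eq_one hgi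
        have h6 : orderOf (⟨g, hg⟩ : H) ∣ q := orderOf_dvd_natCard _
        have h7 : orderOf (⟨g, hg⟩ : H) = orderOf g := Subgroup.orderOf_mk g hg
        rw [h7] at h6
        have h8 := Nat.Coprime.eq_one_of_dvd (Nat.Coprime.coprime_dvd_left h6 hHall) h5
        exact orderOf_eq_one_iff.mp h8
      have hpow_e₂ : ∀ g : M, (g ^ e₂) ^ i = 1 := by
        intro g
        have h5 : g ^ (i * q) = 1 := by
          rw [pow_mul]
          have : ((⟨g ^ i, hpowH g⟩ : H) ^ q) = 1 := pow_card_eq_one'
          exact congrArg Subtype.val this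
        have h6 : i * q ∣ e₂ * i := by
          have h7 : q ∣ e₂ := (Nat.modEq_zero_iff_dvd.mp he₂q)
          rw [mul_comm]
          exact Nat.mul_dvd_mul_right h7 i
        rw [← pow_mul]
        obtain ⟨k, hk⟩ := h6
        rw [hk, pow_mul, h5, one_pow]
      have hsplit : ∀ g : M, g ^ e₁ * g ^ e₂ = g := by
        intro g
        have h5 : g ^ (i * q) = 1 := by
          rw [pow_mul]
          have : ((⟨g ^ i, hpowH g⟩ : H) ^ q) = 1 := pow_card_eq_one'
          exact congrArg Subtype.val this
        rw [← pow_add]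
        have h6 : e₁ + e₂ ≡ 1 [MOD i * q] := by
          apply (Nat.modEq_and_modEq_iff_modEq_mul hHall.symm).mp
          constructor
          · calc e₁ + e₂ ≡ 0 + 1 [MOD i] := Nat.ModEq.add he₁i he₂i
              _ = 1 := rfl
          · calc e₁ + e₂ ≡ 1 + 0 [MOD q] := Nat.ModEq.add he₁q he₂q
              _ = 1 := rfl
        have h7 : g ^ (e₁ + e₂) = g ^ 1 := by
          rw [← pow_mod_orderOf, ← pow_mod_orderOf g 1]
          have h8 : orderOf g ∣ i * q := orderOf_dvd_of_pow_eq_one h5
          exact congrArg _ (h6.of_dvd h8)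
        simpa using h7
      have hy : x ^ e₁ ∈ H := by
        obtain ⟨k, hk⟩ := Nat.modEq_zero_iff_dvd.mp he₁i
        rw [hk, pow_mul]
        exact H.pow_mem (hpowH x) k
      by_cases hy1 : x ^ e₁ = 1
      · -- `x` has order prime to `|H|`
        have hxz : x ^ e₂ = x := by
          have := hsplit x
          rwa [hy1, one_mul] at this
        have hxi : x ^ i = 1 := by
          have := hpow_e₂ x
          rwa [hxz] at this
        let c : M := (m : M) * x
        let w : M := c ^ e₂
        have hwi : w ^ i = 1 := hpow_e₂ c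
        have hwn : w * n = n * w := by
          have : Commute c (n : M) := hc
          exact (this.pow_left e₂)
        -- `w` and `x` agree modulo `H`
        have hcx : (QuotientGroup.mk' H) c = QuotientGroup.mk' H x := by
          rw [map_mul]
          have : (QuotientGroup.mk' H) (m : M) = 1 := (QuotientGroup.eq_one_iff _).mpr m.2
          rw [this, one_mul]
        have hwx : (QuotientGroup.mk' H) w = QuotientGroup.mk' H x := by
          show (QuotientGroup.mk' H) (c ^ e₂) = _
          rw [map_pow, hcx, ← map_pow, hxz]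
        have hwxH : w * x⁻¹ ∈ H := by
          rw [← QuotientGroup.eq_one_iff]
          have : (QuotientGroup.mk' H) (w * x⁻¹) = 1 := by
            rw [map_mul, map_inv, hwx, mul_inv_cancel]
          exact this
        have hordw : orderOf w = orderOf x := by
          apply Nat.dvd_antisymm
          · apply orderOf_dvd_of_pow_eq_one
            apply hone_of
            · rw [← QuotientGroup.eq_one_iff]
              show (QuotientGroup.mk' H) (w ^ orderOf x) = 1
              rw [map_pow, hwx, ← map_pow, pow_orderOf_eq_one, map_one]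
            · rw [← pow_mul, mul_comm, pow_mul, hwi, one_pow]
          · apply orderOf_dvd_of_pow_eq_one
            apply hone_of
            · rw [← QuotientGroup.eq_one_iff]
              show (QuotientGroup.mk' H) (x ^ orderOf w) = 1
              rw [map_pow, ← hwx, ← map_pow, pow_orderOf_eq_one, map_one]
            · rw [← pow_mul, mul_comm, pow_mul, hxi, one_pow]
        let A : Subgroup M := Subgroup.zpowers x
        let B : Subgroup M := Subgroup.zpowers w
        have hAN : A ≤ Subgroup.normalizer (H : Set M) := by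
          rw [Subgroup.normalizer_eq_top_iff.mpr ‹_›]
          exact le_top
        have hB : B ≤ H ⊔ A := by
          rw [Subgroup.zpowers_le]
          have h5 : w = (w * x⁻¹) * x := by group
          rw [h5]
          exact Subgroup.mul_mem _ (Subgroup.mem_sup_left hwxH) (Subgroup.mem_sup_right (Subgroup.mem_zpowers x))
        have hcB : Nat.card B = Nat.card A := by
          simp only [B, A, Nat.card_zpowers, hordw]
        have hcop : Nat.Coprime (Nat.card H) (Nat.card A) := by
          have : Nat.card A ∣ i := by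
            simp only [A, Nat.card_zpowers]
            exact orderOf_dvd_of_pow_eq_one hxi
          exact Nat.Coprime.coprime_dvd_right this hHall
        have hAs : Group.IsSolvable A := by
          apply Group.isSolvable_of_comm
          intro a b
          obtain ⟨k, hk⟩ := Subgroup.mem_zpowers_iff.mp a.2
          obtain ⟨l, hl⟩ := Subgroup.mem_zpowers_iff.mp b.2
          apply Subtype.ext
          show (a : M) * b = b * a
          rw [← hk, ← hl]
          exact (Commute.refl x).zpow_zpow k l
        obtain ⟨n₀, hn₀, hconj⟩ := Cfsg.Agent.Lib.SchurZ.sz_conj_ambient H A B hAN hB hcB hcop (Or.inr hAs)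
        have h8 : n₀ * x * n₀⁻¹ ∈ B := by
          rw [← hconj]
          exact ⟨x, Subgroup.mem_zpowers x, rfl⟩
        obtain ⟨k, hk⟩ := Subgroup.mem_zpowers_iff.mp h8
        have h9 : Commute (n₀ * x * n₀⁻¹) (n : M) := by
          rw [← hk]
          have : Commute w (n : M) := hwn
          exact this.zpow_left k
        refine ⟨n₀⁻¹ * n * n₀, ?_, ?_, ?_⟩
        · exact H.mul_mem (H.mul_mem (H.inv_mem hn₀) n.2) hn₀
        · intro h0
          apply hn1
          apply Subtype.ext
          have : (n : M) = n₀ * (n₀⁻¹ * n * n₀) * n₀⁻¹ := by group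
          rw [this, h0]
          simp
        · have h10 : n₀ * x * n₀⁻¹ * n = n * (n₀ * x * n₀⁻¹) := h9
          calc x * (n₀⁻¹ * n * n₀) = n₀⁻¹ * (n₀ * x * n₀⁻¹ * n) * n₀ := by group
            _ = n₀⁻¹ * (n * (n₀ * x * n₀⁻¹)) * n₀ := by rw [h10]
            _ = n₀⁻¹ * n * n₀ * x := by group
      · exact ⟨x ^ e₁, hy, hy1, ((Commute.refl x).pow_right e₁)⟩
    · rintro ⟨h, hH, h1, hc⟩
      have h2 : 1 < Nat.card {C : ConjClasses H // ConjClasses.map α.toMonoidHom C = C} := by
        rw [Finite.one_lt_card_iff_nontrivial]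
        refine ⟨⟨⟨ConjClasses.mk ⟨h, hH⟩, ?_⟩, ⟨ConjClasses.mk 1, ?_⟩, ?_⟩⟩
        · show ConjClasses.mk (α ⟨h, hH⟩) = _
          congr 1
          apply Subtype.ext
          show x * h * x⁻¹ = h
          rw [hc]
          group
        · show ConjClasses.mk (α 1) = _
          rw [map_one]
        · intro h5
          have h6 : (ConjClasses.mk (⟨h, hH⟩ : H)) = ConjClasses.mk 1 := congrArg Subtype.val h5
          have h7 : IsConj (⟨h, hH⟩ : H) 1 := ConjClasses.mk_eq_mk_iff_isConj.mp h6
          have h8 := isConj_one_left.mp h7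
          exact h1 (congrArg Subtype.val h8)
      rw [hcard, Finite.one_lt_card_iff_nontrivial] at h2
      obtain ⟨⟨θ, hθ⟩, hθ1⟩ : ∃ c : {χ : IrrCharacter H // (χ : H → ℂ) ∘ α = (χ : H → ℂ)}, c.1 ≠ one := by
        by_contra hall
        push Not at hall
        obtain ⟨a, b, hab⟩ := h2
        exact hab (Subtype.ext ((hall a).trans (hall b).symm))
      refine ⟨θ, θ.2, ?_, hθ⟩
      intro h5
      apply hθ1
      apply Subtype.ext
      exact h5

end Cfsg.Agent.S1536
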