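import Cfsg.Statements.S1546
-- import your own Cfsg.Agent.* helpers here

set_option autoImplicit false
set_option linter.all false
open Cfsg

namespace Cfsg.Agent.S1546

/-- Let p and q be odd primes and N = (p ^ q − 1) / (p − 1) = 1 + p + ⋯ + p^(q−1). Then N is odd; if p ≡ 1 (mod q) then q ∣ N; and if p is not ≡ 1 (mod q) then N is coprime to p − 1 and every divisor of N is ≡ 1 (mod q). -/
theorem result (p q : ℕ) (hp : p.Prime) (hq : q.Prime) (hp2 : p ≠ 2) (hq2 : q ≠ 2) : Odd ((p ^ q - 1) / (p - 1)) ∧ (p % q = 1 → q ∣ (p ^ q - 1) / (p - 1)) ∧ (p % q ≠ 1 → Nat.Coprime ((p ^ q - 1) / (p - 1)) (p - 1) ∧ ∀ x : ℕ, x ∣ (p ^ q - 1) / (p - 1) → x % q = 1) := by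
  classical
  have hp1 : 1 < p := hp.one_lt
  have hq3 : 3 ≤ q := by
    have := hq.two_le
    have h2 : q ≠ 2 := hq2
    omega
  obtain ⟨x, rfl⟩ : ∃ x, p = x + 1 := ⟨p - 1, by omega⟩
  have hx0 : 0 < x := by omega
  have hgs := geom_sum_mul_add x q
  have hsum : (((x + 1) ^ q - 1) / (x + 1 - 1)) = ∑ i ∈ Finset.range q, (x + 1) ^ i := by
    have h1 : (x + 1) ^ q - 1 = (∑ i ∈ Finset.range q, (x + 1) ^ i) * x := by omega
    rw [h1]
    simp only [Nat.add_sub_cancel]
    exact Nat.mul_div_cancel _ hx0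
  rw [hsum]
  simp only [Nat.add_sub_cancel]
  set N := ∑ i ∈ Finset.range q, (x + 1) ^ i with hN
  have hmod : ∀ m : ℕ, (x + 1) % m = 1 % m → N % m = q % m := by
    intro m hm
    have h1 : ∀ n, (∑ i ∈ Finset.range n, (x + 1) ^ i) ≡ n [MOD m] := by
      intro n
      induction n with
      | zero => simp [Nat.ModEq]
      | succ n ih =>
        rw [Finset.sum_range_succ]
        have h2 : (x + 1) ^ n ≡ 1 [MOD m] := by
          have h3 : (x + 1) ≡ 1 [MOD m] := hm
          have := h3.pow n
          simpa using this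
        exact ih.add h2
    exact h1 q
  have hpodd : Odd (x + 1) := hp.odd_of_ne_two hp2
  have hNodd : Odd N := by
    rw [Nat.odd_iff]
    have h1 := hmod 2 (by rw [Nat.odd_iff.1 hpodd])
    rw [h1]
    exact Nat.odd_iff.1 (hq.odd_of_ne_two hq2)
  have hNpos : 0 < N := hNodd.pos
  refine ⟨hNodd, ?_, ?_⟩
  · intro h1
    have h2 := hmod q (by rw [h1, Nat.mod_eq_of_lt (by omega)])
    rw [Nat.mod_self] at h2
    exact Nat.dvd_of_mod_eq_zero h2
  · intro hp1q
    have hqp : ¬ q ∣ x := by
      rintro ⟨c, rfl⟩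
      apply hp1q
      rw [Nat.mul_add_mod, Nat.mod_eq_of_lt (by omega)]
    have hcop : Nat.Coprime N x := by
      by_contra hnot
      obtain ⟨r, hr, hrN, hrp⟩ := Nat.Prime.not_coprime_iff_dvd.1 hnot
      have h3 : (x + 1) % r = 1 % r := by
        obtain ⟨c, rfl⟩ := hrp
        rw [Nat.mul_add_mod]
      have h4 := hmod r h3
      have h5 : r ∣ q := by
        have h6 : N % r = 0 := Nat.mod_eq_zero_of_dvd hrN
        rw [h6] at h4
        exact Nat.dvd_of_mod_eq_zero h4.symm
      have h6 : r = q := (Nat.prime_dvd_prime_iff_eq hr hq).1 h5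
      rw [h6] at hrp
      exact hqp hrp
    refine ⟨hcop, ?_⟩
    have hprime : ∀ r : ℕ, r.Prime → r ∣ N → r % q = 1 := by
      intro r hr hrN
      haveI : Fact r.Prime := ⟨hr⟩
      have hone : (((x + 1 : ℕ) : ZMod r)) ^ q = 1 := by
        have h1 : (((N * x + 1 : ℕ)) : ZMod r) = ((x + 1) ^ q : ℕ) := by rw [hgs]
        have h2 : (N : ZMod r) = 0 := (ZMod.natCast_eq_zero_iff N r).2 hrN
        push_cast at h1 ⊢
        rw [← h1, h2]
        ring
      have hd : orderOf (((x + 1 : ℕ) : ZMod r)) ∣ q := orderOf_dvd_of_pow_eq_one hone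
      rcases (Nat.dvd_prime hq).1 hd with h1 | h1
      · exfalso
        have h2 : (((x + 1 : ℕ) : ZMod r)) = 1 := orderOf_eq_one_iff.1 h1
        have h3 : (x : ZMod r) = 0 := by
          push_cast at h2
          exact by simpa using h2
        have h4 : r ∣ x := (ZMod.natCast_eq_zero_iff x r).1 h3
        have h5 := Nat.dvd_gcd hrN h4
        rw [hcop] at h5
        exact hr.one_lt.ne' (Nat.dvd_one.1 h5)
      · have hne : (((x + 1 : ℕ) : ZMod r)) ≠ 0 := by
          intro h0
          rw [h0, zero_pow (by omega)] at hone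
          exact zero_ne_one hone
        have h2 := ZMod.orderOf_dvd_card_sub_one hne
        rw [h1] at h2
        obtain ⟨c, hc⟩ := h2
        have h3 : r = q * c + 1 := by
          have := hr.one_lt
          omega
        rw [h3, Nat.mul_add_mod, Nat.mod_eq_of_lt (by omega)]
    intro y
    induction y using Nat.recOnMul with
    | zero =>
      intro h
      rw [zero_dvd_iff] at h
      omega
    | one =>
      intro _
      exact Nat.mod_eq_of_lt (by omega)
    | prime r hr => exact hprime r hr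
    | mul a b ha hb =>
      intro h
      have h1 := ha (dvd_trans (dvd_mul_right a b) h)
      have h2 := hb (dvd_trans (dvd_mul_left b a) h)
      rw [Nat.mul_mod, h1, h2, one_mul, Nat.mod_eq_of_lt (by omega)]

end Cfsg.Agent.S1546
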