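import Cfsg.Statements.S1573
import Cfsg.Agent.Lib.LeechCo2Facts

set_option autoImplicit false
open Cfsg

namespace Cfsg.Agent.S1573

/-- Census of minimal vectors by inner product with a fixed minimal vector: 4600 have customary inner product −2, 47104 have −1, and 93150 are orthogonal. -/
theorem result (v : Cfsg.GolayPt → ℤ) (hv : v ∈ Cfsg.leechLattice) (hvn : Cfsg.sqNorm v = 32) : {w : Cfsg.GolayPt → ℤ | w ∈ Cfsg.leechLattice ∧ Cfsg.sqNorm w = 32 ∧ Cfsg.dotInt v w = -16}.ncard = 4600 ∧ {w : Cfsg.GolayPt → ℤ | w ∈ Cfsg.leechLattice ∧ Cfsg.sqNorm w = 32 ∧ Cfsg.dotInt v w = -8}.ncard = 47104 ∧ {w : Cfsg.GolayPt → ℤ | w ∈ Cfsg.leechLattice ∧ Cfsg.sqNorm w = 32 ∧ Cfsg.dotInt v w = 0}.ncard = 93150 := by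
  obtain ⟨g, hg⟩ := Cfsg.Agent.Lib.LeechCo2Facts.exists_to_base ⟨v, hv⟩ hvn
  have e : ∀ T : ℤ, {w : Cfsg.GolayPt → ℤ | w ∈ Cfsg.leechLattice ∧ Cfsg.sqNorm w = 32 ∧ Cfsg.dotInt v w = T}.ncard =
      (Cfsg.Agent.Lib.LeechCert.SS [(Cfsg.Agent.Lib.LeechCo2.vC, T)]).ncard := by
    intro T
    rw [← Cfsg.Agent.Lib.LeechCo2Facts.ncard_of_base hg T,
      Cfsg.Agent.Lib.LeechCert.ncard_subtype (fun x => Cfsg.sqNorm x = 32 ∧ Cfsg.dotInt v x = T)]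
  rw [e, e, e, Cfsg.Agent.Lib.LeechCo2Card.card4600, Cfsg.Agent.Lib.LeechCo2Card.card47104, Cfsg.Agent.Lib.LeechCo2Card.card93150]
  exact ⟨rfl, rfl, rfl⟩

end Cfsg.Agent.S1573
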