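import Cfsg.Statements.S1578
import Cfsg.Agent.Lib.LeechCo3Facts

set_option autoImplicit false
open Cfsg

namespace Cfsg.Agent.S1578

/-- A lattice vector of customary norm 6 is the sum of an unordered pair of minimal vectors in exactly 276 ways (552 ordered summands). -/
theorem result (u : ↥Cfsg.leechLattice) (hu : Cfsg.sqNorm (u : Cfsg.GolayPt → ℤ) = 48) : {v : ↥Cfsg.leechLattice | Cfsg.sqNorm (v : Cfsg.GolayPt → ℤ) = 32 ∧ Cfsg.sqNorm ((u - v) : Cfsg.GolayPt → ℤ) = 32}.ncard = 552 := by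
  obtain ⟨g, hg⟩ := Cfsg.Agent.Lib.LeechCo3Facts.exists_to_base u hu
  have h1 : {v : ↥Cfsg.leechLattice | Cfsg.sqNorm (v : Cfsg.GolayPt → ℤ) = 32 ∧ Cfsg.sqNorm ((u - v) : Cfsg.GolayPt → ℤ) = 32} =
      {v : ↥Cfsg.leechLattice | Cfsg.sqNorm (v : Cfsg.GolayPt → ℤ) = 32 ∧ Cfsg.dotInt (u : Cfsg.GolayPt → ℤ) (v : Cfsg.GolayPt → ℤ) = 24} := by
    ext v
    refine and_congr_right fun hv => ?_
    exact Cfsg.Agent.Lib.LeechCo3Facts.sub_iff hu hv
  rw [h1, Cfsg.Agent.Lib.LeechCo3Facts.ncard_of_base hg]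
  exact Cfsg.Agent.Lib.LeechCo3.card552

end Cfsg.Agent.S1578
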