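import Cfsg.Statements.S1580
import Cfsg.Agent.Lib.LeechMcLFacts

set_option autoImplicit false
open Cfsg

namespace Cfsg.Agent.S1580

/-- The McLaughlin configuration: for u of customary norm 6 and v minimal with u − v minimal, there are 275 further such summands x of customary inner product 2 with v, permuted transitively by the stabiliser of u and v. -/
theorem result (u v : ↥Cfsg.leechLattice) (hu : Cfsg.sqNorm (u : Cfsg.GolayPt → ℤ) = 48) (hv : Cfsg.sqNorm (v : Cfsg.GolayPt → ℤ) = 32 ∧ Cfsg.sqNorm ((u - v) : Cfsg.GolayPt → ℤ) = 32) : {x : ↥Cfsg.leechLattice | Cfsg.sqNorm (x : Cfsg.GolayPt → ℤ) = 32 ∧ Cfsg.sqNorm ((u - x) : Cfsg.GolayPt → ℤ) = 32 ∧ Cfsg.dotInt (v : Cfsg.GolayPt → ℤ) (x : Cfsg.GolayPt → ℤ) = 16}.ncard = 275 ∧ ∀ x ∈ {x : ↥Cfsg.leechLattice | Cfsg.sqNorm (x : Cfsg.GolayPt → ℤ) = 32 ∧ Cfsg.sqNorm ((u - x) : Cfsg.GolayPt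 → ℤ) = 32 ∧ Cfsg.dotInt (v : Cfsg.GolayPt → ℤ) (x : Cfsg.GolayPt → ℤ) = 16}, ∀ x' ∈ {x : ↥Cfsg.leechLattice | Cfsg.sqNorm (x : Cfsg.GolayPt → ℤ) = 32 ∧ Cfsg.sqNorm ((u - x) : Cfsg.GolayPt → ℤ) = 32 ∧ Cfsg.dotInt (v : Cfsg.GolayPt → ℤ) (x : Cfsg.GolayPt → ℤ) = 16}, ∃ g : ↥Cfsg.Co0, g • u = u ∧ g • v = v ∧ g • x = x' := by
  have huv := (Cfsg.Agent.Lib.LeechCo3Facts.sub_iff hu hv.1).mp hv.2
  obtain ⟨g, h1, h2⟩ := Cfsg.Agent.Lib.LeechMcLFacts.exists_to_base2 u v hu hv.1 huv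
  have key := fun x => Cfsg.Agent.Lib.LeechMcLFacts.mem_S275_iff hu h1 h2 x
  refine ⟨?_, fun x hx x' hx' => ?_⟩
  · exact (Cfsg.Agent.Lib.LeechCert.ncard_SS_of_iff (g := g) (C := [(Cfsg.Agent.Lib.LeechCo3.uC, 24), (Cfsg.Agent.Lib.LeechCo3.r552, 16)])
      (fun x => (key x).symm)).trans Cfsg.Agent.Lib.LeechMcL.card275
  · have h3 := (key x).mpr hx
    have h4 := (key x').mpr hx'
    exact Cfsg.Agent.Lib.LeechMcLFacts.mem_of_FR2 h1 h2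
      (Cfsg.Agent.Lib.LeechCert.FR_of_mem_SS Cfsg.Agent.Lib.LeechMcL.cover275.2 h3 h4)

end Cfsg.Agent.S1580
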