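import Cfsg.Statements.S1581
import Cfsg.Agent.Lib.LeechMcLFacts

set_option autoImplicit false
open Cfsg

namespace Cfsg.Agent.S1581

/-- The McLaughlin group acts with rank 3 and subdegrees 1, 112, 162 on its 275 points: the point stabiliser has two orbits on the remaining points, distinguished by customary inner product 1 or 2 with the fixed point. -/
theorem result (u v x : ↥Cfsg.leechLattice) (hu : Cfsg.sqNorm (u : Cfsg.GolayPt → ℤ) = 48) (hv : Cfsg.sqNorm (v : Cfsg.GolayPt → ℤ) = 32 ∧ Cfsg.sqNorm ((u - v) : Cfsg.GolayPt → ℤ) = 32) (hx : x ∈ {x : ↥Cfsg.leechLattice | Cfsg.sqNorm (x : Cfsg.GolayPt → ℤ) = 32 ∧ Cfsg.sqNorm ((u - x) : Cfsg.GolayPt → ℤ) = 32 ∧ Cfsg.dotInt (v : Cfsg.GolayPt → ℤ) (x : Cfsg.GolayPt → ℤ) = 16}) : {y : ↥Cfsg.leechLattice | y ∈ {x : ↥Cfsg.leechLattice | Cfsg.sqNorm (x : Cfsg.GolayPt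 → ℤ) = 32 ∧ Cfsg.sqNorm ((u - x) : Cfsg.GolayPt → ℤ) = 32 ∧ Cfsg.dotInt (v : Cfsg.GolayPt → ℤ) (x : Cfsg.GolayPt → ℤ) = 16} ∧ Cfsg.dotInt (x : Cfsg.GolayPt → ℤ) (y : Cfsg.GolayPt → ℤ) = 8}.ncard = 112 ∧ {y : ↥Cfsg.leechLattice | y ∈ {x : ↥Cfsg.leechLattice | Cfsg.sqNorm (x : Cfsg.GolayPt → ℤ) = 32 ∧ Cfsg.sqNorm ((u - x) : Cfsg.GolayPt → ℤ) = 32 ∧ Cfsg.dotInt (v : Cfsg.GolayPt → ℤ) (x : Cfsg.GolayPt → ℤ) = 16} ∧ y ≠ x ∧ Cfsg.dotInt (x : Cfsg.GolayPt → ℤ) (y : Cfsg.GolayPt → ℤ) = 16}.ncard = 162 ∧ ∀ y ∈ {x : ↥Cfsg.leechLattice | Cfsg.sqNorm (x : Cfsg.GolayPt → ℤ) = 32 ∧ Cfsg.sqNorm ((u - x) : Cfsg.GolayPt → ℤ) = 32 ∧ Cfsg.dotInt (v : Cfsg.GolayPt → ℤ) (x : Cfsg.GolayPt → ℤ) = 16}, ∀ y' ∈ {x : ↥Cfsg.leechLattice | Cfsg.sqNorm (x : Cfsg.GolayPt → ℤ) = 32 ∧ Cfsg.sqNorm ((u - x) : Cfsg.GolayPt → ℤ) = 32 ∧ Cfsg.dotInt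 (v : Cfsg.GolayPt → ℤ) (x : Cfsg.GolayPt → ℤ) = 16}, y ≠ x → y' ≠ x → Cfsg.dotInt (x : Cfsg.GolayPt → ℤ) (y : Cfsg.GolayPt → ℤ) = Cfsg.dotInt (x : Cfsg.GolayPt → ℤ) (y' : Cfsg.GolayPt → ℤ) → ∃ g : ↥Cfsg.Co0, g • u = u ∧ g • v = v ∧ g • x = x ∧ g • y = y' := by
  have huv := (Cfsg.Agent.Lib.LeechCo3Facts.sub_iff hu hv.1).mp hv.2
  obtain ⟨g, h1, h2, h3⟩ := Cfsg.Agent.Lib.LeechMcLFacts.exists_to_base3 hu hv.1 huv hx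
  have key := fun y => Cfsg.Agent.Lib.LeechMcLFacts.mem_S275_iff hu h1 h2 y
  have hxx : Cfsg.dotInt (x : Cfsg.GolayPt → ℤ) (x : Cfsg.GolayPt → ℤ) = 32 := by
    have : Cfsg.dotInt (x : Cfsg.GolayPt → ℤ) (x : Cfsg.GolayPt → ℤ) = Cfsg.sqNorm (x : Cfsg.GolayPt → ℤ) := by
      simp only [Cfsg.dotInt, Cfsg.sqNorm, sq]
    rw [this]
    exact hx.1
  have key3 : ∀ (T : ℤ) (y : ↥Cfsg.leechLattice), ((g • y : ↥Cfsg.leechLattice) : Cfsg.GolayPt → ℤ) ∈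
      Cfsg.Agent.Lib.LeechCert.SS [(Cfsg.Agent.Lib.LeechCo3.uC, 24), (Cfsg.Agent.Lib.LeechCo3.r552, 16), (Cfsg.Agent.Lib.LeechMcL.r275, T)] ↔
      (Cfsg.sqNorm (y : Cfsg.GolayPt → ℤ) = 32 ∧ Cfsg.sqNorm ((u : Cfsg.GolayPt → ℤ) - (y : Cfsg.GolayPt → ℤ)) = 32 ∧ Cfsg.dotInt (v : Cfsg.GolayPt → ℤ) (y : Cfsg.GolayPt → ℤ) = 16) ∧
        Cfsg.dotInt (x : Cfsg.GolayPt → ℤ) (y : Cfsg.GolayPt → ℤ) = T := by
    intro T y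
    rw [Cfsg.Agent.Lib.LeechCert.mem_SS3 (ha := Cfsg.Agent.Lib.LeechCo3.uC_mem) (hb := Cfsg.Agent.Lib.LeechMcL.r552_mem) (hc := Cfsg.Agent.Lib.LeechMcL.r275_mem) h1 h2 h3]
    constructor
    · rintro ⟨a1, a2, a3, a4⟩
      exact ⟨⟨a1, (Cfsg.Agent.Lib.LeechCo3Facts.sub_iff hu a1).mpr a2, a3⟩, a4⟩
    · rintro ⟨⟨a1, a2, a3⟩, a4⟩
      exact ⟨a1, (Cfsg.Agent.Lib.LeechCo3Facts.sub_iff hu a1).mp a2, a3, a4⟩
  refine ⟨?_, ?_, ?_⟩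
  · exact (Cfsg.Agent.Lib.LeechCert.ncard_SS_of_iff (g := g) (C := [(Cfsg.Agent.Lib.LeechCo3.uC, 24), (Cfsg.Agent.Lib.LeechCo3.r552, 16), (Cfsg.Agent.Lib.LeechMcL.r275, 8)])
      (fun y => (key3 8 y).symm)).trans Cfsg.Agent.Lib.LeechMcL.card112
  · refine (Cfsg.Agent.Lib.LeechCert.ncard_SS_of_iff (g := g) (C := [(Cfsg.Agent.Lib.LeechCo3.uC, 24), (Cfsg.Agent.Lib.LeechCo3.r552, 16), (Cfsg.Agent.Lib.LeechMcL.r275, 16)])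
      (fun y => ?_)).trans Cfsg.Agent.Lib.LeechMcL.card162
    · rw [key3 16 y]
      constructor
      · rintro ⟨a1, a2, a3⟩
        exact ⟨a1, a3⟩
      · rintro ⟨a1, a3⟩
        refine ⟨a1, ?_, a3⟩
        rintro rfl
        rw [hxx] at a3
        norm_num at a3
  · intro y hy y' hy' hne hne' hdot
    -- the possible values
    have val : ∀ z : ↥Cfsg.leechLattice, z ∈ {x : ↥Cfsg.leechLattice | Cfsg.sqNorm (x : Cfsg.GolayPt → ℤ) = 32 ∧ Cfsg.sqNorm ((u - x) : Cfsg.GolayPt → ℤ) = 32 ∧ Cfsg.dotInt (v : Cfsg.GolayPt → ℤ) (x : Cfsg.GolayPt → ℤ) = 16} → z ≠ x →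
        Cfsg.dotInt (x : Cfsg.GolayPt → ℤ) (z : Cfsg.GolayPt → ℤ) = 8 ∨ Cfsg.dotInt (x : Cfsg.GolayPt → ℤ) (z : Cfsg.GolayPt → ℤ) = 16 := by
      intro z hz hzx
      have hz' := (key z).mpr hz
      obtain ⟨c, hc, hcz⟩ := Cfsg.Agent.Lib.LeechCert.exists_code_of_mem Cfsg.Agent.Lib.LeechMcL.cover275.1 hz'
      have hall := List.all_eq_true.mp Cfsg.Agent.Lib.LeechMcL.L275_dots c hc
      simp only [Bool.or_eq_true, decide_eq_true_eq] at hall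
      have hdotz : Cfsg.dotInt (x : Cfsg.GolayPt → ℤ) (z : Cfsg.GolayPt → ℤ) = Cfsg.Agent.Lib.LeechCert.dotZ Cfsg.Agent.Lib.LeechMcL.r275 c := by
        rw [← Cfsg.Agent.Lib.LeechCert.dotInt_dv, hcz]
        exact (Cfsg.Agent.Lib.LeechCert.dot_match (ha := Cfsg.Agent.Lib.LeechMcL.r275_mem) h3 z).symm
      rcases hall with (h5 | h5) | h5
      · exfalso
        have h6 : c = Cfsg.Agent.Lib.LeechMcL.r275 := Nat.eq_of_beq_eq_true h5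
        apply hzx
        apply MulAction.injective g
        show g • z = g • x
        rw [h3]
        apply Subtype.ext
        rw [← hcz, h6]
        rfl
      · left
        rw [hdotz, h5]
      · right
        rw [hdotz, h5]
    have hmem : ∀ z : ↥Cfsg.leechLattice, z ∈ {x : ↥Cfsg.leechLattice | Cfsg.sqNorm (x : Cfsg.GolayPt → ℤ) = 32 ∧ Cfsg.sqNorm ((u - x) : Cfsg.GolayPt → ℤ) = 32 ∧ Cfsg.dotInt (v : Cfsg.GolayPt → ℤ) (x : Cfsg.GolayPt → ℤ) = 16} → ∀ T : ℤ,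
        Cfsg.dotInt (x : Cfsg.GolayPt → ℤ) (z : Cfsg.GolayPt → ℤ) = T →
        ((g • z : ↥Cfsg.leechLattice) : Cfsg.GolayPt → ℤ) ∈
          Cfsg.Agent.Lib.LeechCert.SS [(Cfsg.Agent.Lib.LeechCo3.uC, 24), (Cfsg.Agent.Lib.LeechCo3.r552, 16), (Cfsg.Agent.Lib.LeechMcL.r275, T)] :=
      fun z hz T hT => (key3 T z).mpr ⟨hz, hT⟩
    have hFR : Cfsg.Agent.Lib.LeechCert.FR [Cfsg.Agent.Lib.LeechCo3.uC, Cfsg.Agent.Lib.LeechCo3.r552, Cfsg.Agent.Lib.LeechMcL.r275]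
        ((g • y : ↥Cfsg.leechLattice) : Cfsg.GolayPt → ℤ) ((g • y' : ↥Cfsg.leechLattice) : Cfsg.GolayPt → ℤ) := by
      rcases val y hy hne with h5 | h5
      · exact Cfsg.Agent.Lib.LeechCert.FR_of_mem_SS Cfsg.Agent.Lib.LeechMcL.cover112 (hmem y hy 8 h5) (hmem y' hy' 8 (hdot ▸ h5))
      · exact Cfsg.Agent.Lib.LeechCert.FR_of_mem_SS Cfsg.Agent.Lib.LeechMcL.cover162 (hmem y hy 16 h5) (hmem y' hy' 16 (hdot ▸ h5))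
    obtain ⟨k, hk1, hk2⟩ := Cfsg.Agent.Lib.LeechCert.lift_FR hFR
    exact ⟨k, hk1 _ (by simp) Cfsg.Agent.Lib.LeechCo3.uC_mem u h1, hk1 _ (by simp) Cfsg.Agent.Lib.LeechMcL.r552_mem v h2,
      hk1 _ (by simp) Cfsg.Agent.Lib.LeechMcL.r275_mem x h3, hk2⟩

end Cfsg.Agent.S1581
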