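import Cfsg.Statements.S1584
import Cfsg.Agent.Lib.LeechHSFacts

set_option autoImplicit false
open Cfsg

namespace Cfsg.Agent.S1584

/-- The Higman–Sims group acts with rank 3 and subdegrees 1, 22, 77 on its 100 points, the orbits of a point stabiliser being distinguished by customary inner product 1 with the fixed point. -/
theorem result (v w x : ↥Cfsg.leechLattice) (hv : Cfsg.sqNorm (v : Cfsg.GolayPt → ℤ) = 48) (hw : Cfsg.sqNorm (w : Cfsg.GolayPt → ℤ) = 48) (hvw : Cfsg.dotInt (v : Cfsg.GolayPt → ℤ) (w : Cfsg.GolayPt → ℤ) = -32) (hx : x ∈ {x : ↥Cfsg.leechLattice | Cfsg.sqNorm (x : Cfsg.GolayPt → ℤ) = 32 ∧ Cfsg.dotInt (v : Cfsg.GolayPt → ℤ) (x : Cfsg.GolayPt → ℤ) = 24 ∧ Cfsg.dotInt (w : Cfsg.GolayPt → ℤ) (x : Cfsg.GolayPt → ℤ) = -24}) : {y : ↥Cfsg.leechLattice | y ∈ {x : ↥Cfsg.leechLattice | Cfsg.sqNorm (x : Cfsg.GolayPt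 → ℤ) = 32 ∧ Cfsg.dotInt (v : Cfsg.GolayPt → ℤ) (x : Cfsg.GolayPt → ℤ) = 24 ∧ Cfsg.dotInt (w : Cfsg.GolayPt → ℤ) (x : Cfsg.GolayPt → ℤ) = -24} ∧ Cfsg.dotInt (x : Cfsg.GolayPt → ℤ) (y : Cfsg.GolayPt → ℤ) = 8}.ncard = 22 ∧ {y : ↥Cfsg.leechLattice | y ∈ {x : ↥Cfsg.leechLattice | Cfsg.sqNorm (x : Cfsg.GolayPt → ℤ) = 32 ∧ Cfsg.dotInt (v : Cfsg.GolayPt → ℤ) (x : Cfsg.GolayPt → ℤ) = 24 ∧ Cfsg.dotInt (w : Cfsg.GolayPt → ℤ) (x : Cfsg.GolayPt → ℤ) = -24} ∧ y ≠ x ∧ Cfsg.dotInt (x : Cfsg.GolayPt → ℤ) (y : Cfsg.GolayPt → ℤ) ≠ 8}.ncard = 77 ∧ ∀ y ∈ {x : ↥Cfsg.leechLattice | Cfsg.sqNorm (x : Cfsg.GolayPt → ℤ) = 32 ∧ Cfsg.dotInt (v : Cfsg.GolayPt → ℤ) (x : Cfsg.GolayPt → ℤ) = 24 ∧ Cfsg.dotInt (w : Cfsg.GolayPt → ℤ) (x : Cfsg.GolayPt → ℤ) = -24}, ∀ y' ∈ {x : ↥Cfsg.leechLattice | Cfsg.sqNorm (x : Cfsg.GolayPt → ℤ) = 32 ∧ Cfsg.dotInt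 (v : Cfsg.GolayPt → ℤ) (x : Cfsg.GolayPt → ℤ) = 24 ∧ Cfsg.dotInt (w : Cfsg.GolayPt → ℤ) (x : Cfsg.GolayPt → ℤ) = -24}, y ≠ x → y' ≠ x → (Cfsg.dotInt (x : Cfsg.GolayPt → ℤ) (y : Cfsg.GolayPt → ℤ) = 8 ↔ Cfsg.dotInt (x : Cfsg.GolayPt → ℤ) (y' : Cfsg.GolayPt → ℤ) = 8) → ∃ g : ↥Cfsg.Co0, g • v = v ∧ g • w = w ∧ g • x = x ∧ g • y = y' := by
  obtain ⟨g, h1, h2, h3⟩ := Cfsg.Agent.Lib.LeechHSFacts.exists_triple hv hw hvw hx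
  have key := fun y => Cfsg.Agent.Lib.LeechHSFacts.mem_S100 h1 h2 y
  have hxx : Cfsg.dotInt (x : Cfsg.GolayPt → ℤ) (x : Cfsg.GolayPt → ℤ) = 32 := by
    rw [Cfsg.Agent.Lib.LeechHSFacts.dot_self]
    exact hx.1
  have key3 : ∀ (T : ℤ) (y : ↥Cfsg.leechLattice), ((g • y : ↥Cfsg.leechLattice) : Cfsg.GolayPt → ℤ) ∈
      Cfsg.Agent.Lib.LeechCert.SS [(Cfsg.Agent.Lib.LeechCo3.uC, 24), (Cfsg.Agent.Lib.LeechHS.wH, -24), (Cfsg.Agent.Lib.LeechCo3.r552, T)] ↔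
      (Cfsg.sqNorm (y : Cfsg.GolayPt → ℤ) = 32 ∧ Cfsg.dotInt (v : Cfsg.GolayPt → ℤ) (y : Cfsg.GolayPt → ℤ) = 24 ∧ Cfsg.dotInt (w : Cfsg.GolayPt → ℤ) (y : Cfsg.GolayPt → ℤ) = -24) ∧
        Cfsg.dotInt (x : Cfsg.GolayPt → ℤ) (y : Cfsg.GolayPt → ℤ) = T := by
    intro T y
    rw [Cfsg.Agent.Lib.LeechCert.mem_SS3 (ha := Cfsg.Agent.Lib.LeechCo3.uC_mem) (hb := Cfsg.Agent.Lib.LeechHS.wH_mem) (hc := Cfsg.Agent.Lib.LeechMcL.r552_mem) h1 h2 h3]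
    tauto
  -- the possible values
  have val : ∀ z : ↥Cfsg.leechLattice, (Cfsg.sqNorm (z : Cfsg.GolayPt → ℤ) = 32 ∧ Cfsg.dotInt (v : Cfsg.GolayPt → ℤ) (z : Cfsg.GolayPt → ℤ) = 24 ∧ Cfsg.dotInt (w : Cfsg.GolayPt → ℤ) (z : Cfsg.GolayPt → ℤ) = -24) → z ≠ x →
      Cfsg.dotInt (x : Cfsg.GolayPt → ℤ) (z : Cfsg.GolayPt → ℤ) = 8 ∨ Cfsg.dotInt (x : Cfsg.GolayPt → ℤ) (z : Cfsg.GolayPt → ℤ) = 16 := by
    intro z hz hzx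
    have hz' := (key z).mpr hz
    obtain ⟨c, hc, hcz⟩ := Cfsg.Agent.Lib.LeechCert.exists_code_of_mem Cfsg.Agent.Lib.LeechHS.cover100.1 hz'
    have hall := List.all_eq_true.mp Cfsg.Agent.Lib.LeechHS.L100_dots c hc
    simp only [Bool.or_eq_true, decide_eq_true_eq] at hall
    have hdotz : Cfsg.dotInt (x : Cfsg.GolayPt → ℤ) (z : Cfsg.GolayPt → ℤ) = Cfsg.Agent.Lib.LeechCert.dotZ Cfsg.Agent.Lib.LeechCo3.r552 c := by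
      rw [← Cfsg.Agent.Lib.LeechCert.dotInt_dv, hcz]
      exact (Cfsg.Agent.Lib.LeechCert.dot_match (ha := Cfsg.Agent.Lib.LeechMcL.r552_mem) h3 z).symm
    rcases hall with (h5 | h5) | h5
    · exfalso
      have h6 : c = Cfsg.Agent.Lib.LeechCo3.r552 := Nat.eq_of_beq_eq_true h5
      apply hzx
      apply MulAction.injective g
      show g • z = g • x
      rw [h3]
      apply Subtype.ext
      rw [← hcz, h6]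
      rfl
    · left
      rw [hdotz, h5]
    · right
      rw [hdotz, h5]
  refine ⟨?_, ?_, ?_⟩
  · exact (Cfsg.Agent.Lib.LeechCert.ncard_SS_of_iff (g := g) (C := [(Cfsg.Agent.Lib.LeechCo3.uC, 24), (Cfsg.Agent.Lib.LeechHS.wH, -24), (Cfsg.Agent.Lib.LeechCo3.r552, 8)])
      (fun y => (key3 8 y).symm)).trans Cfsg.Agent.Lib.LeechHS.card22
  · refine (Cfsg.Agent.Lib.LeechCert.ncard_SS_of_iff (g := g) (C := [(Cfsg.Agent.Lib.LeechCo3.uC, 24), (Cfsg.Agent.Lib.LeechHS.wH, -24), (Cfsg.Agent.Lib.LeechCo3.r552, 16)])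
      (fun y => ?_)).trans Cfsg.Agent.Lib.LeechHS.card77
    · rw [key3 16 y]
      constructor
      · rintro ⟨a1, a2, a3⟩
        rcases val y a1 a2 with h5 | h5
        · exact absurd h5 a3
        · exact ⟨a1, h5⟩
      · rintro ⟨a1, a3⟩
        refine ⟨a1, ?_, ?_⟩
        · rintro rfl
          rw [hxx] at a3
          norm_num at a3
        · rw [a3]
          norm_num
  · intro y hy y' hy' hne hne' hdot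
    have hmem : ∀ z : ↥Cfsg.leechLattice, (Cfsg.sqNorm (z : Cfsg.GolayPt → ℤ) = 32 ∧ Cfsg.dotInt (v : Cfsg.GolayPt → ℤ) (z : Cfsg.GolayPt → ℤ) = 24 ∧ Cfsg.dotInt (w : Cfsg.GolayPt → ℤ) (z : Cfsg.GolayPt → ℤ) = -24) → ∀ T : ℤ,
        Cfsg.dotInt (x : Cfsg.GolayPt → ℤ) (z : Cfsg.GolayPt → ℤ) = T →
        ((g • z : ↥Cfsg.leechLattice) : Cfsg.GolayPt → ℤ) ∈
          Cfsg.Agent.Lib.LeechCert.SS [(Cfsg.Agent.Lib.LeechCo3.uC, 24), (Cfsg.Agent.Lib.LeechHS.wH, -24), (Cfsg.Agent.Lib.LeechCo3.r552, T)] :=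
      fun z hz T hT => (key3 T z).mpr ⟨hz, hT⟩
    have hFR : Cfsg.Agent.Lib.LeechCert.FR [Cfsg.Agent.Lib.LeechCo3.uC, Cfsg.Agent.Lib.LeechHS.wH, Cfsg.Agent.Lib.LeechCo3.r552]
        ((g • y : ↥Cfsg.leechLattice) : Cfsg.GolayPt → ℤ) ((g • y' : ↥Cfsg.leechLattice) : Cfsg.GolayPt → ℤ) := by
      rcases val y hy hne with h5 | h5
      · exact Cfsg.Agent.Lib.LeechCert.FR_of_mem_SS Cfsg.Agent.Lib.LeechHS.cover22 (hmem y hy 8 h5) (hmem y' hy' 8 (hdot.mp h5))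
      · have h6 : Cfsg.dotInt (x : Cfsg.GolayPt → ℤ) (y' : Cfsg.GolayPt → ℤ) = 16 := by
          rcases val y' hy' hne' with h7 | h7
          · have := hdot.mpr h7
            rw [h5] at this
            norm_num at this
          · exact h7
        exact Cfsg.Agent.Lib.LeechCert.FR_of_mem_SS Cfsg.Agent.Lib.LeechHS.cover77 (hmem y hy 16 h5) (hmem y' hy' 16 h6)
    obtain ⟨k, hk1, hk2⟩ := Cfsg.Agent.Lib.LeechCert.lift_FR hFR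
    exact ⟨k, hk1 _ (by simp) Cfsg.Agent.Lib.LeechCo3.uC_mem v h1, hk1 _ (by simp) Cfsg.Agent.Lib.LeechHS.wH_mem w h2,
      hk1 _ (by simp) Cfsg.Agent.Lib.LeechMcL.r552_mem x h3, hk2⟩

end Cfsg.Agent.S1584
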