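import Cfsg.Statements.S1587
-- import your own Cfsg.Agent.* helpers here

set_option autoImplicit false
set_option linter.all false
open Matrix
open Cfsg

namespace Cfsg.Agent.S1587


open Matrix in
theorem norm_sub_add (B : Matrix (Fin 24) (Fin 24) ℤ) (hsymm : B.IsSymm) (a b : Fin 24 → ℤ) :
    (a - b) ⬝ᵥ (B *ᵥ (a - b)) + (a + b) ⬝ᵥ (B *ᵥ (a + b)) = 2 * (a ⬝ᵥ (B *ᵥ a)) + 2 * (b ⬝ᵥ (B *ᵥ b)) ∧
    (a + b) ⬝ᵥ (B *ᵥ (a + b)) - (a - b) ⬝ᵥ (B *ᵥ (a - b)) = 4 * (a ⬝ᵥ (B *ᵥ b)) := by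
  have hs : b ⬝ᵥ (B *ᵥ a) = a ⬝ᵥ (B *ᵥ b) := by
    rw [Matrix.dotProduct_mulVec, ← Matrix.mulVec_transpose, hsymm.eq, dotProduct_comm]
  simp only [Matrix.mulVec_sub, Matrix.mulVec_add, dotProduct_add, dotProduct_sub, add_dotProduct, sub_dotProduct, hs]
  constructor <;> ring



/-- First step of the characterisation of the rank-24 lattice: in an even lattice without roots, norm-8 vectors congruent modulo 2 are equal, opposite or orthogonal. -/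
theorem result (B : Matrix (Fin 24) (Fin 24) ℤ) (hsymm : B.IsSymm) (hpos : ∀ x : Fin 24 → ℤ, x ≠ 0 → 0 < x ⬝ᵥ (B *ᵥ x)) (heven : ∀ x : Fin 24 → ℤ, (2 : ℤ) ∣ x ⬝ᵥ (B *ᵥ x)) (h2 : ∀ x : Fin 24 → ℤ, x ⬝ᵥ (B *ᵥ x) ≠ 2) (x y : Fin 24 → ℤ) (hx : x ⬝ᵥ (B *ᵥ x) = 8) (hy : y ⬝ᵥ (B *ᵥ y) = 8) (hc : ∀ i, (2 : ℤ) ∣ (x - y) i) : y = x ∨ y = -x ∨ x ⬝ᵥ (B *ᵥ y) = 0 := by
  -- half vectors
  choose u hu using hc
  have hxy : x - y = (2 : ℤ) • u := by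
    funext i
    simp [hu i]
  have hv : x + y = (2 : ℤ) • (x - u) := by
    funext i
    have := hu i
    simp only [Pi.sub_apply] at this
    simp only [Pi.add_apply, Pi.smul_apply, Pi.sub_apply, smul_eq_mul]
    linarith
  set v := x - u with hvdef
  have hsc : ∀ w : Fin 24 → ℤ, ((2 : ℤ) • w) ⬝ᵥ (B *ᵥ ((2 : ℤ) • w)) = 4 * (w ⬝ᵥ (B *ᵥ w)) := by
    intro w
    rw [Matrix.mulVec_smul, smul_dotProduct, dotProduct_smul]
    simp only [smul_eq_mul]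
    ring
  obtain ⟨e1, e2⟩ := norm_sub_add B hsymm x y
  rw [hxy, hv, hsc, hsc, hx, hy] at e1
  rw [hxy, hv, hsc, hsc] at e2
  by_cases hu0 : u = 0
  · left
    have : x - y = 0 := by rw [hxy, hu0]; simp
    exact (sub_eq_zero.1 this).symm
  by_cases hv0 : v = 0
  · right; left
    have : x + y = 0 := by rw [hv, hv0]; simp
    exact (eq_neg_of_add_eq_zero_right this)
  right; right
  have hupos := hpos u hu0
  have hvpos := hpos v hv0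
  obtain ⟨a, ha⟩ := heven u
  obtain ⟨b, hb⟩ := heven v
  have h2u := h2 u
  have h2v := h2 v
  omega

end Cfsg.Agent.S1587
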