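import Cfsg.Statements.S1595
import Cfsg.Agent.Lib.LeechTwelve
-- import your own Cfsg.Agent.* helpers here

set_option autoImplicit false
set_option linter.all false
open Cfsg

namespace Cfsg.Agent.S1595

/-- Leech triangle of S(5, 6, 12): blocks meet in 0, 2, 3 or 4 points, and a block is met exactly in a given 2-, 3- or 4-subset by 3, 2, 3 blocks respectively. -/
theorem result {α : Type*} [Fintype α] [DecidableEq α] (hα : Fintype.card α = 12) {B : Set (Finset α)} (hB : Cfsg.IsSteinerSystem 5 6 B) (b : Finset α) (hb : b ∈ B) : (∀ c ∈ B, c ≠ b → (b ∩ c).card = 0 ∨ (b ∩ c).card = 2 ∨ (b ∩ c).card = 3 ∨ (b ∩ c).card = 4) ∧ ∀ s ⊆ b, (s.card = 2 → {c : Finset α | c ∈ B ∧ b ∩ c = s}.ncard = 3) ∧ (s.card = 3 → {c : Finset α | c ∈ B ∧ b ∩ c = s}.ncard = 2) ∧ (s.card = 4 → {c : Finset α | c ∈ B ∧ b ∩ c = s}.ncard = 3) := by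
  classical
  have hm := Cfsg.Agent.Lib.LeechTwelve.main hα hB b hb
  have hb6 := hB.1 b hb
  refine ⟨?_, ?_⟩
  · intro c hc hne
    have h1 : (b ∩ c).card ≤ 6 := hb6 ▸ Finset.card_le_card Finset.inter_subset_left
    have hz : ∀ i, 1 ≤ i → Cfsg.Agent.Lib.LeechTwelve.row i = 0 → (b ∩ c).card ≠ i := by
      intro i hi hr he
      have h2 := hm i hi (b ∩ c) Finset.inter_subset_left he
      rw [hr, Cfsg.Agent.Lib.LeechTwelve.meetN, Set.ncard_eq_zero (Set.toFinite _)] at h2
      have h3 : c ∈ {c' : Finset α | c' ∈ B ∧ b ∩ c' = b ∩ c} := ⟨hc, rfl⟩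
      rw [h2] at h3
      exact h3
    have h5 := hz 1 le_rfl rfl
    have h6 := hz 5 (by norm_num) rfl
    have h7 : (b ∩ c).card ≠ 6 := by
      intro h
      have h8 : b ∩ c = b := Finset.eq_of_subset_of_card_le Finset.inter_subset_left (by omega)
      have h9 : b ⊆ c := Finset.inter_eq_left.1 h8
      exact hne (Finset.eq_of_subset_of_card_le h9 (by rw [hB.1 c hc, hb6])).symm
    omega
  · intro s hs
    refine ⟨fun h => ?_, fun h => ?_, fun h => ?_⟩
    · exact hm 2 (by norm_num) s hs h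
    · exact hm 3 (by norm_num) s hs h
    · exact hm 4 (by norm_num) s hs h

end Cfsg.Agent.S1595
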