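import Cfsg.Statements.S1610


set_option autoImplicit false
set_option linter.all false
open Cfsg

namespace Cfsg.Agent.S1610


open Cfsg

def tadd : Fin 4 → Fin 4 → Fin 4 := ![![0,1,2,3],![1,0,3,2],![2,3,0,1],![3,2,1,0]]
def tmul : Fin 4 → Fin 4 → Fin 4 := ![![0,0,0,0],![0,1,2,3],![0,2,3,1],![0,3,1,2]]
def g1 : Fin 6 → Fin 4 := ![2,3,3,2,3,2]
def g2 : Fin 6 → Fin 4 := ![3,2,2,3,3,2]
def g3 : Fin 6 → Fin 4 := ![3,2,3,2,2,3]
def W (p : Fin 4 × Fin 4 × Fin 4) (i : Fin 6) : Fin 4 :=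
  tadd (tadd (tmul p.1 (g1 i)) (tmul p.2.1 (g2 i))) (tmul p.2.2 (g3 i))
def wt (p : Fin 4 × Fin 4 × Fin 4) : ℕ := (Finset.univ.filter fun i => W p i ≠ 0).card

theorem wt_cases : ∀ p, wt p = 0 ∨ wt p = 4 ∨ wt p = 6 := by decide +kernel
theorem wt_zero : ∀ p, wt p = 0 → p = (0, 0, 0) := by decide +kernel
theorem W_inj : ∀ p q, (∀ i, W p i = W q i) → p = q := by decide +kernel
theorem card4 : (Finset.univ.filter fun p => wt p = 4).card = 45 := by decide +kernel
theorem card6 : (Finset.univ.filter fun p => wt p = 6).card = 18 := by decide +kernel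


/-- The hexacode has 64 words, minimum weight 4, and weight distribution 0^1 4^45 6^18. -/
theorem result (F : Type*) [Field F] [Fintype F] [DecidableEq F] (hF : Fintype.card F = 4) (ω : F) (hω : ω ^ 2 + ω + 1 = 0) : Nat.card ↥(Cfsg.hexacode F ω) = 64 ∧ (∀ x ∈ Cfsg.hexacode F ω, x ≠ 0 → (Finset.univ.filter fun i => x i ≠ 0).card = 4 ∨ (Finset.univ.filter fun i => x i ≠ 0).card = 6) ∧ {x : Fin 6 → F | x ∈ Cfsg.hexacode F ω ∧ (Finset.univ.filter fun i => x i ≠ 0).card = 4}.ncard = 45 ∧ {x : Fin 6 → F | x ∈ Cfsg.hexacode F ω ∧ (Finset.univ.filter fun i => x i ≠ 0).card = 6}.ncard = 18 := by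
  classical
  have h2 : (1 : F) + 1 = 0 := by
    have h4 : Fintype.card F • (1 : F) = 0 := card_nsmul_eq_zero
    rw [hF] at h4
    have h5 : (1 + 1 : F) * (1 + 1) = 0 := by
      rw [← h4]
      simp
      ring
    simpa using h5
  have hw : ω ^ 2 = ω + 1 := by
    linear_combination hω - ω * h2 - h2
  have h10 : (1 : F) ≠ 0 := one_ne_zero
  have hw0 : ω ≠ 0 := by
    rintro rfl
    apply h10
    simpa using hω
  have hw1 : ω ≠ 1 := by
    rintro rfl
    apply h10
    linear_combination hω - h2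
  let Φ : Fin 4 → F := ![0, 1, ω, ω + 1]
  have hΦ0 : Φ 0 = 0 := rfl
  have hΦ1 : Φ 1 = 1 := rfl
  have hΦ2 : Φ 2 = ω := rfl
  have hΦ3 : Φ 3 = ω + 1 := rfl
  have hadd : ∀ x y, Φ (tadd x y) = Φ x + Φ y := by
    intro x y
    fin_cases x <;> fin_cases y <;> simp [tadd, Φ] <;> grind
  have hmul : ∀ x y, Φ (tmul x y) = Φ x * Φ y := by
    intro x y
    fin_cases x <;> fin_cases y <;> simp [tmul, Φ] <;> grind
  have hinj : Function.Injective Φ := by
    intro x y
    fin_cases x <;> fin_cases y <;> simp [Φ] <;> grind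
  have hbij : Function.Bijective Φ := by
    rw [Fintype.bijective_iff_injective_and_card]
    exact ⟨hinj, by simp [hF]⟩
  have hv : ∀ i, (![ω, ω ^ 2, ω ^ 2, ω, ω ^ 2, ω] : Fin 6 → F) i = Φ (g1 i) := by
    intro i
    fin_cases i <;> simp [g1, Φ, hw]
  have hv2 : ∀ i, (![ω ^ 2, ω, ω, ω ^ 2, ω ^ 2, ω] : Fin 6 → F) i = Φ (g2 i) := by
    intro i
    fin_cases i <;> simp [g2, Φ, hw]
  have hv3 : ∀ i, (![ω ^ 2, ω, ω ^ 2, ω, ω, ω ^ 2] : Fin 6 → F) i = Φ (g3 i) := by
    intro i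
    fin_cases i <;> simp [g3, Φ, hw]
  let Ψ : Fin 4 × Fin 4 × Fin 4 → (Fin 6 → F) := fun p i => Φ (W p i)
  have hΨinj : Function.Injective Ψ := by
    intro p q h
    apply W_inj
    intro i
    exact hinj (congrFun h i)
  have hmem : ∀ x : Fin 6 → F, x ∈ Cfsg.hexacode F ω ↔ ∃ p, Ψ p = x := by
    intro x
    unfold Cfsg.hexacode
    rw [Submodule.mem_span_triple]
    constructor
    · rintro ⟨a, b, c, rfl⟩
      obtain ⟨a', rfl⟩ := hbij.2 a
      obtain ⟨b', rfl⟩ := hbij.2 b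
      obtain ⟨c', rfl⟩ := hbij.2 c
      refine ⟨(a', b', c'), ?_⟩
      funext i
      simp only [Ψ, W, hadd, hmul, Pi.add_apply, Pi.smul_apply, smul_eq_mul, hv, hv2, hv3]
    · rintro ⟨⟨a, b, c⟩, rfl⟩
      refine ⟨Φ a, Φ b, Φ c, ?_⟩
      funext i
      simp only [Ψ, W, hadd, hmul, Pi.add_apply, Pi.smul_apply, smul_eq_mul, hv, hv2, hv3]
  have hwt : ∀ p, (Finset.univ.filter fun i => Ψ p i ≠ 0).card = wt p := by
    intro p
    unfold wt
    congr 1
    ext i
    simp only [Finset.mem_filter, Finset.mem_univ, true_and, Ψ, ne_eq]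
    rw [not_iff_not]
    exact ⟨fun h => hinj (h.trans hΦ0.symm), fun h => by rw [h, hΦ0]⟩
  have hset : ∀ k, {x : Fin 6 → F | x ∈ Cfsg.hexacode F ω ∧ (Finset.univ.filter fun i => x i ≠ 0).card = k}.ncard
      = (Finset.univ.filter fun p => wt p = k).card := by
    intro k
    have h1 : {x : Fin 6 → F | x ∈ Cfsg.hexacode F ω ∧ (Finset.univ.filter fun i => x i ≠ 0).card = k}
        = Ψ '' (((Finset.univ.filter fun p => wt p = k) : Finset _) : Set (Fin 4 × Fin 4 × Fin 4)) := by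
      ext x
      simp only [Set.mem_setOf_eq, Set.mem_image, Finset.coe_filter, Finset.mem_univ, true_and]
      constructor
      · rintro ⟨hx, hk⟩
        obtain ⟨p, rfl⟩ := (hmem x).mp hx
        exact ⟨p, by rw [← hwt p]; exact hk, rfl⟩
      · rintro ⟨p, hp, rfl⟩
        exact ⟨(hmem _).mpr ⟨p, rfl⟩, by rw [hwt p]; exact hp⟩
    rw [h1, Set.ncard_image_of_injective _ hΨinj, Set.ncard_coe_finset]
  refine ⟨?_, ?_, ?_, ?_⟩
  · rw [show Nat.card ↥(Cfsg.hexacode F ω) = ((Cfsg.hexacode F ω : Submodule F (Fin 6 → F)) : Set (Fin 6 → F)).ncard from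
      Nat.card_coe_set_eq _]
    have h1 : ((Cfsg.hexacode F ω : Submodule F (Fin 6 → F)) : Set (Fin 6 → F)) = Set.range Ψ := by
      ext x
      exact hmem x
    rw [h1, ← Set.image_univ, Set.ncard_image_of_injective _ hΨinj, Set.ncard_univ]
    simp
  · intro x hx hx0
    obtain ⟨p, rfl⟩ := (hmem x).mp hx
    rw [hwt p]
    rcases wt_cases p with h | h | h
    · exfalso
      apply hx0
      have hp := wt_zero p h
      subst hp
      funext i
      have : W (0, 0, 0) i = 0 := by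
        revert i
        decide
      simp [Ψ, this, hΦ0]
    · exact Or.inl h
    · exact Or.inr h
  · rw [hset]
    exact card4
  · rw [hset]
    exact card6

end Cfsg.Agent.S1610
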