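import Cfsg.Statements.S1618
import Cfsg.Agent.Lib.ZStarSyl
-- import your own Cfsg.Agent.* helpers here

set_option autoImplicit false
open Cfsg

namespace Cfsg.Agent.S1618

/-- A group generated by a class of involutions whose pairwise products (of distinct members) have p-power order for a fixed odd prime p has nilpotent derived subgroup. -/
theorem result {G : Type*} [Group G] [Finite G] (p : ℕ) (hp : p.Prime) (hodd : p ≠ 2) {D : Set G} (hinv : ∀ d ∈ D, orderOf d = 2) (hconj : ∃ d ∈ D, D = conjugatesOf d) (hgen : Subgroup.closure D = ⊤) (hprod : ∀ x ∈ D, ∀ y ∈ D, x ≠ y → ∃ k : ℕ, orderOf (x * y) = p ^ k) : Group.IsNilpotent ↥(commutator G) := by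
  classical
  obtain ⟨z, hzD, hDz⟩ := hconj
  haveI hpf : Fact p.Prime := ⟨hp⟩
  have hoz := hinv z hzD
  have hsq : ∀ x ∈ D, x * x = 1 := by
    intro x hx
    rw [← pow_two, ← hinv x hx]
    exact pow_orderOf_eq_one x
  have hii : ∀ x ∈ D, x⁻¹ = x := fun x hx => inv_eq_of_mul_eq_one_left (hsq x hx)
  have hzz : z * z = 1 := hsq z hzD
  have hz1 : z ≠ 1 := by
    rintro rfl
    rw [orderOf_one] at hoz
    omega
  have hzi : z⁻¹ = z := hii z hzD
  have hmemD : ∀ g : G, g * z * g⁻¹ ∈ D := by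
    intro g
    rw [hDz]
    exact isConj_iff.2 ⟨g, rfl⟩
  have hconjD : ∀ x ∈ D, ∀ g : G, g * x * g⁻¹ ∈ D := by
    intro x hx g
    rw [hDz] at hx
    obtain ⟨c, rfl⟩ := isConj_iff.1 hx
    have e : g * (c * z * c⁻¹) * g⁻¹ = (g * c) * z * (g * c)⁻¹ := by group
    rw [e]
    exact hmemD _
  have hpodd : Odd p := hp.odd_of_ne_two hodd
  have hiso : Cfsg.Agent.Lib.ZStar.Iso z := by
    refine ⟨hzz, hz1, fun g => ?_⟩
    by_cases hx : g * z * g⁻¹ = z
    · rw [hx, hzz, orderOf_one]
      exact odd_one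
    · obtain ⟨k, hk⟩ := hprod z hzD _ (hmemD g) (Ne.symm hx)
      rw [hk]
      exact hpodd.pow
  have hexmax : ∀ (q : ℕ) [Fact q.Prime], ∃ Q : Sylow q G, z ∈ Subgroup.normalizer ((Q : Subgroup G) : Set G) := by
    intro q _
    let s : Set (Subgroup G) := {R | IsPGroup q R ∧ z ∈ Subgroup.normalizer (R : Set G)}
    have hne : (⊥ : Subgroup G) ∈ s := by
      refine ⟨IsPGroup.of_bot, ?_⟩
      rw [Subgroup.mem_normalizer_iff]
      intro h
      simp only [SetLike.mem_coe, Subgroup.mem_bot]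
      constructor
      · rintro rfl
        group
      · intro h2
        have : h = z⁻¹ * (z * h * z⁻¹) * z := by group
        rw [this, h2]
        group
    obtain ⟨Q, -, hQ⟩ := s.toFinite.exists_le_maximal hne
    obtain ⟨P, hP⟩ := Cfsg.Agent.Lib.ZStarSyl.isSylow_of_max z hiso Q hQ.prop.1 hQ.prop.2
      (fun R h1 h2 h3 => le_antisymm (hQ.le_of_ge ⟨h1, h2⟩ h3) h3)
    exact ⟨P, by rw [hP]; exact hQ.prop.2⟩
  let C : Subgroup G := Subgroup.centralizer ({z} : Set G)
  have hq : ∀ {q : ℕ}, q.Prime → q ∣ C.index → q = p := by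
    intro q hq hdvd
    by_contra hne
    haveI : Fact q.Prime := ⟨hq⟩
    obtain ⟨Q, hQ⟩ := hexmax q
    have hQC : (Q : Subgroup G) ≤ C := by
      intro a ha
      have hxD : a⁻¹ * z * a ∈ D := by
        have h1 := hmemD a⁻¹
        rwa [inv_inv] at h1
      have hxz : a⁻¹ * z * a * z ∈ (Q : Subgroup G) := by
        have h1 := (Q : Subgroup G).mul_mem ((Q : Subgroup G).inv_mem ha) ((Subgroup.mem_normalizer_iff.1 hQ a).1 ha)
        have e : a⁻¹ * (z * a * z⁻¹) = a⁻¹ * z * a * z := by
          rw [hzi]; group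
        rwa [e] at h1
      have hxe : a⁻¹ * z * a = z := by
        by_contra hxe
        obtain ⟨k, hk⟩ := hprod _ hxD z hzD hxe
        obtain ⟨j, hj⟩ := IsPGroup.iff_orderOf.1 Q.isPGroup' ⟨_, hxz⟩
        have hj' : orderOf (a⁻¹ * z * a * z) = q ^ j := by
          rw [← Subgroup.orderOf_mk _ hxz]
          exact hj
        have hcop : Nat.Coprime (p ^ k) (q ^ j) :=
          Nat.Coprime.pow _ _ ((Nat.coprime_primes hp hq).2 (Ne.symm hne))
        rw [← hk, hj', Nat.coprime_self] at hcop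
        have h1 : orderOf (a⁻¹ * z * a * z) = 1 := by rw [hj']; exact hcop
        rw [orderOf_eq_one_iff] at h1
        apply hxe
        calc a⁻¹ * z * a = a⁻¹ * z * a * z * z⁻¹ := by group
          _ = z := by rw [h1, hzi, one_mul]
      show a ∈ Subgroup.centralizer ({z} : Set G)
      rw [Subgroup.mem_centralizer_singleton_iff]
      calc a * z = a * (a⁻¹ * z * a) := by rw [hxe]
        _ = z * a := by group
    exact Q.not_dvd_index (hdvd.trans (Subgroup.index_dvd_of_le hQC))
  have hidx : C.index = p ^ C.index.primeFactorsList.length :=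
    Nat.eq_prime_pow_of_unique_prime_dvd Subgroup.index_ne_zero_of_finite hq
  obtain ⟨T, hT⟩ := hexmax p
  have hzT : ∀ x ∈ D, z * x ∈ (T : Subgroup G) := by
    intro x hx
    rw [hDz] at hx
    obtain ⟨g, rfl⟩ := isConj_iff.1 hx
    obtain ⟨t, ht, c, hc, rfl⟩ := Cfsg.Agent.Lib.ZStarSyl.sylow_mul_of_index T C hidx g
    have hcz : c * z = z * c := Subgroup.mem_centralizer_singleton_iff.1 hc
    have e : z * (t * c * z * (t * c)⁻¹) = (z * t * z⁻¹) * t⁻¹ := by
      calc z * (t * c * z * (t * c)⁻¹) = z * t * (c * z) * c⁻¹ * t⁻¹ := by group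
        _ = z * t * (z * c) * c⁻¹ * t⁻¹ := by rw [hcz]
        _ = z * t * z * t⁻¹ := by group
        _ = (z * t * z⁻¹) * t⁻¹ := by rw [hzi]
    rw [e]
    exact (T : Subgroup G).mul_mem ((Subgroup.mem_normalizer_iff.1 hT t).1 ht) ((T : Subgroup G).inv_mem ht)
  let K : Subgroup G := (T : Subgroup G).normalCore
  have hK : ∀ x ∈ D, x * z ∈ K := by
    intro x hx b
    have hu := hconjD x hx b
    have hv := hmemD b
    have e : b * (x * z) * b⁻¹ = (z * (b * x * b⁻¹))⁻¹ * (z * (b * z * b⁻¹)) := by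
      have e1 : (z * (b * x * b⁻¹))⁻¹ = (b * x * b⁻¹) * z := by
        rw [mul_inv_rev, hii _ hu, hzi]
      rw [e1]
      calc b * (x * z) * b⁻¹ = (b * x * b⁻¹) * (b * z * b⁻¹) := by group
        _ = (b * x * b⁻¹) * ((z * z) * (b * z * b⁻¹)) := by rw [hzz, one_mul]
        _ = _ := by group
    rw [e]
    exact (T : Subgroup G).mul_mem ((T : Subgroup G).inv_mem (hzT _ hu)) (hzT _ hv)
  let f : G →* G ⧸ K := QuotientGroup.mk' K
  have hfD : ∀ x ∈ D, f x = f z := by
    intro x hx
    have h1 : f (x * z) = 1 := (QuotientGroup.eq_one_iff _).2 (hK x hx)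
    rw [map_mul] at h1
    have h2 : f z * f z = 1 := by rw [← map_mul, hzz, map_one]
    calc f x = f x * (f z * f z) := by rw [h2, mul_one]
      _ = (f x * f z) * f z := by group
      _ = f z := by rw [h1, one_mul]
  have hfz : ∀ g : G, f g ∈ Subgroup.zpowers (f z) := by
    intro g
    have hg : g ∈ Subgroup.closure D := by rw [hgen]; trivial
    induction hg using Subgroup.closure_induction with
    | mem x hx =>
      rw [hfD x hx]
      exact Subgroup.mem_zpowers _
    | one =>
      rw [map_one]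
      exact Subgroup.one_mem _
    | mul x y _ _ hx hy =>
      rw [map_mul]
      exact Subgroup.mul_mem _ hx hy
    | inv x _ hx =>
      rw [map_inv]
      exact Subgroup.inv_mem _ hx
  have hcomm : commutator G ≤ (T : Subgroup G) := by
    refine le_trans ?_ ((T : Subgroup G).normalCore_le)
    rw [commutator_def, Subgroup.commutator_le]
    intro g _ h _
    rw [commutatorElement_def]
    show _ ∈ K
    have h1 : f (g * h * g⁻¹ * h⁻¹) = 1 := by
      obtain ⟨i, hi⟩ := Subgroup.mem_zpowers_iff.1 (hfz g)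
      obtain ⟨j, hj⟩ := Subgroup.mem_zpowers_iff.1 (hfz h)
      have hc : f g * f h = f h * f g := by
        rw [← hi, ← hj]
        exact ((Commute.refl (f z)).zpow_zpow i j).eq
      rw [map_mul, map_mul, map_mul, map_inv, map_inv, hc]
      group
    exact (QuotientGroup.eq_one_iff _).1 h1
  exact (T.isPGroup'.to_le hcomm).isNilpotent

end Cfsg.Agent.S1618
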