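import Cfsg.Statements.S1636
import Cfsg.Agent.Lib.GolayPunct

set_option autoImplicit false
open Cfsg

namespace Cfsg.Agent.S1636

/-- The punctured length-23 code has weight distribution 0^1 7^253 8^506 11^1288 12^1288 15^506 16^253 23^1. -/
theorem result : {u : ZMod 23 → ZMod 2 | ∃ w ∈ Cfsg.golayCode, ∀ x : ZMod 23, u x = w (some x)}.ncard = 4096 ∧ {u : ZMod 23 → ZMod 2 | u ∈ {u : ZMod 23 → ZMod 2 | ∃ w ∈ Cfsg.golayCode, ∀ x : ZMod 23, u x = w (some x)} ∧ hammingNorm u = 7}.ncard = 253 ∧ {u : ZMod 23 → ZMod 2 | u ∈ {u : ZMod 23 → ZMod 2 | ∃ w ∈ Cfsg.golayCode, ∀ x : ZMod 23, u x = w (some x)} ∧ hammingNorm u = 8}.ncard = 506 ∧ {u : ZMod 23 → ZMod 2 | u ∈ {u : ZMod 23 → ZMod 2 | ∃ w ∈ Cfsg.golayCode, ∀ x : ZMod 23, u x = w (some x)} ∧ hammingNorm u = 11}.ncard = 1288 ∧ {u : ZMod 23 → ZMod 2 | u ∈ {u : ZMod 23 → ZMod 2 | ∃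 w ∈ Cfsg.golayCode, ∀ x : ZMod 23, u x = w (some x)} ∧ hammingNorm u = 12}.ncard = 1288 ∧ {u : ZMod 23 → ZMod 2 | u ∈ {u : ZMod 23 → ZMod 2 | ∃ w ∈ Cfsg.golayCode, ∀ x : ZMod 23, u x = w (some x)} ∧ hammingNorm u = 15}.ncard = 506 ∧ {u : ZMod 23 → ZMod 2 | u ∈ {u : ZMod 23 → ZMod 2 | ∃ w ∈ Cfsg.golayCode, ∀ x : ZMod 23, u x = w (some x)} ∧ hammingNorm u = 16}.ncard = 253 ∧ ∀ u ∈ {u : ZMod 23 → ZMod 2 | ∃ w ∈ Cfsg.golayCode, ∀ x : ZMod 23, u x = w (some x)}, u ≠ 0 → 7 ≤ hammingNorm u := by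
  refine ⟨?_, ?_, ?_, ?_, ?_, ?_, ?_, ?_⟩
  · have h := Cfsg.Agent.Lib.GolayPunct.ncard_PC_filter (fun _ => true) (fun _ => True) (fun k _ => by simp)
    rw [Cfsg.Agent.Lib.GolayPunct.c4096] at h
    simpa using h
  · exact Cfsg.Agent.Lib.GolayPunct.ncard_weight _ _ Cfsg.Agent.Lib.GolayPunct.c7
  · exact Cfsg.Agent.Lib.GolayPunct.ncard_weight _ _ Cfsg.Agent.Lib.GolayPunct.c8
  · exact Cfsg.Agent.Lib.GolayPunct.ncard_weight _ _ Cfsg.Agent.Lib.GolayPunct.c11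
  · exact Cfsg.Agent.Lib.GolayPunct.ncard_weight _ _ Cfsg.Agent.Lib.GolayPunct.c12
  · exact Cfsg.Agent.Lib.GolayPunct.ncard_weight _ _ Cfsg.Agent.Lib.GolayPunct.c15
  · exact Cfsg.Agent.Lib.GolayPunct.ncard_weight _ _ Cfsg.Agent.Lib.GolayPunct.c16
  · intro u hu h0
    exact Cfsg.Agent.Lib.GolayPunct.min_weight hu h0

end Cfsg.Agent.S1636
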