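import Cfsg.Statements.S1642
import Cfsg.Agent.Lib.LeechHSFacts

set_option autoImplicit false
open Cfsg

namespace Cfsg.Agent.S1642

/-- Some involution of the Higman–Sims group acts without fixed points on its 100 points. -/
theorem result (v w : ↥Cfsg.leechLattice) (hv : Cfsg.sqNorm (v : Cfsg.GolayPt → ℤ) = 48) (hw : Cfsg.sqNorm (w : Cfsg.GolayPt → ℤ) = 48) (hvw : Cfsg.dotInt (v : Cfsg.GolayPt → ℤ) (w : Cfsg.GolayPt → ℤ) = -32) : ∃ g : ↥Cfsg.Co0, g • v = v ∧ g • w = w ∧ orderOf g = 2 ∧ ∀ x ∈ {x : ↥Cfsg.leechLattice | Cfsg.sqNorm (x : Cfsg.GolayPt → ℤ) = 32 ∧ Cfsg.dotInt (v : Cfsg.GolayPt → ℤ) (x : Cfsg.GolayPt → ℤ) = 24 ∧ Cfsg.dotInt (w : Cfsg.GolayPt → ℤ) (x : Cfsg.GolayPt → ℤ) = -24}, g • x ≠ x := by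
  obtain ⟨g, h1, h2, _⟩ := Cfsg.Agent.Lib.LeechHSFacts.exists_pair hv hw hvw
  obtain ⟨c, hc1, hc2, hc3, hc4⟩ := Cfsg.Agent.Lib.LeechHSFacts.exists_involution
  have hne : ∀ x : ↥Cfsg.leechLattice, (Cfsg.sqNorm (x : Cfsg.GolayPt → ℤ) = 32 ∧ Cfsg.dotInt (v : Cfsg.GolayPt → ℤ) (x : Cfsg.GolayPt → ℤ) = 24 ∧ Cfsg.dotInt (w : Cfsg.GolayPt → ℤ) (x : Cfsg.GolayPt → ℤ) = -24) →
      (g⁻¹ * c * g) • x ≠ x := by
    intro x hx h
    have h3 := (Cfsg.Agent.Lib.LeechHSFacts.mem_S100 h1 h2 x).mpr hx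
    apply hc4 _ h3 (g • x).2
    have : (g⁻¹ * c * g) • x = g⁻¹ • (c • (g • x)) := by
      rw [mul_smul, mul_smul]
    rw [this] at h
    have h5 := congrArg (fun z => g • z) h
    simp only [smul_inv_smul] at h5
    exact h5
  have hsq : (g⁻¹ * c * g) ^ 2 = 1 := by
    have : (g⁻¹ * c * g) ^ 2 = g⁻¹ * (c * c) * g := by
      rw [pow_two]
      simp only [mul_assoc, mul_inv_cancel_left]
    rw [this, hc1]
    group
  have hne1 : g⁻¹ * c * g ≠ 1 := by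
    intro h
    -- there is a point to move: the base point
    obtain ⟨x, hx⟩ : ∃ x : ↥Cfsg.leechLattice, g • x = Cfsg.Agent.Lib.LeechMcLFacts.R₀ := ⟨g⁻¹ • _, smul_inv_smul _ _⟩
    have hm : ((g • x : ↥Cfsg.leechLattice) : Cfsg.GolayPt → ℤ) ∈ Cfsg.Agent.Lib.LeechCert.SS [(Cfsg.Agent.Lib.LeechCo3.uC, 24), (Cfsg.Agent.Lib.LeechHS.wH, -24)] := by
      rw [hx]
      exact Cfsg.Agent.Lib.LeechCert.mem_SS_of_check (by decide +kernel)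
    apply hne x ((Cfsg.Agent.Lib.LeechHSFacts.mem_S100 h1 h2 x).mp hm)
    rw [h, one_smul]
  haveI : Fact (Nat.Prime 2) := ⟨Nat.prime_two⟩
  refine ⟨g⁻¹ * c * g, ?_, ?_, orderOf_eq_prime hsq hne1, fun x hx => hne x hx⟩
  · apply Cfsg.Agent.Lib.LeechCert.fixes_conj
    rw [h1, hc2]
  · apply Cfsg.Agent.Lib.LeechCert.fixes_conj
    rw [h2, hc3]

end Cfsg.Agent.S1642
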