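import Cfsg.Statements.S1691
import Mathlib

set_option autoImplicit false
open Cfsg

namespace Cfsg.Agent.S1691

open Cfsg.Spor

open Cfsg.Spor Cfsg.Spor.Fi24 in
private def t0 : Multiplicative (ZMod 2) := Multiplicative.ofAdd 1

private theorem t0_sq : t0 * t0 = 1 := by decide

open Cfsg.Spor Cfsg.Spor.Fi24 in
private def psi : Fi24 →* Multiplicative (ZMod 2) :=
  PresentedGroup.toGroup (f := fun _ => t0) (by
    intro r hr
    rcases hr with ⟨x, _, y, _, rfl⟩ | hr
    · simp only [map_pow, map_mul, FreeGroup.lift_apply_of, t0_sq, one_pow]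
    · have hr' : r ∈ Cfsg.Spor.Fi24.extra := hr
      simp only [Cfsg.Spor.Fi24.extra, List.mem_cons, List.not_mem_nil, or_false] at hr'
      rcases hr' with rfl | rfl
      · simp only [map_pow, map_mul, map_inv, FreeGroup.lift_apply_of]
        decide
      · simp only [map_pow, map_mul, FreeGroup.lift_apply_of]
        decide)

open Cfsg.Spor Cfsg.Spor.Fi24 in
private theorem rel_cox (x y : Gen) (hx : x ∈ coxNodes edges) (hy : y ∈ coxNodes edges) :
    (PresentedGroup.of x * PresentedGroup.of y : Fi24) ^ coxLabel edges x y = 1 := by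
  have h : ((FreeGroup.of x * FreeGroup.of y) ^ coxLabel edges x y) ∈ (coxRelators edges ∪ {r | r ∈ extra}) :=
    Or.inl ⟨x, hx, y, hy, rfl⟩
  exact PresentedGroup.one_of_mem h

open Cfsg.Spor Cfsg.Spor.Fi24 in
private theorem edge_eq (x y : Gen) (hx : x ∈ coxNodes edges) (hy : y ∈ coxNodes edges)
    (h3 : coxLabel edges x y = 3) :
    Abelianization.of (PresentedGroup.of x : Fi24) = Abelianization.of (PresentedGroup.of y : Fi24) := by
  have h1 := congrArg (Abelianization.of (G := Fi24)) (rel_cox x x hx hx)
  have h2 := congrArg (Abelianization.of (G := Fi24)) (rel_cox y y hy hy)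
  have h4 := congrArg (Abelianization.of (G := Fi24)) (rel_cox x y hx hy)
  rw [h3] at h4
  have e1 : coxLabel edges x x = 1 := by simp [coxLabel]
  have e2 : coxLabel edges y y = 1 := by simp [coxLabel]
  rw [e1] at h1
  rw [e2] at h2
  simp only [map_pow, map_mul, map_one, pow_one] at h1 h2 h4
  generalize Abelianization.of (PresentedGroup.of x : Fi24) = u at *
  generalize Abelianization.of (PresentedGroup.of y : Fi24) = v at *
  have h5 : u * v = 1 := by
    have : (u * v) ^ 3 = (u * u) * (v * v) * (u * v) := by
      simp only [pow_succ, pow_zero, one_mul]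
      exact by
        simp only [mul_comm, mul_left_comm, mul_assoc]
    rw [this, h1, h2] at h4
    simpa using h4
  calc u = u * (v * v) := by rw [h2, mul_one]
    _ = (u * v) * v := by rw [mul_assoc]
    _ = v := by rw [h5, one_mul]

open Cfsg.Spor Cfsg.Spor.Fi24 in
private theorem all_eq (x : Gen) :
    Abelianization.of (PresentedGroup.of x : Fi24) = Abelianization.of (PresentedGroup.of Gen.d : Fi24) := by
  have E : ∀ x y : Gen, (x, 3, y) ∈ edges → coxLabel edges x y = 3 →
      Abelianization.of (PresentedGroup.of x : Fi24) = Abelianization.of (PresentedGroup.of y : Fi24) := by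
    intro x y h1 h2
    refine edge_eq x y ?_ ?_ h2
    · exact List.mem_append_left _ (List.mem_map.2 ⟨_, h1, rfl⟩)
    · exact List.mem_append_right _ (List.mem_map.2 ⟨_, h1, rfl⟩)
  have lk := E .l .k (by decide) (by decide)
  have ka := E .k .a (by decide) (by decide)
  have ab := E .a .b (by decide) (by decide)
  have bc := E .b .c (by decide) (by decide)
  have cd := E .c .d (by decide) (by decide)
  have de := E .d .e (by decide) (by decide)
  have dh := E .d .h (by decide) (by decide)
  have ef := E .e .f (by decide) (by decide)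
  have fg := E .f .g (by decide) (by decide)
  have gj := E .g .j (by decide) (by decide)
  have hi := E .h .i (by decide) (by decide)
  cases x
  · rw [lk, ka, ab, bc, cd]
  · rw [ka, ab, bc, cd]
  · rw [ab, bc, cd]
  · rw [bc, cd]
  · rw [cd]
  · rfl
  · rw [de]
  · rw [← ef, de]
  · rw [← fg, ← ef, de]
  · rw [← gj, ← fg, ← ef, de]
  · rw [dh]
  · rw [← hi, dh]

/-- The commutator subgroup of the presented group Fi₂₄ has index 2 (the presented group is Fi₂₄′:2 with Fi₂₄′ its derived subgroup). -/
theorem result : (commutator Cfsg.Spor.Fi24).index = 2 := by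
  classical
  set t : Abelianization Fi24 := Abelianization.of (PresentedGroup.of Fi24.Gen.d : Fi24) with ht
  have hall : ∀ z : Abelianization Fi24, z ∈ Subgroup.zpowers t := by
    intro z
    obtain ⟨g, rfl⟩ := QuotientGroup.mk_surjective z
    have hg : g ∈ (Subgroup.zpowers t).comap (Abelianization.of (G := Fi24)) := by
      refine PresentedGroup.generated_by _ _ (fun j => ?_) g
      simp only [Subgroup.mem_comap]
      rw [all_eq j]
      exact Subgroup.mem_zpowers _
    exact hg
  have ht2 : t ^ 2 = 1 := by
    have h1 := congrArg (Abelianization.of (G := Fi24)) (rel_cox Fi24.Gen.d Fi24.Gen.d (by decide) (by decide))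
    have e1 : coxLabel Fi24.edges Fi24.Gen.d Fi24.Gen.d = 1 := by simp [coxLabel]
    rw [e1] at h1
    simp only [map_pow, map_mul, map_one, pow_one] at h1
    rw [ht, pow_two]
    exact h1
  have hne : t ≠ 1 := by
    intro h
    have h1 : (PresentedGroup.of Fi24.Gen.d : Fi24) ∈ commutator Fi24 := by
      have := (QuotientGroup.eq_one_iff (N := commutator Fi24) (PresentedGroup.of Fi24.Gen.d : Fi24)).1 h
      exact this
    have h2 : commutator Fi24 ≤ psi.ker := by
      rw [commutator_def, Subgroup.commutator_le]
      intro a _ b _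
      rw [MonoidHom.mem_ker, commutatorElement_def]
      simp only [map_mul, map_inv]
      rw [mul_comm (psi a) (psi b)]
      simp
    have h3 := h2 h1
    rw [MonoidHom.mem_ker] at h3
    have h4 : psi (PresentedGroup.of Fi24.Gen.d) = t0 := by
      simp only [psi, PresentedGroup.toGroup.of]
    rw [h4] at h3
    exact absurd h3 (by decide)
  have ho : orderOf t = 2 := orderOf_eq_prime ht2 hne
  have := orderOf_eq_card_of_forall_mem_zpowers hall
  rw [ho] at this
  exact this.symm

end Cfsg.Agent.S1691
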