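import Cfsg.Statements.S1717
import Mathlib

set_option autoImplicit false
open Cfsg

namespace Cfsg.Agent.S1717

open Matrix

local notation "SL5" => Matrix.SpecialLinearGroup (Fin 5) (ZMod 2)

private theorem comm_entries (M : Matrix (Fin 5) (Fin 5) (ZMod 2)) (i j : Fin 5)
    (h : M * Matrix.transvection i j 1 = Matrix.transvection i j 1 * M) (a b : Fin 5) :
    M a i * (if b = j then 1 else 0) = (if a = i then 1 else 0) * M j b := by
  have h1 := congrFun (congrFun h a) b
  simp only [Matrix.transvection, mul_add, add_mul, mul_one, one_mul, Matrix.add_apply] at h1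
  have h2 := add_left_cancel h1
  have e1 : (M * Matrix.single i j (1 : ZMod 2)) a b = M a i * (if b = j then 1 else 0) := by
    by_cases hb : b = j
    · subst hb
      simp [Matrix.mul_single_apply_same]
    · simp [hb, Matrix.mul_single_apply_of_ne, Ne.symm hb]
  have e2 : (Matrix.single i j (1 : ZMod 2) * M) a b = (if a = i then 1 else 0) * M j b := by
    by_cases ha : a = i
    · subst ha
      simp [Matrix.single_mul_apply_same]
    · simp [ha, Matrix.single_mul_apply_of_ne, Ne.symm ha]
  rw [e1, e2] at h2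
  exact h2

private theorem comm_val {g h : SL5} (hc : g * h = h * g) :
    (g : Matrix (Fin 5) (Fin 5) (ZMod 2)) * h = h * g := by
  have := congrArg (fun x : SL5 => (x : Matrix (Fin 5) (Fin 5) (ZMod 2))) hc
  simpa using this

/-- The transvections as elements of the special linear group. -/
private def tau (i j : Fin 5) (h : i ≠ j) : SL5 :=
  ⟨Matrix.transvection i j 1, Matrix.det_transvection_of_ne i j h 1⟩

private theorem col0 {g s : SL5} (hs : (s : Matrix (Fin 5) (Fin 5) (ZMod 2)) = Matrix.transvection 0 1 1)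
    (hc : g * s = s * g) (a : Fin 5) (ha : a ≠ 0) : g.1 a 0 = 0 := by
  have h := comm_val hc
  rw [hs] at h
  have := comm_entries _ 0 1 h a 1
  simpa [ha] using this

private theorem row1 {g s : SL5} (hs : (s : Matrix (Fin 5) (Fin 5) (ZMod 2)) = Matrix.transvection 0 1 1)
    (hc : g * s = s * g) (b : Fin 5) (hb : b ≠ 1) : g.1 1 b = 0 := by
  have h := comm_val hc
  rw [hs] at h
  have := comm_entries _ 0 1 h 0 b
  simpa [hb] using this.symm

private theorem diag01 {g s : SL5} (hs : (s : Matrix (Fin 5) (Fin 5) (ZMod 2)) = Matrix.transvection 0 1 1)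
    (hc : g * s = s * g) : g.1 0 0 = g.1 1 1 := by
  have h := comm_val hc
  rw [hs] at h
  have := comm_entries _ 0 1 h 0 1
  simpa using this

private theorem diag_one {g : SL5} (h : ∀ b, b ≠ (1 : Fin 5) → g.1 1 b = 0) : g.1 1 1 = 1 := by
  have h1 : g.1 1 1 ≠ 0 := by
    intro h0
    have : g.1.det = 0 := Matrix.det_eq_zero_of_row_eq_zero 1 (fun b => by
      by_cases hb : b = 1
      · rw [hb]; exact h0
      · exact h b hb)
    rw [g.2] at this
    exact one_ne_zero this
  revert h1
  generalize g.1 1 1 = x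
  revert x
  decide

/-- The explicit form of the kernel elements; each has order dividing four. -/
private theorem pow4 : ∀ c x2 x3 x4 y2 y3 y4 : ZMod 2,
    (!![1, c, x2, x3, x4; 0, 1, 0, 0, 0; 0, y2, 1, 0, 0; 0, y3, 0, 1, 0; 0, y4, 0, 0, 1] :
      Matrix (Fin 5) (Fin 5) (ZMod 2)) ^ 4 = 1 := by
  decide +kernel

/-- The block map from the centralizer to the middle three-by-three block. -/
private def phi (s : SL5) (hs : (s : Matrix (Fin 5) (Fin 5) (ZMod 2)) = Matrix.transvection 0 1 1) :
    Subgroup.centralizer ({s} : Set SL5) →* Matrix (Fin 3) (Fin 3) (ZMod 2) where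
  toFun g := fun i j => g.1.1 (i.succ.succ) (j.succ.succ)
  map_one' := by
    ext i j
    fin_cases i <;> fin_cases j <;> rfl
  map_mul' := by
    intro g h
    have hg : g.1 * s = s * g.1 := Subgroup.mem_centralizer_singleton_iff.1 g.2
    have hh : h.1 * s = s * h.1 := Subgroup.mem_centralizer_singleton_iff.1 h.2
    ext i j
    have h1 : g.1.1 i.succ.succ 0 = 0 := col0 hs hg _ (by fin_cases i <;> decide)
    have h2 : h.1.1 1 j.succ.succ = 0 := row1 hs hh _ (by fin_cases j <;> decide)
    show ((g.1 * h.1 : SL5)).1 i.succ.succ j.succ.succ = ∑ k : Fin 3, g.1.1 i.succ.succ k.succ.succ * h.1.1 k.succ.succ j.succ.succ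
    rw [Matrix.SpecialLinearGroup.coe_mul, Matrix.mul_apply, Fin.sum_univ_succ, Fin.sum_univ_succ]
    have e1 : (Fin.succ (0 : Fin 4)) = (1 : Fin 5) := rfl
    simp only [e1, h1, h2, zero_mul, mul_zero, zero_add]

private theorem ker_isP (s : SL5) (hs : (s : Matrix (Fin 5) (Fin 5) (ZMod 2)) = Matrix.transvection 0 1 1) :
    IsPGroup 2 (phi s hs).ker := by
  rintro ⟨g, hg⟩
  refine ⟨2, ?_⟩
  have hg1 : g.1 * s = s * g.1 := Subgroup.mem_centralizer_singleton_iff.1 g.2
  have hr := row1 hs hg1
  have hc := col0 hs hg1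
  have hd := diag_one hr
  have hd0 := diag01 hs hg1
  have hk : ∀ i j : Fin 3, g.1.1 i.succ.succ j.succ.succ = (1 : Matrix (Fin 3) (Fin 3) (ZMod 2)) i j := by
    intro i j
    have h := MonoidHom.mem_ker.1 hg
    exact congrFun (congrFun h i) j
  have hm : g.1.1 = !![1, g.1.1 0 1, g.1.1 0 2, g.1.1 0 3, g.1.1 0 4; 0, 1, 0, 0, 0;
      0, g.1.1 2 1, 1, 0, 0; 0, g.1.1 3 1, 0, 1, 0; 0, g.1.1 4 1, 0, 0, 1] := by
    have k00 := hk 0 0
    have k01 := hk 0 1
    have k02 := hk 0 2
    have k10 := hk 1 0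
    have k11 := hk 1 1
    have k12 := hk 1 2
    have k20 := hk 2 0
    have k21 := hk 2 1
    have k22 := hk 2 2
    ext i j
    fin_cases i <;> fin_cases j <;> first
      | rfl
      | exact (hd0.trans hd)
      | exact hd
      | exact hc _ (by decide)
      | exact hr _ (by decide)
      | exact k00 | exact k01 | exact k02 | exact k10 | exact k11 | exact k12 | exact k20 | exact k21 | exact k22
  have h4 := pow4 (g.1.1 0 1) (g.1.1 0 2) (g.1.1 0 3) (g.1.1 0 4) (g.1.1 2 1) (g.1.1 3 1) (g.1.1 4 1)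
  rw [← hm] at h4
  apply Subtype.ext
  apply Subtype.ext
  apply Subtype.ext
  simpa using h4

private theorem tau_block : ∀ (i j : Fin 5), ((i, j) ∈ ([(0, 2), (0, 3), (0, 4), (2, 1), (3, 1), (4, 1)] : List (Fin 5 × Fin 5))) →
    ∀ a b : Fin 3, (Matrix.transvection i j (1 : ZMod 2)) a.succ.succ b.succ.succ = (1 : Matrix (Fin 3) (Fin 3) (ZMod 2)) a b := by
  intro i j hij a b
  simp only [List.mem_cons, List.not_mem_nil, or_false, Prod.mk.injEq] at hij
  rcases hij with ⟨rfl, rfl⟩ | ⟨rfl, rfl⟩ | ⟨rfl, rfl⟩ | ⟨rfl, rfl⟩ | ⟨rfl, rfl⟩ | ⟨rfl, rfl⟩ <;>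
    fin_cases a <;> fin_cases b <;> decide +kernel

private theorem tau_mem (s : SL5) (hs : (s : Matrix (Fin 5) (Fin 5) (ZMod 2)) = Matrix.transvection 0 1 1)
    (i j : Fin 5) (h : i ≠ j) (hij : (i, j) ∈ ([(0, 2), (0, 3), (0, 4), (2, 1), (3, 1), (4, 1)] : List (Fin 5 × Fin 5))) :
    ∃ hm : tau i j h ∈ Subgroup.centralizer ({s} : Set SL5), (⟨_, hm⟩ : Subgroup.centralizer ({s} : Set SL5)) ∈ (phi s hs).ker := by
  have key : (Matrix.transvection i j 1 : Matrix (Fin 5) (Fin 5) (ZMod 2)) * Matrix.transvection 0 1 1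
      = Matrix.transvection 0 1 1 * Matrix.transvection i j 1 := by
    revert i j h
    simp only [List.mem_cons, List.not_mem_nil, or_false, Prod.mk.injEq]
    decide +kernel
  have hm : tau i j h ∈ Subgroup.centralizer ({s} : Set SL5) := by
    rw [Subgroup.mem_centralizer_singleton_iff]
    apply Subtype.ext
    simp only [Matrix.SpecialLinearGroup.coe_mul, hs]
    exact key
  refine ⟨hm, ?_⟩
  rw [MonoidHom.mem_ker]
  ext a b
  show (Matrix.transvection i j 1 : Matrix (Fin 5) (Fin 5) (ZMod 2)) a.succ.succ b.succ.succ = (1 : Matrix (Fin 3) (Fin 3) (ZMod 2)) a b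
  exact tau_block i j hij a b

private theorem cent_E (s y : SL5) (hs : (s : Matrix (Fin 5) (Fin 5) (ZMod 2)) = Matrix.transvection 0 1 1)
    (hy : y * s = s * y)
    (hE : ∀ g ∈ (phi s hs).ker, y * g.1 = g.1 * y) : y = 1 ∨ y = s := by
  have T : ∀ (i j : Fin 5) (h : i ≠ j), (i, j) ∈ ([(0, 2), (0, 3), (0, 4), (2, 1), (3, 1), (4, 1)] : List (Fin 5 × Fin 5)) →
      ∀ a b, y.1 a i * (if b = j then 1 else 0) = (if a = i then 1 else 0) * y.1 j b := by
    intro i j h hij a b
    obtain ⟨hm, hk⟩ := tau_mem s hs i j h hij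
    have h1 := hE _ hk
    exact comm_entries _ i j (comm_val h1) a b
  have t02 := T 0 2 (by decide) (by decide)
  have t03 := T 0 3 (by decide) (by decide)
  have t04 := T 0 4 (by decide) (by decide)
  have t21 := T 2 1 (by decide) (by decide)
  have t31 := T 3 1 (by decide) (by decide)
  have t41 := T 4 1 (by decide) (by decide)
  have hr := row1 hs hy
  have hd := diag_one hr
  have hd0 := (diag01 hs hy).trans hd
  have hc := col0 hs hy
  have d2 : y.1 2 2 = 1 := by have := t02 0 2; simp at this; rw [← this]; exact hd0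
  have d3 : y.1 3 3 = 1 := by have := t03 0 3; simp at this; rw [← this]; exact hd0
  have d4 : y.1 4 4 = 1 := by have := t04 0 4; simp at this; rw [← this]; exact hd0
  have r2 : ∀ b, b ≠ 2 → y.1 2 b = 0 := by
    intro b hb
    have := t02 0 b
    simpa [hb] using this.symm
  have r3 : ∀ b, b ≠ 3 → y.1 3 b = 0 := by
    intro b hb
    have := t03 0 b
    simpa [hb] using this.symm
  have r4 : ∀ b, b ≠ 4 → y.1 4 b = 0 := by
    intro b hb
    have := t04 0 b
    simpa [hb] using this.symm
  have c2 : ∀ a, a ≠ 2 → y.1 a 2 = 0 := by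
    intro a ha
    have := t21 a 1
    simpa [ha] using this
  have c3 : ∀ a, a ≠ 3 → y.1 a 3 = 0 := by
    intro a ha
    have := t31 a 1
    simpa [ha] using this
  have c4 : ∀ a, a ≠ 4 → y.1 a 4 = 0 := by
    intro a ha
    have := t41 a 1
    simpa [ha] using this
  have hm : ∀ c : ZMod 2, y.1 0 1 = c → y.1 = !![1, c, 0, 0, 0; 0, 1, 0, 0, 0; 0, 0, 1, 0, 0; 0, 0, 0, 1, 0; 0, 0, 0, 0, 1] := by
    intro c hc'
    ext i j
    fin_cases i <;> fin_cases j <;> first
      | exact hc'
      | exact hd0 | exact hd | exact d2 | exact d3 | exact d4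
      | exact hc _ (by decide)
      | exact hr _ (by decide)
      | exact r2 _ (by decide) | exact r3 _ (by decide) | exact r4 _ (by decide)
      | exact c2 _ (by decide) | exact c3 _ (by decide) | exact c4 _ (by decide)
  have h01 : y.1 0 1 = 0 ∨ y.1 0 1 = 1 := by
    generalize y.1 0 1 = x
    revert x
    decide
  rcases h01 with h0 | h0
  · left
    apply Subtype.ext
    rw [hm _ h0]
    show _ = (1 : Matrix (Fin 5) (Fin 5) (ZMod 2))
    decide +kernel
  · right
    apply Subtype.ext
    rw [hm _ h0, hs]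
    decide +kernel

private theorem exists_norm {Ω : Type*} [Group Ω] {T D : Subgroup Ω} [Finite T] (hT : IsPGroup 2 T) (h : D < T) :
    ∃ x ∈ T, x ∉ D ∧ x ∈ Subgroup.normalizer (D : Set Ω) := by
  haveI : Fact (Nat.Prime 2) := ⟨Nat.prime_two⟩
  have hnil : Group.IsNilpotent ↥T := hT.isNilpotent
  have hcond := Group.normalizerCondition_of_isNilpotent (G := ↥T)
  have hlt : D.subgroupOf T < ⊤ := by
    rw [lt_top_iff_ne_top]
    intro he
    apply h.not_ge
    intro x hx
    have : (⟨x, hx⟩ : T) ∈ D.subgroupOf T := by rw [he]; trivial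
    exact this
  have h2 := hcond _ hlt
  obtain ⟨x, hx, hxn⟩ := SetLike.exists_of_lt h2
  refine ⟨x, x.2, hxn, ?_⟩
  rw [Subgroup.mem_normalizer_iff]
  intro d
  constructor
  · intro hd
    have h3 := (Subgroup.mem_normalizer_iff.mp hx ⟨d, h.le hd⟩).mp hd
    exact h3
  · intro hd
    have hdT : d ∈ T := by
      have := mul_mem (mul_mem (inv_mem x.2) (h.le hd)) x.2
      have e : (x : Ω)⁻¹ * ((x : Ω) * d * (x : Ω)⁻¹) * (x : Ω) = d := by group
      rwa [e] at this
    exact (Subgroup.mem_normalizer_iff.mp hx ⟨d, hdT⟩).mpr hd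

private theorem normal_le_sylow {C : Type*} [Group C] [Finite C] (N : Subgroup C) [N.Normal]
    (hN : IsPGroup 2 N) (T : Sylow 2 C) : N ≤ T := by
  have h := IsPGroup.to_sup_of_normal_right T.2 hN
  have h2 := T.is_maximal' h le_sup_left
  rw [← h2]
  exact le_sup_right

private theorem main_grp {G : Type*} [Group G] [Finite G] (z : G) (C : Subgroup G)
    (hC : ∀ x, x ∈ C ↔ x * z = z * x)
    (T : Sylow 2 C)
    (h : ∀ y ∈ (T : Subgroup C).map C.subtype,
      (∀ w ∈ (T : Subgroup C).map C.subtype, y * w = w * y) →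
      y = 1 ∨ y = z)
    (hz1 : z ≠ 1)
    (hzT : z ∈ (T : Subgroup C).map C.subtype) :
    ¬ 2 ∣ ((T : Subgroup C).map C.subtype).index := by
  set T' := (T : Subgroup C).map C.subtype with hT'
  have hTp : IsPGroup 2 T' := T.2.map _
  obtain ⟨P, hP⟩ := hTp.exists_le_sylow
  by_cases he : T' = P
  · rw [he]
    exact P.not_dvd_index
  exfalso
  have hlt : T' < P := lt_of_le_of_ne hP he
  obtain ⟨x, hxP, hxT, hxN⟩ := exists_norm P.2 hlt
  have hzx : x * z * x⁻¹ ∈ T' := (Subgroup.mem_normalizer_iff.1 hxN z).1 hzT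
  have hzc : x * z * x⁻¹ = 1 ∨ x * z * x⁻¹ = z := by
    refine h _ hzx fun w hw => ?_
    have hw' : x⁻¹ * w * x ∈ T' := by
      have := (Subgroup.mem_normalizer_iff.1 (inv_mem hxN) w).1 hw
      simpa using this
    have hcz : (x⁻¹ * w * x) * z = z * (x⁻¹ * w * x) := by
      obtain ⟨w1, hw1, hw2⟩ := Subgroup.mem_map.1 hw'
      rw [← hw2]
      exact (hC _).1 w1.2
    calc x * z * x⁻¹ * w = x * (z * (x⁻¹ * w * x)) * x⁻¹ := by group
      _ = x * ((x⁻¹ * w * x) * z) * x⁻¹ := by rw [hcz]
      _ = w * (x * z * x⁻¹) := by group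
  have hxz : x * z * x⁻¹ = z := by
    rcases hzc with h1 | h1
    · exfalso
      apply hz1
      have : z = x⁻¹ * (x * z * x⁻¹) * x := by group
      rw [this, h1]
      group
    · exact h1
  have hxC : x ∈ C := by
    rw [hC]
    calc x * z = x * z * x⁻¹ * x := by group
      _ = z * x := by rw [hxz]
  let Q : Subgroup C := (P : Subgroup G).comap (Subgroup.subtype C)
  have hQ : IsPGroup 2 Q := P.2.comap_of_injective _ (Subgroup.subtype_injective C)
  have hTQ : (T : Subgroup C) ≤ Q := by
    intro w hw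
    exact hP (Subgroup.mem_map_of_mem _ hw)
  have h3 := T.is_maximal' hQ hTQ
  have h4 : (⟨x, hxC⟩ : C) ∈ Q := hxP
  rw [h3] at h4
  exact hxT (Subgroup.mem_map.2 ⟨_, h4, rfl⟩)

/-- Let G be a finite group with an involution z whose centraliser C is isomorphic to the centraliser of a transvection of SL(5, 2). Then a Sylow 2-subgroup of C, viewed in G, is a Sylow 2-subgroup of G (its index in G is odd). -/
theorem result {G : Type*} [Group G] [Finite G] (s : Matrix.SpecialLinearGroup (Fin 5) (ZMod 2)) (hs : (s : Matrix (Fin 5) (Fin 5) (ZMod 2)) = Matrix.transvection 0 1 1) (z : G) (hz : orderOf z = 2) (e : (Subgroup.centralizer ({z} : Set G)) ≃* Subgroup.centralizer ({s} : Set (Matrix.SpecialLinearGroup (Fin 5) (ZMod 2)))) (T : Sylow 2 (Subgroup.centralizer ({z} : Set G))) : ¬ 2 ∣ ((T : Subgroup (Subgroup.centralizer ({z} : Set G))).map (Subgroup.subtype (Subgroup.centralizer ({z} : Set G)))).index := by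
  classical
  haveI : Fact (Nat.Prime 2) := ⟨Nat.prime_two⟩
  have hz1 : z ≠ 1 := by
    rintro rfl
    simp at hz
  have hzC : z ∈ (Subgroup.centralizer ({z} : Set G)) := Subgroup.mem_centralizer_singleton_iff.2 rfl
  let zc : (Subgroup.centralizer ({z} : Set G)) := ⟨z, hzC⟩
  have hzc : ∀ w : (Subgroup.centralizer ({z} : Set G)), zc * w = w * zc := by
    intro w
    apply Subtype.ext
    exact (Subgroup.mem_centralizer_singleton_iff.1 w.2).symm
  -- `z` lies in the Sylow subgroup
  have hzpow : IsPGroup 2 (Subgroup.zpowers zc) := by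
    rw [IsPGroup.iff_card]
    refine ⟨1, ?_⟩
    rw [Nat.card_zpowers]
    have : orderOf zc = orderOf z := by
      exact Subgroup.orderOf_mk _ _
    rw [this, hz, pow_one]
  haveI : (Subgroup.zpowers zc).Normal := by
    refine ⟨fun a ha b => ?_⟩
    have : b * a * b⁻¹ = a := by
      obtain ⟨k, rfl⟩ := Subgroup.mem_zpowers_iff.1 ha
      have hcomm : Commute zc b := hzc b
      have : Commute (zc ^ k) b := hcomm.zpow_left k
      rw [this.symm.eq, mul_assoc, mul_inv_cancel, mul_one]
    rwa [this]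
  have hzT : zc ∈ (T : Subgroup (Subgroup.centralizer ({z} : Set G))) := normal_le_sylow _ hzpow T (Subgroup.mem_zpowers zc)
  -- the normal kernel
  let E := (phi s hs).ker
  have hEp : IsPGroup 2 E := ker_isP s hs
  let N : Subgroup (Subgroup.centralizer ({z} : Set G)) := E.comap e.toMonoidHom
  haveI hNn : N.Normal := inferInstanceAs (Subgroup.comap e.toMonoidHom E).Normal
  have hNp : IsPGroup 2 N := hEp.comap_of_injective _ e.injective
  have hNT : N ≤ T := normal_le_sylow N hNp T
  have hcen : ∀ y : (Subgroup.centralizer ({z} : Set G)), y ∈ (T : Subgroup (Subgroup.centralizer ({z} : Set G))) → (∀ w ∈ (T : Subgroup (Subgroup.centralizer ({z} : Set G))), y * w = w * y) →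
      e y = 1 ∨ e y = ⟨s, Subgroup.mem_centralizer_singleton_iff.2 rfl⟩ := by
    intro y _ hy
    have hys : (e y).1 * s = s * (e y).1 := Subgroup.mem_centralizer_singleton_iff.1 (e y).2
    have := cent_E s (e y).1 hs hys (fun g hg => by
      have h1 : e.symm g ∈ N := by
        show e (e.symm g) ∈ E
        rw [e.apply_symm_apply]
        exact hg
      have h2 := hy _ (hNT h1)
      have h3 := congrArg (fun q => (e q).1) h2
      simpa using h3)
    rcases this with h | h
    · left
      exact Subtype.ext h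
    · right
      exact Subtype.ext h
  refine main_grp z _ (fun x => Subgroup.mem_centralizer_singleton_iff) T ?_ hz1 (Subgroup.mem_map.2 ⟨zc, hzT, rfl⟩)
  intro y hy hyc
  obtain ⟨y1, hy1, rfl⟩ := Subgroup.mem_map.1 hy
  have hy2 : ∀ w ∈ (T : Subgroup (Subgroup.centralizer ({z} : Set G))), y1 * w = w * y1 := by
    intro w hw
    apply Subtype.ext
    exact hyc _ (Subgroup.mem_map.2 ⟨w, hw, rfl⟩)
  rcases hcen y1 hy1 hy2 with h | h
  · left
    have : y1 = 1 := by simpa using h
    simp [this]
  · right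
    have hz2 : e zc = ⟨s, Subgroup.mem_centralizer_singleton_iff.2 rfl⟩ := by
      rcases hcen zc hzT (fun w _ => hzc w) with h' | h'
      · exfalso
        have : zc = 1 := by simpa using h'
        exact hz1 (congrArg Subtype.val this)
      · exact h'
    have : y1 = zc := e.injective (h.trans hz2.symm)
    simp [this, zc]

end Cfsg.Agent.S1717
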