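import Cfsg.Statements.S1753
-- import your own Cfsg.Agent.* helpers here

set_option autoImplicit false
universe u
open Cfsg

namespace Cfsg.Agent.S1753

/-- Let K be any property of groups. (1) If G is a minimal counterexample relative to K — a finite non-abelian simple group not satisfying K such that every finite non-abelian simple group of smaller order satisfies K — then every proper subgroup of G is a K-group (all its non-abelian simple sections satisfy K), since such sections have smaller order than G. (2) Consequently (induction on the order), if every finite non-abelian simple group all of whose proper subgroups are K-groups satisfies K, then every finite non-abelian simple group satisfies K. -/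
theorem result (K : ∀ (X : Type u) [Group X], Prop) :
    (∀ (G : Type u) [Group G], Cfsg.IsMinCounterexampleWith K G → Cfsg.IsKProperWith K G) ∧
      ((∀ (X : Type u) [Group X] [Finite X], IsSimpleGroup X → ¬ IsMulCommutative X → Cfsg.IsKProperWith K X → K X) →
        ∀ (G : Type u) [Group G] [Finite G], IsSimpleGroup G → ¬ IsMulCommutative G → K G) := by
  constructor
  · intro G _ hG H hH L N _ hs hna
    obtain ⟨hfin, _, _, _, hmin⟩ := hG
    haveI := hfin
    refine hmin _ hs hna ?_
    calc Nat.card (L ⧸ N) ≤ Nat.card L := by
          rw [← Subgroup.card_mul_index N]
          exact Nat.le_mul_of_pos_left _ Nat.card_pos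
      _ ≤ Nat.card H := Subgroup.card_le_card_group L
      _ < Nat.card G := by
          exact lt_of_le_of_ne (Subgroup.card_le_card_group H) (fun h => hH (Subgroup.eq_top_of_card_eq H h))
  · intro hyp G
    intro _ _
    induction' hn : Nat.card G using Nat.strong_induction_on with n ih generalizing G
    intro hs hna
    refine hyp G hs hna ?_
    intro H hH L N _ hs' hna'
    have hcard : Nat.card (L ⧸ N) < n := by
      rw [← hn]
      calc Nat.card (L ⧸ N) ≤ Nat.card L := by
            rw [← Subgroup.card_mul_index N]
            exact Nat.le_mul_of_pos_left _ Nat.card_pos
        _ ≤ Nat.card H := Subgroup.card_le_card_group L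
        _ < Nat.card G := by
            exact lt_of_le_of_ne (Subgroup.card_le_card_group H) (fun h => hH (Subgroup.eq_top_of_card_eq H h))
    exact ih _ hcard (L ⧸ N) rfl hs' hna'

end Cfsg.Agent.S1753
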