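import Cfsg.Statements.S1754
import Cfsg.Agent.Lib.Layer
-- import your own Cfsg.Agent.* helpers here

set_option autoImplicit false
open Cfsg

namespace Cfsg.Agent.S1754

/-- Let A be a standard subgroup of the finite group G (A quasisimple, C_G(A) tightly embedded of even order, A commuting elementwise with no other conjugate of itself, and N_G(A) = N_G(C_G(A))), and let t be an involution of G centralizing A. Then the centralizer of t lies in the normalizer of A; in particular A, viewed inside C_G(t), is a component of C_G(t). -/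
theorem result {G : Type*} [Group G] [Finite G]
    (A : Subgroup G) (hA : Cfsg.IsStandardSubgroup A) (t : G) (ht : orderOf t = 2) (htA : t ∈ Subgroup.centralizer (A : Set G)) :
    Subgroup.centralizer ({t} : Set G) ≤ Subgroup.normalizer (A : Set G) ∧
      Cfsg.IsComponent (A.subgroupOf (Subgroup.centralizer ({t} : Set G))) := by
  classical
  obtain ⟨hq, ⟨_, hti⟩, _, hNN⟩ := hA
  have htK : t ∈ Subgroup.centralizer (A : Set G) := htA
  have hle : Subgroup.centralizer ({t} : Set G) ≤ Subgroup.normalizer (A : Set G) := by
    intro g hg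
    rw [hNN]
    by_contra hgN
    have hodd := hti g hgN
    -- t lies in the intersection K ⊓ K^g, contradiction with odd order
    have htg : g * t * g⁻¹ = t := by
      have := (Subgroup.mem_centralizer_iff.1 hg) t rfl
      calc g * t * g⁻¹ = t * g * g⁻¹ := by rw [this]
        _ = t := by group
    have hmem : t ∈ Subgroup.centralizer (A : Set G) ⊓ (Subgroup.centralizer (A : Set G)).map (MulAut.conj g).toMonoidHom := by
      refine ⟨htK, ⟨t, htK, ?_⟩⟩
      simpa using htg
    have hdvd : orderOf (⟨t, hmem⟩ : ↥(Subgroup.centralizer (A : Set G) ⊓ (Subgroup.centralizer (A : Set G)).map (MulAut.conj g).toMonoidHom)) ∣ Nat.card ↥(Subgroup.centralizer (A : Set G) ⊓ (Subgroup.centralizer (A : Set G)).map (MulAut.conj g).toMonoidHom) := orderOf_dvd_natCard _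
    rw [Subgroup.orderOf_mk, ht] at hdvd
    obtain ⟨m, hm⟩ := hodd
    omega
  refine ⟨hle, ?_⟩
  have hAC : A ≤ Subgroup.centralizer ({t} : Set G) := by
    intro a ha
    rw [Subgroup.mem_centralizer_iff]
    intro y hy
    rw [Set.mem_singleton_iff.1 hy]
    exact ((Subgroup.mem_centralizer_iff.1 htK) a ha).symm ▸ rfl
  have hn : (A.subgroupOf (Subgroup.centralizer ({t} : Set G))).Normal :=
    (Subgroup.normal_subgroupOf_iff_le_normalizer hAC).2 hle
  refine ⟨hn.isSubnormal, ?_⟩
  exact Cfsg.Agent.Lib.Layer.isQuasisimple_congr (Subgroup.subgroupOfEquivOfLe hAC).symm hq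

end Cfsg.Agent.S1754
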