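import Cfsg.Statements.S1755
import Cfsg.Agent.Lib.Layer
import Cfsg.Agent.Lib.PGroupBasic

open Cfsg

namespace Cfsg.Agent.S1755

theorem aux {G : Type*} [Group G] [Finite G] (z : G) (hz : orderOf z = 2)
    (C : Subgroup G) (hC : C = Subgroup.centralizer ({z} : Set G)) (Q : Subgroup C) [hQn : Q.Normal]
    (hQc : Subgroup.center C ≤ Q) (hQ : Cfsg.IsOfSymplecticType Q)
    (B : Subgroup Q) (hBc : B.Characteristic) (hBa : IsMulCommutative ↥B) (g : G) :
    ((B.map Q.subtype).map C.subtype).map (MulAut.conj g).toMonoidHom = (B.map Q.subtype).map C.subtype ∨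
      ((B.map Q.subtype).map C.subtype).map (MulAut.conj g).toMonoidHom ⊓ (B.map Q.subtype).map C.subtype = ⊥ := by
  classical
  set B₂ := (B.map Q.subtype).map C.subtype with hB₂
  by_cases hB : B = ⊥
  · left
    have : B₂ = ⊥ := by rw [hB₂, hB]; simp
    rw [this]; simp
  haveI : Fact (Nat.Prime 2) := ⟨Nat.prime_two⟩
  have hB₂mem : ∀ x, x ∈ B₂ ↔ ∃ b ∈ B, (((b : Q) : C) : G) = x := by
    intro x
    constructor
    · rintro ⟨_, ⟨b, hb, rfl⟩, rfl⟩
      exact ⟨b, hb, rfl⟩
    · rintro ⟨b, hb, rfl⟩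
      exact ⟨_, ⟨b, hb, rfl⟩, rfl⟩
  have hzC : z ∈ C := by
    rw [hC, Subgroup.mem_centralizer_iff]
    intro h hh
    rw [Set.mem_singleton_iff.1 hh]
  have hzcent : (⟨z, hzC⟩ : C) ∈ Subgroup.center C := by
    rw [Subgroup.mem_center_iff]
    rintro ⟨g', hg'⟩
    apply Subtype.ext
    rw [hC] at hg'
    have := (Subgroup.mem_centralizer_iff.1 hg') z rfl
    exact this.symm
  let zQ : Q := ⟨⟨z, hzC⟩, hQc hzcent⟩
  have hzQcent : zQ ∈ Subgroup.center Q := by
    rw [Subgroup.mem_center_iff]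
    intro y
    apply Subtype.ext
    exact (Subgroup.mem_center_iff.1 hzcent y.1)
  have hzQo : orderOf zQ = 2 := by
    have h1 : orderOf zQ = orderOf (⟨z, hzC⟩ : C) := Subgroup.orderOf_mk _ _
    have h2 : orderOf (⟨z, hzC⟩ : C) = orderOf z := Subgroup.orderOf_mk _ _
    rw [h1, h2, hz]
  -- the centre of Q is cyclic
  have hZcyc : IsCyclic (Subgroup.center Q) := by
    refine hQ.2 _ inferInstance ?_
    constructor
    constructor
    rintro ⟨a, ha⟩ ⟨b, hb⟩
    exact Subtype.ext (Subgroup.mem_center_iff.1 ha b).symm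
  haveI hBcyc : IsCyclic B := hQ.2 B hBc hBa
  haveI := hBc
  have hBnormal : B.Normal := inferInstance
  -- z lies in B
  have hzB : zQ ∈ B := by
    obtain ⟨x, hxB, hx1, hxZ⟩ := Cfsg.Agent.Lib.PGroupBasic.exists_ne_one_mem_center_of_normal hQ.1 B hB
    obtain ⟨k, hk⟩ := Cfsg.Agent.Lib.PGroupBasic.exists_pow_orderOf_eq_two hQ.1 hx1
    have h1 : (⟨x ^ k, Subgroup.pow_mem _ hxZ k⟩ : Subgroup.center Q) = ⟨zQ, hzQcent⟩ := by
      apply Cfsg.Agent.Lib.PGroupBasic.involution_unique_of_isCyclic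
      · rw [Subgroup.orderOf_mk]; exact hk
      · rw [Subgroup.orderOf_mk]; exact hzQo
    have h2 : x ^ k = zQ := congrArg Subtype.val h1
    rw [← h2]
    exact B.pow_mem hxB k
  -- unique involution in B₂
  have hinv : ∀ x ∈ B₂, orderOf x = 2 → x = z := by
    intro x hx hxo
    obtain ⟨b, hb, rfl⟩ := (hB₂mem x).1 hx
    have h0 : orderOf b = 2 := by
      have h1 : orderOf (((b : Q) : C) : G) = orderOf ((b : Q) : C) := Subgroup.orderOf_coe _
      have h2 : orderOf ((b : Q) : C) = orderOf b := Subgroup.orderOf_coe _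
      rw [← h2, ← h1]; exact hxo
    have h1 : (⟨b, hb⟩ : B) = ⟨zQ, hzB⟩ := by
      apply Cfsg.Agent.Lib.PGroupBasic.involution_unique_of_isCyclic
      · rw [Subgroup.orderOf_mk]; exact h0
      · rw [Subgroup.orderOf_mk]; exact hzQo
    have h2 : b = zQ := congrArg Subtype.val h1
    rw [h2]
  -- B₂ is normalized by C
  have hB₁n : (B.map Q.subtype).Normal := inferInstance
  have hconj : ∀ c ∈ C, ∀ x ∈ B₂, c * x * c⁻¹ ∈ B₂ := by
    intro c hc x hx
    obtain ⟨_, hy, rfl⟩ := hx
    exact ⟨_, hB₁n.conj_mem _ hy ⟨c, hc⟩, rfl⟩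
  have h2B₂ : IsPGroup 2 B₂ := by
    have h1 : IsPGroup 2 B := hQ.1.to_subgroup B
    have h2 : IsPGroup 2 (B.map Q.subtype) := h1.map Q.subtype
    exact h2.map C.subtype
  by_cases hg : g ∈ C
  · left
    ext x
    constructor
    · rintro ⟨y, hy, rfl⟩
      exact hconj g hg y hy
    · intro hx
      refine ⟨g⁻¹ * x * g, ?_, ?_⟩
      · have := hconj g⁻¹ (C.inv_mem hg) x hx
        simpa using this
      · simp [mul_assoc]
  · right
    rw [eq_bot_iff]
    rintro x ⟨⟨v, hv, hvx⟩, hx⟩
    have hvx' : g * v * g⁻¹ = x := by simpa using hvx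
    by_contra hx1
    rw [Subgroup.mem_bot] at hx1
    -- take an involution
    have hx1' : (⟨x, hx⟩ : B₂) ≠ 1 := fun h => hx1 (congrArg Subtype.val h)
    obtain ⟨k, hk⟩ := Cfsg.Agent.Lib.PGroupBasic.exists_pow_orderOf_eq_two h2B₂ hx1'
    have hk' : orderOf (x ^ k) = 2 := by
      rw [← hk]
      exact Subgroup.orderOf_coe ((⟨x, hx⟩ : B₂) ^ k)
    have h1 : x ^ k = z := hinv _ (B₂.pow_mem hx k) hk'
    have h2 : g * v ^ k * g⁻¹ = x ^ k := by rw [← hvx', conj_pow]
    have h3 : orderOf (v ^ k) = 2 := by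
      have : orderOf (g * v ^ k * g⁻¹) = orderOf (v ^ k) := by
        simpa using orderOf_injective (MulAut.conj g).toMonoidHom (MulEquiv.injective _) (v ^ k)
      rw [← this, h2, hk']
    have h4 : v ^ k = z := hinv _ (B₂.pow_mem hv k) h3
    rw [h1, h4] at h2
    apply hg
    rw [hC, Subgroup.mem_centralizer_iff]
    intro y hy
    rw [Set.mem_singleton_iff.1 hy]
    calc z * g = (g * z * g⁻¹) * g := by rw [h2]
      _ = g * z := by group

/-- Let G be a finite group and let z be an involution of G such that Q, the generalized Fitting subgroup of the centralizer C of z, is a 2-group of symplectic type (every characteristic abelian subgroup of Q is cyclic). Let B be a characteristic abelian subgroup of Q, viewed as a subgroup of G. Then for every g in G, the conjugate of B by g either equals B or meets B trivially. -/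
theorem result {G : Type*} [Group G] [Finite G] (z : G) (hz : orderOf z = 2) (hQ : Cfsg.IsOfSymplecticType ↥(Cfsg.generalizedFittingSubgroup ↥(Subgroup.centralizer ({z} : Set G))))
    (B : Subgroup ↥(Cfsg.generalizedFittingSubgroup ↥(Subgroup.centralizer ({z} : Set G)))) (hBc : B.Characteristic) (hBa : IsMulCommutative ↥B) (g : G) :
    ((B.map (Cfsg.generalizedFittingSubgroup ↥(Subgroup.centralizer ({z} : Set G))).subtype).map (Subgroup.centralizer ({z} : Set G)).subtype).map (MulAut.conj g).toMonoidHom =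
        (B.map (Cfsg.generalizedFittingSubgroup ↥(Subgroup.centralizer ({z} : Set G))).subtype).map (Subgroup.centralizer ({z} : Set G)).subtype ∨
      ((B.map (Cfsg.generalizedFittingSubgroup ↥(Subgroup.centralizer ({z} : Set G))).subtype).map (Subgroup.centralizer ({z} : Set G)).subtype).map (MulAut.conj g).toMonoidHom ⊓
        (B.map (Cfsg.generalizedFittingSubgroup ↥(Subgroup.centralizer ({z} : Set G))).subtype).map (Subgroup.centralizer ({z} : Set G)).subtype = ⊥ := by
  exact aux z hz _ rfl _ (Cfsg.Agent.Lib.Layer.center_le_genFitting _) hQ B hBc hBa g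

end Cfsg.Agent.S1755
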