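import Cfsg.Statements.S1756
import Cfsg.Agent.Lib.ExtraHyper
-- import your own Cfsg.Agent.* helpers here

set_option autoImplicit false
open Cfsg

namespace Cfsg.Agent.S1756

/-- Let Q be an extraspecial 2-subgroup of the finite group G (special with centre of order 2) and t an involution of G normalizing Q such that the centralizer of t in Q has index at most 2 in Q. Then t lies in the product of Q with the centralizer of Q. -/
theorem result {G : Type*} [Group G] [Finite G] (Q : Subgroup G)
    (hQ : Cfsg.IsExtraspecial 2 ↥Q) (t : G) (ht : orderOf t = 2) (htN : t ∈ Subgroup.normalizer (Q : Set G))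
    (hi : (Subgroup.centralizer ({t} : Set G) ⊓ Q).relIndex Q ≤ 2) :
    t ∈ Q ⊔ Subgroup.centralizer (Q : Set G) := by
  classical
  obtain ⟨z, hz, -⟩ := Cfsg.Agent.Lib.LargeExtra.exists_ES hQ
  have htt : t * t = 1 := by
    rw [← sq, ← ht]
    exact pow_orderOf_eq_one t
  have hne : (Subgroup.centralizer ({t} : Set G) ⊓ Q).relIndex Q ≠ 0 := by
    show ((Subgroup.centralizer ({t} : Set G) ⊓ Q).subgroupOf Q).index ≠ 0
    exact Subgroup.index_ne_zero_of_finite
  have hcases : (Subgroup.centralizer ({t} : Set G) ⊓ Q).relIndex Q = 1 ∨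
      (Subgroup.centralizer ({t} : Set G) ⊓ Q).relIndex Q = 2 := by omega
  rcases hcases with h1 | h2
  · apply Subgroup.mem_sup_right
    rw [Subgroup.mem_centralizer_iff]
    intro b hb
    have := Subgroup.relIndex_eq_one.mp h1 hb
    have h3 : b ∈ Subgroup.centralizer ({t} : Set G) := this.1
    rw [Subgroup.mem_centralizer_singleton_iff] at h3
    exact h3
  · exact Cfsg.Agent.Lib.ExtraHyper.mem_sup_centralizer hz htt htN h2

end Cfsg.Agent.S1756
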