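import Cfsg.Statements.S1757
-- import your own Cfsg.Agent.* helpers here

set_option autoImplicit false
open Cfsg

namespace Cfsg.Agent.S1757

/-- Let p be a prime and A, B p-subgroups of the finite group G, each of which meets every conjugate of itself other than itself trivially. Suppose the order of A is at most that of B, A and B intersect trivially, and B normalizes A. Then A and B commute elementwise. -/
theorem result {G : Type*} [Group G] [Finite G] (p : ℕ) [Fact p.Prime] (A B : Subgroup G)
    (hA : IsPGroup p ↥A) (hB : IsPGroup p ↥B)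
    (hAti : ∀ g : G, A.map (MulAut.conj g).toMonoidHom = A ∨ A.map (MulAut.conj g).toMonoidHom ⊓ A = ⊥)
    (hBti : ∀ g : G, B.map (MulAut.conj g).toMonoidHom = B ∨ B.map (MulAut.conj g).toMonoidHom ⊓ B = ⊥)
    (hle : Nat.card ↥A ≤ Nat.card ↥B) (hAB : A ⊓ B = ⊥) (hN : B ≤ Subgroup.normalizer (A : Set G)) : ⁅A, B⁆ = ⊥ := by
  classical
  -- every element of A normalizes B
  have hAB' : ∀ a ∈ A, B.map (MulAut.conj a).toMonoidHom = B := by
    intro a ha
    by_contra hne
    have hinf := (hBti a).resolve_left hne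
    -- the orbit map b ↦ b a b⁻¹ from B into A \ {1} is injective
    have hinj : Function.Injective (fun b : B => (⟨(b : G) * a * (b : G)⁻¹, by
        have := (Subgroup.mem_normalizer_iff.1 (hN b.2) a).1 ha
        exact this⟩ : A)) := by
      intro b c hbc
      have h1 : (b : G) * a * (b : G)⁻¹ = (c : G) * a * (c : G)⁻¹ := congrArg Subtype.val hbc
      -- d = c⁻¹ b commutes with a
      have hd : (c : G)⁻¹ * b * a * ((c : G)⁻¹ * b)⁻¹ = a := by
        calc (c : G)⁻¹ * b * a * ((c : G)⁻¹ * b)⁻¹ = (c : G)⁻¹ * ((b : G) * a * (b : G)⁻¹) * c := by group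
          _ = (c : G)⁻¹ * ((c : G) * a * (c : G)⁻¹) * c := by rw [h1]
          _ = a := by group
      set d : G := (c : G)⁻¹ * b with hd'
      have hdB : d ∈ B := B.mul_mem (B.inv_mem c.2) b.2
      have hcomm : a * d * a⁻¹ = d := by
        have : d * a * d⁻¹ = a := hd
        calc a * d * a⁻¹ = (d * a * d⁻¹) * d * a⁻¹ := by rw [this]
          _ = d := by group
      have hmem : d ∈ B.map (MulAut.conj a).toMonoidHom ⊓ B := by
        refine ⟨⟨d, hdB, ?_⟩, hdB⟩
        simpa using hcomm
      rw [hinf, Subgroup.mem_bot] at hmem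
      have : (b : G) = c := by
        have h2 : (c : G)⁻¹ * b = 1 := hmem
        exact (inv_mul_eq_one.1 h2).symm
      exact Subtype.ext this
    -- the image avoids 1
    have ha1 : a ≠ 1 := by
      rintro rfl
      apply hne
      ext x
      simp
    have hnot : ∀ b : B, (⟨(b : G) * a * (b : G)⁻¹, by
        have := (Subgroup.mem_normalizer_iff.1 (hN b.2) a).1 ha
        exact this⟩ : A) ≠ 1 := by
      intro b hb
      have h1 : (b : G) * a * (b : G)⁻¹ = 1 := congrArg Subtype.val hb
      apply ha1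
      have : a = (b : G)⁻¹ * ((b : G) * a * (b : G)⁻¹) * b := by group
      rw [this, h1]; group
    have hnotsurj : ¬ Function.Surjective (fun b : B => (⟨(b : G) * a * (b : G)⁻¹, by
        have := (Subgroup.mem_normalizer_iff.1 (hN b.2) a).1 ha
        exact this⟩ : A)) := by
      intro hs
      obtain ⟨b, hb⟩ := hs 1
      exact hnot b hb
    have hlt : Nat.card B < Nat.card A := by
      have := Nat.card_le_card_of_injective _ hinj
      rcases this.lt_or_eq with h | h
      · exact h
      · exact absurd ((Nat.bijective_iff_injective_and_card _).2 ⟨hinj, h⟩).2 hnotsurj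
    omega
  -- commutators lie in A ⊓ B
  rw [Subgroup.commutator_eq_bot_iff_le_centralizer]
  intro a ha
  rw [Subgroup.mem_centralizer_iff]
  intro b hb
  have h1 : a * b * a⁻¹ ∈ B := by
    have : a * b * a⁻¹ ∈ B.map (MulAut.conj a).toMonoidHom := ⟨b, hb, by simp⟩
    rwa [hAB' a ha] at this
  have h2 : b * a * b⁻¹ ∈ A := (Subgroup.mem_normalizer_iff.1 (hN hb) a).1 ha
  have hcomm : a * b * a⁻¹ * b⁻¹ ∈ A ⊓ B := by
    refine ⟨?_, B.mul_mem h1 (B.inv_mem hb)⟩
    have : a * b * a⁻¹ * b⁻¹ = a * (b * a⁻¹ * b⁻¹) := by group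
    rw [this]
    refine A.mul_mem ha ?_
    have h3 : b * a⁻¹ * b⁻¹ = (b * a * b⁻¹)⁻¹ := by group
    rw [h3]; exact A.inv_mem h2
  rw [hAB, Subgroup.mem_bot] at hcomm
  have := mul_inv_eq_one.1 hcomm
  have h4 : a * b = b * a := by
    have h5 := mul_inv_eq_iff_eq_mul.1 this
    exact h5
  exact h4.symm

end Cfsg.Agent.S1757
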