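import Cfsg.Statements.S1780
-- import your own Cfsg.Agent.* helpers here

set_option autoImplicit false
open Cfsg

namespace Cfsg.Agent.S1780

/-- Let A be a finite abelian 2-group and t an automorphism of A whose order is a power of 2. If every element of A fixed by t² is fixed by t, then t fixes every element of A. -/
theorem result {A : Type*} [CommGroup A] [Finite A]
    (hA : IsPGroup 2 A) (t : MulAut A) (ht : ∃ k : ℕ, orderOf t = 2 ^ k) (hC : ∀ a : A, t (t a) = a → t a = a) :
    ∀ a : A, t a = a := by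
  classical
  by_contra hne
  push Not at hne
  obtain ⟨a₀, ha₀⟩ := hne
  let C₀ : Subgroup A :=
    { carrier := {a | t a = a}
      mul_mem' := by
        intro a b ha hb
        simp only [Set.mem_setOf_eq] at *
        rw [map_mul, ha, hb]
      one_mem' := by simp
      inv_mem' := by
        intro a ha
        simp only [Set.mem_setOf_eq] at *
        rw [map_inv, ha] }
  have hmem : ∀ a, a ∈ C₀ ↔ t a = a := fun a => Iff.rfl
  have hmap : C₀ ≤ C₀.comap t.toMonoidHom := by
    intro a ha
    rw [Subgroup.mem_comap]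
    show t a ∈ C₀
    rw [(hmem a).1 ha]; exact ha
  let T : A ⧸ C₀ →* A ⧸ C₀ := QuotientGroup.map C₀ C₀ t.toMonoidHom hmap
  have hT : ∀ a : A, T (a : A ⧸ C₀) = ((t a : A) : A ⧸ C₀) := fun a => rfl
  let f : Function.End (A ⧸ C₀) := fun x => T x
  have hfpow : ∀ (n : ℕ) (a : A), (f ^ n) (a : A ⧸ C₀) = (((t ^ n) a : A) : A ⧸ C₀) := by
    intro n a
    induction n with
    | zero => rfl
    | succ n ih =>
      rw [pow_succ', pow_succ']
      show f ((f ^ n) (a : A ⧸ C₀)) = _
      rw [ih]
      rfl
  obtain ⟨k, hk⟩ := ht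
  have ht1 : t ^ (2 ^ k) = 1 := by rw [← hk]; exact pow_orderOf_eq_one t
  haveI : Fact (Nat.Prime 2) := ⟨Nat.prime_two⟩
  have hf : f ^ 2 ^ k = 1 := by
    funext x
    induction x using QuotientGroup.induction_on with
    | H a =>
      rw [hfpow, ht1]
      rfl
  haveI : Fintype (A ⧸ C₀) := Fintype.ofFinite _
  have hmod := Equiv.Perm.card_fixedPoints_modEq (α := A ⧸ C₀) hf
  -- the quotient has even order
  have hne1 : ((a₀ : A) : A ⧸ C₀) ≠ 1 := by
    intro h
    rw [QuotientGroup.eq_one_iff] at h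
    exact ha₀ h
  have hq : IsPGroup 2 (A ⧸ C₀) := hA.to_quotient C₀
  have heven : 2 ∣ Fintype.card (A ⧸ C₀) := by
    obtain ⟨n, hn⟩ := IsPGroup.iff_card.1 hq
    rw [← Nat.card_eq_fintype_card, hn]
    rcases n with _ | n
    · exfalso
      rw [pow_zero] at hn
      have : Subsingleton (A ⧸ C₀) := (Nat.card_eq_one_iff_unique.1 hn).1
      exact hne1 (Subsingleton.elim _ _)
    · exact dvd_pow_self 2 (Nat.succ_ne_zero n)
  have hfix2 : 2 ∣ Nat.card (Function.fixedPoints f) := by
    have := (Nat.ModEq.dvd_iff hmod (dvd_refl 2)).1 heven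
    rw [Nat.card_eq_fintype_card]
    convert this
  have hfix1 : (1 : A ⧸ C₀) ∈ Function.fixedPoints f := by
    exact map_one T
  have hcard : 1 < Nat.card (Function.fixedPoints f) := by
    have : Nonempty (Function.fixedPoints f) := ⟨⟨1, hfix1⟩⟩
    have hpos : 0 < Nat.card (Function.fixedPoints f) := Nat.card_pos
    obtain ⟨c, hc⟩ := hfix2
    omega
  have hnt : Nontrivial (Function.fixedPoints f) := Finite.one_lt_card_iff_nontrivial.1 hcard
  obtain ⟨y, hy⟩ := exists_ne (⟨1, hfix1⟩ : Function.fixedPoints f)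
  obtain ⟨y, hyfix⟩ := y
  have hy1 : y ≠ 1 := fun h => hy (Subtype.ext h)
  induction y using QuotientGroup.induction_on with
  | H b =>
    have hb : b ∉ C₀ := by
      intro h
      exact hy1 ((QuotientGroup.eq_one_iff b).2 h)
    have hfixb : ((t b : A) : A ⧸ C₀) = (b : A ⧸ C₀) := hyfix
    have hv : (t b)⁻¹ * b ∈ C₀ := QuotientGroup.eq.1 hfixb
    set v : A := b * (t b)⁻¹ with hvdef
    have hvC : t v = v := by
      have : v = (t b)⁻¹ * b := mul_comm _ _
      rw [this]; exact hv
    have htb : t b = b * v⁻¹ := by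
      rw [hvdef]; simp
    have hv1 : v ≠ 1 := by
      intro h
      apply hb
      show t b = b
      rw [htb, h]; simp
    obtain ⟨m, hm⟩ := IsPGroup.iff_orderOf.1 hA v
    have hm0 : m ≠ 0 := by
      rintro rfl
      rw [pow_zero, orderOf_eq_one_iff] at hm
      exact hv1 hm
    obtain ⟨m', rfl⟩ := Nat.exists_eq_succ_of_ne_zero hm0
    set w : A := v ^ (2 ^ m') with hw
    have hw1 : w ≠ 1 := by
      apply pow_ne_one_of_lt_orderOf (by positivity)
      rw [hm]
      exact Nat.pow_lt_pow_right (by norm_num) (Nat.lt_succ_self _)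
    have hw2 : w * w = 1 := by
      rw [hw, ← pow_add, ← two_mul, ← pow_succ', ← hm]
      exact pow_orderOf_eq_one v
    have htw : t w = w := by rw [hw, map_pow, hvC]
    set b' : A := b ^ (2 ^ m') with hb'
    have htb' : t b' = b' * w⁻¹ := by
      rw [hb', map_pow, htb, mul_pow, inv_pow]
    have ht2 : t (t b') = b' := by
      rw [htb', map_mul, htb', map_inv, htw, mul_assoc, ← mul_inv_rev]
      have : (w * w)⁻¹ = 1 := by rw [hw2]; simp
      rw [this, mul_one]
    have h3 := hC b' ht2
    rw [htb'] at h3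
    have : w⁻¹ = 1 := by simpa using h3
    exact hw1 (inv_eq_one.1 this)

end Cfsg.Agent.S1780
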