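import Cfsg.Statements.S1781
import Cfsg.Agent.S1780
import Cfsg.Agent.S1757
-- import your own Cfsg.Agent.* helpers here

set_option autoImplicit false
open Cfsg

namespace Cfsg.Agent.S1781

/-- Let A be an abelian 2-subgroup of the finite group G such that every conjugate of A equals A or meets A trivially, and let g ∈ G with g A g⁻¹ ≠ A. Then either the subgroup of those elements of A that normalize g A g⁻¹ is an elementary abelian 2-group, or A and g A g⁻¹ commute elementwise. -/
theorem result {G : Type*} [Group G] [Finite G] (A : Subgroup G)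
    (hA2 : IsPGroup 2 ↥A) (hAa : IsMulCommutative ↥A)
    (hti : ∀ h : G, A.map (MulAut.conj h).toMonoidHom = A ∨ A.map (MulAut.conj h).toMonoidHom ⊓ A = ⊥)
    (g : G) (hg : A.map (MulAut.conj g).toMonoidHom ≠ A) :
    Cfsg.IsElementaryAbelian 2 (A ⊓ Subgroup.normalizer ((A.map (MulAut.conj g).toMonoidHom : Subgroup G) : Set G)) ∨
      ⁅A, A.map (MulAut.conj g).toMonoidHom⁆ = ⊥ := by
  classical
  set D : Subgroup G := A.map (MulAut.conj g).toMonoidHom with hD
  have hAD : D ⊓ A = ⊥ := (hti g).resolve_left hg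
  have hAD' : A ⊓ D = ⊥ := by rw [inf_comm]; exact hAD
  by_cases h : ∀ a ∈ A ⊓ Subgroup.normalizer ((D : Subgroup G) : Set G), a ^ 2 = 1
  · left
    refine ⟨?_, h⟩
    constructor
    constructor
    rintro ⟨x, hx⟩ ⟨y, hy⟩
    have := hAa.is_comm.comm ⟨x, hx.1⟩ ⟨y, hy.1⟩
    have h2 : x * y = y * x := congrArg Subtype.val this
    exact Subtype.ext h2
  · right
    push Not at h
    obtain ⟨a, ⟨haA, haN⟩, ha2⟩ := h
    have ha1 : a ≠ 1 := by rintro rfl; simp at ha2
    -- D is an abelian 2-group
    have hDa : IsMulCommutative ↥D := by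
      constructor
      constructor
      rintro ⟨_, x, hx, rfl⟩ ⟨_, y, hy, rfl⟩
      have := hAa.is_comm.comm ⟨x, hx⟩ ⟨y, hy⟩
      have h2 : x * y = y * x := congrArg Subtype.val this
      apply Subtype.ext
      show (MulAut.conj g).toMonoidHom x * (MulAut.conj g).toMonoidHom y = (MulAut.conj g).toMonoidHom y * (MulAut.conj g).toMonoidHom x
      rw [← map_mul, ← map_mul, h2]
    have hD2 : IsPGroup 2 ↥D := by
      have := hA2.map (MulAut.conj g).toMonoidHom
      exact this
    let _ : CommGroup ↥D := { (inferInstance : Group ↥D) with mul_comm := fun x y => hDa.is_comm.comm x y }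
    -- the automorphism of D induced by a
    let t : MulAut ↥D := D.normalizerMonoidHom ⟨a, haN⟩
    have ht : ∀ d : ↥D, ((t d : ↥D) : G) = a * d * a⁻¹ := fun d => rfl
    have hord : ∃ k : ℕ, orderOf t = 2 ^ k := by
      obtain ⟨k, hk⟩ := IsPGroup.iff_orderOf.1 hA2 ⟨a, haA⟩
      have h1 : orderOf (⟨a, haN⟩ : Subgroup.normalizer ((D : Subgroup G) : Set G)) = orderOf a := by
        simp
      have h2 : orderOf (⟨a, haA⟩ : A) = orderOf a := by simp
      have h3 : orderOf t ∣ 2 ^ k := by
        rw [← hk, h2, ← h1]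
        exact orderOf_map_dvd _ _
      obtain ⟨j, _, hj⟩ := (Nat.dvd_prime_pow Nat.prime_two).1 h3
      exact ⟨j, hj⟩
    have hC : ∀ d : ↥D, t (t d) = d → t d = d := by
      intro d hd
      have hd' : a * (a * d * a⁻¹) * a⁻¹ = d := by
        have := congrArg Subtype.val hd
        exact this
      have hcomm : (d : G) * a ^ 2 * (d : G)⁻¹ = a ^ 2 := by
        have h1 : a ^ 2 * d * (a ^ 2)⁻¹ = d := by
          rw [pow_two]
          calc a * a * d * (a * a)⁻¹ = a * (a * d * a⁻¹) * a⁻¹ := by group
            _ = d := hd'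
        calc (d : G) * a ^ 2 * (d : G)⁻¹ = (a ^ 2 * d * (a ^ 2)⁻¹) * a ^ 2 * (d : G)⁻¹ := by rw [h1]
          _ = a ^ 2 := by group
      have hmem : a ^ 2 ∈ A.map (MulAut.conj (d : G)).toMonoidHom ⊓ A := by
        refine ⟨⟨a ^ 2, A.pow_mem haA 2, ?_⟩, A.pow_mem haA 2⟩
        simpa using hcomm
      have hdN : A.map (MulAut.conj (d : G)).toMonoidHom = A := by
        refine (hti d).resolve_right ?_
        intro hbot
        rw [hbot, Subgroup.mem_bot] at hmem
        exact ha2 hmem
      have h1 : a * d * a⁻¹ ∈ D := (t d).2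
      have h2 : (d : G) * a⁻¹ * (d : G)⁻¹ ∈ A := by
        have : (d : G) * a⁻¹ * (d : G)⁻¹ ∈ A.map (MulAut.conj (d : G)).toMonoidHom :=
          ⟨a⁻¹, A.inv_mem haA, by simp⟩
        rwa [hdN] at this
      have h3 : a * d * a⁻¹ * (d : G)⁻¹ ∈ A ⊓ D := by
        refine ⟨?_, D.mul_mem h1 (D.inv_mem d.2)⟩
        have : a * d * a⁻¹ * (d : G)⁻¹ = a * ((d : G) * a⁻¹ * (d : G)⁻¹) := by group
        rw [this]
        exact A.mul_mem haA h2
      rw [hAD', Subgroup.mem_bot] at h3
      apply Subtype.ext
      exact mul_inv_eq_one.1 h3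
    have hfix : ∀ d : ↥D, t d = d := Cfsg.Agent.S1780.result hD2 t hord hC
    -- so D normalizes A
    have hDN : D ≤ Subgroup.normalizer (A : Set G) := by
      intro x hx
      have hc : x * a * x⁻¹ = a := by
        have h1 : a * x * a⁻¹ = x := congrArg Subtype.val (hfix ⟨x, hx⟩)
        calc x * a * x⁻¹ = (a * x * a⁻¹) * a * x⁻¹ := by rw [h1]
          _ = a := by group
      have hmem : a ∈ A.map (MulAut.conj x).toMonoidHom ⊓ A := by
        refine ⟨⟨a, haA, ?_⟩, haA⟩
        simpa using hc
      have hN : A.map (MulAut.conj x).toMonoidHom = A := by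
        refine (hti x).resolve_right ?_
        intro hbot
        rw [hbot, Subgroup.mem_bot] at hmem
        exact ha1 hmem
      rw [Subgroup.mem_normalizer_iff]
      intro y
      constructor
      · intro hy
        have : x * y * x⁻¹ ∈ A.map (MulAut.conj x).toMonoidHom := ⟨y, hy, by simp⟩
        rwa [hN] at this
      · intro hy
        rw [← hN] at hy
        obtain ⟨z, hz, hzz⟩ := hy
        have : z = y := by
          have h5 : x * z * x⁻¹ = x * y * x⁻¹ := by simpa using hzz
          exact mul_left_cancel (mul_right_cancel h5)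
        rwa [← this]
    -- TI for D
    have hBti : ∀ h : G, D.map (MulAut.conj h).toMonoidHom = D ∨ D.map (MulAut.conj h).toMonoidHom ⊓ D = ⊥ := by
      intro h
      have e : ∀ (H : Subgroup G) (u v : G), (H.map (MulAut.conj u).toMonoidHom).map (MulAut.conj v).toMonoidHom = H.map (MulAut.conj (v * u)).toMonoidHom := by
        intro H u v
        rw [Subgroup.map_map]
        congr 1
        ext z
        simp [mul_assoc]
      rcases hti (g⁻¹ * h * g) with h1 | h1
      · left
        have h2 := congrArg (fun H => H.map (MulAut.conj g).toMonoidHom) h1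
        simp only [e] at h2
        rw [hD, e]
        have : h * g = g * (g⁻¹ * h * g) := by group
        rw [this]
        exact h2
      · right
        rw [eq_bot_iff]
        rintro z ⟨hz1, hz2⟩
        obtain ⟨_, ⟨x, hx, rfl⟩, rfl⟩ := hz1
        obtain ⟨y, hy, hyz⟩ := hz2
        have hyz' : g * y * g⁻¹ = h * (g * x * g⁻¹) * h⁻¹ := by simpa using hyz
        have hy' : y = (g⁻¹ * h * g) * x * (g⁻¹ * h * g)⁻¹ := by
          have e1 : y = g⁻¹ * (g * y * g⁻¹) * g := by group
          rw [e1, hyz']
          simp only [mul_inv_rev, inv_inv, mul_assoc]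
        have hmem : y ∈ A.map (MulAut.conj (g⁻¹ * h * g)).toMonoidHom ⊓ A := by
          refine ⟨⟨x, hx, ?_⟩, hy⟩
          exact hy'.symm
        rw [h1, Subgroup.mem_bot] at hmem
        rw [Subgroup.mem_bot, ← hyz, hmem]
        simp
    have hcard : Nat.card ↥A ≤ Nat.card ↥D := by
      have : Nat.card ↥D = Nat.card ↥A :=
        Nat.card_congr (A.equivMapOfInjective _ (MulEquiv.injective _)).toEquiv.symm
      omega
    exact Cfsg.Agent.S1757.result 2 A D hA2 hD2 hti hBti hcard hAD' hDN

end Cfsg.Agent.S1781
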