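import Cfsg.Statements.S1785
import Mathlib
import Cfsg.Agent.Lib.NormalE
import Cfsg.Agent.Lib.ThompsonBasic

set_option autoImplicit false
open Cfsg

namespace Cfsg.Agent.S1785

open Cfsg

variable {X : Type*} [Group X] [Finite X]

theorem card_le_sq (F : Subgroup X) (hFc : ∀ a ∈ F, ∀ b ∈ F, a * b = b * a) (hFe : ∀ a ∈ F, a * a = 1)
    (t : X) (ht : t * t = 1) (hn : ∀ a ∈ F, t * a * t⁻¹ ∈ F) :
    Nat.card F ≤ Nat.card ↥(F ⊓ Subgroup.centralizer ({t} : Set X)) ^ 2 := by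
  classical
  have htt : t⁻¹ = t := inv_eq_of_mul_eq_one_left ht
  let g : F → F := fun a => ⟨t * a.1 * t⁻¹, hn a.1 a.2⟩
  have hgm : ∀ a b : F, g (a * b) = g a * g b := by
    intro a b
    apply Subtype.ext
    show t * (a.1 * b.1) * t⁻¹ = (t * a.1 * t⁻¹) * (t * b.1 * t⁻¹)
    group
  have hgg : ∀ a : F, g (g a) = a := by
    intro a
    apply Subtype.ext
    show t * (t * a.1 * t⁻¹) * t⁻¹ = a.1
    rw [htt]
    calc t * (t * a.1 * t) * t = (t * t) * a.1 * (t * t) := by simp only [mul_assoc]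
      _ = a.1 := by rw [ht]; simp
  let f : F →* F := MonoidHom.mk' (fun a => a * g a) (by
    intro a b
    rw [hgm]
    apply Subtype.ext
    show a.1 * b.1 * ((g a).1 * (g b).1) = a.1 * (g a).1 * (b.1 * (g b).1)
    have h1 := hFc b.1 b.2 (g a).1 (g a).2
    calc a.1 * b.1 * ((g a).1 * (g b).1) = a.1 * (b.1 * (g a).1) * (g b).1 := by simp only [mul_assoc]
      _ = a.1 * ((g a).1 * b.1) * (g b).1 := by rw [h1]
      _ = _ := by simp only [mul_assoc])
  have hcomm : ∀ a : F, t * a.1 = (g a).1 * t := by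
    intro a
    show t * a.1 = t * a.1 * t⁻¹ * t
    group
  set C := F ⊓ Subgroup.centralizer ({t} : Set X) with hC
  have hkm : f.ker.map F.subtype ≤ C := by
    rintro _ ⟨a, ha, rfl⟩
    refine Subgroup.mem_inf.2 ⟨a.2, Subgroup.mem_centralizer_singleton_iff.2 ?_⟩
    have h1 : a * g a = 1 := ha
    have h2 : (a.1) * (g a).1 = 1 := congrArg Subtype.val h1
    have h3 := hFe a.1 a.2
    have h4 : (g a).1 = a.1 := by
      calc (g a).1 = a.1 * (a.1 * (g a).1) := by rw [← mul_assoc, h3, one_mul]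
        _ = a.1 := by rw [h2, mul_one]
    show a.1 * t = t * a.1
    rw [hcomm a, h4]
  have hrm : f.range.map F.subtype ≤ C := by
    rintro _ ⟨_, ⟨a, rfl⟩, rfl⟩
    refine Subgroup.mem_inf.2 ⟨(a * g a).2, Subgroup.mem_centralizer_singleton_iff.2 ?_⟩
    show (a.1 * (g a).1) * t = t * (a.1 * (g a).1)
    have h5 := hcomm a
    have h6 := hcomm (g a)
    rw [hgg] at h6
    have h7 := hFc a.1 a.2 (g a).1 (g a).2
    calc a.1 * (g a).1 * t = (g a).1 * a.1 * t := by rw [h7]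
      _ = (g a).1 * (t * (g a).1) := by rw [h6, mul_assoc]
      _ = ((g a).1 * t) * (g a).1 := (mul_assoc _ _ _).symm
      _ = t * a.1 * (g a).1 := by rw [h5]
      _ = t * (a.1 * (g a).1) := mul_assoc _ _ _
  have h1 := Subgroup.card_mul_index f.ker
  rw [Subgroup.index_ker] at h1
  have h2 : Nat.card f.ker ≤ Nat.card C := by
    have e := Subgroup.card_map_of_injective (K := f.ker) (f := F.subtype) (Subgroup.subtype_injective F)
    rw [← e]
    exact Subgroup.card_le_of_le hkm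
  have h3 : Nat.card f.range ≤ Nat.card C := by
    have e := Subgroup.card_map_of_injective (K := f.range) (f := F.subtype) (Subgroup.subtype_injective F)
    rw [← e]
    exact Subgroup.card_le_of_le hrm
  rw [← h1, pow_two]
  exact Nat.mul_le_mul h2 h3

theorem card_le_pow (hX : IsPGroup 2 X) (E : Subgroup X) [hEn : E.Normal]
    (hEc : ∀ a ∈ E, ∀ b ∈ E, a * b = b * a) (hEe : ∀ a ∈ E, a * a = 1) :
    ∀ (k n : ℕ) (T : Subgroup X), (∀ a ∈ T, ∀ b ∈ T, a * b = b * a) → (∀ a ∈ T, a * a = 1) →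
      Nat.card ↥(T ⊓ E) = 2 ^ n → Nat.card T = 2 ^ (n + k) →
      Nat.card E ≤ Nat.card ↥(E ⊓ Subgroup.centralizer (T : Set X)) ^ (2 ^ k) := by
  classical
  intro k
  induction k with
  | zero =>
    intro n T hTc hTe h1 h2
    have h3 : T ⊓ E = T := Subgroup.eq_of_le_of_card_ge inf_le_left (by rw [h1, h2]; rfl)
    have h4 : T ≤ E := inf_eq_left.1 h3
    have h5 : E ⊓ Subgroup.centralizer (T : Set X) = E := by
      rw [inf_eq_left]
      intro a ha
      rw [Subgroup.mem_centralizer_iff]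
      intro b hb
      exact hEc b (h4 hb) a ha
    rw [h5]
    simp
  | succ k ih =>
    intro n T hTc hTe h1 h2
    set D : Subgroup T := (T ⊓ E).subgroupOf T with hD
    have hDc : Nat.card D = 2 ^ n := by
      rw [hD, Cfsg.Agent.Lib.ThompsonBasic.card_subgroupOf_of_le inf_le_left, h1]
    have hdvd : 2 ^ (n + k) ∣ Nat.card T := by
      rw [h2]
      exact pow_dvd_pow 2 (by omega)
    haveI : Fact (Nat.Prime 2) := ⟨Nat.prime_two⟩
    obtain ⟨K, hKc, hDK⟩ := Sylow.exists_subgroup_card_pow_prime_le (G := T) 2 hdvd D hDc (by omega)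
    have hKi : K.index = 2 := by
      have h3 := Subgroup.card_mul_index K
      rw [hKc, h2] at h3
      have h4 : 2 ^ (n + (k + 1)) = 2 ^ (n + k) * 2 := by rw [← add_assoc, pow_succ]
      rw [h4] at h3
      exact Nat.eq_of_mul_eq_mul_left (by positivity) h3
    have hKne : K ≠ ⊤ := by
      rintro rfl
      rw [Subgroup.index_top] at hKi
      omega
    obtain ⟨⟨t, htT⟩, htK⟩ : ∃ t : T, t ∉ K := by
      by_contra hno
      push Not at hno
      exact hKne (eq_top_iff.2 (fun a _ => hno a))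
    set T₀ : Subgroup X := K.map T.subtype with hT₀
    have hT₀T : T₀ ≤ T := Subgroup.map_subtype_le K
    have hT₀c : Nat.card T₀ = 2 ^ (n + k) := by
      rw [hT₀, Subgroup.card_map_of_injective (K := K) (f := T.subtype) (Subgroup.subtype_injective T), hKc]
    have hinf : T₀ ⊓ E = T ⊓ E := by
      apply le_antisymm
      · exact inf_le_inf_right _ hT₀T
      · rintro a ⟨haT, haE⟩
        refine ⟨⟨⟨a, haT⟩, hDK ⟨haT, haE⟩, rfl⟩, haE⟩
    have hIH := ih n T₀ (fun a ha b hb => hTc a (hT₀T ha) b (hT₀T hb)) (fun a ha => hTe a (hT₀T ha))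
      (by rw [hinf, h1]) hT₀c
    set F : Subgroup X := E ⊓ Subgroup.centralizer (T₀ : Set X) with hF
    have hFn : ∀ a ∈ F, t * a * t⁻¹ ∈ F := by
      rintro a ⟨haE, haC⟩
      refine Subgroup.mem_inf.2 ⟨hEn.conj_mem a haE t, ?_⟩
      have haC' := Subgroup.mem_centralizer_iff.1 haC
      rw [Subgroup.mem_centralizer_iff]
      intro s hs
      have h5 : s * t = t * s := hTc s (hT₀T hs) t htT
      have h6 := haC' s hs
      have h7 : s * t⁻¹ = t⁻¹ * s := by
        calc s * t⁻¹ = t⁻¹ * (t * s) * t⁻¹ := by group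
          _ = t⁻¹ * (s * t) * t⁻¹ := by rw [h5]
          _ = t⁻¹ * s := by group
      calc s * (t * a * t⁻¹) = t * (s * a) * t⁻¹ := by rw [← mul_assoc s, ← mul_assoc s, h5]; simp only [mul_assoc]
        _ = t * (a * s) * t⁻¹ := by rw [h6]
        _ = t * a * (s * t⁻¹) := by group
        _ = t * a * (t⁻¹ * s) := by rw [h7]
        _ = t * a * t⁻¹ * s := by group
    have hsq := card_le_sq F (fun a ha b hb => hEc a ha.1 b hb.1) (fun a ha => hEe a ha.1) t (hTe t htT) hFn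
    have hle : F ⊓ Subgroup.centralizer ({t} : Set X) ≤ E ⊓ Subgroup.centralizer (T : Set X) := by
      rintro z ⟨⟨hzE, hzC⟩, hzt⟩
      have hzC' := Subgroup.mem_centralizer_iff.1 hzC
      have hzt' : z * t = t * z := Subgroup.mem_centralizer_singleton_iff.1 hzt
      refine Subgroup.mem_inf.2 ⟨hzE, ?_⟩
      rw [Subgroup.mem_centralizer_iff]
      intro s hs
      by_cases hsK : (⟨s, hs⟩ : T) ∈ K
      · exact hzC' s ⟨_, hsK, rfl⟩
      · have h8 : (⟨s, hs⟩ : T) * ⟨t, htT⟩ ∈ K := by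
          rw [Subgroup.mul_mem_iff_of_index_two hKi]
          exact iff_of_false hsK htK
        have h9 := hzC' _ ⟨_, h8, rfl⟩
        have h10 : (s * t) * z = z * (s * t) := h9
        have h11 : s * z * t = z * s * t := by
          calc s * z * t = s * (t * z) := by rw [mul_assoc, hzt']
            _ = (s * t) * z := by rw [mul_assoc]
            _ = z * (s * t) := h10
            _ = z * s * t := by rw [mul_assoc]
        exact mul_right_cancel h11
    have hle2 : Nat.card ↥(F ⊓ Subgroup.centralizer ({t} : Set X)) ≤ Nat.card ↥(E ⊓ Subgroup.centralizer (T : Set X)) :=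
      Subgroup.card_le_of_le hle
    calc Nat.card E ≤ Nat.card F ^ (2 ^ k) := hIH
      _ ≤ (Nat.card ↥(E ⊓ Subgroup.centralizer (T : Set X)) ^ 2) ^ (2 ^ k) :=
          Nat.pow_le_pow_left (hsq.trans (Nat.pow_le_pow_left hle2 2)) _
      _ = Nat.card ↥(E ⊓ Subgroup.centralizer (T : Set X)) ^ (2 ^ (k + 1)) := by
          rw [← pow_mul, pow_succ' 2 k]

theorem exists_z (hX : IsPGroup 2 X) (E : Subgroup X) [hEn : E.Normal]
    (hEc : ∀ a ∈ E, ∀ b ∈ E, a * b = b * a) (hEe : ∀ a ∈ E, a * a = 1) (hE32 : 32 ≤ Nat.card E)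
    (T : Subgroup X) (hTc : ∀ a ∈ T, ∀ b ∈ T, a * b = b * a) (hTe : ∀ a ∈ T, a * a = 1)
    (j : ℕ) (hj : j ≤ 3) (hT : Nat.card T = 2 ^ j) :
    ∃ z ∈ E, z ∉ T ∧ ∀ a ∈ T, a * z = z * a := by
  classical
  have h1 : Nat.card ↥(T ⊓ E) ∣ 2 ^ j := by
    rw [← hT]
    exact Subgroup.card_dvd_of_le inf_le_left
  obtain ⟨n, hn, hn2⟩ := (Nat.dvd_prime_pow Nat.prime_two).1 h1
  have h2 := card_le_pow hX E hEc hEe (j - n) n T hTc hTe hn2 (by rw [hT]; congr 1; omega)
  by_contra hno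
  push Not at hno
  have hle : E ⊓ Subgroup.centralizer (T : Set X) ≤ T ⊓ E := by
    rintro z ⟨hzE, hzC⟩
    refine ⟨?_, hzE⟩
    by_contra hzT
    obtain ⟨a, ha, hne⟩ := hno z hzE hzT
    exact hne (Subgroup.mem_centralizer_iff.1 hzC a ha)
  have h3 := Subgroup.card_le_of_le hle
  rw [hn2] at h3
  have h4 : Nat.card E ≤ (2 ^ n) ^ (2 ^ (j - n)) := h2.trans (Nat.pow_le_pow_left h3 _)
  have h5 : (2 ^ n) ^ (2 ^ (j - n)) ≤ 16 := by
    interval_cases j <;> interval_cases n <;> norm_num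
  omega

theorem sup_elem (V : Subgroup X) (hVc : ∀ a ∈ V, ∀ b ∈ V, a * b = b * a) (hVe : ∀ a ∈ V, a * a = 1)
    (z : X) (hz : z * z = 1) (hzV : z ∉ V) (hzc : ∀ a ∈ V, a * z = z * a) :
    (∀ a ∈ V ⊔ Subgroup.zpowers z, ∀ b ∈ V ⊔ Subgroup.zpowers z, a * b = b * a) ∧
    (∀ a ∈ V ⊔ Subgroup.zpowers z, a * a = 1) ∧
    Nat.card ↥(V ⊔ Subgroup.zpowers z) = 2 * Nat.card V := by
  classical
  have hz1 : z ≠ 1 := by
    rintro rfl
    exact hzV V.one_mem
  have hzo : orderOf z = 2 := orderOf_eq_prime (by rw [pow_two]; exact hz) hz1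
  have hzcomm : ∀ a ∈ Subgroup.zpowers z, ∀ b ∈ Subgroup.zpowers z, a * b = b * a := by
    intro a ha b hb
    obtain ⟨i, rfl⟩ := Subgroup.mem_zpowers_iff.1 ha
    obtain ⟨j, rfl⟩ := Subgroup.mem_zpowers_iff.1 hb
    exact ((Commute.refl z).zpow_zpow i j).eq
  have hAB : ∀ a ∈ V, ∀ b ∈ Subgroup.zpowers z, a * b = b * a := by
    intro a ha b hb
    obtain ⟨i, rfl⟩ := Subgroup.mem_zpowers_iff.1 hb
    have : Commute a z := hzc a ha
    exact (this.zpow_right i).eq
  have hze : ∀ a ∈ Subgroup.zpowers z, a ^ 2 = 1 := by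
    intro a ha
    obtain ⟨i, rfl⟩ := Subgroup.mem_zpowers_iff.1 ha
    rw [← zpow_natCast, ← zpow_mul, mul_comm, zpow_mul, zpow_natCast, pow_two, hz, one_zpow]
  have hVe2 : ∀ a ∈ V, a ^ 2 = 1 := fun a ha => by rw [pow_two]; exact hVe a ha
  obtain ⟨h1, h2⟩ := Cfsg.Agent.Lib.NormalE.sup_comm_exp (p := 2) hVc hzcomm hAB hVe2 hze
  refine ⟨h1, fun a ha => ?_, ?_⟩
  · rw [← pow_two]; exact h2 a ha
  · have hnorm : Subgroup.zpowers z ≤ Subgroup.normalizer (V : Set X) := by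
      rw [Subgroup.zpowers_le]
      apply Subgroup.mem_normalizer_fintype (S := (V : Set X))
      intro n hn
      have e : z * n * z⁻¹ = n := by rw [← hzc n hn]; group
      rw [e]
      exact hn
    have h3 := Cfsg.Agent.Lib.ThompsonBasic.card_sup_mul_card_inf V (Subgroup.zpowers z) hnorm
    have h4 : V ⊓ Subgroup.zpowers z = ⊥ := by
      rw [Subgroup.eq_bot_iff_forall]
      rintro a ⟨haV, haz⟩
      obtain ⟨i, rfl⟩ := Subgroup.mem_zpowers_iff.1 haz
      rcases Int.even_or_odd' i with ⟨c, rfl | rfl⟩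
      · rw [zpow_mul, zpow_ofNat, pow_two, hz, one_zpow]
      · exfalso
        apply hzV
        rw [zpow_add, zpow_mul, zpow_ofNat, pow_two, hz, one_zpow, one_mul, zpow_one] at haV
        exact haV
    rw [h4, Nat.card_zpowers, hzo] at h3
    simp at h3
    rw [h3, mul_comm]

abbrev Good (A : Subgroup X) : Prop := Cfsg.IsElementaryAbelian 2 A ∧ Nat.card ↥A = 8

theorem good_comm {A : Subgroup X} (hA : Good A) : ∀ a ∈ A, ∀ b ∈ A, a * b = b * a := by
  intro a ha b hb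
  have := hA.1.1.is_comm.comm (⟨a, ha⟩ : A) ⟨b, hb⟩
  exact congrArg Subtype.val this

theorem good_exp {A : Subgroup X} (hA : Good A) : ∀ a ∈ A, a * a = 1 := by
  intro a ha
  rw [← pow_two]
  exact hA.1.2 a ha

theorem step (hX : IsPGroup 2 X) (E : Subgroup X) [hEn : E.Normal]
    (hEc : ∀ a ∈ E, ∀ b ∈ E, a * b = b * a) (hEe : ∀ a ∈ E, a * a = 1) (hE32 : 32 ≤ Nat.card E)
    (A : Subgroup X) (hA : Good A) (hAE : ¬ A ≤ E) :
    ∃ B : Subgroup X, Good B ∧ ⁅A, B⁆ = ⊥ ∧ Nat.card ↥(A ⊓ E) < Nat.card ↥(B ⊓ E) := by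
  classical
  obtain ⟨z, hzE, hzA, hzc⟩ := exists_z hX E hEc hEe hE32 A (good_comm hA) (good_exp hA) 3 le_rfl (by rw [hA.2]; norm_num)
  have hDlt : A ⊓ E < A := lt_of_le_of_ne inf_le_left (fun e => hAE (inf_eq_left.1 e))
  have h1 : Nat.card ↥(A ⊓ E) ∣ 2 ^ 3 := by
    have := Subgroup.card_dvd_of_le (inf_le_left : A ⊓ E ≤ A)
    rw [hA.2] at this
    exact this
  obtain ⟨n, hn, hn2⟩ := (Nat.dvd_prime_pow Nat.prime_two).1 h1
  have h2 : Nat.card ↥(A ⊓ E) < 8 := by
    have := Cfsg.Agent.Lib.NormalE.card_lt_of_lt' hDlt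
    rwa [hA.2] at this
  have hn3 : n ≤ 2 := by
    by_contra hc
    have : n = 3 := by omega
    rw [hn2, this] at h2
    norm_num at h2
  set D : Subgroup A := (A ⊓ E).subgroupOf A with hD
  have hDc : Nat.card D = 2 ^ n := by
    rw [hD, Cfsg.Agent.Lib.ThompsonBasic.card_subgroupOf_of_le inf_le_left, hn2]
  haveI : Fact (Nat.Prime 2) := ⟨Nat.prime_two⟩
  obtain ⟨K, hKc, hDK⟩ := Sylow.exists_subgroup_card_pow_prime_le (G := A) (n := n) (m := 2) 2 (by rw [hA.2]; norm_num) D hDc hn3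
  set V : Subgroup X := K.map A.subtype with hV
  have hVA : V ≤ A := Subgroup.map_subtype_le K
  have hVc : Nat.card V = 4 := by
    rw [hV, Subgroup.card_map_of_injective (K := K) (f := A.subtype) (Subgroup.subtype_injective A), hKc]
    norm_num
  have hzV : z ∉ V := fun h => hzA (hVA h)
  obtain ⟨h3, h4, h5⟩ := sup_elem V (fun a ha b hb => good_comm hA a (hVA ha) b (hVA hb))
    (fun a ha => good_exp hA a (hVA ha)) z (hEe z hzE) hzV (fun a ha => hzc a (hVA ha))
  set B := V ⊔ Subgroup.zpowers z with hB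
  refine ⟨B, ⟨⟨⟨⟨fun a b => Subtype.ext (h3 a.1 a.2 b.1 b.2)⟩⟩, fun a ha => by rw [pow_two]; exact h4 a ha⟩, by rw [h5, hVc]⟩, ?_, ?_⟩
  · rw [Subgroup.commutator_eq_bot_iff_le_centralizer]
    intro a ha
    rw [Subgroup.mem_centralizer_iff]
    intro b hb
    have hle : B ≤ Subgroup.centralizer (({a} : Set X)) := by
      refine sup_le ?_ ?_
      · intro v hv
        exact Subgroup.mem_centralizer_singleton_iff.2 (good_comm hA v (hVA hv) a ha)
      · rw [Subgroup.zpowers_le]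
        exact Subgroup.mem_centralizer_singleton_iff.2 (hzc a ha).symm
    exact Subgroup.mem_centralizer_singleton_iff.1 (hle hb)
  · apply Cfsg.Agent.Lib.NormalE.card_lt_of_lt'
    refine lt_of_le_of_ne ?_ ?_
    · rintro a ⟨haA, haE⟩
      have : a ∈ V := ⟨⟨a, haA⟩, hDK ⟨haA, haE⟩, rfl⟩
      exact ⟨(le_sup_left : V ≤ B) this, haE⟩
    · intro e
      have : z ∈ B ⊓ E := ⟨(le_sup_right : Subgroup.zpowers z ≤ B) (Subgroup.mem_zpowers z), hzE⟩
      rw [← e] at this
      exact hzA this.1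
abbrev Rel (C D : Subgroup X) : Prop :=
  Cfsg.IsElementaryAbelian 2 C ∧ Nat.card ↥C = 8 ∧ Cfsg.IsElementaryAbelian 2 D ∧ Nat.card ↥D = 8 ∧ ⁅C, D⁆ = ⊥

theorem rel_symm (C D : Subgroup X) (h : Rel C D) : Rel D C :=
  ⟨h.2.2.1, h.2.2.2.1, h.1, h.2.1, by rw [Subgroup.commutator_comm]; exact h.2.2.2.2⟩

theorem rel_rev {C D : Subgroup X} (h : Relation.ReflTransGen Rel C D) : Relation.ReflTransGen Rel D C := by
  induction h with
  | refl => exact Relation.ReflTransGen.refl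
  | tail _ hbc ih => exact Relation.ReflTransGen.head (rel_symm _ _ hbc) ih

/-- Let X be a finite 2-group having a normal elementary abelian subgroup of order at least 32. Then (a) for any two elementary abelian subgroups A, B of X of order 8 there is a chain A = A₁, A₂, …, Aₙ = B of elementary abelian subgroups of order 8 in which consecutive members commute elementwise; and (b) every elementary abelian subgroup of X of order 4 is contained in an elementary abelian subgroup of order 8. -/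
theorem result {X : Type*} [Group X] [Finite X]
    (hX : IsPGroup 2 X) (E : Subgroup X) [E.Normal] (hE : Cfsg.IsElementaryAbelian 2 E) (hE32 : 32 ≤ Nat.card ↥E) :
    (∀ A B : Subgroup X, Cfsg.IsElementaryAbelian 2 A → Nat.card ↥A = 8 → Cfsg.IsElementaryAbelian 2 B → Nat.card ↥B = 8 →
        Relation.ReflTransGen
          (fun C D : Subgroup X => Cfsg.IsElementaryAbelian 2 C ∧ Nat.card ↥C = 8 ∧ Cfsg.IsElementaryAbelian 2 D ∧ Nat.card ↥D = 8 ∧ ⁅C, D⁆ = ⊥)
          A B) ∧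
      (∀ V : Subgroup X, Cfsg.IsElementaryAbelian 2 V → Nat.card ↥V = 4 →
        ∃ A : Subgroup X, V ≤ A ∧ Cfsg.IsElementaryAbelian 2 A ∧ Nat.card ↥A = 8) := by
  classical
  have hEc : ∀ a ∈ E, ∀ b ∈ E, a * b = b * a := fun a ha b hb => by
    have := hE.1.is_comm.comm (⟨a, ha⟩ : E) ⟨b, hb⟩
    exact congrArg Subtype.val this
  have hEe : ∀ a ∈ E, a * a = 1 := fun a ha => by
    rw [← pow_two]
    exact hE.2 a ha
  have hchain : ∀ n : ℕ, ∀ A : Subgroup X, Good A → 8 - Nat.card ↥(A ⊓ E) = n →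
      ∃ A' : Subgroup X, Good A' ∧ A' ≤ E ∧ Relation.ReflTransGen Rel A A' := by
    intro n
    induction n using Nat.strong_induction_on with
    | _ n ih =>
      intro A hA hn
      by_cases hAE : A ≤ E
      · exact ⟨A, hA, hAE, Relation.ReflTransGen.refl⟩
      · obtain ⟨B, hB, hAB, hlt⟩ := step hX E hEc hEe hE32 A hA hAE
        have hle : Nat.card ↥(B ⊓ E) ≤ 8 := by
          rw [← hB.2]
          exact Subgroup.card_le_of_le inf_le_left
        obtain ⟨A', h1, h2, h3⟩ := ih (8 - Nat.card ↥(B ⊓ E)) (by omega) B hB rfl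
        exact ⟨A', h1, h2, Relation.ReflTransGen.head ⟨hA.1, hA.2, hB.1, hB.2, hAB⟩ h3⟩
  refine ⟨fun A B hAe hA8 hBe hB8 => ?_, fun V hVe hV4 => ?_⟩
  · obtain ⟨A', h1, h2, h3⟩ := hchain _ A ⟨hAe, hA8⟩ rfl
    obtain ⟨B', h4, h5, h6⟩ := hchain _ B ⟨hBe, hB8⟩ rfl
    have h7 : Rel A' B' := by
      refine ⟨h1.1, h1.2, h4.1, h4.2, ?_⟩
      rw [Subgroup.commutator_eq_bot_iff_le_centralizer]
      intro a ha
      rw [Subgroup.mem_centralizer_iff]
      intro b hb
      exact hEc b (h5 hb) a (h2 ha)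
    exact h3.trans (Relation.ReflTransGen.head h7 (rel_rev h6))
  · have hVc : ∀ a ∈ V, ∀ b ∈ V, a * b = b * a := fun a ha b hb => by
      have := hVe.1.is_comm.comm (⟨a, ha⟩ : V) ⟨b, hb⟩
      exact congrArg Subtype.val this
    have hVe' : ∀ a ∈ V, a * a = 1 := fun a ha => by
      rw [← pow_two]
      exact hVe.2 a ha
    obtain ⟨z, hzE, hzV, hzc⟩ := exists_z hX E hEc hEe hE32 V hVc hVe' 2 (by norm_num) (by rw [hV4]; norm_num)
    obtain ⟨h3, h4, h5⟩ := sup_elem V hVc hVe' z (hEe z hzE) hzV hzc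
    exact ⟨V ⊔ Subgroup.zpowers z, le_sup_left,
      ⟨⟨⟨fun a b => Subtype.ext (h3 a.1 a.2 b.1 b.2)⟩⟩, fun a ha => by rw [pow_two]; exact h4 a ha⟩,
      by rw [h5, hV4]⟩

end Cfsg.Agent.S1785
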