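import Cfsg.Statements.S1850
import Mathlib
import Cfsg.Agent.Lib.CharChain
import Cfsg.Agent.Lib.H2Basic

set_option autoImplicit false
open Cfsg

namespace Cfsg.Agent.S1850

open Subgroup Cfsg Cfsg.Agent.Lib

/-- Let G be a non-abelian finite simple QTKE-group and T a Sylow 2-subgroup of G. If U is a nontrivial 2-subgroup of G with U ∩ Z(T) ≠ 1, then F*(N_G(U)) = O₂(N_G(U)). -/
theorem result {G : Type*} [Group G] [Finite G] [IsSimpleGroup G]
    (hG : ¬ IsMulCommutative G) (hQ : Cfsg.IsQTKE G) (T : Sylow 2 G) (U : Subgroup G)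
    (hU : IsPGroup 2 ↥U) (hZ : U ⊓ ((T : Subgroup G) ⊓ Subgroup.centralizer ((T : Subgroup G) : Set G)) ≠ ⊥) :
    Subgroup.normalizer (U : Set G) ∈ Cfsg.calHe G := by
  classical
  haveI := Fintype.ofFinite G
  set P₀ := U ⊓ ((T : Subgroup G) ⊓ Subgroup.centralizer ((T : Subgroup G) : Set G)) with hP₀
  have hP₀U : P₀ ≤ U := inf_le_left
  have hP₀p : IsPGroup 2 P₀ := hU.to_le hP₀U
  have hTn : (T : Subgroup G) ≤ normalizer (P₀ : Set G) := by
    intro t ht
    apply H2Basic.mem_normalizer_of_forall_comm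
    intro a ha
    exact (Subgroup.mem_centralizer_iff.1 ha.2.2 t ht)
  have h1 := hQ.2.2 _ ⟨P₀, hP₀p, hZ, rfl⟩ ⟨T, hTn⟩
  exact CharChain.genFitting_normalizer_of_le P₀ U hP₀U hU h1

end Cfsg.Agent.S1850
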