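import Cfsg.Statements.S1966
import Cfsg.Agent.Lib.ConjFamily
import Cfsg.Agent.Lib.PCore
-- import your own Cfsg.Agent.* helpers here

set_option autoImplicit false
open Cfsg

namespace Cfsg.Agent.S1966

/-- Let p be a prime, G a finite group with Sylow p-subgroup S and 𝓕 a conjugation family for S in G. Then the members of 𝓕 containing O_p(G) still form a conjugation family for S in G. -/
theorem result {G : Type*} [Group G] [Finite G] {p : ℕ} [Fact p.Prime] (S : Sylow p G) (𝓕 : Set (Subgroup G)) (h : Cfsg.IsConjugationFamily 𝓕 (S : Subgroup G)) : Cfsg.IsConjugationFamily {T : Subgroup G | T ∈ 𝓕 ∧ Cfsg.pCore p G ≤ T} (S : Subgroup G) := by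
  haveI := Cfsg.Agent.Lib.PCore.pCore_normal (p := p) (G := G)
  exact Cfsg.Agent.Lib.ConjFamily.isConjugationFamily_contains_core S 𝓕 h (Cfsg.pCore p G)
    (Cfsg.Agent.Lib.PCore.pCore_le_sylow S)

end Cfsg.Agent.S1966
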