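import Cfsg.Statements.S1968
import Cfsg.Agent.Lib.WeakCl
-- import your own Cfsg.Agent.* helpers here

set_option autoImplicit false
open Cfsg

namespace Cfsg.Agent.S1968

/-- Let p be a prime, G a finite group with Sylow p-subgroup S and W a conjugacy functor for p on G with Z(P) ≤ W(P) for every p-subgroup P. Let A be a subgroup of Z(S) normalized by N_G(W(S)) that is not weakly closed in S with respect to G. Then there is a subgroup T of S, well placed in S with respect to W, such that: A ≤ T; N_G(W(N_S(T))) normalizes A; N_S(T) is a Sylow p-subgroup of N_G(T); A ≤ Z(N_S(T)); and A is not weakly closed in N_S(T) with respect to N_G(T), that is, some N_G(T)-conjugate of A other than A lies in N_S(T). -/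
theorem result {G : Type*} [Group G] [Finite G] {p : ℕ} [Fact p.Prime] (S : Sylow p G) (W : Subgroup G → Subgroup G) (hW : Cfsg.IsConjugacyFunctor p W) (hWZ : ∀ P : Subgroup G, IsPGroup p ↥P → P ⊓ Subgroup.centralizer (P : Set G) ≤ W P) (A : Subgroup G) (hAZ : A ≤ (S : Subgroup G) ⊓ Subgroup.centralizer ((S : Subgroup G) : Set G)) (hAN : Subgroup.normalizer ((W (S : Subgroup G) : Subgroup G) : Set G) ≤ Subgroup.normalizer ((A : Subgroup G) : Set G)) (hnwc : ¬ Cfsg.IsWeaklyClosed A (S : Subgroup G)) : ∃ T : Subgroup G, Cfsg.IsWellPlaced p W (S : Subgroup G) T ∧ A ≤ T ∧ Subgroup.normalizer ((W ((S : Subgroup G) ⊓ Subgroup.normalizer ((T : Subgroup G) : Set G)) : Subgroup G) : Set G) ≤ Subgroup.normalizer ((A : Subgroup G) : Set G) ∧ ¬ p ∣ ((S : Subgroup G) ⊓ Subgroup.normalizer ((T : Subgroup G) : Set G)).relIndex (Subgroup.normalizer ((T : Subgroup G) : Set G)) ∧ A ≤ Subgroup.centralizer (((S : Subgroup G) ⊓ Subgroup.normalizer ((T : Subgroup G) : Set G) : Subgroup G) : Set G) ∧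 ∃ g ∈ Subgroup.normalizer ((T : Subgroup G) : Set G), A.map (MulAut.conj g).toMonoidHom ≤ (S : Subgroup G) ⊓ Subgroup.normalizer ((T : Subgroup G) : Set G) ∧ A.map (MulAut.conj g).toMonoidHom ≠ A := by
  open Cfsg.Agent.Lib.ConjFamily Cfsg.Agent.Lib.WeakCl in
  have hAS : A ≤ (S : Subgroup G) := hAZ.trans inf_le_left
  have hex : ∃ a : G, cj a A ≤ (S : Subgroup G) ∧ a ∉ Subgroup.normalizer ((A : Subgroup G) : Set G) := by
    by_contra hno
    push Not at hno
    apply hnwc
    refine ⟨hAS, fun g hg => ?_⟩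
    exact cj_eq_of_mem_normalizer (hno g hg)
  obtain ⟨a, ha, haK⟩ := hex
  obtain ⟨T, hT, hAT, hNK, hidx, b, hb, hbK⟩ := reduction hW hWZ S A _ hAZ le_rfl hAN a ha haK
  refine ⟨T, hT, hAT, hNK, hidx, ?_, b, hb, ?_, ?_⟩
  · exact hAZ.trans (inf_le_right.trans (Subgroup.centralizer_le (SetLike.coe_subset_coe.2 inf_le_left)))
  · have h1 : cj b A ≤ T := by
      have h2 := cj_mono b hAT
      rwa [cj_eq_of_mem_normalizer hb] at h2
    exact le_inf (h1.trans hT.1) (h1.trans Subgroup.le_normalizer)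
  · intro he
    exact hbK (mem_normalizer_of_cj_eq he)

end Cfsg.Agent.S1968
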