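import Cfsg.Statements.S1970
import Cfsg.Agent.Lib.SecTransfer
-- import your own Cfsg.Agent.* helpers here

set_option autoImplicit false
universe u
open Cfsg

namespace Cfsg.Agent.S1970

/-- Let p be a prime, G a finite group and W an isomorphism-invariant p-group functor (W assigns to every group Q a subgroup W(Q), nontrivial whenever Q is a nontrivial finite p-group, and every isomorphism from a finite p-group Q onto a group R carries W(Q) onto W(R)). Suppose that for every section G* = K/R of G with C_{G*}(O_p(G*)) ≤ O_p(G*) and every Sylow p-subgroup S* of G*, one has O_p(G*) ∩ (G*)' = O_p(G*) ∩ (N_{G*}(W(S*)))'. Then W controls transfer in every section G* of G: S* ∩ (G*)' = S* ∩ (N_{G*}(W(S*)))' for a Sylow p-subgroup S* of G*. -/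
theorem result {G : Type u} [Group G] [Finite G] {p : ℕ} [Fact p.Prime] (W : ∀ (Q : Type u) [Group Q], Subgroup Q) (hW : Cfsg.IsCharPFunctor.{u} p W) (hloc : ∀ (K R : Subgroup G) [hR : (R.subgroupOf K).Normal], Subgroup.centralizer ((Cfsg.pCore p (↥K ⧸ R.subgroupOf K) : Subgroup (↥K ⧸ R.subgroupOf K)) : Set (↥K ⧸ R.subgroupOf K)) ≤ Cfsg.pCore p (↥K ⧸ R.subgroupOf K) → ∀ T : Sylow p (↥K ⧸ R.subgroupOf K), Cfsg.pCore p (↥K ⧸ R.subgroupOf K) ⊓ commutator (↥K ⧸ R.subgroupOf K) = Cfsg.pCore p (↥K ⧸ R.subgroupOf K) ⊓ ⁅Subgroup.normalizer ((Cfsg.inducedFunctor (G := (↥K ⧸ R.subgroupOf K)) W ((T : Subgroup (↥K ⧸ R.subgroupOf K))) : Subgroup (↥K ⧸ R.subgroupOf K)) : Set (↥K ⧸ R.subgroupOf K)), Subgroup.normalizer ((Cfsg.inducedFunctor (G := (↥K ⧸ R.subgroupOf K)) W ((T : Subgroup (↥K ⧸ R.subgroupOf K))) : Subgroup (↥K ⧸ R.subgroupOf K)) : Set (↥K ⧸ R.subgroupOf K))⁆) : ∀ (K R : Subgroup G) [hR : (R.subgroupOf K).Normal], Cfsg.ControlsTransferIn p (Cfsg.inducedFunctor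 (G := (↥K ⧸ R.subgroupOf K)) W) ⊤ := by
  open Cfsg.Agent.Lib.SecFunctor Cfsg.Agent.Lib.SecTransfer in
  intro K R hR
  have h𝓦 : ∀ W' ∈ ({W} : Set (∀ (Q : Type u) [Group Q], Subgroup Q)), IsCharPFunctor.{u} p W' := by
    intro W' hW'
    rw [Set.mem_singleton_iff] at hW'
    rw [hW']
    exact hW
  have hz : ∀ {X : Type u} [Group X] (S : Subgroup X), Zfam ({W} : Set (∀ (Q : Type u) [Group Q], Subgroup Q)) S
      = S ⊓ ⁅Subgroup.normalizer ((inducedFunctor W S : Subgroup X) : Set X),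
        Subgroup.normalizer ((inducedFunctor W S : Subgroup X) : Set X)⁆ := by
    intro X _ S
    unfold Zfam
    rw [iSup_singleton]
  have hTC : TC ({W} : Set (∀ (Q : Type u) [Group Q], Subgroup Q)) p (K ⧸ R.subgroupOf K) := by
    refine TC_main h𝓦 _ _ rfl fun Y _ _ hY => ?_
    have hY' := hY.trans (isSec_section K R)
    obtain ⟨K', R', hR', ⟨e⟩⟩ := exists_section_of_isSec hY'
    haveI := hR'
    refine FocalHyp.congr h𝓦 e ?_
    intro hc S
    have h1 := hloc K' R' hc S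
    rw [hz, h1]
    exact inf_le_inf_right _ (Cfsg.Agent.Lib.PCore.pCore_le_sylow S)
  obtain ⟨S⟩ : Nonempty (Sylow p (K ⧸ R.subgroupOf K)) := inferInstance
  refine ⟨S, le_top, S.isPGroup', by
    rw [Subgroup.relIndex_top_right]
    exact S.not_dvd_index, ?_⟩
  simp only [top_inf_eq]
  apply le_antisymm
  · have := hTC S
    rw [hz] at this
    refine (le_inf inf_le_left ?_).trans this
    exact inf_le_right
  · exact le_inf inf_le_left (inf_le_right.trans (Subgroup.commutator_mono le_top le_top))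

end Cfsg.Agent.S1970
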