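import Cfsg.Statements.S1981
import Cfsg.Agent.Lib.KSeq
-- import your own Cfsg.Agent.* helpers here

set_option autoImplicit false
open Cfsg

namespace Cfsg.Agent.S1981

/-- Let P be a finite p-group generated by its abelian normal subgroups. Then both K-infinity subgroups of P equal P. -/
theorem result {P : Type*} [Group P] [Finite P] {p : ℕ} [Fact p.Prime] (hP : IsPGroup p P) (hgen : ⨆ A ∈ {A : Subgroup P | A.Normal ∧ IsMulCommutative ↥A}, A = ⊤) : Cfsg.kInfLower P = ⊤ ∧ Cfsg.kInfUpper P = ⊤ := by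
  have hL : ⊤ ≤ Cfsg.kSeqEven P 0 := by
    rw [← hgen]
    refine iSup_le fun A => iSup_le fun hA => ?_
    obtain ⟨hn, hc⟩ := hA
    exact le_sSup (Cfsg.Agent.Lib.KSeq.abelian_mem_lower A _ hc)
  refine ⟨?_, ?_⟩
  · exact le_antisymm le_top (hL.trans (le_iSup (Cfsg.kSeqEven P) 0))
  · apply le_antisymm le_top
    refine le_iInf fun n => ?_
    cases n with
    | zero => exact le_rfl
    | succ n =>
      rw [← hgen]
      refine iSup_le fun A => iSup_le fun hA => ?_
      obtain ⟨hn, hc⟩ := hA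
      exact le_sSup (Cfsg.Agent.Lib.KSeq.abelian_mem_upper A _ hc)

end Cfsg.Agent.S1981
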