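import Cfsg.Statements.S1983
import Cfsg.Agent.Lib.KInfChief
-- import your own Cfsg.Agent.* helpers here

set_option autoImplicit false
universe u
open Cfsg

namespace Cfsg.Agent.S1983

/-- Let p be a prime, G a finite group with Sylow p-subgroup S and T = O_p(G). Suppose that the lower or the upper K-infinity subgroup of S is not normal in G. Then there is an element g of S outside T such that [X, g, g, g, g] ≤ Y for every chief factor X/Y of G with X ≤ T, and [Z(T), g, g] = 1; and if moreover C_G(T) ≤ T then some quotient group of G is not p-stable (in the normalizer form: some quadratically acting element of a normalizer fails to map into O_p of the automizer). -/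
theorem result {G : Type u} [Group G] [Finite G] {p : ℕ} [Fact p.Prime] (S : Sylow p G) (hK : ¬ (Cfsg.inducedFunctor Cfsg.kInfLower (S : Subgroup G)).Normal ∨ ¬ (Cfsg.inducedFunctor Cfsg.kInfUpper (S : Subgroup G)).Normal) : ∃ g : G, g ∈ (S : Subgroup G) ∧ g ∉ (Cfsg.pCore p G) ∧ (∀ U V : Subgroup G, Cfsg.IsChiefFactor U V → U ≤ (Cfsg.pCore p G) → Cfsg.iterCommutator U (Subgroup.zpowers g) 4 ≤ V) ∧ ⁅⁅((Cfsg.pCore p G) ⊓ Subgroup.centralizer (((Cfsg.pCore p G) : Subgroup G) : Set G)), (Subgroup.zpowers g)⁆, (Subgroup.zpowers g)⁆ = ⊥ ∧ (Subgroup.centralizer (((Cfsg.pCore p G) : Subgroup G) : Set G) ≤ (Cfsg.pCore p G) → ∃ (N : Subgroup G) (_ : N.Normal), ¬ Cfsg.IsNormalizerPStable p (G ⧸ N)) := by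
  open Cfsg.Agent.Lib.KInfChief Cfsg.Agent.Lib.KInf in
  obtain ⟨A, hAn, hAP, h2, h3, h4, hA5⟩ := exists_critical_core' G p
  haveI := hAn
  obtain ⟨g, hgS, hgP, h5, h6, h7⟩ := exists_quadratic S A hAP h2 h3 hA5 hK
  refine ⟨g, hgS, hgP, chief_quartic A hAP h3 h4 g h5 h6, ?_, ?_⟩
  · have h8 : Cfsg.pCore p G ⊓ Subgroup.centralizer ((Cfsg.pCore p G : Subgroup G) : Set G) ≤ Cfsg.Agent.Lib.KSeq.zc A :=
      (inf_le_inf_left _ (Subgroup.centralizer_le (SetLike.coe_subset_coe.2 hAP))).trans h4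
    rw [← le_bot_iff, ← h6]
    exact Subgroup.commutator_mono (Subgroup.commutator_mono h8 le_rfl) le_rfl
  · intro hC
    obtain ⟨U, V, hχ, hU, h9, h10⟩ := h7 hC
    refine ⟨V, hχ.2.2.1, ?_⟩
    haveI := hχ.2.2.1
    exact not_pstable_of_chief hχ ((Cfsg.Agent.Lib.PCore.isPGroup_pCore p G).to_le (hU.trans hAP)) h9 h10

end Cfsg.Agent.S1983
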