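import Cfsg.Statements.S1984
import Cfsg.Agent.Lib.EngelTransfer
import Cfsg.Agent.Lib.KInf
-- import your own Cfsg.Agent.* helpers here

set_option autoImplicit false
universe u
open Cfsg

namespace Cfsg.Agent.S1984

/-- Let p ≥ 5 be a prime and G a finite group. Then the lower K-infinity subgroup controls transfer in G: for some (equivalently, every) Sylow p-subgroup S of G, S ∩ G' = S ∩ (N_G(K))', where K is the lower K-infinity subgroup of S. -/
theorem result {G : Type u} [Group G] [Finite G] {p : ℕ} [Fact p.Prime] (hp : 5 ≤ p) : Cfsg.ControlsTransferIn p (Cfsg.inducedFunctor (G := G) Cfsg.kInfLower) ⊤ := by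
  open Cfsg.Agent.Lib.SecFunctor Cfsg.Agent.Lib.SecTransfer Cfsg.Agent.Lib.EngelTransfer Cfsg.Agent.Lib.KInf Cfsg.Agent.Lib.ChiefCrit in
  have hW := isCharPFunctor_kInfLower (p := p)
  have hz : ∀ {X : Type u} [Group X] (S : Subgroup X), Zfam ({kInfLower} : Set (∀ (Q : Type u) [Group Q], Subgroup Q)) S
      = S ⊓ ⁅Subgroup.normalizer ((inducedFunctor kInfLower S : Subgroup X) : Set X),
        Subgroup.normalizer ((inducedFunctor kInfLower S : Subgroup X) : Set X)⁆ := by
    intro X _ S
    unfold Zfam
    rw [iSup_singleton]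
  have hTC : TC ({kInfLower} : Set (∀ (Q : Type u) [Group Q], Subgroup Q)) p G := by
    refine TC_engel hW _ _ rfl fun Y _ _ hY => ?_
    intro _ T hT
    obtain ⟨g, hg1, hg2, hg3, -⟩ := exists_engel_of_not_normal T (Or.inl hT)
    refine ⟨g, hg1, hg2, fun U V hχ hU => ?_⟩
    haveI := hχ.2.1
    exact (iter_anti U _ (by omega)).trans (hg3 U V hχ hU)
  obtain ⟨S⟩ : Nonempty (Sylow p G) := inferInstance
  refine ⟨S, le_top, S.isPGroup', by
    rw [Subgroup.relIndex_top_right]
    exact S.not_dvd_index, ?_⟩
  simp only [top_inf_eq]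
  apply le_antisymm
  · have := hTC S
    rw [hz] at this
    refine (le_inf inf_le_left ?_).trans this
    exact inf_le_right
  · exact le_inf inf_le_left (inf_le_right.trans (Subgroup.commutator_mono le_top le_top))

end Cfsg.Agent.S1984
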