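import Cfsg.Statements.S1985
import Cfsg.Agent.Lib.WeakElem
-- import your own Cfsg.Agent.* helpers here

set_option autoImplicit false
universe u
open Cfsg

namespace Cfsg.Agent.S1985

/-- Let p be an odd prime and G a finite group. Then the lower K-infinity subgroup controls weak closure of elements in G: the lower K-infinity subgroup of every p-subgroup P of G contains Z(P), and for some (equivalently, every) Sylow p-subgroup S of G, with K the lower K-infinity subgroup of S, every element of S commuting with all of N_G(K) is weakly closed in S with respect to G (every G-conjugate of it lying in S equals it). -/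
theorem result {G : Type u} [Group G] [Finite G] {p : ℕ} [Fact p.Prime] (hp : p ≠ 2) : Cfsg.ControlsWeakClosureOfElementsIn p (Cfsg.inducedFunctor (G := G) Cfsg.kInfLower) ⊤ := by
  classical
  have hW := Cfsg.Agent.Lib.SecFunctor.isConjugacyFunctor_induced (G := G) (p := p)
    (Cfsg.Agent.Lib.KInf.isCharPFunctor_kInfLower p)
  have hWZ : ∀ P : Subgroup G, IsPGroup p ↥P →
      P ⊓ Subgroup.centralizer ((P : Subgroup G) : Set G) ≤ inducedFunctor kInfLower P :=
    fun P hP => Cfsg.Agent.Lib.WeakCl.inf_centralizer_le_induced_lower P hP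
  refine Cfsg.Agent.Lib.WeakElem.weak_elem hW hWZ ?_ ⊤
  intro H T hTH hTp hidx hN
  obtain ⟨g₀, h1, _, h3, _, h5, _⟩ := Cfsg.Agent.Lib.WeakCl.kinf_local hTH hTp hidx (Or.inl hN)
  refine ⟨g₀, h1, h3, fun U V hχ hU => ?_⟩
  have hp3 : 2 ≤ p - 1 := by
    have := (Fact.out : p.Prime).two_le
    omega
  obtain ⟨_, hUn, _, _⟩ := hχ
  haveI := hUn
  haveI := Cfsg.Agent.Lib.PCore.pCore_normal p ↥H
  have hU₀ : U ≤ pCore p ↥H ⊓ Subgroup.centralizer ((pCore p ↥H : Subgroup ↥H) : Set ↥H) := by
    intro u hu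
    obtain ⟨⟨q, hq, he⟩, h8⟩ := hU ⟨u, hu, rfl⟩
    have hqu : q = u := Subtype.ext he
    subst hqu
    refine ⟨hq, Subgroup.mem_centralizer_iff.2 fun z hz => ?_⟩
    apply Subtype.ext
    exact (Subgroup.mem_centralizer_iff.1 h8) _ ⟨z, hz, rfl⟩
  have hzp : Subgroup.zpowers (g₀ : G) = (Subgroup.zpowers g₀).map H.subtype := by
    rw [MonoidHom.map_zpowers]
    rfl
  rw [hzp, ← Cfsg.Agent.Lib.EngelTransfer.iterCommutator_map]
  refine Subgroup.map_mono ?_
  have h6 : iterCommutator U (Subgroup.zpowers g₀) 2 = ⊥ := by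
    rw [← le_bot_iff, ← h5]
    exact Subgroup.commutator_mono (Subgroup.commutator_mono hU₀ le_rfl) le_rfl
  refine (Cfsg.Agent.Lib.ChiefCrit.iter_anti U _ hp3).trans ?_
  rw [h6]
  exact bot_le

end Cfsg.Agent.S1985
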