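import Cfsg.Statements.S1986
import Cfsg.Agent.Lib.WeakCl
-- import your own Cfsg.Agent.* helpers here

set_option autoImplicit false
universe u
open Cfsg

namespace Cfsg.Agent.S1986

/-- Let p be a prime, G a finite group with Sylow p-subgroup S, K the lower K-infinity subgroup of S, and Z the subgroup of p-th powers of elements of Z(S). Then every element of Z commuting with all of N_G(K) is weakly closed in S with respect to G, and every subgroup of Z that is normal in N_G(K) is weakly closed in S with respect to G. -/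
theorem result {G : Type u} [Group G] [Finite G] {p : ℕ} [Fact p.Prime] (S : Sylow p G) (Z : Subgroup G) (hZ : Z = Subgroup.closure ((fun z : G => z ^ p) '' (((S : Subgroup G) ⊓ Subgroup.centralizer (((S : Subgroup G) : Subgroup G) : Set G) : Subgroup G) : Set G))) : (∀ x ∈ Z ⊓ Subgroup.centralizer ((Subgroup.normalizer ((Cfsg.inducedFunctor Cfsg.kInfLower (S : Subgroup G) : Subgroup G) : Set G) : Subgroup G) : Set G), ∀ g : G, g * x * g⁻¹ ∈ (S : Subgroup G) → g * x * g⁻¹ = x) ∧ ∀ A : Subgroup G, A ≤ Z → Subgroup.normalizer ((Cfsg.inducedFunctor Cfsg.kInfLower (S : Subgroup G) : Subgroup G) : Set G) ≤ Subgroup.normalizer ((A : Subgroup G) : Set G) → Cfsg.IsWeaklyClosed A (S : Subgroup G) := by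
  classical
  have hW := Cfsg.Agent.Lib.SecFunctor.isConjugacyFunctor_induced (G := G) (p := p)
    (Cfsg.Agent.Lib.KInf.isCharPFunctor_kInfLower p)
  have hWZ : ∀ P : Subgroup G, IsPGroup p ↥P →
      P ⊓ Subgroup.centralizer ((P : Subgroup G) : Set G) ≤ inducedFunctor kInfLower P :=
    fun P hP => Cfsg.Agent.Lib.WeakCl.inf_centralizer_le_induced_lower P hP
  have hloc : ∀ (H T : Subgroup G), T ≤ H → IsPGroup p ↥T → ¬ p ∣ (T).relIndex (H) →
      ¬ H ≤ Subgroup.normalizer ((inducedFunctor kInfLower T : Subgroup G) : Set G) →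
      ∃ g : G, g ∈ T ∧ g ∉ pCoreOf p H ∧
        ⁅⁅pCoreOf p H ⊓ Subgroup.centralizer ((pCoreOf p H : Subgroup G) : Set G), Subgroup.zpowers g⁆,
          Subgroup.zpowers g⁆ = ⊥ := by
    intro H T hTH hTp hidx hN
    obtain ⟨g₀, h1, _, h3, _, _, h6⟩ := Cfsg.Agent.Lib.WeakCl.kinf_local hTH hTp hidx (Or.inl hN)
    exact ⟨g₀, h1, h3, h6⟩
  subst hZ
  constructor
  · rintro x ⟨hxZ, hxC⟩ g hg
    have h := Cfsg.Agent.Lib.WeakCl.weak_pow hW hWZ hloc S (Subgroup.zpowers x)
      (Subgroup.centralizer ((Subgroup.zpowers x : Subgroup G) : Set G))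
      (Subgroup.centralizer_le_normalizer _) le_rfl
      ((Subgroup.zpowers_le).2 hxZ) ?_ g ?_
    · have h2 := (Subgroup.mem_centralizer_iff.1 h) x (Subgroup.mem_zpowers x)
      rw [← h2]
      group
    · intro n hn
      refine Subgroup.mem_centralizer_iff.2 fun y hy => ?_
      obtain ⟨k, rfl⟩ := hy
      have h1 : n * x = x * n := Subgroup.mem_centralizer_iff.1 hxC n hn
      have h3 : Commute n x := h1
      exact ((h3.zpow_right k).eq).symm
    · rintro _ ⟨y, ⟨k, rfl⟩, rfl⟩
      have e : (MulAut.conj g).toMonoidHom ((fun z => x ^ z) k) = (g * x * g⁻¹) ^ k := by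
        show g * x ^ k * g⁻¹ = _
        rw [conj_zpow]
      rw [e]
      exact Subgroup.zpow_mem _ hg k
  · intro A hA hN
    refine ⟨hA.trans ?_, fun g hg => ?_⟩
    · rw [Subgroup.closure_le]
      rintro _ ⟨z, hz, rfl⟩
      exact Subgroup.pow_mem _ hz.1 p
    · have h := Cfsg.Agent.Lib.WeakCl.weak_pow hW hWZ hloc S A
        (Subgroup.normalizer (A : Set G)) le_rfl (Subgroup.centralizer_le_normalizer _) hA hN g hg
      exact Cfsg.Agent.Lib.ConjFamily.cj_eq_of_mem_normalizer h

end Cfsg.Agent.S1986
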