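import Cfsg.Statements.S1987
import Cfsg.Agent.Lib.FusionApps
-- import your own Cfsg.Agent.* helpers here

set_option autoImplicit false
universe u
open Cfsg

namespace Cfsg.Agent.S1987

/-- Let p be an odd prime and G a finite group every section of which is p-stable in the normalizer form (in each section, an element of the normalizer of a p-subgroup Q acting quadratically on Q maps into O_p of N(Q)/C(Q)). Then for every Sylow p-subgroup S of G the lower K-infinity subgroup of S controls strong fusion in G. -/
theorem result {G : Type u} [Group G] [Finite G] {p : ℕ} [Fact p.Prime] (hp : p ≠ 2) (hst : ∀ (K R : Subgroup G) [hR : (R.subgroupOf K).Normal], Cfsg.IsNormalizerPStable p (↥K ⧸ R.subgroupOf K)) (S : Sylow p G) : Cfsg.ControlsStrongFusion p (Cfsg.inducedFunctor Cfsg.kInfLower (S : Subgroup G)) := by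
  classical
  have hW := Cfsg.Agent.Lib.KInf.isCharPFunctor_kInfLower (p := p)
  have h𝓦 : ∀ W' ∈ ({kInfLower} : Set (∀ (Q : Type u) [Group Q], Subgroup Q)), IsCharPFunctor.{u} p W' := by
    rintro _ rfl
    exact hW
  have hP := Cfsg.Agent.Lib.FusionApps.sections_main h𝓦
    (fun Y _ _ hY hc => Cfsg.Agent.Lib.FusionApps.family_of_normal (Set.mem_singleton kInfLower)
      (fun T => by_contra fun h => Cfsg.Agent.Lib.FusionApps.kinf_false hst hY hc T (Or.inl h)))
    G (Cfsg.Agent.Lib.SecFunctor.isSec_self G)
  exact Cfsg.Agent.Lib.FusionApps.control_of_family hW hP S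

end Cfsg.Agent.S1987
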