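import Cfsg.Statements.S1989
import Cfsg.Agent.Lib.QdControl
-- import your own Cfsg.Agent.* helpers here

set_option autoImplicit false
universe u
open Cfsg

namespace Cfsg.Agent.S1989

/-- Let p be an odd prime and G a finite group. Then Qd(p) (the natural semidirect product of an elementary abelian group of order p² by SL₂(p)) is not involved in G if and only if, in every section K/R of G and for every Sylow p-subgroup T of K/R, the lower K-infinity subgroup of T controls strong fusion in K/R. -/
theorem result {G : Type u} [Group G] [Finite G] {p : ℕ} [Fact p.Prime] (hp : p ≠ 2) : ¬ Cfsg.Involves ↥(Cfsg.qd p) G ↔ ∀ (K R : Subgroup G) [hR : (R.subgroupOf K).Normal], ∀ T : Sylow p (↥K ⧸ R.subgroupOf K), Cfsg.ControlsStrongFusion p (Cfsg.inducedFunctor (G := (↥K ⧸ R.subgroupOf K)) Cfsg.kInfLower (T : Subgroup (↥K ⧸ R.subgroupOf K))) := by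
  classical
  have hW := Cfsg.Agent.Lib.KInf.isCharPFunctor_kInfLower (p := p)
  have h𝓦 : ∀ W' ∈ ({kInfLower} : Set (∀ (Q : Type u) [Group Q], Subgroup Q)), IsCharPFunctor.{u} p W' := by
    rintro _ rfl
    exact hW
  constructor
  · intro h K R hR T
    have hst := (Cfsg.Agent.Lib.QdStable.involves_iff_not_stable hp).1 h
    have hP := Cfsg.Agent.Lib.FusionApps.sections_main h𝓦
      (fun Y _ _ hY hc => Cfsg.Agent.Lib.FusionApps.family_of_normal (Set.mem_singleton kInfLower)
        (fun T => by_contra fun h' => Cfsg.Agent.Lib.FusionApps.kinf_false hst hY hc T (Or.inl h')))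
      _ (Cfsg.Agent.Lib.SecFunctor.isSec_section K R)
    exact Cfsg.Agent.Lib.FusionApps.control_of_family hW hP T
  · rintro h ⟨K, R, hn, ⟨e⟩⟩
    haveI := hn
    obtain ⟨D⟩ := Cfsg.Agent.Lib.QdControl.qdData_of_equiv hp e
    obtain ⟨T⟩ : Nonempty (Sylow p (K ⧸ R.subgroupOf K)) := inferInstance
    exact D.not_control_kInf T (h K R T)

end Cfsg.Agent.S1989
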