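import Cfsg.Statements.S1993
import Cfsg.Agent.Lib.FusionApps
import Cfsg.Agent.Lib.IndexP
-- import your own Cfsg.Agent.* helpers here

set_option autoImplicit false
universe u
open Cfsg

namespace Cfsg.Agent.S1993

/-- Let p be a prime, G a finite group with Sylow p-subgroup S, and K the upper K-infinity subgroup of S. If p ≥ 5 then S ∩ G' = S ∩ (N_G(K))'; and if p is odd and every section of G is p-stable in the normalizer form, then K controls strong fusion in G. -/
theorem result {G : Type u} [Group G] [Finite G] {p : ℕ} [Fact p.Prime] (S : Sylow p G) : (5 ≤ p → (S : Subgroup G) ⊓ commutator G = (S : Subgroup G) ⊓ ⁅Subgroup.normalizer ((Cfsg.inducedFunctor Cfsg.kInfUpper (S : Subgroup G) : Subgroup G) : Set G), Subgroup.normalizer ((Cfsg.inducedFunctor Cfsg.kInfUpper (S : Subgroup G) : Subgroup G) : Set G)⁆) ∧ (p ≠ 2 → (∀ (K R : Subgroup G) [hR : (R.subgroupOf K).Normal], Cfsg.IsNormalizerPStable p (↥K ⧸ R.subgroupOf K)) → Cfsg.ControlsStrongFusion p (Cfsg.inducedFunctor Cfsg.kInfUpper (S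 : Subgroup G))) := by
  classical
  have hW := Cfsg.Agent.Lib.KInf.isCharPFunctor_kInfUpper (p := p)
  have h𝓦 : ∀ W' ∈ ({kInfUpper} : Set (∀ (Q : Type u) [Group Q], Subgroup Q)), IsCharPFunctor.{u} p W' := by
    rintro _ rfl
    exact hW
  constructor
  · intro hp5
    have hTC := Cfsg.Agent.Lib.IndexP.TC_kInfUpper hp5 G S
    have hz : Cfsg.Agent.Lib.SecTransfer.Zfam ({kInfUpper} : Set (∀ (Q : Type u) [Group Q], Subgroup Q)) (S : Subgroup G) =
        (S : Subgroup G) ⊓ ⁅Subgroup.normalizer ((Cfsg.inducedFunctor Cfsg.kInfUpper (S : Subgroup G) : Subgroup G) : Set G), Subgroup.normalizer ((Cfsg.inducedFunctor Cfsg.kInfUpper (S : Subgroup G) : Subgroup G) : Set G)⁆ := by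
      unfold Cfsg.Agent.Lib.SecTransfer.Zfam
      rw [iSup_singleton]
    rw [hz] at hTC
    apply le_antisymm
    · exact hTC
    · exact le_inf inf_le_left (inf_le_right.trans (Subgroup.commutator_mono le_top le_top))
  · intro _ hst
    have hP := Cfsg.Agent.Lib.FusionApps.sections_main h𝓦
      (fun Y _ _ hY hc => Cfsg.Agent.Lib.FusionApps.family_of_normal (Set.mem_singleton kInfUpper)
        (fun T => by_contra fun h => Cfsg.Agent.Lib.FusionApps.kinf_false hst hY hc T (Or.inr h)))
      G (Cfsg.Agent.Lib.SecFunctor.isSec_self G)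
    exact Cfsg.Agent.Lib.FusionApps.control_of_family hW hP S

end Cfsg.Agent.S1993
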