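import Cfsg.Statements.S1997
import Cfsg.Agent.Lib.FusionOmega
-- import your own Cfsg.Agent.* helpers here

set_option autoImplicit false
universe u
open Cfsg

namespace Cfsg.Agent.S1997

/-- Let p be a prime, G a finite group with Sylow p-subgroup S, and W₁, W₂ two isomorphism-invariant p-group functors (W assigns to every group Q a subgroup W(Q), nontrivial whenever Q is a nontrivial finite p-group, and every isomorphism from a finite p-group Q onto a group R carries W(Q) onto W(R)). Suppose that G* = C_{G*}(Ω₁Z(S*)) N_{G*}(W₁(S*)) = C_{G*}(Ω₁Z(S*)) N_{G*}(W₂(S*)) = N_{G*}(W₁(S*)) N_{G*}(W₂(S*)) whenever G* = K/R is a section of G with C_{G*}(O_p(G*)) ≤ O_p(G*) and S* is a Sylow p-subgroup of G*, where Ω₁Z denotes the subgroup generated by the elements of order dividing p in the centre. Suppose also Ω₁Z(S) ≤ W₁(S) ∩ W₂(S), and let A be the normal closure of Ω₁Z(S) in N_G(W₁(S)). Then A is an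 elementary abelian subgroup of S, strongly closed in S with respect to G, and A controls strong fusion in G. -/
theorem result {G : Type u} [Group G] [Finite G] {p : ℕ} [Fact p.Prime] (S : Sylow p G) (W₁ W₂ : ∀ (Q : Type u) [Group Q], Subgroup Q) (hW₁ : Cfsg.IsCharPFunctor.{u} p W₁) (hW₂ : Cfsg.IsCharPFunctor.{u} p W₂) (hfac : ∀ (K R : Subgroup G) [hR : (R.subgroupOf K).Normal], Subgroup.centralizer ((Cfsg.pCore p (↥K ⧸ R.subgroupOf K) : Subgroup (↥K ⧸ R.subgroupOf K)) : Set (↥K ⧸ R.subgroupOf K)) ≤ Cfsg.pCore p (↥K ⧸ R.subgroupOf K) → ∀ T : Sylow p (↥K ⧸ R.subgroupOf K), (∀ x : (↥K ⧸ R.subgroupOf K), ∃ a ∈ Subgroup.centralizer ((Cfsg.omegaOne p ((T : Subgroup (↥K ⧸ R.subgroupOf K)) ⊓ Subgroup.centralizer (((T : Subgroup (↥K ⧸ R.subgroupOf K)) : Subgroup (↥K ⧸ R.subgroupOf K)) : Set (↥K ⧸ R.subgroupOf K))) : Subgroup (↥K ⧸ R.subgroupOf K)) : Set (↥K ⧸ R.subgroupOf K)), ∃ b ∈ Subgroup.normalizer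 ((Cfsg.inducedFunctor (G := (↥K ⧸ R.subgroupOf K)) W₁ (T : Subgroup (↥K ⧸ R.subgroupOf K)) : Subgroup (↥K ⧸ R.subgroupOf K)) : Set (↥K ⧸ R.subgroupOf K)), x = a * b) ∧ (∀ x : (↥K ⧸ R.subgroupOf K), ∃ a ∈ Subgroup.centralizer ((Cfsg.omegaOne p ((T : Subgroup (↥K ⧸ R.subgroupOf K)) ⊓ Subgroup.centralizer (((T : Subgroup (↥K ⧸ R.subgroupOf K)) : Subgroup (↥K ⧸ R.subgroupOf K)) : Set (↥K ⧸ R.subgroupOf K))) : Subgroup (↥K ⧸ R.subgroupOf K)) : Set (↥K ⧸ R.subgroupOf K)), ∃ b ∈ Subgroup.normalizer ((Cfsg.inducedFunctor (G := (↥K ⧸ R.subgroupOf K)) W₂ (T : Subgroup (↥K ⧸ R.subgroupOf K)) : Subgroup (↥K ⧸ R.subgroupOf K)) : Set (↥K ⧸ R.subgroupOf K)), x = a * b) ∧ (∀ x : (↥K ⧸ R.subgroupOf K), ∃ a ∈ Subgroup.normalizer ((Cfsg.inducedFunctor (G := (↥K ⧸ R.subgroupOf K)) W₁ (T : Subgroup (↥K ⧸ R.subgroupOf K)) : Subgroup (↥K ⧸ R.subgroupOf K)) : Set (↥K ⧸ R.subgroupOf K)), ∃ b ∈ Subgroup.normalizer ((Cfsg.inducedFunctor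 (G := (↥K ⧸ R.subgroupOf K)) W₂ (T : Subgroup (↥K ⧸ R.subgroupOf K)) : Subgroup (↥K ⧸ R.subgroupOf K)) : Set (↥K ⧸ R.subgroupOf K)), x = a * b)) (hZ : Cfsg.omegaOne p ((S : Subgroup G) ⊓ Subgroup.centralizer (((S : Subgroup G) : Subgroup G) : Set G)) ≤ Cfsg.inducedFunctor (G := G) W₁ (S : Subgroup G) ⊓ Cfsg.inducedFunctor (G := G) W₂ (S : Subgroup G)) (N₁ : Subgroup G) (hN₁ : N₁ = Subgroup.normalizer ((Cfsg.inducedFunctor (G := G) W₁ (S : Subgroup G) : Subgroup G) : Set G)) (A : Subgroup G) (hA : A = (Subgroup.normalClosure (((Cfsg.omegaOne p ((S : Subgroup G) ⊓ Subgroup.centralizer (((S : Subgroup G) : Subgroup G) : Set G))).subgroupOf N₁ : Subgroup ↥N₁) : Set ↥N₁)).map N₁.subtype) : A ≤ (S : Subgroup G) ∧ Cfsg.IsElementaryAbelian p A ∧ Cfsg.IsStronglyClosed A (S : Subgroup G) ∧ Cfsg.ControlsStrongFusion p A := by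
  classical
  have h𝓦 : ∀ W' ∈ ({W₁, W₂} : Set (∀ (Q : Type u) [Group Q], Subgroup Q)), IsCharPFunctor.{u} p W' := by
    rintro _ (rfl | rfl)
    · exact hW₁
    · exact hW₂
  have hP := Cfsg.Agent.Lib.FusionApps.sections_main h𝓦
    (Cfsg.Agent.Lib.FusionApps.loc_of_section h𝓦 (fun K R _ hc => by
      obtain ⟨T⟩ : Nonempty (Sylow p (↥K ⧸ R.subgroupOf K)) := inferInstance
      exact Cfsg.Agent.Lib.FusionOmega.pair_of_factor hW₁ hW₂ T (hfac K R hc T).2.2))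
    G (Cfsg.Agent.Lib.SecFunctor.isSec_self G)
  have hloc₁ : ∀ (Y : Type u) [Group Y] [Finite Y], Cfsg.Agent.Lib.SecFunctor.IsSec Y G →
      Subgroup.centralizer ((pCore p Y : Subgroup Y) : Set Y) ≤ pCore p Y → ∀ T : Sylow p Y, ∀ x : Y,
      ∃ a ∈ Subgroup.centralizer ((Cfsg.Agent.Lib.FusionOmega.Om p (T : Subgroup Y) : Subgroup Y) : Set Y),
      ∃ b ∈ Subgroup.normalizer ((inducedFunctor W₁ (T : Subgroup Y) : Subgroup Y) : Set Y), x = a * b := by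
    intro Y _ _ hY hc T x
    obtain ⟨K, R, hR, ⟨e⟩⟩ := Cfsg.Agent.Lib.SecFunctor.exists_section_of_isSec hY
    haveI := hR
    have hc' := Cfsg.Agent.Lib.PCore.centralizer_pCore_le_of_equiv e hc
    have hsurj : Function.Surjective e.toMonoidHom := e.surjective
    exact Cfsg.Agent.Lib.FusionOmega.factor_congr hW₁ e T (hfac K R hc' (T.mapSurjective hsurj)).1 x
  have hloc₂ : ∀ (Y : Type u) [Group Y] [Finite Y], Cfsg.Agent.Lib.SecFunctor.IsSec Y G →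
      Subgroup.centralizer ((pCore p Y : Subgroup Y) : Set Y) ≤ pCore p Y → ∀ T : Sylow p Y, ∀ x : Y,
      ∃ a ∈ Subgroup.centralizer ((Cfsg.Agent.Lib.FusionOmega.Om p (T : Subgroup Y) : Subgroup Y) : Set Y),
      ∃ b ∈ Subgroup.normalizer ((inducedFunctor W₂ (T : Subgroup Y) : Subgroup Y) : Set Y), x = a * b := by
    intro Y _ _ hY hc T x
    obtain ⟨K, R, hR, ⟨e⟩⟩ := Cfsg.Agent.Lib.SecFunctor.exists_section_of_isSec hY
    haveI := hR
    have hc' := Cfsg.Agent.Lib.PCore.centralizer_pCore_le_of_equiv e hc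
    have hsurj : Function.Surjective e.toMonoidHom := e.surjective
    exact Cfsg.Agent.Lib.FusionOmega.factor_congr hW₂ e T (hfac K R hc' (T.mapSurjective hsurj)).2.1 x
  have hm := Cfsg.Agent.Lib.FusionOmega.omega_main hW₁ hW₂ S hloc₁ hloc₂ hP hZ
  subst hN₁
  have hΩ : ((Cfsg.omegaOne p ((S : Subgroup G) ⊓ Subgroup.centralizer (((S : Subgroup G) : Subgroup G) : Set G))) ≤
      Subgroup.normalizer ((Cfsg.inducedFunctor (G := G) W₁ (S : Subgroup G) : Subgroup G) : Set G)) := by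
    have h1 := Cfsg.Agent.Lib.FusionOmega.Om_le (p := p) (S : Subgroup G)
    exact h1.trans (inf_le_left.trans (Cfsg.Agent.Lib.ConjFamily.le_normalizer_W
      (Cfsg.Agent.Lib.SecFunctor.isConjugacyFunctor_induced hW₁) S.isPGroup'))
  have hA' := Cfsg.Agent.Lib.FusionOmega.normalClosure_map_eq _ _ hΩ
  rw [hA, hA']
  exact hm

end Cfsg.Agent.S1997
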