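import Cfsg.Statements.S1998
import Cfsg.Agent.Lib.EngelTransfer
-- import your own Cfsg.Agent.* helpers here

set_option autoImplicit false
universe u
open Cfsg

namespace Cfsg.Agent.S1998

/-- Let p be a prime, G a finite group with Sylow p-subgroup S, and 𝓦 a nonempty set of isomorphism-invariant p-group functors (W assigns to every group Q a subgroup W(Q), nontrivial whenever Q is a nontrivial finite p-group, and every isomorphism from a finite p-group Q onto a group R carries W(Q) onto W(R)). Suppose the induced conjugacy functors control transfer in every section of G other than G itself, but not in G. Let T be the subgroup generated by the S ∩ (N_G(W(S)))', W ∈ 𝓦, and M = N_G(T ∩ O_p(G)). Then: C_G(O_p(G)) ≤ O_p(G); M is a proper subgroup of G containing every proper subgroup of G that contains S (the unique maximal subgroup over S); [O_p(G), M] ≤ O_p(G) ∩ M' ≤ O_p(G) ∩ T; and every element u of S outside O_p(G) satisfies [X,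 u, …, u] ≰ Y with p − 1 entries u, for some chief factor X/Y of G with X ≤ O_p(G). -/
theorem result {G : Type u} [Group G] [Finite G] {p : ℕ} [Fact p.Prime] (S : Sylow p G) (𝓦 : Set (∀ (Q : Type u) [Group Q], Subgroup Q)) (h𝓦 : ∀ W ∈ 𝓦, Cfsg.IsCharPFunctor.{u} p W) (hne : 𝓦.Nonempty) (hsec : ∀ (K R : Subgroup G) [hR : (R.subgroupOf K).Normal], (K = ⊤ → R ≠ ⊥) → Cfsg.FamilyControlsTransferIn p ((fun W => Cfsg.inducedFunctor (G := (↥K ⧸ R.subgroupOf K)) W) '' 𝓦) ⊤) (hG : ¬ Cfsg.FamilyControlsTransferIn p ((fun W => Cfsg.inducedFunctor (G := G) W) '' 𝓦) ⊤) (T M : Subgroup G) (hT : T = (⨆ W ∈ 𝓦, (S : Subgroup G) ⊓ ⁅Subgroup.normalizer ((Cfsg.inducedFunctor (G := G) W (S : Subgroup G) : Subgroup G) : Set G), Subgroup.normalizer ((Cfsg.inducedFunctor (G := G) W (S : Subgroup G) : Subgroup G) : Set G)⁆)) (hM : M = Subgroup.normalizer ((T ⊓ Cfsg.pCore p G : Subgroup G) : Set G)) : Subgroup.centralizer ((Cfsg.pCore p G : Subgroup G) : Set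 G) ≤ Cfsg.pCore p G ∧ (M ≠ ⊤ ∧ ∀ H : Subgroup G, (S : Subgroup G) ≤ H → H ≠ ⊤ → H ≤ M) ∧ (⁅Cfsg.pCore p G, M⁆ ≤ Cfsg.pCore p G ⊓ ⁅M, M⁆ ∧ Cfsg.pCore p G ⊓ ⁅M, M⁆ ≤ Cfsg.pCore p G ⊓ T) ∧ ∀ u : G, u ∈ (S : Subgroup G) → u ∉ Cfsg.pCore p G → ∃ U V : Subgroup G, Cfsg.IsChiefFactor U V ∧ U ≤ Cfsg.pCore p G ∧ ¬ Cfsg.iterCommutator U (Subgroup.zpowers u) (p - 1) ≤ V := by
  open Cfsg.Agent.Lib.SecFunctor Cfsg.Agent.Lib.SecTransfer Cfsg.Agent.Lib.EngelTransfer in
  subst hT
  subst hM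
  have IHsub : ∀ H : Subgroup G, H ≠ ⊤ → TC 𝓦 p H := by
    intro H hH
    haveI hN : ((⊥ : Subgroup G).subgroupOf H).Normal := by
      rw [Subgroup.bot_subgroupOf]
      infer_instance
    have h1 := TC_of_family h𝓦 (hsec H ⊥ (fun h => absurd h hH))
    have e : H ≃* H ⧸ ((⊥ : Subgroup G).subgroupOf H) :=
      (QuotientGroup.quotientBot (G := H)).symm.trans
        (QuotientGroup.quotientMulEquivOfEq (Subgroup.bot_subgroupOf H).symm)
    exact TC_congr h𝓦 e h1
  have IHquot : ∀ (N : Subgroup G) [N.Normal], N ≠ ⊥ → TC 𝓦 p (G ⧸ N) := by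
    intro N _ hN
    have h1 := TC_of_family h𝓦 (hsec (⊤ : Subgroup G) N (fun _ => hN))
    have hmap : N.map (Subgroup.topEquiv : (⊤ : Subgroup G) ≃* G).symm.toMonoidHom = N.subgroupOf ⊤ := by
      ext x
      constructor
      · rintro ⟨y, hy, rfl⟩
        exact Subgroup.mem_subgroupOf.2 hy
      · intro hx
        exact ⟨(x : G), Subgroup.mem_subgroupOf.1 hx, rfl⟩
    have e : G ⧸ N ≃* (⊤ : Subgroup G) ⧸ N.subgroupOf ⊤ :=
      QuotientGroup.congr N (N.subgroupOf ⊤) Subgroup.topEquiv.symm hmap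
    exact TC_congr h𝓦 e h1
  have hGS : ¬ (S : Subgroup G) ⊓ commutator G ≤ Zfam 𝓦 (S : Subgroup G) := fun h =>
    hG (family_top_of_sylow S h)
  exact minimal_main h𝓦 hne IHsub IHquot S hGS

end Cfsg.Agent.S1998
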