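import Cfsg.Statements.S2004
import Cfsg.Agent.Lib.QdControl
-- import your own Cfsg.Agent.* helpers here

set_option autoImplicit false
open Cfsg

namespace Cfsg.Agent.S2004

/-- Let p be an odd prime and G a finite group such that SL₂(p) is not involved in N_G(P) for any nonidentity p-subgroup P of G. Then every section of G is p-stable in the normalizer form: in each section, whenever an element of the normalizer of a p-subgroup Q acts quadratically on Q, its image in N(Q)/C(Q) lies in O_p(N(Q)/C(Q)). -/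
theorem result {G : Type*} [Group G] [Finite G] {p : ℕ} [Fact p.Prime] (hp : p ≠ 2) (h : ∀ P : Subgroup G, IsPGroup p ↥P → P ≠ ⊥ → ¬ Cfsg.Involves (Matrix.SpecialLinearGroup (Fin 2) (ZMod p)) ↥(Subgroup.normalizer ((P : Subgroup G) : Set G))) : ∀ (K R : Subgroup G) [hR : (R.subgroupOf K).Normal], Cfsg.IsNormalizerPStable p (↥K ⧸ R.subgroupOf K) := by
  classical
  intro K R hR
  by_contra hst
  have hinv : Cfsg.Agent.Lib.QdSection.InvTo ↥(Cfsg.qd p) G :=
    ((Cfsg.Agent.Lib.QdStable.invTo_of_not_stable hp hst).of_quot).of_le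
  obtain ⟨L, Θ, hΘ⟩ := hinv
  obtain ⟨D⟩ := Cfsg.Agent.Lib.QdControl.qdData_qd (p := p) hp
  -- the map to `SL₂`
  let f : ↥L →* Matrix.SpecialLinearGroup (Fin 2) (ZMod p) := D.τ.comp Θ
  have hf : Function.Surjective f := D.hτ.comp hΘ
  let Q : Subgroup ↥L := f.ker
  haveI hQn : Q.Normal := MonoidHom.normal_ker f
  obtain ⟨P₀⟩ : Nonempty (Sylow p ↥Q) := inferInstance
  -- `P₀` is non-trivial
  have hP₀ : (P₀ : Subgroup ↥Q) ≠ ⊥ := by
    intro h0
    have h1 : ¬ p ∣ (P₀ : Subgroup ↥Q).index := P₀.not_dvd_index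
    rw [h0, Subgroup.index_bot] at h1
    apply h1
    -- a non-zero vector
    have hv : (![1, 0] : Fin 2 → ZMod p) ≠ 0 := by
      intro h
      have := congrFun h 0
      simp at this
    obtain ⟨x, hx⟩ := hΘ (D.ν ![1, 0])
    have hxQ : x ∈ Q := by
      show D.τ (Θ x) = 1
      rw [hx, D.tau_nu]
    have hne : D.ν ![1, 0] ≠ 1 := by
      intro h
      apply hv
      apply D.hinj
      rw [h, D.nu_zero]
    have hord : orderOf (D.ν ![1, 0]) = p := orderOf_eq_prime (D.nu_pow _) hne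
    have h2 : orderOf (D.ν ![1, 0]) ∣ orderOf (⟨x, hxQ⟩ : Q) := by
      rw [← hx]
      have : Θ x = (Θ.comp Q.subtype) ⟨x, hxQ⟩ := rfl
      rw [this]
      exact orderOf_map_dvd _ _
    rw [hord] at h2
    exact h2.trans (orderOf_dvd_natCard _)
  -- the Frattini argument
  let P₁ : Subgroup ↥L := (P₀ : Subgroup ↥Q).map Q.subtype
  have hfr : Subgroup.normalizer (P₁ : Set ↥L) ⊔ Q = ⊤ := P₀.normalizer_sup_eq_top
  have hsurj : ∀ B, ∃ x ∈ Subgroup.normalizer (P₁ : Set ↥L), f x = B := by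
    intro B
    obtain ⟨y, rfl⟩ := hf B
    have hy : y ∈ Subgroup.normalizer (P₁ : Set ↥L) ⊔ Q := by rw [hfr]; trivial
    obtain ⟨n, hn, q, hq, rfl⟩ := Subgroup.mem_sup_of_normal_right.1 hy
    refine ⟨n, hn, ?_⟩
    rw [map_mul, (MonoidHom.mem_ker).1 hq, mul_one]
  -- back in `G`
  let P₂ : Subgroup G := P₁.map L.subtype
  have hP₂p : IsPGroup p P₂ := (P₀.isPGroup'.map _).map _
  have hP₂ne : P₂ ≠ ⊥ := by
    intro h0
    apply hP₀
    have h1 : P₁ = ⊥ := (Subgroup.map_eq_bot_iff_of_injective _ L.subtype_injective).1 h0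
    exact (Subgroup.map_eq_bot_iff_of_injective _ Q.subtype_injective).1 h1
  apply h P₂ hP₂p hP₂ne
  apply (Cfsg.Agent.Lib.QdSection.involves_iff).2
  -- the embedding of the normalizer of `P₁`
  let M : Subgroup ↥L := Subgroup.normalizer (P₁ : Set ↥L)
  have hMN : ∀ x : M, ((x : ↥L) : G) ∈ Subgroup.normalizer (P₂ : Set G) := by
    rintro ⟨x, hx⟩
    rw [Subgroup.mem_normalizer_iff]
    intro y
    constructor
    · rintro ⟨z, hz, rfl⟩
      refine ⟨x * z * x⁻¹, (Subgroup.mem_normalizer_iff.1 hx z).1 hz, ?_⟩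
      simp
    · rintro ⟨z, hz, hze⟩
      have hy : y = ((x⁻¹ * z * x : ↥L) : G) := by
        simp only [Subgroup.coe_subtype] at hze
        simp only [Subgroup.coe_mul, Subgroup.coe_inv]
        rw [hze]
        group
      refine ⟨x⁻¹ * z * x, ?_, hy.symm⟩
      have e : x * (x⁻¹ * z * x) * x⁻¹ = z := by group
      exact (Subgroup.mem_normalizer_iff.1 hx _).2 (by rw [e]; exact hz)
  let g : M →* ↥(Subgroup.normalizer (P₂ : Set G)) :=
    { toFun := fun x => ⟨((x : ↥L) : G), hMN x⟩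
      map_one' := rfl
      map_mul' := fun _ _ => rfl }
  have hg : Function.Injective g := by
    intro a b hab
    apply Subtype.ext
    apply Subtype.ext
    exact congrArg (fun y : ↥(Subgroup.normalizer (P₂ : Set G)) => (y : G)) hab
  refine ⟨g.range, (f.comp M.subtype).comp (MonoidHom.ofInjective hg).symm.toMonoidHom, ?_⟩
  intro B
  obtain ⟨x, hx, hxB⟩ := hsurj B
  refine ⟨MonoidHom.ofInjective hg ⟨x, hx⟩, ?_⟩
  simp only [MonoidHom.comp_apply, MulEquiv.coe_toMonoidHom, MulEquiv.symm_apply_apply]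
  exact hxB

end Cfsg.Agent.S2004
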