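import Cfsg.Statements.S2009
import Mathlib

set_option autoImplicit false
open Cfsg

namespace Cfsg.Agent.S2009

theorem inv_of_fpf {H : Type*} [Group H] [Finite H] (N : Subgroup H) [hN : N.Normal] (z : H) (hz : z * z = 1)
    (hfp : ∀ n ∈ N, z * n * z⁻¹ = n → n = 1) : ∀ n ∈ N, z * n * z⁻¹ = n⁻¹ := by
  have hzi : z⁻¹ = z := by rw [inv_eq_iff_mul_eq_one]; exact hz
  let f : N → N := fun x => ⟨(x : H)⁻¹ * (z * x * z⁻¹), N.mul_mem (N.inv_mem x.2) (hN.conj_mem _ x.2 z)⟩
  have hf : Function.Injective f := by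
    intro a b hab
    have h1 : (a : H)⁻¹ * (z * a * z⁻¹) = (b : H)⁻¹ * (z * b * z⁻¹) := congrArg Subtype.val hab
    have h2 : z * ((b : H) * (a : H)⁻¹) * z⁻¹ = (b : H) * (a : H)⁻¹ := by
      have e1 : z * ((b : H) * (a : H)⁻¹) * z⁻¹ = (z * b * z⁻¹) * (z * a * z⁻¹)⁻¹ := by group
      have e2 : z * (a : H) * z⁻¹ = (a : H) * ((b : H)⁻¹ * (z * b * z⁻¹)) := by
        rw [← h1]; group
      rw [e1, e2]; group
    have h3 := hfp _ (N.mul_mem b.2 (N.inv_mem a.2)) h2
    apply Subtype.ext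
    exact (mul_inv_eq_one.1 h3).symm
  have hs : Function.Surjective f := Finite.surjective_of_injective hf
  intro n hn
  obtain ⟨x, hx⟩ := hs ⟨n, hn⟩
  have hxn : (x : H)⁻¹ * (z * x * z⁻¹) = n := congrArg Subtype.val hx
  rw [← hxn]
  have hL : z * ((x : H)⁻¹ * (z * x * z)) * z = z * (x : H)⁻¹ * z * x * (z * z) := by group
  have hR : ((x : H)⁻¹ * (z * x * z))⁻¹ = z⁻¹ * (x : H)⁻¹ * z⁻¹ * x := by group
  rw [hzi, hL, hR, hz, mul_one, hzi]

theorem eq_bot_of_four {H : Type*} [Group H] [Finite H] (z : H) (hz : orderOf z = 2)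
    (hN : ∀ N : Subgroup H, N.Normal → N ≠ ⊤ → N ⊓ Subgroup.centralizer ({z} : Set H) = ⊥) (E : Subgroup H)
    (hE : IsKleinFour ↥E) (hzE : z ∈ E) (hc : ∀ e ∈ E, e ≠ 1 → IsConj z e) (N : Subgroup H) [hNn : N.Normal]
    (hne : N ≠ ⊤) : N = ⊥ := by
  have hz2 : z * z = 1 := by
    have := pow_orderOf_eq_one z
    rw [hz, pow_two] at this
    exact this
  have hz1 : z ≠ 1 := by
    intro h
    rw [h, orderOf_one] at hz
    omega
  have hzN := hN N hNn hne
  have hfp : ∀ u, IsConj z u → ∀ n ∈ N, u * n * u⁻¹ = n → n = 1 := by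
    intro u hu n hn hun
    obtain ⟨g, rfl⟩ := isConj_iff.1 hu
    have h1 : g⁻¹ * n * g ∈ N := by
      have := hNn.conj_mem n hn g⁻¹
      simpa using this
    have h2 : g⁻¹ * n * g ∈ Subgroup.centralizer ({z} : Set H) := by
      refine Subgroup.mem_centralizer_iff.2 ?_
      intro h hh
      have hh' : h = z := hh
      rw [hh']
      have e : n = (g * z * g⁻¹) * n * (g * z * g⁻¹)⁻¹ := hun.symm
      calc z * (g⁻¹ * n * g) = z * (g⁻¹ * ((g * z * g⁻¹) * n * (g * z * g⁻¹)⁻¹) * g) := by rw [← e]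
        _ = _ := by
          have : z⁻¹ = z := by rw [inv_eq_iff_mul_eq_one]; exact hz2
          simp only [mul_inv_rev, inv_inv, this]
          simp only [mul_assoc, mul_inv_cancel_left, inv_mul_cancel_left, hz2, mul_one, ← mul_assoc z z, one_mul, inv_mul_cancel, mul_inv_cancel]
    have h3 : g⁻¹ * n * g ∈ N ⊓ Subgroup.centralizer ({z} : Set H) := ⟨h1, h2⟩
    rw [hzN, Subgroup.mem_bot] at h3
    have h4 : n = g * (g⁻¹ * n * g) * g⁻¹ := by group
    rw [h4, h3]; group
  -- a second involution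
  haveI := hE
  have hcard : Nat.card E = 4 := IsKleinFour.card_four
  obtain ⟨e, he, he1, hez⟩ : ∃ e ∈ E, e ≠ 1 ∧ e ≠ z := by
    by_contra hcon
    push Not at hcon
    have hsub : ((Set.univ : Set E)) ⊆ {1, ⟨z, hzE⟩} := by
      rintro ⟨x, hx⟩ -
      by_cases hx1 : x = 1
      · left; exact Subtype.ext hx1
      · right; exact Subtype.ext (hcon x hx hx1)
    have h1 := Set.ncard_le_ncard hsub (Set.toFinite _)
    rw [Set.ncard_univ, hcard] at h1
    have h2 := Set.ncard_insert_le (1 : E) ({⟨z, hzE⟩} : Set E)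
    rw [Set.ncard_singleton] at h2
    omega
  have hee : ∀ x ∈ E, x * x = 1 := by
    intro x hx
    have h1 : (⟨x, hx⟩ : E) * ⟨x, hx⟩ = 1 := by
      have := IsKleinFour.exponent_two (G := E)
      have h2 := Monoid.pow_exponent_eq_one (⟨x, hx⟩ : E)
      rw [this, pow_two] at h2
      exact h2
    exact congrArg Subtype.val h1
  have hzeE : z * e ∈ E := E.mul_mem hzE he
  have hze1 : z * e ≠ 1 := by
    intro h
    apply hez
    have h1 : e = z⁻¹ := eq_inv_of_mul_eq_one_right h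
    have : z⁻¹ = z := by rw [inv_eq_iff_mul_eq_one]; exact hz2
    rw [h1, this]
  have hinv_z := inv_of_fpf N z hz2 (hfp z (IsConj.refl z))
  have hinv_e := inv_of_fpf N e (hee e he) (hfp e (hc e he he1))
  rw [eq_bot_iff]
  intro n hn
  rw [Subgroup.mem_bot]
  apply hfp (z * e) (hc _ hzeE hze1) n hn
  have h1 := hinv_e n hn
  have h2 := hinv_z n⁻¹ (N.inv_mem hn)
  calc z * e * n * (z * e)⁻¹ = z * (e * n * e⁻¹) * z⁻¹ := by group
    _ = z * n⁻¹ * z⁻¹ := by rw [h1]
    _ = n := by rw [h2]; group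

/-- Let H be a finite group and z an involution such that every proper normal subgroup of H meets the centralizer of z trivially, and suppose z lies in a Klein four-subgroup E of H all three of whose involutions are conjugate to z in H. Then H is simple. -/
theorem result {H : Type*} [Group H] [Finite H] (z : H) (hz : orderOf z = 2) (hN : ∀ N : Subgroup H, N.Normal → N ≠ ⊤ → N ⊓ Subgroup.centralizer ({z} : Set H) = ⊥) (E : Subgroup H) (hE : IsKleinFour ↥E) (hzE : z ∈ E) (hc : ∀ e ∈ E, e ≠ 1 → IsConj z e) : IsSimpleGroup H := by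
  refine { exists_pair_ne := ⟨z, 1, fun h => ?_⟩, eq_bot_or_eq_top_of_normal := fun N hNn => ?_ }
  · rw [h, orderOf_one] at hz
    omega
  · by_cases hne : N = ⊤
    · exact Or.inr hne
    · exact Or.inl (eq_bot_of_four z hz hN E hE hzE hc N hne)

end Cfsg.Agent.S2009
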