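import Cfsg.Statements.S2008
import Mathlib
import Cfsg.Agent.S2009

set_option autoImplicit false
open Cfsg

namespace Cfsg.Agent.S2008

/-- Let H be a finite group and z an involution such that every proper normal subgroup of H meets the centralizer of z trivially, and suppose z lies in a Klein four-subgroup E of H all three of whose involutions are conjugate to z in H. Then H has no non-trivial abelian normal subgroup. -/
theorem result {H : Type*} [Group H] [Finite H] (z : H) (hz : orderOf z = 2) (hN : ∀ N : Subgroup H, N.Normal → N ≠ ⊤ → N ⊓ Subgroup.centralizer ({z} : Set H) = ⊥) (E : Subgroup H) (hE : IsKleinFour ↥E) (hzE : z ∈ E) (hc : ∀ e ∈ E, e ≠ 1 → IsConj z e) (N : Subgroup H) [N.Normal] (hab : IsMulCommutative ↥N) : N = ⊥ := by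
  by_cases hne : N = ⊤
  · exfalso
    subst hne
    haveI := hE
    have hcard : Nat.card E = 4 := IsKleinFour.card_four
    obtain ⟨e, he, he1, hez⟩ : ∃ e ∈ E, e ≠ 1 ∧ e ≠ z := by
      by_contra hcon
      push Not at hcon
      have hsub : ((Set.univ : Set E)) ⊆ {1, ⟨z, hzE⟩} := by
        rintro ⟨x, hx⟩ -
        by_cases hx1 : x = 1
        · left; exact Subtype.ext hx1
        · right; exact Subtype.ext (hcon x hx hx1)
      have h1 := Set.ncard_le_ncard hsub (Set.toFinite _)
      rw [Set.ncard_univ, hcard] at h1
      have h2 := Set.ncard_insert_le (1 : E) ({⟨z, hzE⟩} : Set E)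
      rw [Set.ncard_singleton] at h2
      omega
    obtain ⟨g, hg⟩ := isConj_iff.1 (hc e he he1)
    have hcomm : ∀ a b : H, a * b = b * a := by
      intro a b
      have h1 := hab.is_comm.comm (⟨a, Subgroup.mem_top a⟩ : (⊤ : Subgroup H)) ⟨b, Subgroup.mem_top b⟩
      exact congrArg Subtype.val h1
    apply hez
    rw [← hg, hcomm g z]
    group
  · exact Cfsg.Agent.S2009.eq_bot_of_four z hz hN E hE hzE hc N hne

end Cfsg.Agent.S2008
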