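import Cfsg.Statements.S2364
import Cfsg.Agent.Lib.PSLCommute
-- import your own Cfsg.Agent.* helpers here

set_option autoImplicit false
set_option linter.all false
open Cfsg

namespace Cfsg.Agent.S2364

/-- Let F be a finite field of characteristic p, n ≥ 4, and let a, b be commuting elements of PSL(n, F) with a of order p. Then every prime divisor of the order of b divides the order of SL(n − 2, F). -/
theorem result {F : Type*} [Field F] [Fintype F] (p : ℕ) [Fact p.Prime] [CharP F p] (n : ℕ) (hn : 4 ≤ n)
    (a b : Matrix.ProjectiveSpecialLinearGroup (Fin n) F) (ha : orderOf a = p) (hab : Commute a b) :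
    (orderOf b).primeFactors ⊆ (Nat.card (Matrix.SpecialLinearGroup (Fin (n - 2)) F)).primeFactors := by
  classical
  intro r hr
  obtain ⟨hrp, hrd, -⟩ := Nat.mem_primeFactors.1 hr
  refine Nat.mem_primeFactors.2 ⟨hrp, ?_, Nat.card_pos.ne'⟩
  by_cases hrep : r = p
  · subst hrep
    exact Cfsg.Agent.Lib.PSLCommute.p_dvd_card_SL (by omega)
  · obtain ⟨i, h1, h2, h3⟩ := Cfsg.Agent.Lib.PSLCommute.exists_exp (p := p) hn a b ha hab hrp hrd hrep
    by_cases hi : i = 1
    · subst hi
      rw [pow_one] at h3
      refine Cfsg.Agent.Lib.PSLCommute.dvd_card_SL (i := 2) le_rfl (by omega) (h3.trans ?_)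
      have := Nat.sub_dvd_pow_sub_pow (Fintype.card F) 1 2
      simpa using this
    · exact Cfsg.Agent.Lib.PSLCommute.dvd_card_SL (i := i) (by omega) h2 h3

end Cfsg.Agent.S2364
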