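import Cfsg.Statements.S2367
import Mathlib

set_option autoImplicit false
open Cfsg

namespace Cfsg.Agent.S2367


theorem spor_check (N a : ℕ) (ps : List ℕ) (hN : N ≠ 0) (h2 : 2 ^ a ∣ N) (hps : ∀ q ∈ ps, q.Prime)
    (hdvd : N ∣ ps.prod ^ 64)
    (hchk : ∀ p ∈ ps, p ≠ 2 → p ^ 3 ∣ N → ¬ p ^ 4 ∣ N → p ^ 3 < 2 ^ a)
    (p : ℕ) (hp : p.Prime) (hodd : p ≠ 2) (h3 : N.factorization p = 3) :
    p ^ 3 < 2 ^ N.factorization 2 := by
  have h1 : p ^ 3 ∣ N := (hp.pow_dvd_iff_le_factorization hN).2 h3.ge
  have h4 : ¬ p ^ 4 ∣ N := by
    intro h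
    have := (hp.pow_dvd_iff_le_factorization hN).1 h
    omega
  have hpd : p ∣ N := (dvd_pow_self p (by norm_num)).trans h1
  have hmem : p ∈ ps := by
    have h5 : p ∣ ps.prod := hp.dvd_of_dvd_pow (hpd.trans hdvd)
    obtain ⟨q, hq, hpq⟩ := (hp.prime.dvd_prod_iff).1 h5
    rwa [(Nat.prime_dvd_prime_iff_eq hp (hps q hq)).1 hpq]
  have h6 := hchk p hmem hodd h1 h4
  have h7 : a ≤ N.factorization 2 := (Nat.prime_two.pow_dvd_iff_le_factorization hN).1 h2
  exact h6.trans_le (Nat.pow_le_pow_right (by norm_num) h7)

theorem two_val (n : ℕ) (hn : 4 ≤ n) : n / 2 + n / 4 ≤ (n.factorial).factorization 2 := by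
  have hb : Nat.log 2 n < Nat.log 2 n + 1 := Nat.lt_succ_self _
  rw [Nat.factorization_factorial Nat.prime_two hb]
  have h2 : 2 ≤ Nat.log 2 n := by
    apply Nat.le_log_of_pow_le (by norm_num)
    simpa using hn
  have hsub : ({1, 2} : Finset ℕ) ⊆ Finset.Ico 1 (Nat.log 2 n + 1) := by
    intro x hx
    simp only [Finset.mem_insert, Finset.mem_singleton] at hx
    rw [Finset.mem_Ico]
    omega
  calc n / 2 + n / 4 = ∑ i ∈ ({1, 2} : Finset ℕ), n / 2 ^ i := by
        rw [Finset.sum_pair (by norm_num)]; norm_num
    _ ≤ _ := Finset.sum_le_sum_of_subset hsub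

theorem odd_val (n p : ℕ) (hp : p.Prime) (hodd : p ≠ 2) (hn : n < 3 * p) :
    (n.factorial).factorization p ≤ 2 := by
  have hp3 : 3 ≤ p := by
    have := hp.two_le
    omega
  have hlt : n < p ^ 2 := by nlinarith
  have hb : Nat.log p n < 2 := Nat.log_lt_of_lt_pow' (by norm_num) hlt
  rw [Nat.factorization_factorial hp hb]
  have : Finset.Ico 1 2 = {1} := rfl
  rw [this, Finset.sum_singleton, pow_one]
  have : n / p < 3 := by
    rw [Nat.div_lt_iff_lt_mul hp.pos]
    exact hn
  omega

theorem pow_aux (k : ℕ) (hk : 3 ≤ k) : 2 * k + 1 ≤ 2 ^ k := by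
  induction k, hk using Nat.le_induction with
  | base => norm_num
  | succ m hm ih =>
    rw [pow_succ]
    omega

theorem alt_case (n N p : ℕ) (h5 : 5 ≤ n) (hN : 2 * N = n.factorial) (hp : p.Prime) (hodd : p ≠ 2)
    (h3 : N.factorization p = 3) : p ^ 3 < 2 ^ N.factorization 2 := by
  have hN0 : N ≠ 0 := by
    rintro rfl
    exact (Nat.factorial_pos n).ne' (by omega)
  have hf := Nat.factorization_mul (a := 2) (b := N) (by norm_num) hN0
  rw [hN] at hf
  have hpv : (n.factorial).factorization p = 3 := by
    rw [hf]
    simp only [Finsupp.coe_add, Pi.add_apply, h3]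
    rw [Nat.Prime.factorization (Nat.prime_two)]
    simp [Finsupp.single_apply, hodd.symm]
  have h2v : (n.factorial).factorization 2 = 1 + N.factorization 2 := by
    rw [hf]
    simp only [Finsupp.coe_add, Pi.add_apply]
    rw [Nat.Prime.factorization (Nat.prime_two)]
    simp
  have hge : 3 * p ≤ n := by
    by_contra hcon
    have := odd_val n p hp hodd (by omega)
    omega
  have hval := two_val n (by omega)
  have hp3 : 3 ≤ p := by
    have := hp.two_le
    omega
  obtain ⟨k, rfl⟩ : ∃ k, p = 2 * k + 1 := by
    have := hp.eq_two_or_odd'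
    rcases this with h | ⟨k, hk⟩
    · exact absurd h hodd
    · exact ⟨k, hk⟩
  have he : 3 * k + 1 ≤ N.factorization 2 + 1 - 1 := by omega
  rcases (by omega : k = 1 ∨ k = 2 ∨ 3 ≤ k) with rfl | rfl | hk
  · have h6 : 5 ≤ N.factorization 2 := by omega
    calc (2 * 1 + 1) ^ 3 < 2 ^ 5 := by norm_num
      _ ≤ _ := Nat.pow_le_pow_right (by norm_num) h6
  · have h6 : 9 ≤ N.factorization 2 := by omega
    calc (2 * 2 + 1) ^ 3 < 2 ^ 9 := by norm_num
      _ ≤ _ := Nat.pow_le_pow_right (by norm_num) h6
  · have h6 : 3 * k + 1 ≤ N.factorization 2 := by omega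
    have h7 : 2 * k + 1 ≤ 2 ^ k := pow_aux k hk
    calc (2 * k + 1) ^ 3 ≤ (2 ^ k) ^ 3 := Nat.pow_le_pow_left h7 3
      _ = 2 ^ (3 * k) := by rw [← pow_mul, mul_comm]
      _ < 2 ^ (3 * k + 1) := Nat.pow_lt_pow_right (by norm_num) (by omega)
      _ ≤ _ := Nat.pow_le_pow_right (by norm_num) h6



/-- Let G be an alternating group of degree at least 5 or a simple group with the order of one of the 26 sporadic groups, and let p be an odd prime such that p³ is the exact power of p dividing the order of G. Then p³ is less than the 2-part of the order of G. -/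
theorem result {G : Type*} [Group G] [Finite G] (hG : Cfsg.IsAlternating G ∨ Cfsg.IsSporadic G)
    (p : ℕ) (hp : p.Prime) (hodd : p ≠ 2) (h3 : (Nat.card G).factorization p = 3) :
    p ^ 3 < 2 ^ (Nat.card G).factorization 2 := by
  classical
  rcases hG with hG | hG
  · obtain ⟨n, hn, ⟨e⟩⟩ := hG
    have hcard : Nat.card G = Nat.card (alternatingGroup (Fin n)) := Nat.card_congr e.toEquiv
    haveI : Nontrivial (Fin n) := Fin.nontrivial_iff_two_le.2 (by omega)
    have h2 : 2 * Nat.card G = n.factorial := by
      rw [hcard, Nat.card_eq_fintype_card, two_mul_card_alternatingGroup (α := Fin n), Fintype.card_perm,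
        Fintype.card_fin]
    exact alt_case n _ p hn h2 hp hodd h3
  ·
    rcases hG with hG | hG | hG | hG | hG | hG | hG | hG | hG | hG | hG | hG | hG | hG | hG | hG | hG | hG | hG | hG | hG | hG | hG | hG | hG | hG
    · have hc : Nat.card G = 7920 := hG.2
      rw [hc] at h3 ⊢
      exact spor_check 7920 4 [2, 3, 5, 11] (by norm_num) (by decide +kernel) (by simp; norm_num) (by decide +kernel)
        (by decide +kernel) p hp hodd h3
    · have hc : Nat.card G = 95040 := hG.2
      rw [hc] at h3 ⊢
      exact spor_check 95040 6 [2, 3, 5, 11] (by norm_num) (by decide +kernel) (by simp; norm_num) (by decide +kernel)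
        (by decide +kernel) p hp hodd h3
    · have hc : Nat.card G = 443520 := hG.2
      rw [hc] at h3 ⊢
      exact spor_check 443520 7 [2, 3, 5, 7, 11] (by norm_num) (by decide +kernel) (by simp; norm_num) (by decide +kernel)
        (by decide +kernel) p hp hodd h3
    · have hc : Nat.card G = 10200960 := hG.2
      rw [hc] at h3 ⊢
      exact spor_check 10200960 7 [2, 3, 5, 7, 11, 23] (by norm_num) (by decide +kernel) (by simp; norm_num) (by decide +kernel)
        (by decide +kernel) p hp hodd h3
    · have hc : Nat.card G = 244823040 := hG.2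
      rw [hc] at h3 ⊢
      exact spor_check 244823040 10 [2, 3, 5, 7, 11, 23] (by norm_num) (by decide +kernel) (by simp; norm_num) (by decide +kernel)
        (by decide +kernel) p hp hodd h3
    · have hc : Nat.card G = 175560 := hG.2
      rw [hc] at h3 ⊢
      exact spor_check 175560 3 [2, 3, 5, 7, 11, 19] (by norm_num) (by decide +kernel) (by simp; norm_num) (by decide +kernel)
        (by decide +kernel) p hp hodd h3
    · have hc : Nat.card G = 604800 := hG.2
      rw [hc] at h3 ⊢
      exact spor_check 604800 7 [2, 3, 5, 7] (by norm_num) (by decide +kernel) (by simp; norm_num) (by decide +kernel)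
        (by decide +kernel) p hp hodd h3
    · have hc : Nat.card G = 50232960 := hG.2
      rw [hc] at h3 ⊢
      exact spor_check 50232960 7 [2, 3, 5, 17, 19] (by norm_num) (by decide +kernel) (by simp; norm_num) (by decide +kernel)
        (by decide +kernel) p hp hodd h3
    · have hc : Nat.card G = 86775571046077562880 := hG.2
      rw [hc] at h3 ⊢
      exact spor_check 86775571046077562880 21 [2, 3, 5, 7, 11, 23, 29, 31, 37, 43] (by norm_num) (by decide +kernel) (by simp; norm_num) (by decide +kernel)
        (by decide +kernel) p hp hodd h3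
    · have hc : Nat.card G = 4157776806543360000 := hG.2
      rw [hc] at h3 ⊢
      exact spor_check 4157776806543360000 21 [2, 3, 5, 7, 11, 13, 23] (by norm_num) (by decide +kernel) (by simp; norm_num) (by decide +kernel)
        (by decide +kernel) p hp hodd h3
    · have hc : Nat.card G = 42305421312000 := hG.2
      rw [hc] at h3 ⊢
      exact spor_check 42305421312000 18 [2, 3, 5, 7, 11, 23] (by norm_num) (by decide +kernel) (by simp; norm_num) (by decide +kernel)
        (by decide +kernel) p hp hodd h3
    · have hc : Nat.card G = 495766656000 := hG.2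
      rw [hc] at h3 ⊢
      exact spor_check 495766656000 10 [2, 3, 5, 7, 11, 23] (by norm_num) (by decide +kernel) (by simp; norm_num) (by decide +kernel)
        (by decide +kernel) p hp hodd h3
    · have hc : Nat.card G = 64561751654400 := hG.2
      rw [hc] at h3 ⊢
      exact spor_check 64561751654400 17 [2, 3, 5, 7, 11, 13] (by norm_num) (by decide +kernel) (by simp; norm_num) (by decide +kernel)
        (by decide +kernel) p hp hodd h3
    · have hc : Nat.card G = 4089470473293004800 := hG.2
      rw [hc] at h3 ⊢
      exact spor_check 4089470473293004800 18 [2, 3, 5, 7, 11, 13, 17, 23] (by norm_num) (by decide +kernel) (by simp; norm_num) (by decide +kernel)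
        (by decide +kernel) p hp hodd h3
    · have hc : Nat.card G = 1255205709190661721292800 := hG.2
      rw [hc] at h3 ⊢
      exact spor_check 1255205709190661721292800 21 [2, 3, 5, 7, 11, 13, 17, 23, 29] (by norm_num) (by decide +kernel) (by simp; norm_num) (by decide +kernel)
        (by decide +kernel) p hp hodd h3
    · have hc : Nat.card G = 44352000 := hG.2
      rw [hc] at h3 ⊢
      exact spor_check 44352000 9 [2, 3, 5, 7, 11] (by norm_num) (by decide +kernel) (by simp; norm_num) (by decide +kernel)
        (by decide +kernel) p hp hodd h3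
    · have hc : Nat.card G = 898128000 := hG.2
      rw [hc] at h3 ⊢
      exact spor_check 898128000 7 [2, 3, 5, 7, 11] (by norm_num) (by decide +kernel) (by simp; norm_num) (by decide +kernel)
        (by decide +kernel) p hp hodd h3
    · have hc : Nat.card G = 4030387200 := hG.2
      rw [hc] at h3 ⊢
      exact spor_check 4030387200 10 [2, 3, 5, 7, 17] (by norm_num) (by decide +kernel) (by simp; norm_num) (by decide +kernel)
        (by decide +kernel) p hp hodd h3
    · have hc : Nat.card G = 145926144000 := hG.2
      rw [hc] at h3 ⊢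
      exact spor_check 145926144000 14 [2, 3, 5, 7, 13, 29] (by norm_num) (by decide +kernel) (by simp; norm_num) (by decide +kernel)
        (by decide +kernel) p hp hodd h3
    · have hc : Nat.card G = 448345497600 := hG.2
      rw [hc] at h3 ⊢
      exact spor_check 448345497600 13 [2, 3, 5, 7, 11, 13] (by norm_num) (by decide +kernel) (by simp; norm_num) (by decide +kernel)
        (by decide +kernel) p hp hodd h3
    · have hc : Nat.card G = 460815505920 := hG.2
      rw [hc] at h3 ⊢
      exact spor_check 460815505920 9 [2, 3, 5, 7, 11, 19, 31] (by norm_num) (by decide +kernel) (by simp; norm_num) (by decide +kernel)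
        (by decide +kernel) p hp hodd h3
    · have hc : Nat.card G = 273030912000000 := hG.2
      rw [hc] at h3 ⊢
      exact spor_check 273030912000000 14 [2, 3, 5, 7, 11, 19] (by norm_num) (by decide +kernel) (by simp; norm_num) (by decide +kernel)
        (by decide +kernel) p hp hodd h3
    · have hc : Nat.card G = 51765179004000000 := hG.2
      rw [hc] at h3 ⊢
      exact spor_check 51765179004000000 8 [2, 3, 5, 7, 11, 31, 37, 67] (by norm_num) (by decide +kernel) (by simp; norm_num) (by decide +kernel)
        (by decide +kernel) p hp hodd h3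
    · have hc : Nat.card G = 90745943887872000 := hG.2
      rw [hc] at h3 ⊢
      exact spor_check 90745943887872000 15 [2, 3, 5, 7, 13, 19, 31] (by norm_num) (by decide +kernel) (by simp; norm_num) (by decide +kernel)
        (by decide +kernel) p hp hodd h3
    · have hc : Nat.card G = 4154781481226426191177580544000000 := hG.2
      rw [hc] at h3 ⊢
      exact spor_check 4154781481226426191177580544000000 41 [2, 3, 5, 7, 11, 13, 17, 19, 23, 31, 47] (by norm_num) (by decide +kernel) (by simp; norm_num) (by decide +kernel)
        (by decide +kernel) p hp hodd h3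
    · have hc : Nat.card G = 808017424794512875886459904961710757005754368000000000 := hG.2
      rw [hc] at h3 ⊢
      exact spor_check 808017424794512875886459904961710757005754368000000000 46 [2, 3, 5, 7, 11, 13, 17, 19, 23, 29, 31, 41, 47, 59, 71] (by norm_num) (by decide +kernel) (by simp; norm_num) (by decide +kernel)
        (by decide +kernel) p hp hodd h3

end Cfsg.Agent.S2367
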