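import Cfsg.Statements.S2368
import Mathlib

set_option autoImplicit false
open Cfsg

namespace Cfsg.Agent.S2368

/-- Let F be a finite field of characteristic p and m ≥ 1. Every element of GL(m, F) of p-power order has order less than p·m, and GL(m, F) has an element of p-power order at least m; so the largest order of a p-element of GL(m, F) is the least power of p that is at least m. -/
theorem result {F : Type*} [Field F] [Fintype F] (p : ℕ) [Fact p.Prime] [CharP F p] (m : ℕ) (hm : 1 ≤ m) :
    (∀ g : Matrix.GeneralLinearGroup (Fin m) F, (∃ j : ℕ, orderOf g = p ^ j) → orderOf g < p * m) ∧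
      ∃ g : Matrix.GeneralLinearGroup (Fin m) F, (∃ j : ℕ, orderOf g = p ^ j) ∧ m ≤ orderOf g := by
  classical
  haveI : NeZero m := ⟨by omega⟩
  haveI hne : Nonempty (Fin m) := ⟨⟨0, by omega⟩⟩
  haveI : CharP (Matrix (Fin m) (Fin m) F) p := Matrix.charP p
  have hp := (Fact.out : p.Prime)
  -- nilpotent matrices
  have hnil : ∀ M : Matrix (Fin m) (Fin m) F, IsNilpotent M → M ^ m = 0 := by
    intro M hM
    have h1 := Matrix.isNilpotent_charpoly_sub_pow_of_isNilpotent hM
    have h2 : M.charpoly - Polynomial.X ^ Fintype.card (Fin m) = 0 := h1.eq_zero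
    have h3 := Matrix.aeval_self_charpoly M
    rw [sub_eq_zero.1 h2] at h3
    simpa using h3
  constructor
  · rintro g ⟨j, hj⟩
    set M : Matrix (Fin m) (Fin m) F := (g : Matrix (Fin m) (Fin m) F) with hM
    have hMj : M ^ (p ^ j) = 1 := by
      rw [hM, ← Units.val_pow_eq_pow_val, ← hj, pow_orderOf_eq_one]
      rfl
    have h1 : (M - 1) ^ (p ^ j) = 0 := by
      rw [sub_pow_char_pow_of_commute p j (Commute.one_right M), hMj, one_pow, sub_self]
    have h2 : (M - 1) ^ m = 0 := hnil _ ⟨_, h1⟩
    have hex : ∃ t, m ≤ p ^ t := ⟨m, (Nat.lt_pow_self hp.one_lt).le⟩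
    set t := Nat.find hex with ht
    have htm : m ≤ p ^ t := Nat.find_spec hex
    have h3 : M ^ (p ^ t) = 1 := by
      have h4 := sub_pow_char_pow_of_commute p t (Commute.one_right M)
      rw [one_pow, pow_eq_zero_of_le htm h2] at h4
      exact (sub_eq_zero.1 h4.symm)
    have h4 : g ^ (p ^ t) = 1 := by
      apply Units.ext
      rw [Units.val_pow_eq_pow_val]
      exact h3
    have h5 : orderOf g ≤ p ^ t := Nat.le_of_dvd (pow_pos hp.pos _) (orderOf_dvd_of_pow_eq_one h4)
    refine lt_of_le_of_lt h5 ?_
    rcases Nat.eq_zero_or_pos t with h0 | h0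
    · rw [h0, pow_zero]
      have := hp.one_lt
      nlinarith
    · have h6 : ¬ m ≤ p ^ (t - 1) := Nat.find_min hex (by omega)
      have h7 : p ^ t = p * p ^ (t - 1) := by
        rw [← pow_succ']
        congr 1
        omega
      rw [h7]
      have h8 : p ^ (t - 1) < m := by omega
      exact Nat.mul_lt_mul_of_pos_left h8 hp.pos
  · -- the shift
    set N : Matrix (Fin m) (Fin m) F := Matrix.of fun i j => if (j : ℕ) = i + 1 then 1 else 0 with hN
    have hN1 : ∀ a b : Fin m, N a b = if (b : ℕ) = a + 1 then 1 else 0 := fun _ _ => rfl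
    have hNk : ∀ (k : ℕ) (i j : Fin m), (N ^ k) i j = if (j : ℕ) = i + k then 1 else 0 := by
      intro k
      induction k with
      | zero =>
        intro i j
        simp only [pow_zero, Matrix.one_apply, add_zero, Fin.ext_iff, eq_comm]
      | succ k ih =>
        intro i j
        rw [pow_succ, Matrix.mul_apply]
        simp only [ih, hN1]
        by_cases hj : (j : ℕ) = i + (k + 1)
        · rw [if_pos hj]
          have hl : (i : ℕ) + k < m := by have := j.2; omega
          have hj' : (j : ℕ) = ((⟨i + k, hl⟩ : Fin m) : ℕ) + 1 := by simp; omega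
          rw [Finset.sum_eq_single (⟨i + k, hl⟩ : Fin m)]
          · simp only [if_true]
            rw [if_pos hj']
            simp
          · intro b _ hb
            have : (b : ℕ) ≠ i + k := fun h => hb (Fin.ext h)
            simp [this]
          · simp
        · rw [if_neg hj]
          apply Finset.sum_eq_zero
          intro b _
          by_cases h1 : (b : ℕ) = i + k
          · have : (j : ℕ) ≠ b + 1 := by omega
            simp [this]
          · simp [h1]
    have hNm : N ^ m = 0 := by
      ext i j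
      rw [hNk]
      have h1 := j.2
      have h2 : (j : ℕ) ≠ i + m := by omega
      simp [h2]
    have hNne : ∀ k, k < m → N ^ k ≠ 0 := by
      intro k hk h0
      have h1 := hNk k ⟨0, by omega⟩ ⟨k, hk⟩
      rw [h0] at h1
      simp at h1
    obtain ⟨g, hg⟩ : IsUnit (1 + N) := IsNilpotent.isUnit_one_add ⟨_, hNm⟩
    have hgpow : ∀ t, ((g ^ (p ^ t) : Matrix.GeneralLinearGroup (Fin m) F) : Matrix (Fin m) (Fin m) F) = 1 + N ^ (p ^ t) := by
      intro t
      rw [Units.val_pow_eq_pow_val, hg, add_pow_char_pow_of_commute p t (Commute.one_left N), one_pow]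
    have hex : ∃ t, m ≤ p ^ t := ⟨m, (Nat.lt_pow_self hp.one_lt).le⟩
    obtain ⟨t, ht⟩ := hex
    have h1 : g ^ (p ^ t) = 1 := by
      apply Units.ext
      rw [hgpow, pow_eq_zero_of_le ht hNm, add_zero]
      rfl
    obtain ⟨j, _, hj⟩ := (Nat.dvd_prime_pow hp).1 (orderOf_dvd_of_pow_eq_one h1)
    refine ⟨g, ⟨j, hj⟩, ?_⟩
    rw [hj]
    by_contra hlt
    push Not at hlt
    apply hNne _ hlt
    have h2 : g ^ (p ^ j) = 1 := by
      rw [← hj]; exact pow_orderOf_eq_one g
    have h3 := hgpow j
    rw [h2] at h3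
    have h4 : (1 : Matrix (Fin m) (Fin m) F) = 1 + N ^ (p ^ j) := h3
    exact (left_eq_add.1 h4)

end Cfsg.Agent.S2368
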