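import Cfsg.Statements.S2385
import Cfsg.Agent.Lib.SpCount
import Cfsg.Agent.S2389
-- import your own Cfsg.Agent.* helpers here

set_option autoImplicit false
set_option linter.all false
open Cfsg

namespace Cfsg.Agent.S2385

/-- In the symplectic group `Sp_{2n}(q)`, `q` a power of the prime `p`, the number of conjugacy classes of elements of order prime to `p` is `q^n`. -/
theorem result {F : Type*} [Field F] [Fintype F] {q : ℕ} (hq : Fintype.card F = q) (p : ℕ) [Fact p.Prime] [CharP F p] (n : ℕ) :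
    Nat.card {c : ConjClasses ↥(Matrix.symplecticGroup (Fin n) F) //
      ∃ g : ↥(Matrix.symplecticGroup (Fin n) F), ConjClasses.mk g = c ∧ (orderOf g).Coprime p} = q ^ n := by
  classical
  rw [← hq, ← Cfsg.Agent.Lib.SpCount.card_pal (F := F) n]
  have hex : ∀ f : {f : Polynomial F // f.Monic ∧ f.natDegree = n + n ∧ f.reverse = f},
      ∃ g : ↥(Matrix.symplecticGroup (Fin n) F), (g : Matrix (Fin n ⊕ Fin n) (Fin n ⊕ Fin n) F).charpoly = f.1 ∧ (orderOf g).Coprime p := by
    rintro ⟨f, hm, hd, hrev⟩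
    obtain ⟨g, hg, hch, N, hN, hgN⟩ := Cfsg.Agent.Lib.SpCount.exists_sp (p := p) n f hm hd hrev
    refine ⟨⟨g, hg⟩, hch, ?_⟩
    have h1 : (⟨g, hg⟩ : ↥(Matrix.symplecticGroup (Fin n) F)) ^ N = 1 := Subtype.ext hgN
    exact Nat.Coprime.coprime_dvd_left (orderOf_dvd_of_pow_eq_one h1) hN
  choose γ hγ1 hγ2 using hex
  let Ψ : {f : Polynomial F // f.Monic ∧ f.natDegree = n + n ∧ f.reverse = f} →
      {c : ConjClasses ↥(Matrix.symplecticGroup (Fin n) F) //
        ∃ g : ↥(Matrix.symplecticGroup (Fin n) F), ConjClasses.mk g = c ∧ (orderOf g).Coprime p} :=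
    fun f => ⟨ConjClasses.mk (γ f), γ f, rfl, hγ2 f⟩
  have hb : Function.Bijective Ψ := by
    constructor
    · intro f f' h
      have h1 : ConjClasses.mk (γ f) = ConjClasses.mk (γ f') := congrArg Subtype.val h
      have h2 := ConjClasses.mk_eq_mk_iff_isConj.1 h1
      have h3 := Cfsg.Agent.Lib.SpCount.charpoly_of_conj h2
      rw [hγ1, hγ1] at h3
      exact Subtype.ext h3
    · rintro ⟨c, g, rfl, hg⟩
      refine ⟨⟨(g : Matrix (Fin n ⊕ Fin n) (Fin n ⊕ Fin n) F).charpoly, Matrix.charpoly_monic _, ?_,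
        Cfsg.Agent.Lib.SpCount.charpoly_pal g.1 g.2⟩, ?_⟩
      · rw [Matrix.charpoly_natDegree_eq_dim]
        simp
      · apply Subtype.ext
        apply ConjClasses.mk_eq_mk_iff_isConj.2
        exact Cfsg.Agent.S2389.result p n _ _ (hγ2 _) hg (by rw [hγ1])
  exact (Nat.card_eq_of_bijective Ψ hb).symm

end Cfsg.Agent.S2385
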