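import Cfsg.Statements.S2387
import Cfsg.Agent.Lib.GLClass
-- import your own Cfsg.Agent.* helpers here

set_option autoImplicit false
set_option linter.all false
open scoped MatrixGroups
open Cfsg

namespace Cfsg.Agent.S2387

/-- In `GL_n(q)` with `n ≥ 1`, `q` a power of the prime `p`, the number of conjugacy classes of elements of order prime to `p` (diagonalisable over the algebraic closure; determined by the characteristic polynomial) is `(q - 1) q^(n-1)`. -/
theorem result {F : Type*} [Field F] [Fintype F] {q : ℕ} (hq : Fintype.card F = q) (p : ℕ) [Fact p.Prime] [CharP F p] (n : ℕ) (hn : 1 ≤ n) :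
    Nat.card {c : ConjClasses (GL (Fin n) F) // ∃ g : GL (Fin n) F, ConjClasses.mk g = c ∧ (orderOf g).Coprime p} = (q - 1) * q ^ (n - 1) := by
  obtain ⟨k, rfl⟩ : ∃ k, n = k + 1 := ⟨n - 1, by omega⟩
  rw [Cfsg.Agent.Lib.GLClass.card_classes_GL (p := p), Cfsg.Agent.Lib.GLClass.card_monic k (fun c => c ≠ 0), hq]
  have h1 : Nat.card {c : F // c ≠ 0} = q - 1 := by
    rw [← Nat.card_congr (unitsEquivNeZero (G₀ := F)), Nat.card_units, Nat.card_eq_fintype_card, hq]
  rw [h1]
  simp

end Cfsg.Agent.S2387
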