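import Cfsg.Statements.S2392
import Mathlib
import Cfsg.Agent.Lib.CrossChar

set_option autoImplicit false
open scoped MatrixGroups
open Cfsg

namespace Cfsg.Agent.S2392

/-- A lower bound for representations in cross characteristic: for `n ≥ 3` and a field `F` with `q` elements, every homomorphism from `SL_n(F)` to `GL_d(K)`, `K` a field of characteristic different from that of `F`, whose kernel is central has `d ≥ q^(n-1) - 1`. -/
theorem result {F : Type*} [Field F] [Fintype F] {q : ℕ} (hq : Fintype.card F = q) (n : ℕ) (hn : 3 ≤ n)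
    {K : Type*} [Field K] (hK : ringChar K ≠ ringChar F) {d : ℕ}
    (ρ : Matrix.SpecialLinearGroup (Fin n) F →* GL (Fin d) K) (hker : ρ.ker ≤ Subgroup.center (Matrix.SpecialLinearGroup (Fin n) F)) :
    q ^ (n - 1) - 1 ≤ d := by
  classical
  subst hq
  obtain ⟨m, rfl⟩ : ∃ m, n = m + 1 := ⟨n - 1, by omega⟩
  simp only [Nat.add_sub_cancel]
  let χ := AddChar.FiniteField.primitiveChar F K hK
  let K₁ := CyclotomicField χ.n K
  have hp : ((Fintype.card F : ℕ) : K) ≠ 0 := by
    obtain ⟨f, hf, hcard⟩ := FiniteField.card F (ringChar F)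
    intro h0
    have hp' : (ringChar F).Prime := hf
    rw [hcard, Nat.cast_pow] at h0
    have h1 : ((ringChar F : ℕ) : K) = 0 := pow_eq_zero_iff (by simpa using f.pos.ne') |>.1 h0
    have h2 := (CharP.cast_eq_zero_iff K (ringChar K) (ringChar F)).1 h1
    rcases (Nat.dvd_prime hp').1 h2 with h3 | h3
    · exact CharP.ringChar_ne_one h3
    · exact hK h3
  have hq : ((Fintype.card (Fin m → F) : ℕ) : K₁) ≠ 0 := by
    have h1 : ((Fintype.card (Fin m → F) : ℕ) : K₁) = algebraMap K K₁ (((Fintype.card F : ℕ) : K) ^ m) := by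
      simp
    rw [h1]
    intro h2
    rw [map_eq_zero_iff _ (algebraMap K K₁).injective] at h2
    exact hp ((pow_eq_zero_iff (by omega : m ≠ 0)).1 h2)
  let e : Fin m ⊕ Unit ≃ Fin (m + 1) := Fintype.equivFinOfCardEq (by simp)
  let ρ' : Matrix.SpecialLinearGroup (Fin m ⊕ Unit) F →* GL (Fin d) K₁ :=
    (Matrix.GeneralLinearGroup.map (algebraMap K K₁)).comp (ρ.comp (Cfsg.Agent.Lib.CrossChar.slReindex e))
  have hmapinj : Function.Injective (Matrix.GeneralLinearGroup.map (n := Fin d) (algebraMap K K₁)) := by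
    intro x y hxy
    apply Units.ext
    ext i j
    have h1 := congrArg (fun M : GL (Fin d) K₁ => (M : Matrix (Fin d) (Fin d) K₁) i j) hxy
    exact (algebraMap K K₁).injective h1
  have hker' : ∀ x, ρ' x = 1 → x ∈ Subgroup.center (Matrix.SpecialLinearGroup (Fin m ⊕ Unit) F) := by
    intro x hx
    have h1 : ρ (Cfsg.Agent.Lib.CrossChar.slReindex e x) = 1 := by
      apply hmapinj
      rw [map_one]
      exact hx
    have h2 := hker (MonoidHom.mem_ker.2 h1)
    rw [Subgroup.mem_center_iff] at h2 ⊢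
    intro g
    apply Cfsg.Agent.Lib.CrossChar.slReindex_injective e
    rw [map_mul, map_mul]
    exact h2 _
  have h := Cfsg.Agent.Lib.CrossChar.sl_bound χ.prim (ι := Fin m) (by simp; omega) hq ρ' hker'
  simpa using h

end Cfsg.Agent.S2392
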