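import Cfsg.Statements.S2393
import Mathlib
import Cfsg.Agent.Lib.CrossChar

set_option autoImplicit false
open scoped MatrixGroups
open Cfsg

namespace Cfsg.Agent.S2393

/-- A lower bound for representations in cross characteristic: for `n ≥ 2` and a field `F` with `q` elements, `q` odd, every homomorphism from the symplectic group `Sp_{2n}(F)` to `GL_d(K)`, `K` a field of characteristic different from that of `F`, whose kernel is central has `d ≥ q^(n-1)(q-1)/2`. -/
theorem result {F : Type*} [Field F] [Fintype F] {q : ℕ} (hq : Fintype.card F = q) (hodd : Odd q) (n : ℕ) (hn : 2 ≤ n)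
    {K : Type*} [Field K] (hK : ringChar K ≠ ringChar F) {d : ℕ}
    (ρ : ↥(Matrix.symplecticGroup (Fin n) F) →* GL (Fin d) K) (hker : ρ.ker ≤ Subgroup.center ↥(Matrix.symplecticGroup (Fin n) F)) :
    q ^ (n - 1) * (q - 1) / 2 ≤ d := by
  classical
  subst hq
  let χ := AddChar.FiniteField.primitiveChar F K hK
  let K₁ := CyclotomicField χ.n K
  have hp : ((Fintype.card F : ℕ) : K) ≠ 0 := by
    obtain ⟨f, hf, hcard⟩ := FiniteField.card F (ringChar F)
    intro h0
    have hp' : (ringChar F).Prime := hf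
    rw [hcard, Nat.cast_pow] at h0
    have h1 : ((ringChar F : ℕ) : K) = 0 := pow_eq_zero_iff (by simpa using f.pos.ne') |>.1 h0
    have h2 := (CharP.cast_eq_zero_iff K (ringChar K) (ringChar F)).1 h1
    rcases (Nat.dvd_prime hp').1 h2 with h3 | h3
    · exact CharP.ringChar_ne_one h3
    · exact hK h3
  have hq : ((Fintype.card (Fin n → F) : ℕ) : K₁) ≠ 0 := by
    have h1 : ((Fintype.card (Fin n → F) : ℕ) : K₁) = algebraMap K K₁ (((Fintype.card F : ℕ) : K) ^ n) := by
      simp
    rw [h1]
    intro h2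
    rw [map_eq_zero_iff _ (algebraMap K K₁).injective] at h2
    exact hp ((pow_eq_zero_iff (by omega : n ≠ 0)).1 h2)
  have hF2 : (2 : F) ≠ 0 := by
    apply Ring.two_ne_zero
    intro h
    have h1 := FiniteField.even_card_iff_char_two.1 h
    rw [Nat.odd_iff] at hodd
    omega
  let ρ' : ↥(Matrix.symplecticGroup (Fin n) F) →* GL (Fin d) K₁ :=
    (Matrix.GeneralLinearGroup.map (algebraMap K K₁)).comp ρ
  have hmapinj : Function.Injective (Matrix.GeneralLinearGroup.map (n := Fin d) (algebraMap K K₁)) := by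
    intro x y hxy
    apply Units.ext
    ext i j
    have h1 := congrArg (fun M : GL (Fin d) K₁ => (M : Matrix (Fin d) (Fin d) K₁) i j) hxy
    exact (algebraMap K K₁).injective h1
  have hker' : ∀ x, ρ' x = 1 → x ∈ Subgroup.center ↥(Matrix.symplecticGroup (Fin n) F) := by
    intro x hx
    have h1 : ρ x = 1 := by
      apply hmapinj
      rw [map_one]
      exact hx
    exact hker (MonoidHom.mem_ker.2 h1)
  have h := Cfsg.Agent.Lib.CrossChar.sp_bound χ.prim hF2 (⟨0, by omega⟩ : Fin n) hq ρ' hker'
  have h2 : Fintype.card ({j // j ≠ (⟨0, by omega⟩ : Fin n)} → F) = Fintype.card F ^ (n - 1) := by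
    rw [Fintype.card_fun]
    simp
  rw [h2] at h
  apply Nat.div_le_of_le_mul
  rw [mul_comm (Fintype.card F ^ (n - 1))]
  exact h

end Cfsg.Agent.S2393
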