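import Cfsg.Statements.S2395
import Mathlib

set_option autoImplicit false
open Cfsg

namespace Cfsg.Agent.S2395


open scoped commutatorElement
open Cfsg.Lie

section aux
variable {K : Type*} [Field K] (D : ChevalleyDatum)

/-- The image of a generator in the abelianization of the cover. -/
noncomputable def psi (r : ℕ) (t : K) : Abelianization (D.SteinbergCover K) :=
  Abelianization.of (D.scGen K r t)

theorem psi_add {r : ℕ} (hr : r < D.nroots) (t₁ t₂ : K) :
    psi D r t₁ * psi D r t₂ = psi D r (t₁ + t₂) := by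
  have hmem : D.stX r t₁ * D.stX r t₂ * (D.stX r (t₁ + t₂))⁻¹ ∈ D.steinbergRelsAB K :=
    Or.inl ⟨r, t₁, t₂, hr, rfl⟩
  have h1 := PresentedGroup.one_of_mem hmem
  have h2 : D.scGen K r t₁ * D.scGen K r t₂ * (D.scGen K r (t₁ + t₂))⁻¹ = 1 := by
    simpa [ChevalleyDatum.scGen, map_mul, map_inv] using h1
  have h3 := congrArg Abelianization.of h2
  simp only [map_mul, map_inv, map_one] at h3
  have h4 : psi D r t₁ * psi D r t₂ * (psi D r (t₁ + t₂))⁻¹ = 1 := h3
  rwa [mul_inv_eq_one] at h4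

theorem mk_stWord (w : List (ℕ × K)) :
    PresentedGroup.mk (D.steinbergRelsAB K) (D.stWord w) = (w.map fun p => D.scGen K p.1 p.2).prod := by
  unfold ChevalleyDatum.stWord
  rw [map_list_prod, List.map_map]
  rfl

theorem psi_rel {r s : ℕ} (hr : r < D.nroots) (hs : s < D.nroots) (h1 : s ≠ r) (h2 : s ≠ D.neg r) (t u : K) :
    ((D.commWord K r s t u).map fun p => psi D p.1 p.2).prod = 1 := by
  have hmem : (D.stX s u)⁻¹ * (D.stX r t)⁻¹ * D.stX s u * D.stX r t * (D.stWord (D.commWord K r s t u))⁻¹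
      ∈ D.steinbergRelsAB K := Or.inr ⟨r, s, t, u, hr, hs, h1, h2, rfl⟩
  have h3 := PresentedGroup.one_of_mem hmem
  have h4 : (D.scGen K s u)⁻¹ * (D.scGen K r t)⁻¹ * D.scGen K s u * D.scGen K r t *
      (PresentedGroup.mk (D.steinbergRelsAB K) (D.stWord (D.commWord K r s t u)))⁻¹ = 1 := by
    simpa [ChevalleyDatum.scGen, map_mul, map_inv] using h3
  have h5 := congrArg Abelianization.of h4
  rw [mk_stWord] at h5
  simp only [map_mul, map_inv, map_one, map_list_prod, List.map_map] at h5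
  have h6 : (psi D s u)⁻¹ * (psi D r t)⁻¹ * psi D s u * psi D r t *
      (((D.commWord K r s t u).map fun p => psi D p.1 p.2).prod)⁻¹ = 1 := h5
  have h7 : (psi D s u)⁻¹ * (psi D r t)⁻¹ * psi D s u * psi D r t = 1 := by
    rw [mul_comm (psi D s u)⁻¹, mul_assoc (psi D r t)⁻¹, mul_assoc, inv_mul_cancel]
    simp
  rw [h7, one_mul, inv_eq_one] at h6
  exact h6

theorem perf_of_psi (h : ∀ r < D.nroots, ∀ t : K, psi D r t = 1) : commutator (D.SteinbergCover K) = ⊤ := by
  rw [eq_top_iff, ← PresentedGroup.closure_range_of, Subgroup.closure_le]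
  rintro _ ⟨⟨⟨r, hr⟩, t⟩, rfl⟩
  have h1 : psi D r t = 1 := h r hr t
  have h2 : D.scGen K r t ∈ (Abelianization.of (G := D.SteinbergCover K)).ker := h1
  rw [Abelianization.ker_of] at h2
  have h3 : D.scGen K r t = PresentedGroup.of (⟨r, hr⟩, t) := by
    simp [ChevalleyDatum.scGen, ChevalleyDatum.stX, hr, PresentedGroup.of]
  rw [← h3]
  exact h2

/-- The commutator relation with a single term and coefficient `± 1`. -/
def checkPair (p a b : ℕ) : Bool :=
  decide (a < D.nroots) && decide (b < D.nroots) && decide (b ≠ a) && decide (b ≠ D.neg a) &&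
    match D.commTerms a b with
    | [(k, c, 1, 1)] => decide (k = p) && decide (c = 1 ∨ c = -1)
    | _ => false

theorem psi_of_check {p a b : ℕ} (h : checkPair D p a b = true) (v : K) : psi D p v = 1 := by
  unfold checkPair at h
  simp only [Bool.and_eq_true, decide_eq_true_eq] at h
  obtain ⟨⟨⟨⟨ha, hb⟩, h1⟩, h2⟩, h3⟩ := h
  split at h3
  · rename_i k c heq
    simp only [Bool.and_eq_true, decide_eq_true_eq] at h3
    obtain ⟨rfl, hc⟩ := h3
    have h4 := psi_rel D (K := K) ha hb h1 h2 (-((c : K) * v)) 1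
    have hcc : (c : K) * (c : K) = 1 := by
      rcases hc with rfl | rfl <;> simp
    have e : (c : K) * (-(-((c : K) * v))) ^ 1 * 1 ^ 1 = v := by
      simp only [neg_neg, pow_one, one_pow, mul_one]
      rw [← mul_assoc, hcc, one_mul]
    simp only [ChevalleyDatum.commWord, heq, List.map_cons, List.map_nil, List.prod_cons, List.prod_nil, mul_one] at h4
    rwa [e] at h4
  · simp at h3

def checkAll (tbl : List (ℕ × ℕ)) : Bool :=
  (List.range D.nroots).all fun p => checkPair D p (tbl.getD p (0, 0)).1 (tbl.getD p (0, 0)).2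

theorem perf_of_checkAll {tbl : List (ℕ × ℕ)} (h : checkAll D tbl = true) : commutator (D.SteinbergCover K) = ⊤ := by
  apply perf_of_psi
  intro r hr t
  unfold checkAll at h
  rw [List.all_eq_true] at h
  exact psi_of_check D (h r (List.mem_range.2 hr)) t

/-- Two values of the scaling parameter separate the two terms. -/
theorem double_core {A : Type*} [CommGroup A] (f₁ f₂ : K → A)
    (h₁ : ∀ a b, f₁ (a + b) = f₁ a * f₁ b) (h₂ : ∀ a b, f₂ (a + b) = f₂ a * f₂ b)
    {c₁ c₂ : K} (hc₁ : c₁ ≠ 0) (hc₂ : c₂ ≠ 0) {x : K} (hx0 : x ≠ 0) (hx1 : x ≠ 1)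
    (hrel : ∀ t u, f₁ (c₁ * (-t) * u) * f₂ (c₂ * (-t) ^ 2 * u) = 1) :
    (∀ v, f₁ v = 1) ∧ (∀ v, f₂ v = 1) := by
  have hneg : ∀ a, f₂ (-a) = (f₂ a)⁻¹ := by
    intro a
    have h0 : f₂ 0 = 1 := by
      have := h₂ 0 0
      simpa using this
    have := h₂ a (-a)
    rw [add_neg_cancel, h0] at this
    exact eq_inv_of_mul_eq_one_right this.symm
  have hk2 : ∀ v, f₂ v = 1 := by
    intro v
    have hx1' : x - 1 ≠ 0 := sub_ne_zero.2 hx1
    set w := v / (c₂ * (x - 1)) with hw
    have e1 := hrel 1 w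
    have e2 := hrel x (w / x)
    have e3 : c₁ * (-x) * (w / x) = c₁ * (-1) * w := by
      field_simp
    have e4 : c₂ * (-x) ^ 2 * (w / x) = c₂ * x * w := by
      field_simp
    rw [e3, e4] at e2
    have e5 : c₂ * (-1 : K) ^ 2 * w = c₂ * w := by ring
    rw [e5] at e1
    have e6 : f₂ (c₂ * x * w) = f₂ (c₂ * w) := by
      have := e1.trans e2.symm
      exact (mul_left_cancel this).symm
    have e7 : v = c₂ * x * w + - (c₂ * w) := by
      rw [hw]
      field_simp
      ring
    rw [e7, h₂, hneg, e6, mul_inv_cancel]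
  refine ⟨?_, hk2⟩
  intro v
  have e1 := hrel 1 (- v / c₁)
  rw [hk2, mul_one] at e1
  have e2 : c₁ * (-1) * (- v / c₁) = v := by
    field_simp
  rwa [e2] at e1

theorem psi_add' {r : ℕ} (hr : r < D.nroots) (a b : K) : psi D r (a + b) = psi D r a * psi D r b :=
  (psi_add D hr a b).symm

end aux

def tblD4 : List (ℕ × ℕ) := [(1, 9), (0, 14), (0, 15), (0, 16), (0, 17), (1, 17), (0, 19), (0, 20), (0, 21), (0, 22), (1, 20), (1, 21), (2, 22), (3, 22), (1, 23), (2, 23), (3, 23), (4, 23), (6, 22), (6, 23), (7, 23), (8, 23), (9, 23), (14, 22)]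
def tblF4 : List (ℕ × ℕ) := [(1, 23), (0, 24), (0, 26), (7, 14), (0, 31), (0, 32), (1, 32), (3, 33), (3, 34), (3, 35), (3, 36), (3, 37), (3, 38), (3, 39), (3, 40), (0, 42), (0, 43), (1, 43), (7, 37), (7, 38), (7, 39), (0, 45), (1, 45), (0, 46), (1, 47), (2, 46), (2, 47), (8, 40), (9, 40), (10, 40), (4, 46), (4, 47), (5, 47), (7, 44), (8, 44), (9, 44), (10, 44), (11, 44), (12, 44), (13, 44), (14, 44), (15, 46), (15, 47), (16, 47), (33, 40), (21, 47), (23, 47), (24, 46)]
def tblE6 : List (ℕ × ℕ) := [(1, 25), (0, 46), (0, 47), (0, 48), (0, 49), (0, 50), (0, 51), (0, 52), (0, 53), (0, 54), (0, 55), (1, 53), (1, 54), (1, 55), (2, 55), (5, 55), (0, 61), (0, 62), (0, 63), (0, 64), (0, 65), (0, 66), (0, 67), (0, 68), (0, 69), (0, 70), (1, 64), (1, 65), (1, 66), (2, 66), (1, 67), (1, 68), (1, 69), (2, 67), (2, 68), (3, 67), (4, 68), (3, 69), (4, 69), (2, 70), (3, 70), (4, 70), (5, 69), (5, 70), (6, 70), (7, 70), (1, 71), (2, 71), (3, 71), (4, 71), (5, 71), (6, 71), (7,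 71), (8, 71), (9, 71), (10, 71), (16, 66), (16, 69), (16, 70), (17, 70), (18, 70), (16, 71), (17, 71), (18, 71), (19, 71), (20, 71), (21, 71), (22, 71), (23, 71), (24, 71), (25, 71), (46, 70)]
def tblE7 : List (ℕ × ℕ) := [(1, 32), (0, 93), (0, 94), (0, 95), (0, 96), (0, 97), (0, 98), (0, 99), (0, 100), (0, 101), (0, 102), (0, 103), (0, 104), (0, 105), (0, 106), (0, 107), (0, 108), (0, 109), (0, 110), (0, 111), (0, 112), (0, 113), (0, 114), (0, 115), (0, 116), (0, 117), (0, 118), (0, 119), (0, 120), (0, 121), (0, 122), (0, 123), (0, 124), (1, 109), (1, 110), (1, 111), (1, 112), (1, 113), (1, 114), (1, 115), (1, 116), (1, 117), (1, 118), (2, 115), (2, 116), (2, 117), (2, 118), (3, 118), (1, 119), (1, 120), (1, 121), (1, 122), (1, 123), (2, 119), (2, 120), (2, 121), (2, 122), (3, 119), (3, 120), (3, 121), (4, 119), (4, 120), (5, 119), (6, 120), (5, 121), (6, 121), (4, 122), (5, 122), (6, 122), (3, 123), (4, 123), (5, 123), (6, 123), (2, 124), (3, 124), (4, 124), (5,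 124), (6, 124), (7, 122), (7, 123), (8, 123), (9, 123), (10, 123), (7, 124), (8, 124), (9, 124), (10, 124), (11, 124), (12, 124), (13, 124), (14, 124), (15, 124), (16, 124), (1, 125), (2, 125), (3, 125), (4, 125), (5, 125), (6, 125), (7, 125), (8, 125), (9, 125), (10, 125), (11, 125), (12, 125), (13, 125), (14, 125), (15, 125), (16, 125), (17, 125), (18, 125), (19, 125), (20, 125), (21, 125), (22, 125), (23, 125), (24, 125), (25, 125), (26, 125), (27, 125), (28, 125), (29, 125), (30, 125), (31, 125), (32, 125), (93, 124)]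
def tblE8 : List (ℕ × ℕ) := [(1, 119), (0, 120), (0, 122), (0, 125), (0, 129), (0, 134), (0, 140), (0, 146), (0, 151), (0, 155), (0, 158), (0, 160), (0, 161), (1, 161), (0, 168), (0, 173), (0, 177), (0, 180), (0, 182), (0, 183), (1, 183), (0, 187), (0, 190), (0, 192), (0, 193), (1, 193), (0, 196), (0, 198), (0, 199), (1, 199), (0, 201), (0, 202), (1, 202), (0, 203), (1, 203), (2, 203), (0, 206), (0, 208), (0, 209), (1, 209), (0, 211), (0, 212), (1, 212), (0, 213), (1, 213), (2, 213), (0, 215), (0, 216), (1, 216), (0, 217), (1, 217), (2, 217), (0, 218), (1, 218), (2, 218), (3, 218), (0, 220), (0, 221), (1, 221), (0, 222), (1, 222), (2, 222), (0, 223), (1, 223), (2, 223), (3, 223), (0, 224), (1, 224), (2, 224), (3, 224), (4, 224), (0, 225), (1, 225), (2, 225), (3, 225), (4, 225), (5, 225), (6, 225), (0, 227), (0, 228), (1, 228), (0, 229), (1, 229), (2, 229), (0, 230), (1, 230), (2, 230), (3, 230), (0, 231), (1, 231), (2, 231), (3, 231), (4, 231), (0, 232), (1, 232),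 (2, 232), (3, 232), (4, 232), (5, 232), (0, 233), (1, 233), (2, 233), (3, 233), (4, 233), (5, 233), (0, 234), (1, 234), (2, 234), (3, 234), (4, 234), (0, 235), (1, 235), (2, 235), (3, 235), (0, 236), (1, 236), (2, 236), (0, 237), (1, 237), (0, 238), (1, 239), (2, 238), (2, 239), (3, 237), (3, 238), (3, 239), (4, 236), (4, 237), (4, 238), (4, 239), (5, 235), (5, 236), (5, 237), (5, 238), (5, 239), (6, 234), (6, 235), (6, 236), (6, 237), (6, 238), (6, 239), (7, 234), (7, 235), (7, 236), (7, 237), (7, 238), (7, 239), (8, 235), (8, 236), (8, 237), (8, 238), (8, 239), (9, 236), (9, 237), (9, 238), (9, 239), (10, 237), (10, 238), (10, 239), (11, 238), (11, 239), (12, 239), (14, 233), (14, 234), (14, 235), (14, 236), (14, 237), (14, 238), (14, 239), (15, 235), (15, 236), (15, 237), (15, 238), (15, 239), (16, 236), (16, 237), (16, 238), (16, 239), (17, 237), (17, 238), (17, 239), (18, 238), (18, 239), (19, 239), (21, 236), (21, 237), (21, 238), (21, 239), (22, 237), (22,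 238), (22, 239), (23, 238), (23, 239), (24, 239), (26, 237), (26, 238), (26, 239), (27, 238), (27, 239), (28, 239), (30, 238), (30, 239), (31, 239), (33, 239), (36, 237), (36, 238), (36, 239), (37, 238), (37, 239), (38, 239), (40, 238), (40, 239), (41, 239), (43, 239), (46, 238), (46, 239), (47, 239), (49, 239), (52, 239), (56, 238), (56, 239), (57, 239), (59, 239), (62, 239), (66, 239), (71, 239), (78, 238), (78, 239), (79, 239), (81, 239), (84, 239), (88, 239), (93, 239), (99, 239), (105, 239), (110, 239), (114, 239), (117, 239), (119, 239), (120, 238)]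

theorem okD4 : checkAll chevD4 tblD4 = true := by decide +kernel
theorem okF4 : checkAll chevF4 tblF4 = true := by decide +kernel
theorem okE6 : checkAll chevE6 tblE6 = true := by decide +kernel
theorem okE7 : checkAll chevE7 tblE7 = true := by decide +kernel
theorem okE8 : checkAll chevE8 tblE8 = true := by decide +kernel

theorem b2_terms : chevB2.commTerms 1 4 = [(2, 1, 1, 1), (0, 1, 2, 1)] ∧ chevB2.commTerms 1 7 = [(5, -1, 1, 1), (3, 1, 2, 1)]
    ∧ chevB2.commTerms 2 3 = [(1, 1, 1, 1), (0, -1, 2, 1)] ∧ chevB2.commTerms 2 7 = [(6, 1, 1, 1), (4, -1, 2, 1)]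
    ∧ chevB2.commTerms 5 4 = [(6, -1, 1, 1), (7, -1, 2, 1)] := by
  decide +kernel

theorem b2_neg : chevB2.neg 1 ≠ 4 ∧ chevB2.neg 1 ≠ 7 ∧ chevB2.neg 2 ≠ 3 ∧ chevB2.neg 2 ≠ 7 ∧ chevB2.neg 5 ≠ 4 ∧ chevB2.nroots = 8 := by
  decide +kernel

theorem g2_terms : chevG2.commTerms 2 10 = [(7, -1, 1, 1), (3, 1, 2, 1), (0, 1, 3, 1), (5, 1, 3, 2)]
    ∧ chevG2.commTerms 2 11 = [(8, -1, 1, 1), (4, -1, 2, 1), (1, -1, 3, 1), (6, -1, 3, 2)]
    ∧ chevG2.commTerms 3 6 = [(4, 1, 1, 1), (2, -1, 2, 1), (0, 1, 3, 1), (1, -1, 3, 2)]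
    ∧ chevG2.commTerms 3 11 = [(9, 1, 1, 1), (7, 1, 2, 1), (5, -1, 3, 1), (10, 1, 3, 2)] := by
  decide +kernel

theorem g2_neg : chevG2.neg 2 ≠ 10 ∧ chevG2.neg 2 ≠ 11 ∧ chevG2.neg 3 ≠ 6 ∧ chevG2.neg 3 ≠ 11 ∧ chevG2.nroots = 12 := by
  decide +kernel

theorem g2_single : checkPair chevG2 0 1 5 = true ∧ checkPair chevG2 1 0 6 = true ∧ checkPair chevG2 5 0 10 = true ∧
    checkPair chevG2 6 1 11 = true ∧ checkPair chevG2 10 5 11 = true ∧ checkPair chevG2 11 6 10 = true := by
  decide +kernel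

section
variable {K : Type*} [Field K]

theorem double_of_terms (D : ChevalleyDatum) {r s k₁ k₂ : ℕ} {c₁ c₂ : ℤ} (hr : r < D.nroots) (hs : s < D.nroots)
    (h1 : s ≠ r) (h2 : s ≠ D.neg r) (hk₁ : k₁ < D.nroots) (hk₂ : k₂ < D.nroots)
    (rest : List (ℕ × ℤ × ℕ × ℕ)) (ht : D.commTerms r s = (k₁, c₁, 1, 1) :: (k₂, c₂, 2, 1) :: rest)
    (hrest : ∀ q ∈ rest, ∀ v : K, psi D q.1 v = 1)
    (hc₁ : c₁ = 1 ∨ c₁ = -1) (hc₂ : c₂ = 1 ∨ c₂ = -1) {x : K} (hx0 : x ≠ 0) (hx1 : x ≠ 1) :
    (∀ v : K, psi D k₁ v = 1) ∧ (∀ v : K, psi D k₂ v = 1) := by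
  have hc₁' : (c₁ : K) ≠ 0 := by
    rcases hc₁ with rfl | rfl <;> simp
  have hc₂' : (c₂ : K) ≠ 0 := by
    rcases hc₂ with rfl | rfl <;> simp
  apply double_core (psi D k₁) (psi D k₂) (psi_add' D hk₁) (psi_add' D hk₂) hc₁' hc₂' hx0 hx1
  intro t u
  have h3 := psi_rel D (K := K) hr hs h1 h2 t u
  have hr0 : ((rest.map fun c => ((c.1, (c.2.1 : K) * (-t) ^ c.2.2.1 * u ^ c.2.2.2) : ℕ × K)).map fun p => psi D p.1 p.2).prod = 1 := by
    rw [List.map_map]
    apply List.prod_eq_one
    intro y hy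
    obtain ⟨q, hq, rfl⟩ := List.mem_map.1 hy
    exact hrest q hq _
  simp only [ChevalleyDatum.commWord, ht, List.map_cons, List.prod_cons] at h3
  rw [hr0, mul_one] at h3
  simpa using h3

end


/-- The group presented by Steinberg's generators x̄_r(t) subject only to (R1) (additivity) and (R2) (the commutator formula) is perfect, for each of the types G₂, B₂, D₄, F₄, E₆, E₇, E₈ over any field (for types B₂ and G₂ the field must have more than two elements — the cases where the Chevalley group is not simple are set aside). -/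
theorem result {K : Type*} [Field K] (D : Cfsg.Lie.ChevalleyDatum) (hD : D ∈ [Cfsg.Lie.chevG2, Cfsg.Lie.chevB2, Cfsg.Lie.chevD4, Cfsg.Lie.chevF4, Cfsg.Lie.chevE6, Cfsg.Lie.chevE7, Cfsg.Lie.chevE8]) (hK : D ∈ [Cfsg.Lie.chevB2, Cfsg.Lie.chevG2] → ∃ x : K, x ≠ 0 ∧ x ≠ 1) :
    commutator (D.SteinbergCover K) = ⊤ := by
  simp only [List.mem_cons, List.not_mem_nil, or_false] at hD hK
  rcases hD with rfl | rfl | rfl | rfl | rfl | rfl | rfl
  · -- G₂
    obtain ⟨x, hx0, hx1⟩ := hK (Or.inr rfl)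
    apply perf_of_psi
    obtain ⟨t1, t2, t3, t4⟩ := g2_terms
    obtain ⟨n1, n2, n3, n4, hn⟩ := g2_neg
    obtain ⟨s0, s1, s5, s6, s10, s11⟩ := g2_single
    have p0 := psi_of_check (K := K) chevG2 s0
    have p1 := psi_of_check (K := K) chevG2 s1
    have p5 := psi_of_check (K := K) chevG2 s5
    have p6 := psi_of_check (K := K) chevG2 s6
    have p10 := psi_of_check (K := K) chevG2 s10
    have p11 := psi_of_check (K := K) chevG2 s11
    have d1 := double_of_terms (K := K) chevG2 (r := 2) (s := 10) (by omega) (by omega) (by decide) n1.symm (by omega) (by omega) _ t1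
      (by simp [p0, p5]) (Or.inr rfl) (Or.inl rfl) hx0 hx1
    have d2 := double_of_terms (K := K) chevG2 (r := 2) (s := 11) (by omega) (by omega) (by decide) n2.symm (by omega) (by omega) _ t2
      (by simp [p1, p6]) (Or.inr rfl) (Or.inr rfl) hx0 hx1
    have d3 := double_of_terms (K := K) chevG2 (r := 3) (s := 6) (by omega) (by omega) (by decide) n3.symm (by omega) (by omega) _ t3
      (by simp [p0, p1]) (Or.inl rfl) (Or.inr rfl) hx0 hx1
    have d4 := double_of_terms (K := K) chevG2 (r := 3) (s := 11) (by omega) (by omega) (by decide) n4.symm (by omega) (by omega) _ t4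
      (by simp [p5, p10]) (Or.inl rfl) (Or.inl rfl) hx0 hx1
    intro r hr t
    rw [hn] at hr
    interval_cases r
    · exact p0 t
    · exact p1 t
    · exact d3.2 t
    · exact d1.2 t
    · exact d2.2 t
    · exact p5 t
    · exact p6 t
    · exact d1.1 t
    · exact d2.1 t
    · exact d4.1 t
    · exact p10 t
    · exact p11 t
  · -- B₂
    obtain ⟨x, hx0, hx1⟩ := hK (Or.inl rfl)
    apply perf_of_psi
    obtain ⟨t1, t2, t3, t4, t5⟩ := b2_terms
    obtain ⟨n1, n2, n3, n4, n5, hn⟩ := b2_neg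
    have d1 := double_of_terms (K := K) chevB2 (r := 1) (s := 4) (by omega) (by omega) (by decide) n1.symm (by omega) (by omega) [] t1
      (by simp) (Or.inl rfl) (Or.inl rfl) hx0 hx1
    have d2 := double_of_terms (K := K) chevB2 (r := 1) (s := 7) (by omega) (by omega) (by decide) n2.symm (by omega) (by omega) [] t2
      (by simp) (Or.inr rfl) (Or.inl rfl) hx0 hx1
    have d3 := double_of_terms (K := K) chevB2 (r := 2) (s := 3) (by omega) (by omega) (by decide) n3.symm (by omega) (by omega) [] t3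
      (by simp) (Or.inl rfl) (Or.inr rfl) hx0 hx1
    have d4 := double_of_terms (K := K) chevB2 (r := 2) (s := 7) (by omega) (by omega) (by decide) n4.symm (by omega) (by omega) [] t4
      (by simp) (Or.inl rfl) (Or.inr rfl) hx0 hx1
    have d5 := double_of_terms (K := K) chevB2 (r := 5) (s := 4) (by omega) (by omega) (by decide) n5.symm (by omega) (by omega) [] t5
      (by simp) (Or.inr rfl) (Or.inr rfl) hx0 hx1
    intro r hr t
    rw [hn] at hr
    interval_cases r
    · exact d1.2 t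
    · exact d3.1 t
    · exact d1.1 t
    · exact d2.2 t
    · exact d4.2 t
    · exact d2.1 t
    · exact d4.1 t
    · exact d5.2 t
  · exact perf_of_checkAll _ okD4
  · exact perf_of_checkAll _ okF4
  · exact perf_of_checkAll _ okE6
  · exact perf_of_checkAll _ okE7
  · exact perf_of_checkAll _ okE8

end Cfsg.Agent.S2395
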