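import Cfsg.Statements.S2402
import Mathlib
import Cfsg.Agent.Lib.SLn

set_option autoImplicit false
open Cfsg

namespace Cfsg.Agent.S2402

section sq

open Polynomial

theorem sum_two_squares {K : Type*} [Field K] [Fintype K] (z : K) : ∃ a b : K, z = a * a + b * b := by
  classical
  by_cases hc : Fintype.card K % 2 = 1
  · obtain ⟨a, b, hab⟩ := FiniteField.exists_root_sum_quadratic (R := K) (f := X ^ 2) (g := X ^ 2 - C z)
      (degree_X_pow 2) (degree_X_pow_sub_C (by decide) _) hc
    refine ⟨a, b, ?_⟩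
    simp only [eval_pow, eval_X, eval_sub, eval_C] at hab
    linear_combination -hab
  · have h2 : ringChar K = 2 := FiniteField.even_card_iff_char_two.2 (by omega)
    obtain ⟨a, ha⟩ := FiniteField.isSquare_of_char_two h2 z
    exact ⟨a, 0, by simpa using ha⟩

end sq

section aux

open Matrix Matrix.SpecialLinearGroup
open scoped commutatorElement

theorem diag_tv {K ι : Type*} [Field K] [Fintype ι] [DecidableEq ι] (D : SpecialLinearGroup ι K) (dd : ι → K)
    (hD : (D : Matrix ι ι K) = Matrix.diagonal dd) {i j : ι} (hij : i ≠ j) (s s' : K)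
    (hs : dd i * s = s' * dd j) : D * transvection hij s = transvection hij s' * D := by
  apply Subtype.ext
  simp only [coe_mul, transvection_coe, hD]
  ext a b
  simp only [Matrix.diagonal_mul, Matrix.mul_diagonal, Matrix.add_apply, Matrix.one_apply, Matrix.single_apply]
  by_cases h1 : i = a ∧ j = b
  · obtain ⟨rfl, rfl⟩ := h1
    simp [hij, hs]
  · rw [if_neg h1, if_neg h1]
    by_cases h2 : a = b
    · subst h2
      simp [mul_comm]
    · simp [h2]

theorem main {K : Type*} [Field K] [Fintype K] (hK : 3 < Fintype.card K) (m : ℕ)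
    (k : Kˣ) (hk : ∀ u : Kˣ, u ∈ Subgroup.zpowers k)
    (h x w : Matrix.SpecialLinearGroup (Fin (m + 1 + 1)) K)
    (hh : (h : Matrix (Fin (m + 1 + 1)) (Fin (m + 1 + 1)) K) =
      Matrix.diagonal (fun i => if i.val = 0 then (k : K) else if i.val = 1 then ((k⁻¹ : Kˣ) : K) else 1))
    (hx : (x : Matrix (Fin (m + 1 + 1)) (Fin (m + 1 + 1)) K) = Matrix.transvection (0 : Fin (m + 1 + 1)) (1 : Fin (m + 1 + 1)) 1)
    (hw : (w : Matrix (Fin (m + 1 + 1)) (Fin (m + 1 + 1)) K) =
      Matrix.of (fun i j => if j.val = i.val + 1 then 1 else if i.val = m + 1 ∧ j.val = 0 then (-1) ^ (m + 1) else 0))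
    (A : Matrix.SpecialLinearGroup (Fin (m + 1 + 1)) K) :
    A ∈ Subgroup.closure ({h, x * w} : Set (Matrix.SpecialLinearGroup (Fin (m + 1 + 1)) K)) := by
  classical
  set H := Subgroup.closure ({h, x * w} : Set (Matrix.SpecialLinearGroup (Fin (m + 1 + 1)) K)) with hH
  have hhH : h ∈ H := Subgroup.subset_closure (by simp)
  have hyH : x * w ∈ H := Subgroup.subset_closure (by simp)
  set κ : K := (k : K) with hκ
  have hκ0 : κ ≠ 0 := k.ne_zero
  have hκ2 : κ * κ ≠ 1 := by
    intro e
    have hall : ∀ z : K, z = 0 ∨ z = 1 ∨ z = -1 := by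
      intro z
      by_cases hz : z = 0
      · exact Or.inl hz
      right
      obtain ⟨n, hn⟩ := Subgroup.mem_zpowers_iff.1 (hk (Units.mk0 z hz))
      have h1 : z = κ ^ n := by
        have := congrArg Units.val hn
        simpa [Units.val_zpow_eq_zpow_val] using this.symm
      have h2 : z * z = 1 := by
        rw [h1, ← mul_zpow, e, _root_.one_zpow]
      have h3 : (z - 1) * (z + 1) = 0 := by linear_combination h2
      rcases mul_eq_zero.1 h3 with h4 | h4
      · exact Or.inl (by linear_combination h4)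
      · exact Or.inr (by linear_combination h4)
    have hcard : Fintype.card K ≤ 3 := by
      have : (Finset.univ : Finset K) ⊆ {0, 1, -1} := by
        intro z _
        simpa using hall z
      calc Fintype.card K = (Finset.univ : Finset K).card := rfl
        _ ≤ ({0, 1, -1} : Finset K).card := Finset.card_le_card this
        _ ≤ 3 := Finset.card_le_three
    omega
  have hκ1 : κ ≠ 1 := by
    intro e
    apply hκ2
    rw [e, mul_one]
  set d : Fin (m + 1 + 1) → K := fun i => if i.val = 0 then κ else if i.val = 1 then ((k⁻¹ : Kˣ) : K) else 1 with hd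
  have hinv : ((k⁻¹ : Kˣ) : K) = κ⁻¹ := Units.val_inv_eq_inv_val k
  have hd0 : d 0 = κ := by simp [hd]
  have hd1 : d 1 = κ⁻¹ := by simp [hd, hinv]
  have hdne : ∀ i, d i ≠ 0 := by
    intro i
    simp only [hd]
    split_ifs
    · exact hκ0
    · exact (k⁻¹).ne_zero
    · exact one_ne_zero
  have h01 : (0 : Fin (m + 1 + 1)) ≠ 1 := by simp
  let X : K → Matrix.SpecialLinearGroup (Fin (m + 1 + 1)) K := fun s => transvection h01 s
  have hxX : x = X 1 := Subtype.ext hx
  have hXadd : ∀ a b, X (a + b) = X a * X b := fun a b => transvection_add h01 a b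
  have hXinv : ∀ a, (X a)⁻¹ = X (-a) := fun a => transvection_inv h01 a
  have hX : ∀ s, h * X s = X (κ * κ * s) * h := by
    intro s
    apply diag_tv h d hh h01
    rw [hd0, hd1]
    field_simp
  have hcl1 : ∀ s, X s ∈ H → X (κ * κ * s) ∈ H := by
    intro s hs
    have : X (κ * κ * s) = h * X s * h⁻¹ := by rw [hX]; group
    rw [this]
    exact H.mul_mem (H.mul_mem hhH hs) (H.inv_mem hhH)
  have hcl2 : ∀ s, X s ∈ H → X (κ⁻¹ * κ⁻¹ * s) ∈ H := by
    intro s hs
    have e1 := hX (κ⁻¹ * κ⁻¹ * s)
    have e2 : κ * κ * (κ⁻¹ * κ⁻¹ * s) = s := by field_simp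
    rw [e2] at e1
    have : X (κ⁻¹ * κ⁻¹ * s) = h⁻¹ * X s * h := by
      rw [mul_assoc h⁻¹, ← e1]
      group
    rw [this]
    exact H.mul_mem (H.mul_mem (H.inv_mem hhH) hs) hhH
  -- the monomial matrix
  have hWsupp : ∀ a b, b ≠ a + 1 → (w : Matrix (Fin (m + 1 + 1)) (Fin (m + 1 + 1)) K) a b = 0 := by
    intro a b hb
    rw [hw, Matrix.of_apply]
    split_ifs with h1 h2
    · exfalso
      apply hb
      apply Fin.ext
      rw [Fin.val_add_one]
      have : a ≠ Fin.last (m + 1) := by
        intro e
        rw [e, Fin.val_last] at h1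
        have := b.2
        omega
      rw [if_neg this, h1]
    · exfalso
      apply hb
      apply Fin.ext
      rw [Fin.val_add_one]
      have : a = Fin.last (m + 1) := Fin.ext (by rw [Fin.val_last]; exact h2.1)
      rw [if_pos this]
      exact h2.2
    · rfl
  have hWne : ∀ a, (w : Matrix (Fin (m + 1 + 1)) (Fin (m + 1 + 1)) K) a (a + 1) ≠ 0 := by
    intro a
    rw [hw, Matrix.of_apply]
    by_cases ha : a = Fin.last (m + 1)
    · have e1 : (a + 1).val = 0 := by rw [Fin.val_add_one, if_pos ha]
      have e2 : a.val = m + 1 := by rw [ha, Fin.val_last]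
      rw [if_neg (by omega), if_pos ⟨e2, e1⟩]
      exact pow_ne_zero _ (by simp)
    · have e1 : (a + 1).val = a.val + 1 := by rw [Fin.val_add_one, if_neg ha]
      rw [if_pos e1]
      exact one_ne_zero
  -- the diagonal element
  obtain ⟨T, hTdef⟩ : ∃ T, T = h * w * h⁻¹ * w⁻¹ := ⟨_, rfl⟩
  set t : Fin (m + 1 + 1) → K := fun a => d a * (d (a + 1))⁻¹ with ht
  have htne : ∀ a, t a ≠ 0 := fun a => mul_ne_zero (hdne a) (inv_ne_zero (hdne _))
  have hM : Matrix.diagonal t * (w : Matrix (Fin (m + 1 + 1)) (Fin (m + 1 + 1)) K) * Matrix.diagonal d =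
      Matrix.diagonal d * (w : Matrix (Fin (m + 1 + 1)) (Fin (m + 1 + 1)) K) := by
    ext a b
    simp only [Matrix.mul_diagonal, Matrix.diagonal_mul]
    by_cases hb : b = a + 1
    · subst hb
      simp only [ht]
      have := hdne (a + 1)
      field_simp
    · rw [hWsupp a b hb]
      simp
  have hTval : (T : Matrix (Fin (m + 1 + 1)) (Fin (m + 1 + 1)) K) = Matrix.diagonal t := by
    have e1 : T * (w * h) = h * w := by rw [hTdef]; group
    have e2 : (T : Matrix (Fin (m + 1 + 1)) (Fin (m + 1 + 1)) K) * ((w * h : Matrix.SpecialLinearGroup (Fin (m + 1 + 1)) K) : Matrix (Fin (m + 1 + 1)) (Fin (m + 1 + 1)) K) =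
        Matrix.diagonal t * ((w * h : Matrix.SpecialLinearGroup (Fin (m + 1 + 1)) K) : Matrix (Fin (m + 1 + 1)) (Fin (m + 1 + 1)) K) := by
      rw [← coe_mul, e1, coe_mul, coe_mul, hh, ← Matrix.mul_assoc]
      exact hM.symm
    have e3 : ((w * h : Matrix.SpecialLinearGroup (Fin (m + 1 + 1)) K) : Matrix (Fin (m + 1 + 1)) (Fin (m + 1 + 1)) K) *
        (((w * h)⁻¹ : Matrix.SpecialLinearGroup (Fin (m + 1 + 1)) K) : Matrix (Fin (m + 1 + 1)) (Fin (m + 1 + 1)) K) = 1 := by
      rw [← coe_mul, mul_inv_cancel, coe_one]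
    calc (T : Matrix (Fin (m + 1 + 1)) (Fin (m + 1 + 1)) K)
        = (T : Matrix (Fin (m + 1 + 1)) (Fin (m + 1 + 1)) K) * ((w * h : Matrix.SpecialLinearGroup (Fin (m + 1 + 1)) K) : Matrix (Fin (m + 1 + 1)) (Fin (m + 1 + 1)) K) *
          (((w * h)⁻¹ : Matrix.SpecialLinearGroup (Fin (m + 1 + 1)) K) : Matrix (Fin (m + 1 + 1)) (Fin (m + 1 + 1)) K) := by
            rw [Matrix.mul_assoc, e3, Matrix.mul_one]
      _ = Matrix.diagonal t * ((w * h : Matrix.SpecialLinearGroup (Fin (m + 1 + 1)) K) : Matrix (Fin (m + 1 + 1)) (Fin (m + 1 + 1)) K) *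
          (((w * h)⁻¹ : Matrix.SpecialLinearGroup (Fin (m + 1 + 1)) K) : Matrix (Fin (m + 1 + 1)) (Fin (m + 1 + 1)) K) := by rw [e2]
      _ = Matrix.diagonal t := by rw [Matrix.mul_assoc, e3, Matrix.mul_one]
  set τ : K := t 0 * (t 1)⁻¹ with hτ
  have hT : ∀ s, T * X s = X (τ * s) * T := by
    intro s
    apply diag_tv T t hTval h01
    rw [hτ]
    have := htne 1
    field_simp
  have hTh : h * T = T * h := by
    apply Subtype.ext
    rw [coe_mul, coe_mul, hh, hTval, Matrix.diagonal_mul_diagonal, Matrix.diagonal_mul_diagonal]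
    congr 1
    funext a
    ring
  set u : K := κ * κ - τ with hu
  have hc : h * (x * w) * h⁻¹ * (x * w)⁻¹ = X u * T := by
    have e1 : h * (x * w) * h⁻¹ * (x * w)⁻¹ = (h * X 1) * w * h⁻¹ * w⁻¹ * (X 1)⁻¹ := by
      rw [hxX]
      group
    have e2 : (h * X 1) * w * h⁻¹ * w⁻¹ * (X 1)⁻¹ = X (κ * κ * 1) * (T * X (-1)) := by
      rw [hX, hXinv]
      rw [hTdef]
      simp only [mul_assoc]
    rw [e1, e2, hT, ← mul_assoc, ← hXadd]
    congr 2
    rw [hu]
    ring
  have hcH : X u * T ∈ H := by
    rw [← hc]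
    exact H.mul_mem (H.mul_mem (H.mul_mem hhH hyH) (H.inv_mem hhH)) (H.inv_mem hyH)
  have hvv : h * (X u * T) * h⁻¹ * (X u * T)⁻¹ = X ((κ * κ - 1) * u) := by
    have e1 : h * (X u * T) * h⁻¹ * (X u * T)⁻¹ = (h * X u) * (T * h⁻¹ * T⁻¹) * (X u)⁻¹ := by
      group
    have e2 : h * (T * h⁻¹ * T⁻¹) = 1 := by
      have : h * (T * h⁻¹ * T⁻¹) = (h * T) * h⁻¹ * T⁻¹ := by group
      rw [this, hTh]
      group
    rw [e1, hX, hXinv, mul_assoc (X _), e2, mul_one, ← hXadd]
    congr 1
    ring
  have hv : X ((κ * κ - 1) * u) ∈ H := by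
    rw [← hvv]
    exact H.mul_mem (H.mul_mem (H.mul_mem hhH hcH) (H.inv_mem hhH)) (H.inv_mem hcH)
  have hv12 : ((1 + 1 : Fin (m + 1 + 1)) : ℕ) = if m = 0 then 0 else 2 := by
    rw [Fin.val_add_one]
    by_cases hm : m = 0
    · subst hm
      rfl
    · rw [if_neg hm, if_neg]
      · simp
      · intro e
        apply hm
        have := congrArg Fin.val e
        simp only [Fin.val_last] at this
        rw [Fin.val_one] at this
        omega
  have hdd : d (1 + 1) = if m = 0 then κ else 1 := by
    simp only [hd, hv12]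
    by_cases hm : m = 0
    · simp [hm]
    · simp [hm]
  have ht0 : t 0 = κ * κ := by
    simp only [ht]
    rw [zero_add, hd0, hd1, inv_inv]
  have hune : u ≠ 0 := by
    rw [hu, hτ, ht0]
    simp only [ht]
    rw [hdd, hd1]
    by_cases hm : m = 0
    · rw [if_pos hm]
      have e : κ * κ - κ * κ * (κ⁻¹ * κ⁻¹)⁻¹ = κ * κ * (1 - κ * κ) := by
        field_simp
      rw [e]
      exact mul_ne_zero (mul_ne_zero hκ0 hκ0) (sub_ne_zero.2 (Ne.symm hκ2))
    · rw [if_neg hm]
      have e : κ * κ - κ * κ * (κ⁻¹ * (1 : K)⁻¹)⁻¹ = κ * κ * (1 - κ) := by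
        field_simp
      rw [e]
      exact mul_ne_zero (mul_ne_zero hκ0 hκ0) (sub_ne_zero.2 (Ne.symm hκ1))
  set v : K := (κ * κ - 1) * u with hvdef
  have hvne : v ≠ 0 := mul_ne_zero (sub_ne_zero.2 hκ2) hune
  have hz : ∀ z : ℤ, X (κ ^ z * κ ^ z * v) ∈ H := by
    intro z
    induction z using Int.induction_on with
    | zero => simpa using hv
    | succ i ih =>
      have := hcl1 _ ih
      convert this using 2
      rw [zpow_add_one₀ hκ0]
      ring
    | pred i ih =>
      have := hcl2 _ ih
      convert this using 2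
      rw [zpow_sub_one₀ hκ0]
      ring
  have hsq : ∀ a : K, X (a * a * v) ∈ H := by
    intro a
    by_cases ha : a = 0
    · subst ha
      have : X (0 * 0 * v) = 1 := by
        simp only [mul_zero, zero_mul]
        exact transvection_coeff_zero h01
      rw [this]
      exact H.one_mem
    · obtain ⟨n, hn⟩ := Subgroup.mem_zpowers_iff.1 (hk (Units.mk0 a ha))
      have h1 : a = κ ^ n := by
        have := congrArg Units.val hn
        simpa [Units.val_zpow_eq_zpow_val] using this.symm
      rw [h1]
      exact hz n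
  have hXall : ∀ s, X s ∈ H := by
    intro s
    obtain ⟨a, b, hab⟩ := sum_two_squares (s * v⁻¹)
    have e : s = a * a * v + b * b * v := by
      calc s = s * v⁻¹ * v := by field_simp
        _ = _ := by rw [hab]; ring
    rw [e, hXadd]
    exact H.mul_mem (hsq a) (hsq b)
  have hwH : w ∈ H := by
    have : w = (X 1)⁻¹ * (x * w) := by
      rw [hxX]
      group
    rw [this]
    exact H.mul_mem (H.inv_mem (hXall 1)) hyH
  let P : Fin (m + 1 + 1) → Fin (m + 1 + 1) → Prop := fun i j => ∀ (hij : i ≠ j) (s : K), transvection hij s ∈ H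
  have hconj : ∀ a b, P (a + 1) (b + 1) → P a b := by
    intro a b hP hab s'
    have hab' : a + 1 ≠ b + 1 := fun e => hab (add_right_cancel e)
    set s := s' * (w : Matrix (Fin (m + 1 + 1)) (Fin (m + 1 + 1)) K) b (b + 1) * ((w : Matrix (Fin (m + 1 + 1)) (Fin (m + 1 + 1)) K) a (a + 1))⁻¹ with hs
    have e : w * transvection hab' s = transvection hab s' * w := by
      apply Subtype.ext
      rw [coe_mul, coe_mul, transvection_coe, transvection_coe, Matrix.mul_add, Matrix.add_mul,
        Matrix.mul_one, Matrix.one_mul]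
      congr 1
      ext x' y'
      by_cases hy : y' = b + 1
      · subst hy
        rw [Matrix.mul_single_apply_same]
        by_cases hx' : x' = a
        · subst hx'
          rw [Matrix.single_mul_apply_same, hs]
          have := hWne x'
          field_simp
        · rw [Matrix.single_mul_apply_of_ne _ _ _ _ _ hx', hWsupp x' (a + 1) (fun e => hx' (add_right_cancel e).symm), zero_mul]
      · rw [Matrix.mul_single_apply_of_ne _ _ _ _ _ hy]
        by_cases hx' : x' = a
        · subst hx'
          rw [Matrix.single_mul_apply_same, hWsupp b y' hy, mul_zero]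
        · rw [Matrix.single_mul_apply_of_ne _ _ _ _ _ hx']
    have : transvection hab s' = w * transvection hab' s * w⁻¹ := by
      rw [e]
      group
    rw [this]
    exact H.mul_mem (H.mul_mem hwH (hP hab' s)) (H.inv_mem hwH)
  have hP01 : P 0 (0 + 1) := by
    rw [zero_add]
    intro hij s
    exact hXall s
  have hS : ∀ r : ℕ, ∀ t : Fin (m + 1 + 1), t.val + r = m + 1 → P t (t + 1) := by
    intro r
    induction r with
    | zero =>
      intro t ht'
      have e : t = Fin.last (m + 1) := Fin.ext (by rw [Fin.val_last]; omega)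
      rw [e]
      apply hconj
      rw [Fin.last_add_one]
      exact hP01
    | succ r ih =>
      intro t ht'
      apply hconj
      apply ih
      have hne : t ≠ Fin.last (m + 1) := by
        intro e
        rw [e, Fin.val_last] at ht'
        omega
      rw [Fin.val_add_one, if_neg hne]
      omega
  have hS' : ∀ t, P t (t + 1) := fun t => hS (m + 1 - t.val) t (by have := t.2; omega)
  have hall : ∀ d : ℕ, ∀ i j : Fin (m + 1 + 1), (j - i).val = d + 1 → P i j := by
    intro d
    induction d with
    | zero =>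
      intro i j hd
      have e : j - i = 1 := Fin.ext (by rw [hd]; simp)
      have e2 : j = i + 1 := by
        rw [← e]
        abel
      rw [e2]
      exact hS' i
    | succ d ih =>
      intro i j hd hij s
      set j' := j - 1 with hj'
      have e0 : j - i ≠ 0 := by
        intro e
        rw [e] at hd
        simp at hd
      have e1 : (j' - i).val = d + 1 := by
        have : j' - i = (j - i) - 1 := by
          rw [hj']
          abel
        rw [this, Fin.coe_sub_one, if_neg e0, hd]
        omega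
      have hij' : i ≠ j' := by
        intro e
        rw [← e] at e1
        simp at e1
      have hj1 : j' ≠ j := by
        intro e
        rw [hj'] at e
        have : (1 : Fin (m + 1 + 1)) = 0 := by
          have h2 : j - 1 - j = j - j := by rw [e]
          have h3 : j - 1 - j = -1 := by abel
          rw [h3, sub_self] at h2
          exact neg_eq_zero.1 h2
        exact h01 this.symm
      have hp1 := ih i j' e1 hij' s
      have hp2 : P j' (j' + 1) := hS' j'
      have e3 : j' + 1 = j := by
        rw [hj']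
        abel
      rw [e3] at hp2
      have hp2' := hp2 hj1 1
      have e4 := Cfsg.Agent.Lib.SLn.commutator_transvection (F := K) hij' hj1 hij s 1
      rw [mul_one] at e4
      rw [← e4, commutatorElement_def]
      exact H.mul_mem (H.mul_mem (H.mul_mem hp1 hp2') (H.inv_mem hp1)) (H.inv_mem hp2')
  refine Cfsg.Agent.Lib.SLn.transvection_induction (· ∈ H) ?_ (fun _ _ => H.mul_mem) H.one_mem A
  intro i j hij c
  have hne : (j - i).val ≠ 0 := by
    intro e
    apply hij
    have : j - i = 0 := Fin.ext e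
    exact (sub_eq_zero.1 this).symm
  obtain ⟨d, hd⟩ := Nat.exists_eq_succ_of_ne_zero hne
  exact hall d i j hd hij c

end aux

/-- Explicit two-element generation of `PSL_{n+1}(K)` for a finite field `K` with more than three elements: let `k` generate the multiplicative group of `K`, `h = diag(k, k⁻¹, 1, …, 1)`, `x = 1 + E₁₂` (the elementary transvection) and `w` the monomial matrix with entries `1` in positions `(i, i+1)` and `(−1)^n` in position `(n+1, 1)`. Then `h` and `x·w` generate `SL_{n+1}(K)` modulo its centre: the subgroup they generate together with the centre is everything. -/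
theorem result {K : Type*} [Field K] [Fintype K] (hK : 3 < Fintype.card K) (n : ℕ) (hn : 1 ≤ n)
    (k : Kˣ) (hk : ∀ u : Kˣ, u ∈ Subgroup.zpowers k)
    (h x w : Matrix.SpecialLinearGroup (Fin (n + 1)) K)
    (hh : (h : Matrix (Fin (n + 1)) (Fin (n + 1)) K) =
      Matrix.diagonal (fun i => if i.val = 0 then (k : K) else if i.val = 1 then ((k⁻¹ : Kˣ) : K) else 1))
    (hx : (x : Matrix (Fin (n + 1)) (Fin (n + 1)) K) = Matrix.transvection (0 : Fin (n + 1)) (1 : Fin (n + 1)) 1)
    (hw : (w : Matrix (Fin (n + 1)) (Fin (n + 1)) K) =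
      Matrix.of (fun i j => if j.val = i.val + 1 then 1 else if i.val = n ∧ j.val = 0 then (-1) ^ n else 0)) :
    Subgroup.closure ({h, x * w} : Set (Matrix.SpecialLinearGroup (Fin (n + 1)) K)) ⊔
      Subgroup.center (Matrix.SpecialLinearGroup (Fin (n + 1)) K) = ⊤ := by
  obtain ⟨m, rfl⟩ : ∃ m, n = m + 1 := ⟨n - 1, by omega⟩
  rw [eq_top_iff]
  intro A _
  exact Subgroup.mem_sup_left (main hK m k hk h x w hh hx hw A)

end Cfsg.Agent.S2402
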