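import Cfsg.Statements.S2403
import Mathlib
import Cfsg.Agent.Lib.SLn

set_option autoImplicit false
open Cfsg

namespace Cfsg.Agent.S2403

open Matrix Matrix.SpecialLinearGroup Cfsg.Agent.Lib
open scoped commutatorElement
open Fin.NatCast Fin.CommRing

variable {K : Type*} [Field K]

theorem mul_single_entry {m : ℕ} (M : Matrix (Fin m) (Fin m) K) (k l : Fin m) (c : K) (a b : Fin m) :
    (M * Matrix.single k l c) a b = if b = l then M a k * c else 0 := by
  split_ifs with hb
  · subst hb
    rw [Matrix.mul_single_apply_same]
  · exact Matrix.mul_single_apply_of_ne _ k l a b hb M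

theorem single_mul_entry {m : ℕ} (M : Matrix (Fin m) (Fin m) K) (k l : Fin m) (c : K) (a b : Fin m) :
    (Matrix.single k l c * M) a b = if a = k then c * M l b else 0 := by
  split_ifs with ha
  · subst ha
    rw [Matrix.single_mul_apply_same]
  · exact Matrix.single_mul_apply_of_ne _ k l a b ha M

theorem conj_mat {n : ℕ} (W : Matrix (Fin (n + 1)) (Fin (n + 1)) K) (e : Fin (n + 1) → K)
    (hW : ∀ i j, W i j = if j = i + 1 then e i else 0) (he : ∀ i, e i * e i = 1) (a b : Fin (n + 1)) (c : K) :
    W * Matrix.transvection a b c = Matrix.transvection (a - 1) (b - 1) (e (a - 1) * c * e (b - 1)) * W := by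
  simp only [Matrix.transvection, mul_add, add_mul, mul_one, one_mul]
  congr 1
  ext i j
  rw [mul_single_entry, single_mul_entry]
  have h1 : W i a = if i = a - 1 then e (a - 1) else 0 := by
    rw [hW]
    by_cases h : i = a - 1
    · subst h
      simp
    · rw [if_neg h, if_neg]
      intro h2
      apply h
      rw [h2]; simp
  have h2 : W (b - 1) j = if j = b then e (b - 1) else 0 := by
    rw [hW]
    simp
  rw [h1, h2]
  by_cases hj : j = b <;> by_cases hi : i = a - 1 <;> simp [hj, hi]
  rw [mul_assoc (e (a - 1)), mul_assoc (e (a - 1)), mul_assoc c, he, mul_one]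

theorem four_elts [Fintype K] (hK : Fintype.card K ≤ 3) (c : K) (hc : c ≠ 0) : c = 1 ∨ c = -1 := by
  classical
  by_contra h
  push Not at h
  have h1 : ({0, 1, c, c + 1} : Finset K).card = 4 := by
    rw [Finset.card_insert_of_notMem, Finset.card_insert_of_notMem, Finset.card_insert_of_notMem, Finset.card_singleton]
    · simp only [Finset.mem_singleton]
      intro h2
      have : (1 : K) = 0 := by simpa using h2.symm
      exact one_ne_zero this
    · simp only [Finset.mem_insert, Finset.mem_singleton, not_or]
      refine ⟨h.1.symm, ?_⟩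
      intro h2
      apply hc
      simpa using h2.symm
    · simp only [Finset.mem_insert, Finset.mem_singleton, not_or]
      refine ⟨zero_ne_one, hc.symm, ?_⟩
      intro h2
      apply h.2
      exact eq_neg_of_add_eq_zero_left h2.symm
  have h2 := Finset.card_le_univ ({0, 1, c, c + 1} : Finset K)
  omega

/-- Explicit two-element generation of `PSL_{n+1}(K)` over the fields with two or three elements: with `x = 1 + E₁₂` and `w` the monomial matrix with entries `1` in positions `(i, i+1)` and `(−1)^n` in position `(n+1, 1)`, the elements `x` and `w` generate `SL_{n+1}(K)` modulo its centre. -/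
theorem result {K : Type*} [Field K] [Fintype K] (hK : Fintype.card K ≤ 3) (n : ℕ) (hn : 1 ≤ n)
    (x w : Matrix.SpecialLinearGroup (Fin (n + 1)) K)
    (hx : (x : Matrix (Fin (n + 1)) (Fin (n + 1)) K) = Matrix.transvection (0 : Fin (n + 1)) (1 : Fin (n + 1)) 1)
    (hw : (w : Matrix (Fin (n + 1)) (Fin (n + 1)) K) =
      Matrix.of (fun i j => if j.val = i.val + 1 then 1 else if i.val = n ∧ j.val = 0 then (-1) ^ n else 0)) :
    Subgroup.closure ({x, w} : Set (Matrix.SpecialLinearGroup (Fin (n + 1)) K)) ⊔
      Subgroup.center (Matrix.SpecialLinearGroup (Fin (n + 1)) K) = ⊤ := by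
  classical
  set H := Subgroup.closure ({x, w} : Set (Matrix.SpecialLinearGroup (Fin (n + 1)) K)) with hH
  have hxH : x ∈ H := Subgroup.subset_closure (by simp)
  have hwH : w ∈ H := Subgroup.subset_closure (by simp)
  let e : Fin (n + 1) → K := fun i => if i.val = n then (-1) ^ n else 1
  have he : ∀ i, e i * e i = 1 := by
    intro i
    by_cases h : i.val = n
    · simp only [e, h, if_true]
      rw [← mul_pow]; simp
    · simp [e, h]
  have hWe : ∀ i j : Fin (n + 1), (w : Matrix (Fin (n + 1)) (Fin (n + 1)) K) i j = if j = i + 1 then e i else 0 := by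
    intro i j
    rw [hw, Matrix.of_apply]
    by_cases hi : i.val = n
    · have h1 : i = Fin.last n := Fin.ext (by simpa using hi)
      have h2 : i + 1 = 0 := by rw [h1]; simp
      have h3 : j.val ≠ i.val + 1 := by
        have := j.2
        omega
      have h4 : (j = i + 1) ↔ j.val = 0 := by
        rw [h2]
        exact Fin.ext_iff
      have h5 : ¬ (j.val = n + 1) := by
        have := j.2
        omega
      simp only [h3, if_false, hi, true_and, e, h4, if_true, h5]
    · have h1 : i ≠ Fin.last n := fun h => hi (by rw [h]; simp)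
      have h2 : (i + 1).val = i.val + 1 := by
        rw [Fin.val_add_one, if_neg h1]
      have h3 : (j = i + 1) ↔ j.val = i.val + 1 := by
        rw [Fin.ext_iff, h2]
      simp only [hi, false_and, if_false, e, h3]
  have h01 : (0 : Fin (n + 1)) ≠ 1 := by
    intro h
    have h1 := congrArg Fin.val h
    have h2 : (1 : Fin (n + 1)).val = 1 := by
      rw [Fin.val_one']
      exact Nat.mod_eq_of_lt (by omega)
    rw [h2] at h1
    simp at h1
  have hsucc : ∀ i : Fin (n + 1), i ≠ i + 1 := by
    intro i h
    exact h01 (by simpa using h)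
  have hconj : ∀ (a b : Fin (n + 1)) (h : a ≠ b) (h' : a - 1 ≠ b - 1) (c : K),
      w * transvection h c * w⁻¹ = transvection h' (e (a - 1) * c * e (b - 1)) := by
    intro a b h h' c
    rw [mul_inv_eq_iff_eq_mul]
    apply Subtype.ext
    simp only [coe_mul, transvection_coe]
    exact conj_mat _ e hWe he a b c
  have hpm : ∀ (a b : Fin (n + 1)) (h : a ≠ b) (d : K), d * d = 1 → transvection h d ∈ H → transvection h (1 : K) ∈ H := by
    intro a b h d hd hT
    rcases mul_self_eq_one_iff.1 hd with rfl | rfl
    · exact hT
    · have := H.inv_mem hT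
      rw [transvection_inv, neg_neg] at this
      exact this
  have hA : ∀ k : ℕ, ∀ i j : Fin (n + 1), i = -(k : Fin (n + 1)) → j = i + 1 → ∀ h : i ≠ j, transvection h (1 : K) ∈ H := by
    intro k
    induction k with
    | zero =>
      intro i j hi hj h
      have hi0 : i = 0 := by simpa using hi
      have hj1 : j = 1 := by rw [hj, hi0, zero_add]
      subst hi0
      subst hj1
      have : transvection h (1 : K) = x := by
        apply Subtype.ext
        rw [transvection_coe, hx]
        rfl
      rw [this]; exact hxH
    | succ k ih =>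
      intro i j hi hj h
      have hi0 : i = -(k : Fin (n + 1)) - 1 := by
        rw [hi]; push_cast; ring
      set i₀ := -(k : Fin (n + 1)) with hi₀
      have h0 : i₀ ≠ i₀ + 1 := hsucc i₀
      have h1 := ih i₀ (i₀ + 1) rfl rfl h0
      have h2 : j = i₀ := by rw [hj, hi0]; ring
      subst hi0
      subst h2
      have h' : i₀ - 1 ≠ i₀ + 1 - 1 := by simpa using h
      have h3 := hconj i₀ (i₀ + 1) h0 h' 1
      have h4 : w * transvection h0 (1 : K) * w⁻¹ ∈ H := H.mul_mem (H.mul_mem hwH h1) (H.inv_mem hwH)
      rw [h3] at h4
      have h5 := hpm _ _ h' _ (by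
        have e1 := he (i₀ - 1)
        have e2 := he (i₀ + 1 - 1)
        calc e (i₀ - 1) * 1 * e (i₀ + 1 - 1) * (e (i₀ - 1) * 1 * e (i₀ + 1 - 1))
            = (e (i₀ - 1) * e (i₀ - 1)) * (e (i₀ + 1 - 1) * e (i₀ + 1 - 1)) := by ring
          _ = 1 := by rw [e1, e2, one_mul]) h4
      have e3 : i₀ + 1 - 1 = i₀ := by ring
      have h6 : ∀ (b : Fin (n + 1)) (hb : b = i₀) (hne : i₀ - 1 ≠ b), transvection hne (1 : K) ∈ H := by
        intro b hb hne
        subst hb
        exact h5 |> fun h7 => by
          have : transvection hne (1 : K) = transvection h' (1 : K) := by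
            apply Subtype.ext
            simp only [transvection_coe]
            rw [e3]
          rw [this]; exact h7
      exact h6 _ rfl h
  have hA' : ∀ i : Fin (n + 1), ∀ h : i ≠ i + 1, transvection h (1 : K) ∈ H := by
    intro i h
    refine hA (-i).val i (i + 1) ?_ rfl h
    rw [Fin.cast_val_eq_self, neg_neg]
  have hcast : ∀ d : ℕ, 1 ≤ d → d ≤ n → (d : Fin (n + 1)) ≠ 0 := by
    intro d hd1 hd2 h
    have h1 := congrArg Fin.val h
    rw [Fin.val_natCast, Nat.mod_eq_of_lt (by omega)] at h1
    simp at h1
    omega
  have hB : ∀ d : ℕ, 1 ≤ d → d ≤ n → ∀ i j : Fin (n + 1), j = i + (d : Fin (n + 1)) → ∀ h : i ≠ j, transvection h (1 : K) ∈ H := by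
    intro d hd1
    induction d, hd1 using Nat.le_induction with
    | base =>
      intro _ i j hj h
      have hj' : j = i + 1 := by rw [hj]; simp
      subst hj'
      exact hA' i h
    | succ d hd1 ih =>
      intro hd2 i j hj h
      set k := i + (d : Fin (n + 1)) with hk
      have hik : i ≠ k := by
        intro h1
        apply hcast d hd1 (by omega)
        have : i + (d : Fin (n + 1)) = i + 0 := by rw [add_zero, ← hk, ← h1]
        exact add_left_cancel this
      have hkj : k ≠ j := by
        have : j = k + 1 := by rw [hj, hk]; push_cast; ring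
        rw [this]; exact hsucc k
      have h1 := ih (by omega) i k rfl hik
      have hj' : j = k + 1 := by rw [hj, hk]; push_cast; ring
      have h2 : transvection hkj (1 : K) ∈ H := by
        subst hj'
        exact hA' k hkj
      have h3 := SLn.commutator_transvection (F := K) hik hkj h (1 : K) 1
      rw [mul_one] at h3
      rw [← h3, commutatorElement_def]
      exact H.mul_mem (H.mul_mem (H.mul_mem h1 h2) (H.inv_mem h1)) (H.inv_mem h2)
  have hC : ∀ i j : Fin (n + 1), ∀ h : i ≠ j, transvection h (1 : K) ∈ H := by
    intro i j h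
    have hd : ((j - i).val : Fin (n + 1)) = j - i := Fin.cast_val_eq_self _
    have hd1 : 1 ≤ (j - i).val := by
      rw [Nat.one_le_iff_ne_zero]
      intro h0
      apply h
      have : j - i = 0 := Fin.ext h0
      exact (sub_eq_zero.1 this).symm
    have hd2 : (j - i).val ≤ n := by
      have := (j - i).2
      omega
    refine hB _ hd1 hd2 i j ?_ h
    rw [hd]; ring
  have hD : ∀ A : Matrix.SpecialLinearGroup (Fin (n + 1)) K, A ∈ H := by
    intro A
    refine SLn.transvection_induction (· ∈ H) ?_ (fun _ _ => H.mul_mem) H.one_mem A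
    intro i j h c
    by_cases hc : c = 0
    · have : transvection h c = 1 := by
        apply Subtype.ext
        rw [transvection_coe, hc]
        simp [Matrix.transvection]
      rw [this]; exact H.one_mem
    · rcases four_elts hK c hc with rfl | rfl
      · exact hC i j h
      · have := H.inv_mem (hC i j h)
        rwa [transvection_inv] at this
  rw [eq_top_iff]
  intro A _
  exact Subgroup.mem_sup_left (hD A)

end Cfsg.Agent.S2403
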