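import Cfsg.Statements.S2416
import Cfsg.Agent.Lib.ChevGen

set_option autoImplicit false
open scoped MatrixGroups
open Cfsg

namespace Cfsg.Agent.S2416

open Cfsg.Agent.Lib.ChevSym


/-- A Chevalley group of type G₂, B₂, D₄, F₄, E₆, E₇ or E₈ over a finite field lies in (indeed equals) the subgroup generated by its monomial subgroup `N` and a single fundamental root subgroup `X_p`, where `p` is a short fundamental root if there are two root lengths (any fundamental root otherwise), provided the characteristic is not 2 for types B₂, F₄ and not 3 for type G₂ (and the field has more than two elements for B₂, G₂). -/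
theorem result {K : Type*} [Field K] [Finite K] (D : Cfsg.Lie.ChevalleyDatum) (hD : D ∈ [Cfsg.Lie.chevG2, Cfsg.Lie.chevB2, Cfsg.Lie.chevD4, Cfsg.Lie.chevF4, Cfsg.Lie.chevE6, Cfsg.Lie.chevE7, Cfsg.Lie.chevE8])
    (hK : D ∈ [Cfsg.Lie.chevB2, Cfsg.Lie.chevG2] → ∃ x : K, x ≠ 0 ∧ x ≠ 1)
    (h2 : D ∈ [Cfsg.Lie.chevB2, Cfsg.Lie.chevF4] → ringChar K ≠ 2) (h3 : D = Cfsg.Lie.chevG2 → ringChar K ≠ 3)
    (i : ℕ) (hi : i < D.rank) (hshort : D.isLong (D.simple i) = false) :
    D.group K ≤ D.monomialSubgroup K ⊔ D.rootSubgroup K (D.simple i) := by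
  simp only [List.mem_cons, List.not_mem_nil, or_false] at hD
  have two : ringChar K ≠ 2 → ((2 : ℤ) : K) ≠ 0 := fun h => by
    have := Ring.two_ne_zero (R := K) h
    exact_mod_cast this
  have three : ringChar K ≠ 3 → ((3 : ℤ) : K) ≠ 0 := fun h3' h => by
    have h4 : ((3 : ℕ) : K) = 0 := by exact_mod_cast h
    have h5 := (CharP.cast_eq_zero_iff K (ringChar K) 3).mp h4
    rcases (Nat.dvd_prime Nat.prime_three).mp h5 with h6 | h6
    · exact CharP.ringChar_ne_one h6
    · exact h3' h6
  rcases hD with rfl | rfl | rfl | rfl | rfl | rfl | rfl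
  · have hi' : i < 2 := hi
    interval_cases i
    · exact gen2416G2_0 (three (h3 rfl))
    · exact absurd hshort (by decide +kernel)
  · have hi' : i < 2 := hi
    interval_cases i
    · exact gen2416B2_0 (two (h2 (by simp)))
    · exact absurd hshort (by decide +kernel)
  · exact gen2416D4 i hi
  · have hi' : i < 4 := hi
    interval_cases i
    · exact gen2416F4_0 (two (h2 (by simp)))
    · exact gen2416F4_1 (two (h2 (by simp)))
    · exact absurd hshort (by decide +kernel)
    · exact absurd hshort (by decide +kernel)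
  · exact gen2416E6 i hi
  · exact gen2416E7 i hi
  · exact gen2416E8 i hi

end Cfsg.Agent.S2416
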