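import Cfsg.Statements.S2424
import Cfsg.Agent.Lib.FlagCount
-- import your own Cfsg.Agent.* helpers here

set_option autoImplicit false
set_option linter.all false
open scoped MatrixGroups
open Cfsg

namespace Cfsg.Agent.S2424

open Finset in
/-- The `q`-integer. -/
noncomputable def QQ (q m : ℕ) : ℂ := ((∑ l ∈ Finset.range m, q ^ l : ℕ) : ℂ)

theorem QQ_add (q a m : ℕ) : QQ q (a + m) = QQ q a + (q : ℂ) ^ a * QQ q m := by
  unfold QQ
  rw [Finset.sum_range_add]
  push_cast
  rw [Finset.mul_sum]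
  simp [pow_add]

/-- The `q`-factorial. -/
noncomputable def QF (q m : ℕ) : ℂ := ∏ j ∈ Finset.range m, QQ q (j + 1)

theorem QF_succ (q m : ℕ) : QF q (m + 1) = QF q m * QQ q (m + 1) := Finset.prod_range_succ _ _

theorem key (q l j : ℕ) (h : j ≤ l) :
    (q : ℂ) ^ (∑ k ∈ Finset.range j, k) * QF q l = QF q (l - j) * ∏ k ∈ Finset.range j, (QQ q l - QQ q k) := by
  induction j with
  | zero => simp
  | succ j ih =>
    have h1 := ih (by omega)
    have h3 : QQ q l - QQ q j = (q : ℂ) ^ j * QQ q (l - j) := by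
      have h5 := QQ_add q j (l - j)
      rw [Nat.add_sub_cancel' (by omega)] at h5
      rw [h5]
      ring
    have h4 : QF q (l - j) = QF q (l - (j + 1)) * QQ q (l - j) := by
      have h6 : l - j = (l - (j + 1)) + 1 := by omega
      have h7 := QF_succ q (l - (j + 1))
      rw [← h6] at h7
      exact h7
    rw [Finset.sum_range_succ, pow_add, Finset.prod_range_succ, h3]
    calc (q : ℂ) ^ (∑ k ∈ Finset.range j, k) * (q : ℂ) ^ j * QF q l
        = (q : ℂ) ^ j * ((q : ℂ) ^ (∑ k ∈ Finset.range j, k) * QF q l) := by ring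
      _ = (q : ℂ) ^ j * (QF q (l - j) * ∏ k ∈ Finset.range j, (QQ q l - QQ q k)) := by rw [h1]
      _ = _ := by
        rw [h4]
        ring

theorem det_A {n : ℕ} (x : Fin n → ℂ) (c : ℕ → ℂ) :
    (Matrix.of fun i j : Fin n => ∏ k ∈ Finset.range (j : ℕ), (x i - c k)).det =
      ∏ i, ∏ j ∈ Finset.Ioi i, (x j - x i) := by
  classical
  rw [← Matrix.det_vandermonde,
    Matrix.det_eval_matrixOfPolynomials_eq_det_vandermonde x
      (fun j => ∏ k ∈ Finset.range (j : ℕ), (Polynomial.X - Polynomial.C (c k)))]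
  · congr 1
    ext i j
    simp [Polynomial.eval_prod]
  · intro j
    rw [Polynomial.natDegree_finset_prod_X_sub_C_eq_card]
    simp
  · intro j
    exact Polynomial.monic_prod_of_monic _ _ (fun k _ => Polynomial.monic_X_sub_C _)

theorem sum_e (n : ℕ) : (∑ j ∈ Finset.range n, ∑ k ∈ Finset.range j, k) = n * (n - 1) * (n - 2) / 6 := by
  have h : ∀ n : ℕ, (∑ j ∈ Finset.range n, ∑ k ∈ Finset.range j, k) * 6 = n * (n - 1) * (n - 2) := by
    intro n
    induction n with
    | zero => simp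
    | succ m ih =>
      rw [Finset.sum_range_succ, add_mul, ih]
      have h1 := Finset.sum_range_id_mul_two m
      rcases m with _ | _ | m
      · simp
      · simp
      · have h2 : m + 1 + 1 - 1 = m + 1 := rfl
        have h3 : m + 1 + 1 - 2 = m := rfl
        have h4 : m + 1 + 1 + 1 - 1 = m + 2 := rfl
        have h5 : m + 1 + 1 + 1 - 2 = m + 1 := rfl
        rw [h2] at h1
        rw [h2, h3, h4, h5]
        nlinarith [h1]
  rw [← h n]
  simp



/-- Degrees of the partition-indexed irreducible characters of `GL_n(q)`: for `ν` a partition of `n` with `n` non-decreasing parts `ν_0 ≤ ⋯ ≤ ν_{n−1}` (zeros allowed; positions counted from 0) and `λ_i = ν_i + i`, write `Q(r)` for the q-integer `1 + q + ⋯ + q^(r−1)` and `Q!(r)` for `Q(1)Q(2)⋯Q(r)`; then the degree `γ(ν)` of the character satisfies `γ(ν) · q^(n(n−1)(n−2)/6) · ∏_i Q!(λ_i) = Q!(n) · ∏_{i<j} (Q(λ_j) − Q(λ_i))`. For `ν = (1,…,1)` this gives the Steinberg degree `q^(n(n−1)/2)`, for `ν = (0,…,0,n)`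 degree 1. -/
theorem result {F : Type*} [Field F] [Fintype F] {q : ℕ} (hq : Fintype.card F = q) {n : ℕ} (ν : Fin n → ℕ) (hmono : Monotone ν) (hsum : ∑ i, ν i = n) :
    Cfsg.unipotentCharacterGL n F ν 1 * (q : ℂ) ^ (n * (n - 1) * (n - 2) / 6) *
        ∏ i : Fin n, ∏ j ∈ Finset.range (ν i + i.val), ((∑ l ∈ Finset.range (j + 1), q ^ l : ℕ) : ℂ) =
      (∏ j ∈ Finset.range n, ((∑ l ∈ Finset.range (j + 1), q ^ l : ℕ) : ℂ)) *
        ∏ i : Fin n, ∏ j ∈ Finset.univ.filter (fun j : Fin n => i < j),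
          (((∑ l ∈ Finset.range (ν j + j.val), q ^ l : ℕ) : ℂ) - ((∑ l ∈ Finset.range (ν i + i.val), q ^ l : ℕ) : ℂ)) := by
  classical
  let lam : Fin n → ℕ := fun i => ν i + i.val
  let x : Fin n → ℂ := fun i => QQ q (lam i)
  let A : Matrix (Fin n) (Fin n) ℂ := Matrix.of fun i j : Fin n => ∏ k ∈ Finset.range (j : ℕ), (x i - QQ q k)
  let I : Equiv.Perm (Fin n) → ℕ := fun κ => Nat.card (GL (Fin n) F ⧸ Cfsg.parabolicGL n F fun i => ν i + i.val - (κ i).val)
  have hchar : Cfsg.unipotentCharacterGL n F ν 1 = ∑ κ : Equiv.Perm (Fin n),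
      if ∀ i : Fin n, (κ i).val ≤ ν i + i.val then ((Equiv.Perm.sign κ : ℤ) : ℂ) * (I κ : ℂ) else 0 := by
    unfold Cfsg.unipotentCharacterGL
    apply Finset.sum_congr rfl
    intro κ _
    congr 1
    congr 1
    unfold Cfsg.fixedPointCharacter
    have h1 : Nat.card (MulAction.fixedBy (GL (Fin n) F ⧸ Cfsg.parabolicGL n F fun i => ν i + i.val - (κ i).val) (1 : GL (Fin n) F)) = I κ := by
      apply Nat.card_congr
      rw [MulAction.fixedBy_one_eq_univ]
      exact Equiv.Set.univ _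
    rw [h1]
  have hC : (q : ℂ) ^ (n * (n - 1) * (n - 2) / 6) = ∏ j : Fin n, (q : ℂ) ^ (∑ k ∈ Finset.range (j : ℕ), k) := by
    rw [← sum_e, Finset.prod_pow_eq_pow_sum, Fin.sum_univ_eq_sum_range (fun j => ∑ k ∈ Finset.range j, k) n]
  have hκ : ∀ κ : Equiv.Perm (Fin n),
      (if ∀ i : Fin n, (κ i).val ≤ ν i + i.val then ((Equiv.Perm.sign κ : ℤ) : ℂ) * (I κ : ℂ) else 0) *
        ((q : ℂ) ^ (n * (n - 1) * (n - 2) / 6) * ∏ i, QF q (lam i)) =
      QF q n * (((Equiv.Perm.sign κ : ℤ) : ℂ) * ∏ i, A i (κ i)) := by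
    intro κ
    split_ifs with hc
    · have hμ : ∑ i, (ν i + i.val - (κ i).val) = n := by
        have h1 : ∑ i, (ν i + i.val - (κ i).val) + ∑ i, (κ i).val = ∑ i, (ν i + i.val) := by
          rw [← Finset.sum_add_distrib]
          exact Finset.sum_congr rfl (fun i _ => Nat.sub_add_cancel (hc i))
        have h2 : ∑ i, (κ i).val = ∑ i : Fin n, i.val := Equiv.sum_comp κ (fun j : Fin n => j.val)
        rw [Finset.sum_add_distrib, hsum] at h1
        omega
      have hform := Cfsg.Agent.Lib.FlagCount.index_formula hq (fun i => ν i + i.val - (κ i).val) hμ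
      have hform' : (I κ : ℂ) * ∏ i, QF q (lam i - (κ i).val) = QF q n := by
        have h1 := congrArg (fun z : ℕ => (z : ℂ)) hform
        simp only [Nat.cast_mul, Nat.cast_prod] at h1
        exact h1
      have hprod : (q : ℂ) ^ (n * (n - 1) * (n - 2) / 6) * ∏ i, QF q (lam i) =
          (∏ i, QF q (lam i - (κ i).val)) * ∏ i, A i (κ i) := by
        rw [hC, ← Equiv.prod_comp κ (fun j : Fin n => (q : ℂ) ^ (∑ k ∈ Finset.range (j : ℕ), k)), ← Finset.prod_mul_distrib,
          ← Finset.prod_mul_distrib]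
        apply Finset.prod_congr rfl
        intro i _
        exact key q (lam i) (κ i) (hc i)
      rw [hprod]
      calc ((Equiv.Perm.sign κ : ℤ) : ℂ) * (I κ : ℂ) * ((∏ i, QF q (lam i - (κ i).val)) * ∏ i, A i (κ i))
          = ((I κ : ℂ) * ∏ i, QF q (lam i - (κ i).val)) * (((Equiv.Perm.sign κ : ℤ) : ℂ) * ∏ i, A i (κ i)) := by ring
        _ = _ := by rw [hform']
    · push Not at hc
      obtain ⟨i, hi⟩ := hc
      have h0 : ∏ i, A i (κ i) = 0 := by
        apply Finset.prod_eq_zero (Finset.mem_univ i)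
        exact Finset.prod_eq_zero (Finset.mem_range.2 hi) (sub_self _)
      rw [h0]
      simp
  have hdet : A.det = ∑ κ : Equiv.Perm (Fin n), ((Equiv.Perm.sign κ : ℤ) : ℂ) * ∏ i, A i (κ i) := by
    rw [← Matrix.det_transpose, Matrix.det_apply']
    rfl
  have hL : ∀ i : Fin n, ∏ j ∈ Finset.range (ν i + i.val), ((∑ l ∈ Finset.range (j + 1), q ^ l : ℕ) : ℂ) = QF q (lam i) := fun i => rfl
  have hR : ∏ j ∈ Finset.range n, ((∑ l ∈ Finset.range (j + 1), q ^ l : ℕ) : ℂ) = QF q n := rfl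
  have hV : ∏ i : Fin n, ∏ j ∈ Finset.univ.filter (fun j : Fin n => i < j),
      (((∑ l ∈ Finset.range (ν j + j.val), q ^ l : ℕ) : ℂ) - ((∑ l ∈ Finset.range (ν i + i.val), q ^ l : ℕ) : ℂ)) = A.det := by
    rw [show A.det = _ from det_A x (QQ q)]
    apply Finset.prod_congr rfl
    intro i _
    rw [Finset.filter_lt_eq_Ioi]
    rfl
  rw [Finset.prod_congr rfl (fun i _ => hL i), hR, hV, hdet, hchar, Finset.mul_sum, mul_assoc, Finset.sum_mul]
  exact Finset.sum_congr rfl (fun κ _ => hκ κ)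

end Cfsg.Agent.S2424
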