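import Cfsg.Statements.S2531
import Mathlib

set_option autoImplicit false
open Cfsg

namespace Cfsg.Agent.S2531


section counting
variable {F : Type*} [Field F] [Finite F] {V : Type*} [AddCommGroup V] [Module F V] [Finite V]

open scoped LinearAlgebra.Projectivization

theorem rep_mem_iff (U : Submodule F V) (v : V) (hv : v ≠ 0) :
    (Projectivization.mk F v hv).rep ∈ U ↔ v ∈ U := by
  obtain ⟨a, ha⟩ := Projectivization.exists_smul_eq_mk_rep F v hv
  rw [← ha]
  exact U.smul_mem_iff' a

theorem card_points (U : Submodule F V) :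
    Nat.card U - 1 = Nat.card {x : ℙ F V // x.rep ∈ U} * (Nat.card F - 1) := by
  classical
  rw [Projectivization.card F (V := U)]
  congr 1
  haveI : DecidableEq F := Classical.decEq _
  let g : ℙ F U → {x : ℙ F V // x.rep ∈ U} := fun p =>
    ⟨Projectivization.map U.subtype U.injective_subtype p, by
      induction p using Projectivization.ind with
      | h v hv =>
        rw [Projectivization.map_mk, rep_mem_iff]
        exact v.2⟩
  apply Nat.card_eq_of_bijective g
  constructor
  · intro p p' h
    exact Projectivization.map_injective _ U.injective_subtype (congrArg Subtype.val h)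
  · rintro ⟨x, hx⟩
    have h0 : (⟨x.rep, hx⟩ : U) ≠ 0 := by
      intro h
      exact x.rep_nonzero (congrArg Subtype.val h)
    refine ⟨Projectivization.mk F ⟨x.rep, hx⟩ h0, ?_⟩
    apply Subtype.ext
    show Projectivization.map U.subtype U.injective_subtype (Projectivization.mk F ⟨x.rep, hx⟩ h0) = x
    rw [Projectivization.map_mk]
    exact Projectivization.mk_rep x


theorem finrank_ker_functional (μ : V →ₗ[F] F) (v : V) (hv : μ v = 1) :
    Module.finrank F (LinearMap.ker μ) = Module.finrank F V - 1 := by
  haveI : FiniteDimensional F V := Module.Finite.of_finite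
  have h1 := LinearMap.finrank_range_add_finrank_ker μ
  have h2 : LinearMap.range μ = ⊤ := by
    rw [LinearMap.range_eq_top]
    intro y
    exact ⟨y • v, by rw [map_smul, hv, smul_eq_mul, mul_one]⟩
  rw [h2, finrank_top, Module.finrank_self] at h1
  omega

theorem finrank_inf (U W : Submodule F V) (d : ℕ) (hd : Module.finrank F V = d + 1)
    (hU : Module.finrank F U = d) (hW : Module.finrank F W = d) :
    Module.finrank F (U ⊓ W : Submodule F V) = d ∨ Module.finrank F (U ⊓ W : Submodule F V) + 1 = d := by
  haveI : FiniteDimensional F V := Module.Finite.of_finite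
  have h1 := Submodule.finrank_sup_add_finrank_inf_eq U W
  have h2 : Module.finrank F (U ⊔ W : Submodule F V) ≤ d + 1 := by
    rw [← hd]; exact Submodule.finrank_le _
  have h3 : Module.finrank F U ≤ Module.finrank F (U ⊔ W : Submodule F V) :=
    Submodule.finrank_mono le_sup_left
  omega


section comb
variable {P : Type*} [Fintype P] [DecidableEq P]

open Classical in
theorem count1 (S : Set (Equiv.Perm P))
    (hsharp : ∀ a b c d : P, a ≠ b → c ≠ d → ∃! s, s ∈ S ∧ s a = c ∧ s b = d) (a b : P) (hab : a ≠ b) :
    (Finset.univ.filter (fun s : Equiv.Perm P => s ∈ S ∧ s a = a)).card + 1 = Fintype.card P := by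
  have h1 : (Finset.univ.filter (fun s : Equiv.Perm P => s ∈ S ∧ s a = a)).card = (Finset.univ.erase a).card := by
    apply Finset.card_bij (fun s _ => s b)
    · intro s hs
      have hs' := (Finset.mem_filter.1 hs).2
      rw [Finset.mem_erase]
      refine ⟨fun h => ?_, Finset.mem_univ _⟩
      have : s b = s a := by rw [h, hs'.2]
      exact hab (s.injective this).symm
    · intro s hs s' hs' h
      have h1 := (Finset.mem_filter.1 hs).2
      have h2 := (Finset.mem_filter.1 hs').2
      have hd : s b ≠ a := by
        intro h3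
        have : s b = s a := by rw [h3, h1.2]
        exact hab (s.injective this).symm
      exact (hsharp a b a (s b) hab hd.symm).unique ⟨h1.1, h1.2, rfl⟩ ⟨h2.1, h2.2, h.symm⟩
    · intro d hd
      have hd' : d ≠ a := (Finset.mem_erase.1 hd).1
      obtain ⟨s, ⟨h1, h2, h3⟩, -⟩ := hsharp a b a d hab hd'.symm
      exact ⟨s, Finset.mem_filter.2 ⟨Finset.mem_univ _, h1, h2⟩, h3⟩
  rw [h1, Finset.card_erase_of_mem (Finset.mem_univ _), Finset.card_univ]
  have : 0 < Fintype.card P := Fintype.card_pos_iff.2 ⟨a⟩
  omega

open Classical in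
theorem count2 (S : Set (Equiv.Perm P))
    (hsharp : ∀ a b c d : P, a ≠ b → c ≠ d → ∃! s, s ∈ S ∧ s a = c ∧ s b = d) (a : P) (X : Finset P) (ha : a ∉ X) :
    ∑ s ∈ Finset.univ.filter (fun s : Equiv.Perm P => s ∈ S ∧ s a = a), (X.filter (fun x => s x ∈ X)).card
      = X.card * X.card := by
  simp only [Finset.card_filter]
  rw [Finset.sum_comm]
  have : ∀ x ∈ X, ∑ s ∈ Finset.univ.filter (fun s : Equiv.Perm P => s ∈ S ∧ s a = a), (if s x ∈ X then 1 else 0) = X.card := by
    intro x hx
    have hxa : a ≠ x := fun h => ha (h ▸ hx)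
    rw [← Finset.card_filter]
    apply Finset.card_bij (fun s _ => s x)
    · intro s hs
      exact (Finset.mem_filter.1 hs).2
    · intro s hs s' hs' h
      have h1 := (Finset.mem_filter.1 (Finset.mem_filter.1 hs).1).2
      have h2 := (Finset.mem_filter.1 (Finset.mem_filter.1 hs').1).2
      have hd : a ≠ s x := by
        intro h3
        have h4 := (Finset.mem_filter.1 hs).2
        rw [← h3] at h4
        exact ha h4
      exact (hsharp a x a (s x) hxa hd).unique ⟨h1.1, h1.2, rfl⟩ ⟨h2.1, h2.2, h.symm⟩
    · intro d hd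
      have hd' : a ≠ d := fun h => ha (h ▸ hd)
      obtain ⟨s, ⟨h1, h2, h3⟩, -⟩ := hsharp a x a d hxa hd'
      refine ⟨s, Finset.mem_filter.2 ⟨Finset.mem_filter.2 ⟨Finset.mem_univ _, h1, h2⟩, ?_⟩, h3⟩
      rw [h3]; exact hd
  rw [Finset.sum_congr rfl this, Finset.sum_const, smul_eq_mul]

/-- the arithmetic contradiction -/
theorem arith_false (q m N h k t C : ℤ) (hq : 2 ≤ q) (Q : ℤ) (hQ : q ∣ Q)
    (h1 : (q - 1) * k = Q - 1) (h2 : (q - 1) * h = q * Q - 1) (h3 : (q - 1) * N = q * q * Q - 1)
    (hC : C + 1 = N) (hS : t * h + (C - t) * k = h * h) : False := by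
  have hne : q - 1 ≠ 0 := by omega
  have hh : h = q * k + 1 := by
    apply mul_left_cancel₀ hne
    linear_combination h2 - q * h1
  have hN : N = q * h + 1 := by
    apply mul_left_cancel₀ hne
    linear_combination h3 - q * h2
  have hdiff : h - k = Q := by
    apply mul_left_cancel₀ hne
    linear_combination h2 - h1
  have key : t * Q = h := by
    have hC' : C = q * h := by linarith
    linear_combination hS - k * hC' + h * hh - t * hdiff
  have h5 : q ∣ 1 := by
    have h6 : q ∣ h := key ▸ hQ.mul_left t
    have h7 : q ∣ h - q * k := dvd_sub h6 (dvd_mul_right _ _)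
    have : h - q * k = 1 := by rw [hh]; ring
    rwa [this] at h7
  have := Int.le_of_dvd one_pos h5
  omega

end comb


/-- the geometric input: the points of a hyperplane mapped into the hyperplane -/
theorem geom_count {n : ℕ} (hn : 3 ≤ n) (σ : F ≃+* F)
    (f : (Fin n → F) →ₛₗ[(σ : F →+* F)] (Fin n → F)) (hf : Function.Injective f) (i0 : Fin n) :
    let H0 : Submodule F (Fin n → F) := LinearMap.ker (LinearMap.proj i0 : (Fin n → F) →ₗ[F] F)
    (Nat.card {x : Projectivization F (Fin n → F) // x.rep ∈ H0 ∧
        (Projectivization.map f hf x).rep ∈ H0} * (Nat.card F - 1)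
      = Nat.card F ^ (n - 1) - 1) ∨
    (Nat.card {x : Projectivization F (Fin n → F) // x.rep ∈ H0 ∧
        (Projectivization.map f hf x).rep ∈ H0} * (Nat.card F - 1)
      = Nat.card F ^ (n - 2) - 1) := by
  classical
  intro H0
  let μ : (Fin n → F) →ₗ[F] F :=
    { toFun := fun v => σ.symm (f v i0)
      map_add' := by
        intro x y
        simp
      map_smul' := by
        intro c x
        simp }
  have hsurj : Function.Surjective f := Finite.surjective_of_injective hf
  obtain ⟨v, hv⟩ := hsurj (Pi.single i0 1)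
  have hμ : μ v = 1 := by
    show σ.symm (f v i0) = 1
    rw [hv]; simp
  have hfr : Module.finrank F (Fin n → F) = (n - 1) + 1 := by
    rw [Module.finrank_fin_fun]; omega
  have h1 := finrank_ker_functional μ v hμ
  have h2 := finrank_ker_functional (LinearMap.proj i0 : (Fin n → F) →ₗ[F] F) (Pi.single i0 1) (by simp)
  have hset : ∀ x : Projectivization F (Fin n → F), (x.rep ∈ H0 ∧ (Projectivization.map f hf x).rep ∈ H0)
      ↔ x.rep ∈ (H0 ⊓ LinearMap.ker μ : Submodule F (Fin n → F)) := by
    intro x
    rw [Submodule.mem_inf]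
    refine and_congr_right fun _ => ?_
    have hx : x = Projectivization.mk F x.rep x.rep_nonzero := (Projectivization.mk_rep x).symm
    conv_lhs => rw [hx, Projectivization.map_mk]
    rw [rep_mem_iff]
    show f x.rep i0 = 0 ↔ σ.symm (f x.rep i0) = 0
    simp
  have hcard : Nat.card {x : Projectivization F (Fin n → F) // x.rep ∈ H0 ∧
        (Projectivization.map f hf x).rep ∈ H0}
      = Nat.card {x : Projectivization F (Fin n → F) // x.rep ∈ (H0 ⊓ LinearMap.ker μ : Submodule F (Fin n → F))} :=
    Nat.card_congr (Equiv.subtypeEquivRight hset)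
  rw [hcard, ← card_points]
  rcases finrank_inf H0 (LinearMap.ker μ) (n - 1) hfr (by rw [h2]; omega) (by rw [h1]; omega) with h3 | h3
  · left
    rw [Module.natCard_eq_pow_finrank (K := F), h3]
  · right
    have h4 : Module.finrank F (H0 ⊓ LinearMap.ker μ : Submodule F (Fin n → F)) = n - 2 := by omega
    rw [Module.natCard_eq_pow_finrank (K := F), h4]

end counting


/-- Let `F` be a finite field and `n ≥ 3`. No set of permutations of the points of the projective space of `Fⁿ`, each induced by an invertible semilinear transformation of `Fⁿ` (so a subset of the full projective semilinear group), is sharply 2-transitive on the points: it is impossible that for all pairs of distinct points `(a, b)` and `(c, d)` exactly one member of the set sends `a` to `c` and `b` to `d`. -/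
theorem result {F : Type*} [Field F] [Finite F]
    (n : ℕ) (hn : 3 ≤ n) (S : Set (Equiv.Perm (Projectivization F (Fin n → F))))
    (hS : ∀ s ∈ S, ∃ (σ : F ≃+* F) (f : (Fin n → F) →ₛₗ[(σ : F →+* F)] (Fin n → F)) (hf : Function.Injective f),
      ∀ x, s x = Projectivization.map f hf x) :
    ¬ (∀ a b c d : Projectivization F (Fin n → F), a ≠ b → c ≠ d →
        ∃! s, s ∈ S ∧ s a = c ∧ s b = d) := by
  classical
  intro hsharp
  haveI : Fintype (Projectivization F (Fin n → F)) := Fintype.ofFinite _
  let i0 : Fin n := ⟨0, by omega⟩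
  let i1 : Fin n := ⟨1, by omega⟩
  let H0 : Submodule F (Fin n → F) := LinearMap.ker (LinearMap.proj i0 : (Fin n → F) →ₗ[F] F)
  let X : Finset (Projectivization F (Fin n → F)) := Finset.univ.filter (fun x => x.rep ∈ H0)
  have hne0 : (Pi.single i0 1 : Fin n → F) ≠ 0 := by
    intro h
    have := congrFun h i0
    simp at this
  have hne1 : (Pi.single i1 1 : Fin n → F) ≠ 0 := by
    intro h
    have := congrFun h i1
    simp at this
  let a : Projectivization F (Fin n → F) := Projectivization.mk F _ hne0
  let b : Projectivization F (Fin n → F) := Projectivization.mk F _ hne1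
  have hi01 : i0 ≠ i1 := by
    intro h
    have := congrArg Fin.val h
    simp [i0, i1] at this
  have hab : a ≠ b := by
    intro h
    rw [Projectivization.mk_eq_mk_iff'] at h
    obtain ⟨c, hc⟩ := h
    have h1 := congrFun hc i0
    simp [hi01, hi01.symm] at h1
  have haX : a ∉ X := by
    intro h
    have h1 : a.rep ∈ H0 := (Finset.mem_filter.1 h).2
    rw [rep_mem_iff] at h1
    have h2 : (Pi.single i0 1 : Fin n → F) i0 = 0 := h1
    simp at h2
  have hc1 := count1 S hsharp a b hab
  have hc2 := count2 S hsharp a X haX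
  set T := Finset.univ.filter (fun s : Equiv.Perm (Projectivization F (Fin n → F)) => s ∈ S ∧ s a = a) with hT
  set q := Nat.card F with hq
  have hq2 : 2 ≤ q := by
    have : 1 < Nat.card F := Finite.one_lt_card
    omega
  have hcastz : ∀ A c : ℕ, 1 ≤ A → c * (q - 1) = A - 1 → ((q : ℤ) - 1) * c = (A : ℤ) - 1 := by
    intro A c hA h
    obtain ⟨q', hq'⟩ : ∃ q', q = q' + 1 := ⟨q - 1, by omega⟩
    obtain ⟨A', rfl⟩ : ∃ A', A = A' + 1 := ⟨A - 1, by omega⟩
    rw [hq'] at h ⊢
    simp only [Nat.add_sub_cancel] at h
    rw [← h]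
    push_cast
    ring
  have hposp : ∀ m : ℕ, 1 ≤ q ^ m := fun m => Nat.one_le_pow _ _ (by omega)
  -- the size of `X`
  have hX : X.card * (q - 1) = q ^ (n - 1) - 1 := by
    have h1 := card_points H0
    have h2 := finrank_ker_functional (LinearMap.proj i0 : (Fin n → F) →ₗ[F] F) (Pi.single i0 1) (by simp)
    rw [Module.natCard_eq_pow_finrank (K := F), h2, Module.finrank_fin_fun] at h1
    rw [h1, Nat.card_eq_fintype_card, Fintype.card_subtype]
  -- the second size
  obtain ⟨k, hk⟩ : ∃ k, k * (q - 1) = q ^ (n - 2) - 1 := by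
    have h1 : (q - 1) ∣ q ^ (n - 2) - 1 ^ (n - 2) := Nat.sub_dvd_pow_sub_pow _ _ _
    rw [one_pow] at h1
    obtain ⟨k, hk⟩ := h1
    exact ⟨k, by rw [hk, mul_comm]⟩
  have hq1 : 0 < q - 1 := by omega
  have hcnt : ∀ s ∈ T, (X.filter (fun x => s x ∈ X)).card = X.card ∨ (X.filter (fun x => s x ∈ X)).card = k := by
    intro s hs
    obtain ⟨σ, f, hf, hsf⟩ := hS s (Finset.mem_filter.1 hs).2.1
    have h1 : (X.filter (fun x => s x ∈ X)).card = Nat.card {x : Projectivization F (Fin n → F) // x.rep ∈ H0 ∧
        (Projectivization.map f hf x).rep ∈ H0} := by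
      rw [Nat.card_eq_fintype_card, Fintype.card_subtype]
      congr 1
      ext x
      simp [X, hsf]
    rcases geom_count hn σ f hf i0 with h2 | h2
    · left
      rw [← h1] at h2
      apply Nat.eq_of_mul_eq_mul_right hq1
      rw [h2, hX]
    · right
      rw [← h1] at h2
      apply Nat.eq_of_mul_eq_mul_right hq1
      rw [h2, hk]
  -- the sum
  have hsplit := Finset.sum_filter_add_sum_filter_not T (fun s => (X.filter (fun x => s x ∈ X)).card = X.card)
    (fun s => (X.filter (fun x => s x ∈ X)).card)
  rw [hc2] at hsplit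
  have hs1 : ∑ s ∈ T.filter (fun s => (X.filter (fun x => s x ∈ X)).card = X.card), (X.filter (fun x => s x ∈ X)).card
      = (T.filter (fun s => (X.filter (fun x => s x ∈ X)).card = X.card)).card * X.card := by
    rw [Finset.sum_congr rfl (fun s hs => (Finset.mem_filter.1 hs).2), Finset.sum_const, smul_eq_mul]
  have hs2 : ∑ s ∈ T.filter (fun s => ¬ (X.filter (fun x => s x ∈ X)).card = X.card), (X.filter (fun x => s x ∈ X)).card
      = (T.filter (fun s => ¬ (X.filter (fun x => s x ∈ X)).card = X.card)).card * k := by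
    rw [Finset.sum_congr rfl (fun s hs => (hcnt s (Finset.mem_filter.1 hs).1).resolve_left (Finset.mem_filter.1 hs).2),
      Finset.sum_const, smul_eq_mul]
  rw [hs1, hs2] at hsplit
  have hsum := Finset.card_filter_add_card_filter_not (s := T) (fun s => (X.filter (fun x => s x ∈ X)).card = X.card)
  set t := (T.filter (fun s => (X.filter (fun x => s x ∈ X)).card = X.card)).card
  set t' := (T.filter (fun s => ¬ (X.filter (fun x => s x ∈ X)).card = X.card)).card
  have hN : Nat.card (Projectivization F (Fin n → F)) * (q - 1) = q ^ n - 1 := by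
    have h1 := Projectivization.card F (V := Fin n → F)
    rw [Module.natCard_eq_pow_finrank (K := F), Module.finrank_fin_fun] at h1
    rw [h1]
  rw [Nat.card_eq_fintype_card, ← hc1] at hN
  have hpow1 : q ^ (n - 1) = q * q ^ (n - 2) := by
    rw [← pow_succ', show n - 2 + 1 = n - 1 by omega]
  have hpow2 : q ^ n = q * q * q ^ (n - 2) := by
    rw [mul_assoc, ← hpow1, ← pow_succ', show n - 1 + 1 = n by omega]
  have hdvd : q ∣ q ^ (n - 2) := dvd_pow_self _ (by omega)
  refine arith_false (q : ℤ) 0 ((T.card + 1 : ℕ) : ℤ) (X.card : ℤ) (k : ℤ) (t : ℤ) (T.card : ℤ) (by exact_mod_cast hq2)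
    ((q ^ (n - 2) : ℕ) : ℤ) (by exact_mod_cast hdvd) (hcastz _ _ (hposp _) hk) ?_ ?_ (by push_cast; ring) ?_
  · have := hcastz _ _ (hposp _) hX
    rw [hpow1] at this
    push_cast at this ⊢
    exact this
  · have := hcastz _ _ (hposp _) hN
    rw [hpow2] at this
    push_cast at this ⊢
    exact this
  · have h3 : (t : ℤ) * X.card + t' * k = X.card * X.card := by exact_mod_cast hsplit
    have h4 : (t : ℤ) + t' = T.card := by exact_mod_cast hsum
    have h5 : (T.card : ℤ) - t = t' := by linarith
    rw [h5]
    exact h3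

end Cfsg.Agent.S2531
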