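import Cfsg.Statements.S2532
import Cfsg.Agent.Lib.AbPerm

set_option autoImplicit false
open Cfsg

namespace Cfsg.Agent.S2532


open Equiv MulAction Cfsg.Agent.Lib.AbPerm

section core
variable {X : Type*} [Finite X]

theorem exists_reps (H : Subgroup (Perm X)) (r : ℕ)
    (hm : Nat.card H * r * 2 ^ Nat.card H ≤ Nat.card X) (hpos : 0 < Nat.card H) :
    ∃ (x : Fin r → X) (L : Subgroup H), (∀ i, stabilizer H (x i) = L) ∧
      ∀ i j, x i ∈ orbit H (x j) → i = j := by
  classical
  haveI : Fintype (orbitRel.Quotient H X) := Fintype.ofFinite _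
  haveI : Fintype H := Fintype.ofFinite _
  haveI : Fintype (Subgroup H) := Fintype.ofFinite _
  set n := Nat.card H with hn
  -- number of orbits
  have h1 : Nat.card X ≤ Fintype.card (orbitRel.Quotient H X) * n := by
    rw [← sum_card_orbit H]
    calc ∑ ω : orbitRel.Quotient H X, Nat.card ω.orbit
        ≤ ∑ _ω : orbitRel.Quotient H X, n := by
          apply Finset.sum_le_sum
          intro ω _
          have : ω.orbit = orbit H ω.out := orbitRel.Quotient.orbit_eq_orbit_out _ Quotient.out_eq'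
          rw [this]
          exact Nat.card_le_card_of_surjective (fun h => ⟨h • ω.out, mem_orbit _ _⟩)
            (by rintro ⟨_, ⟨h, rfl⟩⟩; exact ⟨h, rfl⟩)
      _ = _ := by simp
  have h2 : r * 2 ^ n ≤ Fintype.card (orbitRel.Quotient H X) := by
    have : n * (r * 2 ^ n) ≤ n * Fintype.card (orbitRel.Quotient H X) := by
      calc n * (r * 2 ^ n) = n * r * 2 ^ n := by ring
        _ ≤ _ := hm.trans (by linarith)
    exact Nat.le_of_mul_le_mul_left this hpos
  have h3 : Fintype.card (Subgroup H) ≤ 2 ^ n := by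
    have : Fintype.card (Subgroup H) ≤ Fintype.card (Set H) :=
      Fintype.card_le_of_injective (fun L : Subgroup H => (L : Set H)) SetLike.coe_injective
    rw [Fintype.card_set] at this
    rwa [hn, Nat.card_eq_fintype_card]
  let F : orbitRel.Quotient H X → Subgroup H := fun ω => stabilizer H ω.out
  have h4 : Fintype.card (Subgroup H) * r ≤ Fintype.card (orbitRel.Quotient H X) := by
    calc _ ≤ 2 ^ n * r := Nat.mul_le_mul_right _ h3
      _ = r * 2 ^ n := by ring
      _ ≤ _ := h2
  obtain ⟨L, hL⟩ := Fintype.exists_le_card_fiber_of_mul_le_card F h4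
  have hne : Nonempty (Fin r ↪ {ω // F ω = L}) := by
    apply Function.Embedding.nonempty_of_card_le
    rw [Fintype.card_fin, Fintype.card_subtype]
    exact hL
  obtain ⟨e⟩ := hne
  refine ⟨fun i => (e i).1.out, L, fun i => (e i).2, ?_⟩
  intro i j hij
  have : (e i).1 = (e j).1 := by
    rw [← Quotient.out_eq' (e i).1, ← Quotient.out_eq' (e j).1]
    exact Quotient.sound' hij
  exact e.injective (Subtype.ext this)

theorem exists_hom (H : Subgroup (Perm X)) (r : ℕ)
    (hm : Nat.card H * r * 2 ^ Nat.card H ≤ Nat.card X) (hpos : 0 < Nat.card H) :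
    ∃ φ : Perm (Fin r) →* Perm X, Function.Injective φ ∧ ∀ σ, ∀ h ∈ H, φ σ * h = h * φ σ := by
  classical
  obtain ⟨x, L, hst, hdist⟩ := exists_reps H r hm hpos
  let j : (H ⧸ L) × Fin r → X := fun p => Quotient.liftOn' p.1 (fun h => h • x p.2) (by
    intro a b hab
    have h1 : a⁻¹ * b ∈ L := QuotientGroup.leftRel_apply.1 hab
    rw [← hst p.2, mem_stabilizer_iff, mul_smul, inv_smul_eq_iff] at h1
    exact h1.symm)
  have hj : ∀ (h : H) i, j ((h : H ⧸ L), i) = h • x i := fun _ _ => rfl
  have hinj : Function.Injective j := by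
    rintro ⟨q1, i⟩ ⟨q2, i'⟩ e
    induction q1 using QuotientGroup.induction_on with
    | H h1 =>
    induction q2 using QuotientGroup.induction_on with
    | H h2 =>
    rw [hj, hj] at e
    have hi : i = i' := by
      apply hdist
      refine ⟨h1⁻¹ * h2, ?_⟩
      show (h1⁻¹ * h2) • x i' = x i
      rw [mul_smul, ← e, inv_smul_smul]
    subst hi
    have h3 : h1⁻¹ * h2 ∈ L := by
      rw [← hst i, mem_stabilizer_iff, mul_smul, ← e, inv_smul_smul]
    rw [Prod.mk.injEq]
    exact ⟨QuotientGroup.eq.2 h3, rfl⟩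
  let ι : (H ⧸ L) × Fin r ↪ X := ⟨j, hinj⟩
  let ρ : Perm (Fin r) →* Perm ((H ⧸ L) × Fin r) :=
    { toFun := fun σ => Equiv.prodCongr (Equiv.refl _) σ
      map_one' := by ext p <;> rfl
      map_mul' := fun a b => by ext p <;> rfl }
  have hρ : Function.Injective ρ := by
    intro a b hab
    ext i
    have := congrArg (fun f : Perm ((H ⧸ L) × Fin r) => (f (((1 : H) : H ⧸ L), i)).2) hab
    exact congrArg Fin.val this
  refine ⟨(Perm.viaEmbeddingHom ι).comp ρ, (Perm.viaEmbeddingHom_injective ι).comp hρ, ?_⟩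
  intro σ h hh
  have hact : ∀ (g : H) (q : H ⧸ L) i, (g : Perm X) (j (q, i)) = j (g • q, i) := by
    intro g q i
    induction q using QuotientGroup.induction_on with
    | H h1 =>
    rw [hj]
    have : g • ((h1 : H) : H ⧸ L) = ((g * h1 : H) : H ⧸ L) := rfl
    rw [this, hj, mul_smul]
    rfl
  have hφ1 : ∀ p, ((Perm.viaEmbeddingHom ι).comp ρ σ) (j p) = j (p.1, σ p.2) := fun p =>
    Perm.viaEmbedding_apply (ρ σ) ι p
  have hφ2 : ∀ y, y ∉ Set.range ι → ((Perm.viaEmbeddingHom ι).comp ρ σ) y = y := fun y hy =>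
    Perm.viaEmbedding_apply_of_notMem (ρ σ) ι y hy
  let g : H := ⟨h, hh⟩
  have hg : ∀ y, h y = (g : Perm X) y := fun _ => rfl
  ext y
  by_cases hy : y ∈ Set.range ι
  · obtain ⟨⟨q, i⟩, rfl⟩ := hy
    show ((Perm.viaEmbeddingHom ι).comp ρ σ) (h (j (q, i))) = h (((Perm.viaEmbeddingHom ι).comp ρ σ) (j (q, i)))
    rw [hg, hact, hφ1, hφ1, hg, hact]
  · have hy' : h y ∉ Set.range ι := by
      rintro ⟨⟨q, i⟩, hq⟩
      apply hy
      refine ⟨(g⁻¹ • q, i), ?_⟩
      have h1 : j (q, i) = (g : Perm X) y := hq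
      have h2 := hact g⁻¹ q i
      show j (g⁻¹ • q, i) = y
      rw [← h2, h1]
      show (g⁻¹ * g : H).1 y = y
      simp
    show ((Perm.viaEmbeddingHom ι).comp ρ σ) (h y) = h (((Perm.viaEmbeddingHom ι).comp ρ σ) y)
    rw [hφ2 _ hy', hφ2 _ hy]

end core


/-- There is a function `f` of two natural-number arguments such that, whenever `m ≥ f(n, r)`, every subgroup of order `n` of the alternating group of degree `m` centralizes some subgroup of that alternating group isomorphic to the alternating group of degree `r`. -/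
theorem result :
    ∃ f : ℕ → ℕ → ℕ, ∀ (m r : ℕ) (H : Subgroup ↥(alternatingGroup (Fin m))), f (Nat.card H) r ≤ m →
      ∃ K : Subgroup ↥(alternatingGroup (Fin m)), Nonempty (↥K ≃* ↥(alternatingGroup (Fin r))) ∧
        K ≤ Subgroup.centralizer (H : Set ↥(alternatingGroup (Fin m))) := by
  refine ⟨fun n r => n * r * 2 ^ n, ?_⟩
  intro m r H hm
  classical
  let H' : Subgroup (Perm (Fin m)) := H.map (alternatingGroup (Fin m)).subtype
  have hcard : Nat.card H' = Nat.card H :=
    Subgroup.card_map_of_injective (Subgroup.subtype_injective _)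
  obtain ⟨φ, hφ, hcomm⟩ := exists_hom H' r (by
    rw [hcard, Nat.card_eq_fintype_card (α := Fin m), Fintype.card_fin]; exact hm)
    (by rw [hcard]; exact Nat.card_pos)
  have halt : (alternatingGroup (Fin r)).map φ ≤ alternatingGroup (Fin m) := by
    rw [Subgroup.map_le_iff_le_comap, ← Equiv.Perm.closure_three_cycles_eq_alternating, Subgroup.closure_le]
    intro σ hσ
    have h3 : σ ^ 3 = 1 := by
      have := pow_orderOf_eq_one σ
      rwa [Equiv.Perm.IsThreeCycle.orderOf hσ] at this
    show φ σ ∈ alternatingGroup (Fin m)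
    rw [Perm.mem_alternatingGroup]
    have h4 : Perm.sign (φ σ) ^ 3 = 1 := by
      rw [← map_pow, ← map_pow, h3]; simp
    rcases Int.units_eq_one_or (Perm.sign (φ σ)) with h | h
    · exact h
    · rw [h] at h4
      exact absurd h4 (by decide)
  refine ⟨((alternatingGroup (Fin r)).map φ).subgroupOf (alternatingGroup (Fin m)), ⟨?_⟩, ?_⟩
  · exact (Subgroup.subgroupOfEquivOfLe halt).trans
      ((alternatingGroup (Fin r)).equivMapOfInjective φ hφ).symm
  · intro g hg
    rw [Subgroup.mem_centralizer_iff]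
    intro h hh
    apply Subtype.ext
    obtain ⟨σ, -, hσ⟩ := hg
    have hσ' : φ σ = (g : Perm (Fin m)) := hσ
    show (h : Perm (Fin m)) * (g : Perm (Fin m)) = (g : Perm (Fin m)) * (h : Perm (Fin m))
    rw [← hσ']
    exact (hcomm σ h ⟨h, hh, rfl⟩).symm

end Cfsg.Agent.S2532
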