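import Cfsg.Statements.S2541
import Mathlib

set_option autoImplicit false
open Cfsg

namespace Cfsg.Agent.S2541

/-- Let F be a field with 9 elements. The symmetric group S_6 is not isomorphic to PGL_2(F) (although both have index-2 subgroups isomorphic to A_6). -/
theorem result {F : Type*} [Field F] [Fintype F] (hF : Fintype.card F = 9) : ¬ Nonempty (Equiv.Perm (Fin 6) ≃* Matrix.ProjGenLinGroup (Fin 2) F) := by
  classical
  rintro ⟨e⟩
  -- a generator of the multiplicative group
  obtain ⟨γ, hγ⟩ := IsCyclic.exists_generator (α := Fˣ)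
  have hord : orderOf γ = 8 := by
    rw [orderOf_eq_card_of_forall_mem_zpowers hγ, Nat.card_eq_fintype_card, Fintype.card_units, hF]
  have hk : ∀ k : ℕ, (γ : F) ^ k = 1 ↔ 8 ∣ k := by
    intro k
    rw [← hord, orderOf_dvd_iff_pow_eq_one, ← Units.val_pow_eq_pow_val, Units.val_eq_one]
  -- the diagonal element
  obtain ⟨g, hg⟩ : ∃ g : GL (Fin 2) F, (g : Matrix (Fin 2) (Fin 2) F) = Matrix.diagonal ![(γ : F), 1] := by
    refine ⟨⟨Matrix.diagonal ![(γ : F), 1], Matrix.diagonal ![((γ⁻¹ : Fˣ) : F), 1], ?_, ?_⟩, rfl⟩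
    · rw [Matrix.diagonal_mul_diagonal]
      rw [← Matrix.diagonal_one]
      congr 1
      funext i
      fin_cases i <;> simp
    · rw [Matrix.diagonal_mul_diagonal]
      rw [← Matrix.diagonal_one]
      congr 1
      funext i
      fin_cases i <;> simp
  have hpow : ∀ k : ℕ, ((g ^ k : GL (Fin 2) F) : Matrix (Fin 2) (Fin 2) F) = Matrix.diagonal ![(γ : F) ^ k, 1] := by
    intro k
    rw [Units.val_pow_eq_pow_val, hg, Matrix.diagonal_pow]
    congr 1
    funext i
    fin_cases i <;> simp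
  -- an elementary matrix
  obtain ⟨u, hu⟩ : ∃ u : GL (Fin 2) F, (u : Matrix (Fin 2) (Fin 2) F) = !![1, 1; 0, 1] := by
    refine ⟨⟨!![1, 1; 0, 1], !![1, -1; 0, 1], ?_, ?_⟩, rfl⟩
    · simp [Matrix.mul_fin_two, Matrix.one_fin_two]
    · simp [Matrix.mul_fin_two, Matrix.one_fin_two]
  set x : Matrix.ProjGenLinGroup (Fin 2) F := Matrix.ProjGenLinGroup.mk g with hx
  have hmk : ∀ a : GL (Fin 2) F, (Matrix.ProjGenLinGroup.mk a = 1 ↔ a ∈ Subgroup.center (GL (Fin 2) F)) :=
    fun a => QuotientGroup.eq_one_iff a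
  have hxk : ∀ k : ℕ, x ^ k = 1 ↔ 8 ∣ k := by
    intro k
    constructor
    · intro h
      rw [hx, ← map_pow, hmk] at h
      have h2 := Subgroup.mem_center_iff.1 h u
      have h3 := congrArg (fun M : GL (Fin 2) F => (M : Matrix (Fin 2) (Fin 2) F) 0 1) h2
      simp only [Units.val_mul, hpow, hu] at h3
      rw [Matrix.mul_apply, Matrix.mul_apply] at h3
      simp [Fin.sum_univ_two, Matrix.diagonal_apply] at h3
      exact (hk k).1 h3.symm
    · rintro ⟨t, rfl⟩
      have h1 : g ^ 8 = 1 := by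
        apply Units.ext
        rw [hpow, (hk 8).2 dvd_rfl]
        ext i j
        fin_cases i <;> fin_cases j <;> simp [Matrix.diagonal_apply]
      rw [pow_mul, hx, ← map_pow, h1]
      simp
  have hxo : orderOf x = 8 := by
    apply Nat.dvd_antisymm
    · exact orderOf_dvd_of_pow_eq_one ((hxk 8).2 dvd_rfl)
    · exact (hxk _).1 (pow_orderOf_eq_one x)
  -- the preimage in `S₆`
  set σ := e.symm x with hσ
  have hσo : orderOf σ = 8 := by
    rw [hσ, MulEquiv.orderOf_eq, hxo]
  -- no element of order 8 in `S₆`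
  have hall : ∀ a ∈ σ.cycleType, a ∣ 4 := by
    intro a ha
    have h1 : a ∣ 8 := by
      rw [← hσo, ← Equiv.Perm.lcm_cycleType]
      exact Multiset.dvd_lcm ha
    have h2 : a ≤ 6 := by
      have h3 := Multiset.le_sum_of_mem ha
      rw [Equiv.Perm.sum_cycleType] at h3
      calc a ≤ σ.support.card := h3
        _ ≤ Fintype.card (Fin 6) := Finset.card_le_univ _
        _ = 6 := Fintype.card_fin 6
    have h3 : a ≠ 8 := by omega
    have h4 : a ∈ Nat.divisors 8 := Nat.mem_divisors.2 ⟨h1, by norm_num⟩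
    have h5 : Nat.divisors 8 = {1, 2, 4, 8} := by decide
    rw [h5] at h4
    simp only [Finset.mem_insert, Finset.mem_singleton] at h4
    rcases h4 with rfl | rfl | rfl | rfl
    · norm_num
    · norm_num
    · norm_num
    · exact absurd rfl h3
  have h8 : (8 : ℕ) ∣ 4 := by
    have h9 : σ.cycleType.lcm ∣ 4 := Multiset.lcm_dvd.2 hall
    rwa [Equiv.Perm.lcm_cycleType, hσo] at h9
  norm_num at h8

end Cfsg.Agent.S2541
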