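import Cfsg.Statements.S2550
import Cfsg.Agent.S0819
import Cfsg.Agent.Lib.SLn
import Cfsg.Agent.Lib.SL2Irr6

set_option autoImplicit false
open Cfsg

namespace Cfsg.Agent.S2550

/-- Let F be a field with 2 elements and K a field with 4 elements. PSL_4(F) and PSL_3(K) have the same order (20160) but are not isomorphic. -/
theorem result {F K : Type*} [Field F] [Fintype F] [Field K] [Fintype K] (hF : Fintype.card F = 2) (hK : Fintype.card K = 4) : Nat.card (Matrix.ProjectiveSpecialLinearGroup (Fin 4) F) = Nat.card (Matrix.ProjectiveSpecialLinearGroup (Fin 3) K) ∧ ¬ Nonempty (Matrix.ProjectiveSpecialLinearGroup (Fin 4) F ≃* Matrix.ProjectiveSpecialLinearGroup (Fin 3) K) := by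
  classical
  have hcardF : Nat.card (Matrix.ProjectiveSpecialLinearGroup (Fin 4) F) = 20160 := by
    have h1 := Cfsg.Agent.Lib.SLn.card_GL_eq (ι := Fin 4) (F := F)
    have h2 := Cfsg.Agent.Lib.SLn.card_SL_eq_center_mul (ι := Fin 4) (F := F)
    have hprod : ∏ i : Fin 4, ((2 : ℕ) ^ 4 - 2 ^ (i : ℕ)) = 20160 := by decide
    rw [Matrix.card_GL_field, hF, hprod] at h1
    simp only [Fintype.card_fin, hF] at h2
    have e1 : (2 - 1 : ℕ) = 1 := rfl
    have e2 : Nat.gcd 4 (2 - 1) = 1 := rfl
    rw [e1] at h1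
    rw [e2] at h2
    omega
  have hcardK : Nat.card (Matrix.ProjectiveSpecialLinearGroup (Fin 3) K) = 20160 := by
    have h1 := Cfsg.Agent.Lib.SLn.card_GL_eq (ι := Fin 3) (F := K)
    have h2 := Cfsg.Agent.Lib.SLn.card_SL_eq_center_mul (ι := Fin 3) (F := K)
    have hprod : ∏ i : Fin 3, ((4 : ℕ) ^ 3 - 4 ^ (i : ℕ)) = 181440 := by decide
    rw [Matrix.card_GL_field, hK, hprod] at h1
    simp only [Fintype.card_fin, hK] at h2
    have e1 : (4 - 1 : ℕ) = 3 := rfl
    have e2 : Nat.gcd 3 (4 - 1) = 3 := rfl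
    rw [e1] at h1
    rw [e2] at h2
    omega
  refine ⟨hcardF.trans hcardK.symm, ?_⟩
  rintro ⟨e⟩
  haveI : CharP F 2 := Cfsg.Agent.Lib.GL2Conj.charP_of_even (by rw [hF]; exact even_two)
  -- the element of order fifteen
  let A₀ : Matrix.SpecialLinearGroup (Fin 4) (ZMod 2) := ⟨!![0, 0, 0, 1; 1, 0, 0, 1; 0, 1, 0, 0; 0, 0, 1, 0], by decide +kernel⟩
  have h15 : A₀ ^ 15 = 1 := by decide +kernel
  have h5 : A₀ ^ 5 ≠ 1 := by decide +kernel
  have h3 : A₀ ^ 3 ≠ 1 := by decide +kernel
  have hord : orderOf A₀ = 15 := by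
    apply orderOf_eq_of_pow_and_pow_div_prime (by norm_num) h15
    intro p hp hd
    have : p ∣ 3 * 5 := hd
    rcases (Nat.Prime.dvd_mul hp).1 this with h | h
    · have hp3 : p = 3 := (Nat.prime_dvd_prime_iff_eq hp (by norm_num)).1 h
      subst hp3
      exact h5
    · have hp5 : p = 5 := (Nat.prime_dvd_prime_iff_eq hp (by norm_num)).1 h
      subst hp5
      exact h3
  let f : Matrix.SpecialLinearGroup (Fin 4) (ZMod 2) →* Matrix.SpecialLinearGroup (Fin 4) F :=
    Matrix.SpecialLinearGroup.map (ZMod.castHom (dvd_refl 2) F)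
  have hf : Function.Injective f := by
    intro a b hab
    apply Subtype.ext
    ext i j
    have h1 := congrFun (congrFun (congrArg Subtype.val hab) i) j
    exact (ZMod.castHom (dvd_refl 2) F).injective h1
  have hcen : Subgroup.center (Matrix.SpecialLinearGroup (Fin 4) F) = ⊥ := by
    have h1 := Cfsg.Agent.Lib.SLn.card_center_SL (ι := Fin 4) (F := F)
    rw [hF, Fintype.card_fin] at h1
    exact Subgroup.eq_bot_of_card_eq _ (by simpa using h1)
  let π : Matrix.SpecialLinearGroup (Fin 4) F →* Matrix.ProjectiveSpecialLinearGroup (Fin 4) F := QuotientGroup.mk' _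
  have hπ : Function.Injective π := by
    rw [injective_iff_map_eq_one]
    intro x hx
    have : x ∈ Subgroup.center (Matrix.SpecialLinearGroup (Fin 4) F) := (QuotientGroup.eq_one_iff x).1 hx
    rw [hcen] at this
    exact this
  have h := Cfsg.Agent.S0819.result hK (e (π (f A₀)))
  apply h
  rw [MulEquiv.orderOf_eq, orderOf_injective π hπ, orderOf_injective f hf, hord]

end Cfsg.Agent.S2550
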