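import Cfsg.Statements.S2551
import Cfsg.Agent.Lib.TwoTransA7
import Cfsg.Agent.Lib.PSL4A8

set_option autoImplicit false
open Cfsg

namespace Cfsg.Agent.S2551

theorem card_A7 : Nat.card (alternatingGroup (Fin 7)) = 2520 := by
  have h := two_mul_card_alternatingGroup (α := Fin 7)
  rw [Fintype.card_perm, Fintype.card_fin] at h
  rw [Nat.card_eq_fintype_card]
  have : Nat.factorial 7 = 5040 := rfl
  omega

theorem part1 {F : Type*} [Field F] [Fintype F] (hF : Fintype.card F = 2) :
    ∃ H : Subgroup (Matrix.GeneralLinearGroup (Fin 4) F), Nonempty (H ≃* alternatingGroup (Fin 7)) := by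
  classical
  obtain ⟨e⟩ := Cfsg.Agent.Lib.PSL4A8.main hF
  let ι : Fin 7 ↪ Fin 8 := ⟨Fin.castSucc, Fin.castSucc_injective 7⟩
  let φ₀ : Equiv.Perm (Fin 7) →* Equiv.Perm (Fin 8) := Equiv.Perm.viaEmbeddingHom ι
  have hφ₀ : Function.Injective φ₀ := Equiv.Perm.viaEmbeddingHom_injective ι
  have hsign : ∀ σ, Equiv.Perm.sign (φ₀ σ) = Equiv.Perm.sign σ := by
    intro σ
    letI : DecidablePred (· ∈ Set.range ι.toFun) := fun a => Classical.propDecidable _
    exact Equiv.Perm.sign_extendDomain σ (Equiv.ofInjective ι.1 ι.2)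
  let φ₁ : alternatingGroup (Fin 7) →* alternatingGroup (Fin 8) :=
    (φ₀.comp (alternatingGroup (Fin 7)).subtype).codRestrict _ (fun σ => by
      rw [Equiv.Perm.mem_alternatingGroup]
      show Equiv.Perm.sign (φ₀ σ.1) = 1
      rw [hsign]
      exact Equiv.Perm.mem_alternatingGroup.1 σ.2)
  have hφ₁ : Function.Injective φ₁ := by
    intro a b hab
    apply Subtype.ext
    apply hφ₀
    exact congrArg Subtype.val hab
  let π : Matrix.SpecialLinearGroup (Fin 4) F →* Matrix.ProjectiveSpecialLinearGroup (Fin 4) F :=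
    QuotientGroup.mk' _
  have hval : ∀ x : F, x ≠ 0 → x = 1 := by
    intro x hx
    have := FiniteField.pow_card_sub_one_eq_one x hx
    rw [hF] at this
    simpa using this
  have hπ : Function.Bijective π := by
    refine ⟨?_, QuotientGroup.mk'_surjective _⟩
    rw [injective_iff_map_eq_one]
    intro g hg
    have hg' : g ∈ Subgroup.center (Matrix.SpecialLinearGroup (Fin 4) F) := by
      rw [← QuotientGroup.eq_one_iff]
      exact hg
    rw [Matrix.SpecialLinearGroup.mem_center_iff] at hg'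
    obtain ⟨r, hr1, hr2⟩ := hg'
    have hr0 : r ≠ 0 := by
      rintro rfl
      simp at hr1
    rw [hval r hr0, map_one] at hr2
    apply Subtype.ext
    rw [← hr2]
    rfl
  let E := MulEquiv.ofBijective π hπ
  let ψ : alternatingGroup (Fin 7) →* Matrix.GeneralLinearGroup (Fin 4) F :=
    (Matrix.SpecialLinearGroup.toGL).comp (E.symm.toMonoidHom.comp (e.symm.toMonoidHom.comp φ₁))
  have hψ : Function.Injective ψ := by
    intro a b hab
    apply hφ₁
    apply e.symm.injective
    apply E.symm.injective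
    apply Subtype.ext
    exact congrArg Units.val hab
  exact ⟨ψ.range, ⟨(MonoidHom.ofInjective hψ).symm⟩⟩

theorem part2 {F : Type*} [Field F] [Fintype F] (hF : Fintype.card F = 2)
    (H : Subgroup (Matrix.GeneralLinearGroup (Fin 4) F)) (hH : Nonempty (H ≃* alternatingGroup (Fin 7)))
    (v w v' w' : Fin 4 → F) (hv : v ≠ 0) (hw : w ≠ 0) (hvw : v ≠ w) (hv' : v' ≠ 0) (hw' : w' ≠ 0) (hvw' : v' ≠ w') :
    ∃ g ∈ H, (g : Matrix (Fin 4) (Fin 4) F).mulVec v = v' ∧ (g : Matrix (Fin 4) (Fin 4) F).mulVec w = w' := by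
  classical
  obtain ⟨e⟩ := hH
  letI act : DistribMulAction H (Fin 4 → F) :=
    { smul := fun g v => ((g.1 : Matrix.GeneralLinearGroup (Fin 4) F) : Matrix (Fin 4) (Fin 4) F).mulVec v
      one_smul := fun v => by
        show (((1 : H).1 : Matrix.GeneralLinearGroup (Fin 4) F) : Matrix (Fin 4) (Fin 4) F).mulVec v = v
        simp
      mul_smul := fun a b v => by
        show (((a * b : H).1 : Matrix.GeneralLinearGroup (Fin 4) F) : Matrix (Fin 4) (Fin 4) F).mulVec v =
          ((a.1 : Matrix.GeneralLinearGroup (Fin 4) F) : Matrix (Fin 4) (Fin 4) F).mulVec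
            (((b.1 : Matrix.GeneralLinearGroup (Fin 4) F) : Matrix (Fin 4) (Fin 4) F).mulVec v)
        rw [Matrix.mulVec_mulVec]
        rfl
      smul_zero := fun a => Matrix.mulVec_zero _
      smul_add := fun a x y => Matrix.mulVec_add _ _ _ }
  haveI faith : FaithfulSMul H (Fin 4 → F) := ⟨fun {a b} h => by
    apply Subtype.ext
    apply Units.ext
    exact Matrix.mulVec_injective (funext h)⟩
  have cH : Nat.card H = 2520 := by
    rw [Nat.card_congr e.toEquiv, card_A7]
  have cV : Nat.card (Fin 4 → F) = 16 := by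
    rw [Nat.card_eq_fintype_card, Fintype.card_fun, hF]
    simp
  have h2 : ∀ u : Fin 4 → F, u + u = 0 := by
    intro u
    have h20 : (2 : F) = 0 := by
      have := FiniteField.cast_card_eq_zero F
      rw [hF] at this
      exact_mod_cast this
    ext i
    show u i + u i = 0
    rw [← two_mul, h20, zero_mul]
  obtain ⟨g, h1, h3⟩ := Cfsg.Agent.Lib.TwoTransA7.main_two_trans (H := H) (V := Fin 4 → F) h2 cH cV v w v' w'
    hv hw hvw hv' hw' hvw'
  exact ⟨g.1, g.2, h1, h3⟩

/-- Let F be the field with 2 elements. GL_4(F) (≅ A_8) has a subgroup isomorphic to the alternating group A_7, and every such subgroup acts 2-transitively on the 15 non-zero vectors of F⁴: any ordered pair of distinct non-zero vectors is carried to any other by some element of the subgroup. -/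
theorem result {F : Type*} [Field F] [Fintype F] (hF : Fintype.card F = 2) : (∃ H : Subgroup (Matrix.GeneralLinearGroup (Fin 4) F), Nonempty (H ≃* alternatingGroup (Fin 7))) ∧ ∀ H : Subgroup (Matrix.GeneralLinearGroup (Fin 4) F), Nonempty (H ≃* alternatingGroup (Fin 7)) → ∀ v w v' w' : Fin 4 → F, v ≠ 0 → w ≠ 0 → v ≠ w → v' ≠ 0 → w' ≠ 0 → v' ≠ w' → ∃ g ∈ H, (g : Matrix (Fin 4) (Fin 4) F).mulVec v = v' ∧ (g : Matrix (Fin 4) (Fin 4) F).mulVec w = w' :=
  ⟨part1 hF, fun H hH v w v' w' hv hw hvw hv' hw' hvw' => part2 hF H hH v w v' w' hv hw hvw hv' hw' hvw'⟩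

end Cfsg.Agent.S2551
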