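import Cfsg.Statements.S2552

set_option autoImplicit false
open Cfsg

namespace Cfsg.Agent.S2552

theorem exists_adapted {F V : Type*} [Field F] [AddCommGroup V] [Module F V] [FiniteDimensional F V] (U : Submodule F V) {k m : ℕ} (hk : Module.finrank F U = k)
    (hm : k + m = Module.finrank F V) :
    ∃ b : Module.Basis (Fin k ⊕ Fin m) F V, U = Submodule.span F (Set.range (b ∘ Sum.inl)) := by
  obtain ⟨W, hW⟩ := Submodule.exists_isCompl U
  have hWm : Module.finrank F W = m := by
    have := Submodule.finrank_add_eq_of_isCompl hW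
    omega
  let bU := Module.finBasisOfFinrankEq F U hk
  let bW := Module.finBasisOfFinrankEq F W hWm
  let b := (bU.prod bW).map (Submodule.prodEquivOfIsCompl U W hW)
  refine ⟨b, ?_⟩
  have : b ∘ Sum.inl = Subtype.val ∘ bU := by
    funext i
    simp [b]
  rw [this, Set.range_comp]
  have h2 : Submodule.span F (Subtype.val '' Set.range bU) = (Submodule.span F (Set.range bU)).map U.subtype :=
    (Submodule.map_span U.subtype _).symm
  rw [h2, bU.span_eq, Submodule.map_top, Submodule.range_subtype]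


/-- Let F be a finite field and n ≥ 1. For every k, the special linear group SL_n(F) acts transitively on the set of k-dimensional subspaces of F^n: any two subspaces of the same dimension are carried onto each other by some matrix of determinant 1. -/
theorem result {F : Type*} [Field F] [Fintype F] (n : ℕ) (hn : 1 ≤ n) (U₁ U₂ : Submodule F (Fin n → F)) (h : Module.finrank F U₁ = Module.finrank F U₂) : ∃ g : Matrix.SpecialLinearGroup (Fin n) F, U₁.map ((Matrix.SpecialLinearGroup.toLin' g : (Fin n → F) ≃ₗ[F] (Fin n → F)) : (Fin n → F) →ₗ[F] (Fin n → F)) = U₂ := by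
  classical
  obtain ⟨m, hm⟩ : ∃ m, Module.finrank F U₁ + m = n := by
    refine ⟨n - Module.finrank F U₁, ?_⟩
    have : Module.finrank F U₁ ≤ Module.finrank F (Fin n → F) := Submodule.finrank_le U₁
    rw [Module.finrank_fin_fun] at this
    omega
  have hV : Module.finrank F U₁ + m = Module.finrank F (Fin n → F) := by
    rw [Module.finrank_fin_fun]; exact hm
  obtain ⟨b₁, hb₁⟩ := exists_adapted U₁ rfl hV
  obtain ⟨b₂, hb₂⟩ := exists_adapted U₂ h.symm hV
  obtain ⟨i₀⟩ : Nonempty (Fin (Module.finrank F U₁) ⊕ Fin m) := by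
    rcases Nat.eq_zero_or_pos m with h0 | h0
    · have : 0 < Module.finrank F U₁ := by omega
      exact ⟨Sum.inl ⟨0, this⟩⟩
    · exact ⟨Sum.inr ⟨0, h0⟩⟩
  set L₀ := b₁.equiv b₂ (Equiv.refl _) with hL₀
  set d := LinearMap.det (L₀ : (Fin n → F) →ₗ[F] (Fin n → F)) with hd
  have hd0 : d ≠ 0 := (LinearEquiv.isUnit_det' L₀).ne_zero
  set w : Fin (Module.finrank F U₁) ⊕ Fin m → F := fun i => if i = i₀ then d⁻¹ else 1 with hw
  have hw0 : ∀ i, w i ≠ 0 := by
    intro i
    simp only [hw]
    split_ifs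
    · exact inv_ne_zero hd0
    · exact one_ne_zero
  set D := Matrix.toLin b₂ b₂ (Matrix.diagonal w) with hD
  have hDb : ∀ i, D (b₂ i) = w i • b₂ i := by
    intro i
    rw [hD, Matrix.toLin_self]
    simp [Matrix.diagonal_apply]
  have hdetD : LinearMap.det D = d⁻¹ := by
    rw [hD, LinearMap.det_toLin, Matrix.det_diagonal, hw, Finset.prod_ite_eq' Finset.univ i₀]
    simp
  set T : (Fin n → F) →ₗ[F] (Fin n → F) := D ∘ₗ (L₀ : (Fin n → F) →ₗ[F] (Fin n → F)) with hT
  have hdetT : LinearMap.det T = 1 := by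
    rw [hT, LinearMap.det_comp, hdetD, ← hd, inv_mul_cancel₀ hd0]
  refine ⟨⟨LinearMap.toMatrix' T, by rw [LinearMap.det_toMatrix']; exact hdetT⟩, ?_⟩
  have hcoe : ((Matrix.SpecialLinearGroup.toLin' (⟨LinearMap.toMatrix' T, by rw [LinearMap.det_toMatrix']; exact hdetT⟩ : Matrix.SpecialLinearGroup (Fin n) F) : (Fin n → F) ≃ₗ[F] (Fin n → F)) : (Fin n → F) →ₗ[F] (Fin n → F)) = T := by
    ext v
    simp [Matrix.SpecialLinearGroup.toLin']
  rw [hcoe, hT, Submodule.map_comp]
  have h1 : U₁.map (L₀ : (Fin n → F) →ₗ[F] (Fin n → F)) = U₂ := by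
    rw [hb₂]
    conv_lhs => rw [hb₁]
    rw [Submodule.map_span, ← Set.range_comp]
    congr 2
    funext i
    simp [hL₀]
  rw [h1]
  apply le_antisymm
  · conv_lhs => rw [hb₂]
    rw [Submodule.map_span_le]
    rintro _ ⟨i, rfl⟩
    simp only [Function.comp, hDb]
    apply Submodule.smul_mem
    rw [hb₂]
    exact Submodule.subset_span ⟨i, rfl⟩
  · conv_lhs => rw [hb₂]
    rw [Submodule.span_le]
    rintro _ ⟨i, rfl⟩
    refine ⟨(w (Sum.inl i))⁻¹ • b₂ (Sum.inl i), ?_, ?_⟩
    · apply Submodule.smul_mem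
      rw [hb₂]
      exact Submodule.subset_span ⟨i, rfl⟩
    · simp only [map_smul, hDb, smul_smul, inv_mul_cancel₀ (hw0 _), one_smul, Function.comp]

end Cfsg.Agent.S2552
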