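import Cfsg.Statements.S2561
import Cfsg.Agent.Lib.QuadF2
-- import your own Cfsg.Agent.* helpers here

set_option autoImplicit false
set_option linter.all false
open Cfsg

namespace Cfsg.Agent.S2561

/-- Fix the non-singular alternating form on the 2m-dimensional space over the field of two elements obtained by polarizing the plus-type form Σ xᵢyᵢ (m ≥ 1). The functions q on the space with q(u + v) = q(u) + q(v) + f(u, v) (the quadratic forms polarizing to f) number 2^(2m); each is equivalent under an invertible linear map either to the plus-type form or to the minus-type form Σ xᵢyᵢ + (z₁² + z₁z₂ + z₂²); and those of plus type number 2^(2m−1) + 2^(m−1), those of minus type 2^(2m−1) − 2^(m−1). -/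
theorem result (m : ℕ) (hm : 1 ≤ m) :
    Nat.card {q : (Fin m ⊕ Fin m → ZMod 2) → ZMod 2 // (∀ u v : (Fin m ⊕ Fin m → ZMod 2), q (u + v) = q u + q v + (Cfsg.quadFormPlus m (ZMod 2) (u + v) - Cfsg.quadFormPlus m (ZMod 2) u - Cfsg.quadFormPlus m (ZMod 2) v))} = 2 ^ (2 * m) ∧
    (∀ q : (Fin m ⊕ Fin m → ZMod 2) → ZMod 2, (∀ u v : (Fin m ⊕ Fin m → ZMod 2), q (u + v) = q u + q v + (Cfsg.quadFormPlus m (ZMod 2) (u + v) - Cfsg.quadFormPlus m (ZMod 2) u - Cfsg.quadFormPlus m (ZMod 2) v)) →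
      (∃ g : (Fin m ⊕ Fin m → ZMod 2) ≃ₗ[ZMod 2] (Fin m ⊕ Fin m → ZMod 2), ∀ v, q v = Cfsg.quadFormPlus m (ZMod 2) (g v)) ∨
      (∃ g : (Fin m ⊕ Fin m → ZMod 2) ≃ₗ[ZMod 2] ((Fin (m - 1) ⊕ Fin (m - 1)) ⊕ Fin 2 → ZMod 2), ∀ v, q v = Cfsg.quadFormMinus (m - 1) (ZMod 2) 1 1 (g v))) ∧
    Nat.card {q : (Fin m ⊕ Fin m → ZMod 2) → ZMod 2 // (∀ u v : (Fin m ⊕ Fin m → ZMod 2), q (u + v) = q u + q v + (Cfsg.quadFormPlus m (ZMod 2) (u + v) - Cfsg.quadFormPlus m (ZMod 2) u - Cfsg.quadFormPlus m (ZMod 2) v)) ∧ ∃ g : (Fin m ⊕ Fin m → ZMod 2) ≃ₗ[ZMod 2] (Fin m ⊕ Fin m → ZMod 2), ∀ v, q v = Cfsg.quadFormPlus m (ZMod 2) (g v)} = 2 ^ (2 * m - 1) + 2 ^ (m - 1) ∧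
    Nat.card {q : (Fin m ⊕ Fin m → ZMod 2) → ZMod 2 // (∀ u v : (Fin m ⊕ Fin m → ZMod 2), q (u + v) = q u + q v + (Cfsg.quadFormPlus m (ZMod 2) (u + v) - Cfsg.quadFormPlus m (ZMod 2) u - Cfsg.quadFormPlus m (ZMod 2) v)) ∧ ∃ g : (Fin m ⊕ Fin m → ZMod 2) ≃ₗ[ZMod 2] ((Fin (m - 1) ⊕ Fin (m - 1)) ⊕ Fin 2 → ZMod 2), ∀ v, q v = Cfsg.quadFormMinus (m - 1) (ZMod 2) 1 1 (g v)} = 2 ^ (2 * m - 1) - 2 ^ (m - 1) := by
  classical
  obtain ⟨k, rfl⟩ : ∃ k, m = k + 1 := ⟨m - 1, by omega⟩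
  have hQ := Cfsg.Agent.Lib.QuadF2.plus_nondeg (k + 1)
  have hp : Cfsg.Agent.Lib.QuadF2.Pol (Cfsg.quadFormPlus (k + 1) (ZMod 2)) (Cfsg.quadFormPlus (k + 1) (ZMod 2)) :=
    Cfsg.Agent.Lib.QuadF2.pol_self'
  have hc : Fintype.card (Fin (k + 1) ⊕ Fin (k + 1)) = 2 * (k + 1) := by
    simp
    ring
  have hsub := Cfsg.Agent.Lib.QuadF2.count_sub (Cfsg.quadFormPlus (k + 1) (ZMod 2))
  have hadd := Cfsg.Agent.Lib.QuadF2.count_add (Cfsg.quadFormPlus (k + 1) (ZMod 2))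
  rw [hc] at hadd
  rw [Cfsg.Agent.Lib.QuadF2.S_plus] at hsub
  have hplus := Cfsg.Agent.Lib.QuadF2.card_sub hQ
    (fun q => ∃ g : (Fin (k + 1) ⊕ Fin (k + 1) → ZMod 2) ≃ₗ[ZMod 2] (Fin (k + 1) ⊕ Fin (k + 1) → ZMod 2),
      ∀ v, q v = Cfsg.quadFormPlus (k + 1) (ZMod 2) (g v))
    (fun w => Cfsg.quadFormPlus (k + 1) (ZMod 2) w = 0)
    (fun w => ⟨fun h => Cfsg.Agent.Lib.QuadF2.of_g hQ hp h, fun h => Cfsg.Agent.Lib.QuadF2.exists_g hQ hp h⟩)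
  have hminus := Cfsg.Agent.Lib.QuadF2.card_sub hQ
    (fun q => ∃ g : (Fin (k + 1) ⊕ Fin (k + 1) → ZMod 2) ≃ₗ[ZMod 2] ((Fin k ⊕ Fin k) ⊕ Fin 2 → ZMod 2),
      ∀ v, q v = Cfsg.quadFormMinus k (ZMod 2) 1 1 (g v))
    (fun w => Cfsg.quadFormPlus (k + 1) (ZMod 2) w = 1)
    (fun w => Cfsg.Agent.Lib.QuadF2.minus_iff k w)
  have hpol := Cfsg.Agent.Lib.QuadF2.card_pol hQ
  rw [hc] at hpol
  have e1 : 2 ^ (2 * (k + 1)) = 2 * 2 ^ (2 * k + 1) := by ring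
  have e2 : (2 : ℤ) ^ (k + 1) = 2 * ((2 ^ k : ℕ) : ℤ) := by
    push_cast
    ring
  have e3 : 2 * (k + 1) - 1 = 2 * k + 1 := by omega
  have e4 : k + 1 - 1 = k := by omega
  rw [e2] at hsub
  rw [e1] at hadd
  generalize Nat.card {w // Cfsg.quadFormPlus (k + 1) (ZMod 2) w = 0} = Z at *
  generalize Nat.card {w // Cfsg.quadFormPlus (k + 1) (ZMod 2) w = 1} = O at *
  refine ⟨hpol, ?_, ?_, ?_⟩
  · intro q hq
    obtain ⟨w, rfl⟩ := Cfsg.Agent.Lib.QuadF2.exists_twist hQ (q := q) hq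
    rcases Cfsg.Agent.Lib.QuadF2.zmod2_cases (Cfsg.quadFormPlus (k + 1) (ZMod 2) w) with h | h
    · left
      exact Cfsg.Agent.Lib.QuadF2.exists_g hQ hp h
    · right
      exact (Cfsg.Agent.Lib.QuadF2.minus_iff k w).2 h
  · refine hplus.trans ?_
    rw [e3, e4]
    omega
  · refine hminus.trans ?_
    rw [e3, e4]
    omega

end Cfsg.Agent.S2561
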