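import Cfsg.Statements.S2567
import Cfsg.Agent.Lib.SLn

set_option autoImplicit false
open Cfsg

namespace Cfsg.Agent.S2567

/-- Lifting elements of prime order from PGL to GL: let F be a finite field with q elements, r a prime not dividing q − 1, and x an element of order r in GL_n(F) modulo its centre (the scalar matrices). Then x has exactly one preimage in GL_n(F) of order r. -/
theorem result {F : Type*} [Field F] [Fintype F] {q n r : ℕ} (hF : Fintype.card F = q) (hr : r.Prime) (hdiv : ¬ r ∣ q - 1) (x : GL (Fin n) F ⧸ Subgroup.center (GL (Fin n) F)) (hx : orderOf x = r) : ∃! g : GL (Fin n) F, (QuotientGroup.mk g : GL (Fin n) F ⧸ Subgroup.center (GL (Fin n) F)) = x ∧ orderOf g = r := by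
  classical
  rcases isEmpty_or_nonempty (Fin n) with he | hne
  · exfalso
    haveI : Subsingleton (GL (Fin n) F) := by
      constructor
      intro a b
      apply Units.ext
      ext i
      exact (he.false i).elim
    have : x = 1 := Subsingleton.elim _ _
    rw [this, orderOf_one] at hx
    exact hr.one_lt.ne hx
  have hcen : (Nat.card (Subgroup.center (GL (Fin n) F))).Coprime r := by
    rw [Cfsg.Agent.Lib.SLn.card_center_GL, hF]
    exact ((Nat.Prime.coprime_iff_not_dvd hr).2 hdiv).symm
  obtain ⟨g, rfl⟩ := QuotientGroup.mk_surjective x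
  have hmem : g ^ r ∈ Subgroup.center (GL (Fin n) F) := by
    rw [← QuotientGroup.eq_one_iff, QuotientGroup.mk_pow]
    have := pow_orderOf_eq_one (QuotientGroup.mk g : GL (Fin n) F ⧸ Subgroup.center (GL (Fin n) F))
    rwa [hx] at this
  set e := powCoprime hcen with he
  set y : Subgroup.center (GL (Fin n) F) := e.symm ⟨g ^ r, hmem⟩ with hy
  have hy' : (y : GL (Fin n) F) ^ r = g ^ r := by
    have : e y = ⟨g ^ r, hmem⟩ := by rw [hy]; simp
    have h2 := congrArg Subtype.val this
    simpa [he, powCoprime] using h2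
  have hcomm : ∀ (z : Subgroup.center (GL (Fin n) F)) (a : GL (Fin n) F), (z : GL (Fin n) F) * a = a * z :=
    fun z a => (Subgroup.mem_center_iff.1 z.2 a).symm
  refine ⟨g * (y : GL (Fin n) F)⁻¹, ⟨?_, ?_⟩, ?_⟩
  · rw [QuotientGroup.mk_mul]
    have : (QuotientGroup.mk (y : GL (Fin n) F)⁻¹ : GL (Fin n) F ⧸ Subgroup.center (GL (Fin n) F)) = 1 :=
      (QuotientGroup.eq_one_iff _).2 (inv_mem y.2)
    rw [this, mul_one]
  · haveI := Fact.mk hr
    apply orderOf_eq_prime
    · have hc : Commute g (y : GL (Fin n) F)⁻¹ := by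
        show g * (y : GL (Fin n) F)⁻¹ = (y : GL (Fin n) F)⁻¹ * g
        exact (Subgroup.mem_center_iff.1 (inv_mem y.2) g)
      rw [hc.mul_pow, inv_pow, hy', mul_inv_cancel]
    · intro h1
      have h2 : (QuotientGroup.mk g : GL (Fin n) F ⧸ Subgroup.center (GL (Fin n) F)) = 1 := by
        rw [QuotientGroup.eq_one_iff]
        have : g = y := by
          have := mul_inv_eq_one.1 h1
          exact this
        rw [this]; exact y.2
      rw [h2, orderOf_one] at hx
      exact hr.one_lt.ne hx
  · rintro g₂ ⟨h1, h2⟩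
    have h3 : g⁻¹ * g₂ ∈ Subgroup.center (GL (Fin n) F) := by
      rw [← QuotientGroup.eq]
      exact h1.symm
    -- two elements of order `r` differing by a central element
    have key : ∀ (a : GL (Fin n) F), a ^ r = 1 → (QuotientGroup.mk a : GL (Fin n) F ⧸ Subgroup.center (GL (Fin n) F)) = QuotientGroup.mk g → a = g * (y : GL (Fin n) F)⁻¹ := by
      intro a ha hb
      have h4 : (g * (y : GL (Fin n) F)⁻¹)⁻¹ * a ∈ Subgroup.center (GL (Fin n) F) := by
        rw [← QuotientGroup.eq, QuotientGroup.mk_mul, hb]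
        have : (QuotientGroup.mk (y : GL (Fin n) F)⁻¹ : GL (Fin n) F ⧸ Subgroup.center (GL (Fin n) F)) = 1 :=
          (QuotientGroup.eq_one_iff _).2 (inv_mem y.2)
        rw [this, mul_one]
      set z : Subgroup.center (GL (Fin n) F) := ⟨_, h4⟩ with hz
      have hz1 : z = 1 := by
        apply (powCoprime hcen).injective
        apply Subtype.ext
        simp only [powCoprime, Equiv.coe_fn_mk, map_one]
        have hc2 : Commute g (y : GL (Fin n) F)⁻¹ := by
          show g * (y : GL (Fin n) F)⁻¹ = (y : GL (Fin n) F)⁻¹ * g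
          exact (Subgroup.mem_center_iff.1 (inv_mem y.2) g)
        have h5 : (g * (y : GL (Fin n) F)⁻¹) ^ r = 1 := by
          rw [hc2.mul_pow, inv_pow, hy', mul_inv_cancel]
        have hc3 : Commute (g * (y : GL (Fin n) F)⁻¹)⁻¹ a := by
          have : ((g * (y : GL (Fin n) F)⁻¹)⁻¹ * a) ∈ Subgroup.center (GL (Fin n) F) := h4
          have h6 : Commute (g * (y : GL (Fin n) F)⁻¹) a := by
            have h7 := Subgroup.mem_center_iff.1 this (g * (y : GL (Fin n) F)⁻¹)
            -- `w * (w⁻¹ * a) = (w⁻¹ * a) * w`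
            rw [mul_inv_cancel_left] at h7
            show (g * (y : GL (Fin n) F)⁻¹) * a = a * (g * (y : GL (Fin n) F)⁻¹)
            calc (g * (y : GL (Fin n) F)⁻¹) * a = (g * (y : GL (Fin n) F)⁻¹) * ((g * (y : GL (Fin n) F)⁻¹)⁻¹ * a * (g * (y : GL (Fin n) F)⁻¹)) := by rw [← h7]
              _ = a * (g * (y : GL (Fin n) F)⁻¹) := by group
          exact h6.inv_left
        rw [hz]
        simp only [SubgroupClass.coe_pow]
        rw [hc3.mul_pow, inv_pow, h5, ha]
        simp
      have h8 := congrArg Subtype.val hz1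
      simp only [hz] at h8
      exact (inv_mul_eq_one.1 h8).symm
    refine key g₂ ?_ h1
    rw [← h2]
    exact pow_orderOf_eq_one _

end Cfsg.Agent.S2567
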