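import Cfsg.Statements.S2571
import Cfsg.Agent.Lib.RegUnipA

set_option autoImplicit false
open Cfsg

namespace Cfsg.Agent.S2571

open Matrix Module in
theorem key {F : Type*} [Field F] [Fintype F] {q n : ℕ} (hF : Fintype.card F = q) (hn : 1 ≤ n)
    (N : Matrix (Fin n) (Fin n) F) (hnil : N ^ n = 0) (hreg : N.rank = n - 1) :
    Nat.card {A : GL (Fin n) F // (A : Matrix (Fin n) (Fin n) F) * N = N * (A : Matrix (Fin n) (Fin n) F)} = (q - 1) * q ^ (n - 1) := by
  classical
  have hc : Fintype.card (Fin n) = n := Fintype.card_fin n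
  have hV : finrank F (Fin n → F) = n := by simp
  obtain ⟨T, hTdef⟩ : ∃ T, T = N.mulVecLin := ⟨_, rfl⟩
  have hTn : T ^ n = 0 := hTdef ▸ Cfsg.Agent.Lib.RegUnipA.mulVecLin_pow_eq_zero N hnil
  obtain ⟨K, hK⟩ : ∃ K : Submodule F (Fin n → F), K = LinearMap.ker (T ^ (n - 1)) := ⟨_, rfl⟩
  have hKfin : finrank F K = n - 1 := by
    have := Cfsg.Agent.Lib.RegUnipA.finrank_ker_mat_pow N hc hnil hreg (k := n - 1) (by omega)
    rwa [Cfsg.Agent.Lib.RegUnipA.mulVecLin_pow, ← hTdef, ← hK] at this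
  have hnotK : ∀ w, w ∉ K → (T ^ (n - 1)) w ≠ 0 := fun w hw h => hw (hK ▸ LinearMap.mem_ker.mpr h)
  -- a vector outside `K`
  obtain ⟨v, hv⟩ : ∃ v, v ∉ K := by
    by_contra hall
    push Not at hall
    have : K = ⊤ := (Submodule.eq_top_iff').mpr hall
    rw [this, finrank_top, Module.finrank_fin_fun] at hKfin
    omega
  have hv' := hnotK v hv
  have hlinA : ∀ (A : Matrix (Fin n) (Fin n) F), A * N = N * A → ∀ x, A.mulVecLin (T x) = T (A.mulVecLin x) := by
    intro A hA x
    subst hTdef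
    simp only [Matrix.mulVecLin_apply, Matrix.mulVec_mulVec, hA]
  have hmap : ∀ A : {A : GL (Fin n) F // (A : Matrix (Fin n) (Fin n) F) * N = N * (A : Matrix (Fin n) (Fin n) F)},
      (A.1 : Matrix (Fin n) (Fin n) F) *ᵥ v ∉ K := by
    intro A hA
    rw [hK] at hA
    have h1 : (T ^ (n - 1)) ((A.1 : Matrix (Fin n) (Fin n) F) *ᵥ v) = 0 := LinearMap.mem_ker.mp hA
    have h1' := Cfsg.Agent.Lib.RegUnipA.comm_pow T (A.1 : Matrix (Fin n) (Fin n) F).mulVecLin (hlinA _ A.2) (n - 1) v
    simp only [Matrix.mulVecLin_apply] at h1'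
    rw [← h1'] at h1
    apply hv'
    have h2 := congrArg (fun y => ((A.1⁻¹ : GL (Fin n) F) : Matrix (Fin n) (Fin n) F) *ᵥ y) h1
    simp only [Matrix.mulVec_mulVec, Matrix.mulVec_zero] at h2
    rw [Units.inv_mul, Matrix.one_mulVec] at h2
    exact h2
  let Φ : {A : GL (Fin n) F // (A : Matrix (Fin n) (Fin n) F) * N = N * (A : Matrix (Fin n) (Fin n) F)} → {w : Fin n → F // w ∉ K} :=
    fun A => ⟨(A.1 : Matrix (Fin n) (Fin n) F) *ᵥ v, hmap A⟩
  have hΦinj : Function.Injective Φ := by
    intro A B hAB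
    have hAB' : (A.1 : Matrix (Fin n) (Fin n) F) *ᵥ v = (B.1 : Matrix (Fin n) (Fin n) F) *ᵥ v := congrArg Subtype.val hAB
    apply Subtype.ext
    apply Units.ext
    have hlin := Cfsg.Agent.Lib.RegUnipA.comm_ext T hV hTn v hv' (A.1 : Matrix (Fin n) (Fin n) F).mulVecLin (B.1 : Matrix (Fin n) (Fin n) F).mulVecLin (hlinA _ A.2) (hlinA _ B.2) (by simpa using hAB')
    ext i j
    have := congrFun (congrArg (fun f => f (Pi.single j 1)) hlin) i
    simpa using this
  have hΦsurj : Function.Surjective Φ := by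
    intro w
    obtain ⟨e, hev, he⟩ := Cfsg.Agent.Lib.RegUnipA.exists_comm_equiv T hV hn hTn v w.1 hv' (hnotK w.1 w.2)
    have hPQ : LinearMap.toMatrix' e.toLinearMap * LinearMap.toMatrix' e.symm.toLinearMap = 1 := by
      rw [← LinearMap.toMatrix'_comp]
      simp
    have hQP : LinearMap.toMatrix' e.symm.toLinearMap * LinearMap.toMatrix' e.toLinearMap = 1 := by
      rw [← LinearMap.toMatrix'_comp]
      simp
    let A : GL (Fin n) F := ⟨LinearMap.toMatrix' e.toLinearMap, LinearMap.toMatrix' e.symm.toLinearMap, hPQ, hQP⟩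
    have hAmul : ∀ x, (A : Matrix (Fin n) (Fin n) F) *ᵥ x = e x := by
      intro x
      show (LinearMap.toMatrix' e.toLinearMap) *ᵥ x = e x
      rw [LinearMap.toMatrix'_mulVec]; rfl
    have hcomm : (A : Matrix (Fin n) (Fin n) F) * N = N * (A : Matrix (Fin n) (Fin n) F) := by
      ext i j
      have h1 := congrFun (he (Pi.single j 1)) i
      rw [← hAmul, ← hAmul, hTdef] at h1
      simp only [Matrix.mulVecLin_apply, Matrix.mulVec_mulVec] at h1
      simpa using h1
    refine ⟨⟨A, hcomm⟩, ?_⟩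
    apply Subtype.ext
    show (A : Matrix (Fin n) (Fin n) F) *ᵥ v = w.1
    rw [hAmul, hev]
  rw [Nat.card_congr (Equiv.ofBijective Φ ⟨hΦinj, hΦsurj⟩)]
  rw [Nat.card_eq_fintype_card, Fintype.card_subtype_compl]
  have hKcard : Fintype.card {x // x ∈ K} = q ^ (n - 1) := by
    have := Module.card_eq_pow_finrank (K := F) (V := K)
    rw [hKfin, hF] at this
    exact this
  rw [hKcard]
  simp only [Fintype.card_fun, Fintype.card_fin, hF]
  have hn1 : n = (n - 1) + 1 := by omega
  have hq : 1 ≤ q := by rw [← hF]; exact Fintype.card_pos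
  conv_lhs => rw [hn1, pow_succ]
  simp only [Nat.add_sub_cancel]
  rw [Nat.sub_mul, one_mul, mul_comm]

/-- Centraliser of a regular unipotent element in GL_n(q): if u is an invertible n × n matrix over the field with q elements, n ≥ 1, with (u − 1)^n = 0 and rank(u − 1) = n − 1 (a single unipotent Jordan block), then its centraliser in GL_n(q) has order (q − 1) q^(n−1). -/
theorem result {F : Type*} [Field F] [Fintype F] {q n : ℕ} (hF : Fintype.card F = q) (hn : 1 ≤ n) (u : GL (Fin n) F) (hnil : ((u : Matrix (Fin n) (Fin n) F) - 1) ^ n = 0) (hreg : ((u : Matrix (Fin n) (Fin n) F) - 1).rank = n - 1) : Nat.card ↥(Subgroup.centralizer ({u} : Set (GL (Fin n) F))) = (q - 1) * q ^ (n - 1) := by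
  classical
  have hcongr : Nat.card ↥(Subgroup.centralizer ({u} : Set (GL (Fin n) F))) = Nat.card {A : GL (Fin n) F // (A : Matrix (Fin n) (Fin n) F) * ((u : Matrix (Fin n) (Fin n) F) - 1) = ((u : Matrix (Fin n) (Fin n) F) - 1) * (A : Matrix (Fin n) (Fin n) F)} := by
    apply Nat.card_congr
    apply Equiv.subtypeEquivRight
    intro A
    rw [Subgroup.mem_centralizer_singleton_iff]
    constructor
    · intro h
      have h' : (u : Matrix (Fin n) (Fin n) F) * (A : Matrix (Fin n) (Fin n) F) = (A : Matrix (Fin n) (Fin n) F) * (u : Matrix (Fin n) (Fin n) F) := by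
        exact (congrArg (fun g : GL (Fin n) F => (g : Matrix (Fin n) (Fin n) F)) h).symm
      rw [Matrix.mul_sub, Matrix.sub_mul, ← h']
      simp
    · intro h
      apply Units.ext
      rw [Matrix.mul_sub, Matrix.sub_mul] at h
      simp only [Matrix.mul_one, Matrix.one_mul] at h
      have := sub_left_injective h
      rw [Units.val_mul, Units.val_mul]
      exact this
  rw [hcongr]
  exact key hF hn _ hnil hreg

end Cfsg.Agent.S2571
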