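import Cfsg.Statements.S2572
import Cfsg.Agent.Lib.TransvCount

set_option autoImplicit false
open Cfsg

namespace Cfsg.Agent.S2572

/-- Centraliser of a transvection in GL_n(q), n ≥ 2: if t − 1 has rank one and square zero, the centraliser of t in GL_n(q) has order q^(2n−3) (q − 1) |GL_(n−2)(q)| (a group of order q^(2n−3) extended by GL_1(q) × GL_(n−2)(q)). -/
theorem result {F : Type*} [Field F] [Fintype F] {q n : ℕ} (hF : Fintype.card F = q) (hn : 2 ≤ n) (t : GL (Fin n) F) (ht : Cfsg.IsTransvection (t : Matrix (Fin n) (Fin n) F)) : Nat.card ↥(Subgroup.centralizer ({t} : Set (GL (Fin n) F))) = q ^ (2 * n - 3) * (q - 1) * ∏ i : Fin (n - 2), (q ^ (n - 2) - q ^ (i : ℕ)) := by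
  classical
  obtain ⟨k, rfl⟩ : ∃ k, n = k + 2 := ⟨n - 2, by omega⟩
  have hT := Cfsg.Agent.Lib.TransvCount.card_T_mul_card_centralizer t ht
  have hP := Cfsg.Agent.Lib.TransvCount.card_pairs_eq (n := k + 2) hF
  have hP2 := Cfsg.Agent.Lib.TransvCount.card_pairs (n := k + 2) hF (by omega)
  have hGL := Matrix.card_GL_field (n := k + 2) (𝔽 := F)
  rw [hF] at hGL
  rw [hGL] at hT
  rw [hP2] at hP
  obtain ⟨T, hTdef⟩ : ∃ T, T = Nat.card {g : GL (Fin (k + 2)) F // Cfsg.IsTransvection (g : Matrix (Fin (k + 2)) (Fin (k + 2)) F)} := ⟨_, rfl⟩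
  rw [← hTdef] at hT hP
  have hTpos : 0 < T := by
    rw [hTdef]
    haveI : Nonempty {g : GL (Fin (k + 2)) F // Cfsg.IsTransvection (g : Matrix (Fin (k + 2)) (Fin (k + 2)) F)} := ⟨⟨t, ht⟩⟩
    exact Nat.card_pos
  have hq : 1 ≤ q := by rw [← hF]; exact Fintype.card_pos
  -- the product
  have hprod : (∏ i : Fin (k + 2), (q ^ (k + 2) - q ^ (i : ℕ))) =
      (q ^ (k + 2) - 1) * (q * (q ^ (k + 1) - 1)) * (q ^ (2 * k) * ∏ i : Fin k, (q ^ k - q ^ (i : ℕ))) := by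
    rw [Fin.prod_univ_succ, Fin.prod_univ_succ]
    have e1 : ∀ i : Fin k, q ^ (k + 2) - q ^ (((i.succ.succ : Fin (k + 2))) : ℕ) = q ^ 2 * (q ^ k - q ^ (i : ℕ)) := by
      intro i
      rw [Nat.mul_sub, ← pow_add, ← pow_add]
      simp only [Fin.val_succ]
      congr 2 <;> ring
    simp only [e1, Finset.prod_mul_distrib, Finset.prod_const, Finset.card_univ, Fintype.card_fin]
    have e2 : q ^ (k + 2) - q ^ ((Fin.succ (0 : Fin (k + 1)) : Fin (k + 2)) : ℕ) = q * (q ^ (k + 1) - 1) := by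
      simp only [Fin.val_succ, Fin.val_zero, zero_add, pow_one]
      rw [Nat.mul_sub, mul_one, pow_succ' q (k + 1)]
    rw [e2]
    simp only [Fin.val_zero, pow_zero, ← pow_mul]
    ring
  rw [hprod] at hT
  show Nat.card ↥(Subgroup.centralizer ({t} : Set (GL (Fin (k + 2)) F))) = q ^ (2 * k + 1) * (q - 1) * ∏ i : Fin k, (q ^ k - q ^ (i : ℕ))
  apply Nat.eq_of_mul_eq_mul_left hTpos
  rw [hT]
  have hdiv : q ^ (k + 2 - 1) = q ^ (k + 1) := by simp
  rw [hdiv] at hP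
  calc (q ^ (k + 2) - 1) * (q * (q ^ (k + 1) - 1)) * (q ^ (2 * k) * ∏ i : Fin k, (q ^ k - q ^ (i : ℕ)))
      = ((q ^ (k + 2) - 1) * (q ^ (k + 1) - 1)) * (q ^ (2 * k + 1) * ∏ i : Fin k, (q ^ k - q ^ (i : ℕ))) := by ring
    _ = T * (q - 1) * (q ^ (2 * k + 1) * ∏ i : Fin k, (q ^ k - q ^ (i : ℕ))) := by rw [hP]
    _ = T * (q ^ (2 * k + 1) * (q - 1) * ∏ i : Fin k, (q ^ k - q ^ (i : ℕ))) := by ring

end Cfsg.Agent.S2572
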