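import Cfsg.Statements.S2574
import Cfsg.Agent.Lib.RegUnipA

set_option autoImplicit false
open Cfsg

namespace Cfsg.Agent.S2574

open Matrix in
theorem symp_inv {F : Type*} [Field F] {m : ℕ} (A : Matrix.symplecticGroup (Fin m) F) (x y : Fin m ⊕ Fin m → F) :
    Cfsg.sympForm m F ((A : Matrix (Fin m ⊕ Fin m) (Fin m ⊕ Fin m) F) *ᵥ x) ((A : Matrix (Fin m ⊕ Fin m) (Fin m ⊕ Fin m) F) *ᵥ y) = Cfsg.sympForm m F x y := by
  unfold Cfsg.sympForm
  have h := SymplecticGroup.mem_iff'.mp A.2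
  have : ((A : Matrix (Fin m ⊕ Fin m) (Fin m ⊕ Fin m) F) *ᵥ x) ⬝ᵥ (Matrix.J (Fin m) F *ᵥ ((A : Matrix (Fin m ⊕ Fin m) (Fin m ⊕ Fin m) F) *ᵥ y))
      = x ⬝ᵥ ((((A : Matrix (Fin m ⊕ Fin m) (Fin m ⊕ Fin m) F)ᵀ * Matrix.J (Fin m) F * (A : Matrix (Fin m ⊕ Fin m) (Fin m ⊕ Fin m) F))) *ᵥ y) := by
    simp only [← Matrix.mulVec_mulVec]
    rw [Matrix.dotProduct_mulVec x, Matrix.vecMul_transpose]
  rw [this, h]

/-- A regular unipotent element of the symplectic group has totally isotropic small invariant subspaces: over a finite field, if u ∈ Sp_2m(F) satisfies (u − 1)^(2m) = 0 and rank(u − 1) = 2m − 1, and W is a u-invariant subspace with 2 dim W ≤ 2m, then the alternating form vanishes identically on W. -/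
theorem result {F : Type*} [Field F] [Finite F] {m : ℕ} (u : Matrix.symplecticGroup (Fin m) F) (hnil : ((u : Matrix (Fin m ⊕ Fin m) (Fin m ⊕ Fin m) F) - 1) ^ (2 * m) = 0) (hreg : ((u : Matrix (Fin m ⊕ Fin m) (Fin m ⊕ Fin m) F) - 1).rank = 2 * m - 1) (W : Submodule F (Fin m ⊕ Fin m → F)) (hW : ∀ v ∈ W, (u : Matrix (Fin m ⊕ Fin m) (Fin m ⊕ Fin m) F).mulVec v ∈ W) (hdim : 2 * Module.finrank F W ≤ 2 * m) : ∀ v ∈ W, ∀ w ∈ W, Cfsg.sympForm m F v w = 0 := by
  classical
  set U : Matrix (Fin m ⊕ Fin m) (Fin m ⊕ Fin m) F := (u : Matrix (Fin m ⊕ Fin m) (Fin m ⊕ Fin m) F) with hU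
  set Ui : Matrix (Fin m ⊕ Fin m) (Fin m ⊕ Fin m) F := ((u⁻¹ : Matrix.symplecticGroup (Fin m) F) : Matrix (Fin m ⊕ Fin m) (Fin m ⊕ Fin m) F) with hUi
  set N := U - 1 with hN
  have hUUi : U * Ui = 1 := by
    have := congrArg Subtype.val (mul_inv_cancel u)
    exact this
  have hUiU : Ui * U = 1 := by
    have := congrArg Subtype.val (inv_mul_cancel u)
    exact this
  have hc : Fintype.card (Fin m ⊕ Fin m) = 2 * m := by simp [two_mul]
  have hcomm : Commute N Ui := by
    show N * Ui = Ui * N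
    rw [hN, Matrix.sub_mul, Matrix.mul_sub, hUUi, hUiU, Matrix.one_mul, Matrix.mul_one]
  have hcommU : Commute N U := by
    show N * U = U * N
    rw [hN, Matrix.sub_mul, Matrix.mul_sub, Matrix.one_mul, Matrix.mul_one]
  -- the basic adjunction
  have hbase : ∀ x y, Cfsg.sympForm m F (N.mulVec x) (U.mulVec y) = - Cfsg.sympForm m F x (N.mulVec y) := by
    intro x y
    have h1 := symp_inv u x y
    have hsub1 : N.mulVec x = U.mulVec x - x := by simp [hN, Matrix.sub_mulVec]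
    have hsub2 : N.mulVec y = U.mulVec y - y := by simp [hN, Matrix.sub_mulVec]
    rw [hsub1, hsub2]
    unfold Cfsg.sympForm at h1 ⊢
    rw [sub_dotProduct, Matrix.mulVec_sub, dotProduct_sub, h1]
    ring
  have hadj : ∀ k x y, Cfsg.sympForm m F ((N ^ k).mulVec x) ((U ^ k).mulVec y) = (-1) ^ k * Cfsg.sympForm m F x ((N ^ k).mulVec y) := by
    intro k
    induction k with
    | zero => intro x y; simp
    | succ k ih =>
      intro x y
      have e1 : (N ^ (k + 1)).mulVec x = N.mulVec ((N ^ k).mulVec x) := by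
        rw [Matrix.mulVec_mulVec, pow_succ']
      have e2 : (U ^ (k + 1)).mulVec y = U.mulVec ((U ^ k).mulVec y) := by
        rw [Matrix.mulVec_mulVec, pow_succ']
      rw [e1, e2, hbase]
      have e3 : N.mulVec ((U ^ k).mulVec y) = (U ^ k).mulVec (N.mulVec y) := by
        rw [Matrix.mulVec_mulVec, Matrix.mulVec_mulVec, (hcommU.pow_right k).eq]
      rw [e3, ih]
      have e4 : (N ^ k).mulVec (N.mulVec y) = (N ^ (k + 1)).mulVec y := by
        rw [Matrix.mulVec_mulVec, pow_succ]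
      rw [e4, pow_succ]
      ring
  have hinv : ∀ v ∈ W, N.mulVecLin v ∈ W := by
    intro v hv
    have : N.mulVecLin v = U.mulVec v - v := by simp [hN, Matrix.sub_mulVec]
    rw [this]
    exact W.sub_mem (hW v hv) hv
  set d := Module.finrank F W with hd
  have hWker : W = LinearMap.ker (N ^ d).mulVecLin := by
    rw [Cfsg.Agent.Lib.RegUnipA.mulVecLin_pow]
    exact Cfsg.Agent.Lib.RegUnipA.invariant_eq_ker N.mulVecLin (by rw [Module.finrank_fintype_fun_eq_card, hc])
      (Cfsg.Agent.Lib.RegUnipA.mulVecLin_pow_eq_zero N hnil) (Cfsg.Agent.Lib.RegUnipA.finrank_ker_le_one N hc hreg) W hinv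
  have hdm : d ≤ m := by omega
  intro v hv w hw
  -- `v` lies in the range of `N ^ d`
  have hvr : v ∈ LinearMap.range (N ^ d).mulVecLin := by
    rw [Cfsg.Agent.Lib.RegUnipA.range_eq_ker N hc hnil hreg (by omega)]
    rw [hWker, LinearMap.mem_ker] at hv
    rw [LinearMap.mem_ker]
    have : 2 * m - d = (2 * m - d - d) + d := by omega
    rw [this, pow_add]
    simp only [Matrix.mulVecLin_apply] at hv ⊢
    rw [← Matrix.mulVec_mulVec, hv]
    simp
  obtain ⟨x, rfl⟩ := hvr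
  -- `w` is `U ^ d` of an element of the kernel
  set w' := (Ui ^ d).mulVec w with hw'
  have hww' : (U ^ d).mulVec w' = w := by
    have hC : Commute U Ui := hUUi.trans hUiU.symm
    rw [hw', Matrix.mulVec_mulVec, ← hC.mul_pow, hUUi]
    simp
  have hw'ker : (N ^ d).mulVec w' = 0 := by
    rw [hw', Matrix.mulVec_mulVec, (hcomm.pow_pow d d).eq, ← Matrix.mulVec_mulVec]
    rw [hWker, LinearMap.mem_ker] at hw
    simp only [Matrix.mulVecLin_apply] at hw
    rw [hw]
    simp
  simp only [Matrix.mulVecLin_apply]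
  rw [← hww', hadj, hw'ker]
  simp [Cfsg.sympForm]

end Cfsg.Agent.S2574
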