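import Cfsg.Statements.S2576
import Cfsg.Agent.Lib.F2Part

set_option autoImplicit false
open Cfsg

namespace Cfsg.Agent.S2576

/-- Which involutions of PGL_2m(q) coming from a scalar of the quadratic extension field lie in PSL_2m(q), q odd: let μ generate the Sylow 2-subgroup of the multiplicative group of the field with q elements (μ has order the 2-part of q − 1) and let t be the block-diagonal matrix with m diagonal blocks [[0, 1], [μ, 0]] (so t² is the scalar μ and t is an involution modulo scalars). Then some non-zero scalar multiple of t has determinant one if and only if q ≡ 3 (mod 4) or the 2-part of q − 1 is less than the 2-part of 2m. -/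
theorem result {F : Type*} [Field F] [Fintype F] {q : ℕ} (hF : Fintype.card F = q) (hq : Odd q) {m : ℕ} (hm : 1 ≤ m) (μ : F) (hμ : orderOf μ = 2 ^ padicValNat 2 (q - 1)) : (∃ c : F, c ≠ 0 ∧ (c • Matrix.blockDiagonal (fun _ : Fin m => !![(0 : F), 1; μ, 0])).det = 1) ↔ (q % 4 = 3 ∨ padicValNat 2 (q - 1) < padicValNat 2 (2 * m)) := by
  classical
  subst hF
  have hdet : ∀ c : F, (c • Matrix.blockDiagonal (fun _ : Fin m => !![(0 : F), 1; μ, 0])).det = c ^ (2 * m) * (-μ) ^ m := by
    intro c
    rw [Matrix.det_smul, Matrix.det_blockDiagonal, Fintype.card_prod, Fintype.card_fin, Fintype.card_fin]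
    congr 1
    simp [Matrix.det_fin_two_of]
  simp only [hdet]
  have hne := Cfsg.Agent.Lib.F2Part.neg_one_ne (F := F) hq
  obtain ⟨a, N', ha, hN', hN, hv⟩ := Cfsg.Agent.Lib.F2Part.exists_decomp (F := F) hq
  obtain ⟨b, m', hm', hmd⟩ := Nat.exists_eq_two_pow_mul_odd (n := m) (by omega)
  have hvm : padicValNat 2 (2 * m) = b + 1 := by
    have : 2 * m = 2 ^ (b + 1) * m' := by rw [hmd, pow_succ]; ring
    rw [this]; exact Cfsg.Agent.Lib.F2Part.padic_two_pow_mul_odd _ hm'
  rw [hv] at hμ ⊢
  rw [hvm]
  -- `μ ^ (2 ^ (a - 1)) = -1`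
  obtain ⟨a', rfl⟩ : ∃ a', a = a' + 1 := ⟨a - 1, by omega⟩
  have hμa : μ ^ (2 ^ a') = -1 := by
    have h1 : (μ ^ (2 ^ a')) ^ 2 = 1 := by
      rw [← pow_mul, ← pow_succ, ← hμ]; exact pow_orderOf_eq_one μ
    rcases Cfsg.Agent.Lib.F2Part.eq_one_or_neg h1 with h | h
    · exfalso
      have := orderOf_dvd_of_pow_eq_one h
      rw [hμ] at this
      have h2 := Nat.le_of_dvd (by positivity) this
      rw [pow_succ] at h2
      have : 0 < 2 ^ a' := by positivity
      omega
    · exact h
  have hμ0 : μ ≠ 0 := by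
    rintro rfl
    rw [zero_pow (by positivity)] at hμa
    exact neg_ne_zero.2 one_ne_zero hμa.symm
  have hcard2 : 2 ≤ Fintype.card F := Fintype.one_lt_card
  constructor
  · rintro ⟨c, hc, h⟩
    by_contra hcon
    push Not at hcon
    obtain ⟨h43, hle⟩ := hcon
    apply hne
    have hodd4 : Fintype.card F % 4 = 1 := by
      rw [Nat.odd_iff] at hq
      omega
    -- `a' ≥ 1`
    have ha'1 : 1 ≤ a' := by
      rcases Nat.eq_zero_or_pos a' with h0 | h0
      · exfalso
        subst h0
        obtain ⟨u, hu⟩ := hN'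
        rw [hu] at hN
        omega
      · exact h0
    have hNc : c ^ (Fintype.card F - 1) = 1 := FiniteField.pow_card_sub_one_eq_one c hc
    set y := c ^ 2 * (-μ) with hy
    have hym : y ^ m = 1 := by
      rw [hy, mul_pow, ← pow_mul]
      exact h
    have hev : Even (2 ^ a' * N') := by
      apply Even.mul_right
      rw [Nat.even_pow]
      exact ⟨even_two, by omega⟩
    have hhalf : y ^ (2 ^ a' * N') = -1 := by
      rw [hy, mul_pow, neg_pow, ← pow_mul, hev.neg_one_pow, one_mul, pow_mul μ, hμa, hN'.neg_one_pow]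
      have : 2 * (2 ^ a' * N') = Fintype.card F - 1 := by rw [hN, pow_succ]; ring
      rw [this, hNc, one_mul]
    have hb : b ≤ a' := by omega
    obtain ⟨d, rfl⟩ := Nat.exists_eq_add_of_le hb
    have e1 : (y ^ (2 ^ (b + d) * N')) ^ m' = (y ^ m) ^ (2 ^ d * N') := by
      rw [← pow_mul, ← pow_mul, hmd, pow_add]
      congr 1
      ring
    rw [hhalf, hym, one_pow, hm'.neg_one_pow] at e1
    exact e1
  · have hcase3 : Fintype.card F % 4 = 3 → ∃ c : F, c ≠ 0 ∧ c ^ (2 * m) * (-μ) ^ m = 1 := by
      intro h3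
      have ha'0 : a' = 0 := by
        by_contra h0
        obtain ⟨e, rfl⟩ : ∃ e, a' = e + 1 := ⟨a' - 1, by omega⟩
        have : Fintype.card F - 1 = 4 * (2 ^ e * N') := by
          rw [hN, pow_succ, pow_succ]; ring
        omega
      subst ha'0
      have hμ' : μ = -1 := by simpa using hμa
      refine ⟨1, one_ne_zero, ?_⟩
      rw [hμ']; simp
    rintro (h3 | hlt)
    · exact hcase3 h3
    · by_cases h3 : Fintype.card F % 4 = 3
      · exact hcase3 h3
      · obtain ⟨ι, hι⟩ := FiniteField.isSquare_neg_one_iff.2 h3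
        have hι0 : ι ≠ 0 := by
          rintro rfl
          simp at hι
        refine ⟨ι, hι0, ?_⟩
        have hb : a' + 1 ≤ b := by omega
        obtain ⟨d, rfl⟩ := Nat.exists_eq_add_of_le hb
        have hμm : μ ^ m = 1 := by
          have h1 : μ ^ (2 ^ (a' + 1)) = 1 := by rw [← hμ]; exact pow_orderOf_eq_one μ
          rw [hmd, pow_add, mul_assoc, pow_mul, h1, one_pow]
        rw [neg_pow, hμm, mul_one, pow_mul, sq, ← hι]
        have : ((-1 : F) ^ m) * ((-1 : F) ^ m) = 1 := by
          rw [← mul_pow]; simp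
        exact this

end Cfsg.Agent.S2576
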