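import Cfsg.Statements.S2580

set_option autoImplicit false
open Cfsg

namespace Cfsg.Agent.S2580

universe u

open Polynomial DirectSum

lemma exists_l_monic {F : Type*} [Field F] (g : F[X]) (hg : g.Monic) :
    ∃ l : AdjoinRoot g →ₗ[F] F, ∀ a : AdjoinRoot g, a ≠ 0 → ∃ z, l (a * z) ≠ 0 := by
  refine ⟨(Polynomial.lcoeff F (g.natDegree - 1)).comp (AdjoinRoot.modByMonicHom hg), ?_⟩
  intro a ha
  obtain ⟨r, rfl⟩ := AdjoinRoot.mk_surjective a
  have hr : r %ₘ g ≠ 0 := by
    intro h
    apply ha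
    rw [← AdjoinRoot.mk_leftInverse hg (AdjoinRoot.mk g r), AdjoinRoot.modByMonicHom_mk, h, map_zero]
  have hmk : AdjoinRoot.mk g r = AdjoinRoot.mk g (r %ₘ g) := by
    rw [← AdjoinRoot.modByMonicHom_mk hg, AdjoinRoot.mk_leftInverse hg]
  have hd : (r %ₘ g).natDegree < g.natDegree := by
    apply Polynomial.natDegree_modByMonic_lt _ hg
    rintro rfl
    apply hr
    simp [Polynomial.modByMonic_one]
  refine ⟨AdjoinRoot.mk g (X ^ (g.natDegree - 1 - (r %ₘ g).natDegree)), ?_⟩
  rw [hmk, ← map_mul]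
  simp only [LinearMap.comp_apply, AdjoinRoot.modByMonicHom_mk]
  have hdeg : ((r %ₘ g) * X ^ (g.natDegree - 1 - (r %ₘ g).natDegree)).natDegree = g.natDegree - 1 := by
    rw [Polynomial.natDegree_mul_X_pow _ hr]
    omega
  have hself : ((r %ₘ g) * X ^ (g.natDegree - 1 - (r %ₘ g).natDegree)) %ₘ g
      = (r %ₘ g) * X ^ (g.natDegree - 1 - (r %ₘ g).natDegree) := by
    rw [Polynomial.modByMonic_eq_self_iff hg]
    apply Polynomial.degree_lt_degree
    rw [hdeg]
    omega
  rw [hself, Polynomial.lcoeff_apply]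
  have : ((r %ₘ g) * X ^ (g.natDegree - 1 - (r %ₘ g).natDegree)).coeff (g.natDegree - 1)
      = (r %ₘ g).coeff (r %ₘ g).natDegree := by
    have := Polynomial.coeff_mul_X_pow (r %ₘ g) (g.natDegree - 1 - (r %ₘ g).natDegree) (r %ₘ g).natDegree
    rwa [show (r %ₘ g).natDegree + (g.natDegree - 1 - (r %ₘ g).natDegree) = g.natDegree - 1 by omega] at this
  rw [this]
  exact Polynomial.leadingCoeff_ne_zero.mpr hr

lemma exists_l {F : Type*} [Field F] (g : F[X]) (hg : g ≠ 0) :
    ∃ l : (F[X] ⧸ Ideal.span {g}) →ₗ[F] F, ∀ a : F[X] ⧸ Ideal.span {g}, a ≠ 0 → ∃ z, l (a * z) ≠ 0 := by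
  have hm : (g * C g.leadingCoeff⁻¹).Monic := Polynomial.monic_mul_leadingCoeff_inv hg
  have hI : Ideal.span {g} = Ideal.span {g * C g.leadingCoeff⁻¹} := by
    refine (Ideal.span_singleton_mul_right_unit ?_ g).symm
    exact Polynomial.isUnit_C.mpr (IsUnit.mk0 _ (inv_ne_zero (by simpa using hg)))
  rw [hI]
  exact exists_l_monic _ hm

lemma build {F M : Type*} [Field F] [AddCommGroup M] [Module F M] {ι : Type*} [Fintype ι]
    (Q : ι → Type*) [∀ i, CommRing (Q i)] [∀ i, Algebra F (Q i)]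
    (f : ∀ i, M →ₗ[F] Q i) (T : M → M) (ξ : ∀ i, Q i)
    (hT : ∀ i x, f i (T x) = ξ i * f i x)
    (l : ∀ i, Q i →ₗ[F] F) (hl : ∀ i (a : Q i), a ≠ 0 → ∃ z, l i (a * z) ≠ 0)
    (hsep : ∀ x, (∀ i, f i x = 0) → x = 0)
    (hsurj : ∀ i (z : Q i), ∃ y, f i y = z ∧ ∀ j, j ≠ i → f j y = 0) :
    ∃ B : M →ₗ[F] M →ₗ[F] F,
      (∀ x y, B x y = B y x) ∧ (∀ x y, B (T x) y = B x (T y)) ∧
      (∀ x, x ≠ 0 → ∃ y, B x y ≠ 0) := by
  classical
  let B : M →ₗ[F] M →ₗ[F] F := LinearMap.mk₂ F (fun x y => ∑ i, l i (f i x * f i y))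
    (by intro x x' y; simp [add_mul, Finset.sum_add_distrib])
    (by intro c x y; simp [Finset.mul_sum])
    (by intro x y y'; simp [mul_add, Finset.sum_add_distrib])
    (by intro c x y; simp [Finset.mul_sum])
  have hB : ∀ x y, B x y = ∑ i, l i (f i x * f i y) := fun x y => rfl
  refine ⟨B, ?_, ?_, ?_⟩
  · intro x y
    rw [hB, hB]
    exact Finset.sum_congr rfl fun i _ => by rw [mul_comm]
  · intro x y
    rw [hB, hB]
    refine Finset.sum_congr rfl fun i _ => ?_
    rw [hT, hT]
    congr 1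
    ring
  · intro x hx
    by_contra hcon
    push Not at hcon
    apply hx
    apply hsep
    intro i
    by_contra hi
    obtain ⟨z, hz⟩ := hl i _ hi
    obtain ⟨y, hy, hy'⟩ := hsurj i z
    apply hz
    have := hcon y
    rw [hB, Finset.sum_eq_single i, hy] at this
    · exact this
    · intro j _ hj
      rw [hy' j hj]
      simp
    · simp

lemma main {F : Type u} [Field F] {n : ℕ} (A : Matrix (Fin n) (Fin n) F) :
    ∃ B : (Fin n → F) →ₗ[F] (Fin n → F) →ₗ[F] F,
      (∀ x y, B x y = B y x) ∧ (∀ x y, B (A.mulVec x) y = B x (A.mulVec y)) ∧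
      (∀ x, x ≠ 0 → ∃ y, B x y ≠ 0) := by
  classical
  let φ : (Fin n → F) →ₗ[F] (Fin n → F) := Matrix.toLin' A
  haveI hfin : Module.Finite F (Module.AEval' φ) := Module.Finite.equiv (Module.AEval'.of φ)
  haveI : Module.Finite F[X] (Module.AEval' φ) := Module.Finite.of_restrictScalars_finite F F[X] _
  have htors : Module.IsTorsion F[X] (Module.AEval' φ) :=
    Module.AEval.isTorsion_of_finiteDimensional F (Fin n → F) φ
  obtain ⟨ι, _, p, hp, e, ⟨E⟩⟩ := Module.equiv_directSum_of_isTorsion htors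
  have hne : ∀ i, p i ^ e i ≠ 0 := fun i => pow_ne_zero _ (hp i).ne_zero
  choose l hl using fun i => exists_l (p i ^ e i) (hne i)
  let Q : ι → Type u := fun i => F[X] ⧸ Ideal.span {p i ^ e i}
  let ff : ∀ i, (Fin n → F) → Q i := fun i x => (E (Module.AEval'.of φ x)) i
  have ff_smul : ∀ i (r : F[X]) (x : Module.AEval' φ),
      ((E (r • x)) i : Q i) = Ideal.Quotient.mk _ r * ((E x) i : Q i) := by
    intro i r x
    rw [map_smul]
    show (r • (E x) i) = _
    obtain ⟨t, ht⟩ := Ideal.Quotient.mk_surjective ((E x) i : Q i)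
    rw [← ht]
    rfl
  have ff_add : ∀ i x y, ff i (x + y) = ff i x + ff i y := by
    intro i x y
    show (E (Module.AEval'.of φ (x + y))) i = _
    rw [map_add, map_add]
    rfl
  have ff_smul' : ∀ i (c : F) x, ff i (c • x) = c • ff i x := by
    intro i c x
    show (E (Module.AEval'.of φ (c • x))) i = _
    rw [map_smul, ← Module.AEval.C_smul]
    rw [ff_smul]
    exact (Algebra.smul_def (R := F) c (ff i x : F[X] ⧸ Ideal.span {p i ^ e i})).symm
  let ffl : ∀ i, (Fin n → F) →ₗ[F] Q i := fun i =>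
    { toFun := ff i
      map_add' := ff_add i
      map_smul' := ff_smul' i }
  refine build Q ffl A.mulVec (fun i => Ideal.Quotient.mk _ X) ?_ l hl ?_ ?_
  · intro i x
    show (E (Module.AEval'.of φ (A.mulVec x))) i = _
    have : Module.AEval'.of φ (A.mulVec x) = (X : F[X]) • Module.AEval'.of φ x := by
      rw [Module.AEval'.X_smul_of]
      rfl
    rw [this, ff_smul]
    rfl
  · intro x hx
    have h0 : E (Module.AEval'.of φ x) = 0 := by
      apply DFinsupp.ext
      intro i
      exact hx i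
    have h1 := E.map_eq_zero_iff.mp h0
    exact (Module.AEval'.of φ).map_eq_zero_iff.mp h1
  · intro i z
    refine ⟨(Module.AEval'.of φ).symm (E.symm (DirectSum.of (fun i => F[X] ⧸ F[X] ∙ p i ^ e i) i z)), ?_, ?_⟩
    · show (E (Module.AEval'.of φ ((Module.AEval'.of φ).symm (E.symm (DirectSum.of (fun i => F[X] ⧸ F[X] ∙ p i ^ e i) i z))))) i = _
      rw [LinearEquiv.apply_symm_apply, LinearEquiv.apply_symm_apply]
      exact DirectSum.of_eq_same _ _
    · intro j hj
      show (E (Module.AEval'.of φ ((Module.AEval'.of φ).symm (E.symm (DirectSum.of (fun i => F[X] ⧸ F[X] ∙ p i ^ e i) i z))))) j = _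
      rw [LinearEquiv.apply_symm_apply, LinearEquiv.apply_symm_apply]
      exact DirectSum.of_eq_of_ne _ _ _ hj

/-- Over a finite field, a square matrix is similar to its transpose: for every n × n matrix A there is an invertible matrix P with P A P⁻¹ = Aᵀ (stated as conjugacy in the monoid of matrices, whose units are the invertible matrices). -/
theorem result {F : Type*} [Field F] [Finite F] {n : ℕ} (A : Matrix (Fin n) (Fin n) F) : IsConj A A.transpose := by
  classical
  obtain ⟨B, hsymm, hA, hnd⟩ := main A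
  let S : Matrix (Fin n) (Fin n) F := Matrix.of fun i j => B (Pi.single i 1) (Pi.single j 1)
  have hSv : ∀ v i, (S.mulVec v) i = B (Pi.single i 1) v := by
    intro v i
    have hv : v = ∑ j, v j • Pi.single j (1 : F) := by
      ext k
      simp [Finset.sum_apply, Pi.single_apply]
    conv_rhs => rw [hv]
    simp [S, Matrix.mulVec, dotProduct, map_sum, map_smul, mul_comm]
  have hdet : IsUnit S.det := by
    rw [isUnit_iff_ne_zero]
    intro h0
    obtain ⟨v, hv, hSv0⟩ := Matrix.exists_mulVec_eq_zero_iff.mpr h0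
    obtain ⟨y, hy⟩ := hnd v hv
    apply hy
    rw [hsymm]
    have hy' : y = ∑ j, y j • Pi.single j (1 : F) := by
      ext k
      simp [Finset.sum_apply, Pi.single_apply]
    rw [hy']
    simp only [map_sum, map_smul, LinearMap.sum_apply, LinearMap.smul_apply]
    refine Finset.sum_eq_zero fun j _ => ?_
    rw [← hSv, hSv0]
    simp
  have hcomm : S * A = A.transpose * S := by
    ext i j
    have h1 : (S * A) i j = B (Pi.single i 1) (A.mulVec (Pi.single j 1)) := by
      rw [← hSv, Matrix.mulVec_mulVec]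
      simp
    have hSymm : S.transpose = S := by
      ext a b
      simp [S, hsymm]
    have h2 : (A.transpose * S) i j = B (A.mulVec (Pi.single i 1)) (Pi.single j 1) := by
      have h3 : A.transpose * S = (S * A).transpose := by
        rw [Matrix.transpose_mul, hSymm]
      rw [h3, Matrix.transpose_apply, hsymm, ← hSv, Matrix.mulVec_mulVec]
      simp
    rw [h1, h2, hA]
  obtain ⟨u, hu⟩ := (Matrix.isUnit_iff_isUnit_det S).mpr hdet
  exact ⟨u, by
    show (u : Matrix (Fin n) (Fin n) F) * A = A.transpose * u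
    rw [hu]
    exact hcomm⟩

end Cfsg.Agent.S2580
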