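import Cfsg.Statements.S2585
import Cfsg.Agent.Lib.QuadClass
import Cfsg.Agent.Lib.QuadPlus
import Cfsg.Agent.Lib.ClassGeom
import Cfsg.Agent.Lib.SymplecticTv
-- import your own Cfsg.Agent.* helpers here

set_option autoImplicit false
set_option linter.all false
open Cfsg

namespace Cfsg.Agent.S2585

/-- Over a finite field of characteristic two every element of the symplectic group is orthogonal for a suitable quadratic form: for each A in Sp_2m(F) there is a quadratic form Q on F^(2m) whose polar form is the alternating form defining Sp_2m(F) (so Q is non-degenerate) and which A preserves. Equivalently, for m ≥ 1, Sp_2m(F) is the union of the conjugates of its two orthogonal subgroups O⁺_2m(F) and O⁻_2m(F). -/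
theorem result {F : Type*} [Field F] [Fintype F] [CharP F 2] {m : ℕ} (A : Matrix.symplecticGroup (Fin m) F) : ∃ Q : QuadraticForm F (Fin m ⊕ Fin m → F), (∀ u v : Fin m ⊕ Fin m → F, QuadraticMap.polar ⇑Q u v = Cfsg.sympForm m F u v) ∧ ∀ v : Fin m ⊕ Fin m → F, Q ((A : Matrix (Fin m ⊕ Fin m) (Fin m ⊕ Fin m) F).mulVec v) = Q v := by
  classical
  have h2 : (2 : F) = 0 := CharTwo.two_eq_zero
  have hN := Cfsg.Agent.Lib.QuadPlus.quadFormPlus_nondeg (F := F) m
  let Q₀ : QuadraticForm F (Fin m ⊕ Fin m → F) := Cfsg.Agent.Lib.QuadClass.toQF' hN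
  have hQ₀ : ∀ v, Q₀ v = Cfsg.quadFormPlus m F v := fun _ => rfl
  have hpol : ∀ u v, QuadraticMap.polar Q₀ u v = Cfsg.sympForm m F u v := by
    intro u v
    show QuadraticMap.polar (Cfsg.quadFormPlus m F) u v = _
    rw [Cfsg.Agent.Lib.QuadPlus.quadFormPlus_polar, Cfsg.Agent.Lib.SymplecticTv.sympForm_apply]
    refine Finset.sum_congr rfl (fun i _ => ?_)
    linear_combination (v (Sum.inr i) * u (Sum.inl i)) * h2
  let AA : Matrix (Fin m ⊕ Fin m) (Fin m ⊕ Fin m) F := A
  have hA : ∀ u v, Cfsg.sympForm m F (AA.mulVec u) (AA.mulVec v) = Cfsg.sympForm m F u v :=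
    (Cfsg.Agent.Lib.ClassGeom.mem_sp_iff_pres AA).1 A.2
  let D : (Fin m ⊕ Fin m → F) → F := fun v => Q₀ (AA.mulVec v) + Q₀ v
  have hDadd : ∀ u v, D (u + v) = D u + D v := by
    intro u v
    show Q₀ (AA.mulVec (u + v)) + Q₀ (u + v) = _ + _
    rw [Matrix.mulVec_add, QuadraticMap.map_add Q₀, QuadraticMap.map_add Q₀, hpol, hpol, hA]
    show _ = (Q₀ (AA.mulVec u) + Q₀ u) + (Q₀ (AA.mulVec v) + Q₀ v)
    linear_combination (Cfsg.sympForm m F u v) * h2
  have hDsmul : ∀ (c : F) v, D (c • v) = c ^ 2 * D v := by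
    intro c v
    show Q₀ (AA.mulVec (c • v)) + Q₀ (c • v) = c ^ 2 * (Q₀ (AA.mulVec v) + Q₀ v)
    rw [Matrix.mulVec_smul, QuadraticMap.map_smul, QuadraticMap.map_smul]
    simp only [smul_eq_mul]
    ring
  let σ : F ≃+* F := (frobeniusEquiv F 2).symm
  have hσ : ∀ a, σ a ^ 2 = a := fun a => frobenius_apply_frobeniusEquiv_symm F 2 a
  have hσ2 : ∀ a, σ (a ^ 2) = a := fun a => frobeniusEquiv_symm_apply_frobenius F 2 a
  let ℓ : (Fin m ⊕ Fin m → F) →ₗ[F] F :=
    { toFun := fun v => σ (D v)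
      map_add' := fun u v => by rw [hDadd, map_add]
      map_smul' := fun c v => by
        rw [hDsmul, map_mul, hσ2]
        rfl }
  let T : (Fin m ⊕ Fin m → F) →ₗ[F] (Fin m ⊕ Fin m → F) := Matrix.toLin' AA - LinearMap.id
  have hT : ∀ v, T v = AA.mulVec v - v := fun v => by
    simp [T, Matrix.toLin'_apply]
  have hℓ : ℓ ∈ (LinearMap.ker T).dualAnnihilator := by
    rw [Submodule.mem_dualAnnihilator]
    intro v hv
    have h3 : AA.mulVec v = v := by
      have : T v = 0 := hv
      rw [hT] at this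
      exact sub_eq_zero.1 this
    show σ (Q₀ (AA.mulVec v) + Q₀ v) = 0
    rw [h3]
    have h4 : Q₀ v + Q₀ v = 0 := by
      linear_combination (Q₀ v) * h2
    rw [h4, map_zero]
  rw [← LinearMap.range_dualMap_eq_dualAnnihilator_ker] at hℓ
  obtain ⟨g, hg⟩ := hℓ
  have hg' : ∀ v, g (AA.mulVec v) - g v = σ (D v) := by
    intro v
    have := LinearMap.congr_fun hg v
    have h3 : g (T v) = σ (D v) := this
    rw [hT, map_sub] at h3
    exact h3
  refine ⟨Q₀ + QuadraticMap.sq.comp g, ?_, ?_⟩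
  · intro u v
    rw [← hpol]
    simp only [QuadraticMap.polar, QuadraticMap.add_apply, QuadraticMap.comp_apply, QuadraticMap.sq_apply, map_add]
    linear_combination (g u * g v) * h2
  · intro v
    simp only [QuadraticMap.add_apply, QuadraticMap.comp_apply, QuadraticMap.sq_apply]
    have h3 := hg' v
    have h4 := hσ (D v)
    rw [← h3] at h4
    have h5 : D v = Q₀ (AA.mulVec v) + Q₀ v := rfl
    rw [h5] at h4
    show Q₀ (AA.mulVec v) + g (AA.mulVec v) * g (AA.mulVec v) = Q₀ v + g v * g v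
    linear_combination (-1 : F) * h4 + (g (AA.mulVec v) * g (AA.mulVec v) - g (AA.mulVec v) * g v - Q₀ v) * h2

end Cfsg.Agent.S2585
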