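import Cfsg.Statements.S2586
import Cfsg.Agent.Lib.GLTranspose
-- import your own Cfsg.Agent.* helpers here

set_option autoImplicit false
set_option linter.all false
open Cfsg

namespace Cfsg.Agent.S2586

/-- Over a finite field, every element of the symplectic group Sp_2m(F) is conjugate by an invertible matrix to its inverse. -/
theorem result {F : Type*} [Field F] [Finite F] {m : ℕ} (A : Matrix.symplecticGroup (Fin m) F) : IsConj (A : Matrix (Fin m ⊕ Fin m) (Fin m ⊕ Fin m) F) ((A⁻¹ : Matrix.symplecticGroup (Fin m) F) : Matrix (Fin m ⊕ Fin m) (Fin m ⊕ Fin m) F) := by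
  classical
  obtain ⟨G, hG⟩ := Cfsg.Agent.Lib.GLTranspose.exists_transpose_conj (A : Matrix (Fin m ⊕ Fin m) (Fin m ⊕ Fin m) F)
  have hJ : Matrix.J (Fin m) F * Matrix.J (Fin m) F = -1 := Matrix.J_squared (Fin m) F
  let U : (Matrix (Fin m ⊕ Fin m) (Fin m ⊕ Fin m) F)ˣ :=
    ⟨-Matrix.J (Fin m) F, Matrix.J (Fin m) F, by rw [neg_mul, hJ, neg_neg], by rw [mul_neg, hJ, neg_neg]⟩
  refine ⟨U * G, ?_⟩
  show (-Matrix.J (Fin m) F * G.1) * (A : Matrix (Fin m ⊕ Fin m) (Fin m ⊕ Fin m) F) =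
    (-Matrix.J (Fin m) F * (A : Matrix (Fin m ⊕ Fin m) (Fin m ⊕ Fin m) F).transpose * Matrix.J (Fin m) F) * (-Matrix.J (Fin m) F * G.1)
  rw [mul_assoc, hG]
  generalize (A : Matrix (Fin m ⊕ Fin m) (Fin m ⊕ Fin m) F).transpose = T at *
  generalize G.1 = G' at *
  generalize Matrix.J (Fin m) F = J at *
  have h3 : (-J * T * J) * (-J * G') = J * T * (J * J) * G' := by
    simp only [neg_mul, mul_neg, neg_neg, mul_assoc]
  rw [h3, hJ]
  simp [mul_assoc]

end Cfsg.Agent.S2586
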