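import Cfsg.Statements.S2588
import Cfsg.Agent.Lib.GUSimilar
-- import your own Cfsg.Agent.* helpers here

set_option autoImplicit false
set_option linter.all false
open Cfsg

namespace Cfsg.Agent.S2588

/-- An invertible matrix A over the field with q² elements is conjugate in GL_n(q²) to an element of the general unitary group GU_n(q) (isometries of the Hermitian form Σ u_i v_i^q) if and only if A is similar to the inverse transpose of its entrywise q-th power (A ~ A^(−qT), the image of A under the map sending a matrix to the inverse transpose of its entrywise q-th power — inverse transpose composed with the field automorphism — whose fixed points form GU_n(q)). -/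
theorem result {K : Type*} [Field K] [Fintype K] {q n : ℕ} (hK : Fintype.card K = q ^ 2) (A : GL (Fin n) K) : (∃ B : ↥(Cfsg.GU n K q), IsConj A (B : GL (Fin n) K)) ↔ IsConj (A : Matrix (Fin n) (Fin n) K) (((A : Matrix (Fin n) (Fin n) K).map (fun x : K => x ^ q)).transpose)⁻¹ := by
  classical
  obtain ⟨σ, hσ⟩ := Cfsg.Agent.Lib.UnitaryHerm.exists_sigma hK
  have hσ2 : ∀ a, σ (σ a) = a := by
    intro a
    rw [hσ, hσ, Cfsg.Agent.Lib.UnitaryHerm.pow_q_q hK]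
  have hSt : ((A : Matrix (Fin n) (Fin n) K).map (fun x : K => x ^ q)).transpose = Cfsg.Agent.Lib.GUConj.St σ A.1 := by
    ext i j
    simp [Cfsg.Agent.Lib.GUConj.St_apply, hσ]
  rw [hSt]
  have hinv : Cfsg.Agent.Lib.GUConj.St σ A.1 * Cfsg.Agent.Lib.GUConj.St σ (A⁻¹).1 = 1 := by
    rw [← Cfsg.Agent.Lib.GUConj.St_mul]
    have : (A⁻¹).1 * A.1 = 1 := A.inv_mul
    rw [this, Cfsg.Agent.Lib.GUConj.St_one]
  have hSi : (Cfsg.Agent.Lib.GUConj.St σ A.1)⁻¹ = Cfsg.Agent.Lib.GUConj.St σ (A⁻¹).1 := Matrix.inv_eq_right_inv hinv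
  rw [hSi]
  constructor
  · rintro ⟨B, hB⟩
    obtain ⟨g, hg⟩ := isConj_iff.1 hB
    have hBB : Cfsg.Agent.Lib.GUConj.St σ B.1.1 * B.1.1 = 1 := (Cfsg.Agent.Lib.GUConj.mem_GU_iff_St hK hσ _).1 B.2
    have hGa : g.1 * A.1 = B.1.1 * g.1 := by
      rw [mul_inv_eq_iff_eq_mul] at hg
      exact congrArg Units.val hg
    have hGGi : g.1 * (g⁻¹).1 = 1 := g.mul_inv
    have hGiG : (g⁻¹).1 * g.1 = 1 := g.inv_mul
    have h1 : Cfsg.Agent.Lib.GUConj.St σ B.1.1 * g.1 = g.1 * (A⁻¹).1 := by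
      calc Cfsg.Agent.Lib.GUConj.St σ B.1.1 * g.1 = Cfsg.Agent.Lib.GUConj.St σ B.1.1 * g.1 * (A.1 * (A⁻¹).1) := by
            rw [show A.1 * (A⁻¹).1 = 1 from A.mul_inv, mul_one]
        _ = Cfsg.Agent.Lib.GUConj.St σ B.1.1 * (g.1 * A.1) * (A⁻¹).1 := by simp only [mul_assoc]
        _ = (Cfsg.Agent.Lib.GUConj.St σ B.1.1 * B.1.1) * g.1 * (A⁻¹).1 := by rw [hGa]; simp only [mul_assoc]
        _ = g.1 * (A⁻¹).1 := by rw [hBB, one_mul]
    have h2 : Cfsg.Agent.Lib.GUConj.St σ (A⁻¹).1 * Cfsg.Agent.Lib.GUConj.St σ g.1 = Cfsg.Agent.Lib.GUConj.St σ g.1 * B.1.1 := by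
      rw [← Cfsg.Agent.Lib.GUConj.St_mul, ← h1, Cfsg.Agent.Lib.GUConj.St_mul, Cfsg.Agent.Lib.GUConj.St_St σ hσ2]
    let c : (Matrix (Fin n) (Fin n) K)ˣ :=
      ⟨Cfsg.Agent.Lib.GUConj.St σ g.1 * g.1, (g⁻¹).1 * Cfsg.Agent.Lib.GUConj.St σ (g⁻¹).1, by
        calc Cfsg.Agent.Lib.GUConj.St σ g.1 * g.1 * ((g⁻¹).1 * Cfsg.Agent.Lib.GUConj.St σ (g⁻¹).1)
            = Cfsg.Agent.Lib.GUConj.St σ g.1 * (g.1 * (g⁻¹).1) * Cfsg.Agent.Lib.GUConj.St σ (g⁻¹).1 := by simp only [mul_assoc]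
          _ = 1 := by rw [hGGi, mul_one, ← Cfsg.Agent.Lib.GUConj.St_mul, hGiG, Cfsg.Agent.Lib.GUConj.St_one], by
        calc (g⁻¹).1 * Cfsg.Agent.Lib.GUConj.St σ (g⁻¹).1 * (Cfsg.Agent.Lib.GUConj.St σ g.1 * g.1)
            = (g⁻¹).1 * (Cfsg.Agent.Lib.GUConj.St σ (g⁻¹).1 * Cfsg.Agent.Lib.GUConj.St σ g.1) * g.1 := by simp only [mul_assoc]
          _ = 1 := by rw [← Cfsg.Agent.Lib.GUConj.St_mul, hGGi, Cfsg.Agent.Lib.GUConj.St_one, mul_one, hGiG]⟩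
    refine ⟨c, ?_⟩
    show Cfsg.Agent.Lib.GUConj.St σ g.1 * g.1 * A.1 = Cfsg.Agent.Lib.GUConj.St σ (A⁻¹).1 * (Cfsg.Agent.Lib.GUConj.St σ g.1 * g.1)
    calc Cfsg.Agent.Lib.GUConj.St σ g.1 * g.1 * A.1 = Cfsg.Agent.Lib.GUConj.St σ g.1 * B.1.1 * g.1 := by
          rw [mul_assoc, hGa, mul_assoc]
      _ = _ := by rw [← h2, mul_assoc]
  · rintro ⟨c, hc⟩
    have hc' : c.1 * A.1 = Cfsg.Agent.Lib.GUConj.St σ (A⁻¹).1 * c.1 := hc
    refine Cfsg.Agent.Lib.GUSimilar.exists_conj_GU hK hσ A c.1 (c⁻¹).1 c.mul_inv ?_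
    have hinv' : Cfsg.Agent.Lib.GUConj.St σ (A⁻¹).1 * Cfsg.Agent.Lib.GUConj.St σ A.1 = 1 := mul_eq_one_comm.1 hinv
    calc Cfsg.Agent.Lib.GUConj.St σ A.1 * c.1 * A.1 = Cfsg.Agent.Lib.GUConj.St σ A.1 * (c.1 * A.1) := mul_assoc ..
      _ = (Cfsg.Agent.Lib.GUConj.St σ A.1 * Cfsg.Agent.Lib.GUConj.St σ (A⁻¹).1) * c.1 := by rw [hc', mul_assoc]
      _ = c.1 := by rw [hinv, one_mul]

end Cfsg.Agent.S2588
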