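import Cfsg.Statements.S2590
import Cfsg.Agent.Lib.OrthSemi
-- import your own Cfsg.Agent.* helpers here

set_option autoImplicit false
set_option linter.all false
open Cfsg

namespace Cfsg.Agent.S2590

/-- Two semisimple elements of odd order of a finite orthogonal group (isometry group of a quadratic form on F^n with non-degenerate polar form, F finite of characteristic p; the elements have odd order prime to p) are conjugate in the orthogonal group if and only if they are conjugate in GL_n(F). -/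
theorem result {F : Type*} [Field F] [Fintype F] {p : ℕ} [Fact p.Prime] [CharP F p] {n : ℕ} (Q : QuadraticForm F (Fin n → F)) (hQ : (QuadraticMap.polarBilin Q).Nondegenerate) (A B : ↥(Cfsg.isometryGroup F ⇑Q)) (hodd : Odd (orderOf A)) (hA : (orderOf A).Coprime p) : IsConj A B ↔ IsConj ((A : Matrix.GeneralLinearGroup (Fin n) F) : Matrix (Fin n) (Fin n) F) ((B : Matrix.GeneralLinearGroup (Fin n) F) : Matrix (Fin n) (Fin n) F) := by
  classical
  letI : Fintype F := ‹Fintype F›
  have hp := (Fact.out : p.Prime)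
  constructor
  · intro h
    obtain ⟨c, hc⟩ := isConj_iff.1 h
    refine ⟨(c : Matrix.GeneralLinearGroup (Fin n) F), ?_⟩
    rw [mul_inv_eq_iff_eq_mul] at hc
    have h1 := congrArg (fun x : ↥(Cfsg.isometryGroup F ⇑Q) => ((x : Matrix.GeneralLinearGroup (Fin n) F) : Matrix (Fin n) (Fin n) F)) hc
    exact h1
  · rintro ⟨c, hc⟩
    have hdne : ((orderOf A : ℕ) : F) ≠ 0 := by
      intro h0
      have h1 := (CharP.cast_eq_zero_iff F p (orderOf A)).1 h0
      have h2 : p ∣ Nat.gcd (orderOf A) p := Nat.dvd_gcd h1 dvd_rfl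
      rw [hA] at h2
      exact hp.one_lt.ne' (Nat.dvd_one.1 h2)
    have hAd : ((A : Matrix.GeneralLinearGroup (Fin n) F) : Matrix (Fin n) (Fin n) F) ^ (orderOf A) = 1 := by
      have h1 : A ^ (orderOf A) = 1 := pow_orderOf_eq_one A
      rw [← Units.val_pow_eq_pow_val, ← Subgroup.coe_pow, h1]
      rfl
    obtain ⟨g, gi, h1, h2, h3, h4⟩ := Cfsg.Agent.Lib.OrthSemi.orth_conj Q hQ _ _ (fun v => A.2 v v) (fun v => B.2 v v) hdne hodd hAd
      c.1 (c⁻¹).1 c.mul_inv hc
    let g' : Matrix.GeneralLinearGroup (Fin n) F := ⟨g, gi, h1, h2⟩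
    have hmem : g' ∈ Cfsg.isometryGroup F ⇑Q := fun u _ => h3 u
    refine isConj_iff.2 ⟨⟨g', hmem⟩, ?_⟩
    rw [mul_inv_eq_iff_eq_mul]
    apply Subtype.ext
    apply Units.ext
    exact h4

end Cfsg.Agent.S2590
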