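import Cfsg.Statements.S2594
import Cfsg.Agent.Lib.SpTvCent
-- import your own Cfsg.Agent.* helpers here

set_option autoImplicit false
set_option linter.all false
open Cfsg

namespace Cfsg.Agent.S2594

/-- Over a finite field with q elements, q even, an element t of Sp_2m(F) with rank(t − 1) = 1 (a symplectic transvection) has centraliser in Sp_2m(F) of order q^(2m−1) · |Sp_(2m−2)(q)| = q^(2m−1) · q^((m−1)²) · Π_(i=1)^(m−1) (q^(2i) − 1). -/
theorem result {F : Type*} [Field F] [Fintype F] [CharP F 2] {q : ℕ} (hF : Fintype.card F = q) {m : ℕ} (hm : 1 ≤ m) (t : Matrix.symplecticGroup (Fin m) F) (ht : ((t : Matrix (Fin m ⊕ Fin m) (Fin m ⊕ Fin m) F) - 1).rank = 1) : Nat.card ↥(Subgroup.centralizer ({t} : Set ↥(Matrix.symplecticGroup (Fin m) F))) = q ^ (2 * m - 1) * (q ^ ((m - 1) ^ 2) * ∏ i : Fin (m - 1), (q ^ (2 * ((i : ℕ) + 1)) - 1)) := by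
  classical
  subst hF
  obtain ⟨k, rfl⟩ : ∃ k, m = k + 1 := ⟨m - 1, by omega⟩
  obtain ⟨u, c, hu, hc, rfl⟩ := Cfsg.Agent.Lib.SpTvCent.rank_one_eq_T t ht
  obtain ⟨a, ha⟩ := FiniteField.isSquare_of_char_two (ringChar.eq F 2) c
  have ha0 : a ≠ 0 := by
    rintro rfl
    exact hc (by simpa using ha)
  have h1 : Cfsg.Agent.Lib.SpSimple.T u c = Cfsg.Agent.Lib.SpSimple.T (a • u) 1 := by
    rw [Cfsg.Agent.Lib.SpSimple.T_smul, mul_one, ← ha]
  rw [h1]
  have hu' : a • u ≠ 0 := smul_ne_zero ha0 hu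
  have := Cfsg.Agent.Lib.SpTvCent.card_centralizer_T hu'
  simpa using this

end Cfsg.Agent.S2594
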