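import Cfsg.Statements.S2599

set_option autoImplicit false
open Cfsg

namespace Cfsg.Agent.S2599

/-- An irreducible invariant subspace of a semisimple isometry is non-degenerate or totally singular: let Q be a quadratic form on F^n (F finite of characteristic p) with non-degenerate polar form f, x an isometry of Q of order prime to p, and U a non-zero x-invariant subspace containing no x-invariant subspace other than 0 and U. Then U meets its f-orthogonal trivially, or Q vanishes on U, or p = 2, U is a line spanned by a non-singular vector and x fixes U pointwise. -/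
theorem result {F : Type*} [Field F] [Fintype F] {p : ℕ} [Fact p.Prime] [CharP F p] {n : ℕ} (Q : QuadraticForm F (Fin n → F)) (hQ : (QuadraticMap.polarBilin Q).Nondegenerate) (x : ↥(Cfsg.isometryGroup F ⇑Q)) (hx : (orderOf x).Coprime p) (U : Submodule F (Fin n → F)) (hU0 : U ≠ ⊥) (hUx : ∀ u ∈ U, ((x : Matrix.GeneralLinearGroup (Fin n) F) : Matrix (Fin n) (Fin n) F).mulVec u ∈ U) (hirr : ∀ W : Submodule F (Fin n → F), W ≤ U → (∀ w ∈ W, ((x : Matrix.GeneralLinearGroup (Fin n) F) : Matrix (Fin n) (Fin n) F).mulVec w ∈ W) → W = ⊥ ∨ W = U) : U ⊓ LinearMap.BilinForm.orthogonal (QuadraticMap.polarBilin Q) U = ⊥ ∨ (∀ u ∈ U, Q u = 0) ∨ (p = 2 ∧ Module.finrank F U = 1 ∧ (∃ u ∈ U, Q u ≠ 0) ∧ ∀ u ∈ U, ((x : Matrix.GeneralLinearGroup (Fin n) F) : Matrix (Fin n) (Fin n) F).mulVec u = u) := by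
  classical
  set X : Matrix (Fin n) (Fin n) F := ((x : Matrix.GeneralLinearGroup (Fin n) F) : Matrix (Fin n) (Fin n) F) with hX
  have hxQ : ∀ u, Q (X.mulVec u) = Q u := fun u => x.2 u 0
  have hxB : ∀ u v, QuadraticMap.polar Q (X.mulVec u) (X.mulVec v) = QuadraticMap.polar Q u v := by
    intro u v
    simp only [QuadraticMap.polar, ← Matrix.mulVec_add, hxQ]
  -- surjectivity on `U`
  have hinj : Function.Injective X.mulVec := by
    intro a b hab
    have h1 := congrArg (((x⁻¹ : ↥(Cfsg.isometryGroup F ⇑Q)) : Matrix.GeneralLinearGroup (Fin n) F) : Matrix (Fin n) (Fin n) F).mulVec hab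
    simp only [Matrix.mulVec_mulVec] at h1
    have h2 : (((x⁻¹ : ↥(Cfsg.isometryGroup F ⇑Q)) : Matrix.GeneralLinearGroup (Fin n) F) : Matrix (Fin n) (Fin n) F) * X = 1 := by
      rw [hX, ← Units.val_mul, ← Subgroup.coe_mul, inv_mul_cancel]
      rfl
    rwa [h2, Matrix.one_mulVec, Matrix.one_mulVec] at h1
  have hsurj : ∀ u ∈ U, ∃ u' ∈ U, X.mulVec u' = u := by
    let f : U →ₗ[F] U := (Matrix.mulVecLin X).restrict (fun u hu => hUx u hu)
    have hf : Function.Injective f := by
      intro a b hab
      apply Subtype.ext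
      apply hinj
      exact congrArg Subtype.val hab
    have hf2 := LinearMap.injective_iff_surjective.1 hf
    intro u hu
    obtain ⟨a, ha⟩ := hf2 ⟨u, hu⟩
    exact ⟨a.1, a.2, congrArg Subtype.val ha⟩
  set R := U ⊓ LinearMap.BilinForm.orthogonal (QuadraticMap.polarBilin Q) U with hR
  have hRinv : ∀ w ∈ R, X.mulVec w ∈ R := by
    rintro w ⟨hw1, hw2⟩
    refine ⟨hUx w hw1, ?_⟩
    rw [SetLike.mem_coe, LinearMap.BilinForm.mem_orthogonal_iff] at hw2 ⊢
    intro m hm
    obtain ⟨m', hm', rfl⟩ := hsurj m hm
    have := hw2 m' hm'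
    simp only [LinearMap.BilinForm.isOrtho_def, QuadraticMap.polarBilin_apply_apply] at this ⊢
    rw [hxB, this]
  rcases hirr R inf_le_left hRinv with h | h
  · exact Or.inl h
  have hUo : ∀ u ∈ U, ∀ v ∈ U, QuadraticMap.polar Q u v = 0 := by
    intro u hu v hv
    have hv' : v ∈ R := by rw [h]; exact hv
    have := hv'.2
    rw [SetLike.mem_coe, LinearMap.BilinForm.mem_orthogonal_iff] at this
    have := this u hu
    simpa only [LinearMap.BilinForm.isOrtho_def, QuadraticMap.polarBilin_apply_apply] using this
  have hadd : ∀ u ∈ U, ∀ v ∈ U, Q (u + v) = Q u + Q v := by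
    intro u hu v hv
    have := hUo u hu v hv
    simp only [QuadraticMap.polar] at this
    linear_combination this
  by_cases hp2 : p = 2
  · subst hp2
    right
    have h20 : (2 : F) = 0 := by exact_mod_cast CharP.cast_eq_zero F 2
    let K : Submodule F (Fin n → F) :=
      { carrier := {u | u ∈ U ∧ Q u = 0}
        add_mem' := by
          rintro a b ⟨h1, h2⟩ ⟨h3, h4⟩
          exact ⟨U.add_mem h1 h3, by rw [hadd a h1 b h3, h2, h4, add_zero]⟩
        zero_mem' := ⟨U.zero_mem, by simp⟩
        smul_mem' := by
          rintro c a ⟨h1, h2⟩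
          refine ⟨U.smul_mem c h1, ?_⟩
          rw [QuadraticMap.map_smul, h2, smul_zero] }
    have hmemK : ∀ u, u ∈ K ↔ u ∈ U ∧ Q u = 0 := fun u => Iff.rfl
    have hKle : K ≤ U := fun u hu => hu.1
    have hKinv : ∀ w ∈ K, X.mulVec w ∈ K := by
      rintro w ⟨h1, h2⟩
      exact ⟨hUx w h1, by rw [hxQ, h2]⟩
    rcases hirr K hKle hKinv with hK | hK
    · right
      refine ⟨rfl, ?_, ?_, ?_⟩
      · obtain ⟨v, hvU, hv0⟩ := (Submodule.ne_bot_iff U).1 hU0
        have hQv : Q v ≠ 0 := by
          intro h0
          have : v ∈ K := ⟨hvU, h0⟩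
          rw [hK, Submodule.mem_bot] at this
          exact hv0 this
        have hne : (⟨v, hvU⟩ : U) ≠ 0 := fun h => hv0 (congrArg Subtype.val h)
        rw [finrank_eq_one_iff_of_nonzero' _ hne]
        rintro ⟨w, hw⟩
        obtain ⟨s, hs⟩ := isSquare_of_charTwo' (Q w / Q v)
        refine ⟨s, ?_⟩
        apply Subtype.ext
        show s • v = w
        have hm : s • v + w ∈ K := by
          refine ⟨U.add_mem (U.smul_mem s hvU) hw, ?_⟩
          rw [hadd _ (U.smul_mem s hvU) _ hw, QuadraticMap.map_smul, smul_eq_mul, ← hs]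
          field_simp
          linear_combination (Q w) * h20
        rw [hK, Submodule.mem_bot] at hm
        have e : s • v = -w := eq_neg_of_add_eq_zero_left hm
        rw [e]
        have : w + w = 0 := by
          ext i
          simp only [Pi.add_apply, Pi.zero_apply]
          linear_combination (w i) * h20
        exact neg_eq_of_add_eq_zero_left this
      · obtain ⟨v, hvU, hv0⟩ := (Submodule.ne_bot_iff U).1 hU0
        refine ⟨v, hvU, ?_⟩
        intro h0
        have : v ∈ K := ⟨hvU, h0⟩
        rw [hK, Submodule.mem_bot] at this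
        exact hv0 this
      · intro u hu
        have hm : X.mulVec u + u ∈ K := by
          refine ⟨U.add_mem (hUx u hu) hu, ?_⟩
          rw [hadd _ (hUx u hu) _ hu, hxQ]
          linear_combination (Q u) * h20
        rw [hK, Submodule.mem_bot] at hm
        have e : X.mulVec u = -u := eq_neg_of_add_eq_zero_left hm
        rw [e]
        have : u + u = 0 := by
          ext i
          simp only [Pi.add_apply, Pi.zero_apply]
          linear_combination (u i) * h20
        exact neg_eq_of_add_eq_zero_left this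
    · left
      intro u hu
      have : u ∈ K := by rw [hK]; exact hu
      exact this.2
  · right
    left
    intro u hu
    have h1 := hUo u hu u hu
    have h2 : QuadraticMap.polar Q u u = 2 * Q u := by
      simp only [QuadraticMap.polar]
      have : u + u = (2 : F) • u := by rw [two_smul]
      rw [this, QuadraticMap.map_smul, smul_eq_mul]
      ring
    rw [h2] at h1
    have h20 : (2 : F) ≠ 0 := by
      intro h
      have : ringChar F = 2 := CharP.ringChar_of_prime_eq_zero Nat.prime_two (by exact_mod_cast h)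
      rw [ringChar.eq F p] at this
      exact hp2 this
    exact (mul_eq_zero.1 h1).resolve_left h20

end Cfsg.Agent.S2599
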