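import Cfsg.Statements.S2610
import Cfsg.Agent.Lib.SpinorBlock
-- import your own Cfsg.Agent.* helpers here

set_option autoImplicit false
set_option linter.all false
open Cfsg

namespace Cfsg.Agent.S2610

section
open scoped Matrix
open QuadraticMap (polar)
variable {F : Type*} [Field F] [Fintype F] [DecidableEq F] {n : ℕ}

theorem isSquare_sq_mul {c x : F} (hc : c ≠ 0) : IsSquare (c ^ 2 * x) ↔ IsSquare x := by
  constructor
  · rintro ⟨s, hs⟩
    refine ⟨s / c, ?_⟩
    field_simp
    linear_combination hs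
  · rintro ⟨s, rfl⟩
    exact ⟨c * s, by ring⟩

open Cfsg.Agent.Lib.QuadSiegel Cfsg.Agent.Lib.Spinor Cfsg.Agent.Lib.Transvection in
theorem act_basis {Q : QuadraticForm F (Fin n → F)} (hQ : Cfsg.Geo.IsNondegenerateQuadraticForm (⇑Q)) (h2 : (2 : F) ≠ 0)
    (v : Fin n → (Fin n → F)) (hort : ∀ i j, i ≠ j → polar (⇑Q) (v i) (v j) = 0) (hne : ∀ i, Q (v i) ≠ 0)
    (l : List (Fin n)) (hl : l.Nodup) (j : Fin n) :
    (((((l.map (fun k => rfO hQ (v k))).prod : Cfsg.isometryGroup F (⇑Q)) : GL (Fin n) F) : Matrix (Fin n) (Fin n) F) *ᵥ v j) =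
      if j ∈ l then - v j else v j := by
  induction l with
  | nil =>
    simp
  | cons a l ih =>
    have hnd := List.nodup_cons.1 hl
    simp only [List.map_cons, List.prod_cons]
    change (((rf hQ (v a) * (((l.map (fun k => rfO hQ (v k))).prod : Cfsg.isometryGroup F (⇑Q)) : GL (Fin n) F) : GL (Fin n) F) : GL (Fin n) F).1 *ᵥ v j) = _
    rw [gl_mul_mulVec, ih hnd.2]
    have hr : ∀ x, ((rf hQ (v a) : GL (Fin n) F) : Matrix (Fin n) (Fin n) F) *ᵥ x = x - (polar (⇑Q) x (v a) / Q (v a)) • v a :=
      fun x => rf_mulVec hQ (hne a) x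
    by_cases hj : j = a
    · subst hj
      rw [if_neg hnd.1, if_pos List.mem_cons_self, hr, QuadraticMap.polar_self]
      have : (2 • Q (v j)) / Q (v j) = 2 := by
        rw [nsmul_eq_mul]
        push_cast
        field_simp [hne j]
      rw [this, two_smul]
      abel
    · by_cases hjl : j ∈ l
      · rw [if_pos hjl, if_pos (List.mem_cons_of_mem _ hjl), Matrix.mulVec_neg, hr, hort j a hj]
        simp
      · rw [if_neg hjl, if_neg (by simp [hj, hjl]), hr, hort j a hj]
        simp
end



/-- For a quadratic form Q on F^n with non-degenerate polar form, F finite of odd order and n ≥ 2 even, the isometry −1 lies in Ω (the commutator subgroup of the orthogonal group) if and only if the discriminant of Q (the determinant of the Gram matrix of its polar form) is a square. -/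
theorem result {F : Type*} [Field F] [Fintype F] (h2 : (2 : F) ≠ 0) {n : ℕ} (hn : 2 ≤ n) (he : Even n) (Q : QuadraticForm F (Fin n → F)) (hQ : (QuadraticMap.polarBilin Q).Nondegenerate) : (∃ g : ↥(Cfsg.isometryGroup F ⇑Q), g ∈ Cfsg.Omega F ⇑Q ∧ ((g : Matrix.GeneralLinearGroup (Fin n) F) : Matrix (Fin n) (Fin n) F) = -1) ↔ IsSquare (Matrix.of (fun i j : Fin n => QuadraticMap.polar ⇑Q (Pi.single i 1) (Pi.single j 1))).det := by
  classical
  have hQ' := Cfsg.Agent.Lib.QuadRefl.nondeg_of_form Q hQ
  haveI : Invertible (2 : F) := invertibleOfNonzero h2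
  have hB : (QuadraticMap.polarBilin Q).IsSymm := ⟨fun x y => QuadraticMap.polar_comm Q x y⟩
  obtain ⟨v₀, hv₀⟩ := LinearMap.BilinForm.exists_orthogonal_basis hB
  have hr : Module.finrank F (Fin n → F) = n := Module.finrank_fin_fun F
  let v : Module.Basis (Fin n) F (Fin n → F) := v₀.reindex (finCongr hr)
  have hort : ∀ i j, i ≠ j → QuadraticMap.polar (⇑Q) (v i) (v j) = 0 := by
    intro i j hij
    have hne : (finCongr hr).symm i ≠ (finCongr hr).symm j := fun h => hij ((finCongr hr).symm.injective h)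
    have := hv₀ hne
    simpa [v, Module.Basis.reindex_apply, LinearMap.IsOrtho] using this
  have hne : ∀ i, Q (v i) ≠ 0 := by
    intro i h0
    have h1 : ∀ y, QuadraticMap.polar (⇑Q) y (v i) = 0 := by
      intro y
      have h3 : y = ∑ k, v.repr y k • v k := (v.sum_repr y).symm
      rw [h3]
      have h4 : ∀ (s : Finset (Fin n)), QuadraticMap.polar (⇑Q) (∑ k ∈ s, v.repr y k • v k) (v i) = 0 := by
        intro s
        induction s using Finset.induction_on with
        | empty => simp [QuadraticMap.polar]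
        | insert a s ha ih =>
          rw [Finset.sum_insert ha, QuadraticMap.polar_add_left, ih, add_zero, QuadraticMap.polar_smul_left]
          by_cases hai : a = i
          · subst hai
            rw [QuadraticMap.polar_self, h0]
            simp
          · rw [hort a i hai]
            simp
      exact h4 _
    have h5 := (hQ'.nondegenerate (v i) (v.ne_zero i)).1
    obtain ⟨x, hx⟩ := h5
    exact hx (h1 x)
  -- the product of the reflections is `-1`
  let vs : List (Fin n → F) := (List.finRange n).map v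
  have hvs : ∀ w ∈ vs, Q w ≠ 0 := by
    intro w hw
    obtain ⟨k, -, rfl⟩ := List.mem_map.1 hw
    exact hne k
  have hmem : ((vs.map (Cfsg.Agent.Lib.Spinor.rfO hQ')).prod) ∈ Cfsg.Omega F ⇑Q ↔
      Even vs.length ∧ IsSquare (vs.map (fun w => Q w)).prod :=
    Cfsg.Agent.Lib.SpinorBlock.prod_mem_iff hQ' h2 (by simpa using hn) vs hvs
  have hmap : vs.map (Cfsg.Agent.Lib.Spinor.rfO hQ') = (List.finRange n).map (fun k => Cfsg.Agent.Lib.Spinor.rfO hQ' (v k)) := by
    simp [vs, List.map_map, Function.comp_def]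
  have hval : (((vs.map (Cfsg.Agent.Lib.Spinor.rfO hQ')).prod : Cfsg.isometryGroup F (⇑Q)) : GL (Fin n) F).1 = -1 := by
    apply Matrix.toLin'.injective
    apply v.ext
    intro j
    rw [hmap, Matrix.toLin'_apply]
    rw [act_basis hQ' h2 v hort hne (List.finRange n) (List.nodup_finRange n) j, if_pos (List.mem_finRange j)]
    simp [Matrix.toLin'_apply, Matrix.neg_mulVec]
  have hlen : vs.length = n := by simp [vs]
  have hprod : (vs.map (fun w => Q w)).prod = ∏ k, Q (v k) := by
    rw [Fin.prod_univ_def]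
    simp [vs, List.map_map, Function.comp_def]
  have hiff : (∃ g : ↥(Cfsg.isometryGroup F ⇑Q), g ∈ Cfsg.Omega F ⇑Q ∧
      ((g : Matrix.GeneralLinearGroup (Fin n) F) : Matrix (Fin n) (Fin n) F) = -1) ↔ IsSquare (∏ k, Q (v k)) := by
    rw [← hprod]
    constructor
    · rintro ⟨g, h3, h4⟩
      have : g = (vs.map (Cfsg.Agent.Lib.Spinor.rfO hQ')).prod := by
        apply Subtype.ext
        apply Units.ext
        rw [h4, hval]
      rw [this] at h3
      exact (hmem.1 h3).2
    · intro h
      exact ⟨_, hmem.2 ⟨by rw [hlen]; exact he, h⟩, hval⟩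
  rw [hiff]
  -- the Gram matrices
  let G : Matrix (Fin n) (Fin n) F := Matrix.of (fun i j : Fin n => QuadraticMap.polar ⇑Q (Pi.single i 1) (Pi.single j 1))
  have hG : LinearMap.BilinForm.toMatrix (Pi.basisFun F (Fin n)) (QuadraticMap.polarBilin Q) = G := by
    ext i j
    rw [LinearMap.BilinForm.toMatrix_apply]
    simp [G]
  have hD : LinearMap.BilinForm.toMatrix v (QuadraticMap.polarBilin Q) = Matrix.diagonal (fun k => 2 * Q (v k)) := by
    ext i j
    rw [LinearMap.BilinForm.toMatrix_apply]
    by_cases hij : i = j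
    · subst hij
      simp [QuadraticMap.polar_self]
    · rw [Matrix.diagonal_apply_ne _ hij]
      exact hort i j hij
  have hrel := LinearMap.BilinForm.toMatrix_mul_basis_toMatrix (b := Pi.basisFun F (Fin n)) v (QuadraticMap.polarBilin Q)
  rw [hG, hD] at hrel
  have hdet := congrArg Matrix.det hrel
  rw [Matrix.det_mul, Matrix.det_mul, Matrix.det_transpose, Matrix.det_diagonal] at hdet
  have hP : ((Pi.basisFun F (Fin n)).toMatrix v).det ≠ 0 := by
    have := ((Pi.basisFun F (Fin n)).isUnit_det v).ne_zero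
    rwa [Module.Basis.det_apply] at this
  obtain ⟨t, ht⟩ := he
  have hprod2 : ∏ k, (2 * Q (v k)) = ((2 : F) ^ t) ^ 2 * ∏ k, Q (v k) := by
    rw [Finset.prod_mul_distrib, Finset.prod_const, Finset.card_univ, Fintype.card_fin]
    have h9 : (2 : F) ^ n = ((2 : F) ^ t) ^ 2 := by
      rw [ht, ← pow_mul]
      congr 1
      omega
    rw [h9]
  rw [hprod2] at hdet
  have h2t : (2 : F) ^ t ≠ 0 := pow_ne_zero _ h2
  rw [← isSquare_sq_mul h2t, ← hdet]
  have : ((Pi.basisFun F (Fin n)).toMatrix v).det * G.det * ((Pi.basisFun F (Fin n)).toMatrix v).det =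
      ((Pi.basisFun F (Fin n)).toMatrix v).det ^ 2 * G.det := by ring
  rw [this, isSquare_sq_mul hP]

end Cfsg.Agent.S2610
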