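import Cfsg.Statements.S2611
import Cfsg.Agent.Lib.QuadBlock
-- import your own Cfsg.Agent.* helpers here

set_option autoImplicit false
set_option linter.all false
open Cfsg

namespace Cfsg.Agent.S2611

/-- For the hyperbolic quadratic form Σ x_i y_i on F^(2m) (F finite, m ≥ 1, excluding m = 2 over the field of two elements) and an invertible m × m matrix A, the block-diagonal isometry diag(A, (A⁻¹)ᵀ), which stabilises the two maximal totally singular subspaces x = 0 and y = 0, lies in Ω⁺_2m(F) (the commutator subgroup of the orthogonal group) if and only if det A is a square in F. -/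
theorem result {F : Type*} [Field F] [Fintype F] {m : ℕ} (hm : 1 ≤ m) (h : Fintype.card F ≠ 2 ∨ m ≠ 2) (A : GL (Fin m) F) : (∃ g : ↥(Cfsg.isometryGroup F (Cfsg.quadFormPlus m F)), g ∈ Cfsg.Omega F (Cfsg.quadFormPlus m F) ∧ ((g : Matrix.GeneralLinearGroup (Fin m ⊕ Fin m) F) : Matrix (Fin m ⊕ Fin m) (Fin m ⊕ Fin m) F) = Matrix.fromBlocks (A : Matrix (Fin m) (Fin m) F) 0 0 ((A : Matrix (Fin m) (Fin m) F)⁻¹).transpose) ↔ IsSquare (A : Matrix (Fin m) (Fin m) F).det := by
  classical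
  have hQ : Cfsg.Geo.IsNondegenerateQuadraticForm (Cfsg.quadFormPlus m F) := Cfsg.Agent.Lib.QuadPlus.quadFormPlus_nondeg m
  have h' : Fintype.card F ≠ 2 ∨ Fintype.card (Fin m ⊕ Fin m) ≠ 4 := by
    rcases h with h | h
    · exact Or.inl h
    · right
      simp
      omega
  have hn : 1 ≤ Fintype.card (Fin m ⊕ Fin m) := by
    simp
    omega
  have hn2 : 2 ≤ Fintype.card (Fin m ⊕ Fin m) := by
    simp
    omega
  have hval := Cfsg.Agent.Lib.QuadBlock.blkO_val (F := F) m A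
  have hiff : (∃ g : ↥(Cfsg.isometryGroup F (Cfsg.quadFormPlus m F)), g ∈ Cfsg.Omega F (Cfsg.quadFormPlus m F) ∧
      ((g : Matrix.GeneralLinearGroup (Fin m ⊕ Fin m) F) : Matrix (Fin m ⊕ Fin m) (Fin m ⊕ Fin m) F) =
        Matrix.fromBlocks (A : Matrix (Fin m) (Fin m) F) 0 0 ((A : Matrix (Fin m) (Fin m) F)⁻¹).transpose) ↔
      Cfsg.Agent.Lib.QuadBlock.blkO m A ∈ Cfsg.Omega F (Cfsg.quadFormPlus m F) := by
    constructor
    · rintro ⟨g, h3, h4⟩
      have : g = Cfsg.Agent.Lib.QuadBlock.blkO m A := by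
        apply Subtype.ext
        apply Units.ext
        rw [h4, hval]
      rwa [← this]
    · intro h3
      exact ⟨_, h3, hval⟩
  rw [hiff]
  by_cases h2 : (2 : F) = 0
  · haveI : CharP F 2 := CharTwo.of_one_ne_zero_of_two_eq_zero one_ne_zero h2
    have h5 : IsSquare (A : Matrix (Fin m) (Fin m) F).det := FiniteField.isSquare_of_char_two (ringChar.eq F 2) _
    rw [iff_true_right h5, Cfsg.Omega, Cfsg.Agent.Lib.QuadClass.comm_eq_dickson_fun hQ hn h', MonoidHom.mem_ker]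
    exact Cfsg.Agent.Lib.QuadBlock.dickson_blk m hQ h' A
  · obtain ⟨θ, hθ⟩ : ∃ θ, Cfsg.Agent.Lib.Spinor.IsSpinor hQ θ := Cfsg.Agent.Lib.Spinor.exists_spinor hQ h2 hn2
    rw [Cfsg.Omega, (Cfsg.Agent.Lib.Spinor.comm_eq hQ h2 hn2 hθ).1, Subgroup.mem_inf, MonoidHom.mem_ker, MonoidHom.mem_ker]
    have hd : Cfsg.Agent.Lib.Spinor.detHom hQ (Cfsg.Agent.Lib.Spinor.top_ne h2) h2 (Cfsg.Agent.Lib.QuadBlock.blkO m A) = 1 := by
      rw [← Cfsg.Agent.Lib.QuadClass.dickson_eq_det hQ h2]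
      exact Cfsg.Agent.Lib.QuadBlock.dickson_blk m hQ _ A
    have hdetA : (A : Matrix (Fin m) (Fin m) F).det ≠ 0 := by
      have := (Matrix.isUnit_iff_isUnit_det _).1 A.isUnit
      exact this.ne_zero
    rw [iff_true_intro hd, true_and, ← quadraticChar_one_iff_isSquare hdetA,
      ← Cfsg.Agent.Lib.QuadBlock.theta_blk hQ h2 hθ A, ← Units.val_inj]
    rfl

end Cfsg.Agent.S2611
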