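import Cfsg.Statements.S2612
import Cfsg.Agent.Lib.QuadBlock
-- import your own Cfsg.Agent.* helpers here

set_option autoImplicit false
set_option linter.all false
open Cfsg

namespace Cfsg.Agent.S2612

section
open scoped Matrix
open QuadraticMap (polar)
variable {F : Type*} [Field F] [Fintype F] {m : ℕ}

open Cfsg.Agent.Lib.QuadSiegel Cfsg.Agent.Lib.Spinor Cfsg.Agent.Lib.Spinor2 Cfsg.Agent.Lib.Transvection in
theorem swap_act [DecidableEq F] (hQ : Cfsg.Geo.IsNondegenerateQuadraticForm (Cfsg.quadFormPlus m F))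
    (l : List (Fin m)) (hl : l.Nodup) (x : Fin m ⊕ Fin m → F) (j : Fin m ⊕ Fin m) :
    (((((l.map (fun k => rfO hQ (nV m k))).prod : Cfsg.isometryGroup F (Cfsg.quadFormPlus m F)) : GL (Fin m ⊕ Fin m) F) :
      Matrix (Fin m ⊕ Fin m) (Fin m ⊕ Fin m) F) *ᵥ x) j =
      if idxP m j ∈ l then x j.swap else x j := by
  induction l generalizing x j with
  | nil =>
    simp
  | cons a l ih =>
    have hnd := List.nodup_cons.1 hl
    simp only [List.map_cons, List.prod_cons]
    have hn0 : Cfsg.quadFormPlus m F (nV m a) ≠ 0 := by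
      rw [Q_nV]
      exact neg_ne_zero.2 one_ne_zero
    change ((rf hQ (nV m a) * (((l.map (fun k => rfO hQ (nV m k))).prod : Cfsg.isometryGroup F (Cfsg.quadFormPlus m F)) : GL (Fin m ⊕ Fin m) F) : GL (Fin m ⊕ Fin m) F).1 *ᵥ x) j = _
    rw [gl_mul_mulVec, rf_mulVec hQ hn0, Q_nV, polar_nV]
    have h1 := ih hnd.2 x
    have hidx : ∀ j : Fin m ⊕ Fin m, idxP m j.swap = idxP m j := by
      intro j
      rcases j with k | k <;> rfl
    simp only [Pi.sub_apply, Pi.smul_apply, smul_eq_mul, h1]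
    have hp : ∀ k : Fin m, (if k ∈ l then x (Sum.inr k) else x (Sum.inl k)) = x (Sum.inl k) ∨ k ∈ l := by
      intro k
      by_cases hk : k ∈ l
      · exact Or.inr hk
      · exact Or.inl (by simp [hk])
    rcases j with k | k
    · have e1 : idxP m (Sum.inl k) = k := rfl
      have e2 : idxP m (Sum.inr k) = k := rfl
      by_cases hk : k = a
      · subst hk
        simp [nV, e1, e2, hnd.1]
        ring
      · simp [nV, e1, e2, hk]
    · have e1 : idxP m (Sum.inl k) = k := rfl
      have e2 : idxP m (Sum.inr k) = k := rfl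
      by_cases hk : k = a
      · subst hk
        simp [nV, e1, e2, hnd.1]
        ring
      · simp [nV, e1, e2, hk]
end



/-- For the hyperbolic quadratic form Σ x_i y_i on F^(2m) (F finite, m ≥ 1, excluding m = 2 over the field of two elements), Ω⁺_2m(F) (the commutator subgroup of the orthogonal group) contains an element interchanging the two complementary maximal totally singular subspaces {y = 0} and {x = 0} if and only if m is even (dimension divisible by 4). -/
theorem result {F : Type*} [Field F] [Fintype F] {m : ℕ} (hm : 1 ≤ m) (h : Fintype.card F ≠ 2 ∨ m ≠ 2) : (∃ g : ↥(Cfsg.isometryGroup F (Cfsg.quadFormPlus m F)), g ∈ Cfsg.Omega F (Cfsg.quadFormPlus m F) ∧ (∀ v : Fin m ⊕ Fin m → F, (∀ i, v (Sum.inr i) = 0) → ∀ i, (((g : Matrix.GeneralLinearGroup (Fin m ⊕ Fin m) F) : Matrix (Fin m ⊕ Fin m) (Fin m ⊕ Fin m) F).mulVec v) (Sum.inl i) = 0) ∧ (∀ v : Fin m ⊕ Fin m → F, (∀ i, v (Sum.inl i) = 0) → ∀ i, (((g : Matrix.GeneralLinearGroup (Fin m ⊕ Fin m) F) :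 Matrix (Fin m ⊕ Fin m) (Fin m ⊕ Fin m) F).mulVec v) (Sum.inr i) = 0)) ↔ Even m := by
  classical
  have hQ : Cfsg.Geo.IsNondegenerateQuadraticForm (Cfsg.quadFormPlus m F) := Cfsg.Agent.Lib.QuadPlus.quadFormPlus_nondeg m
  have h' : Fintype.card F ≠ 2 ∨ Fintype.card (Fin m ⊕ Fin m) ≠ 4 := by
    rcases h with h | h
    · exact Or.inl h
    · right
      simp
      omega
  have hn : 1 ≤ Fintype.card (Fin m ⊕ Fin m) := by
    simp
    omega
  have hn2 : 2 ≤ Fintype.card (Fin m ⊕ Fin m) := by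
    simp
    omega
  constructor
  · rintro ⟨g, hg, h1, h2⟩
    have hd : Cfsg.Agent.Lib.Dickson.dickson hQ h' g = 1 := Cfsg.Agent.Lib.QuadBlock.comm_le_ker _ hg
    have he := (Cfsg.Agent.Lib.QuadClass.eps_iff_dickson hQ h' (Cfsg.Agent.Lib.QuadPlus.stdTS_max m) g).2 hd
    have hbot : Cfsg.Agent.Lib.QuadPlus.stdTS m F ⊓ (Cfsg.Agent.Lib.QuadPlus.stdTS m F).map
        (Cfsg.Agent.Lib.Transvection.glLin (g : Matrix.GeneralLinearGroup (Fin m ⊕ Fin m) F)) = ⊥ := by
      rw [eq_bot_iff]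
      rintro x ⟨hx, y, hy, rfl⟩
      have hy' : y ∈ Cfsg.Agent.Lib.QuadPlus.coordS (fun s : Fin m ⊕ Fin m => s.isLeft = true) F := hy
      have hx' : _ ∈ Cfsg.Agent.Lib.QuadPlus.coordS (fun s : Fin m ⊕ Fin m => s.isLeft = true) F := hx
      rw [Cfsg.Agent.Lib.QuadPlus.mem_coordS] at hy' hx'
      rw [Submodule.mem_bot]
      funext i
      rcases i with i | i
      · rw [Cfsg.Agent.Lib.Transvection.glLin_apply]
        exact h1 y (fun k => hy' (Sum.inr k) (by simp)) i
      · exact hx' (Sum.inr i) (by simp)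
    unfold Cfsg.Agent.Lib.QuadFamily.eps at he
    rw [hbot, finrank_bot, add_zero, Cfsg.Agent.Lib.QuadPlus.finrank_stdTS, ZMod.natCast_eq_zero_iff] at he
    exact even_iff_two_dvd.2 he
  · intro hm2
    let vs : List (Fin m ⊕ Fin m → F) := (List.finRange m).map (Cfsg.Agent.Lib.Spinor2.nV m)
    have hvs : ∀ w ∈ vs, Cfsg.quadFormPlus m F w ≠ 0 := by
      intro w hw
      obtain ⟨k, -, rfl⟩ := List.mem_map.1 hw
      rw [Cfsg.Agent.Lib.Spinor2.Q_nV]
      exact neg_ne_zero.2 one_ne_zero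
    have hlen : vs.length = m := by simp [vs]
    have hmap : vs.map (Cfsg.Agent.Lib.Spinor.rfO hQ) = (List.finRange m).map (fun k => Cfsg.Agent.Lib.Spinor.rfO hQ (Cfsg.Agent.Lib.Spinor2.nV m k)) := by
      simp [vs, List.map_map, Function.comp_def]
    refine ⟨(vs.map (Cfsg.Agent.Lib.Spinor.rfO hQ)).prod, ?_, ?_, ?_⟩
    · by_cases h2 : (2 : F) = 0
      · haveI : CharP F 2 := CharTwo.of_one_ne_zero_of_two_eq_zero one_ne_zero h2
        rw [Cfsg.Omega, Cfsg.Agent.Lib.QuadClass.comm_eq_dickson_fun hQ hn h', MonoidHom.mem_ker,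
          Cfsg.Agent.Lib.QuadBlock.char_prod hQ _ (fun a ha => Cfsg.Agent.Lib.Dickson.dickson_rf hQ h' ha) vs hvs, hlen]
        exact hm2.neg_one_pow
      · rw [Cfsg.Omega, Cfsg.Agent.Lib.SpinorBlock.prod_mem_iff hQ h2 hn2 vs hvs, hlen]
        refine ⟨hm2, ?_⟩
        have : (vs.map (Cfsg.quadFormPlus m F)).prod = (-1) ^ m := by
          have h3 : vs.map (Cfsg.quadFormPlus m F) = List.replicate m (-1 : F) := by
            apply List.eq_replicate_iff.2
            refine ⟨by simp [vs], ?_⟩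
            intro b hb
            obtain ⟨w, hw, rfl⟩ := List.mem_map.1 hb
            obtain ⟨k, -, rfl⟩ := List.mem_map.1 hw
            exact Cfsg.Agent.Lib.Spinor2.Q_nV m k
          rw [h3, List.prod_replicate]
        rw [this, hm2.neg_one_pow]
        exact ⟨1, by simp⟩
    · intro v hv i
      rw [hmap, swap_act hQ (List.finRange m) (List.nodup_finRange m), if_pos (List.mem_finRange _)]
      exact hv i
    · intro v hv i
      rw [hmap, swap_act hQ (List.finRange m) (List.nodup_finRange m), if_pos (List.mem_finRange _)]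
      exact hv i

end Cfsg.Agent.S2612
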