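import Cfsg.Statements.S2613
import Cfsg.Agent.Lib.SpinorBlock
-- import your own Cfsg.Agent.* helpers here

set_option autoImplicit false
set_option linter.all false
open Cfsg

namespace Cfsg.Agent.S2613

/-- For the hyperbolic form Σ x_j y_j on F^(2m), F finite with q elements, q odd, and 1 ≤ i ≤ m: the involution negating the first i hyperbolic pairs (x_j, y_j ↦ −x_j, −y_j for j < i) and fixing the rest lies in Ω⁺_2m(q) (commutator subgroup of the orthogonal group) if and only if q^i ≡ 1 (mod 4); its (−1)-eigenspace is a hyperbolic 2i-space. -/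
theorem result {F : Type*} [Field F] [Fintype F] {q : ℕ} (hF : Fintype.card F = q) (hq : Odd q) {m : ℕ} (i : ℕ) (hi : 1 ≤ i) (him : i ≤ m) : (∃ g : ↥(Cfsg.isometryGroup F (Cfsg.quadFormPlus m F)), g ∈ Cfsg.Omega F (Cfsg.quadFormPlus m F) ∧ ((g : Matrix.GeneralLinearGroup (Fin m ⊕ Fin m) F) : Matrix (Fin m ⊕ Fin m) (Fin m ⊕ Fin m) F) = Matrix.diagonal (fun k : Fin m ⊕ Fin m => if (Sum.elim (fun j : Fin m => (j : ℕ)) (fun j : Fin m => (j : ℕ)) k) < i then (-1 : F) else 1)) ↔ q ^ i % 4 = 1 := by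
  classical
  have hQ : Cfsg.Geo.IsNondegenerateQuadraticForm (Cfsg.quadFormPlus m F) := Cfsg.Agent.Lib.QuadPlus.quadFormPlus_nondeg m
  have hn : 2 ≤ Fintype.card (Fin m ⊕ Fin m) := by
    simp
    omega
  refine Cfsg.Agent.Lib.SpinorBlock.block_iff hQ hF hq hn (Sum.elim (fun j : Fin m => (j : ℕ)) (fun j : Fin m => (j : ℕ))) i
    (fun k => Cfsg.Agent.Lib.Spinor2.pV m ⟨k.1, by have := k.2; omega⟩)
    (fun k => Cfsg.Agent.Lib.Spinor2.nV m ⟨k.1, by have := k.2; omega⟩)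
    (fun k => Cfsg.Agent.Lib.Spinor2.Q_pV m _) (fun k => Cfsg.Agent.Lib.Spinor2.Q_nV m _) ?_
  intro k x j
  rw [Cfsg.Agent.Lib.Spinor2.tP_mulVec m hQ one_ne_zero]
  have : Cfsg.Agent.Lib.Spinor2.idxP m j = ⟨k.1, by have := k.2; omega⟩ ↔
      Sum.elim (fun j : Fin m => (j : ℕ)) (fun j : Fin m => (j : ℕ)) j = k.1 := by
    rcases j with l | l <;> simp [Cfsg.Agent.Lib.Spinor2.idxP, Fin.ext_iff]
  simp only [this]

end Cfsg.Agent.S2613
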