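import Cfsg.Statements.S2614
import Cfsg.Agent.Lib.SpinorBlock
-- import your own Cfsg.Agent.* helpers here

set_option autoImplicit false
set_option linter.all false
open Cfsg

namespace Cfsg.Agent.S2614

section
open scoped Matrix
open QuadraticMap (polar)
variable {F : Type*} [Field F] [Fintype F] [DecidableEq F] {m : ℕ}

def pO (i : Fin m) : Unit ⊕ (Fin m ⊕ Fin m) → F := Pi.single (.inr (.inl i)) 1 + Pi.single (.inr (.inr i)) 1
def nO (i : Fin m) : Unit ⊕ (Fin m ⊕ Fin m) → F := Pi.single (.inr (.inl i)) 1 - Pi.single (.inr (.inr i)) 1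

theorem polar_pO (x : Unit ⊕ (Fin m ⊕ Fin m) → F) (i : Fin m) :
    polar (Cfsg.quadFormOdd m F) x (pO i) = x (.inr (.inl i)) + x (.inr (.inr i)) := by
  rw [Cfsg.Agent.Lib.QuadStab.polar_quadFormOdd, Finset.sum_eq_single i]
  · simp [pO]
  · intro j _ hj
    simp [pO, Pi.single_apply, hj]
  · simp

theorem polar_nO (x : Unit ⊕ (Fin m ⊕ Fin m) → F) (i : Fin m) :
    polar (Cfsg.quadFormOdd m F) x (nO i) = x (.inr (.inr i)) - x (.inr (.inl i)) := by
  rw [Cfsg.Agent.Lib.QuadStab.polar_quadFormOdd, Finset.sum_eq_single i]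
  · simp [nO]
    ring
  · intro j _ hj
    simp [nO, Pi.single_apply, hj]
  · simp

theorem Q_pO (i : Fin m) : Cfsg.quadFormOdd m F (pO i) = 1 := by
  rw [Cfsg.quadFormOdd, Finset.sum_eq_single i]
  · simp [pO]
  · intro j _ hj
    simp [pO, Pi.single_apply, hj]
  · simp

theorem Q_nO (i : Fin m) : Cfsg.quadFormOdd m F (nO i) = -1 := by
  rw [Cfsg.quadFormOdd, Finset.sum_eq_single i]
  · simp [nO]
  · intro j _ hj
    simp [nO, Pi.single_apply, hj]
  · simp

open Cfsg.Agent.Lib.QuadSiegel Cfsg.Agent.Lib.Spinor Cfsg.Agent.Lib.Transvection in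
theorem tO_mulVec (hQ : Cfsg.Geo.IsNondegenerateQuadraticForm (Cfsg.quadFormOdd m F)) (i : Fin m)
    (x : Unit ⊕ (Fin m ⊕ Fin m) → F) (j : Unit ⊕ (Fin m ⊕ Fin m)) :
    ((((rfO hQ (pO i) * rfO hQ (nO i) : Cfsg.isometryGroup F (Cfsg.quadFormOdd m F)) : GL (Unit ⊕ (Fin m ⊕ Fin m)) F) :
        Matrix (Unit ⊕ (Fin m ⊕ Fin m)) (Unit ⊕ (Fin m ⊕ Fin m)) F) *ᵥ x) j =
      if Sum.elim (fun _ : Unit => (none : Option (Fin m))) (Sum.elim (fun l => some l) (fun l => some l)) j = some i then - x j else x j := by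
  have hp : Cfsg.quadFormOdd m F (pO i) ≠ 0 := by rw [Q_pO]; exact one_ne_zero
  have hn : Cfsg.quadFormOdd m F (nO i) ≠ 0 := by rw [Q_nO]; exact neg_ne_zero.2 one_ne_zero
  change ((rf hQ (pO i) * rf hQ (nO i) : GL (Unit ⊕ (Fin m ⊕ Fin m)) F).1 *ᵥ x) j = _
  rw [gl_mul_mulVec, rf_mulVec hQ hp, rf_mulVec hQ hn, Q_pO, Q_nO, polar_pO, polar_nO]
  rcases j with u | l | l
  · simp [pO, nO]
  · by_cases hk : l = i
    · subst hk
      simp [pO, nO]
      ring
    · simp [pO, nO, hk]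
  · by_cases hk : l = i
    · subst hk
      simp [pO, nO]
      ring
    · simp [pO, nO, hk]
end



/-- For the form x_0² + Σ x_j y_j on F^(2m+1), F finite with q elements, q odd, and 1 ≤ i ≤ m: the involution of determinant one negating the first i hyperbolic pairs (and fixing x_0 and the other pairs) lies in Ω_(2m+1)(q) (commutator subgroup of the orthogonal group) if and only if q^i ≡ 1 (mod 4); its (−1)-eigenspace is a hyperbolic 2i-space. -/
theorem result {F : Type*} [Field F] [Fintype F] {q : ℕ} (hF : Fintype.card F = q) (hq : Odd q) {m : ℕ} (i : ℕ) (hi : 1 ≤ i) (him : i ≤ m) : (∃ g : ↥(Cfsg.isometryGroup F (Cfsg.quadFormOdd m F)), g ∈ Cfsg.Omega F (Cfsg.quadFormOdd m F) ∧ ((g : Matrix.GeneralLinearGroup (Unit ⊕ (Fin m ⊕ Fin m)) F) : Matrix (Unit ⊕ (Fin m ⊕ Fin m)) (Unit ⊕ (Fin m ⊕ Fin m)) F) = Matrix.diagonal (fun k : Unit ⊕ (Fin m ⊕ Fin m) => if (Sum.elim (fun _ : Unit => i) (Sum.elim (fun j : Fin m => (j : ℕ)) (fun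 j : Fin m => (j : ℕ))) k) < i then (-1 : F) else 1)) ↔ q ^ i % 4 = 1 := by
  classical
  have h2 := Cfsg.Agent.Lib.Spinor2.two_ne_of_odd hF hq
  have hQ : Cfsg.Geo.IsNondegenerateQuadraticForm (Cfsg.quadFormOdd m F) := Cfsg.Agent.Lib.QuadStab.quadFormOdd_nondeg h2 m
  have hn : 2 ≤ Fintype.card (Unit ⊕ (Fin m ⊕ Fin m)) := by
    simp
    omega
  refine Cfsg.Agent.Lib.SpinorBlock.block_iff hQ hF hq hn
    (Sum.elim (fun _ : Unit => i) (Sum.elim (fun j : Fin m => (j : ℕ)) (fun j : Fin m => (j : ℕ)))) i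
    (fun k => pO ⟨k.1, by have := k.2; omega⟩)
    (fun k => nO ⟨k.1, by have := k.2; omega⟩)
    (fun k => Q_pO _) (fun k => Q_nO _) ?_
  intro k x j
  rw [tO_mulVec hQ]
  have : Sum.elim (fun _ : Unit => (none : Option (Fin m))) (Sum.elim (fun l => some l) (fun l => some l)) j = some ⟨k.1, by have := k.2; omega⟩ ↔
      Sum.elim (fun _ : Unit => i) (Sum.elim (fun j : Fin m => (j : ℕ)) (fun j : Fin m => (j : ℕ))) j = k.1 := by
    rcases j with u | l | l
    · have := k.2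
      simp
      omega
    · simp [Fin.ext_iff]
    · simp [Fin.ext_iff]
  simp only [this]

end Cfsg.Agent.S2614
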