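import Cfsg.Statements.S2615
import Cfsg.Agent.Lib.SpinorBlock
-- import your own Cfsg.Agent.* helpers here

set_option autoImplicit false
set_option linter.all false
open Cfsg

namespace Cfsg.Agent.S2615

/-- For an elliptic form Σ_(j<m−1) x_j y_j + (z₁² + a z₁z₂ + b z₂²) (anisotropic binary part) on F^(2m), F finite with q elements, q odd, and 1 ≤ i ≤ m − 1: the involution negating the first i hyperbolic pairs and fixing the rest lies in Ω⁻_2m(q) (commutator subgroup of the orthogonal group) if and only if q^i ≡ 1 (mod 4). -/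
theorem result {F : Type*} [Field F] [Fintype F] {q : ℕ} (hF : Fintype.card F = q) (hq : Odd q) {m : ℕ} (a b : F) (hab : ∀ z₁ z₂ : F, z₁ ^ 2 + a * z₁ * z₂ + b * z₂ ^ 2 = 0 → z₁ = 0 ∧ z₂ = 0) (i : ℕ) (hi : 1 ≤ i) (him : i + 1 ≤ m) : (∃ g : ↥(Cfsg.isometryGroup F (Cfsg.quadFormMinus (m - 1) F a b)), g ∈ Cfsg.Omega F (Cfsg.quadFormMinus (m - 1) F a b) ∧ ((g : Matrix.GeneralLinearGroup ((Fin (m - 1) ⊕ Fin (m - 1)) ⊕ Fin 2) F) : Matrix ((Fin (m - 1) ⊕ Fin (m - 1)) ⊕ Fin 2) ((Fin (m - 1) ⊕ Fin (m - 1)) ⊕ Fin 2) F) = Matrix.diagonal (fun k : (Fin (m - 1) ⊕ Fin (m - 1)) ⊕ Fin 2 => if (Sum.elim (Sum.elim (fun j : Fin (m - 1) => (j : ℕ)) (fun j : Fin (m - 1) => (j : ℕ))) (fun _ : Fin 2 => i) k) < i then (-1 : F) else 1)) ↔ q ^ i % 4 = 1 := by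
  classical
  have h2 := Cfsg.Agent.Lib.Spinor2.two_ne_of_odd hF hq
  have hQ : Cfsg.Geo.IsNondegenerateQuadraticForm (Cfsg.quadFormMinus (m - 1) F a b) :=
    Cfsg.Agent.Lib.Spinor2.quadFormMinus_nondeg (m - 1) a b h2 hab
  have hn : 2 ≤ Fintype.card ((Fin (m - 1) ⊕ Fin (m - 1)) ⊕ Fin 2) := by
    simp
  refine Cfsg.Agent.Lib.SpinorBlock.block_iff hQ hF hq hn
    (Sum.elim (Sum.elim (fun j : Fin (m - 1) => (j : ℕ)) (fun j : Fin (m - 1) => (j : ℕ))) (fun _ : Fin 2 => i)) i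
    (fun k => Cfsg.Agent.Lib.Spinor2.pM (m - 1) ⟨k.1, by have := k.2; omega⟩)
    (fun k => Cfsg.Agent.Lib.Spinor2.nM (m - 1) ⟨k.1, by have := k.2; omega⟩)
    (fun k => Cfsg.Agent.Lib.Spinor2.Q_pM (m - 1) a b _) (fun k => Cfsg.Agent.Lib.Spinor2.Q_nM (m - 1) a b _) ?_
  intro k x j
  rw [Cfsg.Agent.Lib.Spinor2.tM_some_mulVec (m - 1) a b hQ one_ne_zero]
  have : Cfsg.Agent.Lib.Spinor2.idxM (m - 1) j = some ⟨k.1, by have := k.2; omega⟩ ↔
      Sum.elim (Sum.elim (fun j : Fin (m - 1) => (j : ℕ)) (fun j : Fin (m - 1) => (j : ℕ))) (fun _ : Fin 2 => i) j = k.1 := by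
    rcases j with (l | l) | l
    · simp [Cfsg.Agent.Lib.Spinor2.idxM, Fin.ext_iff]
    · simp [Cfsg.Agent.Lib.Spinor2.idxM, Fin.ext_iff]
    · have := k.2
      simp [Cfsg.Agent.Lib.Spinor2.idxM]
      omega
  simp only [this]

end Cfsg.Agent.S2615
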