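import Cfsg.Statements.S2619

set_option autoImplicit false
open Cfsg

namespace Cfsg.Agent.S2619

/-- Over a finite field of characteristic two, given an alternating bilinear form B on a finite-dimensional space, a basis (v_i) and scalars (λ_i), there is exactly one quadratic form whose polar form is B and whose value at each v_i is λ_i. -/
theorem result {F V ι : Type*} [Field F] [Finite F] [CharP F 2] [AddCommGroup V] [Module F V] [Fintype ι] (b : Module.Basis ι F V) (B : LinearMap.BilinForm F V) (hB : B.IsAlt) (c : ι → F) : ∃! Q : QuadraticForm F V, QuadraticMap.polarBilin Q = B ∧ ∀ i, Q (b i) = c i := by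
  classical
  have h20 : (2 : F) = 0 := by exact_mod_cast CharP.cast_eq_zero F 2
  have hsymm : ∀ x y, B x y = B y x := by
    intro x y
    have := hB.neg_eq x y
    linear_combination this + (B x y) * h20
  obtain ⟨n, ⟨e⟩⟩ : ∃ n, Nonempty (ι ≃ Fin n) := ⟨_, ⟨Fintype.equivFin ι⟩⟩
  -- the upper triangular part
  set M : Matrix ι ι F := fun i j => if e i < e j then B (b i) (b j) else 0 with hM
  set B' : LinearMap.BilinForm F V := Matrix.toBilin b M with hB'
  have hB'b : ∀ i j, B' (b i) (b j) = M i j := by
    intro i j
    have := congrFun (congrFun (LinearMap.BilinForm.toMatrix_toBilin b M) i) j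
    rwa [LinearMap.BilinForm.toMatrix_apply] at this
  set Q₀ : QuadraticForm F V := LinearMap.BilinMap.toQuadraticMap B' with hQ₀
  set D : QuadraticForm F V := ∑ i, c i • QuadraticMap.linMulLin (b.coord i) (b.coord i) with hD
  have hDb : ∀ i, D (b i) = c i := by
    intro i
    rw [hD, QuadraticMap.sum_apply]
    simp only [QuadraticMap.smul_apply, QuadraticMap.linMulLin_apply, Module.Basis.coord_apply, Module.Basis.repr_self, Finsupp.single_apply]
    rw [Finset.sum_eq_single i]
    · simp
    · intro j _ hj
      simp [Ne.symm hj]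
    · simp
  have hDpolar : ∀ x y, QuadraticMap.polar D x y = 0 := by
    intro x y
    have h1 : ∀ v, D v = ∑ i, c i * (b.coord i v * b.coord i v) := by
      intro v
      rw [hD, QuadraticMap.sum_apply]
      simp only [QuadraticMap.smul_apply, QuadraticMap.linMulLin_apply, smul_eq_mul]
    rw [QuadraticMap.polar, h1, h1, h1, ← Finset.sum_sub_distrib, ← Finset.sum_sub_distrib]
    apply Finset.sum_eq_zero
    intro i _
    rw [map_add]
    linear_combination (c i * b.coord i x * b.coord i y) * h20
  have hpolar : ∀ x y, QuadraticMap.polar (⇑(Q₀ + D)) x y = B x y := by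
    intro x y
    have e1 : ⇑(Q₀ + D) = ⇑Q₀ + ⇑D := rfl
    rw [e1, QuadraticMap.polar_add, hDpolar, add_zero, hQ₀, LinearMap.BilinMap.polar_toQuadraticMap]
    -- compare bilinear forms on the basis
    have key : (B' + B'.flip) = B := by
      apply LinearMap.BilinForm.ext_basis b
      intro i j
      have h3 : (B' + B'.flip) (b i) (b j) = B' (b i) (b j) + B' (b j) (b i) := rfl
      rw [h3, hB'b, hB'b, hM]
      by_cases hij : e i < e j
      · have : ¬ e j < e i := not_lt.2 hij.le
        simp [hij, this]
      · by_cases hji : e j < e i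
        · simp [hij, hji, hsymm (b j) (b i)]
        · have : i = j := e.injective (le_antisymm (not_lt.1 hji) (not_lt.1 hij))
          subst this
          simp [hB.self_eq_zero]
    rw [← key]
    rfl
  refine ⟨Q₀ + D, ⟨?_, ?_⟩, ?_⟩
  · apply LinearMap.ext₂
    intro x y
    exact hpolar x y
  · intro i
    have e1 : (Q₀ + D) (b i) = Q₀ (b i) + D (b i) := rfl
    rw [e1, hDb, hQ₀]
    have : (LinearMap.BilinMap.toQuadraticMap B') (b i) = B' (b i) (b i) := rfl
    rw [this, hB'b, hM]
    simp
  · rintro Q' ⟨hQ'1, hQ'2⟩
    set Q₁ : QuadraticForm F V := Q₀ + D with hQ₁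
    have hval : ∀ i, Q₁ (b i) = c i := by
      intro i
      have e1 : (Q₀ + D) (b i) = Q₀ (b i) + D (b i) := rfl
      rw [hQ₁, e1, hDb, hQ₀]
      have : (LinearMap.BilinMap.toQuadraticMap B') (b i) = B' (b i) (b i) := rfl
      rw [this, hB'b, hM]
      simp
    have hpol' : ∀ x y, QuadraticMap.polar Q' x y = B x y := by
      intro x y
      have := congrFun (congrArg DFunLike.coe (congrFun (congrArg DFunLike.coe hQ'1) x)) y
      exact this
    have hall : ∀ v, Q' v = Q₁ v := by
      intro v
      have hv : v ∈ Submodule.span F (Set.range b) := by rw [b.span_eq]; trivial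
      induction hv using Submodule.span_induction with
      | mem x hx =>
        obtain ⟨i, rfl⟩ := hx
        rw [hQ'2, hval]
      | zero => simp
      | add x y _ _ hx hy =>
        have h1 := hpol' x y
        have h2 := hpolar x y
        simp only [QuadraticMap.polar] at h1 h2
        have : (Q₁ : V → F) (x + y) = (Q₀ + D) (x + y) := rfl
        have h3 : (Q₁ : V → F) x = (Q₀ + D) x := rfl
        have h4 : (Q₁ : V → F) y = (Q₀ + D) y := rfl
        rw [this] 
        linear_combination h1 - h2 + hx + hy - h3 - h4 + 0 * (B x y)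
      | smul a x _ hx =>
        rw [QuadraticMap.map_smul, QuadraticMap.map_smul, hx]
    exact QuadraticMap.ext hall

end Cfsg.Agent.S2619
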