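import Cfsg.Statements.S2622
import Cfsg.Agent.Lib.FormClass

set_option autoImplicit false
open Cfsg

namespace Cfsg.Agent.S2622

open Cfsg.Agent.Lib.FormClass in
theorem main {F V : Type*} [Field F] [Finite F] [CharP F 2] [AddCommGroup V] [Module F V] [FiniteDimensional F V]
    (B : LinearMap.BilinForm F V) (hS : ∀ x y, B x y = B y x) :
    ∀ (n : ℕ) (W : Submodule F V), Module.finrank F W = n + 1 → NondegOn B W → (∃ w ∈ W, B w w ≠ 0) →
      ∃ v : Fin (n + 1) → V, (∀ i, v i ∈ W) ∧ (∀ i j, i ≠ j → B (v i) (v j) = 0) ∧ (∀ i, B (v i) (v i) = 1) := by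
  have hS' : ∀ x y, (RingHom.id F) (B x y) = B y x := fun x y => hS x y
  have hch : (2 : F) = 0 := CharP.cast_eq_zero F 2
  -- adding a vector
  have hcons : ∀ (n : ℕ) (W : Submodule F V) (x : V), x ∈ W → B x x = 1 →
      (∃ v : Fin n → V, (∀ i, v i ∈ W ⊓ LinearMap.ker (B x)) ∧ (∀ i j, i ≠ j → B (v i) (v j) = 0) ∧ (∀ i, B (v i) (v i) = 1)) →
      ∃ v : Fin (n + 1) → V, (∀ i, v i ∈ W) ∧ (∀ i j, i ≠ j → B (v i) (v j) = 0) ∧ (∀ i, B (v i) (v i) = 1) := by
    rintro n W x hx hxx ⟨v, hv, horth, hone⟩
    refine ⟨Fin.cons x v, ?_, ?_, ?_⟩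
    · intro i
      refine Fin.cases ?_ (fun a => ?_) i
      · simpa using hx
      · simpa using (hv a).1
    · intro i j
      refine Fin.cases ?_ (fun a => ?_) i
      · refine Fin.cases ?_ (fun b => ?_) j
        · intro h; exact absurd rfl h
        · intro _
          simpa using (hv b).2
      · refine Fin.cases ?_ (fun b => ?_) j
        · intro _
          have h1 : B x (v a) = 0 := (hv a).2
          simp only [Fin.cons_succ, Fin.cons_zero]
          rw [hS, h1]
        · intro hab
          simp only [Fin.cons_succ]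
          exact horth a b (fun h => hab (by rw [h]))
    · intro i
      refine Fin.cases ?_ (fun a => ?_) i
      · simpa using hxx
      · simpa using hone a
  intro n
  induction n with
  | zero =>
    intro W hW hnd ⟨w, hw, hww⟩
    obtain ⟨c, hc⟩ := FiniteField.isSquare_of_char_two (F := F) (ringChar.eq F 2) (B w w)
    have hc0 : c ≠ 0 := by
      rintro rfl
      apply hww
      rw [hc, mul_zero]
    refine ⟨fun _ => c⁻¹ • w, fun _ => W.smul_mem _ hw, ?_, ?_⟩
    · intro i j hij
      exact absurd (Fin.ext (by have := i.2; have := j.2; omega)) hij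
    · intro _
      simp only [map_smul, LinearMap.smul_apply, smul_eq_mul, hc]
      field_simp
  | succ m ih =>
    intro W hW hnd ⟨w, hw, hww⟩
    obtain ⟨c, hc⟩ := FiniteField.isSquare_of_char_two (F := F) (ringChar.eq F 2) (B w w)
    have hc0 : c ≠ 0 := by
      rintro rfl
      apply hww
      rw [hc, mul_zero]
    obtain ⟨v0, hv0, hv0v0⟩ : ∃ v0 ∈ W, B v0 v0 = 1 := by
      refine ⟨c⁻¹ • w, W.smul_mem _ hw, ?_⟩
      simp only [map_smul, LinearMap.smul_apply, smul_eq_mul, hc]
      field_simp
    have hfin0 : Module.finrank F (W ⊓ LinearMap.ker (B v0) : Submodule F V) = m + 1 := by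
      have := finrank_inf_ker (W := W) (φ := B v0) hv0 (by rw [hv0v0]; exact one_ne_zero)
      omega
    have hnd0 := nondegOn_inf_ker (σ := RingHom.id F) (fun _ => rfl) hS' hnd hv0 (by rw [hv0v0]; exact one_ne_zero)
    by_cases halt : ∃ w' ∈ W ⊓ LinearMap.ker (B v0), B w' w' ≠ 0
    · exact hcons (m + 1) W v0 hv0 hv0v0 (ih _ hfin0 hnd0 halt)
    · push Not at halt
      -- `W0` is alternating
      obtain ⟨x, hx, hx0⟩ : ∃ x ∈ W ⊓ LinearMap.ker (B v0), x ≠ 0 := by
        by_contra hall
        push Not at hall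
        have : (W ⊓ LinearMap.ker (B v0) : Submodule F V) = ⊥ := (Submodule.eq_bot_iff _).mpr hall
        rw [this, finrank_bot] at hfin0
        omega
      obtain ⟨y0, hy0, hxy0⟩ : ∃ y ∈ W ⊓ LinearMap.ker (B v0), B x y ≠ 0 := by
        by_contra hall
        push Not at hall
        exact hx0 (hnd0 x hx hall)
      set y := (B x y0)⁻¹ • y0 with hy
      have hyW : y ∈ W ⊓ LinearMap.ker (B v0) := Submodule.smul_mem _ _ hy0
      have hxy : B x y = 1 := by
        rw [hy, map_smul, smul_eq_mul, inv_mul_cancel₀ hxy0]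
      have hv0x : B v0 x = 0 := hx.2
      have hv0y : B v0 y = 0 := hyW.2
      have hxv0 : B x v0 = 0 := by rw [hS, hv0x]
      have hyv0 : B y v0 = 0 := by rw [hS, hv0y]
      have hxx := halt x hx
      have hyy := halt y hyW
      -- the new vector
      have hv'v' : B (v0 + x) (v0 + x) = 1 := by
        simp only [map_add, LinearMap.add_apply, hv0v0, hv0x, hxv0, hxx]
        ring
      have hv'W : v0 + x ∈ W := W.add_mem hv0 hx.1
      have he2 : v0 + y ∈ W ⊓ LinearMap.ker (B (v0 + x)) := by
        refine ⟨W.add_mem hv0 hyW.1, ?_⟩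
        show B (v0 + x) (v0 + y) = 0
        simp only [map_add, LinearMap.add_apply, hv0v0, hv0y, hxv0, hxy]
        linear_combination hch
      have he2e2 : B (v0 + y) (v0 + y) = 1 := by
        simp only [map_add, LinearMap.add_apply, hv0v0, hv0y, hyv0, hyy]
        ring
      have hfin1 : Module.finrank F (W ⊓ LinearMap.ker (B (v0 + x)) : Submodule F V) = m + 1 := by
        have := finrank_inf_ker (W := W) (φ := B (v0 + x)) hv'W (by rw [hv'v']; exact one_ne_zero)
        omega
      have hnd1 := nondegOn_inf_ker (σ := RingHom.id F) (fun _ => rfl) hS' hnd hv'W (by rw [hv'v']; exact one_ne_zero)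
      exact hcons (m + 1) W (v0 + x) hv'W hv'v' (ih _ hfin1 hnd1 ⟨v0 + y, he2, by rw [he2e2]; exact one_ne_zero⟩)

/-- Over a finite field of characteristic two, a non-degenerate symmetric bilinear form that is not alternating (some vector v has B(v, v) ≠ 0) admits an orthonormal basis. -/
theorem result {F V : Type*} [Field F] [Finite F] [CharP F 2] [AddCommGroup V] [Module F V] [FiniteDimensional F V] {n : ℕ} (hV : Module.finrank F V = n) (B : LinearMap.BilinForm F V) (hS : B.IsSymm) (hB : B.Nondegenerate) (hna : ∃ v : V, B v v ≠ 0) : ∃ b : Module.Basis (Fin n) F V, ∀ i j, B (b i) (b j) = if i = j then 1 else 0 := by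
  classical
  obtain ⟨w, hw⟩ := hna
  have hS' : ∀ x y, B x y = B y x := fun x y => by simpa using hS.eq x y
  rcases n with _ | n
  · exfalso
    haveI := Module.finrank_zero_iff.mp hV
    rw [Subsingleton.elim w 0] at hw
    simp at hw
  have hnd : Cfsg.Agent.Lib.FormClass.NondegOn B (⊤ : Submodule F V) := by
    intro x _ hy
    exact hB.1 x (fun y => hy y trivial)
  obtain ⟨v, _, horth, hone⟩ := main B hS' n ⊤ (by rw [finrank_top, hV]) hnd ⟨w, trivial, hw⟩
  obtain ⟨b, hb⟩ := Cfsg.Agent.Lib.FormClass.exists_basis_of_orth (σ := RingHom.id F) (B := B) hV horth (fun i => by rw [hone i]; exact one_ne_zero)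
  refine ⟨b, fun i j => ?_⟩
  rw [hb, hb]
  by_cases hij : i = j
  · subst hij; simp [hone]
  · simp [hij, horth i j hij]

end Cfsg.Agent.S2622
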