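import Cfsg.Statements.S2625

set_option autoImplicit false
open Cfsg

namespace Cfsg.Agent.S2625

/-- For a quadratic form Q on F^n with non-degenerate polar form, F finite and n odd (so |F| is odd), the multiplier of any similarity is a square: if g is an invertible linear map with Q(g v) = c·Q(v) for all v then c is a square. -/
theorem result {F : Type*} [Field F] [Fintype F] {n : ℕ} (hn : Odd n) (Q : QuadraticForm F (Fin n → F)) (hQ : (QuadraticMap.polarBilin Q).Nondegenerate) (g : (Fin n → F) ≃ₗ[F] (Fin n → F)) (c : F) (hg : ∀ v, Q (g v) = c * Q v) : IsSquare c := by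
  classical
  by_cases hc : c = 0
  · subst hc; exact ⟨0, by simp⟩
  set B : LinearMap.BilinForm F (Fin n → F) := QuadraticMap.polarBilin Q with hBdef
  set G : (Fin n → F) →ₗ[F] (Fin n → F) := g.toLinearMap with hG
  have hB : LinearMap.BilinForm.comp B G G = c • B := by
    apply LinearMap.ext₂
    intro u v
    show QuadraticMap.polar Q (g u) (g v) = c * QuadraticMap.polar Q u v
    simp only [QuadraticMap.polar, ← map_add, hg]
    ring
  have h1 := congrArg LinearMap.BilinForm.toMatrix' hB
  rw [LinearMap.BilinForm.toMatrix'_comp, map_smul] at h1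
  have h2 := congrArg Matrix.det h1
  rw [Matrix.det_mul, Matrix.det_mul, Matrix.det_transpose, Matrix.det_smul, Fintype.card_fin] at h2
  have hdet : (LinearMap.BilinForm.toMatrix' B).det ≠ 0 :=
    Matrix.nondegenerate_iff_det_ne_zero.1 (LinearMap.BilinForm.Nondegenerate.toMatrix' (B := B) hQ)
  set d := (LinearMap.toMatrix' G).det
  have h3 : c ^ n = d * d := by
    apply mul_right_cancel₀ hdet
    rw [← h2]; ring
  obtain ⟨k, rfl⟩ := hn
  refine ⟨d / c ^ k, ?_⟩
  have hk : c ^ k ≠ 0 := pow_ne_zero _ hc
  field_simp
  linear_combination h3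

end Cfsg.Agent.S2625
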