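import Cfsg.Statements.S2626
import Mathlib

set_option autoImplicit false
open Cfsg

namespace Cfsg.Agent.S2626

/-- Ω of an orthogonal direct sum contains the product of the Ω's: for quadratic forms Q₁ on F^k and Q₂ on F^l with non-degenerate polar forms (F finite) and Q = Q₁ ⊕ Q₂ on F^(k+l), if g₁ lies in Ω(Q₁) and g₂ in Ω(Q₂) (commutator subgroups of the orthogonal groups) then the block-diagonal isometry diag(g₁, g₂) lies in Ω(Q). -/
theorem result {F : Type*} [Field F] [Fintype F] {k l : ℕ} (Q₁ : QuadraticForm F (Fin k → F)) (Q₂ : QuadraticForm F (Fin l → F)) (h₁ : (QuadraticMap.polarBilin Q₁).Nondegenerate) (h₂ : (QuadraticMap.polarBilin Q₂).Nondegenerate) (g₁ : ↥(Cfsg.isometryGroup F ⇑Q₁)) (g₂ : ↥(Cfsg.isometryGroup F ⇑Q₂)) (hg₁ : g₁ ∈ Cfsg.Omega F ⇑Q₁) (hg₂ : g₂ ∈ Cfsg.Omega F ⇑Q₂) : ∃ g : ↥(Cfsg.isometryGroup F (fun v : Fin k ⊕ Fin l → F => Q₁ (v ∘ Sum.inl) + Q₂ (v ∘ Sum.inr))), g ∈ Cfsg.Omega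 F (fun v : Fin k ⊕ Fin l → F => Q₁ (v ∘ Sum.inl) + Q₂ (v ∘ Sum.inr)) ∧ ((g : Matrix.GeneralLinearGroup (Fin k ⊕ Fin l) F) : Matrix (Fin k ⊕ Fin l) (Fin k ⊕ Fin l) F) = Matrix.fromBlocks ((g₁ : Matrix.GeneralLinearGroup (Fin k) F) : Matrix (Fin k) (Fin k) F) 0 0 ((g₂ : Matrix.GeneralLinearGroup (Fin l) F) : Matrix (Fin l) (Fin l) F) := by
  classical
  -- the block embedding
  let blk : Matrix.GeneralLinearGroup (Fin k) F × Matrix.GeneralLinearGroup (Fin l) F →* Matrix.GeneralLinearGroup (Fin k ⊕ Fin l) F :=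
    { toFun := fun p =>
        ⟨Matrix.fromBlocks (p.1 : Matrix (Fin k) (Fin k) F) 0 0 (p.2 : Matrix (Fin l) (Fin l) F),
         Matrix.fromBlocks ((p.1⁻¹ : Matrix.GeneralLinearGroup (Fin k) F) : Matrix (Fin k) (Fin k) F) 0 0 ((p.2⁻¹ : Matrix.GeneralLinearGroup (Fin l) F) : Matrix (Fin l) (Fin l) F),
         by simp [Matrix.fromBlocks_multiply, ← Matrix.fromBlocks_one],
         by simp [Matrix.fromBlocks_multiply, ← Matrix.fromBlocks_one]⟩
      map_one' := by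
        apply Units.ext
        simp [Matrix.fromBlocks_one]
      map_mul' := by
        intro a b
        apply Units.ext
        simp [Matrix.fromBlocks_multiply] }
  have hblk : ∀ p, ((blk p : Matrix.GeneralLinearGroup (Fin k ⊕ Fin l) F) : Matrix (Fin k ⊕ Fin l) (Fin k ⊕ Fin l) F) =
      Matrix.fromBlocks (p.1 : Matrix (Fin k) (Fin k) F) 0 0 (p.2 : Matrix (Fin l) (Fin l) F) := fun _ => rfl
  set Q' : (Fin k ⊕ Fin l → F) → F := fun v => Q₁ (v ∘ Sum.inl) + Q₂ (v ∘ Sum.inr) with hQ'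
  have hmem : ∀ (a : ↥(Cfsg.isometryGroup F ⇑Q₁)) (b : ↥(Cfsg.isometryGroup F ⇑Q₂)),
      blk ((a : Matrix.GeneralLinearGroup (Fin k) F), (b : Matrix.GeneralLinearGroup (Fin l) F)) ∈ Cfsg.isometryGroup F Q' := by
    intro a b u _
    show Q' ((Units.coeHom (Matrix (Fin k ⊕ Fin l) (Fin k ⊕ Fin l) F) (blk (a.1, b.1))).mulVec u) = Q' u
    have e1 : ∀ (u : Fin k ⊕ Fin l → F), (Units.coeHom (Matrix (Fin k ⊕ Fin l) (Fin k ⊕ Fin l) F) (blk (a.1, b.1))).mulVec u ∘ Sum.inl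
        = ((a.1 : Matrix.GeneralLinearGroup (Fin k) F) : Matrix (Fin k) (Fin k) F).mulVec (u ∘ Sum.inl) := by
      intro u
      funext i
      simp [hblk, Matrix.mulVec, dotProduct, Fintype.sum_sum_type]
    have e2 : ∀ (u : Fin k ⊕ Fin l → F), (Units.coeHom (Matrix (Fin k ⊕ Fin l) (Fin k ⊕ Fin l) F) (blk (a.1, b.1))).mulVec u ∘ Sum.inr
        = ((b.1 : Matrix.GeneralLinearGroup (Fin l) F) : Matrix (Fin l) (Fin l) F).mulVec (u ∘ Sum.inr) := by
      intro u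
      funext i
      simp [hblk, Matrix.mulVec, dotProduct, Fintype.sum_sum_type]
    simp only [hQ']
    rw [e1, e2]
    have h1 := a.2 (u ∘ Sum.inl) 0
    have h2 := b.2 (u ∘ Sum.inr) 0
    exact congrArg₂ (· + ·) h1 h2
  let φ : ↥(Cfsg.isometryGroup F ⇑Q₁) × ↥(Cfsg.isometryGroup F ⇑Q₂) →* ↥(Cfsg.isometryGroup F Q') :=
    { toFun := fun p => ⟨blk (p.1.1, p.2.1), hmem p.1 p.2⟩
      map_one' := by
        apply Subtype.ext
        exact blk.map_one
      map_mul' := by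
        intro a b
        apply Subtype.ext
        exact blk.map_mul (a.1.1, a.2.1) (b.1.1, b.2.1) }
  have hc1 : ∀ (f : ↥(Cfsg.isometryGroup F ⇑Q₁) →* ↥(Cfsg.isometryGroup F Q')) (x), x ∈ Cfsg.Omega F ⇑Q₁ → f x ∈ Cfsg.Omega F Q' := by
    intro f x hx
    have : (commutator _).map f ≤ commutator _ := by
      rw [commutator_def, commutator_def, Subgroup.map_commutator]
      exact Subgroup.commutator_mono le_top le_top
    exact this ⟨x, hx, rfl⟩
  have hc2 : ∀ (f : ↥(Cfsg.isometryGroup F ⇑Q₂) →* ↥(Cfsg.isometryGroup F Q')) (x), x ∈ Cfsg.Omega F ⇑Q₂ → f x ∈ Cfsg.Omega F Q' := by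
    intro f x hx
    have : (commutator _).map f ≤ commutator _ := by
      rw [commutator_def, commutator_def, Subgroup.map_commutator]
      exact Subgroup.commutator_mono le_top le_top
    exact this ⟨x, hx, rfl⟩
  refine ⟨φ (g₁, g₂), ?_, ?_⟩
  · have e : φ (g₁, g₂) = φ (g₁, 1) * φ (1, g₂) := by
      rw [← map_mul]
      simp
    rw [e]
    exact (Cfsg.Omega F Q').mul_mem (hc1 (φ.comp (MonoidHom.inl _ _)) g₁ hg₁) (hc2 (φ.comp (MonoidHom.inr _ _)) g₂ hg₂)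
  · rfl

end Cfsg.Agent.S2626
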