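import Cfsg.Statements.S2631
import Cfsg.Agent.Lib.QuadTrans
-- import your own Cfsg.Agent.* helpers here

set_option autoImplicit false
set_option linter.all false
open Cfsg

namespace Cfsg.Agent.S2631

/-- For the hyperbolic form Σ x_i y_i on F^(2m) over a finite field (m ≥ 1, excluding m = 2 over the field of two elements), Ω (the commutator subgroup of the orthogonal group) acts transitively on each of the two classes of maximal totally singular subspaces: if U and W are m-dimensional totally singular subspaces with m − dim(U ∩ W) even, some element of Ω carries U to W. -/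
theorem result {F : Type*} [Field F] [Fintype F] {m : ℕ} (hm : 1 ≤ m) (h : Fintype.card F ≠ 2 ∨ m ≠ 2) (U W : Submodule F (Fin m ⊕ Fin m → F)) (hU : Module.finrank F U = m) (hW : Module.finrank F W = m) (hU0 : ∀ u ∈ U, Cfsg.quadFormPlus m F u = 0) (hW0 : ∀ w ∈ W, Cfsg.quadFormPlus m F w = 0) (he : Even (m - Module.finrank F ↥(U ⊓ W))) : ∃ g : ↥(Cfsg.isometryGroup F (Cfsg.quadFormPlus m F)), g ∈ Cfsg.Omega F (Cfsg.quadFormPlus m F) ∧ U.map (Matrix.mulVecLin ((g : Matrix.GeneralLinearGroup (Fin m ⊕ Fin m) F) : Matrix (Fin m ⊕ Fin m) (Fin m ⊕ Fin m) F)) = W := by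
  classical
  have hQ : Cfsg.Geo.IsNondegenerateQuadraticForm (Cfsg.quadFormPlus m F) := Cfsg.Agent.Lib.QuadPlus.quadFormPlus_nondeg m
  have h' : Fintype.card F ≠ 2 ∨ Fintype.card (Fin m ⊕ Fin m) ≠ 4 := by
    rcases h with h | h
    · exact Or.inl h
    · right
      simp
      omega
  have hn : 1 ≤ Fintype.card (Fin m ⊕ Fin m) := by
    simp
    omega
  have hn2 : 2 ≤ Fintype.card (Fin m ⊕ Fin m) := by
    simp
    omega
  obtain ⟨h₀, hh⟩ := Cfsg.Agent.Lib.QuadTrans.exists_isom_totSing hQ (hU.trans hW.symm) hU0 hW0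
  have hT : Cfsg.Agent.Lib.QuadFamily.MaxTS (Cfsg.quadFormPlus m F) U := ⟨hU0, by
    rw [hU]
    simp
    ring⟩
  have hle : Module.finrank F ↥(U ⊓ W) ≤ m := by
    have := Submodule.finrank_mono (inf_le_left : U ⊓ W ≤ U)
    rwa [hU] at this
  have hε : Cfsg.Agent.Lib.QuadFamily.eps U (h₀ : Matrix.GeneralLinearGroup (Fin m ⊕ Fin m) F) = 0 := by
    unfold Cfsg.Agent.Lib.QuadFamily.eps
    rw [hh, ZMod.natCast_eq_zero_iff, ← even_iff_two_dvd, hU, Nat.even_add, ← Nat.even_sub hle]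
    exact he
  have hd := (Cfsg.Agent.Lib.QuadClass.eps_iff_dickson hQ h' hT h₀).1 hε
  by_cases h2 : (2 : F) = 0
  · haveI : CharP F 2 := CharTwo.of_one_ne_zero_of_two_eq_zero one_ne_zero h2
    refine ⟨h₀, ?_, ?_⟩
    · rw [Cfsg.Omega, Cfsg.Agent.Lib.QuadClass.comm_eq_dickson_fun hQ hn h', MonoidHom.mem_ker]
      exact hd
    · rw [Cfsg.Agent.Lib.QuadTrans.mulVecLin_eq, hh]
  · obtain ⟨θ, hθ⟩ : ∃ θ, Cfsg.Agent.Lib.Spinor.IsSpinor hQ θ := Cfsg.Agent.Lib.Spinor.exists_spinor hQ h2 hn2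
    have hdet : Cfsg.Agent.Lib.Spinor.detHom hQ (Cfsg.Agent.Lib.Spinor.top_ne h2) h2 h₀ = 1 := by
      rw [← Cfsg.Agent.Lib.QuadClass.dickson_eq_det hQ h2]
      exact hd
    have hW00 : W ≠ ⊥ := by
      rintro rfl
      simp at hW
      omega
    rcases Int.units_eq_one_or (θ h₀) with ht | ht
    · refine ⟨h₀, ?_, ?_⟩
      · rw [Cfsg.Omega, (Cfsg.Agent.Lib.Spinor.comm_eq hQ h2 hn2 hθ).1]
        exact ⟨hdet, ht⟩
      · rw [Cfsg.Agent.Lib.QuadTrans.mulVecLin_eq, hh]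
    · obtain ⟨s, hs, hsd, hsθ⟩ := Cfsg.Agent.Lib.QuadTrans.exists_stab_spinor hQ h2 hθ hW0 hW00
      refine ⟨s * h₀, ?_, ?_⟩
      · rw [Cfsg.Omega, (Cfsg.Agent.Lib.Spinor.comm_eq hQ h2 hn2 hθ).1]
        refine Subgroup.mem_inf.2 ⟨?_, ?_⟩
        · rw [MonoidHom.mem_ker, map_mul, hsd, hdet, one_mul]
        · rw [MonoidHom.mem_ker, map_mul, hsθ, ht]
          decide
      · rw [Cfsg.Agent.Lib.QuadTrans.mulVecLin_eq]
        change U.map (Cfsg.Agent.Lib.Transvection.glLin ((s : Matrix.GeneralLinearGroup (Fin m ⊕ Fin m) F) * (h₀ : Matrix.GeneralLinearGroup (Fin m ⊕ Fin m) F))) = W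
        rw [Cfsg.Agent.Lib.QuadTrans.map_mul_glLin, hh, hs]

end Cfsg.Agent.S2631
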