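import Cfsg.Statements.S2632
import Cfsg.Agent.Lib.QuadTrans
-- import your own Cfsg.Agent.* helpers here

set_option autoImplicit false
set_option linter.all false
open Cfsg

namespace Cfsg.Agent.S2632

/-- Ω is transitive on non-degenerate subspaces of each isometry type: for a quadratic form Q on F^n, n ≥ 3, with non-degenerate polar form (F finite; excluding dimension 4 over the field of two elements), if U and W are subspaces on which the polar form is non-degenerate and there is a Q-preserving linear isomorphism U → W, then some element of Ω (the commutator subgroup of the orthogonal group) carries U to W. (In dimension 2 this fails: Ω can be {±1}, which fixes every line.) -/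
theorem result {F : Type*} [Field F] [Fintype F] {n : ℕ} (hn : 3 ≤ n) (h : Fintype.card F ≠ 2 ∨ n ≠ 4) (Q : QuadraticForm F (Fin n → F)) (hQ : (QuadraticMap.polarBilin Q).Nondegenerate) (U W : Submodule F (Fin n → F)) (hU : U ⊓ LinearMap.BilinForm.orthogonal (QuadraticMap.polarBilin Q) U = ⊥) (hW : W ⊓ LinearMap.BilinForm.orthogonal (QuadraticMap.polarBilin Q) W = ⊥) (e : U ≃ₗ[F] W) (he : ∀ u : U, Q (e u : Fin n → F) = Q (u : Fin n → F)) : ∃ g : ↥(Cfsg.isometryGroup F ⇑Q), g ∈ Cfsg.Omega F ⇑Q ∧ U.map (Matrix.mulVecLin ((g : Matrix.GeneralLinearGroup (Fin n) F) : Matrix (Fin n) (Fin n) F)) = W := by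
  classical
  have hQ' := Cfsg.Agent.Lib.QuadRefl.nondeg_of_form Q hQ
  have h' : Fintype.card F ≠ 2 ∨ Fintype.card (Fin n) ≠ 4 := by simpa using h
  have hn1 : 1 ≤ Fintype.card (Fin n) := by
    simp
    omega
  have hn2 : 2 ≤ Fintype.card (Fin n) := by
    simp
    omega
  have horth : ∀ X : Submodule F (Fin n → F), LinearMap.BilinForm.orthogonal (QuadraticMap.polarBilin Q) X =
      Cfsg.Agent.Lib.QuadStab.orthQ hQ' X := by
    intro X
    ext x
    rw [LinearMap.BilinForm.mem_orthogonal_iff, Cfsg.Agent.Lib.QuadStab.mem_orthQ]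
    constructor
    · intro h3 t ht
      have := h3 t ht
      rw [QuadraticMap.polar_comm]
      exact this
    · intro h3 t ht
      have := h3 t ht
      rw [QuadraticMap.polar_comm] at this
      exact this
  rw [horth] at hU hW
  have hdim : Module.finrank F U = Module.finrank F W := e.finrank_eq
  by_cases hW0 : W = ⊥
  · have hUb : U = ⊥ := by
      rw [hW0, finrank_bot] at hdim
      exact Submodule.finrank_eq_zero.1 hdim
    refine ⟨1, Subgroup.one_mem _, ?_⟩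
    rw [hUb, hW0, Submodule.map_bot]
  obtain ⟨h₀, hh⟩ := Cfsg.Agent.Lib.QuadTrans.exists_isom_map hQ' U W e he
  have hfin : ∀ s : Cfsg.isometryGroup F ⇑Q, W.map (Cfsg.Agent.Lib.Transvection.glLin (s : Matrix.GeneralLinearGroup (Fin n) F)) = W →
      U.map (Matrix.mulVecLin (((s * h₀ : Cfsg.isometryGroup F ⇑Q) : Matrix.GeneralLinearGroup (Fin n) F) : Matrix (Fin n) (Fin n) F)) = W := by
    intro s hs
    rw [Cfsg.Agent.Lib.QuadTrans.mulVecLin_eq]
    change U.map (Cfsg.Agent.Lib.Transvection.glLin ((s : Matrix.GeneralLinearGroup (Fin n) F) * (h₀ : Matrix.GeneralLinearGroup (Fin n) F))) = W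
    rw [Cfsg.Agent.Lib.QuadTrans.map_mul_glLin, hh, hs]
  -- reflections in `W` and in its perpendicular space stabilize `W`
  have hrW : ∀ a ∈ W, Q a ≠ 0 → W.map (Cfsg.Agent.Lib.Transvection.glLin ((Cfsg.Agent.Lib.Spinor.rfO hQ' a : Cfsg.isometryGroup F ⇑Q) : Matrix.GeneralLinearGroup (Fin n) F)) = W := by
    intro a ha ha0
    apply Cfsg.Agent.Lib.QuadTrans.map_eq_of_le
    intro x hx
    rw [Cfsg.Agent.Lib.Spinor.rfO_coe, Cfsg.Agent.Lib.QuadSiegel.rf_mulVec hQ' ha0]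
    exact W.sub_mem hx (W.smul_mem _ ha)
  have hrP : ∀ a ∈ Cfsg.Agent.Lib.QuadStab.orthQ hQ' W, Q a ≠ 0 → W.map (Cfsg.Agent.Lib.Transvection.glLin ((Cfsg.Agent.Lib.Spinor.rfO hQ' a : Cfsg.isometryGroup F ⇑Q) : Matrix.GeneralLinearGroup (Fin n) F)) = W := by
    intro a ha ha0
    apply Cfsg.Agent.Lib.QuadTrans.map_eq_of_le
    intro x hx
    rw [Cfsg.Agent.Lib.Spinor.rfO_coe, Cfsg.Agent.Lib.QuadTrans.rf_fix hQ' ha ha0 hx]
    exact hx
  by_cases h2 : (2 : F) = 0
  · haveI : CharP F 2 := CharTwo.of_one_ne_zero_of_two_eq_zero one_ne_zero h2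
    have hcomm := Cfsg.Agent.Lib.QuadClass.comm_eq_dickson_fun hQ' hn1 h'
    obtain ⟨a, haW, ha⟩ := Cfsg.Agent.Lib.QuadTrans.exists_nonsing_in hQ' W hW hW0
    rcases Int.units_eq_one_or (Cfsg.Agent.Lib.Dickson.dickson hQ' h' h₀) with hd | hd
    · refine ⟨1 * h₀, ?_, hfin 1 (Cfsg.Agent.Lib.QuadTrans.map_one_glLin W)⟩
      rw [one_mul, Cfsg.Omega, hcomm, MonoidHom.mem_ker]
      exact hd
    · refine ⟨Cfsg.Agent.Lib.Spinor.rfO hQ' a * h₀, ?_, hfin _ (hrW a haW ha)⟩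
      rw [Cfsg.Omega, hcomm, MonoidHom.mem_ker, map_mul, hd, Cfsg.Agent.Lib.Dickson.dickson_rf hQ' h' ha]
      decide
  · obtain ⟨θ, hθ⟩ : ∃ θ, Cfsg.Agent.Lib.Spinor.IsSpinor hQ' θ := Cfsg.Agent.Lib.Spinor.exists_spinor hQ' h2 hn2
    have hF : ringChar F ≠ 2 := by
      intro h3
      apply h2
      have := ringChar.Nat.cast_ringChar (R := F)
      rw [h3] at this
      exact_mod_cast this
    obtain ⟨c, hc⟩ := FiniteField.exists_nonsquare hF
    have hc0 : c ≠ 0 := by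
      rintro rfl
      exact hc ⟨0, by simp⟩
    have hchi : quadraticChar F c = -1 := quadraticChar_neg_one_iff_not_isSquare.2 hc
    have hfd : Module.finrank F ↥(Cfsg.Agent.Lib.QuadStab.orthQ hQ' W) + Module.finrank F W = n := by
      have := Cfsg.Agent.Lib.QuadStab.finrank_orthQ hQ' W
      simpa using this
    -- elements of the perpendicular space
    have hPP : Cfsg.Agent.Lib.QuadStab.orthQ hQ' (Cfsg.Agent.Lib.QuadStab.orthQ hQ' W) = W := by
      symm
      apply Submodule.eq_of_le_of_finrank_eq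
      · intro x hx t ht
        rw [QuadraticMap.polar_comm]
        exact ht x hx
      · have h5 := Cfsg.Agent.Lib.QuadStab.finrank_orthQ hQ' (Cfsg.Agent.Lib.QuadStab.orthQ hQ' W)
        simp only [Fintype.card_fin] at h5
        omega
    have hP : Cfsg.Agent.Lib.QuadStab.orthQ hQ' W ⊓ Cfsg.Agent.Lib.QuadStab.orthQ hQ' (Cfsg.Agent.Lib.QuadStab.orthQ hQ' W) = ⊥ := by
      rw [hPP, inf_comm]
      exact hW
    have hfinal : ∀ a b : Fin n → F, Q a = 1 → Q b = c →
        W.map (Cfsg.Agent.Lib.Transvection.glLin ((Cfsg.Agent.Lib.Spinor.rfO hQ' a : Cfsg.isometryGroup F ⇑Q) : Matrix.GeneralLinearGroup (Fin n) F)) = W →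
        W.map (Cfsg.Agent.Lib.Transvection.glLin ((Cfsg.Agent.Lib.Spinor.rfO hQ' b : Cfsg.isometryGroup F ⇑Q) : Matrix.GeneralLinearGroup (Fin n) F)) = W →
        ∃ g : ↥(Cfsg.isometryGroup F ⇑Q), g ∈ Cfsg.Omega F ⇑Q ∧ U.map (Matrix.mulVecLin ((g : Matrix.GeneralLinearGroup (Fin n) F) : Matrix (Fin n) (Fin n) F)) = W := by
      intro a b ha hb hsa hsb
      have ha0 : Q a ≠ 0 := by
        rw [ha]
        exact one_ne_zero
      have hb0 : Q b ≠ 0 := by
        rw [hb]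
        exact hc0
      have hs₂ : W.map (Cfsg.Agent.Lib.Transvection.glLin (((Cfsg.Agent.Lib.Spinor.rfO hQ' a * Cfsg.Agent.Lib.Spinor.rfO hQ' b : Cfsg.isometryGroup F ⇑Q)) : Matrix.GeneralLinearGroup (Fin n) F)) = W :=
        Cfsg.Agent.Lib.QuadTrans.stab_mul hsa hsb
      have hs₂d : Cfsg.Agent.Lib.Spinor.detHom hQ' (Cfsg.Agent.Lib.Spinor.top_ne h2) h2 (Cfsg.Agent.Lib.Spinor.rfO hQ' a * Cfsg.Agent.Lib.Spinor.rfO hQ' b) = 1 := by
        rw [map_mul, Cfsg.Agent.Lib.Spinor.detHom_rf hQ' _ h2 ha0, Cfsg.Agent.Lib.Spinor.detHom_rf hQ' _ h2 hb0]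
        decide
      have hs₂θ : θ (Cfsg.Agent.Lib.Spinor.rfO hQ' a * Cfsg.Agent.Lib.Spinor.rfO hQ' b) = -1 := by
        apply Units.ext
        rw [map_mul, Units.val_mul, hθ _ ha0, hθ _ hb0, ha, hb, map_one, hchi]
        rfl
      obtain ⟨s, hs, hmem⟩ := Cfsg.Agent.Lib.QuadTrans.adjust_odd hQ' h2 hn2 hθ hsa
        (Cfsg.Agent.Lib.Spinor.detHom_rf hQ' _ h2 ha0) hs₂ hs₂d hs₂θ h₀
      exact ⟨s * h₀, hmem, hfin s hs⟩
    by_cases hd2 : 2 ≤ Module.finrank F W
    · obtain ⟨a, haX, ha⟩ := Cfsg.Agent.Lib.QuadTrans.exists_value_in hQ' h2 W hW hd2 1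
      obtain ⟨b, hbX, hb⟩ := Cfsg.Agent.Lib.QuadTrans.exists_value_in hQ' h2 W hW hd2 c
      exact hfinal a b ha hb (hrW a haX (by rw [ha]; exact one_ne_zero)) (hrW b hbX (by rw [hb]; exact hc0))
    · have hd3 : 2 ≤ Module.finrank F ↥(Cfsg.Agent.Lib.QuadStab.orthQ hQ' W) := by omega
      obtain ⟨a, haX, ha⟩ := Cfsg.Agent.Lib.QuadTrans.exists_value_in hQ' h2 _ hP hd3 1
      obtain ⟨b, hbX, hb⟩ := Cfsg.Agent.Lib.QuadTrans.exists_value_in hQ' h2 _ hP hd3 c
      exact hfinal a b ha hb (hrP a haX (by rw [ha]; exact one_ne_zero)) (hrP b hbX (by rw [hb]; exact hc0))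

end Cfsg.Agent.S2632
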