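import Cfsg.Statements.S2633
import Cfsg.Agent.Lib.QuadTrans
-- import your own Cfsg.Agent.* helpers here

set_option autoImplicit false
set_option linter.all false
open Cfsg

namespace Cfsg.Agent.S2633

/-- Ω is transitive on totally singular subspaces of each dimension less than half the dimension: for a quadratic form Q on F^n with non-degenerate polar form (F finite; excluding dimension 4 over the field of two elements), if U and W are subspaces of the same dimension k with 2k < n on which Q vanishes, then some element of Ω (the commutator subgroup of the orthogonal group) carries U to W. -/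
theorem result {F : Type*} [Field F] [Fintype F] {n : ℕ} (h : Fintype.card F ≠ 2 ∨ n ≠ 4) (Q : QuadraticForm F (Fin n → F)) (hQ : (QuadraticMap.polarBilin Q).Nondegenerate) (U W : Submodule F (Fin n → F)) {k : ℕ} (hk : 2 * k < n) (hU : Module.finrank F U = k) (hW : Module.finrank F W = k) (hU0 : ∀ u ∈ U, Q u = 0) (hW0 : ∀ w ∈ W, Q w = 0) : ∃ g : ↥(Cfsg.isometryGroup F ⇑Q), g ∈ Cfsg.Omega F ⇑Q ∧ U.map (Matrix.mulVecLin ((g : Matrix.GeneralLinearGroup (Fin n) F) : Matrix (Fin n) (Fin n) F)) = W := by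
  classical
  have hQ' := Cfsg.Agent.Lib.QuadRefl.nondeg_of_form Q hQ
  have h' : Fintype.card F ≠ 2 ∨ Fintype.card (Fin n) ≠ 4 := by simpa using h
  by_cases hk0 : k = 0
  · subst hk0
    have hUb : U = ⊥ := Submodule.finrank_eq_zero.1 hU
    have hWb : W = ⊥ := Submodule.finrank_eq_zero.1 hW
    refine ⟨1, Subgroup.one_mem _, ?_⟩
    rw [hUb, hWb, Submodule.map_bot]
  have hn1 : 1 ≤ Fintype.card (Fin n) := by
    simp
    omega
  have hn2 : 2 ≤ Fintype.card (Fin n) := by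
    simp
    omega
  obtain ⟨h₀, hh⟩ := Cfsg.Agent.Lib.QuadTrans.exists_isom_totSing hQ' (hU.trans hW.symm) hU0 hW0
  obtain ⟨a, haW, ha⟩ := Cfsg.Agent.Lib.QuadTrans.exists_nonsing_orth hQ' hW0 (by
    rw [hW]
    simpa using hk)
  have hs₁ : W.map (Cfsg.Agent.Lib.Transvection.glLin ((Cfsg.Agent.Lib.Spinor.rfO hQ' a : Cfsg.isometryGroup F ⇑Q) : Matrix.GeneralLinearGroup (Fin n) F)) = W := by
    apply Cfsg.Agent.Lib.QuadTrans.map_eq_of_le
    intro x hx
    have := Cfsg.Agent.Lib.QuadTrans.rf_fix hQ' haW ha hx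
    rw [Cfsg.Agent.Lib.Spinor.rfO_coe, this]
    exact hx
  have hfin : ∀ s : Cfsg.isometryGroup F ⇑Q, W.map (Cfsg.Agent.Lib.Transvection.glLin (s : Matrix.GeneralLinearGroup (Fin n) F)) = W →
      U.map (Matrix.mulVecLin (((s * h₀ : Cfsg.isometryGroup F ⇑Q) : Matrix.GeneralLinearGroup (Fin n) F) : Matrix (Fin n) (Fin n) F)) = W := by
    intro s hs
    rw [Cfsg.Agent.Lib.QuadTrans.mulVecLin_eq]
    change U.map (Cfsg.Agent.Lib.Transvection.glLin ((s : Matrix.GeneralLinearGroup (Fin n) F) * (h₀ : Matrix.GeneralLinearGroup (Fin n) F))) = W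
    rw [Cfsg.Agent.Lib.QuadTrans.map_mul_glLin, hh, hs]
  by_cases h2 : (2 : F) = 0
  · haveI : CharP F 2 := CharTwo.of_one_ne_zero_of_two_eq_zero one_ne_zero h2
    have hcomm := Cfsg.Agent.Lib.QuadClass.comm_eq_dickson_fun hQ' hn1 h'
    rcases Int.units_eq_one_or (Cfsg.Agent.Lib.Dickson.dickson hQ' h' h₀) with hd | hd
    · refine ⟨1 * h₀, ?_, hfin 1 (Cfsg.Agent.Lib.QuadTrans.map_one_glLin W)⟩
      rw [one_mul, Cfsg.Omega, hcomm, MonoidHom.mem_ker]
      exact hd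
    · refine ⟨Cfsg.Agent.Lib.Spinor.rfO hQ' a * h₀, ?_, hfin _ hs₁⟩
      rw [Cfsg.Omega, hcomm, MonoidHom.mem_ker, map_mul, hd, Cfsg.Agent.Lib.Dickson.dickson_rf hQ' h' ha]
      decide
  · obtain ⟨θ, hθ⟩ : ∃ θ, Cfsg.Agent.Lib.Spinor.IsSpinor hQ' θ := Cfsg.Agent.Lib.Spinor.exists_spinor hQ' h2 hn2
    have hW00 : W ≠ ⊥ := by
      rintro rfl
      simp at hW
      omega
    obtain ⟨s₂, hs₂, hs₂d, hs₂θ⟩ := Cfsg.Agent.Lib.QuadTrans.exists_stab_spinor hQ' h2 hθ hW0 hW00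
    obtain ⟨s, hs, hmem⟩ := Cfsg.Agent.Lib.QuadTrans.adjust_odd hQ' h2 hn2 hθ hs₁
      (Cfsg.Agent.Lib.Spinor.detHom_rf hQ' _ h2 ha) hs₂ hs₂d hs₂θ h₀
    exact ⟨s * h₀, hmem, hfin s hs⟩

end Cfsg.Agent.S2633
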