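import Cfsg.Statements.S2634
import Cfsg.Agent.Lib.QuadTrans
-- import your own Cfsg.Agent.* helpers here

set_option autoImplicit false
set_option linter.all false
open Cfsg

namespace Cfsg.Agent.S2634

/-- Over a finite field of characteristic two, Ω (the commutator subgroup of the orthogonal group of a quadratic form Q on F^n with non-degenerate polar form; excluding dimension 4 over the field of two elements) acts transitively on the non-singular 1-spaces: for u, v with Q(u) ≠ 0 and Q(v) ≠ 0 some element of Ω carries the line through u to the line through v. -/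
theorem result {F : Type*} [Field F] [Fintype F] [CharP F 2] {n : ℕ} (h : Fintype.card F ≠ 2 ∨ n ≠ 4) (Q : QuadraticForm F (Fin n → F)) (hQ : (QuadraticMap.polarBilin Q).Nondegenerate) (u v : Fin n → F) (hu : Q u ≠ 0) (hv : Q v ≠ 0) : ∃ g : ↥(Cfsg.isometryGroup F ⇑Q), g ∈ Cfsg.Omega F ⇑Q ∧ (F ∙ ((g : Matrix.GeneralLinearGroup (Fin n) F) : Matrix (Fin n) (Fin n) F).mulVec u) = F ∙ v := by
  classical
  have hQ' := Cfsg.Agent.Lib.QuadRefl.nondeg_of_form Q hQ
  have h' : Fintype.card F ≠ 2 ∨ Fintype.card (Fin n) ≠ 4 := by simpa using h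
  have hn' : 1 ≤ Fintype.card (Fin n) := by
    by_contra hcon
    have h0 : n = 0 := by
      simp at hcon
      exact hcon
    subst h0
    apply hu
    have : u = 0 := Subsingleton.elim _ _
    rw [this]
    exact QuadraticMap.map_zero Q
  have hu0 : u ≠ 0 := by
    rintro rfl
    exact hu (QuadraticMap.map_zero Q)
  have h2 : (2 : F) = 0 := by
    have := CharP.cast_eq_zero F 2
    exact_mod_cast this
  obtain ⟨c, hc⟩ := FiniteField.isSquare_of_char_two (ringChar.eq F 2) (Q u / Q v)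
  have hc0 : c ≠ 0 := by
    rintro rfl
    rw [mul_zero, div_eq_zero_iff] at hc
    exact hc.elim hu hv
  have hQc : Q (c • v) = Q u := by
    rw [QuadraticMap.map_smul, smul_eq_mul]
    have h3 : c * c = Q u / Q v := hc.symm
    rw [h3]
    field_simp
  have hv0 : c • v ≠ 0 := by
    intro h0
    rw [h0] at hQc
    rw [QuadraticMap.map_zero] at hQc
    exact hu hQc.symm
  obtain ⟨g, hg, hgu⟩ := Cfsg.Agent.Lib.Dickson.witt_move Q hQ hu0 hv0 hQc.symm
  have hspan : (F ∙ (c • v)) = F ∙ v := Submodule.span_singleton_smul_eq (IsUnit.mk0 c hc0) v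
  let g' : Cfsg.isometryGroup F ⇑Q := ⟨g, Cfsg.Agent.Lib.QuadSiegel.mem_isometryGroup_iff.2 hg⟩
  have hcomm := Cfsg.Agent.Lib.QuadClass.comm_eq_dickson_fun hQ' hn' h'
  rcases Int.units_eq_one_or (Cfsg.Agent.Lib.Dickson.dickson hQ' h' g') with hd | hd
  · refine ⟨g', ?_, ?_⟩
    · rw [Cfsg.Omega, hcomm, MonoidHom.mem_ker]
      exact hd
    · show (F ∙ ((g : Matrix (Fin n) (Fin n) F)).mulVec u) = F ∙ v
      rw [hgu, hspan]
  · refine ⟨Cfsg.Agent.Lib.Spinor.rfO hQ' v * g', ?_, ?_⟩
    · rw [Cfsg.Omega, hcomm, MonoidHom.mem_ker, map_mul, hd, Cfsg.Agent.Lib.Dickson.dickson_rf hQ' h' hv]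
      decide
    · have h5 : (((Cfsg.Agent.Lib.Spinor.rfO hQ' v * g' : Cfsg.isometryGroup F ⇑Q) : Matrix.GeneralLinearGroup (Fin n) F) : Matrix (Fin n) (Fin n) F).mulVec u = c • v := by
        change (((Cfsg.Agent.Lib.QuadSiegel.rf hQ' v * g : Matrix.GeneralLinearGroup (Fin n) F)) : Matrix (Fin n) (Fin n) F).mulVec u = _
        rw [Cfsg.Agent.Lib.Transvection.gl_mul_mulVec, hgu, Cfsg.Agent.Lib.QuadSiegel.rf_mulVec hQ' hv,
          Cfsg.Agent.Lib.QuadBase.pol_smul_left hQ', Cfsg.Agent.Lib.QuadBase.pol_self hQ', h2]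
        simp
      rw [h5, hspan]

end Cfsg.Agent.S2634
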