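import Cfsg.Statements.S2635
import Cfsg.Agent.Lib.QuadTrans
-- import your own Cfsg.Agent.* helpers here

set_option autoImplicit false
set_option linter.all false
open Cfsg

namespace Cfsg.Agent.S2635

/-- Over a finite field of characteristic two, for a quadratic form Q on F^n with non-degenerate polar form, n ≥ 2, other than dimension 4 over the field of two elements, Ω (the commutator subgroup of the orthogonal group) is exactly the subgroup generated by the products of two reflections (orthogonal transvections) x ↦ x − Q(v)⁻¹ f(x, v) v, Q(v) ≠ 0: the products of an even number of reflections. -/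
theorem result {F : Type*} [Field F] [Fintype F] [CharP F 2] {n : ℕ} (hn : 2 ≤ n) (h : Fintype.card F ≠ 2 ∨ n ≠ 4) (Q : QuadraticForm F (Fin n → F)) (hQ : (QuadraticMap.polarBilin Q).Nondegenerate) : Cfsg.Omega F ⇑Q = Subgroup.closure {g : ↥(Cfsg.isometryGroup F ⇑Q) | ∃ u v : Fin n → F, Q u ≠ 0 ∧ Q v ≠ 0 ∧ ((g : Matrix.GeneralLinearGroup (Fin n) F) : Matrix (Fin n) (Fin n) F) = Cfsg.reflectionMatrix ⇑Q u * Cfsg.reflectionMatrix ⇑Q v} := by
  classical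
  have hQ' := Cfsg.Agent.Lib.QuadRefl.nondeg_of_form Q hQ
  have h' : Fintype.card F ≠ 2 ∨ Fintype.card (Fin n) ≠ 4 := by simpa using h
  have hn' : 1 ≤ Fintype.card (Fin n) := by
    simp
    omega
  obtain ⟨a₀, ha₀⟩ := Cfsg.Agent.Lib.Spinor.exists_nonsing hQ' hn'
  have h3 := Cfsg.Agent.Lib.QuadTrans.ker_eq_closure_pairs {s : Cfsg.isometryGroup F ⇑Q | ∃ a, Q a ≠ 0 ∧ s = Cfsg.Agent.Lib.Spinor.rfO hQ' a}
    (Cfsg.Agent.Lib.QuadTrans.closure_rf_eq_top hQ' h') (by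
      rintro _ ⟨a, -, rfl⟩
      exact Cfsg.Agent.Lib.Spinor.rfO_mul_self hQ' a)
    (Cfsg.Agent.Lib.Dickson.dickson hQ' h') (by
      rintro _ ⟨a, ha, rfl⟩
      exact Cfsg.Agent.Lib.Dickson.dickson_rf hQ' h' ha) (s₀ := Cfsg.Agent.Lib.Spinor.rfO hQ' a₀) ⟨a₀, ha₀, rfl⟩
  rw [Cfsg.Omega, Cfsg.Agent.Lib.QuadClass.comm_eq_dickson_fun hQ' hn' h', h3]
  congr 1
  ext g
  constructor
  · rintro ⟨_, ⟨u, hu, rfl⟩, _, ⟨v, hv, rfl⟩, rfl⟩
    refine ⟨u, v, hu, hv, ?_⟩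
    rw [← Cfsg.Agent.Lib.QuadRefl.rf_val hQ' hu, ← Cfsg.Agent.Lib.QuadRefl.rf_val hQ' hv]
    rfl
  · rintro ⟨u, v, hu, hv, he⟩
    refine ⟨_, ⟨u, hu, rfl⟩, _, ⟨v, hv, rfl⟩, ?_⟩
    apply Subtype.ext
    apply Units.ext
    rw [he, ← Cfsg.Agent.Lib.QuadRefl.rf_val hQ' hu, ← Cfsg.Agent.Lib.QuadRefl.rf_val hQ' hv]
    rfl

end Cfsg.Agent.S2635
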