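import Cfsg.Statements.S2636
import Mathlib

set_option autoImplicit false
open Cfsg

namespace Cfsg.Agent.S2636


theorem card_fix {F : Type*} [Field F] [Fintype F] {q₀ r : ℕ} (hr : r.Prime)
    (hF : Fintype.card F = q₀ ^ r) (σ : F ≃+* F) (hσ : orderOf σ = r) :
    Nat.card (FixedPoints.subfield (Subgroup.zpowers σ) F) = q₀ := by
  classical
  haveI : Finite (F ≃+* F) := Finite.of_injective (fun τ : F ≃+* F => τ.toEquiv) (fun a b h => by
    ext x
    exact congrArg (fun e : F ≃ F => e x) h)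
  haveI : Fintype (Subgroup.zpowers σ) := Fintype.ofFinite _
  have h1 : Module.finrank (FixedPoints.subfield (Subgroup.zpowers σ) F) F = r := by
    rw [FixedPoints.finrank_eq_card, ← Nat.card_eq_fintype_card, Nat.card_zpowers, hσ]
  haveI : Fintype (FixedPoints.subfield (Subgroup.zpowers σ) F) := Fintype.ofFinite _
  have h2 := Module.card_eq_pow_finrank (K := FixedPoints.subfield (Subgroup.zpowers σ) F) (V := F)
  rw [h1, hF] at h2
  rw [Nat.card_eq_fintype_card]
  exact (Nat.pow_left_injective hr.ne_zero h2).symm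

theorem mem_fix {F : Type*} [Field F] (σ : F ≃+* F) (x : F) :
    x ∈ FixedPoints.subfield (Subgroup.zpowers σ) F ↔ σ x = x := by
  constructor
  · intro h
    exact h ⟨σ, Subgroup.mem_zpowers σ⟩
  · intro h τ
    have h1 : σ ∈ MulAction.stabilizer (F ≃+* F) x := h
    have h2 : Subgroup.zpowers σ ≤ MulAction.stabilizer (F ≃+* F) x :=
      (Subgroup.zpowers_le).2 h1
    exact h2 τ.2

/-- scalar matrices. -/
noncomputable def sc {F : Type*} [Field F] (n : ℕ) : Fˣ →* GL (Fin n) F :=
  Units.map (Matrix.scalar (Fin n)).toMonoidHom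

theorem sc_mul {F : Type*} [Field F] (n : ℕ) (u : Fˣ) (g : GL (Fin n) F) (i j : Fin n) :
    (sc n u * g).1 i j = (u : F) * g.1 i j := by
  show (Matrix.scalar (Fin n) (u : F) * g.1) i j = _
  rw [Matrix.scalar_apply, Matrix.diagonal_mul]

theorem card_fixGL {F : Type*} [Field F] [Fintype F] {q₀ r : ℕ} (hr : r.Prime)
    (hF : Fintype.card F = q₀ ^ r) (σ : F ≃+* F) (hσ : orderOf σ = r) (n : ℕ) :
    Nat.card {g : GL (Fin n) F // ∀ i j, σ (g.1 i j) = g.1 i j}
      = ∏ i : Fin n, (q₀ ^ n - q₀ ^ (i : ℕ)) := by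
  classical
  set F₀ := FixedPoints.subfield (Subgroup.zpowers σ) F with hF₀
  haveI : Fintype F₀ := Fintype.ofFinite _
  have hc : Fintype.card F₀ = q₀ := by
    rw [← Nat.card_eq_fintype_card]
    exact card_fix hr hF σ hσ
  have h1 := Matrix.card_GL_field (𝔽 := F₀) n
  rw [hc] at h1
  rw [← h1]
  symm
  let f : GL (Fin n) F₀ → {g : GL (Fin n) F // ∀ i j, σ (g.1 i j) = g.1 i j} := fun h =>
    ⟨Matrix.GeneralLinearGroup.map F₀.subtype h, fun i j => (mem_fix σ _).1 (h.1 i j).2⟩
  apply Nat.card_eq_of_bijective f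
  constructor
  · intro a b hab
    apply Units.ext
    ext i j
    have := congrArg (fun g : {g : GL (Fin n) F // ∀ i j, σ (g.1 i j) = g.1 i j} => g.1.1 i j) hab
    exact this
  · rintro ⟨g, hg⟩
    have hginv : ∀ i j, σ ((g⁻¹).1 i j) = (g⁻¹).1 i j := by
      have h2 : Matrix.GeneralLinearGroup.map (σ : F →+* F) g = g := by
        apply Units.ext
        ext i j
        exact hg i j
      intro i j
      have h3 : Matrix.GeneralLinearGroup.map (σ : F →+* F) g⁻¹ = g⁻¹ := by
        rw [map_inv, h2]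
      have := congrArg (fun x : GL (Fin n) F => x.1 i j) h3
      exact this
    let m : Matrix (Fin n) (Fin n) F₀ := Matrix.of fun i j => ⟨g.1 i j, (mem_fix σ _).2 (hg i j)⟩
    let m' : Matrix (Fin n) (Fin n) F₀ := Matrix.of fun i j =>
      ⟨(g⁻¹).1 i j, (mem_fix σ _).2 (hginv i j)⟩
    have hinj : Function.Injective (fun x : Matrix (Fin n) (Fin n) F₀ => x.map F₀.subtype) := by
      intro a b hab
      ext i j
      have := congrFun (congrFun hab i) j
      exact this
    have hmap : ∀ a b : Matrix (Fin n) (Fin n) F₀, (a * b).map F₀.subtype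
        = a.map F₀.subtype * b.map F₀.subtype := fun a b =>
      Matrix.map_mul (f := F₀.subtype) (L := a) (M := b)
    have hm1 : m.map F₀.subtype = g.1 := by ext i j; rfl
    have hm2 : m'.map F₀.subtype = (g⁻¹).1 := by ext i j; rfl
    have h11 : m * m' = 1 := by
      apply hinj
      show (m * m').map F₀.subtype = (1 : Matrix (Fin n) (Fin n) F₀).map F₀.subtype
      rw [hmap, hm1, hm2, Matrix.map_one _ (map_zero _) (map_one _)]
      exact congrArg (fun x : GL (Fin n) F => x.1) (mul_inv_cancel g)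
    have h12 : m' * m = 1 := by
      apply hinj
      show (m' * m).map F₀.subtype = (1 : Matrix (Fin n) (Fin n) F₀).map F₀.subtype
      rw [hmap, hm1, hm2, Matrix.map_one _ (map_zero _) (map_one _)]
      exact congrArg (fun x : GL (Fin n) F => x.1) (inv_mul_cancel g)
    refine ⟨⟨m, m', h11, h12⟩, ?_⟩
    apply Subtype.ext
    apply Units.ext
    exact hm1

/-- the Hilbert 90 map -/
noncomputable def hm {F : Type*} [Field F] (σ : F ≃+* F) : Fˣ →* Fˣ where
  toFun u := Units.map (σ : F →* F) u / u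
  map_one' := by simp
  map_mul' a b := by
    simp only [map_mul]
    rw [div_mul_div_comm]

theorem hm_val {F : Type*} [Field F] (σ : F ≃+* F) (u : Fˣ) :
    ((hm σ u : Fˣ) : F) * u = σ u := by
  show ((Units.map (σ : F →* F) u / u : Fˣ) : F) * u = _
  have : (Units.map (σ : F →* F) u / u : Fˣ) * u = Units.map (σ : F →* F) u := div_mul_cancel _ _
  exact congrArg (fun x : Fˣ => (x : F)) this

theorem card_range {F : Type*} [Field F] [Fintype F] {q₀ r : ℕ} (hr : r.Prime)
    (hF : Fintype.card F = q₀ ^ r) (σ : F ≃+* F) (hσ : orderOf σ = r) :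
    Nat.card (hm σ).range * (q₀ - 1) = q₀ ^ r - 1 := by
  classical
  set F₀ := FixedPoints.subfield (Subgroup.zpowers σ) F with hF₀
  haveI : Fintype F₀ := Fintype.ofFinite _
  have hc : Fintype.card F₀ = q₀ := by
    rw [← Nat.card_eq_fintype_card]
    exact card_fix hr hF σ hσ
  have h1 : Nat.card (hm σ).ker = q₀ - 1 := by
    rw [← hc, ← Fintype.card_units, ← Nat.card_eq_fintype_card]
    symm
    let f : F₀ˣ → (hm σ).ker := fun w => ⟨Units.map (F₀.subtype : F₀ →* F) w, by
      rw [MonoidHom.mem_ker]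
      apply Units.ext
      have h2 := hm_val σ (Units.map (F₀.subtype : F₀ →* F) w)
      have h3 : σ ((Units.map (F₀.subtype : F₀ →* F) w : Fˣ) : F)
          = ((Units.map (F₀.subtype : F₀ →* F) w : Fˣ) : F) := (mem_fix σ _).1 (w : F₀).2
      rw [h3] at h2
      have h4 : ((Units.map (F₀.subtype : F₀ →* F) w : Fˣ) : F) ≠ 0 := Units.ne_zero _
      exact mul_right_cancel₀ h4 (by rw [h2, Units.val_one, one_mul])⟩
    apply Nat.card_eq_of_bijective f
    constructor
    · intro a b hab
      apply Units.ext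
      apply Subtype.ext
      have := congrArg (fun x : (hm σ).ker => ((x.1 : Fˣ) : F)) hab
      exact this
    · rintro ⟨u, hu⟩
      have hu2 : σ (u : F) = u := by
        rw [← hm_val σ u, MonoidHom.mem_ker.1 hu, Units.val_one, one_mul]
      have hne : (⟨(u : F), (mem_fix σ _).2 hu2⟩ : F₀) ≠ 0 := by
        intro h
        exact u.ne_zero (congrArg Subtype.val h)
      refine ⟨Units.mk0 _ hne, ?_⟩
      apply Subtype.ext
      apply Units.ext
      rfl
  rw [← h1]
  have h2 := Subgroup.card_mul_index (hm σ).ker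
  rw [Subgroup.index_ker, Nat.card_eq_fintype_card (α := Fˣ), Fintype.card_units, hF] at h2
  rw [mul_comm]
  exact h2



/-- Centraliser of a field automorphism in PGL_n: let F be the field with q = q₀^r elements, σ a field automorphism of F of prime order r (so its fixed field has q₀ elements) and n ≥ 1. The invertible matrices g whose entrywise image under σ is a scalar multiple of g — those whose coset modulo scalars is fixed by σ — number (q − 1)/(q₀ − 1) · |GL_n(q₀)|; equivalently the centraliser in PGL_n(q) of the induced automorphism has the order of PGL_n(q₀). -/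
theorem result {F : Type*} [Field F] [Fintype F] {q₀ r n : ℕ} (hr : r.Prime) (hn : 1 ≤ n) (hF : Fintype.card F = q₀ ^ r) (σ : F ≃+* F) (hσ : orderOf σ = r) : Nat.card {g : GL (Fin n) F // ∃ c : F, c ≠ 0 ∧ (g : Matrix (Fin n) (Fin n) F).map σ = c • (g : Matrix (Fin n) (Fin n) F)} = (q₀ ^ r - 1) / (q₀ - 1) * ∏ i : Fin n, (q₀ ^ n - q₀ ^ (i : ℕ)) := by
  classical
  have hF0 : 2 ≤ q₀ := by
    have h2 : 1 < Fintype.card F := Fintype.one_lt_card
    rw [hF] at h2
    rcases q₀ with _ | _ | q₀
    · rw [zero_pow hr.ne_zero] at h2; omega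
    · simp at h2
    · omega
  haveI : Nonempty (Fin n) := ⟨⟨0, by omega⟩⟩
  have hr2 := card_range hr hF σ hσ
  have hA : Nat.card (hm σ).range = (q₀ ^ r - 1) / (q₀ - 1) :=
    Nat.eq_div_of_mul_eq_left (by omega) hr2
  rw [← hA, ← card_fixGL hr hF σ hσ n, ← Nat.card_prod]
  symm
  have hnz : ∀ g : GL (Fin n) F, ∃ i j, g.1 i j ≠ 0 := by
    intro g
    by_contra hcon
    push_neg at hcon
    have h0 : g.1 = 0 := by ext i j; exact hcon i j
    have h1 : g.1 * (g⁻¹).1 = 1 := congrArg (fun x : GL (Fin n) F => x.1) (mul_inv_cancel g)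
    rw [h0, zero_mul] at h1
    exact zero_ne_one h1
  let s : (hm σ).range → Fˣ := fun c => c.2.choose
  have hs : ∀ c, hm σ (s c) = c.1 := fun c => c.2.choose_spec
  have hcs : ∀ c : (hm σ).range, (c.1 : F) * (s c : F) = σ (s c : F) := by
    intro c
    rw [← hm_val σ (s c), hs]
  let B : (hm σ).range × {g : GL (Fin n) F // ∀ i j, σ (g.1 i j) = g.1 i j} →
      {g : GL (Fin n) F // ∃ c : F, c ≠ 0 ∧ (g : Matrix (Fin n) (Fin n) F).map σ
        = c • (g : Matrix (Fin n) (Fin n) F)} := fun x =>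
    ⟨sc n (s x.1) * x.2.1, (x.1.1 : F), Units.ne_zero _, by
      ext i j
      rw [Matrix.map_apply, Matrix.smul_apply, sc_mul, map_mul, x.2.2, ← hcs, smul_eq_mul]
      ring⟩
  apply Nat.card_eq_of_bijective B
  constructor
  · rintro ⟨c, h⟩ ⟨c', h'⟩ hab
    have h1 : sc n (s c) * h.1 = sc n (s c') * h'.1 := congrArg Subtype.val hab
    have h2 : ∀ i j, (s c : F) * h.1.1 i j = (s c' : F) * h'.1.1 i j := by
      intro i j
      have := congrArg (fun x : GL (Fin n) F => x.1 i j) h1
      simpa only [sc_mul] using this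
    obtain ⟨i, j, hij⟩ := hnz h.1
    have h3 := congrArg σ (h2 i j)
    rw [map_mul, map_mul, h.2, h'.2, ← hcs, ← hcs] at h3
    have h4 : (c.1 : F) * ((s c : F) * h.1.1 i j) = (c'.1 : F) * ((s c' : F) * h'.1.1 i j) := by
      linear_combination h3
    rw [← h2 i j] at h4
    have h5 : (s c : F) * h.1.1 i j ≠ 0 := mul_ne_zero (Units.ne_zero _) hij
    have h6 : (c.1 : F) = c'.1 := mul_right_cancel₀ h5 h4
    have h7 : c = c' := Subtype.ext (Units.ext h6)
    subst h7
    have h8 : h.1 = h'.1 := mul_left_cancel h1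
    rw [Subtype.ext h8]
  · rintro ⟨g, c, hc, hg⟩
    obtain ⟨i, j, hij⟩ := hnz g
    have hentry : ∀ i j, σ (g.1 i j) = c * g.1 i j := by
      intro i j
      have := congrFun (congrFun hg i) j
      simpa using this
    let x : Fˣ := Units.mk0 _ hij
    let cU : Fˣ := Units.mk0 c hc
    have hψ : hm σ x = cU := by
      apply Units.ext
      have h1 := hm_val σ x
      have h2 : ((x : Fˣ) : F) = g.1 i j := rfl
      rw [h2, hentry] at h1
      exact mul_right_cancel₀ hij h1
    let c0 : (hm σ).range := ⟨cU, ⟨x, hψ⟩⟩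
    let u := s c0
    have hu : (c : F) * (u : F) = σ (u : F) := hcs c0
    let h : {g : GL (Fin n) F // ∀ i j, σ (g.1 i j) = g.1 i j} := ⟨sc n u⁻¹ * g, by
      intro i j
      rw [sc_mul, map_mul, hentry]
      have h2 : σ ((u⁻¹ : Fˣ) : F) * σ (u : F) = 1 := by
        rw [← map_mul, Units.inv_mul, map_one]
      rw [← hu] at h2
      have hun : (u : F) ≠ 0 := Units.ne_zero _
      have hinv : ((u⁻¹ : Fˣ) : F) * (u : F) = 1 := Units.inv_mul _
      have h3 : σ ((u⁻¹ : Fˣ) : F) * c = ((u⁻¹ : Fˣ) : F) := by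
        apply mul_right_cancel₀ hun
        rw [hinv, ← h2]; ring
      calc σ ((u⁻¹ : Fˣ) : F) * (c * g.1 i j) = (σ ((u⁻¹ : Fˣ) : F) * c) * g.1 i j := by ring
        _ = _ := by rw [h3]⟩
    refine ⟨⟨c0, h⟩, ?_⟩
    apply Subtype.ext
    show sc n u * (sc n u⁻¹ * g) = g
    rw [← mul_assoc, ← map_mul, mul_inv_cancel, map_one, one_mul]

end Cfsg.Agent.S2636
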