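import Cfsg.Statements.S2638
import Cfsg.Agent.Lib.Transvection

set_option autoImplicit false
open Cfsg

namespace Cfsg.Agent.S2638

open Polynomial in
/-- the degree of an irreducible factor of the cyclotomic polynomial -/
theorem deg_factor {F : Type*} [Field F] [Fintype F] {p q : ℕ} [Fact p.Prime] [CharP F p] (hF : Fintype.card F = q)
    {n r : ℕ} (hr : r.Prime) (hrp : r ≠ p) (hi : orderOf (q : ZMod r) = n)
    (g : F[X]) (hg : Irreducible g) (hgd : g ∣ ∑ i ∈ Finset.range r, (X : F[X]) ^ i) : n ≤ g.natDegree := by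
  classical
  haveI : Fact (Irreducible g) := ⟨hg⟩
  have hg0 : g ≠ 0 := hg.ne_zero
  let α : AdjoinRoot g := AdjoinRoot.root g
  have hroot : aeval α g = 0 := AdjoinRoot.aeval_eq g ▸ by simp
  have hΦ : aeval α (∑ i ∈ Finset.range r, (X : F[X]) ^ i) = 0 := by
    obtain ⟨c, hc⟩ := hgd
    rw [hc, map_mul, hroot, zero_mul]
  have hr0 : (r : F) ≠ 0 := by
    intro h
    have := (CharP.cast_eq_zero_iff F p r).mp h
    exact hrp (((Nat.prime_dvd_prime_iff_eq (Fact.out) hr).mp this).symm)
  have hαpow : α ^ r = 1 := by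
    have h1 : (α - 1) * ∑ i ∈ Finset.range r, α ^ i = α ^ r - 1 := by
      rw [mul_comm]; exact geom_sum_mul α r
    have h2 : ∑ i ∈ Finset.range r, α ^ i = 0 := by
      simpa using hΦ
    rw [h2, mul_zero] at h1
    exact (sub_eq_zero.mp h1.symm)
  have hα1 : α ≠ 1 := by
    intro h1
    have h2 : ∑ i ∈ Finset.range r, α ^ i = 0 := by
      simpa using hΦ
    rw [h1] at h2
    simp only [one_pow, Finset.sum_const, Finset.card_range, nsmul_eq_mul, mul_one] at h2
    apply hr0
    have h3 : algebraMap F (AdjoinRoot g) (r : F) = 0 := by simpa using h2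
    exact (map_eq_zero_iff _ (algebraMap F (AdjoinRoot g)).injective).mp h3
  haveI hrF : Fact r.Prime := ⟨hr⟩
  have hord : orderOf α = r := orderOf_eq_prime hαpow hα1
  have hα0 : α ≠ 0 := by
    intro h0
    rw [h0, zero_pow hr.ne_zero] at hαpow
    exact zero_ne_one hαpow
  -- the field has `q ^ d` elements
  haveI : FiniteDimensional F (AdjoinRoot g) := (AdjoinRoot.powerBasis hg0).finite
  haveI : Finite (AdjoinRoot g) := Module.finite_of_finite F
  letI : Fintype (AdjoinRoot g) := Fintype.ofFinite _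
  have hcard : Fintype.card (AdjoinRoot g) = q ^ g.natDegree := by
    have h1 := Module.card_eq_pow_finrank (K := F) (V := AdjoinRoot g)
    rw [hF, (AdjoinRoot.powerBasis hg0).finrank, AdjoinRoot.powerBasis_dim] at h1
    exact h1
  have hpow := FiniteField.pow_card_sub_one_eq_one α hα0
  have hdvd : r ∣ q ^ g.natDegree - 1 := by
    rw [← hord, ← hcard]
    exact orderOf_dvd_of_pow_eq_one hpow
  have hq1 : ((q : ZMod r)) ^ g.natDegree = 1 := by
    have hq : 1 ≤ q ^ g.natDegree := by
      rw [← hcard]; exact Fintype.card_pos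
    have h2 := (ZMod.natCast_eq_zero_iff (q ^ g.natDegree - 1) r).mpr hdvd
    rw [Nat.cast_sub hq, sub_eq_zero] at h2
    simpa using h2
  have hd : n ∣ g.natDegree := by
    rw [← hi]
    exact orderOf_dvd_of_pow_eq_one hq1
  have hdeg : g.natDegree ≠ 0 := (Irreducible.natDegree_pos hg).ne'
  exact Nat.le_of_dvd (Nat.pos_of_ne_zero hdeg) hd

open Polynomial in
/-- the minimal polynomial is irreducible of degree `n` -/
theorem minpoly_irred {F : Type*} [Field F] [Fintype F] {p q : ℕ} [Fact p.Prime] [CharP F p] (hF : Fintype.card F = q)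
    {n r : ℕ} (hn : 1 ≤ n) (hr : r.Prime) (hrp : r ≠ p) (hi : orderOf (q : ZMod r) = n)
    (x : Matrix (Fin n) (Fin n) F) (hx1 : x ≠ 1) (hxr : x ^ r = 1) :
    Irreducible (minpoly F x) ∧ (minpoly F x).natDegree = n := by
  classical
  have hint : IsIntegral F x := Algebra.IsIntegral.isIntegral x
  have hμ0 : minpoly F x ≠ 0 := minpoly.ne_zero hint
  have hmon : (minpoly F x).Monic := minpoly.monic hint
  have hdeg : (minpoly F x).natDegree ≤ n := by
    have h1 := Matrix.minpoly_dvd_charpoly x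
    have h2 := Polynomial.natDegree_le_of_dvd h1 (Matrix.charpoly_monic x).ne_zero
    rwa [Matrix.charpoly_natDegree_eq_dim, Fintype.card_fin] at h2
  have hfact : (X - 1 : F[X]) * ∑ i ∈ Finset.range r, (X : F[X]) ^ i = X ^ r - 1 := by
    rw [mul_comm]; exact geom_sum_mul X r
  have hdiv : minpoly F x ∣ (X - 1 : F[X]) * ∑ i ∈ Finset.range r, (X : F[X]) ^ i := by
    rw [hfact]
    apply minpoly.dvd
    simp [hxr]
  have hncop : ¬ IsCoprime (minpoly F x) (∑ i ∈ Finset.range r, (X : F[X]) ^ i) := by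
    intro hcop
    have h1 : minpoly F x ∣ (X - 1 : F[X]) := hcop.dvd_of_dvd_mul_right hdiv
    apply hx1
    have h2 : aeval x (X - 1 : F[X]) = 0 := by
      obtain ⟨c, hc⟩ := h1
      rw [hc, map_mul, minpoly.aeval, zero_mul]
    simpa [sub_eq_zero] using h2
  obtain ⟨g, hg, hg1, hg2⟩ : ∃ g : F[X], Irreducible g ∧ g ∣ minpoly F x ∧ g ∣ ∑ i ∈ Finset.range r, (X : F[X]) ^ i := by
    by_contra hall
    push Not at hall
    exact hncop (isCoprime_of_irreducible_dvd (fun h => hμ0 h.1) (fun z hz h1 h2 => hall z hz h1 h2))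
  have hgdeg := deg_factor hF hr hrp hi g hg hg2
  have hgle : g.natDegree ≤ (minpoly F x).natDegree := Polynomial.natDegree_le_of_dvd hg1 hμ0
  have hdegeq : (minpoly F x).natDegree = n := by omega
  refine ⟨?_, hdegeq⟩
  obtain ⟨c, hc⟩ := hg1
  have hc0 : c ≠ 0 := by
    rintro rfl
    rw [mul_zero] at hc
    exact hμ0 hc
  have hcdeg : c.natDegree = 0 := by
    have h1 := congrArg natDegree hc
    rw [natDegree_mul hg.ne_zero hc0] at h1
    omega
  have hcu : IsUnit c := by
    rw [Polynomial.isUnit_iff_degree_eq_zero]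
    rw [degree_eq_natDegree hc0, hcdeg]
    rfl
  rw [hc]
  exact (irreducible_mul_isUnit hcu).mpr hg

/-- the abstract field situation -/
theorem abstract_field {F E : Type*} [Field F] [Fintype F] [CommRing E] (hE : IsField E) [Algebra F E] [Finite E] {q n : ℕ}
    (hF : Fintype.card F = q) (hn : 1 ≤ n) (x : GL (Fin n) F)
    (φ : E →ₐ[F] Matrix (Fin n) (Fin n) F) (ρ : E) (hφroot : φ ρ = (x : Matrix (Fin n) (Fin n) F))
    (hcomm : ∀ (A : Matrix (Fin n) (Fin n) F), A * x = x * A → ∀ e, A * φ e = φ e * A)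
    (hfrE : Module.finrank F E = n) :
    IsCyclic ↥(Subgroup.centralizer ({x} : Set (GL (Fin n) F))) ∧ Nat.card ↥(Subgroup.centralizer ({x} : Set (GL (Fin n) F))) = q ^ n - 1 := by
  classical
  haveI : Nonempty (Fin n) := ⟨⟨0, by omega⟩⟩
  haveI : IsDomain E := hE.isDomain
  have hφinv : ∀ e : E, e ≠ 0 → ∃ b : E, φ b * φ e = 1 := by
    intro e he
    obtain ⟨b, hb⟩ := hE.mul_inv_cancel he
    exact ⟨b, by rw [← map_mul, mul_comm, hb, map_one]⟩
  have hφinj : Function.Injective φ := by
    rw [injective_iff_map_eq_zero]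
    intro e he
    by_contra he0
    obtain ⟨b, hb⟩ := hφinv e he0
    rw [he, mul_zero] at hb
    exact zero_ne_one hb
  obtain ⟨v, hv⟩ : ∃ v : Fin n → F, v ≠ 0 := by
    refine ⟨fun _ => 1, fun h => ?_⟩
    have := congrFun h ⟨0, by omega⟩
    simp at this
  let ev : E →ₗ[F] (Fin n → F) :=
    { toFun := fun e => (φ e).mulVec v
      map_add' := fun a b => by simp [Matrix.add_mulVec]
      map_smul' := fun c a => by simp [Matrix.smul_mulVec] }
  have hevapp : ∀ e, ev e = (φ e).mulVec v := fun _ => rfl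
  have hevinj : Function.Injective ev := by
    rw [← LinearMap.ker_eq_bot, LinearMap.ker_eq_bot']
    intro e he
    by_contra he0
    apply hv
    obtain ⟨b, hb⟩ := hφinv e he0
    have h1 : (φ b).mulVec ((φ e).mulVec v) = 0 := by
      rw [← hevapp, he, Matrix.mulVec_zero]
    rwa [Matrix.mulVec_mulVec, hb, Matrix.one_mulVec] at h1
  have hevsurj : Function.Surjective ev :=
    (LinearMap.injective_iff_surjective_of_finrank_eq_finrank (by rw [hfrE, Module.finrank_fin_fun])).mp hevinj
  -- the homomorphism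
  let Θ0 : Eˣ →* GL (Fin n) F := Units.map (φ : E →* Matrix (Fin n) (Fin n) F)
  have hΘ0 : ∀ e, Θ0 e ∈ Subgroup.centralizer ({x} : Set (GL (Fin n) F)) := by
    intro e
    rw [Subgroup.mem_centralizer_singleton_iff]
    apply Units.ext
    show φ (e : E) * (x : Matrix (Fin n) (Fin n) F) = (x : Matrix (Fin n) (Fin n) F) * φ (e : E)
    rw [← hφroot, ← map_mul, ← map_mul, mul_comm]
  let Θ : Eˣ →* ↥(Subgroup.centralizer ({x} : Set (GL (Fin n) F))) := Θ0.codRestrict _ hΘ0
  have hΘinj : Function.Injective Θ := by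
    intro a b hab
    have h1 : Θ0 a = Θ0 b := congrArg Subtype.val hab
    have h2 : φ (a : E) = φ (b : E) := congrArg (fun g : GL (Fin n) F => (g : Matrix (Fin n) (Fin n) F)) h1
    exact Units.ext (hφinj h2)
  have hΘsurj : Function.Surjective Θ := by
    rintro ⟨A, hA⟩
    rw [Subgroup.mem_centralizer_singleton_iff] at hA
    have hA' : (A : Matrix (Fin n) (Fin n) F) * x = x * (A : Matrix (Fin n) (Fin n) F) :=
      congrArg (fun g : GL (Fin n) F => (g : Matrix (Fin n) (Fin n) F)) hA
    obtain ⟨e, he⟩ := hevsurj ((A : Matrix (Fin n) (Fin n) F).mulVec v)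
    rw [hevapp] at he
    have he0 : e ≠ 0 := by
      rintro rfl
      rw [map_zero, Matrix.zero_mulVec] at he
      apply hv
      have h1 : ((A⁻¹ : GL (Fin n) F) : Matrix (Fin n) (Fin n) F).mulVec ((A : Matrix (Fin n) (Fin n) F).mulVec v) = 0 := by
        rw [← he, Matrix.mulVec_zero]
      rwa [Matrix.mulVec_mulVec, Units.inv_mul, Matrix.one_mulVec] at h1
    obtain ⟨b, hb⟩ := hE.mul_inv_cancel he0
    refine ⟨⟨e, b, hb, by rw [mul_comm]; exact hb⟩, ?_⟩
    apply Subtype.ext
    apply Units.ext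
    show φ e = (A : Matrix (Fin n) (Fin n) F)
    apply Cfsg.Agent.Lib.Transvection.matrix_ext_mulVec
    intro y
    obtain ⟨f, rfl⟩ := hevsurj y
    rw [hevapp, Matrix.mulVec_mulVec, Matrix.mulVec_mulVec, hcomm _ hA' f, ← map_mul, mul_comm, map_mul,
      ← Matrix.mulVec_mulVec, ← Matrix.mulVec_mulVec, he]
  let eqv := MulEquiv.ofBijective Θ ⟨hΘinj, hΘsurj⟩
  constructor
  · exact isCyclic_of_surjective Θ hΘsurj
  · rw [← Nat.card_congr eqv.toEquiv]
    letI := hE.toField
    rw [Nat.card_units]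
    rw [Module.natCard_eq_pow_finrank (K := F), hfrE, Nat.card_eq_fintype_card, hF]

open Polynomial in
theorem from_irred {F : Type*} [Field F] [Fintype F] {q n : ℕ} (hF : Fintype.card F = q) (hn : 1 ≤ n)
    (x : GL (Fin n) F) (μ : F[X]) [Fact (Irreducible μ)] (hdeg : μ.natDegree = n)
    (hroot0 : aeval (x : Matrix (Fin n) (Fin n) F) μ = 0) :
    IsCyclic ↥(Subgroup.centralizer ({x} : Set (GL (Fin n) F))) ∧ Nat.card ↥(Subgroup.centralizer ({x} : Set (GL (Fin n) F))) = q ^ n - 1 := by
  classical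
  have hirr : Irreducible μ := Fact.out
  have hμ0 : μ ≠ 0 := hirr.ne_zero
  haveI : FiniteDimensional F (AdjoinRoot μ) := (AdjoinRoot.powerBasis hμ0).finite
  haveI : Finite (AdjoinRoot μ) := Module.finite_of_finite F
  have hfrE : Module.finrank F (AdjoinRoot μ) = n := by
    rw [(AdjoinRoot.powerBasis hμ0).finrank, AdjoinRoot.powerBasis_dim, hdeg]
  have hI : ∀ a ∈ (Ideal.span {μ} : Ideal (Polynomial F)), (Polynomial.aeval (x : Matrix (Fin n) (Fin n) F)) a = 0 := by
    intro a ha
    obtain ⟨c, rfl⟩ := Ideal.mem_span_singleton'.mp ha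
    rw [map_mul, hroot0, mul_zero]
  let φ : AdjoinRoot μ →ₐ[F] Matrix (Fin n) (Fin n) F :=
    Ideal.Quotient.liftₐ (Ideal.span {μ}) (Polynomial.aeval (x : Matrix (Fin n) (Fin n) F)) hI
  have hφmk : ∀ p, φ (AdjoinRoot.mk μ p) = Polynomial.aeval (x : Matrix (Fin n) (Fin n) F) p := fun p => rfl
  have hφroot : φ (AdjoinRoot.root μ) = (x : Matrix (Fin n) (Fin n) F) := by
    have := hφmk Polynomial.X
    simpa using this
  refine abstract_field (Field.toIsField _) hF hn x φ (AdjoinRoot.root μ) hφroot ?_ hfrE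
  intro A hA e
  have hc : Commute A (x : Matrix (Fin n) (Fin n) F) := hA
  obtain ⟨p, rfl⟩ := AdjoinRoot.mk_surjective e
  rw [hφmk]
  show Commute A (Polynomial.aeval (x : Matrix (Fin n) (Fin n) F) p)
  induction p using Polynomial.induction_on' with
  | add p q hp hq => rw [map_add]; exact hp.add_right hq
  | monomial k a =>
    rw [Polynomial.aeval_monomial]
    exact (Algebra.commute_algebraMap_right a A).mul_right (hc.pow_right k)

/-- If an element x of GL_n(q), n ≥ 1, has prime order r and the multiplicative order of q modulo r is n (r is a primitive prime divisor of q^n − 1, so x acts irreducibly), then the centraliser of x in GL_n(q) is cyclic of order q^n − 1 (the multiplicative group of the field with q^n elements, a Singer cycle). -/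
theorem result {F : Type*} [Field F] [Fintype F] {p q : ℕ} [Fact p.Prime] [CharP F p] (hF : Fintype.card F = q) {n r : ℕ} (hn : 1 ≤ n) (hr : r.Prime) (hrp : r ≠ p) (hi : orderOf (q : ZMod r) = n) (x : GL (Fin n) F) (hx : orderOf x = r) : IsCyclic ↥(Subgroup.centralizer ({x} : Set (GL (Fin n) F))) ∧ Nat.card ↥(Subgroup.centralizer ({x} : Set (GL (Fin n) F))) = q ^ n - 1 := by
  classical
  have hX : ((x : Matrix (Fin n) (Fin n) F)) ^ r = 1 := by
    have h1 : x ^ r = 1 := hx ▸ pow_orderOf_eq_one x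
    have := congrArg (fun g : GL (Fin n) F => (g : Matrix (Fin n) (Fin n) F)) h1
    simpa using this
  have hX1 : (x : Matrix (Fin n) (Fin n) F) ≠ 1 := by
    intro h
    have h1 : x = 1 := Units.ext h
    rw [h1, orderOf_one] at hx
    exact hr.one_lt.ne hx
  obtain ⟨hirr, hdeg⟩ := minpoly_irred hF hn hr hrp hi _ hX1 hX
  haveI : Fact (Irreducible (minpoly F (x : Matrix (Fin n) (Fin n) F))) := ⟨hirr⟩
  exact from_irred hF hn x _ hdeg (minpoly.aeval _ _)

end Cfsg.Agent.S2638
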