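import Cfsg.Statements.S2640
import Cfsg.Agent.Lib.GUEmbed

set_option autoImplicit false
open Cfsg

namespace Cfsg.Agent.S2640

/-- For m even, the unitary group GU_m(q) (over the field with q² elements) embeds in the orthogonal group O⁺_2m(q) of the hyperbolic form Σ x_i y_i over the field with q elements (there is an injective homomorphism). -/
theorem result {K F : Type*} [Field K] [Fintype K] [Field F] [Fintype F] {q : ℕ} (hK : Fintype.card K = q ^ 2) (hF : Fintype.card F = q) (m : ℕ) (hm : Even m) : ∃ φ : ↥(Cfsg.GU m K q) →* ↥(Cfsg.isometryGroup F (Cfsg.quadFormPlus m F)), Function.Injective φ := by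
  classical
  obtain ⟨k, rfl⟩ := hm
  obtain ⟨φ, ι, δ, s, ζ, f, hφ, h2, hι, hsurj, hδ0, hδ, hs, hζ, hζ1, hf⟩ :=
    Cfsg.Agent.Lib.GUEmbed.exists_all hK hF
  letI : Algebra F K := ι.toAlgebra
  have hι' : ∀ x : F, φ (algebraMap F K x) = algebraMap F K x := hι
  have h1ζ : 1 - ζ ≠ 0 := sub_ne_zero.2 hζ1.symm
  have hβ : (δ / (1 - ζ)) * (1 - ζ) = δ := div_mul_cancel₀ _ h1ζ
  let e : Fin (k + k) ≃ Fin k ⊕ Fin k := finSumFinEquiv.symm
  obtain ⟨ρ, hρ⟩ := Cfsg.Agent.Lib.GUEmbed.exists_equiv hK hF (by simp; ring)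
    (Cfsg.Agent.Lib.GUEmbed.hypρ e (δ / (1 - ζ)) s ζ f)
    (Cfsg.Agent.Lib.GUEmbed.hypρ_injective hι' hs hδ0 hβ hf e)
  apply Cfsg.Agent.Lib.GUEmbed.exists_iso_embed ρ
  intro v
  rw [Cfsg.Agent.Lib.GUEmbed.herm_self hφ, hρ]
  rw [Cfsg.Agent.Lib.GUEmbed.hypρ_norm hι' hδ hs hζ hβ hf e v]
  rfl

end Cfsg.Agent.S2640
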