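import Cfsg.Statements.S2641
import Cfsg.Agent.Lib.GUEmbed

set_option autoImplicit false
open Cfsg

namespace Cfsg.Agent.S2641


open Polynomial in
theorem exists_theta {K F : Type*} [Field K] [Field F] [Fintype K] [Fintype F] [Algebra F K] {q : ℕ}
    (hK : Fintype.card K = q ^ 2) (hF : Fintype.card F = q) {φ : K →+* K}
    (hι : ∀ x : F, φ (algebraMap F K x) = algebraMap F K x)
    (hsurj : ∀ x, φ x = x → ∃ y : F, algebraMap F K y = x) (a b : F)
    (hab : ∀ z₁ z₂ : F, z₁ ^ 2 + a * z₁ * z₂ + b * z₂ ^ 2 = 0 → z₁ = 0 ∧ z₂ = 0) :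
    ∃ θ : K, θ + φ θ = algebraMap F K a ∧ θ * φ θ = algebraMap F K b := by
  classical
  have hq : 2 ≤ q := by
    rw [← hF]; exact Fintype.one_lt_card
  let P : F[X] := X ^ 2 - C a * X + C b
  have hnoroot : ∀ y : F, y ^ 2 - a * y + b ≠ 0 := by
    intro y hy
    have := hab (-y) 1 (by linear_combination hy)
    exact one_ne_zero this.2
  have hdeg : P.natDegree = 2 := by
    simp only [P]
    compute_degree!
  have hmonic : P.Monic := by
    simp only [P]
    monicity!
  have hirr : Irreducible P := by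
    apply Polynomial.irreducible_of_degree_le_three_of_not_isRoot
    · rw [hdeg]; simp
    · intro y hy
      apply hnoroot y
      simpa [P, IsRoot] using hy
  haveI : Fact (Irreducible P) := ⟨hirr⟩
  have hr1 : Module.finrank F (AdjoinRoot P) = 2 := by
    rw [(AdjoinRoot.powerBasis hirr.ne_zero).finrank, AdjoinRoot.powerBasis_dim, hdeg]
  have hr2 : Module.finrank F K = 2 := by
    have h1 := Module.card_eq_pow_finrank (K := F) (V := K)
    rw [hK, hF] at h1
    exact (Nat.pow_right_injective hq h1).symm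
  obtain ⟨g⟩ := FiniteField.nonempty_algHom_of_finrank_dvd (F := F) (K := AdjoinRoot P) (L := K)
    (by rw [hr1, hr2])
  let θ := g (AdjoinRoot.root P)
  have hθ : θ ^ 2 - algebraMap F K a * θ + algebraMap F K b = 0 := by
    have h1 : aeval (AdjoinRoot.root P) P = 0 := by
      rw [AdjoinRoot.aeval_eq, AdjoinRoot.mk_self]
    have h2 : aeval θ P = 0 := by
      rw [Polynomial.aeval_algHom_apply, h1, map_zero]
    simpa [P] using h2
  have hφθ : (φ θ) ^ 2 - algebraMap F K a * φ θ + algebraMap F K b = 0 := by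
    have := congrArg φ hθ
    simpa only [map_add, map_sub, map_mul, map_pow, hι, map_zero] using this
  have hne : θ - φ θ ≠ 0 := by
    intro h
    obtain ⟨y, hy⟩ := hsurj θ (sub_eq_zero.1 h).symm
    apply hnoroot y
    apply (algebraMap F K).injective
    rw [map_add, map_sub, map_mul, map_pow, hy, hθ, map_zero]
  have hsum : θ + φ θ = algebraMap F K a := by
    apply mul_left_cancel₀ hne
    linear_combination hθ - hφθ
  refine ⟨θ, hsum, ?_⟩
  rw [← hsum] at hθ
  linear_combination -hθ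



/-- For m odd, the unitary group GU_m(q) (over the field with q² elements) embeds in the orthogonal group O⁻_2m(q) of an elliptic form (Σ_(i<m−1) x_i y_i plus an anisotropic binary form) over the field with q elements (there is an injective homomorphism). -/
theorem result {K F : Type*} [Field K] [Fintype K] [Field F] [Fintype F] {q : ℕ} (hK : Fintype.card K = q ^ 2) (hF : Fintype.card F = q) (m : ℕ) (hm : Odd m) (a b : F) (hab : ∀ z₁ z₂ : F, z₁ ^ 2 + a * z₁ * z₂ + b * z₂ ^ 2 = 0 → z₁ = 0 ∧ z₂ = 0) : ∃ φ : ↥(Cfsg.GU m K q) →* ↥(Cfsg.isometryGroup F (Cfsg.quadFormMinus (m - 1) F a b)), Function.Injective φ := by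
  classical
  obtain ⟨k, hk⟩ := hm
  obtain ⟨φ, ι, δ, s, ζ, f, hφ, h2, hι, hsurj, hδ0, hδ, hs, hζ, hζ1, hf⟩ :=
    Cfsg.Agent.Lib.GUEmbed.exists_all hK hF
  letI : Algebra F K := ι.toAlgebra
  have hι' : ∀ x : F, φ (algebraMap F K x) = algebraMap F K x := hι
  have h1ζ : 1 - ζ ≠ 0 := sub_ne_zero.2 hζ1.symm
  have hβ : (δ / (1 - ζ)) * (1 - ζ) = δ := div_mul_cancel₀ _ h1ζ
  obtain ⟨θ, hθ1, hθ2⟩ := exists_theta hK hF hι' hsurj a b hab
  have hm1 : m - 1 = k + k := by omega
  let e : Fin (m - 1) ≃ Fin k ⊕ Fin k := (finCongr hm1).trans finSumFinEquiv.symm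
  let eg : Fin m ≃ Fin (m - 1) ⊕ Fin 1 := (finCongr (by omega)).trans finSumFinEquiv.symm
  let ρh := Cfsg.Agent.Lib.GUEmbed.hypρ (F := F) e (δ / (1 - ζ)) s ζ f
  let lst : ((Fin (m - 1) ⊕ Fin (m - 1)) ⊕ Fin 2 → F) → K := fun v =>
    algebraMap F K (v (Sum.inr 0)) + algebraMap F K (v (Sum.inr 1)) * θ
  let ρ₀ : ((Fin (m - 1) ⊕ Fin (m - 1)) ⊕ Fin 2 → F) →ₗ[F] (Fin m → K) :=
    { toFun := fun v i => Sum.elim (fun a => ρh (v ∘ Sum.inl) a) (fun _ => lst v) (eg i)
      map_add' := by
        intro x y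
        funext i
        dsimp only [Pi.add_apply]
        generalize eg i = u
        rcases u with j | j
        · simp only [Sum.elim_inl]
          have : (x + y) ∘ Sum.inl = (x ∘ Sum.inl + y ∘ Sum.inl : Fin (m - 1) ⊕ Fin (m - 1) → F) := rfl
          rw [this, map_add]
          rfl
        · simp only [Sum.elim_inr, lst, Pi.add_apply, map_add]
          ring
      map_smul' := by
        intro c x
        funext i
        dsimp only [Pi.smul_apply, RingHom.id_apply]
        generalize eg i = u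
        rcases u with j | j
        · simp only [Sum.elim_inl]
          have : (c • x) ∘ Sum.inl = (c • (x ∘ Sum.inl) : Fin (m - 1) ⊕ Fin (m - 1) → F) := rfl
          rw [this, map_smul]
          rfl
        · simp only [Sum.elim_inr, lst, Pi.smul_apply, map_add, smul_eq_mul, map_mul,
            Algebra.smul_def (R := F) (A := K)]
          ring }
  have hρ₀ : ∀ v i, ρ₀ v i = Sum.elim (fun a => ρh (v ∘ Sum.inl) a) (fun _ => lst v) (eg i) := fun _ _ => rfl
  have hlst : ∀ v, lst v * φ (lst v)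
      = algebraMap F K (v (Sum.inr 0) ^ 2 + a * v (Sum.inr 0) * v (Sum.inr 1) + b * v (Sum.inr 1) ^ 2) := by
    intro v
    simp only [lst, map_add, map_mul, hι', map_pow]
    rw [← hθ1, ← hθ2]
    ring
  have hinj : Function.Injective ρ₀ := by
    rw [injective_iff_map_eq_zero]
    intro v hv
    have h1 : ρh (v ∘ Sum.inl) = 0 := by
      funext a
      have := congrFun hv (eg.symm (Sum.inl a))
      rw [hρ₀] at this
      simpa using this
    have h2 : lst v = 0 := by
      have := congrFun hv (eg.symm (Sum.inr 0))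
      rw [hρ₀] at this
      simpa using this
    have h3 : v ∘ Sum.inl = 0 :=
      (injective_iff_map_eq_zero _).1 (Cfsg.Agent.Lib.GUEmbed.hypρ_injective hι' hs hδ0 hβ hf e) _ h1
    have h4 := hlst v
    rw [h2, zero_mul] at h4
    have h5 := (map_eq_zero_iff _ (algebraMap F K).injective).1 h4.symm
    obtain ⟨h6, h7⟩ := hab _ _ h5
    funext i
    rcases i with i | i
    · exact congrFun h3 i
    · fin_cases i
      · exact h6
      · exact h7
  obtain ⟨ρ, hρ⟩ := Cfsg.Agent.Lib.GUEmbed.exists_equiv hK hF (by simp; omega) ρ₀ hinj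
  apply Cfsg.Agent.Lib.GUEmbed.exists_iso_embed ρ
  intro v
  rw [Cfsg.Agent.Lib.GUEmbed.herm_self hφ, hρ]
  simp only [hρ₀]
  rw [Equiv.sum_comp eg (fun u => Sum.elim (fun a => ρh (v ∘ Sum.inl) a) (fun _ => lst v) u *
    φ (Sum.elim (fun a => ρh (v ∘ Sum.inl) a) (fun _ => lst v) u))]
  rw [Fintype.sum_sum_type]
  simp only [Sum.elim_inl, Sum.elim_inr]
  have h1 := Cfsg.Agent.Lib.GUEmbed.hypρ_norm hι' hδ hs hζ hβ hf e (v ∘ Sum.inl)
  rw [h1, Fin.sum_univ_one, hlst, Cfsg.quadFormMinus, map_add]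
  rfl

end Cfsg.Agent.S2641
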