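import Cfsg.Statements.S2642
import Cfsg.Agent.Lib.GUJordan
-- import your own Cfsg.Agent.* helpers here

set_option autoImplicit false
set_option linter.all false
open Cfsg

namespace Cfsg.Agent.S2642

/-- Number of conjugacy classes of elements of order p in the general unitary group GU_n(q), q a power of p: every unipotent Jordan type occurs and the classes correspond to the partitions of n with all parts at most p other than the all-ones partition, exactly as in GL_n; so there are (number of partitions of n with parts ≤ p) − 1 classes. -/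
theorem result {K : Type*} [Field K] [Fintype K] {p q n : ℕ} [Fact p.Prime] [CharP K p] (hK : Fintype.card K = q ^ 2) : Nat.card {C : ConjClasses ↥(Cfsg.GU n K q) // ∃ g : ↥(Cfsg.GU n K q), ConjClasses.mk g = C ∧ orderOf g = p} = (Finset.univ.filter (fun μ : Nat.Partition n => ∀ a ∈ μ.parts, a ≤ p)).card - 1 := by
  classical
  rw [← Cfsg.Agent.Lib.JordanNil.card_order_p_classes (F := K) p (n := n)]
  let f : {C : ConjClasses ↥(Cfsg.GU n K q) // ∃ g : ↥(Cfsg.GU n K q), ConjClasses.mk g = C ∧ orderOf g = p} →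
      {C : ConjClasses (GL (Fin n) K) // ∃ g : GL (Fin n) K, ConjClasses.mk g = C ∧ orderOf g = p} :=
    fun C => ⟨ConjClasses.map (Cfsg.GU n K q).subtype C.1, by
      obtain ⟨g, hg, ho⟩ := C.2
      exact ⟨g.1, by rw [← hg]; rfl, by rw [Subgroup.orderOf_coe]; exact ho⟩⟩
  apply Nat.card_congr (Equiv.ofBijective f ?_)
  constructor
  · rintro ⟨_, g₁, rfl, h₁⟩ ⟨_, g₂, rfl, h₂⟩ h
    have h3 : ConjClasses.mk g₁.1 = ConjClasses.mk g₂.1 := congrArg Subtype.val h
    obtain ⟨c, hc⟩ := isConj_iff.1 (ConjClasses.mk_eq_mk_iff_isConj.1 h3)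
    obtain ⟨g', hg', he⟩ := Cfsg.Agent.Lib.GUConj.exists_GU_conj hK g₁.1 g₂.1 c g₁.2 g₂.2 hc
    apply Subtype.ext
    exact ConjClasses.mk_eq_mk_iff_isConj.2 (isConj_iff.2 ⟨⟨g', hg'⟩, Subtype.ext he⟩)
  · rintro ⟨_, g, rfl, ho⟩
    have hnil := (Cfsg.Agent.Lib.JordanNil.unip_iff p g).1 ⟨1, by rw [ho, pow_one]⟩
    obtain ⟨μ, hμ⟩ := Cfsg.Agent.Lib.JordanNil.exists_rel g hnil
    obtain ⟨g', hg', hr⟩ := Cfsg.Agent.Lib.GUJordan.exists_GU_rel hK μ
    have hcj := Cfsg.Agent.Lib.JordanNil.conj_of_rel hr hμ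
    have hord : orderOf g' = p := by
      obtain ⟨c, hc⟩ := isConj_iff.1 hcj
      rw [← ho, ← hc, ← MulAut.conj_apply, MulEquiv.orderOf_eq]
    refine ⟨⟨ConjClasses.mk ⟨g', hg'⟩, ⟨g', hg'⟩, rfl, ?_⟩, Subtype.ext ?_⟩
    · rw [← Subgroup.orderOf_coe]
      exact hord
    · exact ConjClasses.mk_eq_mk_iff_isConj.2 hcj

end Cfsg.Agent.S2642
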