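import Cfsg.Statements.S2645
import Cfsg.Agent.Lib.SpPrimeOrd
-- import your own Cfsg.Agent.* helpers here

set_option autoImplicit false
set_option linter.all false
open Cfsg

namespace Cfsg.Agent.S2645

/-- Number of conjugacy classes of elements of odd prime order r, r different from the characteristic, in the symplectic group Sp_2m(q): let i be the multiplicative order of q modulo r and t = (r − 1)/i. If i is odd the eigenvalue orbits pair off (Λ ≠ Λ⁻¹) and the classes correspond to the non-zero (t/2)-tuples (a_j) with 2i Σ a_j ≤ 2m, giving C(⌊m/i⌋ + t/2, t/2) − 1 classes; if i is even (Λ = Λ⁻¹) they correspond to the non-zero t-tuples with i Σ a_j ≤ 2m, giving C(⌊2m/i⌋ + t, t) − 1 classes. -/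
theorem result {F : Type*} [Field F] [Fintype F] {p q : ℕ} [Fact p.Prime] [CharP F p] (hF : Fintype.card F = q) (m r i t : ℕ) (hr : r.Prime) (hr2 : r ≠ 2) (hrp : r ≠ p) (hi : i = orderOf (q : ZMod r)) (ht : t * i = r - 1) : Nat.card {C : ConjClasses ↥(Matrix.symplecticGroup (Fin m) F) // ∃ g : Matrix.symplecticGroup (Fin m) F, ConjClasses.mk g = C ∧ orderOf g = r} = if Odd i then Nat.choose (m / i + t / 2) (t / 2) - 1 else Nat.choose (2 * m / i + t) t - 1 := by
  classical
  have hrF : (r : F) ≠ 0 := by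
    intro h
    rw [CharP.cast_eq_zero_iff F p] at h
    exact hrp ((Nat.prime_dvd_prime_iff_eq Fact.out hr).1 h).symm
  have hqr : ((Fintype.card F : ℕ) : ZMod r) ≠ 0 := by
    intro h
    rw [ZMod.natCast_eq_zero_iff] at h
    obtain ⟨k, hp, hk⟩ := FiniteField.card F p
    rw [hk] at h
    exact hrp ((Nat.prime_dvd_prime_iff_eq hr Fact.out).1 (hr.dvd_of_dvd_pow h))
  rw [Cfsg.Agent.Lib.SpPrimeOrd.card_classes_sp (p := p) m r hr hr2 hrp]
  have hi' : i = orderOf ((Fintype.card F : ℕ) : ZMod r) := by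
    rw [hF]
    exact hi
  have hτ : ∀ (L : Type _) [Field L] [Algebra F L], ∃ τ : L →+* L, (∀ x, τ x = x ^ 1) ∧
      ∀ a, τ (algebraMap F L a) = algebraMap F L (RingEquiv.refl F a) :=
    fun L _ _ => ⟨RingHom.id L, by simp, by simp⟩
  by_cases hodd : Odd i
  · rw [if_pos hodd]
    have hnone : ∀ P : Polynomial F, Irreducible P → P.Monic → P ∣ Polynomial.X ^ r - 1 → P ≠ Polynomial.X - 1 →
        Cfsg.Agent.Lib.DualPoly.dual (RingEquiv.refl F) P ≠ P := by
      intro P h1 h2 h3 h4 h5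
      obtain ⟨j, hj⟩ := (Cfsg.Agent.Lib.DualPoly.dual_eq_iff (e := 1) (RingEquiv.refl F) (fun a => rfl) hτ hr hqr hi' h1 h2 h3 h4).1 h5
      have h6 := (Cfsg.Agent.Lib.SpPrimeOrd.neg_one_iff hr hr2 hqr).1 ⟨j, by simpa using hj⟩
      rw [← hi'] at h6
      exact (Nat.not_even_iff_odd.2 hodd) h6
    rw [Cfsg.Agent.Lib.DualPoly.card_dual_none (RingEquiv.refl F) (fun a => rfl) hr hrF hqr hi' ht hnone]
    rw [← two_mul, Nat.mul_div_mul_left _ _ (by norm_num : 0 < 2)]
  · rw [if_neg hodd]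
    have hall : ∀ P : Polynomial F, Irreducible P → P.Monic → P ∣ Polynomial.X ^ r - 1 → P ≠ Polynomial.X - 1 →
        Cfsg.Agent.Lib.DualPoly.dual (RingEquiv.refl F) P = P := by
      intro P h1 h2 h3 h4
      apply (Cfsg.Agent.Lib.DualPoly.dual_eq_iff (e := 1) (RingEquiv.refl F) (fun a => rfl) hτ hr hqr hi' h1 h2 h3 h4).2
      have h6 : Even (orderOf ((Fintype.card F : ℕ) : ZMod r)) := by
        rw [← hi']
        exact Nat.not_odd_iff_even.1 hodd
      obtain ⟨j, hj⟩ := (Cfsg.Agent.Lib.SpPrimeOrd.neg_one_iff hr hr2 hqr).2 h6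
      exact ⟨j, by simpa using hj⟩
    rw [Cfsg.Agent.Lib.DualPoly.card_dual_all (RingEquiv.refl F) hr hrF hqr hi' ht hall]
    rw [← two_mul]

end Cfsg.Agent.S2645
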