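import Cfsg.Statements.S2665
import Mathlib

set_option autoImplicit false
open scoped MatrixGroups
open Cfsg

namespace Cfsg.Agent.S2665


open Polynomial

section fixed
variable {K : Type*} [Field K] [IsAlgClosed K] {V : Type*} [AddCommGroup V] [Module K V] [FiniteDimensional K V]

/-- recursively defined coordinates -/
noncomputable def Yp (q : ℕ) (c : ℕ → K) : ℕ → K[X]
  | 0 => C (c 0) * X ^ q
  | j + 1 => (Yp q c j) ^ q + C (c (j + 1)) * X ^ q

theorem Yp_dvd (q : ℕ) (hq : 2 ≤ q) (c : ℕ → K) (j : ℕ) : X ^ 2 ∣ Yp q c j := by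
  have hX : (X ^ 2 : K[X]) ∣ X ^ q := pow_dvd_pow _ hq
  induction j with
  | zero => exact hX.mul_left _
  | succ j ih =>
    show X ^ 2 ∣ (Yp q c j) ^ q + C (c (j + 1)) * X ^ q
    exact dvd_add (ih.trans (dvd_pow_self _ (by omega))) (hX.mul_left _)

theorem Yp_degree (q : ℕ) (hq : 2 ≤ q) (c : ℕ → K) (h0 : c 0 ≠ 0) (j : ℕ) :
    (Yp q c j).natDegree = q ^ (j + 1) := by
  induction j with
  | zero =>
    show (C (c 0) * X ^ q).natDegree = _
    rw [natDegree_C_mul_X_pow _ _ h0, zero_add, pow_one]
  | succ j ih =>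
    show ((Yp q c j) ^ q + C (c (j + 1)) * X ^ q).natDegree = _
    have h1 : ((Yp q c j) ^ q).natDegree = q ^ (j + 1 + 1) := by
      rw [natDegree_pow, ih, pow_succ q (j + 1), mul_comm]
    have h2 : (C (c (j + 1)) * X ^ q : K[X]).natDegree ≤ q := natDegree_C_mul_X_pow_le _ _
    have h3 : q < q ^ (j + 1 + 1) := by
      calc q = q ^ 1 := (pow_one q).symm
        _ < q ^ (j + 1 + 1) := Nat.pow_lt_pow_right (by omega) (by omega)
    rw [natDegree_add_eq_left_of_natDegree_lt (by omega), h1]

theorem exists_root_Y (q : ℕ) (hq : 2 ≤ q) (c : ℕ → K) (h0 : c 0 ≠ 0) (M : ℕ) :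
    ∃ t : K, t ≠ 0 ∧ (Yp q c M).eval t = t := by
  obtain ⟨S, hS⟩ := Yp_dvd q hq c M
  have hdeg := Yp_degree q hq c h0 M
  have hS0 : S ≠ 0 := by
    intro h
    rw [h, mul_zero] at hS
    rw [hS] at hdeg
    have hq0 : 0 < q ^ (M + 1) := pow_pos (by omega) _
    simp at hdeg
    omega
  have hR : (X * S - 1 : K[X]).degree ≠ 0 := by
    have h1 : (X * S : K[X]).natDegree = S.natDegree + 1 := by
      rw [mul_comm, natDegree_mul_X hS0]
    have h2 : (X * S - 1 : K[X]).natDegree = S.natDegree + 1 := by
      rw [natDegree_sub_eq_left_of_natDegree_lt]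
      · exact h1
      · rw [h1, natDegree_one]; omega
    intro h
    have : (X * S - 1 : K[X]).natDegree = 0 := natDegree_eq_of_degree_eq_some h
    omega
  obtain ⟨t, ht⟩ := IsAlgClosed.exists_root _ hR
  have h1 : t * S.eval t = 1 := by
    have : (X * S - 1 : K[X]).eval t = 0 := ht
    simp only [eval_sub, eval_mul, eval_X, eval_one] at this
    linear_combination this
  refine ⟨t, ?_, ?_⟩
  · rintro rfl
    simp at h1
  · rw [hS]
    simp only [eval_mul, eval_pow, eval_X]
    linear_combination t * h1

/-- **Fixed vectors of a semilinear map.** -/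
theorem exists_fixed {σ : K →+* K} {q : ℕ} (hq : 2 ≤ q) (hσ : ∀ x, σ x = x ^ q) [Nontrivial V]
    (φ : V →ₛₗ[σ] V) (hφ : Function.Injective φ) : ∃ v : V, v ≠ 0 ∧ φ v = v := by
  classical
  obtain ⟨u₀, hu₀⟩ := exists_ne (0 : V)
  let u : ℕ → V := fun i => φ^[i] u₀
  have hus : ∀ i, u (i + 1) = φ (u i) := fun i => Function.iterate_succ_apply' _ _ _
  -- the first dependence
  have hex : ∃ m, ¬ LinearIndependent K (fun i : Fin (m + 1) => u i) := by
    refine ⟨Module.finrank K V, ?_⟩
    intro h
    have := h.fintype_card_le_finrank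
    simp at this
  let m := Nat.find hex
  have hm : ¬ LinearIndependent K (fun i : Fin (m + 1) => u i) := Nat.find_spec hex
  have hm0 : m ≠ 0 := by
    intro h0
    apply hm
    rw [h0]
    have : LinearIndependent K (fun i : Fin 1 => u₀) := by
      exact LinearIndependent.of_subsingleton 0 hu₀
    have h2 : (fun i : Fin 1 => u (i : ℕ)) = fun i : Fin 1 => u₀ := by
      funext i
      have : i = 0 := Subsingleton.elim _ _
      subst this
      rfl
    show LinearIndependent K (fun i : Fin 1 => u (i : ℕ))
    rw [h2]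
    exact this
  obtain ⟨M, hM⟩ : ∃ M, m = M + 1 := ⟨m - 1, by omega⟩
  have hind : LinearIndependent K (fun i : Fin (M + 1) => u i) := by
    have := Nat.find_min hex (m := M) (by omega)
    exact not_not.1 this
  rw [hM] at hm
  -- the relation
  have hin : u (M + 1) ∈ Submodule.span K (Set.range (fun i : Fin (M + 1) => u i)) := by
    by_contra hcon
    apply hm
    rw [linearIndependent_fin_succ']
    refine ⟨?_, ?_⟩
    · exact hind
    · exact hcon
  obtain ⟨c, hc⟩ := (Submodule.mem_span_range_iff_exists_fun K).1 hin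
  let c' : ℕ → K := fun i => if h : i < M + 1 then c ⟨i, h⟩ else 0
  have hrel : u (M + 1) = ∑ i ∈ Finset.range (M + 1), c' i • u i := by
    rw [← hc, ← Fin.sum_univ_eq_sum_range (fun i => c' i • u i)]
    refine Finset.sum_congr rfl fun i _ => ?_
    have hi : (i : ℕ) < M + 1 := i.2
    simp only [c', dif_pos hi]
  have hI : ∀ a : ℕ → K, ∑ i ∈ Finset.range (M + 1), a i • u i = 0 → ∀ i ≤ M, a i = 0 := by
    intro a ha i hi
    rw [← Fin.sum_univ_eq_sum_range (fun i => a i • u i)] at ha
    have := Fintype.linearIndependent_iff.1 hind (fun i => a i) ha ⟨i, by omega⟩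
    exact this
  -- the constant coefficient is nonzero
  have hφs : ∀ (a : ℕ → K) (N : ℕ), φ (∑ i ∈ Finset.range N, a i • u i)
      = ∑ i ∈ Finset.range N, (a i) ^ q • u (i + 1) := by
    intro a N
    rw [map_sum]
    refine Finset.sum_congr rfl fun i _ => ?_
    rw [map_smulₛₗ, hσ, hus]
  have h0 : c' 0 ≠ 0 := by
    intro h0
    -- q-th roots
    have hroot : ∀ x : K, ∃ y : K, y ^ q = x := fun x =>
      IsAlgClosed.exists_pow_nat_eq x (by omega)
    choose r hr using hroot
    let d : ℕ → K := fun i => if i < M then r (c' (i + 1)) else -1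
    have hzero : φ (∑ i ∈ Finset.range (M + 1), d i • u i) = 0 := by
      rw [hφs, Finset.sum_range_succ]
      have h1 : ∀ i ∈ Finset.range M, d i ^ q • u (i + 1) = c' (i + 1) • u (i + 1) := by
        intro i hi
        have : i < M := Finset.mem_range.1 hi
        simp only [d, this, if_true, hr]
      rw [Finset.sum_congr rfl h1]
      have h2 : d M = -1 := by simp [d]
      rw [h2]
      have h3 : (-1 : K) ^ q • u (M + 1) = -(∑ i ∈ Finset.range (M + 1), c' i • u i) ∨ True := Or.inr trivial
      clear h3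
      have h4 : (-1 : K) ^ q = -1 := by
        have hsig : σ (-1) = -1 := by simp
        rw [← hσ, hsig]
      rw [h4, hrel, Finset.sum_range_succ' _ M, h0, zero_smul, add_zero, neg_one_smul]
      simp
    have hzero2 : ∑ i ∈ Finset.range (M + 1), d i • u i = 0 :=
      hφ (by rw [hzero, map_zero])
    have := hI d hzero2 M le_rfl
    simp [d] at this
  -- the root
  obtain ⟨t, ht0, ht⟩ := exists_root_Y q hq c' h0 M
  let y : ℕ → K := fun j => (Yp q c' j).eval t
  have hy0 : y 0 = c' 0 * t ^ q := by
    simp [y, Yp]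
  have hys : ∀ j, y (j + 1) = (y j) ^ q + c' (j + 1) * t ^ q := by
    intro j
    simp [y, Yp]
  have hyM : y M = t := ht
  refine ⟨∑ j ∈ Finset.range (M + 1), y j • u j, ?_, ?_⟩
  · intro hv
    have := hI y hv M le_rfl
    rw [hyM] at this
    exact ht0 this
  · rw [hφs, Finset.sum_range_succ, hyM, hrel, Finset.smul_sum,
      Finset.sum_range_succ' _ M, Finset.sum_range_succ' (fun j => y j • u j) M, hy0]
    simp only [smul_smul, add_smul, hys, Finset.sum_add_distrib]
    have : ∀ i, t ^ q * c' (i + 1) = c' (i + 1) * t ^ q := fun i => mul_comm _ _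
    simp only [this, add_assoc, mul_comm (t ^ q) (c' 0)]


/-- **Semilinear**: the span of the fixed vectors is the whole space. -/
theorem span_fixed_eq_top {σ : K →+* K} {q : ℕ} (hq : 2 ≤ q) (hσ : ∀ x, σ x = x ^ q)
    (φ : V →ₛₗ[σ] V) (hφ : Function.Injective φ) :
    Submodule.span K {v : V | φ v = v} = ⊤ := by
  classical
  set W := Submodule.span K {v : V | φ v = v} with hW
  -- preimages in W
  have h1 : ∀ x ∈ W, ∃ w ∈ W, φ w = x := by
    intro x hx
    induction hx using Submodule.span_induction with
    | mem x hx =>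
      exact ⟨x, Submodule.subset_span hx, hx⟩
    | zero => exact ⟨0, W.zero_mem, map_zero _⟩
    | add a b _ _ ha hb =>
      obtain ⟨w₁, h₁, h₁'⟩ := ha
      obtain ⟨w₂, h₂, h₂'⟩ := hb
      exact ⟨w₁ + w₂, W.add_mem h₁ h₂, by rw [map_add, h₁', h₂']⟩
    | smul c a _ ha =>
      obtain ⟨w, h, h'⟩ := ha
      obtain ⟨d, hd⟩ := IsAlgClosed.exists_pow_nat_eq c (n := q) (by omega)
      exact ⟨d • w, W.smul_mem _ h, by rw [map_smulₛₗ, h', hσ, hd]⟩
  -- Artin–Schreier in W
  have h2 : ∀ x ∈ W, ∀ c : K, ∃ w ∈ W, φ w - w = c • x := by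
    intro x hx
    induction hx using Submodule.span_induction with
    | mem x hx =>
      intro c
      have hR : ((X ^ q - X - C c) : K[X]).degree ≠ 0 := by
        have h1 : (X ^ q - X - C c : K[X]).natDegree = q := by
          have : (X ^ q - X - C c : K[X]) = X ^ q - (X + C c) := by ring
          rw [this]
          have h2 : (X + C c : K[X]).natDegree = 1 := natDegree_X_add_C _
          rw [natDegree_sub_eq_left_of_natDegree_lt (by rw [h2, natDegree_X_pow]; omega),
            natDegree_X_pow]
        intro h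
        have : (X ^ q - X - C c : K[X]).natDegree = 0 := natDegree_eq_of_degree_eq_some h
        omega
      obtain ⟨μ, hμ⟩ := IsAlgClosed.exists_root _ hR
      have hμ' : μ ^ q - μ = c := by
        have : (X ^ q - X - C c : K[X]).eval μ = 0 := hμ
        simp only [eval_sub, eval_pow, eval_X, eval_C] at this
        linear_combination this
      refine ⟨μ • x, W.smul_mem _ (Submodule.subset_span hx), ?_⟩
      have hx' : φ x = x := hx
      rw [map_smulₛₗ, hx', hσ, ← sub_smul, hμ']
    | zero => intro c; exact ⟨0, W.zero_mem, by simp⟩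
    | add a b _ _ ha hb =>
      intro c
      obtain ⟨w₁, h₁, h₁'⟩ := ha c
      obtain ⟨w₂, h₂, h₂'⟩ := hb c
      refine ⟨w₁ + w₂, W.add_mem h₁ h₂, ?_⟩
      rw [map_add, smul_add, ← h₁', ← h₂']
      abel
    | smul d a _ ha =>
      intro c
      rw [smul_smul]
      exact ha (c * d)
  by_contra hne
  have hle : W ≤ W.comap φ := by
    rw [hW, Submodule.span_le]
    intro x hx
    have hx' : φ x = x := hx
    show φ x ∈ W
    rw [hx']
    exact Submodule.subset_span hx
  let φbar : (V ⧸ W) →ₛₗ[σ] (V ⧸ W) := W.mapQ W φ hle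
  have hinj : Function.Injective φbar := by
    rw [injective_iff_map_eq_zero]
    intro a
    induction a using Submodule.Quotient.induction_on with
    | H v =>
      intro hv
      have : φ v ∈ W := by
        have h3 : φbar (Submodule.Quotient.mk v) = Submodule.Quotient.mk (φ v) := rfl
        rw [h3] at hv
        exact (Submodule.Quotient.mk_eq_zero W).1 hv
      obtain ⟨w, hw, hw'⟩ := h1 _ this
      have := hφ hw'
      subst this
      exact (Submodule.Quotient.mk_eq_zero W).2 hw
  haveI : Nontrivial (V ⧸ W) := Submodule.Quotient.nontrivial_iff.2 hne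
  obtain ⟨v, hv0, hv⟩ := exists_fixed hq hσ φbar hinj
  induction v using Submodule.Quotient.induction_on with
  | H v =>
    apply hv0
    have h3 : φbar (Submodule.Quotient.mk v) = Submodule.Quotient.mk (φ v) := rfl
    rw [h3] at hv
    have h4 : φ v - v ∈ W := (Submodule.Quotient.eq W).1 hv
    obtain ⟨w, hw, hw'⟩ := h2 _ h4 1
    rw [one_smul] at hw'
    have h5 : φ (v - w) = v - w := by
      rw [map_sub]
      have : φ w = φ v - v + w := by rw [← hw']; abel
      rw [this]
      abel
    have h6 : v - w ∈ W := Submodule.subset_span h5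
    have h7 : v ∈ W := by
      have := W.add_mem h6 hw
      simpa using this
    exact (Submodule.Quotient.mk_eq_zero W).2 h7

end fixed

theorem exists_gl {K : Type*} [Field K] [IsAlgClosed K] (p : ℕ) [Fact p.Prime] [CharP K p]
    (f : ℕ) (hf : 1 ≤ f) (n : ℕ) (g : GL (Fin n) K) :
    ∃ x : GL (Fin n) K, g = x * (Matrix.GeneralLinearGroup.map (iterateFrobenius K p f) x)⁻¹ := by
  classical
  have hp2 : 2 ≤ p := (Fact.out : p.Prime).two_le
  have hq : 2 ≤ p ^ f := by
    calc 2 ≤ p := hp2
      _ = p ^ 1 := (pow_one p).symm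
      _ ≤ p ^ f := Nat.pow_le_pow_right (by omega) hf
  set σ : K →+* K := iterateFrobenius K p f with hσdef
  have hσ : ∀ x, σ x = x ^ (p ^ f) := fun x => iterateFrobenius_def _ _ _
  let V := Fin n → K
  let φ : V →ₛₗ[σ] V :=
    { toFun := fun v => g.1.mulVec (fun i => σ (v i))
      map_add' := by
        intro a b
        rw [← Matrix.mulVec_add]
        congr 1
        funext i
        exact map_add σ _ _
      map_smul' := by
        intro c a
        rw [show (fun i => σ ((c • a) i)) = σ c • (fun i => σ (a i)) by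
          funext i; exact map_mul σ _ _]
        rw [Matrix.mulVec_smul] }
  have hφ : ∀ v, φ v = g.1.mulVec (fun i => σ (v i)) := fun v => rfl
  have hinj : Function.Injective φ := by
    rw [injective_iff_map_eq_zero]
    intro v hv
    rw [hφ] at hv
    have h1 : (fun i => σ (v i)) = 0 := by
      have : (g⁻¹).1.mulVec (g.1.mulVec (fun i => σ (v i))) = (fun i => σ (v i)) := by
        rw [Matrix.mulVec_mulVec]
        have : (g⁻¹).1 * g.1 = 1 := by
          have := congrArg (fun x : GL (Fin n) K => x.1) (inv_mul_cancel g)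
          simpa using this
        rw [this, Matrix.one_mulVec]
      rw [← this, hv, Matrix.mulVec_zero]
    funext i
    have := congrFun h1 i
    exact σ.injective (by rw [show (0 : V) i = 0 from rfl, map_zero]; exact this)
  have htop := span_fixed_eq_top hq hσ φ hinj
  obtain ⟨e, he1, he2, he3⟩ := Submodule.exists_fun_fin_finrank_span_eq K {v : V | φ v = v}
  have hfr : Module.finrank K (Submodule.span K {v : V | φ v = v}) = n := by
    rw [htop, finrank_top]
    simp [V]
  let e' : Fin n → V := fun j => e (Fin.cast hfr.symm j)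
  have he'1 : ∀ j, φ (e' j) = e' j := fun j => he1 _
  have he'3 : LinearIndependent K e' := he3.comp _ (Fin.cast_injective _)
  let x : Matrix (Fin n) (Fin n) K := Matrix.of (fun i j => e' j i)
  have hxu : IsUnit x := by
    rw [← Matrix.linearIndependent_cols_iff_isUnit]
    exact he'3
  refine ⟨hxu.unit, ?_⟩
  apply eq_mul_inv_of_mul_eq
  ext i j
  have h := congrFun (he'1 j) i
  rw [hφ] at h
  exact h



/-- The Lang–Steinberg Theorem for the general linear group. Let `K` be an algebraically closed field of prime characteristic `p`, let `q = p^f` with `f ≥ 1`, and let `σ` be the endomorphism of GL_n(K) raising every matrix entry to the `q`-th power. Then every element `g` of GL_n(K) can be written `g = x · σ(x)⁻¹` for some `x` in GL_n(K): the map `x ↦ x σ(x)⁻¹` is surjective. -/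
theorem result {K : Type*} [Field K] [IsAlgClosed K] (p : ℕ) [Fact p.Prime] [CharP K p]
    (f : ℕ) (hf : 1 ≤ f) (n : ℕ) (g : GL (Fin n) K) :
    ∃ x : GL (Fin n) K, g = x * (Matrix.GeneralLinearGroup.map (iterateFrobenius K p f) x)⁻¹ := by
  classical
  obtain ⟨x, hx⟩ := exists_gl p f hf n g
  exact ⟨x, hx⟩

end Cfsg.Agent.S2665
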