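import Cfsg.Statements.S2666
import Cfsg.Agent.Lib.Shintani

set_option autoImplicit false
open Cfsg

namespace Cfsg.Agent.S2666

/-- Shintani descent, in an abstract form. Let `σ` be an automorphism of a group `X` such that the maps `a ↦ a·σ(a)⁻¹` and `a ↦ a·σᵉ(a)⁻¹` are surjective on `X` (the Lang–Steinberg property, which holds when `X` is a connected algebraic group and `σ` a Steinberg endomorphism), where `e ≥ 1`. Write `G` for the subgroup of fixed points of `σᵉ` and `H` for the subgroup of fixed points of `σ`. The `G`-conjugacy classes in the coset `G σ` of the semidirect product of `G` by `σ` correspond to the orbits of `G` on itself under twisted conjugation `g ↦ k g σ(k)⁻¹`, and the `e`-th power of `g σ` has `G`-part the norm `g σ(g) ⋯ σ^(e-1)(g)`. For `g` in `G` and any `a` with `g = a σ(a)⁻¹`, put `x = σᵉ(a)⁻¹ a`. Then: (1) `x` lies in `H`, and `a⁻¹ · (g σ(g) ⋯ σ^(e-1)(g)) · a = x`; (2) for `g, g'` in `G` with such elements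 `a, b` and `x, x'`, the elements `g, g'` are twisted-conjugate under `G` if and only if `x, x'` are conjugate in `H`; (3) every element of `H` arises as such an `x`. So `g ↦ x` induces a well-defined bijection from the twisted `G`-classes of `G` onto the conjugacy classes of `H` (the Shintani map). -/
theorem result {X : Type*} [Group X] (σ : MulAut X) (e : ℕ) (he : 1 ≤ e)
    (hL : ∀ g : X, ∃ a : X, g = a * (σ a)⁻¹) (hLe : ∀ g : X, ∃ a : X, g = a * ((σ ^ e) a)⁻¹) :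
    (∀ g ∈ (MulEquiv.toMonoidHom (σ ^ e)).eqLocus (MonoidHom.id X), ∀ a : X, g = a * (σ a)⁻¹ →
        ((σ ^ e) a)⁻¹ * a ∈ (MulEquiv.toMonoidHom σ).eqLocus (MonoidHom.id X) ∧
          a⁻¹ * ((List.range e).map (fun i => (σ ^ i) g)).prod * a = ((σ ^ e) a)⁻¹ * a) ∧
    (∀ g ∈ (MulEquiv.toMonoidHom (σ ^ e)).eqLocus (MonoidHom.id X), ∀ g' ∈ (MulEquiv.toMonoidHom (σ ^ e)).eqLocus (MonoidHom.id X), ∀ a b : X,
        g = a * (σ a)⁻¹ → g' = b * (σ b)⁻¹ →
          ((∃ k ∈ (MulEquiv.toMonoidHom (σ ^ e)).eqLocus (MonoidHom.id X), g' = k * g * (σ k)⁻¹) ↔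
            (∃ h ∈ (MulEquiv.toMonoidHom σ).eqLocus (MonoidHom.id X), ((σ ^ e) b)⁻¹ * b = h * (((σ ^ e) a)⁻¹ * a) * h⁻¹))) ∧
    (∀ x ∈ (MulEquiv.toMonoidHom σ).eqLocus (MonoidHom.id X), ∃ g ∈ (MulEquiv.toMonoidHom (σ ^ e)).eqLocus (MonoidHom.id X), ∃ a : X,
        g = a * (σ a)⁻¹ ∧ ((σ ^ e) a)⁻¹ * a = x) := by
  refine ⟨?_, ?_, ?_⟩
  · intro g hg a ha
    subst ha
    have hfix := (Cfsg.Agent.Lib.Shintani.mem_fixed_iff (σ ^ e) _).1 hg
    refine ⟨(Cfsg.Agent.Lib.Shintani.mem_fixed_iff σ _).2 (Cfsg.Agent.Lib.Shintani.x_fixed_of_g_fixed σ e a hfix), ?_⟩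
    rw [Cfsg.Agent.Lib.Shintani.norm_eq]
    group
  · intro g hg g' hg' a b ha hb
    subst ha
    subst hb
    have hfix := (Cfsg.Agent.Lib.Shintani.mem_fixed_iff (σ ^ e) _).1 hg
    have hfix' := (Cfsg.Agent.Lib.Shintani.mem_fixed_iff (σ ^ e) _).1 hg'
    constructor
    · rintro ⟨k, hk, hkg⟩
      have hk := (Cfsg.Agent.Lib.Shintani.mem_fixed_iff (σ ^ e) _).1 hk
      -- `h' = (k a)⁻¹ b` is `σ`-fixed, and `b = k a h'`
      have hσ : σ (a⁻¹ * k⁻¹ * b) = a⁻¹ * k⁻¹ * b := by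
        simp only [map_mul, map_inv]
        have h1 : σ b = (σ k) * σ a * (a⁻¹ * k⁻¹ * b) := by
          have h2 : (σ b)⁻¹ = b⁻¹ * (k * (a * (σ a)⁻¹) * (σ k)⁻¹) := by
            rw [← hkg]; group
          rw [← inv_inv (σ b), h2]; group
        rw [h1]; group
      refine ⟨(a⁻¹ * k⁻¹ * b)⁻¹, ?_, ?_⟩
      · rw [Cfsg.Agent.Lib.Shintani.mem_fixed_iff, map_inv, hσ]
      · have hτ := Cfsg.Agent.Lib.Shintani.fixed_pow σ _ hσ e
        simp only [map_mul, map_inv, hk] at hτ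
        generalize (σ ^ e) b = U at *
        generalize (σ ^ e) a = T at *
        have hU : U = k * T * (a⁻¹ * k⁻¹ * b) := by rw [← hτ]; group
        have hbb : b = k * a * (a⁻¹ * k⁻¹ * b) := by group
        generalize a⁻¹ * k⁻¹ * b = H at *
        subst hU
        subst hbb
        group
    · rintro ⟨h, hh, hc⟩
      have hh := (Cfsg.Agent.Lib.Shintani.mem_fixed_iff σ _).1 hh
      refine ⟨b * h * a⁻¹, ?_, ?_⟩
      · rw [Cfsg.Agent.Lib.Shintani.mem_fixed_iff]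
        have hhτ := Cfsg.Agent.Lib.Shintani.fixed_pow σ _ hh e
        simp only [map_mul, map_inv, hhτ]
        generalize (σ ^ e) b = U at *
        generalize (σ ^ e) a = T at *
        have hb : b = U * (h * (T⁻¹ * a) * h⁻¹) := by rw [← hc]; group
        rw [hb]; group
      · simp only [map_mul, map_inv, hh]
        group
  · intro x hx
    have hx := (Cfsg.Agent.Lib.Shintani.mem_fixed_iff σ _).1 hx
    obtain ⟨c, hc⟩ := hLe x⁻¹
    have hx2 : ((σ ^ e) c⁻¹)⁻¹ * c⁻¹ = x := by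
      rw [map_inv, inv_inv]
      have := congrArg (fun z => z⁻¹) hc
      simp only [inv_inv, mul_inv_rev] at this
      exact this.symm
    refine ⟨c⁻¹ * (σ c⁻¹)⁻¹, ?_, c⁻¹, rfl, hx2⟩
    rw [Cfsg.Agent.Lib.Shintani.mem_fixed_iff]
    apply Cfsg.Agent.Lib.Shintani.g_fixed_of_x_fixed
    rw [hx2, hx]

end Cfsg.Agent.S2666
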