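import Cfsg.Statements.S2667
import Cfsg.Agent.Lib.Shintani

set_option autoImplicit false
open Cfsg

namespace Cfsg.Agent.S2667

/-- Shintani descent, in an abstract form. Let `σ` be an automorphism of a group `X` and `e ≥ 1` (no surjectivity of the Lang maps is needed for this part; in the classical setting `X` is a connected algebraic group and `σ` a Steinberg endomorphism). Write `G` for the subgroup of fixed points of `σᵉ` and `H` for the subgroup of fixed points of `σ`. The `G`-conjugacy classes in the coset `G σ` of the semidirect product of `G` by `σ` correspond to the orbits of `G` on itself under twisted conjugation `g ↦ k g σ(k)⁻¹`, and the `e`-th power of `g σ` has `G`-part the norm `g σ(g) ⋯ σ^(e-1)(g)`. For `g` in `G` and any `a` with `g = a σ(a)⁻¹`, put `x = σᵉ(a)⁻¹ a`. Then conjugation by `a⁻¹` carries the twisted centralizer `{k ∈ G : k g σ(k)⁻¹ = g}` (the centralizer of `g σ` in `G`) exactly onto the centralizer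 of `x` in `H`: an element `k` of `X` lies in `G` and satisfies `k g σ(k)⁻¹ = g` if and only if `a⁻¹ k a` lies in `H` and commutes with `x`. In particular the two centralizers are conjugate in `X` and have the same order. -/
theorem result {X : Type*} [Group X] (σ : MulAut X) (e : ℕ) (he : 1 ≤ e)
    (g : X) (hg : g ∈ (MulEquiv.toMonoidHom (σ ^ e)).eqLocus (MonoidHom.id X)) (a : X) (ha : g = a * (σ a)⁻¹) (k : X) :
    (k ∈ (MulEquiv.toMonoidHom (σ ^ e)).eqLocus (MonoidHom.id X) ∧ k * g * (σ k)⁻¹ = g) ↔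
      (a⁻¹ * k * a ∈ (MulEquiv.toMonoidHom σ).eqLocus (MonoidHom.id X) ∧
        (a⁻¹ * k * a) * (((σ ^ e) a)⁻¹ * a) = (((σ ^ e) a)⁻¹ * a) * (a⁻¹ * k * a)) := by
  subst ha
  have hfix := (Cfsg.Agent.Lib.Shintani.mem_fixed_iff (σ ^ e) _).1 hg
  have hx := Cfsg.Agent.Lib.Shintani.x_fixed_of_g_fixed σ e a hfix
  simp only [Cfsg.Agent.Lib.Shintani.mem_fixed_iff]
  rw [Cfsg.Agent.Lib.Shintani.sigma_fix_iff]
  constructor
  · rintro ⟨hk, hkg⟩
    refine ⟨hkg, ?_⟩
    have hk' := (Cfsg.Agent.Lib.Shintani.sigma_fix_iff σ a k).2 hkg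
    have h2 := Cfsg.Agent.Lib.Shintani.fixed_pow σ _ hk' e
    simp only [map_mul, map_inv, hk] at h2
    have h3 : a⁻¹ * k * a * ((σ ^ e) a)⁻¹ = ((σ ^ e) a)⁻¹ * k := by
      rw [← h2]; group
    calc a⁻¹ * k * a * (((σ ^ e) a)⁻¹ * a) = (a⁻¹ * k * a * ((σ ^ e) a)⁻¹) * a := by group
      _ = ((σ ^ e) a)⁻¹ * k * a := by rw [h3]
      _ = _ := by group
  · rintro ⟨hkg, hc⟩
    refine ⟨?_, hkg⟩
    have hk' := (Cfsg.Agent.Lib.Shintani.sigma_fix_iff σ a k).2 hkg
    have h2 := Cfsg.Agent.Lib.Shintani.fixed_pow σ _ hk' e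
    simp only [map_mul, map_inv] at h2
    -- `hc` gives `a⁻¹ k a T⁻¹ = T⁻¹ k` with `T = τ a`
    have h3 : a⁻¹ * k * a = ((σ ^ e) a)⁻¹ * k * (σ ^ e) a := by
      have h4 : a⁻¹ * k * a * ((σ ^ e) a)⁻¹ = ((σ ^ e) a)⁻¹ * k := by
        have h5 : a⁻¹ * k * a * ((σ ^ e) a)⁻¹ = (a⁻¹ * k * a * (((σ ^ e) a)⁻¹ * a)) * a⁻¹ := by group
        rw [h5, hc]; group
      calc a⁻¹ * k * a = (a⁻¹ * k * a * ((σ ^ e) a)⁻¹) * (σ ^ e) a := by group
        _ = _ := by rw [h4]
    have h7 : ((σ ^ e) a)⁻¹ * (σ ^ e) k * (σ ^ e) a = ((σ ^ e) a)⁻¹ * k * (σ ^ e) a := by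
      rw [h2, h3]
    exact mul_left_cancel (mul_right_cancel h7)

end Cfsg.Agent.S2667
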