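import Cfsg.Statements.S2669
import Mathlib

set_option autoImplicit false
open Cfsg

namespace Cfsg.Agent.S2669


/-- counting through fibres -/
theorem card_of_fibers {T A Z : Type*} (f : T → A) (h : ∀ a, Nonempty ({t // f t = a} ≃ Z)) :
    Nat.card T = Nat.card A * Nat.card Z := by
  classical
  have e : T ≃ A × Z :=
    (Equiv.sigmaFiberEquiv f).symm.trans
      ((Equiv.sigmaCongrRight fun a => (h a).some).trans (Equiv.sigmaEquivProd A Z))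
  rw [Nat.card_congr e, Nat.card_prod]

theorem fix_pow {X : Type*} [Group X] (σ : MulAut X) {z : X} (hz : σ z = z) (e : ℕ) : (σ ^ e) z = z := by
  induction e with
  | zero => simp
  | succ n ih =>
    rw [pow_succ, MulAut.mul_apply, hz, ih]

theorem mem_pow {X : Type*} [Group X] (σ : MulAut X) (Y : Subgroup X) (hY : ∀ y : X, y ∈ Y ↔ σ y ∈ Y)
    {z : X} (hz : z ∈ Y) (e : ℕ) : (σ ^ e) z ∈ Y := by
  induction e with
  | zero => simpa using hz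
  | succ n ih =>
    rw [pow_succ', MulAut.mul_apply]
    exact (hY _).1 ih


/-- Shintani descent preserves numbers of fixed points on coset spaces (abstract form). Let `σ` be an automorphism of a group `X` and `e ≥ 1`; write `G` for the fixed points of `σᵉ` and `H` for the fixed points of `σ`, and assume `G` is finite. Let `Y` be a `σ`-stable subgroup of `X` on which the maps `a ↦ a σ(a)⁻¹` and `a ↦ a σᵉ(a)⁻¹` are surjective (as for a closed connected `σ`-stable subgroup of an algebraic group). Let `g ∈ G`, let `a ∈ X` satisfy `g = a σ(a)⁻¹` and put `x = σᵉ(a)⁻¹ a` (the Shintani image, an element of `H`). The element `g σ` of the semidirect product acts on the cosets of `Y ∩ G` in `G` by `k (Y ∩ G) ↦ g σ(k) (Y ∩ G)`, fixing that coset exactly when `k⁻¹ g σ(k) ∈ Y`; and `x` fixes the coset `h (Y ∩ H)` of `H` exactly when `h⁻¹ x h ∈ Y`. Then the two numbers of fixed cosets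 agree; in cross-multiplied form, `#{k ∈ G : k⁻¹ g σ(k) ∈ Y} · |Y ∩ H| = #{h ∈ H : h⁻¹ x h ∈ Y} · |Y ∩ G|`. -/
theorem result {X : Type*} [Group X] (σ : MulAut X) (e : ℕ) (he : 1 ≤ e)
    [Finite ↥((MulEquiv.toMonoidHom (σ ^ e)).eqLocus (MonoidHom.id X))]
    (Y : Subgroup X) (hY : ∀ y : X, y ∈ Y ↔ σ y ∈ Y)
    (hYL : ∀ y ∈ Y, ∃ a ∈ Y, y = a * (σ a)⁻¹) (hYLe : ∀ y ∈ Y, ∃ a ∈ Y, y = a * ((σ ^ e) a)⁻¹)
    (g : X) (hg : g ∈ (MulEquiv.toMonoidHom (σ ^ e)).eqLocus (MonoidHom.id X)) (a : X) (ha : g = a * (σ a)⁻¹) :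
    Nat.card {k : ↥((MulEquiv.toMonoidHom (σ ^ e)).eqLocus (MonoidHom.id X)) // (k : X)⁻¹ * g * σ k ∈ Y} *
        Nat.card ↥(Y ⊓ (MulEquiv.toMonoidHom σ).eqLocus (MonoidHom.id X)) =
      Nat.card {h : ↥((MulEquiv.toMonoidHom σ).eqLocus (MonoidHom.id X)) // (h : X)⁻¹ * (((σ ^ e) a)⁻¹ * a) * h ∈ Y} *
        Nat.card ↥(Y ⊓ (MulEquiv.toMonoidHom (σ ^ e)).eqLocus (MonoidHom.id X)) := by
  classical
  set G := (MulEquiv.toMonoidHom (σ ^ e)).eqLocus (MonoidHom.id X) with hG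
  set H := (MulEquiv.toMonoidHom σ).eqLocus (MonoidHom.id X) with hH
  have memG : ∀ z : X, z ∈ G ↔ (σ ^ e) z = z := fun z => Iff.rfl
  have memH : ∀ z : X, z ∈ H ↔ σ z = z := fun z => Iff.rfl
  have hHG : ∀ z : X, z ∈ H → z ∈ G := fun z hz => fix_pow σ hz e
  -- the set of pairs
  let T := {p : G × H // (p.1 : X)⁻¹ * a * (p.2 : X)⁻¹ ∈ Y}
  -- membership in `A`
  have hA : ∀ (k : G) (h : H), (k : X)⁻¹ * a * (h : X)⁻¹ ∈ Y → (k : X)⁻¹ * g * σ k ∈ Y := by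
    intro k h hb
    have hh : σ (h : X) = h := h.2
    have e1 : (k : X)⁻¹ * g * σ k = ((k : X)⁻¹ * a * (h : X)⁻¹) * (σ ((k : X)⁻¹ * a * (h : X)⁻¹))⁻¹ := by
      rw [ha, map_mul, map_mul, map_inv, map_inv, hh]
      group
    rw [e1]
    exact mul_mem hb (inv_mem ((hY _).1 hb))
  have hB : ∀ (k : G) (h : H), (k : X)⁻¹ * a * (h : X)⁻¹ ∈ Y →
      ((h⁻¹ : H) : X)⁻¹ * (((σ ^ e) a)⁻¹ * a) * ((h⁻¹ : H) : X) ∈ Y := by
    intro k h hb
    have hk : (σ ^ e) (k : X) = k := k.2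
    have hh : (σ ^ e) (h : X) = h := fix_pow σ h.2 e
    have e1 : ((h⁻¹ : H) : X)⁻¹ * (((σ ^ e) a)⁻¹ * a) * ((h⁻¹ : H) : X) =
        ((σ ^ e) ((k : X)⁻¹ * a * (h : X)⁻¹))⁻¹ * ((k : X)⁻¹ * a * (h : X)⁻¹) := by
      rw [map_mul, map_mul, map_inv, map_inv, hk, hh]
      simp only [Subgroup.coe_inv]
      group
    rw [e1]
    exact mul_mem (inv_mem (mem_pow σ Y hY hb e)) hb
  -- fibres over `A`
  let f₁ : T → {k : G // (k : X)⁻¹ * g * σ k ∈ Y} := fun t => ⟨t.1.1, hA t.1.1 t.1.2 t.2⟩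
  have fib₁ : ∀ A, Nonempty ({t // f₁ t = A} ≃ ↥(Y ⊓ H)) := by
    rintro ⟨k, hk⟩
    -- the base point
    obtain ⟨b, hbY, hb⟩ := hYL _ hk
    have hh₀ : σ (b⁻¹ * (k : X)⁻¹ * a) = b⁻¹ * (k : X)⁻¹ * a := by
      rw [ha] at hb
      rw [map_mul, map_mul, map_inv, map_inv]
      have h1 : (k : X)⁻¹ * a = b * (σ b)⁻¹ * (σ k)⁻¹ * σ a := by
        have h2 : (k : X)⁻¹ * (a * (σ a)⁻¹) * σ (k : X) = b * (σ b)⁻¹ := hb
        calc (k : X)⁻¹ * a = ((k : X)⁻¹ * (a * (σ a)⁻¹) * σ (k : X)) * (σ k)⁻¹ * σ a := by group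
          _ = _ := by rw [h2]
      rw [show b⁻¹ * (k : X)⁻¹ * a = b⁻¹ * ((k : X)⁻¹ * a) by group, h1]
      group
    let h₀ : H := ⟨b⁻¹ * (k : X)⁻¹ * a, hh₀⟩
    have hbase : (k : X)⁻¹ * a * (h₀ : X)⁻¹ = b := by
      show (k : X)⁻¹ * a * (b⁻¹ * (k : X)⁻¹ * a)⁻¹ = b
      group
    let φ : ↥(Y ⊓ H) → {t // f₁ t = ⟨k, hk⟩} := fun z =>
      ⟨⟨(k, (⟨z.1, z.2.2⟩ : H)⁻¹ * h₀), by
        show (k : X)⁻¹ * a * ((z.1)⁻¹ * (h₀ : X))⁻¹ ∈ Y
        have e1 : (k : X)⁻¹ * a * ((z.1)⁻¹ * (h₀ : X))⁻¹ = ((k : X)⁻¹ * a * (h₀ : X)⁻¹) * z.1 := by group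
        rw [e1, hbase]
        exact mul_mem hbY z.2.1⟩, rfl⟩
    have hinj : Function.Injective φ := by
      intro z z' hzz
      have h1 : ((⟨z.1, z.2.2⟩ : H)⁻¹ * h₀ : H) = (⟨z'.1, z'.2.2⟩ : H)⁻¹ * h₀ :=
        congrArg (fun t : {t // f₁ t = ⟨k, hk⟩} => t.1.1.2) hzz
      have h2 := inv_injective (mul_right_cancel h1)
      exact Subtype.ext (congrArg (fun w : H => (w : X)) h2)
    have hsurj : Function.Surjective φ := by
      rintro ⟨⟨⟨k', h⟩, ht⟩, hf⟩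
      have hk' : k' = k := congrArg Subtype.val hf
      subst hk'
      have hz : (h₀ : X) * (h : X)⁻¹ ∈ Y := by
        have e1 : (h₀ : X) * (h : X)⁻¹ = b⁻¹ * ((k' : X)⁻¹ * a * (h : X)⁻¹) := by
          rw [← hbase]; group
        rw [e1]
        exact mul_mem (inv_mem hbY) ht
      refine ⟨⟨(h₀ : X) * (h : X)⁻¹, hz, (h₀ * h⁻¹ : H).2⟩, ?_⟩
      apply Subtype.ext
      apply Subtype.ext
      apply Prod.ext
      · rfl
      · apply Subtype.ext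
        show ((h₀ : X) * (h : X)⁻¹)⁻¹ * (h₀ : X) = h
        group
    exact ⟨(Equiv.ofBijective φ ⟨hinj, hsurj⟩).symm⟩
  -- fibres over `B`
  let f₂ : T → {h : H // (h : X)⁻¹ * (((σ ^ e) a)⁻¹ * a) * h ∈ Y} := fun t =>
    ⟨t.1.2⁻¹, hB t.1.1 t.1.2 t.2⟩
  have fib₂ : ∀ B, Nonempty ({t // f₂ t = B} ≃ ↥(Y ⊓ G)) := by
    rintro ⟨h, hh⟩
    have hhe : (σ ^ e) (h : X) = h := fix_pow σ h.2 e
    set c : X := a * h with hc
    have hcc : ((σ ^ e) c)⁻¹ * c = (h : X)⁻¹ * (((σ ^ e) a)⁻¹ * a) * h := by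
      rw [hc, map_mul, hhe]
      group
    rw [← hcc] at hh
    obtain ⟨a', ha'Y, ha'⟩ := hYLe _ (inv_mem hh)
    set b := a'⁻¹ with hb
    have hbY : b ∈ Y := inv_mem ha'Y
    have hk₀ : (σ ^ e) (c * b⁻¹) = c * b⁻¹ := by
      have h1 : ((σ ^ e) c)⁻¹ * c = ((σ ^ e) b)⁻¹ * b := by
        have h2 := congrArg (·⁻¹) ha'
        simp only [inv_inv] at h2
        rw [h2, hb, map_inv]
        group
      rw [map_mul, map_inv]
      have h3 : c = (σ ^ e) c * (((σ ^ e) b)⁻¹ * b) := by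
        rw [← h1]; group
      calc (σ ^ e) c * ((σ ^ e) b)⁻¹ = ((σ ^ e) c * (((σ ^ e) b)⁻¹ * b)) * b⁻¹ := by group
        _ = c * b⁻¹ := by rw [← h3]
    let k₀ : G := ⟨c * b⁻¹, hk₀⟩
    have hbase : (k₀ : X)⁻¹ * a * (h : X) = b := by
      show (c * b⁻¹)⁻¹ * a * (h : X) = b
      rw [hc]; group
    let φ : ↥(Y ⊓ G) → {t // f₂ t = ⟨h, by rw [← hcc] ; exact hh⟩} := fun z =>
      ⟨⟨(k₀ * (⟨z.1, z.2.2⟩ : G)⁻¹, h⁻¹), by
        show ((k₀ : X) * (z.1)⁻¹)⁻¹ * a * (((h⁻¹ : H) : X))⁻¹ ∈ Y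
        have e1 : ((k₀ : X) * (z.1)⁻¹)⁻¹ * a * (((h⁻¹ : H) : X))⁻¹ = z.1 * ((k₀ : X)⁻¹ * a * (h : X)) := by
          simp only [Subgroup.coe_inv]
          group
        rw [e1, hbase]
        exact mul_mem z.2.1 hbY⟩, Subtype.ext (inv_inv h)⟩
    have hinj : Function.Injective φ := by
      intro z z' hzz
      have h1 : (k₀ * (⟨z.1, z.2.2⟩ : G)⁻¹ : G) = k₀ * (⟨z'.1, z'.2.2⟩ : G)⁻¹ :=
        congrArg (fun t : {t // f₂ t = ⟨h, _⟩} => t.1.1.1) hzz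
      have h2 := inv_injective (mul_left_cancel h1)
      exact Subtype.ext (congrArg (fun w : G => (w : X)) h2)
    have hsurj : Function.Surjective φ := by
      rintro ⟨⟨⟨k, h'⟩, ht⟩, hf⟩
      have hh' : h'⁻¹ = h := congrArg Subtype.val hf
      obtain rfl : h' = h⁻¹ := by rw [← hh', inv_inv]
      have ht' : (k : X)⁻¹ * a * (h : X) ∈ Y := by
        have h1 : (k : X)⁻¹ * a * (((h⁻¹ : H) : X))⁻¹ ∈ Y := ht
        simpa using h1
      have hz : (k : X)⁻¹ * (k₀ : X) ∈ Y := by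
        have e1 : (k : X)⁻¹ * (k₀ : X) = ((k : X)⁻¹ * a * (h : X)) * b⁻¹ := by
          rw [← hbase]; group
        rw [e1]
        exact mul_mem ht' (inv_mem hbY)
      refine ⟨⟨(k : X)⁻¹ * (k₀ : X), hz, (k⁻¹ * k₀ : G).2⟩, ?_⟩
      apply Subtype.ext
      apply Subtype.ext
      apply Prod.ext
      · apply Subtype.ext
        show (k₀ : X) * ((k : X)⁻¹ * (k₀ : X))⁻¹ = k
        group
      · rfl
    exact ⟨(Equiv.ofBijective φ ⟨hinj, hsurj⟩).symm⟩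
  rw [← card_of_fibers f₁ fib₁, card_of_fibers f₂ fib₂]

end Cfsg.Agent.S2669
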