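import Cfsg.Statements.S2678
import Cfsg.Agent.Lib.GUEmbed

set_option autoImplicit false
open Cfsg

namespace Cfsg.Agent.S2678


open Matrix in
theorem pairing {l : Type*} [Fintype l] [DecidableEq l] {F : Type*} [Field F] (v w : l ⊕ l → F) :
    v ⬝ᵥ (Matrix.J l F *ᵥ w)
      = - ∑ i, (v (Sum.inl i) * w (Sum.inr i) - v (Sum.inr i) * w (Sum.inl i)) := by
  classical
  have hw : w = Sum.elim (w ∘ Sum.inl) (w ∘ Sum.inr) := by
    funext i; rcases i with i | i <;> rfl
  conv_lhs => rw [hw]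
  rw [Matrix.J, Matrix.fromBlocks_mulVec, dotProduct, Fintype.sum_sum_type, ← Finset.sum_add_distrib,
    ← Finset.sum_neg_distrib]
  refine Finset.sum_congr rfl fun i _ => ?_
  simp [Matrix.neg_mulVec]
  ring

open Matrix in
theorem mem_symplectic {l : Type*} [Fintype l] [DecidableEq l] {F : Type*} [Field F]
    (A : Matrix (l ⊕ l) (l ⊕ l) F)
    (h : ∀ v w : l ⊕ l → F, (∑ i, ((A *ᵥ v) (Sum.inl i) * (A *ᵥ w) (Sum.inr i)
        - (A *ᵥ v) (Sum.inr i) * (A *ᵥ w) (Sum.inl i)))
      = ∑ i, (v (Sum.inl i) * w (Sum.inr i) - v (Sum.inr i) * w (Sum.inl i))) :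
    A ∈ Matrix.symplecticGroup l F := by
  classical
  rw [SymplecticGroup.mem_iff']
  ext i j
  have h1 : ∀ (M : Matrix (l ⊕ l) (l ⊕ l) F) i j, M i j = (Pi.single i 1) ⬝ᵥ (M *ᵥ Pi.single j 1) := by
    intro M i j
    simp
  rw [h1 (Aᵀ * Matrix.J l F * A) i j, h1 (Matrix.J l F) i j, pairing, ← Matrix.mulVec_mulVec, ← Matrix.mulVec_mulVec,
    Matrix.dotProduct_mulVec, Matrix.vecMul_transpose, pairing, h]

open Matrix in
theorem symplectic_pres {l : Type*} [Fintype l] [DecidableEq l] {F : Type*} [Field F]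
    (A : Matrix (l ⊕ l) (l ⊕ l) F) (hA : A ∈ Matrix.symplecticGroup l F) (v w : l ⊕ l → F) :
    (∑ i, ((A *ᵥ v) (Sum.inl i) * (A *ᵥ w) (Sum.inr i) - (A *ᵥ v) (Sum.inr i) * (A *ᵥ w) (Sum.inl i)))
      = ∑ i, (v (Sum.inl i) * w (Sum.inr i) - v (Sum.inr i) * w (Sum.inl i)) := by
  classical
  rw [SymplecticGroup.mem_iff'] at hA
  have h1 := pairing (A *ᵥ v) (A *ᵥ w)
  have h2 := pairing v w
  rw [← hA, ← Matrix.mulVec_mulVec, ← Matrix.mulVec_mulVec, Matrix.dotProduct_mulVec,
    Matrix.vecMul_transpose] at h2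
  rw [h1] at h2
  exact neg_injective h2


/-- Field-extension embedding of symplectic groups: for a field K with q² elements and a field F with q elements there is an injective homomorphism Sp_2a(K) → Sp_4a(F). -/
theorem result {K F : Type*} [Field K] [Fintype K] [Field F] [Fintype F] {q : ℕ} (hK : Fintype.card K = q ^ 2) (hF : Fintype.card F = q) (a : ℕ) : ∃ φ : ↥(Matrix.symplecticGroup (Fin a) K) →* ↥(Matrix.symplecticGroup (Fin (2 * a)) F), Function.Injective φ := by
  classical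
  obtain ⟨φ, ι, δ, s, ζ, f, hφ, h2, hι, hsurj, hδ0, hδ, hs, hζ, hζ1, hf⟩ :=
    Cfsg.Agent.Lib.GUEmbed.exists_all hK hF
  letI : Algebra F K := ι.toAlgebra
  have hι' : ∀ x : F, φ (algebraMap F K x) = algebraMap F K x := hι
  let e : Fin (2 * a) ≃ Fin a ⊕ Fin a := (finCongr (two_mul a)).trans finSumFinEquiv.symm
  let ρ₀ : (Fin (2 * a) ⊕ Fin (2 * a) → F) →ₗ[F] (Fin a ⊕ Fin a → K) :=
    { toFun := fun v i => Sum.elim
        (fun i => algebraMap F K (v (Sum.inl (e.symm (Sum.inl i))))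
          + algebraMap F K (v (Sum.inl (e.symm (Sum.inr i)))) * f)
        (fun i => algebraMap F K (-(v (Sum.inr (e.symm (Sum.inl i))))) * φ f
          + algebraMap F K (v (Sum.inr (e.symm (Sum.inr i))))) i
      map_add' := by
        intro x y
        funext i
        dsimp only [Pi.add_apply]
        rcases i with i | i <;> simp only [Sum.elim_inl, Sum.elim_inr, Pi.add_apply, map_add, map_neg, neg_add] <;> ring
      map_smul' := by
        intro c x
        funext i
        dsimp only [Pi.smul_apply, RingHom.id_apply]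
        rcases i with i | i <;> simp only [Sum.elim_inl, Sum.elim_inr, Pi.smul_apply, smul_eq_mul, map_mul, map_neg,
          Algebra.smul_def (R := F) (A := K)] <;> ring }
  have hρl : ∀ v i, ρ₀ v (Sum.inl i) = algebraMap F K (v (Sum.inl (e.symm (Sum.inl i))))
          + algebraMap F K (v (Sum.inl (e.symm (Sum.inr i)))) * f := fun _ _ => rfl
  have hρr : ∀ v i, ρ₀ v (Sum.inr i) = algebraMap F K (-(v (Sum.inr (e.symm (Sum.inl i))))) * φ f
          + algebraMap F K (v (Sum.inr (e.symm (Sum.inr i)))) := fun _ _ => rfl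
  -- the functional `T z = δ (φ z - z)`
  have hT : ∀ x y x' y' : F, δ * (φ ((algebraMap F K x + algebraMap F K y * f) *
        (algebraMap F K (-x') * φ f + algebraMap F K y')) - (algebraMap F K x + algebraMap F K y * f) *
        (algebraMap F K (-x') * φ f + algebraMap F K y')) = algebraMap F K (x * x' + y * y') := by
    intro x y x' y'
    simp only [map_mul, map_add, hι', h2, map_neg]
    linear_combination (algebraMap F K x * algebraMap F K x' + algebraMap F K y * algebraMap F K y') * hf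
  have hf' : (-δ) * (φ (φ f) - φ f) = 1 := by
    rw [h2]; linear_combination hf
  have hinj : Function.Injective ρ₀ := by
    rw [injective_iff_map_eq_zero]
    intro v hv
    have h1 : ∀ i, v (Sum.inl (e.symm (Sum.inl i))) = 0 ∧ v (Sum.inl (e.symm (Sum.inr i))) = 0 := by
      intro i
      have := congrFun hv (Sum.inl i)
      rw [hρl] at this
      exact Cfsg.Agent.Lib.GUEmbed.coord_inj hι' hf this
    have h3 : ∀ i, v (Sum.inr (e.symm (Sum.inl i))) = 0 ∧ v (Sum.inr (e.symm (Sum.inr i))) = 0 := by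
      intro i
      have := congrFun hv (Sum.inr i)
      rw [hρr, add_comm] at this
      obtain ⟨h4, h5⟩ := Cfsg.Agent.Lib.GUEmbed.coord_inj hι' hf' this
      exact ⟨neg_eq_zero.1 h5, h4⟩
    funext j
    rcases j with j | j
    · obtain ⟨u, rfl⟩ := e.symm.surjective j
      rcases u with i | i
      · exact (h1 i).1
      · exact (h1 i).2
    · obtain ⟨u, rfl⟩ := e.symm.surjective j
      rcases u with i | i
      · exact (h3 i).1
      · exact (h3 i).2
  obtain ⟨ρ, hρ⟩ := Cfsg.Agent.Lib.GUEmbed.exists_equiv hK hF (by simp; ring) ρ₀ hinj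
  have hform : ∀ v w : Fin (2 * a) ⊕ Fin (2 * a) → F, algebraMap F K (∑ j, (v (Sum.inl j) * w (Sum.inr j)
      - v (Sum.inr j) * w (Sum.inl j)))
      = δ * (φ (∑ i, (ρ v (Sum.inl i) * ρ w (Sum.inr i) - ρ v (Sum.inr i) * ρ w (Sum.inl i)))
        - ∑ i, (ρ v (Sum.inl i) * ρ w (Sum.inr i) - ρ v (Sum.inr i) * ρ w (Sum.inl i))) := by
    intro v w
    rw [← Equiv.sum_comp e.symm, Fintype.sum_sum_type, map_add, map_sum, map_sum, ← Finset.sum_add_distrib, map_sum,
      ← Finset.sum_sub_distrib, Finset.mul_sum]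
    refine Finset.sum_congr rfl fun i _ => ?_
    simp only [hρ, hρl, hρr]
    have e1 := hT (v (Sum.inl (e.symm (Sum.inl i)))) (v (Sum.inl (e.symm (Sum.inr i))))
      (w (Sum.inr (e.symm (Sum.inl i)))) (w (Sum.inr (e.symm (Sum.inr i))))
    have e2 := hT (w (Sum.inl (e.symm (Sum.inl i)))) (w (Sum.inl (e.symm (Sum.inr i))))
      (v (Sum.inr (e.symm (Sum.inl i)))) (v (Sum.inr (e.symm (Sum.inr i))))
    simp only [map_add, map_mul, map_sub] at e1 e2 ⊢
    linear_combination -e1 + e2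
  have hmem : ∀ A : Matrix.symplecticGroup (Fin a) K,
      Cfsg.Agent.Lib.GUEmbed.transferMat ρ A.1 ∈ Matrix.symplecticGroup (Fin (2 * a)) F := by
    intro A
    apply mem_symplectic
    intro v w
    apply (algebraMap F K).injective
    rw [hform, hform, Cfsg.Agent.Lib.GUEmbed.transferMat_mulVec, Cfsg.Agent.Lib.GUEmbed.transferMat_mulVec]
    rw [symplectic_pres A.1 A.2]
  refine ⟨((Cfsg.Agent.Lib.GUEmbed.transferMat ρ).comp (Matrix.symplecticGroup (Fin a) K).subtype).codRestrict _ hmem, ?_⟩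
  intro A B hAB
  apply Subtype.ext
  apply Matrix.ext_of_mulVec_single
  intro j
  have h1 : Cfsg.Agent.Lib.GUEmbed.transferMat ρ A.1 = Cfsg.Agent.Lib.GUEmbed.transferMat ρ B.1 := congrArg Subtype.val hAB
  have h3 := Cfsg.Agent.Lib.GUEmbed.transferMat_mulVec ρ A.1 (ρ.symm (Pi.single j 1))
  have h4 := Cfsg.Agent.Lib.GUEmbed.transferMat_mulVec ρ B.1 (ρ.symm (Pi.single j 1))
  rw [h1, h4] at h3
  simpa using h3.symm

end Cfsg.Agent.S2678
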