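import Cfsg.Statements.S2679
import Cfsg.Agent.S2641

set_option autoImplicit false
open Cfsg

namespace Cfsg.Agent.S2679


open Cfsg in
theorem quad_expand {F K : Type*} [Field F] [Field K] (ι : F →+* K) (θ : K) (a c : F) (n : ℕ)
    (u v : (Fin n ⊕ Fin n) ⊕ Fin 2 → F) :
    quadFormMinus n K (ι a) (ι c) (fun i => ι (u i) + θ * ι (v i))
      = ι (quadFormMinus n F a c u) + θ ^ 2 * ι (quadFormMinus n F a c v)
        + θ * ι (quadFormMinus n F a c (u + v) - quadFormMinus n F a c u - quadFormMinus n F a c v) := by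
  simp only [quadFormMinus, map_add, map_sub, map_sum, map_mul, map_pow, Pi.add_apply]
  have hs : ∀ i : Fin n, (ι (u (Sum.inl (Sum.inl i))) + θ * ι (v (Sum.inl (Sum.inl i)))) *
      (ι (u (Sum.inl (Sum.inr i))) + θ * ι (v (Sum.inl (Sum.inr i))))
      = ι (u (Sum.inl (Sum.inl i))) * ι (u (Sum.inl (Sum.inr i)))
        + θ ^ 2 * (ι (v (Sum.inl (Sum.inl i))) * ι (v (Sum.inl (Sum.inr i))))
        + θ * ((ι (u (Sum.inl (Sum.inl i))) + ι (v (Sum.inl (Sum.inl i)))) *
            (ι (u (Sum.inl (Sum.inr i))) + ι (v (Sum.inl (Sum.inr i))))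
          - ι (u (Sum.inl (Sum.inl i))) * ι (u (Sum.inl (Sum.inr i)))
          - ι (v (Sum.inl (Sum.inl i))) * ι (v (Sum.inl (Sum.inr i)))) := by
    intro i; ring
  simp only [hs, Finset.sum_add_distrib, Finset.sum_sub_distrib, ← Finset.mul_sum]
  ring


/-- An elliptic orthogonal group embeds in the hyperbolic orthogonal group of the same dimension over the quadratic extension: for a field F with q elements and a field K with q² elements there is an injective homomorphism from O⁻_2m(F) (isometries of Σ_(j<m−1) x_j y_j + z₁² + a z₁z₂ + c z₂², binary part anisotropic) to O⁺_2m(K) (isometries of Σ_(j<m) x_j y_j over K). -/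
theorem result {F K : Type*} [Field F] [Fintype F] [Field K] [Fintype K] {q : ℕ} (hF : Fintype.card F = q) (hK : Fintype.card K = q ^ 2) {m : ℕ} (hm : 1 ≤ m) (a c : F) (hac : ∀ z₁ z₂ : F, z₁ ^ 2 + a * z₁ * z₂ + c * z₂ ^ 2 = 0 → z₁ = 0 ∧ z₂ = 0) : ∃ φ : ↥(Cfsg.isometryGroup F (Cfsg.quadFormMinus (m - 1) F a c)) →* ↥(Cfsg.isometryGroup K (Cfsg.quadFormPlus m K)), Function.Injective φ := by
  classical
  obtain ⟨φ, ι, hφ, h2, hι, hsurj, w, hw⟩ := Cfsg.Agent.Lib.GUEmbed.exists_setup hK hF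
  letI : Algebra F K := ι.toAlgebra
  have hι' : ∀ x : F, φ (algebraMap F K x) = algebraMap F K x := hι
  have hsurj' : ∀ x, φ x = x → ∃ y : F, algebraMap F K y = x := hsurj
  obtain ⟨θ, hθ1, hθ2⟩ := Cfsg.Agent.S2641.exists_theta hK hF hι' hsurj' a c hac
  have hθ1' : θ + φ θ = ι a := hθ1
  have hθ2' : θ * φ θ = ι c := hθ2
  have hnorm : ∀ x y : F, (ι x + ι y * θ) * (ι x + ι y * φ θ) = ι (x ^ 2 + a * x * y + c * y ^ 2) := by
    intro x y
    simp only [map_add, map_mul, map_pow]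
    rw [← hθ1', ← hθ2']
    ring
  have hne : θ - φ θ ≠ 0 := by
    intro h
    have h3 : φ θ = θ := (sub_eq_zero.1 h).symm
    obtain ⟨y, hy⟩ := hsurj θ h3
    have h4 : (ι (-y) + ι 1 * θ) * (ι (-y) + ι 1 * φ θ) = 0 := by
      rw [h3, ← hy]
      simp
    rw [hnorm] at h4
    have h5 := (map_eq_zero_iff _ ι.injective).1 h4
    have := hac _ _ h5
    exact one_ne_zero this.2
  have hdec : ∀ z : K, ∃ x y : F, z = ι x + θ * ι y := by
    let f : F × F → K := fun p => ι p.1 + θ * ι p.2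
    have hf : Function.Bijective f := by
      rw [Fintype.bijective_iff_injective_and_card]
      refine ⟨?_, by simp [hF, hK, sq]⟩
      rintro ⟨x, y⟩ ⟨x', y'⟩ hxy
      have h3 : ι (x - x') + ι (y - y') * θ = 0 := by
        have : ι x + θ * ι y = ι x' + θ * ι y' := hxy
        simp only [map_sub]
        linear_combination this
      have h4 : (ι (x - x') + ι (y - y') * θ) * (ι (x - x') + ι (y - y') * φ θ) = 0 := by
        rw [h3, zero_mul]
      rw [hnorm] at h4
      have h5 := (map_eq_zero_iff _ ι.injective).1 h4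
      obtain ⟨h6, h7⟩ := hac _ _ h5
      rw [Prod.mk.injEq]
      exact ⟨sub_eq_zero.1 h6, sub_eq_zero.1 h7⟩
    intro z
    obtain ⟨⟨x, y⟩, hp⟩ := hf.2 z
    exact ⟨x, y, hp.symm⟩
  choose dx dy hd using hdec
  -- the group elements over `K` preserve the extended form
  have hpres : ∀ g : Cfsg.isometryGroup F (Cfsg.quadFormMinus (m - 1) F a c),
      ∀ w : (Fin (m - 1) ⊕ Fin (m - 1)) ⊕ Fin 2 → K,
      Cfsg.quadFormMinus (m - 1) K (ι a) (ι c) ((Matrix.GeneralLinearGroup.map ι g.1).1.mulVec w)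
        = Cfsg.quadFormMinus (m - 1) K (ι a) (ι c) w := by
    intro g w
    have hQ : ∀ u, Cfsg.quadFormMinus (m - 1) F a c (g.1.1.mulVec u) = Cfsg.quadFormMinus (m - 1) F a c u :=
      fun u => g.2 u u
    let u : (Fin (m - 1) ⊕ Fin (m - 1)) ⊕ Fin 2 → F := fun i => dx (w i)
    let v : (Fin (m - 1) ⊕ Fin (m - 1)) ⊕ Fin 2 → F := fun i => dy (w i)
    have hw : w = fun i => ι (u i) + θ * ι (v i) := funext fun i => hd (w i)
    have hw2 : (Matrix.GeneralLinearGroup.map ι g.1).1.mulVec w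
        = fun i => ι ((g.1.1.mulVec u) i) + θ * ι ((g.1.1.mulVec v) i) := by
      funext i
      have h3 : (Matrix.GeneralLinearGroup.map ι g.1).1 = g.1.1.map ι := rfl
      rw [h3, RingHom.map_mulVec, RingHom.map_mulVec, hw]
      have h4 : (fun i => ι (u i) + θ * ι (v i)) = (ι ∘ u) + θ • (ι ∘ v) := rfl
      rw [h4, Matrix.mulVec_add, Matrix.mulVec_smul]
      rfl
    rw [hw2, hw, quad_expand, quad_expand, hQ, hQ, ← Matrix.mulVec_add, hQ]
  -- the change of coordinates
  have hm1 : m - 1 + 1 = m := by omega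
  let eg : Fin m ≃ Fin (m - 1) ⊕ Fin 1 := (finCongr hm1.symm).trans finSumFinEquiv.symm
  let ρ₀ : (Fin m ⊕ Fin m → K) →ₗ[K] ((Fin (m - 1) ⊕ Fin (m - 1)) ⊕ Fin 2 → K) :=
    { toFun := fun v i => match i with
        | Sum.inl (Sum.inl j) => v (Sum.inl (eg.symm (Sum.inl j)))
        | Sum.inl (Sum.inr j) => v (Sum.inr (eg.symm (Sum.inl j)))
        | Sum.inr k => if k = 0 then
            v (Sum.inl (eg.symm (Sum.inr 0))) - θ * ((v (Sum.inl (eg.symm (Sum.inr 0))) - v (Sum.inr (eg.symm (Sum.inr 0)))) / (θ - φ θ))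
            else (v (Sum.inl (eg.symm (Sum.inr 0))) - v (Sum.inr (eg.symm (Sum.inr 0)))) / (θ - φ θ)
      map_add' := by
        intro x y
        funext i
        rcases i with (j | j) | k
        · rfl
        · rfl
        · fin_cases k
          · simp
            ring
          · simp
            ring
      map_smul' := by
        intro c x
        funext i
        rcases i with (j | j) | k
        · rfl
        · rfl
        · fin_cases k
          · simp
            ring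
          · simp
            ring }
  have hρ1 : ∀ v j, ρ₀ v (Sum.inl (Sum.inl j)) = v (Sum.inl (eg.symm (Sum.inl j))) := fun _ _ => rfl
  have hρ2 : ∀ v j, ρ₀ v (Sum.inl (Sum.inr j)) = v (Sum.inr (eg.symm (Sum.inl j))) := fun _ _ => rfl
  have hρ3 : ∀ v, ρ₀ v (Sum.inr 0) = v (Sum.inl (eg.symm (Sum.inr 0))) - θ * ((v (Sum.inl (eg.symm (Sum.inr 0))) - v (Sum.inr (eg.symm (Sum.inr 0)))) / (θ - φ θ)) := fun _ => rfl
  have hρ4 : ∀ v, ρ₀ v (Sum.inr 1) = (v (Sum.inl (eg.symm (Sum.inr 0))) - v (Sum.inr (eg.symm (Sum.inr 0)))) / (θ - φ θ) := fun _ => rfl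
  have hinj : Function.Injective ρ₀ := by
    rw [injective_iff_map_eq_zero]
    intro v hv
    have h1 : ∀ j, v (Sum.inl (eg.symm (Sum.inl j))) = 0 := fun j => by
      rw [← hρ1 v j, hv]; rfl
    have h3 : ∀ j, v (Sum.inr (eg.symm (Sum.inl j))) = 0 := fun j => by
      rw [← hρ2 v j, hv]; rfl
    have h4 : ρ₀ v (Sum.inr 0) = 0 := by rw [hv]; rfl
    have h5 : ρ₀ v (Sum.inr 1) = 0 := by rw [hv]; rfl
    rw [hρ3] at h4
    rw [hρ4] at h5
    rw [h5, mul_zero, sub_zero] at h4
    rw [h4, div_eq_zero_iff] at h5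
    have h6 : v (Sum.inr (eg.symm (Sum.inr 0))) = 0 := by
      rcases h5 with h5 | h5
      · simpa using h5
      · exact absurd h5 hne
    have key : ∀ u, v (Sum.inl (eg.symm u)) = 0 ∧ v (Sum.inr (eg.symm u)) = 0 := by
      intro u
      rcases u with j | k
      · exact ⟨h1 j, h3 j⟩
      · have : k = 0 := Subsingleton.elim _ _
        subst this
        exact ⟨h4, h6⟩
    funext i
    rcases i with i | i
    · obtain ⟨u, rfl⟩ := eg.symm.surjective i
      exact (key u).1
    · obtain ⟨u, rfl⟩ := eg.symm.surjective i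
      exact (key u).2
  have hbij : Function.Bijective ρ₀ := by
    rw [Fintype.bijective_iff_injective_and_card]
    refine ⟨hinj, ?_⟩
    rw [Fintype.card_fun, Fintype.card_fun]
    congr 1
    simp only [Fintype.card_sum, Fintype.card_fin]
    omega
  let ρ := LinearEquiv.ofBijective ρ₀ hbij
  have hρ : ∀ v, ρ v = ρ₀ v := fun _ => rfl
  have hQρ : ∀ v, Cfsg.quadFormMinus (m - 1) K (ι a) (ι c) (ρ v) = Cfsg.quadFormPlus m K v := by
    intro v
    rw [hρ, Cfsg.quadFormMinus, Cfsg.quadFormPlus, hρ3, hρ4, ← Equiv.sum_comp eg.symm, Fintype.sum_sum_type]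
    simp only [hρ1, hρ2, Fin.sum_univ_one]
    congr 1
    rw [← hθ1', ← hθ2']
    field_simp
    ring
  obtain ⟨Φ, hΦ, hΦ2⟩ := Cfsg.Agent.Lib.GUEmbed.exists_transfer ρ
  refine ⟨((Φ.comp (Matrix.GeneralLinearGroup.map ι)).comp
    (Cfsg.isometryGroup F (Cfsg.quadFormMinus (m - 1) F a c)).subtype).codRestrict
      (Cfsg.isometryGroup K (Cfsg.quadFormPlus m K)) ?_, ?_⟩
  · intro g u _
    show Cfsg.quadFormPlus m K ((Φ (Matrix.GeneralLinearGroup.map ι g.1)).1.mulVec u) = Cfsg.quadFormPlus m K u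
    rw [← hQρ, hΦ2, hpres, hQρ]
  · intro g h hgh
    apply Subtype.ext
    have h3 : Φ (Matrix.GeneralLinearGroup.map ι g.1) = Φ (Matrix.GeneralLinearGroup.map ι h.1) :=
      congrArg Subtype.val hgh
    have h4 := hΦ h3
    apply Units.ext
    ext i j
    apply ι.injective
    exact congrArg (fun x : GL _ K => x.1 i j) h4

end Cfsg.Agent.S2679
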