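import Cfsg.Statements.S2738
import Cfsg.Agent.Lib.SLn
import Cfsg.Agent.Lib.GrpMisc

set_option autoImplicit false
open Cfsg

namespace Cfsg.Agent.S2738

/-- The special linear group SL(3, 4) has centre of order 3 and does not split over it: no subgroup is a complement to the centre (so SL(3, 4) is a non-split central extension of PSL(3, 4) by a group of order 3). -/
theorem result (F : Type*) [Field F] [Fintype F] (hF : Fintype.card F = 4) : Nat.card ↥(Subgroup.center (Matrix.SpecialLinearGroup (Fin 3) F)) = 3 ∧ ¬ ∃ K : Subgroup (Matrix.SpecialLinearGroup (Fin 3) F), Subgroup.IsComplement' (Subgroup.center (Matrix.SpecialLinearGroup (Fin 3) F)) K := by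
  classical
  have hcen : Nat.card ↥(Subgroup.center (Matrix.SpecialLinearGroup (Fin 3) F)) = 3 := by
    rw [Cfsg.Agent.Lib.SLn.card_center_SL, Fintype.card_fin, hF]
    rfl
  refine ⟨hcen, ?_⟩
  apply Cfsg.Agent.Lib.GrpMisc.no_complement_center
  · exact Cfsg.Agent.Lib.SLn.commutator_eq_top_of_three (by simp)
  · intro h
    rw [h] at hcen
    simp at hcen

end Cfsg.Agent.S2738
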