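import Cfsg.Statements.S2758
import Cfsg.Agent.Lib.Dihedral
import Cfsg.Agent.Lib.SchurZ2
import Cfsg.Agent.Lib.Commutators

set_option autoImplicit false
open Cfsg

namespace Cfsg.Agent.S2758

open Subgroup DihedralGroup Cfsg.Agent.Lib

section aux
variable {X : Type*} [Group X] [Finite X] {p : ℕ} [Fact p.Prime]

/-- An element acting nontrivially gives an inverted element. -/
theorem step_BC {x : X} {P : Subgroup X} (hx : ∃ k : ℕ, orderOf x = 2 ^ k) (hP : IsPGroup p P)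
    (hN : x ∈ normalizer (P : Set X)) (hC : x ∉ centralizer (P : Set X)) :
    ∃ x' y : X, (∃ k : ℕ, orderOf x' = 2 ^ k) ∧ (∃ k : ℕ, orderOf y = p ^ k) ∧ y ≠ 1 ∧
      x' * y * x'⁻¹ = y⁻¹ := by
  classical
  obtain ⟨k, hk⟩ := hx
  have hex : ∃ j : ℕ, x ^ 2 ^ j ∈ centralizer (P : Set X) := by
    refine ⟨k, ?_⟩
    rw [← hk, pow_orderOf_eq_one]
    exact one_mem _
  set j₀ := Nat.find hex with hj₀
  have hj₀s : x ^ 2 ^ j₀ ∈ centralizer (P : Set X) := Nat.find_spec hex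
  have hj₀ne : j₀ ≠ 0 := by
    intro h
    rw [h] at hj₀s
    apply hC
    simpa using hj₀s
  obtain ⟨i, hi⟩ := Nat.exists_eq_succ_of_ne_zero hj₀ne
  have hmin : x ^ 2 ^ i ∉ centralizer (P : Set X) := Nat.find_min hex (by omega)
  set t := x ^ 2 ^ i with ht
  have ht2 : t ^ 2 ∈ centralizer (P : Set X) := by
    rw [hi] at hj₀s
    have e : t ^ 2 = x ^ 2 ^ (i + 1) := by
      rw [ht, ← pow_mul, pow_succ]
    rw [e]
    exact hj₀s
  have htN : t ∈ normalizer (P : Set X) := pow_mem hN _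
  have hne : ∃ g ∈ P, g * t ≠ t * g := by
    by_contra hcon
    push_neg at hcon
    exact hmin (mem_centralizer_iff.2 hcon)
  obtain ⟨g, hg, hgt⟩ := hne
  have hg' : t * g * t⁻¹ ∈ P := (mem_normalizer_iff.1 htN g).1 hg
  have hyP : g⁻¹ * (t * g * t⁻¹) ∈ P := P.mul_mem (P.inv_mem hg) hg'
  refine ⟨t, g⁻¹ * (t * g * t⁻¹), ?_, ?_, ?_, ?_⟩
  · have h1 : orderOf t ∣ 2 ^ k := by
      rw [← hk]
      exact orderOf_pow_dvd _
    obtain ⟨m, -, hm⟩ := (Nat.dvd_prime_pow Nat.prime_two).1 h1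
    exact ⟨m, hm⟩
  · obtain ⟨m, hm⟩ := hP ⟨_, hyP⟩
    have h1 : (g⁻¹ * (t * g * t⁻¹)) ^ p ^ m = 1 := by
      have := congrArg Subtype.val hm
      simpa using this
    obtain ⟨m', -, hm'⟩ := (Nat.dvd_prime_pow Fact.out).1 (orderOf_dvd_of_pow_eq_one h1)
    exact ⟨m', hm'⟩
  · intro h
    apply hgt
    have h1 : t * g * t⁻¹ = g := by
      have h2 := congrArg (fun a => g * a) h
      simpa using h2
    calc g * t = (t * g * t⁻¹) * t := by rw [h1]
      _ = t * g := by group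
  · have h1 : g * t ^ 2 = t ^ 2 * g := mem_centralizer_iff.1 ht2 g hg
    have h2 : t ^ 2 * g * (t ^ 2)⁻¹ = g := by
      rw [← h1]; group
    have e : t * (g⁻¹ * (t * g * t⁻¹)) * t⁻¹ = t * g⁻¹ * t⁻¹ * (t ^ 2 * g * (t ^ 2)⁻¹) := by group
    rw [e, h2]
    group

theorem two_ne_zero_zmod (hp : p ≠ 2) : (2 : ZMod p) ≠ 0 := by
  intro h
  have h1 : ((2 : ℕ) : ZMod p) = 0 := by exact_mod_cast h
  have h2 := (ZMod.natCast_eq_zero_iff 2 p).1 h1
  exact hp ((Nat.prime_dvd_prime_iff_eq Fact.out Nat.prime_two).1 h2)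

/-- rotations -/
def rot (p : ℕ) : Subgroup (DihedralGroup p) where
  carrier := {d | ∃ i, d = r i}
  one_mem' := ⟨0, rfl⟩
  mul_mem' := by
    rintro _ _ ⟨i, rfl⟩ ⟨j, rfl⟩
    exact ⟨i + j, by simp⟩
  inv_mem' := by
    rintro _ ⟨i, rfl⟩
    exact ⟨-i, by simp⟩

instance rot_normal : (rot p).Normal := ⟨by
  rintro _ ⟨i, rfl⟩ (g | g)
  · exact ⟨g + i + -g, by simp⟩
  · exact ⟨g - (g + i), by simp⟩⟩

theorem step_AB (hp : p ≠ 2) (π : X →* DihedralGroup p) (hπ : Function.Surjective π) :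
    ∃ (x : X) (P : Subgroup X), (∃ k : ℕ, orderOf x = 2 ^ k) ∧ IsPGroup p P ∧
      x ∈ normalizer (P : Set X) ∧ x ∉ centralizer (P : Set X) := by
  classical
  haveI : NeZero p := ⟨(Fact.out : p.Prime).ne_zero⟩
  set N : Subgroup X := (rot p).comap π with hN
  haveI hNn : N.Normal := Subgroup.Normal.comap rot_normal π
  obtain ⟨P₀⟩ : Nonempty (Sylow p N) := inferInstance
  set P : Subgroup X := (P₀ : Subgroup N).map N.subtype with hP
  obtain ⟨t, ht⟩ := hπ (sr 0)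
  have htN : t ∈ normalizer (N : Set X) := by
    rw [normalizer_eq_top_iff.2 hNn]
    trivial
  obtain ⟨k, hk, hz⟩ := SchurZ2.frattini_of_normalizer P₀ htN
  set z := k * t with hzdef
  obtain ⟨i₀, hi₀⟩ : ∃ i, π k = r i := hk
  obtain ⟨e, m, hm, hzo⟩ := Nat.exists_eq_pow_mul_and_not_dvd (orderOf_pos z).ne' 2 (by norm_num)
  have hmne : m ≠ 0 := by
    rintro rfl
    exact hm (dvd_zero _)
  have hπz : π z = sr (0 - i₀) := by
    rw [hzdef, map_mul, hi₀, ht]
    simp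
  have hπx : π (z ^ m) = sr (0 - i₀) := by
    rw [map_pow, hπz]
    obtain ⟨q, hq⟩ := Nat.odd_iff.2 (Nat.mod_two_ne_zero.1 (fun h => hm (Nat.dvd_of_mod_eq_zero h)))
    rw [hq, pow_succ, pow_mul]
    have h2 : (sr (0 - i₀) : DihedralGroup p) ^ 2 = 1 := by
      rw [pow_two, sr_mul_self]
    rw [h2]
    simp
  refine ⟨z ^ m, P, ⟨e, ?_⟩, P₀.isPGroup'.map _, pow_mem hz _, ?_⟩
  · rw [orderOf_pow_of_dvd hmne ⟨2 ^ e, by rw [hzo, mul_comm]⟩, hzo]
    exact Nat.mul_div_cancel _ (Nat.pos_of_ne_zero hmne)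
  · intro hcon
    let f : N →* DihedralGroup p := π.comp N.subtype
    obtain ⟨n, hn⟩ := hπ (r 1)
    have hnN : n ∈ N := ⟨1, hn⟩
    have hdvd : p ∣ f.ker.index := by
      rw [Subgroup.index_ker]
      have hrr : (r 1 : DihedralGroup p) ∈ f.range := ⟨⟨n, hnN⟩, by simpa [f] using hn⟩
      have h1 : orderOf (⟨r 1, hrr⟩ : f.range) ∣ Nat.card f.range := orderOf_dvd_natCard _
      have h2 : orderOf (⟨r 1, hrr⟩ : f.range) = orderOf (r 1 : DihedralGroup p) := Subgroup.orderOf_mk _ _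
      rw [h2, DihedralGroup.orderOf_r_one] at h1
      exact h1
    have hne : ¬ (P₀ : Subgroup N) ≤ f.ker := by
      intro hle
      exact P₀.not_dvd_index (hdvd.trans (Subgroup.index_dvd_of_le hle))
    obtain ⟨u, hu, hu1⟩ := SetLike.not_le_iff_exists.1 hne
    have hu1' : π (u : X) ≠ 1 := hu1
    obtain ⟨i, hi⟩ : ∃ i, π (u : X) = r i := u.2
    have hcomm : (u : X) * z ^ m = z ^ m * u := mem_centralizer_iff.1 hcon _ ⟨u, hu, rfl⟩
    have h3 := congrArg π hcomm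
    rw [map_mul, map_mul, hπx, hi] at h3
    simp only [r_mul_sr, sr_mul_r, sr.injEq] at h3
    have h4 : (2 : ZMod p) * i = 0 := by linear_combination -h3
    have h5 : i = 0 := (mul_eq_zero.1 h4).resolve_left (two_ne_zero_zmod hp)
    apply hu1'
    rw [hi, h5]
    rfl

theorem step_CA (hp : p ≠ 2) {x y : X} (hx : ∃ k : ℕ, orderOf x = 2 ^ k) (hy : ∃ k : ℕ, orderOf y = p ^ k)
    (hy1 : y ≠ 1) (hinv : x * y * x⁻¹ = y⁻¹) : Cfsg.Involves (DihedralGroup p) X := by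
  classical
  haveI : NeZero p := ⟨(Fact.out : p.Prime).ne_zero⟩
  have hpp : p.Prime := Fact.out
  obtain ⟨m, hm⟩ := hx
  obtain ⟨k, hk⟩ := hy
  have hk0 : k ≠ 0 := by
    rintro rfl
    apply hy1
    simpa using hk
  -- an element of order p
  obtain ⟨a, hao, hainv⟩ : ∃ a : X, orderOf a = p ∧ x * a * x⁻¹ = a⁻¹ := by
    refine ⟨y ^ (orderOf y / p), orderOf_pow_orderOf_div (orderOf_pos y).ne' ?_, ?_⟩
    · rw [hk]
      exact dvd_pow_self p hk0
    · rw [← conj_pow, hinv, inv_pow]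
  have ha1 : a ≠ 1 := by
    rintro rfl
    rw [orderOf_one] at hao
    exact hpp.ne_one hao.symm
  have ha2 : a ≠ a⁻¹ := by
    intro h
    have h1 : a ^ 2 = 1 := by
      rw [pow_two]
      nth_rewrite 2 [h]
      simp
    have h2 := orderOf_dvd_of_pow_eq_one h1
    rw [hao] at h2
    exact hp ((Nat.prime_dvd_prime_iff_eq hpp Nat.prime_two).1 h2)
  have hm0 : m ≠ 0 := by
    rintro rfl
    have h1 : x = 1 := by simpa using hm
    rw [h1] at hainv
    apply ha2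
    simpa using hainv
  -- `x ^ 2` commutes with `a`
  have hc : x ^ 2 * a = a * x ^ 2 := by
    have h1 : x * a⁻¹ * x⁻¹ = a := by
      have h2 : (x * a⁻¹ * x⁻¹)⁻¹ = x * a * x⁻¹ := by group
      rw [← inv_inj, h2, hainv]
    calc x ^ 2 * a = x * (x * a * x⁻¹) * x⁻¹ * x ^ 2 := by
          rw [pow_two]; group
      _ = (x * a⁻¹ * x⁻¹) * x ^ 2 := by rw [hainv]
      _ = a * x ^ 2 := by rw [h1]
  set R := zpowers (x ^ 2) with hR
  set K := zpowers a ⊔ zpowers x with hK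
  have hax : a ∈ K := (le_sup_left : zpowers a ≤ K) (mem_zpowers a)
  have hxx : x ∈ K := (le_sup_right : zpowers x ≤ K) (mem_zpowers x)
  have hRK : R ≤ K := by
    rw [hR, zpowers_le]
    exact pow_mem hxx 2
  have hKC : K ≤ centralizer (R : Set X) := by
    apply sup_le
    · rw [zpowers_le, mem_centralizer_iff]
      intro w hw
      obtain ⟨n, rfl⟩ := mem_zpowers_iff.1 hw
      exact ((Commute.zpow_left hc n).eq)
    · rw [zpowers_le, mem_centralizer_iff]
      intro w hw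
      obtain ⟨n, rfl⟩ := mem_zpowers_iff.1 hw
      have h1 : Commute (x ^ 2) x := (Commute.refl x).pow_left 2
      exact (h1.zpow_left n).eq
  haveI hnorm : (R.subgroupOf K).Normal := ⟨by
    intro n hn g
    have hn' : (n : X) ∈ R := hn
    have h1 : (g : X) * n * (g : X)⁻¹ = n := by
      have := mem_centralizer_iff.1 (hKC g.2) _ hn'
      rw [← this]
      group
    show (g : X) * n * (g : X)⁻¹ ∈ R
    rw [h1]
    exact hn'⟩
  refine ⟨K, R, hnorm, ?_⟩
  -- the order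
  have hxN : zpowers x ≤ normalizer ((zpowers a : Subgroup X) : Set X) := by
    rw [zpowers_le]
    apply Commutators.mem_normalizer_of_conj_mem
    · intro w hw
      obtain ⟨n, rfl⟩ := mem_zpowers_iff.1 hw
      rw [← conj_zpow, hainv]
      exact zpow_mem (inv_mem (mem_zpowers a)) n
    · intro w hw
      obtain ⟨n, rfl⟩ := mem_zpowers_iff.1 hw
      have e0 : x⁻¹ * a ^ n * x = (x⁻¹ * a * x) ^ n := by
        have h0 := conj_zpow (a := x⁻¹) (b := a) (i := n)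
        simpa using h0.symm
      rw [e0]
      have h1 : x⁻¹ * a * x = a⁻¹ := by
        have h2 : x * a⁻¹ * x⁻¹ = a := by
          have h3 : (x * a⁻¹ * x⁻¹)⁻¹ = x * a * x⁻¹ := by group
          rw [← inv_inj, h3, hainv]
        calc x⁻¹ * a * x = x⁻¹ * (x * a⁻¹ * x⁻¹) * x := by rw [h2]
          _ = a⁻¹ := by group
      rw [h1]
      exact zpow_mem (inv_mem (mem_zpowers a)) n
  have hinf : zpowers a ⊓ zpowers x = ⊥ := by
    rw [← disjoint_iff]
    apply Subgroup.disjoint_of_coprime_natCard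
    rw [Nat.card_zpowers, Nat.card_zpowers, hao, hm]
    apply Nat.Coprime.pow_right
    exact (Nat.coprime_primes hpp Nat.prime_two).2 hp
  have hcardK : Nat.card K = p * 2 ^ m := by
    have h1 := SchurZ2.card_sup_mul_card_inf (zpowers a) (zpowers x) hxN
    rw [hinf, Subgroup.card_bot, mul_one, Nat.card_zpowers, Nat.card_zpowers, hao, hm] at h1
    exact h1
  have hcardR : Nat.card R = 2 ^ (m - 1) := by
    rw [hR, Nat.card_zpowers, orderOf_pow_of_dvd (by norm_num) ?_, hm]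
    · obtain ⟨m', rfl⟩ := Nat.exists_eq_succ_of_ne_zero hm0
      simp [pow_succ]
    · rw [hm]
      exact dvd_pow_self 2 hm0
  have hcardR' : Nat.card (R.subgroupOf K) = 2 ^ (m - 1) := by
    rw [← hcardR]
    exact Nat.card_congr (Subgroup.subgroupOfEquivOfLe hRK).toEquiv
  have hcardT : Nat.card (K ⧸ R.subgroupOf K) = 2 * p := by
    have h1 := Subgroup.card_eq_card_quotient_mul_card_subgroup (R.subgroupOf K)
    rw [hcardK, hcardR'] at h1
    have h2 : (2 : ℕ) ^ m = 2 * 2 ^ (m - 1) := by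
      obtain ⟨m', rfl⟩ := Nat.exists_eq_succ_of_ne_zero hm0
      simp [pow_succ, mul_comm]
    rw [h2] at h1
    have h3 : 0 < 2 ^ (m - 1) := by positivity
    apply Nat.eq_of_mul_eq_mul_right h3
    rw [← h1]
    ring
  -- the quotient elements
  let π := QuotientGroup.mk' (R.subgroupOf K)
  let â : K ⧸ R.subgroupOf K := π ⟨a, hax⟩
  let ŝ : K ⧸ R.subgroupOf K := π ⟨x, hxx⟩
  have hker : ∀ w : K, π w = 1 ↔ (w : X) ∈ R := by
    intro w
    show (QuotientGroup.mk' (R.subgroupOf K)) w = 1 ↔ _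
    rw [QuotientGroup.mk'_apply, QuotientGroup.eq_one_iff]
    rfl
  have haR : a ∉ R := by
    intro h
    have h1 : a ∈ zpowers a ⊓ zpowers x := by
      refine ⟨mem_zpowers a, ?_⟩
      have h2 : R ≤ zpowers x := by
        rw [hR, zpowers_le]
        exact pow_mem (mem_zpowers x) 2
      exact h2 h
    rw [hinf, Subgroup.mem_bot] at h1
    exact ha1 h1
  have hao' : orderOf â = p := by
    haveI : Fact p.Prime := ⟨hpp⟩
    apply orderOf_eq_prime
    · show π ⟨a, hax⟩ ^ p = 1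
      rw [← map_pow]
      have : (⟨a, hax⟩ : K) ^ p = 1 := by
        apply Subtype.ext
        show a ^ p = 1
        rw [← hao, pow_orderOf_eq_one]
      rw [this, map_one]
    · intro h
      exact haR ((hker _).1 h)
  have hs2 : ŝ ^ 2 = 1 := by
    show π ⟨x, hxx⟩ ^ 2 = 1
    rw [← map_pow]
    apply (hker _).2
    exact mem_zpowers (x ^ 2)
  have hsa : ŝ * â * ŝ⁻¹ = â⁻¹ := by
    show π ⟨x, hxx⟩ * π ⟨a, hax⟩ * (π ⟨x, hxx⟩)⁻¹ = (π ⟨a, hax⟩)⁻¹
    rw [← map_mul, ← map_inv, ← map_mul, ← map_inv]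
    congr 1
    apply Subtype.ext
    exact hainv
  have hsn : ŝ ∉ zpowers â := by
    intro hs
    have h1 : ŝ ^ p = 1 := by
      obtain ⟨n, hn⟩ := mem_zpowers_iff.1 hs
      rw [← hn, ← zpow_natCast, ← zpow_mul, mul_comm, zpow_mul, zpow_natCast, ← hao', pow_orderOf_eq_one, one_zpow]
    have h2 : ŝ = 1 := by
      have h3 : orderOf ŝ ∣ 1 := by
        have h4 : Nat.gcd 2 p = 1 := (Nat.coprime_primes Nat.prime_two hpp).2 (Ne.symm hp)
        rw [← h4]
        exact Nat.dvd_gcd (orderOf_dvd_of_pow_eq_one hs2) (orderOf_dvd_of_pow_eq_one h1)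
      exact orderOf_eq_one_iff.1 (Nat.dvd_one.1 h3)
    have h3 : x ∈ R := (hker ⟨x, hxx⟩).1 h2
    have h4 := mem_centralizer_iff.1 (hKC hax) x h3
    apply ha2
    rw [← hainv]
    have h5 : x * a = a * x := h4
    rw [h5]
    group
  exact Cfsg.Agent.Lib.Dihedral.nonempty_mulEquiv_dihedral p â ŝ hao' hs2 hsa hsn hcardT

end aux


/-- For an odd prime p and a finite group G the following are equivalent: the dihedral group of order 2p is involved in G; some element of 2-power order normalizes but does not centralize some p-subgroup of G; some element of 2-power order inverts some nonidentity element of p-power order. -/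
theorem result {G : Type*} [Group G] [Finite G] {p : ℕ} [Fact p.Prime] (hp : p ≠ 2) : (Cfsg.Involves (DihedralGroup p) G ↔ ∃ (x : G) (P : Subgroup G), (∃ k : ℕ, orderOf x = 2 ^ k) ∧ IsPGroup p ↥P ∧ x ∈ Subgroup.normalizer (P : Set G) ∧ x ∉ Subgroup.centralizer (P : Set G)) ∧ (Cfsg.Involves (DihedralGroup p) G ↔ ∃ x y : G, (∃ k : ℕ, orderOf x = 2 ^ k) ∧ (∃ k : ℕ, orderOf y = p ^ k) ∧ y ≠ 1 ∧ x * y * x⁻¹ = y⁻¹) := by
  classical
  have hAB : Cfsg.Involves (DihedralGroup p) G → ∃ (x : G) (P : Subgroup G), (∃ k : ℕ, orderOf x = 2 ^ k) ∧ IsPGroup p ↥P ∧ x ∈ Subgroup.normalizer (P : Set G) ∧ x ∉ Subgroup.centralizer (P : Set G) := by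
    rintro ⟨K, R, hN, ⟨φ⟩⟩
    let π : K →* DihedralGroup p := φ.toMonoidHom.comp (QuotientGroup.mk' (R.subgroupOf K))
    have hπ : Function.Surjective π := φ.surjective.comp (QuotientGroup.mk'_surjective _)
    obtain ⟨x, P, ⟨k, hk⟩, hPp, hxN, hxC⟩ := step_AB hp π hπ
    refine ⟨x, P.map K.subtype, ⟨k, ?_⟩, hPp.map _, ?_, ?_⟩
    · rw [← hk]
      exact Subgroup.orderOf_coe x
    · apply Commutators.mem_normalizer_of_conj_mem
      · rintro _ ⟨y, hy, rfl⟩
        exact ⟨x * y * x⁻¹, (mem_normalizer_iff.1 hxN y).1 hy, rfl⟩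
      · rintro _ ⟨y, hy, rfl⟩
        have h1 := (mem_normalizer_iff.1 ((normalizer (P : Set K)).inv_mem hxN) y).1 hy
        rw [inv_inv] at h1
        exact ⟨x⁻¹ * y * x, h1, rfl⟩
    · intro hcon
      apply hxC
      apply mem_centralizer_iff.2
      intro y hy
      apply Subtype.ext
      exact mem_centralizer_iff.1 hcon _ ⟨y, hy, rfl⟩
  have hBC : (∃ (x : G) (P : Subgroup G), (∃ k : ℕ, orderOf x = 2 ^ k) ∧ IsPGroup p ↥P ∧ x ∈ Subgroup.normalizer (P : Set G) ∧ x ∉ Subgroup.centralizer (P : Set G)) → ∃ x y : G, (∃ k : ℕ, orderOf x = 2 ^ k) ∧ (∃ k : ℕ, orderOf y = p ^ k) ∧ y ≠ 1 ∧ x * y * x⁻¹ = y⁻¹ := by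
    rintro ⟨x, P, h1, h2, h3, h4⟩
    exact step_BC h1 h2 h3 h4
  have hCA : (∃ x y : G, (∃ k : ℕ, orderOf x = 2 ^ k) ∧ (∃ k : ℕ, orderOf y = p ^ k) ∧ y ≠ 1 ∧ x * y * x⁻¹ = y⁻¹) → Cfsg.Involves (DihedralGroup p) G := by
    rintro ⟨x, y, h1, h2, h3, h4⟩
    exact step_CA hp h1 h2 h3 h4
  exact ⟨⟨hAB, fun h => hCA (hBC h)⟩, ⟨fun h => hBC (hAB h), hCA⟩⟩

end Cfsg.Agent.S2758
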