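import Cfsg.Statements.S2761
import Mathlib

set_option autoImplicit false
open Cfsg

namespace Cfsg.Agent.S2761

open Matrix

abbrev SL3 := Matrix.SpecialLinearGroup (Fin 3) (ZMod 2)

theorem bot_row (M : SL3) (hM : M ∈ Cfsg.qd 2) :
    (M : Matrix (Fin 3) (Fin 3) (ZMod 2)) 2 0 = 0 ∧ (M : Matrix (Fin 3) (Fin 3) (ZMod 2)) 2 1 = 0 ∧
      (M : Matrix (Fin 3) (Fin 3) (ZMod 2)) 2 2 = 1 := by
  unfold Cfsg.qd at hM
  induction hM using Subgroup.closure_induction with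
  | mem x hx => exact hx
  | one => simp
  | mul x y _ _ hx hy =>
    obtain ⟨x0, x1, x2⟩ := hx
    obtain ⟨y0, y1, y2⟩ := hy
    simp only [Matrix.SpecialLinearGroup.coe_mul, Matrix.mul_apply, Fin.sum_univ_three, x0, x1, x2,
      y0, y1, y2]
    simp
  | inv x _ hx =>
    obtain ⟨x0, x1, x2⟩ := hx
    have h : (x : Matrix (Fin 3) (Fin 3) (ZMod 2)) * ((x⁻¹ : SL3) : Matrix (Fin 3) (Fin 3) (ZMod 2)) = 1 := by
      rw [← Matrix.SpecialLinearGroup.coe_mul, mul_inv_cancel]; rfl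
    have key : ∀ j : Fin 3, ((x⁻¹ : SL3) : Matrix (Fin 3) (Fin 3) (ZMod 2)) 2 j = (1 : Matrix (Fin 3) (Fin 3) (ZMod 2)) 2 j := by
      intro j
      have := congrFun (congrFun h 2) j
      simp only [Matrix.mul_apply, Fin.sum_univ_three, x0, x1, x2] at this
      simpa using this
    refine ⟨?_, ?_, ?_⟩
    · rw [key 0]; rfl
    · rw [key 1]; rfl
    · rw [key 2]; rfl

/-- the affine action -/
def aff (M : SL3) (v : ZMod 2 × ZMod 2) : ZMod 2 × ZMod 2 :=
  ((M : Matrix (Fin 3) (Fin 3) (ZMod 2)) 0 0 * v.1 + (M : Matrix (Fin 3) (Fin 3) (ZMod 2)) 0 1 * v.2 +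
      (M : Matrix (Fin 3) (Fin 3) (ZMod 2)) 0 2,
    (M : Matrix (Fin 3) (Fin 3) (ZMod 2)) 1 0 * v.1 + (M : Matrix (Fin 3) (Fin 3) (ZMod 2)) 1 1 * v.2 +
      (M : Matrix (Fin 3) (Fin 3) (ZMod 2)) 1 2)

def rho : ↥(Cfsg.qd 2) →* Function.End (ZMod 2 × ZMod 2) where
  toFun M := aff (M : SL3)
  map_one' := by
    funext v
    show aff (1 : SL3) v = v
    ext <;> simp [aff]
  map_mul' := by
    rintro ⟨x, hx⟩ ⟨y, hy⟩
    funext v
    obtain ⟨y0, y1, y2⟩ := bot_row y hy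
    show aff (x * y) v = aff x (aff y v)
    simp only [aff, Matrix.SpecialLinearGroup.coe_mul, Matrix.mul_apply, Fin.sum_univ_three, y0, y1, y2]
    ext <;> simp <;> ring

theorem surj_data : ∀ p : Equiv.Perm (ZMod 2 × ZMod 2), ∃ a b c d e f : ZMod 2, a * d - b * c = 1 ∧
    ∀ v : ZMod 2 × ZMod 2, p v = (a * v.1 + b * v.2 + e, c * v.1 + d * v.2 + f) := by
  decide +kernel

/-- The group Qd(2), the natural semidirect product of an elementary abelian group of order 4 by SL₂(2) (realised as the affine subgroup of SL₃(2)), is isomorphic to the symmetric group of degree 4. -/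
theorem result : Nonempty (↥(Cfsg.qd 2) ≃* Equiv.Perm (Fin 4)) := by
  classical
  let φ : ↥(Cfsg.qd 2) →* Equiv.Perm (ZMod 2 × ZMod 2) := MonoidHom.toHomPerm rho
  have hφ : ∀ (M : ↥(Cfsg.qd 2)) v, φ M v = aff (M : SL3) v := fun _ _ => rfl
  have hinj : Function.Injective φ := by
    rintro ⟨x, hx⟩ ⟨y, hy⟩ h
    obtain ⟨x0, x1, x2⟩ := bot_row x hx
    obtain ⟨y0, y1, y2⟩ := bot_row y hy
    have h00 := hφ ⟨x, hx⟩ (0, 0)
    have h10 := hφ ⟨x, hx⟩ (1, 0)
    have h01 := hφ ⟨x, hx⟩ (0, 1)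
    rw [h] at h00 h10 h01
    rw [hφ] at h00 h10 h01
    simp only [aff, Prod.mk.injEq, mul_zero, mul_one, add_zero, zero_add] at h00 h10 h01
    apply Subtype.ext
    apply Subtype.ext
    ext i j
    fin_cases i <;> fin_cases j
    · have := h10.1; have := h00.1
      simp_all
    · have := h01.1; have := h00.1
      simp_all
    · exact h00.1.symm
    · have := h10.2; have := h00.2
      simp_all
    · have := h01.2; have := h00.2
      simp_all
    · exact h00.2.symm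
    · simpa [y0, x0]
    · simpa [y1, x1]
    · simpa [y2, x2]
  have hsurj : Function.Surjective φ := by
    intro p
    obtain ⟨a, b, c, d, e, f, hdet, hp⟩ := surj_data p
    let M : SL3 := ⟨!![a, b, e; c, d, f; 0, 0, 1], by
      rw [Matrix.det_fin_three]
      simpa using hdet⟩
    have hM : M ∈ Cfsg.qd 2 := Subgroup.subset_closure (show _ ∧ _ ∧ _ from ⟨rfl, rfl, rfl⟩)
    refine ⟨⟨M, hM⟩, ?_⟩
    ext1 v
    rw [hp v, hφ]
    simp [aff, M]
  let e0 : ZMod 2 × ZMod 2 ≃ Fin 4 := Fintype.equivFinOfCardEq (by simp [ZMod.card])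
  exact ⟨(MulEquiv.ofBijective φ ⟨hinj, hsurj⟩).trans (Equiv.permCongrHom e0)⟩

end Cfsg.Agent.S2761
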