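import Cfsg.Statements.S2762
import Cfsg.Agent.Lib.QdOver

set_option autoImplicit false
open Cfsg

namespace Cfsg.Agent.S2762

open Cfsg.Agent.Lib.QdOver Subgroup


/-- Structure of Qd over a finite field F of characteristic p (the affine subgroup of SL₃(F)): its largest normal p-subgroup is the group of translations (matrices with upper-left block the identity), the block-diagonal matrices form a complement isomorphic to SL₂(F), and the translation subgroup is a natural SL₂(F)-module for that complement. -/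
theorem result {F : Type*} [Field F] [Fintype F] {p : ℕ} [Fact p.Prime] [CharP F p] : (∀ M : ↥(Cfsg.qdOver F), M ∈ Cfsg.pCore p ↥(Cfsg.qdOver F) ↔ ((M : Matrix.SpecialLinearGroup (Fin 3) F) : Matrix (Fin 3) (Fin 3) F) 0 0 = 1 ∧ ((M : Matrix.SpecialLinearGroup (Fin 3) F) : Matrix (Fin 3) (Fin 3) F) 0 1 = 0 ∧ ((M : Matrix.SpecialLinearGroup (Fin 3) F) : Matrix (Fin 3) (Fin 3) F) 1 0 = 0 ∧ ((M : Matrix.SpecialLinearGroup (Fin 3) F) : Matrix (Fin 3) (Fin 3) F) 1 1 = 1) ∧ ∃ K : Subgroup ↥(Cfsg.qdOver F), (∀ M : ↥(Cfsg.qdOver F), M ∈ K ↔ ((M : Matrix.SpecialLinearGroup (Fin 3) F) : Matrix (Fin 3) (Fin 3) F) 0 2 = 0 ∧ ((M : Matrix.SpecialLinearGroup (Fin 3) F) : Matrix (Fin 3) (Fin 3) F) 1 2 = 0) ∧ K ⊓ Cfsg.pCore p ↥(Cfsg.qdOver F) = ⊥ ∧ K ⊔ Cfsg.pCore p ↥(Cfsg.qdOver F) = ⊤ ∧ Nonempty (↥K ≃* Matrix.SpecialLinearGroup (Fin 2) F) ∧ Cfsg.IsNaturalSL2Module F (Cfsg.pCore p ↥(Cfsg.qdOver F)) K := by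
  classical
  have hcore := pCore_eq (F := F) (p := p)
  rw [hcore]
  refine ⟨?_, cplHom.range, ?_, ?_, ?_, ?_, ?_⟩
  · intro M
    obtain ⟨B, u, rfl⟩ := exists_qb M
    constructor
    · intro h
      have h1 : tauF (qb B u) = 1 := h
      rw [tauF_qb] at h1
      subst h1
      refine ⟨?_, ?_, ?_, ?_⟩ <;> simp [qb, blkF]
    · rintro ⟨h0, h1, h2, h3⟩
      show tauF (qb B u) = 1
      rw [tauF_qb]
      apply Subtype.ext
      ext i j
      fin_cases i <;> fin_cases j
      · simpa [qb, blkF] using h0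
      · simpa [qb, blkF] using h1
      · simpa [qb, blkF] using h2
      · simpa [qb, blkF] using h3
  · intro M
    obtain ⟨B, u, rfl⟩ := exists_qb M
    constructor
    · rintro ⟨B', hB'⟩
      have h1 := (qb_inj hB').2
      subst h1
      exact ⟨rfl, rfl⟩
    · rintro ⟨h0, h1⟩
      refine ⟨B, ?_⟩
      have hu : u = 0 := by
        ext i
        fin_cases i
        · exact h0
        · exact h1
      rw [hu]
      rfl
  · rw [eq_bot_iff]
    rintro x ⟨⟨B, rfl⟩, hx⟩
    have h1 : tauF (cplHom B) = 1 := hx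
    rw [tauF_cpl] at h1
    subst h1
    simp
  · rw [eq_top_iff]
    intro x _
    obtain ⟨u, hu⟩ := decomp x
    rw [hu, sup_comm]
    exact Subgroup.mul_mem_sup (mem_ker_tau.2 ⟨u, rfl⟩) ⟨_, rfl⟩
  · exact ⟨(MonoidHom.ofInjective (f := cplHom (F := F)) cplHom_injective).symm⟩
  · refine ⟨?_, ?_⟩
    · intro l _
      rw [normalizer_eq_top_iff.2 (MonoidHom.normal_ker _)]
      trivial
    let ρ : ↥(cplHom (F := F)).range →* Matrix.SpecialLinearGroup (Fin 2) F := tauF.comp (cplHom (F := F)).range.subtype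
    let g : (Fin 2 → F) → Additive ↥(tauF (F := F)).ker := fun u => Additive.ofMul ⟨nuF u, tauF_nu u⟩
    have hg_add : ∀ u v, g (u + v) = g u + g v := by
      intro u v
      exact congrArg Additive.ofMul (Subtype.ext (nuF_add u v))
    have hg_bij : Function.Bijective g := by
      constructor
      · intro u v h
        have h1 : (⟨nuF u, tauF_nu u⟩ : ↥(tauF (F := F)).ker) = ⟨nuF v, tauF_nu v⟩ := h
        exact nuF_injective (congrArg Subtype.val h1)
      · intro y
        obtain ⟨u, hu⟩ := mem_ker_tau.1 (Additive.toMul y).2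
        refine ⟨u, ?_⟩
        show Additive.ofMul _ = y
        have : (⟨nuF u, tauF_nu u⟩ : ↥(tauF (F := F)).ker) = Additive.toMul y := Subtype.ext hu.symm
        rw [this]
        rfl
    let e : (Fin 2 → F) ≃+ Additive ↥(tauF (F := F)).ker := AddEquiv.mk' (Equiv.ofBijective g hg_bij) hg_add
    have he : ∀ u, e.symm (g u) = u := fun u => e.symm_apply_apply u
    refine ⟨ρ, e.symm, ?_, ?_, ?_⟩
    · intro B
      exact ⟨⟨cplHom B, ⟨B, rfl⟩⟩, tauF_cpl B⟩
    · ext l
      constructor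
      · intro h
        have h1 : tauF (l : ↥(Cfsg.qdOver F)) = 1 := h
        show (l : ↥(Cfsg.qdOver F)) ∈ centralizer _
        apply mem_centralizer_iff.2
        intro v hv
        obtain ⟨u, rfl⟩ := mem_ker_tau.1 hv
        have h2 := tauF_act (l : ↥(Cfsg.qdOver F)) u
        rw [h1, Matrix.SpecialLinearGroup.coe_one, Matrix.one_mulVec, mul_inv_eq_iff_eq_mul] at h2
        exact h2.symm
      · intro h
        have h0 : (l : ↥(Cfsg.qdOver F)) ∈ centralizer (((tauF (F := F)).ker : Subgroup _) : Set _) := h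
        show tauF (l : ↥(Cfsg.qdOver F)) = 1
        apply sl_ext_of_mulVec
        intro u _
        rw [Matrix.SpecialLinearGroup.coe_one, Matrix.one_mulVec]
        apply nuF_injective
        rw [← tauF_act, ← mem_centralizer_iff.1 h0 (nuF u) (tauF_nu u)]
        group
    · intro l v
      obtain ⟨u, hu⟩ := mem_ker_tau.1 v.2
      have hvg : Additive.ofMul v = g u := congrArg Additive.ofMul (Subtype.ext hu)
      refine ⟨⟨nuF ((tauF (l : ↥(Cfsg.qdOver F)) : Matrix (Fin 2) (Fin 2) F).mulVec u), tauF_nu _⟩, ?_, ?_⟩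
      · show nuF _ = (l : ↥(Cfsg.qdOver F)) * (v : ↥(Cfsg.qdOver F)) * (l : ↥(Cfsg.qdOver F))⁻¹
        rw [hu, tauF_act]
      · rw [hvg, he u]
        exact he _

end Cfsg.Agent.S2762
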