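import Cfsg.Statements.S2763
import Cfsg.Agent.Lib.QdOver
import Cfsg.Agent.Lib.GL2Sylow
import Cfsg.Agent.Lib.SchurZ2
import Cfsg.Agent.Lib.Commutators

set_option autoImplicit false
open Cfsg

namespace Cfsg.Agent.S2763

open Cfsg.Agent.Lib Cfsg.Agent.Lib.QdOver Cfsg.Agent.Lib.GL2Sylow Subgroup

section aux

variable {F : Type*} [Field F] [Fintype F] {p : ℕ} [Fact p.Prime] [CharP F p]

/-- Coordinates for the unitriangular group. -/
noncomputable def U3 (a b c : F) : ↥(Cfsg.qdOver F) := qb (uniS b) ![a, c]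

theorem U3_mul (a b c a' b' c' : F) :
    U3 a b c * U3 a' b' c' = U3 (a + a' + b * c') (b + b') (c + c') := by
  unfold U3
  rw [qb_mul, uniS_coe]
  have h1 : uniS b * uniS b' = uniS (b + b') := (Matrix.SpecialLinearGroup.transvection_add _ _ _).symm
  rw [h1]
  congr 1
  ext i
  fin_cases i <;> simp [Matrix.mulVec, dotProduct, Fin.sum_univ_two] <;> ring

theorem tauF_U3 (a b c : F) : tauF (U3 a b c) = uniS b := tauF_qb _ _

theorem U3_inj {a b c a' b' c' : F} (h : U3 a b c = U3 a' b' c') : a = a' ∧ b = b' ∧ c = c' := by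
  obtain ⟨h1, h2⟩ := qb_inj h
  have h3 : b = b' := by
    have := uniSHom_injective (F := F) (a₁ := Multiplicative.ofAdd b) (a₂ := Multiplicative.ofAdd b') h1
    simpa using this
  refine ⟨?_, h3, ?_⟩
  · simpa using congrFun h2 0
  · simpa using congrFun h2 1

theorem exists_U3_of_tau {y : ↥(Cfsg.qdOver F)} {b : F} (h : tauF y = uniS b) :
    ∃ a c, y = U3 a b c := by
  obtain ⟨B, u, rfl⟩ := exists_qb y
  rw [tauF_qb] at h
  subst h
  refine ⟨u 0, u 1, ?_⟩
  unfold U3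
  congr 1
  ext i
  fin_cases i <;> rfl

theorem uniS_one_ne : uniS (1 : F) ≠ 1 := by
  intro h
  have h1 := congrArg (fun g : Matrix.SpecialLinearGroup (Fin 2) F => (g : Matrix (Fin 2) (Fin 2) F) 0 1) h
  simp [uniS_coe] at h1

instance ker_normal' : (tauF (F := F)).ker.Normal := MonoidHom.normal_ker _

theorem ker_le_sylow (S : Sylow p ↥(Cfsg.qdOver F)) : (tauF (F := F)).ker ≤ S :=
  (ker_tau_isP (F := F) (p := p)).le_sylow_of_normal S

theorem mem_S_iff (S : Sylow p ↥(Cfsg.qdOver F)) (x : ↥(Cfsg.qdOver F)) :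
    x ∈ (S : Subgroup ↥(Cfsg.qdOver F)) ↔ tauF x ∈ (S : Subgroup ↥(Cfsg.qdOver F)).map tauF := by
  constructor
  · intro h
    exact ⟨x, h, rfl⟩
  · rintro ⟨s, hs, hsx⟩
    have h1 : s⁻¹ * x ∈ (tauF (F := F)).ker := by
      show tauF (s⁻¹ * x) = 1
      rw [map_mul, map_inv, hsx, inv_mul_cancel]
    have h2 := (S : Subgroup ↥(Cfsg.qdOver F)).mul_mem hs (ker_le_sylow S h1)
    simpa using h2

/-- Coordinates on a Sylow subgroup. -/
theorem exists_coord (S : Sylow p ↥(Cfsg.qdOver F)) :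
    ∃ (gt : ↥(Cfsg.qdOver F)) (φ : F × F × F → ↥(S : Subgroup ↥(Cfsg.qdOver F))),
      (∀ x, ((φ x : ↥(Cfsg.qdOver F))) = gt * U3 x.1 x.2.1 x.2.2 * gt⁻¹) ∧ Function.Bijective φ := by
  classical
  obtain ⟨US', hUS'⟩ := exists_sylow_eq_US (F := F) p
  obtain ⟨g₀, hg₀⟩ := MulAction.exists_smul_eq (Matrix.SpecialLinearGroup (Fin 2) F) US' (S.mapSurjective tauF_surjective)
  have hU₁ : (S : Subgroup ↥(Cfsg.qdOver F)).map tauF = (US : Subgroup (Matrix.SpecialLinearGroup (Fin 2) F)).map (MulAut.conj g₀).toMonoidHom := by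
    have h1 : ((S.mapSurjective tauF_surjective : Sylow p _) : Subgroup (Matrix.SpecialLinearGroup (Fin 2) F)) = (US' : Subgroup (Matrix.SpecialLinearGroup (Fin 2) F)).map (MulAut.conj g₀).toMonoidHom := by
      rw [← hg₀]; rfl
    rw [hUS'] at h1
    exact h1
  obtain ⟨gt, hτg⟩ : ∃ gt, tauF gt = g₀ := tauF_surjective g₀
  have hmem : ∀ x : F × F × F, gt * U3 x.1 x.2.1 x.2.2 * gt⁻¹ ∈ (S : Subgroup ↥(Cfsg.qdOver F)) := by
    intro x
    rw [mem_S_iff, hU₁]
    refine ⟨uniS x.2.1, uniS_mem _, ?_⟩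
    rw [map_mul, map_mul, map_inv, tauF_U3, hτg]
    rfl
  refine ⟨gt, fun x => ⟨_, hmem x⟩, fun x => rfl, ?_, ?_⟩
  · rintro ⟨a, b, c⟩ ⟨a', b', c'⟩ h
    have h1 : gt * U3 a b c * gt⁻¹ = gt * U3 a' b' c' * gt⁻¹ := congrArg Subtype.val h
    have h2 : U3 a b c = U3 a' b' c' := by
      simpa using h1
    obtain ⟨rfl, rfl, rfl⟩ := U3_inj h2
    rfl
  · rintro ⟨s, hs⟩
    have h1 := (mem_S_iff S s).1 hs
    rw [hU₁] at h1
    obtain ⟨u, hu, hus⟩ := h1
    obtain ⟨b, rfl⟩ := mem_US.1 hu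
    have h2 : tauF (gt⁻¹ * s * gt) = uniS b := by
      rw [map_mul, map_mul, map_inv, hτg, ← hus]
      show g₀⁻¹ * (g₀ * uniS b * g₀⁻¹) * g₀ = uniS b
      group
    obtain ⟨a, c, h3⟩ := exists_U3_of_tau h2
    refine ⟨(a, b, c), ?_⟩
    apply Subtype.ext
    show gt * U3 a b c * gt⁻¹ = s
    rw [← h3]
    group

/-- The swap of coordinates. -/
def swp (x : F × F × F) : F × F × F := (x.2.1 * x.2.2 - x.1, x.2.2, x.2.1)

theorem swp_inv : Function.Involutive (swp (F := F)) := by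
  rintro ⟨a, b, c⟩
  simp only [swp]
  ext <;> simp [mul_comm]

theorem exists_swap {Y : Type*} [Group Y] (φ : F × F × F → Y) (hφ : Function.Bijective φ)
    (hφmul : ∀ a b c a' b' c' : F, φ (a, b, c) * φ (a', b', c') = φ (a + a' + b * c', b + b', c + c')) :
    ∃ α : Y ≃* Y, ∀ x, α (φ x) = φ (swp x) := by
  classical
  obtain ⟨E, hE⟩ : ∃ E : F × F × F ≃ Y, ∀ x, E x = φ x := ⟨Equiv.ofBijective φ hφ, fun x => rfl⟩
  obtain ⟨e, he⟩ : ∃ e : Y ≃ Y, ∀ x, e (φ x) = φ (swp x) := by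
    refine ⟨E.symm.trans ((swp_inv (F := F)).toPerm.trans E), fun x => ?_⟩
    rw [← hE, ← hE]
    simp [Function.Involutive.toPerm]
  refine ⟨MulEquiv.mk' e ?_, fun x => he x⟩
  intro x y
  obtain ⟨⟨a, b, c⟩, rfl⟩ := hφ.2 x
  obtain ⟨⟨a', b', c'⟩, rfl⟩ := hφ.2 y
  rw [hφmul, he, he, he]
  simp only [swp]
  rw [hφmul]
  congr 2
  ring

/-- The automorphism swapping `V` with another subgroup. -/
theorem no_char_V (S : Sylow p ↥(Cfsg.qdOver F)) (T : Subgroup ↥(S : Subgroup ↥(Cfsg.qdOver F)))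
    (hTc : T.Characteristic) (hTV : T.map (S : Subgroup ↥(Cfsg.qdOver F)).subtype = (tauF (F := F)).ker) : False := by
  classical
  obtain ⟨gt, φ, hφval, hφ⟩ := exists_coord S
  have hφmul : ∀ a b c a' b' c' : F, φ (a, b, c) * φ (a', b', c') = φ (a + a' + b * c', b + b', c + c') := by
    intro a b c a' b' c'
    apply Subtype.ext
    show ((φ (a, b, c) : ↥(Cfsg.qdOver F))) * (φ (a', b', c') : ↥(Cfsg.qdOver F)) = (φ (a + a' + b * c', b + b', c + c') : ↥(Cfsg.qdOver F))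
    rw [hφval, hφval, hφval]
    simp only
    rw [← U3_mul]
    group
  obtain ⟨α, hα⟩ := exists_swap φ hφ hφmul
  -- the element of `V` moved out of `V`
  have hx₀ : φ (0, 0, 1) ∈ T := by
    have h1 : ((φ (0, 0, 1)) : ↥(Cfsg.qdOver F)) ∈ T.map (S : Subgroup ↥(Cfsg.qdOver F)).subtype := by
      rw [hTV, hφval]
      show tauF (gt * U3 0 0 1 * gt⁻¹) = 1
      rw [map_mul, map_mul, map_inv, tauF_U3]
      have : uniS (0 : F) = 1 := (uniSHom (F := F)).map_one
      rw [this]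
      group
    obtain ⟨y, hy, hyx⟩ := h1
    have h2 : y = φ (0, 0, 1) := Subtype.ext hyx
    rwa [← h2]
  have hαT : α (φ (0, 0, 1)) ∈ T := by
    have h1 := hTc.fixed α
    have h2 : φ (0, 0, 1) ∈ T.comap α.toMonoidHom := by
      rw [h1]; exact hx₀
    exact h2
  have hαe : α (φ (0, 0, 1)) = φ (0, 1, 0) := by
    rw [hα]
    simp [swp]
  rw [hαe] at hαT
  have h3 : ((φ (0, 1, 0)) : ↥(Cfsg.qdOver F)) ∈ T.map (S : Subgroup ↥(Cfsg.qdOver F)).subtype :=
    ⟨_, hαT, rfl⟩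
  rw [hTV, hφval] at h3
  have h4 : tauF (gt * U3 0 1 0 * gt⁻¹) = 1 := h3
  rw [map_mul, map_mul, map_inv, tauF_U3] at h4
  have h5 : uniS (1 : F) = 1 := by
    simpa using h4
  exact uniS_one_ne h5

theorem main_thm (S : Sylow p ↥(Cfsg.qdOver F)) (T : Subgroup ↥(S : Subgroup ↥(Cfsg.qdOver F)))
    (hT : T ≠ ⊥) (hTc : T.Characteristic) :
    normalizer ((T.map (S : Subgroup ↥(Cfsg.qdOver F)).subtype : Subgroup ↥(Cfsg.qdOver F)) : Set ↥(Cfsg.qdOver F)) =
      normalizer ((S : Subgroup ↥(Cfsg.qdOver F)) : Set ↥(Cfsg.qdOver F)) ∧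
    normalizer ((S : Subgroup ↥(Cfsg.qdOver F)) : Set ↥(Cfsg.qdOver F)) ≠ ⊤ := by
  classical
  set T' := T.map (S : Subgroup ↥(Cfsg.qdOver F)).subtype with hT'
  let U₁ : Sylow p (Matrix.SpecialLinearGroup (Fin 2) F) := S.mapSurjective tauF_surjective
  have hU₁c : (U₁ : Subgroup (Matrix.SpecialLinearGroup (Fin 2) F)) = (S : Subgroup ↥(Cfsg.qdOver F)).map tauF := rfl
  have hle : normalizer ((S : Subgroup ↥(Cfsg.qdOver F)) : Set ↥(Cfsg.qdOver F)) ≤ normalizer (T' : Set ↥(Cfsg.qdOver F)) :=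
    SchurZ2.normalizer_le_normalizer_map_char _ T
  have hSN : (S : Subgroup ↥(Cfsg.qdOver F)) ≤ normalizer (T' : Set ↥(Cfsg.qdOver F)) := le_normalizer.trans hle
  have hT'p : IsPGroup p T' := IsPGroup.map (IsPGroup.to_subgroup S.isPGroup' T) _
  refine ⟨le_antisymm ?_ hle, ?_⟩
  · intro x hx
    by_contra hxS
    -- `τ x` moves `U₁`
    have hne : U₁ ≠ tauF x • U₁ := by
      intro hfix
      apply hxS
      have hfix' : tauF x ∈ normalizer ((U₁ : Subgroup (Matrix.SpecialLinearGroup (Fin 2) F)) : Set (Matrix.SpecialLinearGroup (Fin 2) F)) :=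
        Sylow.smul_eq_iff_mem_normalizer.1 hfix.symm
      apply Commutators.mem_normalizer_of_conj_mem
      · intro s hs
        rw [mem_S_iff, map_mul, map_mul, map_inv]
        exact (mem_normalizer_iff.1 hfix' _).1 ⟨s, hs, rfl⟩
      · intro s hs
        rw [mem_S_iff, map_mul, map_mul, map_inv]
        have h1 := (mem_normalizer_iff.1 ((normalizer _).inv_mem hfix') _).1 (show tauF s ∈ (U₁ : Subgroup _) from ⟨s, hs, rfl⟩)
        rw [inv_inv] at h1
        exact h1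
    have htop := Cfsg.Agent.Lib.GL2Sylow.sup_eq_top p U₁ (tauF x • U₁) hne
    have hNtop : (normalizer (T' : Set ↥(Cfsg.qdOver F))).map tauF = ⊤ := by
      rw [eq_top_iff, ← htop]
      apply sup_le
      · rw [hU₁c]
        exact Subgroup.map_mono hSN
      · have h2 : ((tauF x • U₁ : Sylow p _) : Subgroup (Matrix.SpecialLinearGroup (Fin 2) F)) = (U₁ : Subgroup _).map (MulAut.conj (tauF x)).toMonoidHom := rfl
        rw [h2]
        rintro _ ⟨_, ⟨s, hs, rfl⟩, rfl⟩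
        refine ⟨x * s * x⁻¹, ?_, ?_⟩
        · exact mul_mem (mul_mem hx (hSN hs)) (inv_mem hx)
        · rw [map_mul, map_mul, map_inv]
          rfl
    have hsurjN : ∀ B : Matrix.SpecialLinearGroup (Fin 2) F, ∃ n ∈ normalizer (T' : Set ↥(Cfsg.qdOver F)), tauF n = B := by
      intro B
      have : B ∈ (normalizer (T' : Set ↥(Cfsg.qdOver F))).map tauF := by rw [hNtop]; trivial
      obtain ⟨n, hn, hnB⟩ := this
      exact ⟨n, hn, hnB⟩
    -- `T' ≤ V`
    have hτT : T'.map tauF = ⊥ := by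
      apply normal_pgroup_trivial (hT'p.map _)
      constructor
      rintro _ ⟨t, ht, rfl⟩ B
      obtain ⟨n, hn, rfl⟩ := hsurjN B
      refine ⟨n * t * n⁻¹, (mem_normalizer_iff.1 hn t).1 ht, ?_⟩
      rw [map_mul, map_mul, map_inv]
    have hT'V : T' ≤ (tauF (F := F)).ker := (Subgroup.map_eq_bot_iff _).1 hτT
    -- `V ≤ T'`
    have hT'ne : T' ≠ ⊥ := by
      intro h
      apply hT
      rw [eq_bot_iff]
      intro t ht
      have h1 : (t : ↥(Cfsg.qdOver F)) ∈ T' := ⟨t, ht, rfl⟩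
      rw [h] at h1
      exact Subgroup.mem_bot.2 (Subtype.ext (Subgroup.mem_bot.1 h1))
    obtain ⟨⟨t, ht⟩, ht1'⟩ := (Subgroup.ne_bot_iff_exists_ne_one (H := T')).1 hT'ne
    have ht1 : t ≠ 1 := fun h => ht1' (Subtype.ext h)
    obtain ⟨z, rfl⟩ := mem_ker_tau.1 (hT'V ht)
    have hz : z ≠ 0 := by
      rintro rfl
      exact ht1 nuF_zero
    have hVT' : (tauF (F := F)).ker ≤ T' := by
      intro v hv
      obtain ⟨w, rfl⟩ := mem_ker_tau.1 hv
      by_cases hw : w = 0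
      · subst hw
        rw [nuF_zero]
        exact T'.one_mem
      obtain ⟨g, hg⟩ := exists_move hz hw
      obtain ⟨n, hn, hng⟩ := hsurjN g
      have h1 := (mem_normalizer_iff.1 hn _).1 ht
      rw [tauF_act, hng, hg] at h1
      exact h1
    exact no_char_V S T hTc (le_antisymm hT'V hVT')
  · intro htop
    have hn : (S : Subgroup ↥(Cfsg.qdOver F)).Normal := normalizer_eq_top_iff.1 htop
    have h1 : (U₁ : Subgroup (Matrix.SpecialLinearGroup (Fin 2) F)) = ⊥ := by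
      rw [hU₁c]
      exact normal_pgroup_trivial (S.isPGroup'.map _) (hn.map _ tauF_surjective)
    have h2 := Cfsg.Agent.Lib.GL2Sylow.card_sylowS p U₁
    rw [h1, Subgroup.card_bot] at h2
    have h3 := Fintype.one_lt_card (α := F)
    omega

end aux


/-- In the group Qd(p) (p prime; the natural semidirect product of an elementary abelian group of order p² by SL₂(p)), the normalizer of every nontrivial characteristic subgroup of a Sylow p-subgroup S equals the normalizer of S, which is a proper subgroup; in particular no such characteristic subgroup is normal. -/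
theorem result {p : ℕ} [Fact p.Prime] (S : Sylow p ↥(Cfsg.qd p)) (T : Subgroup ↥(S : Subgroup ↥(Cfsg.qd p))) (hT : T ≠ ⊥) (hTc : T.Characteristic) : Subgroup.normalizer ((T.map (S : Subgroup ↥(Cfsg.qd p)).subtype : Subgroup ↥(Cfsg.qd p)) : Set ↥(Cfsg.qd p)) = Subgroup.normalizer ((S : Subgroup ↥(Cfsg.qd p)) : Set ↥(Cfsg.qd p)) ∧ Subgroup.normalizer ((S : Subgroup ↥(Cfsg.qd p)) : Set ↥(Cfsg.qd p)) ≠ ⊤ := by
  haveI : Fintype (ZMod p) := ZMod.fintype p
  exact main_thm (F := ZMod p) S T hT hTc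

end Cfsg.Agent.S2763
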