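import Cfsg.Statements.S2779
import Cfsg.Agent.Lib.NatSL2

set_option autoImplicit false
open Cfsg

namespace Cfsg.Agent.S2779

open Cfsg.Agent.Lib.NatSL2 Cfsg.Agent.Lib.GL2Sylow Subgroup
open scoped commutatorElement


/-- Let L act on the elementary abelian p-group V (inside a finite group, by conjugation, faithfully) as SL₂(F) on its natural module, F a field with p^n elements, and let S be a Sylow p-subgroup of L. Then [V, S, S] = 1; |V| = p^(2n) and |C_V(S)| = p^n; and for every nonidentity s ∈ S and every v ∈ V outside C_V(S): C_V(s) = C_V(S) = [V, S] = [V, s] = the subgroup generated by the commutators [v, t], t ∈ S. -/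
theorem result {G : Type*} [Group G] [Finite G] {p : ℕ} [Fact p.Prime] {F : Type*} [Field F] [Fintype F] (n : ℕ) (hF : Fintype.card F = p ^ n) (V L : Subgroup G) (hnat : Cfsg.IsNaturalSL2Module F V L) (hf : L ⊓ Subgroup.centralizer (V : Set G) = ⊥) (S : Sylow p ↥L) (T : Subgroup G) (hT : T = ((S : Subgroup ↥L).map L.subtype)) : ⁅⁅V, T⁆, T⁆ = ⊥ ∧ Nat.card V = p ^ (2 * n) ∧ Nat.card ↥(V ⊓ Subgroup.centralizer ((T : Subgroup G) : Set G)) = p ^ n ∧ ∀ s ∈ T, s ≠ 1 → (V ⊓ Subgroup.centralizer ({s} : Set G)) = (V ⊓ Subgroup.centralizer ((T : Subgroup G) : Set G)) ∧ ⁅V, T⁆ = (V ⊓ Subgroup.centralizer ((T : Subgroup G) : Set G)) ∧ ⁅V, Subgroup.zpowers s⁆ = (V ⊓ Subgroup.centralizer ((T : Subgroup G) : Set G)) ∧ ∀ v ∈ V, v ∉ Subgroup.centralizer (T : Set G) → Subgroup.closure {x : G | ∃ t ∈ T, x = v * t * v⁻¹ * t⁻¹} = (V ⊓ Subgroup.centralizer ((T : Subgroup G) : Set G)) := by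
  classical
  haveI : Finite ↥L := inferInstance
  obtain ⟨D⟩ := exists_natData hF V L hnat hf S T hT
  have hCT := fun x => D.mem_CVT_iff (x := x)
  have hle : ⁅V, T⁆ ≤ V ⊓ centralizer (T : Set G) := by
    rw [Subgroup.commutator_le]
    intro v hv t ht
    obtain ⟨u, rfl⟩ := D.vv_surj v hv
    obtain ⟨a, rfl⟩ := D.mem_T_iff.1 ht
    rw [commutatorElement_def, D.comm_T]
    exact (hCT _).2 ⟨_, rfl⟩
  have hCne : ∀ (c a : F), a ≠ 0 → D.vv ![c, 0] = D.vv ![0, -(c / a)] * D.ll (uniS a) * (D.vv ![0, -(c / a)])⁻¹ * (D.ll (uniS a))⁻¹ := by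
    intro c a ha
    rw [D.comm_T]
    congr 1
    ext i
    fin_cases i
    · simp
      field_simp
    · simp
  refine ⟨?_, ?_, ?_, ?_⟩
  · exact Subgroup.commutator_eq_bot_iff_le_centralizer.2 (hle.trans inf_le_right)
  · let e : (Fin 2 → F) → ↥V := fun u => ⟨D.vv u, D.vv_mem u⟩
    have hb : Function.Bijective e := by
      constructor
      · intro u w h
        exact D.vv_inj (congrArg Subtype.val h)
      · rintro ⟨v, hv⟩
        obtain ⟨u, rfl⟩ := D.vv_surj v hv
        exact ⟨u, rfl⟩
    rw [← Nat.card_congr (Equiv.ofBijective e hb), Nat.card_eq_fintype_card, Fintype.card_fun, Fintype.card_fin, hF,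
      ← pow_mul, mul_comm]
  · let e : F → ↥(V ⊓ centralizer (T : Set G)) := fun c => ⟨D.vv ![c, 0], (hCT _).2 ⟨c, rfl⟩⟩
    have hb : Function.Bijective e := by
      constructor
      · intro c d h
        have h1 := D.vv_inj (congrArg Subtype.val h)
        simpa using congrFun h1 0
      · rintro ⟨x, hx⟩
        obtain ⟨c, rfl⟩ := (hCT x).1 hx
        exact ⟨c, rfl⟩
    rw [← Nat.card_congr (Equiv.ofBijective e hb), Nat.card_eq_fintype_card, hF]
  · intro s hs hs1
    obtain ⟨a, rfl⟩ := D.mem_T_iff.1 hs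
    have ha : a ≠ 0 := by
      rintro rfl
      apply hs1
      have h0 : uniS (0 : F) = 1 := (uniSHom (F := F)).map_one
      rw [h0, D.ll_one]
    have htm : ∀ b : F, D.ll (uniS b) ∈ T := fun b => D.mem_T_iff.2 ⟨b, rfl⟩
    refine ⟨?_, ?_, ?_, ?_⟩
    · ext x
      rw [D.mem_CVs_iff ha, hCT]
    · apply le_antisymm hle
      intro x hx
      obtain ⟨c, rfl⟩ := (hCT x).1 hx
      rw [hCne c 1 one_ne_zero, ← commutatorElement_def]
      exact Subgroup.commutator_mem_commutator (D.vv_mem _) (htm 1)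
    · apply le_antisymm
      · refine le_trans (Subgroup.commutator_mono le_rfl ?_) hle
        rw [Subgroup.zpowers_le]
        exact htm a
      · intro x hx
        obtain ⟨c, rfl⟩ := (hCT x).1 hx
        rw [hCne c a ha, ← commutatorElement_def]
        exact Subgroup.commutator_mem_commutator (D.vv_mem _) (Subgroup.mem_zpowers _)
    · intro v hv hvC
      obtain ⟨u, rfl⟩ := D.vv_surj v hv
      have hu1 : u 1 ≠ 0 := by
        intro h0
        apply hvC
        have h1 : D.vv u ∈ V ⊓ centralizer (T : Set G) := by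
          refine (hCT _).2 ⟨u 0, ?_⟩
          congr 1
          ext i
          fin_cases i
          · rfl
          · exact h0
        exact h1.2
      apply le_antisymm
      · rw [Subgroup.closure_le]
        rintro _ ⟨t, ht, rfl⟩
        obtain ⟨b, rfl⟩ := D.mem_T_iff.1 ht
        rw [D.comm_T]
        exact (hCT _).2 ⟨_, rfl⟩
      · intro x hx
        obtain ⟨c, rfl⟩ := (hCT x).1 hx
        apply Subgroup.subset_closure
        refine ⟨D.ll (uniS (-(c / u 1))), htm _, ?_⟩
        rw [D.comm_T]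
        congr 1
        ext i
        fin_cases i
        · simp
          field_simp
        · simp

end Cfsg.Agent.S2779
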