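import Cfsg.Statements.S2780
import Cfsg.Agent.Lib.NatSL2
import Cfsg.Agent.Lib.QdOver

set_option autoImplicit false
open Cfsg

namespace Cfsg.Agent.S2780

open Cfsg.Agent.Lib.NatSL2 Cfsg.Agent.Lib.GL2Sylow Subgroup
open scoped commutatorElement


/-- Let L act on the elementary abelian p-group V (inside a finite group, faithfully) as SL₂(F) on its natural module, F a field with p^n elements, S a Sylow p-subgroup of L. Then: for every g ∈ L not normalizing S, V is the internal direct product of C_V(S) and C_V(gSg⁻¹); every nonidentity element of L of order prime to p acts on V without nonidentity fixed points; and C_V(S) and V/C_V(S) are irreducible for N_L(S): the only N_L(S)-invariant subgroups of C_V(S) are 1 and C_V(S), and the only N_L(S)-invariant subgroups between C_V(S) and V are those two. -/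
theorem result {G : Type*} [Group G] [Finite G] {p : ℕ} [Fact p.Prime] {F : Type*} [Field F] [Fintype F] (n : ℕ) (hF : Fintype.card F = p ^ n) (V L : Subgroup G) (hnat : Cfsg.IsNaturalSL2Module F V L) (hf : L ⊓ Subgroup.centralizer (V : Set G) = ⊥) (S : Sylow p ↥L) (T : Subgroup G) (hT : T = ((S : Subgroup ↥L).map L.subtype)) : (∀ g ∈ L, g ∉ Subgroup.normalizer (T : Set G) → Cfsg.IsInternalDirectProduct (V ⊓ Subgroup.centralizer ((T : Subgroup G) : Set G)) (V ⊓ Subgroup.centralizer ((T.map (MulAut.conj g).toMonoidHom : Subgroup G) : Set G)) V) ∧ (∀ x ∈ L, x ≠ 1 → (orderOf x).Coprime p → (V ⊓ Subgroup.centralizer ({x} : Set G)) = ⊥) ∧ (∀ U : Subgroup G, U ≤ (V ⊓ Subgroup.centralizer ((T : Subgroup G) : Set G)) → L ⊓ Subgroup.normalizer (T : Set G) ≤ Subgroup.normalizer (U : Set G) → U = ⊥ ∨ U = (V ⊓ Subgroup.centralizer ((T : Subgroup G) : Set G))) ∧ (∀ U : Subgroup G, (V ⊓ Subgroup.centralizer ((T : Subgroup G) : Set G)) ≤ U → U ≤ V → L ⊓ Subgroup.normalizer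 (T : Set G) ≤ Subgroup.normalizer (U : Set G) → U = (V ⊓ Subgroup.centralizer ((T : Subgroup G) : Set G)) ∨ U = V) := by
  classical
  haveI : Finite ↥L := inferInstance
  obtain ⟨D⟩ := exists_natData hF V L hnat hf S T hT
  have hn : n ≠ 0 := by
    rintro rfl
    rw [pow_zero] at hF
    have := Fintype.one_lt_card (α := F)
    omega
  haveI : CharP F p := by
    apply (CharP.charP_iff_prime_eq_zero Fact.out).2
    have h1 : ((Fintype.card F : ℕ) : F) = 0 := Nat.cast_card_eq_zero F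
    rw [hF, Nat.cast_pow] at h1
    exact (pow_eq_zero_iff hn).1 h1
  have hCT := fun x => D.mem_CVT_iff (x := x)
  have hvec : ∀ (B : Matrix.SpecialLinearGroup (Fin 2) F) (d : F), (B : Matrix (Fin 2) (Fin 2) F).mulVec ![d, 0] = ![B 0 0 * d, B 1 0 * d] := by
    intro B d
    ext i
    fin_cases i <;> simp [Matrix.mulVec, dotProduct, Fin.sum_univ_two]
  refine ⟨?_, ?_, ?_, ?_⟩
  · intro g hg hgN
    obtain ⟨B, rfl⟩ := D.mem_L_iff.1 hg
    have hB : B 1 0 ≠ 0 := fun h0 => hgN (D.mem_normalizer_T h0)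
    have hS₂ : ∀ x, x ∈ V ⊓ centralizer ((T.map (MulAut.conj (D.ll B)).toMonoidHom : Subgroup G) : Set G) ↔
        ∃ c, x = D.vv ((B : Matrix (Fin 2) (Fin 2) F).mulVec ![c, 0]) := by
      intro x
      constructor
      · rintro ⟨hx, hxC⟩
        obtain ⟨u, rfl⟩ := D.vv_surj x hx
        have h1 : D.vv (((B⁻¹ : Matrix.SpecialLinearGroup (Fin 2) F) : Matrix (Fin 2) (Fin 2) F).mulVec u) ∈ V ⊓ centralizer (T : Set G) := by
          refine ⟨D.vv_mem _, mem_centralizer_iff.2 ?_⟩
          intro t ht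
          have h2 := mem_centralizer_iff.1 hxC (D.ll B * t * (D.ll B)⁻¹) ⟨t, ht, rfl⟩
          rw [← D.act', D.ll_inv, inv_inv]
          calc t * ((D.ll B)⁻¹ * D.vv u * D.ll B) = (D.ll B)⁻¹ * ((D.ll B * t * (D.ll B)⁻¹) * D.vv u) * D.ll B := by group
            _ = (D.ll B)⁻¹ * (D.vv u * (D.ll B * t * (D.ll B)⁻¹)) * D.ll B := by rw [h2]
            _ = (D.ll B)⁻¹ * D.vv u * D.ll B * t := by group
        obtain ⟨c, hc⟩ := (hCT _).1 h1
        refine ⟨c, ?_⟩
        rw [← D.vv_inj hc, ← Cfsg.Agent.Lib.NatSL2.mulVec_mul', mul_inv_cancel, Cfsg.Agent.Lib.NatSL2.mulVec_one']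
      · rintro ⟨c, rfl⟩
        refine ⟨D.vv_mem _, mem_centralizer_iff.2 ?_⟩
        rintro _ ⟨t, ht, rfl⟩
        have h2 := mem_centralizer_iff.1 ((hCT _).2 ⟨c, rfl⟩).2 t ht
        rw [← D.act']
        show D.ll B * t * (D.ll B)⁻¹ * (D.ll B * D.vv ![c, 0] * (D.ll B)⁻¹) = D.ll B * D.vv ![c, 0] * (D.ll B)⁻¹ * (D.ll B * t * (D.ll B)⁻¹)
        calc D.ll B * t * (D.ll B)⁻¹ * (D.ll B * D.vv ![c, 0] * (D.ll B)⁻¹) = D.ll B * (t * D.vv ![c, 0]) * (D.ll B)⁻¹ := by group
          _ = D.ll B * (D.vv ![c, 0] * t) * (D.ll B)⁻¹ := by rw [h2]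
          _ = _ := by group
    refine ⟨inf_le_left, inf_le_left, ?_, ?_, ?_⟩
    · intro a ha b hb
      obtain ⟨u, rfl⟩ := D.vv_surj a ha.1
      obtain ⟨w, rfl⟩ := D.vv_surj b hb.1
      exact D.vv_comm u w
    · rw [eq_bot_iff]
      rintro x ⟨hx1, hx2⟩
      obtain ⟨c, rfl⟩ := (hCT x).1 hx1
      obtain ⟨d, hd⟩ := (hS₂ _).1 hx2
      have h1 := D.vv_inj hd
      rw [hvec] at h1
      have h2 := congrFun h1 1
      have h3 := congrFun h1 0
      simp at h2 h3
      have h4 : d = 0 := by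
        rcases h2 with h2 | h2
        · exact absurd h2 hB
        · exact h2
      rw [h4] at h3
      simp at h3
      rw [Subgroup.mem_bot, h3]
      have h5 : (![0, 0] : Fin 2 → F) = 0 := by
        ext i
        fin_cases i <;> rfl
      rw [h5, D.vv_zero]
    · apply le_antisymm (sup_le inf_le_left inf_le_left)
      intro v hv
      obtain ⟨u, rfl⟩ := D.vv_surj v hv
      have h1 : u = ![u 0 - B 0 0 * (u 1 / B 1 0), 0] + (B : Matrix (Fin 2) (Fin 2) F).mulVec ![u 1 / B 1 0, 0] := by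
        rw [hvec]
        ext i
        fin_cases i
        · simp
        · simp
          field_simp
      rw [h1, D.vv_add]
      exact Subgroup.mul_mem_sup ((hCT _).2 ⟨_, rfl⟩) ((hS₂ _).2 ⟨_, rfl⟩)
  · intro x hx hx1 hco
    obtain ⟨B, rfl⟩ := D.mem_L_iff.1 hx
    rw [eq_bot_iff]
    rintro y ⟨hy, hyC⟩
    obtain ⟨u, rfl⟩ := D.vv_surj y hy
    have h1 := mem_centralizer_iff.1 hyC (D.ll B) rfl
    have h2 := (D.comm_iff u B).1 h1
    by_cases hu : u = 0
    · rw [hu, D.vv_zero]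
      exact Subgroup.one_mem _
    exfalso
    obtain ⟨M, hM⟩ := Cfsg.Agent.Lib.QdOver.exists_sl_col' hu
    set A := M⁻¹ * B * M with hA
    have h3 : (A : Matrix (Fin 2) (Fin 2) F).mulVec ![1, 0] = ![1, 0] := by
      rw [hA, Cfsg.Agent.Lib.NatSL2.mulVec_mul', Cfsg.Agent.Lib.NatSL2.mulVec_mul', hM, h2, ← hM,
        ← Cfsg.Agent.Lib.NatSL2.mulVec_mul', inv_mul_cancel, Cfsg.Agent.Lib.NatSL2.mulVec_one']
    rw [hvec] at h3
    have h4 := congrFun h3 0
    have h5 := congrFun h3 1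
    simp at h4 h5
    have hdet := detS A
    rw [h4, h5] at hdet
    have h6 : A 1 1 = 1 := by simpa using hdet
    have h7 : A = uniS (A 0 1) := by
      apply Subtype.ext
      rw [uniS_coe]
      ext i j
      fin_cases i <;> fin_cases j
      · exact h4
      · rfl
      · exact h5
      · exact h6
    have h8 : A ^ p = 1 := by
      rw [h7, Cfsg.Agent.Lib.NatSL2.uniS_pow, CharP.cast_eq_zero, zero_mul]
      exact (uniSHom (F := F)).map_one
    have h9 : B ^ p = 1 := by
      have h10 : B = M * A * M⁻¹ := by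
        rw [hA]
        group
      rw [h10, conj_pow, h8]
      group
    have h11 : (D.ll B) ^ p = 1 := by
      rw [← D.ll_pow, h9, D.ll_one]
    have h12 := orderOf_dvd_of_pow_eq_one h11
    have h13 : orderOf (D.ll B) = 1 := Nat.Coprime.eq_one_of_dvd hco h12
    exact hx1 (orderOf_eq_one_iff.1 h13)
  · intro U hU hN
    by_cases hb : U = ⊥
    · exact Or.inl hb
    right
    apply le_antisymm hU
    obtain ⟨⟨x, hx⟩, hx1⟩ := (Subgroup.ne_bot_iff_exists_ne_one (H := U)).1 hb
    have hx1' : x ≠ 1 := fun h => hx1 (Subtype.ext h)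
    obtain ⟨c, rfl⟩ := (hCT x).1 (hU hx)
    have hc : c ≠ 0 := by
      rintro rfl
      apply hx1'
      have h5 : (![0, 0] : Fin 2 → F) = 0 := by
        ext i
        fin_cases i <;> rfl
      rw [h5, D.vv_zero]
    intro y hy
    obtain ⟨d, rfl⟩ := (hCT y).1 hy
    by_cases hd : d = 0
    · subst hd
      have h5 : (![0, 0] : Fin 2 → F) = 0 := by
        ext i
        fin_cases i <;> rfl
      rw [h5, D.vv_zero]
      exact U.one_mem
    have hl : d / c ≠ 0 := div_ne_zero hd hc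
    have h1 : D.ll (torus (d / c) hl) ∈ L ⊓ normalizer (T : Set G) :=
      ⟨D.ll_mem _, D.mem_normalizer_T (torus_entry _ hl)⟩
    have h2 := (mem_normalizer_iff.1 (hN h1) _).1 hx
    rw [D.act', torus_mulVec] at h2
    have h3 : (![d / c * (![c, 0] : Fin 2 → F) 0, (d / c)⁻¹ * (![c, 0] : Fin 2 → F) 1] : Fin 2 → F) = ![d, 0] := by
      ext i
      fin_cases i
      · simp
        field_simp
      · simp
    rwa [h3] at h2
  · intro U hU hUV hN
    by_cases hall : U ≤ V ⊓ centralizer (T : Set G)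
    · exact Or.inl (le_antisymm hall hU)
    right
    apply le_antisymm hUV
    obtain ⟨x, hx, hxn⟩ := SetLike.not_le_iff_exists.1 hall
    obtain ⟨u, rfl⟩ := D.vv_surj x (hUV hx)
    have hu1 : u 1 ≠ 0 := by
      intro h0
      apply hxn
      refine (hCT _).2 ⟨u 0, ?_⟩
      congr 1
      ext i
      fin_cases i
      · rfl
      · exact h0
    intro v hv
    obtain ⟨w, rfl⟩ := D.vv_surj v hv
    by_cases hw : w 1 = 0
    · apply hU
      refine (hCT _).2 ⟨w 0, ?_⟩
      congr 1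
      ext i
      fin_cases i
      · rfl
      · exact hw
    have hl : u 1 / w 1 ≠ 0 := div_ne_zero hu1 hw
    have h1 : D.ll (torus (u 1 / w 1) hl) ∈ L ⊓ normalizer (T : Set G) :=
      ⟨D.ll_mem _, D.mem_normalizer_T (torus_entry _ hl)⟩
    have h2 := (mem_normalizer_iff.1 (hN h1) _).1 hx
    rw [D.act', torus_mulVec] at h2
    have h3 : w = ![w 0 - u 1 / w 1 * u 0, 0] + ![u 1 / w 1 * u 0, (u 1 / w 1)⁻¹ * u 1] := by
      ext i
      fin_cases i
      · simp
      · simp
        field_simp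
    rw [h3, D.vv_add]
    exact U.mul_mem (hU ((hCT _).2 ⟨_, rfl⟩)) h2

end Cfsg.Agent.S2780
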