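import Cfsg.Statements.S2781
import Cfsg.Agent.Lib.TraceFix
open scoped commutatorElement

set_option autoImplicit false
open Cfsg

namespace Cfsg.Agent.S2781

/-- Let H act faithfully by conjugation on the elementary abelian p-subgroup V of a finite group, let O^p(H) be the subgroup of H generated by its elements of order prime to p, and T a Sylow p-subgroup of O^p(H). If V is generated by the H-conjugates of C_V(T) (V is the smallest H-invariant subgroup containing C_V(T)), then V = [V, O^p(H)]·C_V(O^p(H)). -/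
theorem result {G : Type*} [Group G] [Finite G] {p : ℕ} [Fact p.Prime] (V H : Subgroup G) (hV : Cfsg.IsElementaryAbelian p V) (hHV : H ≤ Subgroup.normalizer (V : Set G)) (hf : H ⊓ Subgroup.centralizer (V : Set G) = ⊥) (R : Subgroup G) (hR : R = (Cfsg.pResidual p ↥H).map H.subtype) (S : Sylow p ↥R) (T : Subgroup G) (hT : T = ((S : Subgroup ↥R).map R.subtype)) (hgen : ∀ W : Subgroup G, H ≤ Subgroup.normalizer (W : Set G) → (V ⊓ Subgroup.centralizer ((T : Subgroup G) : Set G)) ≤ W → V ≤ W) : ⁅V, R⁆ ⊔ (V ⊓ Subgroup.centralizer ((R : Subgroup G) : Set G)) = V := by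
  open Cfsg.Agent.Lib.TraceFix Cfsg.Agent.Lib.Commutators Cfsg.Agent.Lib.PResidual Cfsg.Agent.Lib.PReduced in
  have hRH : R ≤ H := by rw [hR]; exact Subgroup.map_subtype_le _
  haveI hnorm : (Cfsg.pResidual p ↥H).Normal := pResidual_normal p H
  have hRn : H ≤ Subgroup.normalizer (R : Set G) := by
    have h1 := Subgroup.le_normalizer_map (H := Cfsg.pResidual p ↥H) H.subtype
    rw [Subgroup.normalizer_eq_top_iff.mpr hnorm] at h1
    rw [hR]
    intro h hh
    exact h1 ⟨⟨h, hh⟩, Subgroup.mem_top _, rfl⟩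
  have hTR : T ≤ R := by rw [hT]; exact Subgroup.map_subtype_le _
  have hind : ¬ p ∣ T.relIndex R := by
    have h1 := S.not_dvd_index
    have h2 : T.subgroupOf R = (S : Subgroup ↥R) := by
      rw [hT]
      exact Subgroup.comap_map_eq_self_of_injective (Subgroup.subtype_injective _) _
    rw [Subgroup.relIndex, h2]
    exact h1
  have hRV : R ≤ Subgroup.normalizer (V : Set G) := hRH.trans hHV
  set W := ⁅V, R⁆ ⊔ (V ⊓ Subgroup.centralizer (R : Set G)) with hW
  have hCV : ⁅V, R⁆ ≤ V := by
    rw [Subgroup.commutator_le]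
    intro v hv r hr
    rw [commutatorElement_def, mul_assoc, mul_assoc, ← mul_assoc r]
    exact V.mul_mem hv (conj_mem_of_mem_normalizer (hRV hr) (V.inv_mem hv))
  have hWV : W ≤ V := sup_le hCV inf_le_left
  have hNW : H ≤ Subgroup.normalizer (W : Set G) := by
    intro h hh
    apply normalizer_le_normalizer_sup
    refine ⟨?_, ?_⟩
    · exact normalizer_le_normalizer_commutator ⟨hHV hh, hRn hh⟩
    · exact normalizer_inf_normalizer (hHV hh) (normalizer_le_normalizer_centralizer R (hRn hh))
  apply le_antisymm hWV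
  refine hgen W hNW ?_
  rintro z ⟨hzV, hzT⟩
  obtain ⟨c, hcV, hcR, w, hwW, -, -, rfl⟩ := exists_trace_decomp (W := ⁅V, R⁆) hV hRV hTR hind hzV hzT (by
    intro x hx
    have : x * z * x⁻¹ * z⁻¹ = ⁅x, z⁆ := by rw [commutatorElement_def]
    rw [this, Subgroup.commutator_comm]
    exact Subgroup.commutator_mem_commutator hx hzV)
  exact W.mul_mem (Subgroup.mem_sup_right ⟨hcV, hcR⟩) (Subgroup.mem_sup_left hwW)

end Cfsg.Agent.S2781
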