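import Cfsg.Statements.S2794
import Cfsg.Agent.Lib.QdControl
-- import your own Cfsg.Agent.* helpers here

set_option autoImplicit false
open Cfsg

namespace Cfsg.Agent.S2794

/-- For an odd prime p and a finite group G, the group Qd(p) is not involved in G if and only if in every section K/R of G, for every Sylow p-subgroup S* of K/R, the centre of J(S*) (J generated by the abelian subgroups of largest order) controls strong fusion in K/R. -/
theorem result {G : Type*} [Group G] [Finite G] {p : ℕ} [Fact p.Prime] (hp : p ≠ 2) : ¬ Cfsg.Involves ↥(Cfsg.qd p) G ↔ ∀ (K R : Subgroup G) [hR : (R.subgroupOf K).Normal], ∀ T : Sylow p (K ⧸ R.subgroupOf K), Cfsg.ControlsStrongFusion p (Cfsg.centerThompsonAOf (T : Subgroup (K ⧸ R.subgroupOf K))) := by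
  classical
  have hW := Cfsg.Agent.Lib.ZJFunctor.isChar_WG (p := p) (e := 0) (Or.inl rfl)
  constructor
  · intro h K R hR T
    have h𝓦 : ∀ W' ∈ ({Cfsg.Agent.Lib.ZJFunctor.WG 0} : Set (∀ (Q : Type _) [Group Q], Subgroup Q)),
        IsCharPFunctor p W' := by
      rintro _ rfl
      exact hW
    have hP := Cfsg.Agent.Lib.FusionApps.sections_main h𝓦
      (fun Y _ _ hY hc => Cfsg.Agent.Lib.FusionApps.family_of_normal (Set.mem_singleton (Cfsg.Agent.Lib.ZJFunctor.WG 0))
        (fun T => by
          rw [Cfsg.Agent.Lib.ZJFunctor.induced_WG, ← Cfsg.Agent.Lib.ZJApps.centerThompsonAOf_eq]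
          exact Cfsg.Agent.Lib.ZJApps.centerA_normal hp T (Cfsg.Agent.Lib.ZJFunctor.stronglyClosed_self _) hc
            fun B hB hBp => Cfsg.Agent.Lib.ZJApps.stabOn_of_normalizerStable
              (Cfsg.Agent.Lib.QdControl.stable_of_sec hp h hY) hB hBp))
      _ (Cfsg.Agent.Lib.SecFunctor.isSec_section K R)
    have := Cfsg.Agent.Lib.FusionApps.control_of_family hW hP T
    rwa [Cfsg.Agent.Lib.ZJFunctor.induced_WG, ← Cfsg.Agent.Lib.ZJApps.centerThompsonAOf_eq] at this
  · rintro h ⟨K, R, hn, ⟨e⟩⟩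
    haveI := hn
    obtain ⟨D⟩ := Cfsg.Agent.Lib.QdControl.qdData_of_equiv hp e
    obtain ⟨T⟩ : Nonempty (Sylow p (K ⧸ R.subgroupOf K)) := inferInstance
    exact D.not_control_centerA T (h K R T)

end Cfsg.Agent.S2794
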