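import Mathlib
import Cfsg.Agent.Lib.AutTwoGroup
import Cfsg.Agent.Lib.QuasiDihedral
import Cfsg.Statements.S3116
-- import your own Cfsg.Agent.* helpers here

set_option autoImplicit false
open Cfsg

namespace Cfsg.Agent.S3116

/-- The automorphism group of a dihedral 2-group of order at least 8, or of a quasi-dihedral (semidihedral) 2-group of order at least 16, is a 2-group. -/
theorem result {X : Type*} [Group X] [Finite X] (h2 : IsPGroup 2 X)
    (h : (∃ n : ℕ, 4 ≤ n ∧ Nonempty (X ≃* DihedralGroup n)) ∨ Cfsg.IsQuasiDihedral X) : IsPGroup 2 (MulAut X) := by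
  rcases h with ⟨n, hn, ⟨e⟩⟩ | h
  · have hc : Nat.card X = 2 * n := by
      haveI : NeZero n := ⟨by omega⟩
      rw [Nat.card_congr e.toEquiv, DihedralGroup.nat_card]
    obtain ⟨m, hm⟩ := IsPGroup.iff_card.1 h2
    have hn2 : n ∣ 2 ^ m := ⟨2, by rw [← hm, hc]; ring⟩
    obtain ⟨k, -, rfl⟩ := (Nat.dvd_prime_pow Nat.prime_two).1 hn2
    have hk : 2 ≤ k := by
      by_contra hlt
      have : k = 0 ∨ k = 1 := by omega
      rcases this with rfl | rfl <;> omega
    have h3 := Cfsg.Agent.Lib.AutTwoGroup.isPGroup_two_mulAut_dihedral k hk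
    exact h3.of_equiv (MulAut.congr e.symm)
  · obtain ⟨n, x, y, hn, hc, hq⟩ := Cfsg.Agent.Lib.QuasiDihedral.exists_qd h
    obtain ⟨k, rfl⟩ : ∃ k, n = k + 3 := ⟨n - 3, by omega⟩
    have hx : orderOf x = 2 ^ (k + 3) := by
      have h1 := hq.order_x
      have e0 : k + 3 - 2 = k + 1 := by omega
      rw [e0] at h1
      have h2 : ((orderOf x : ℕ) : ℤ) = ((2 ^ (k + 3) : ℕ) : ℤ) := by
        rw [h1]; push_cast; ring
      exact_mod_cast h2
    refine Cfsg.Agent.Lib.AutTwoGroup.isPGroup_two_mulAut x (k + 3) (by omega) hc hx ?_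
    intro w hw hord
    obtain ⟨i, hi | hi⟩ := hq.exists_form w
    · apply hw
      rw [hi]
      exact Subgroup.zpow_mem _ (Subgroup.mem_zpowers x) i
    · have hw4 : w ^ 4 = 1 := by
        have hsq : w * w = 1 ∨ w * w = x ^ (2 * ((2 : ℤ) ^ (k + 3 - 2))) := by
          rcases Int.even_or_odd' i with ⟨j, rfl | rfl⟩
          · left; rw [hi]; exact hq.form_sq_even j
          · right; rw [hi]; exact hq.form_sq_odd j
        rcases hsq with h1 | h1
        · calc w ^ 4 = (w * w) * (w * w) := by simp only [pow_succ, pow_zero, one_mul, mul_assoc]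
            _ = 1 := by rw [h1, one_mul]
        · calc w ^ 4 = (w * w) * (w * w) := by simp only [pow_succ, pow_zero, one_mul, mul_assoc]
            _ = 1 := by rw [h1]; exact hq.z_sq
      have h3 : orderOf w ∣ 4 := orderOf_dvd_of_pow_eq_one hw4
      rw [hord] at h3
      have h4 := Nat.le_of_dvd (by norm_num) h3
      have h5 : 2 ^ 3 ≤ 2 ^ (k + 3) := Nat.pow_le_pow_right (by norm_num) (by omega)
      omega

end Cfsg.Agent.S3116
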