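import Mathlib
import Cfsg.Prelude
import Cfsg.Statements.S3356
-- import your own Cfsg.Agent.* helpers here

set_option autoImplicit false
open Cfsg

namespace Cfsg.Agent.S3356


open MulAction

def cjc {G : Type*} [Group G] (N : Subgroup G) [hN : N.Normal] (h : G) (n : N) : N :=
  ⟨h * n * h⁻¹, hN.conj_mem n n.2 h⟩

theorem cjc_mul {G : Type*} [Group G] (N : Subgroup G) [N.Normal] (h : G) (u v : N) :
    cjc N h (u * v) = cjc N h u * cjc N h v := by
  apply Subtype.ext
  simp only [cjc, Subgroup.coe_mul]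
  group

theorem cjc_inv {G : Type*} [Group G] (N : Subgroup G) [N.Normal] (h : G) (u : N) :
    cjc N h u⁻¹ = (cjc N h u)⁻¹ := by
  apply Subtype.ext
  simp only [cjc, Subgroup.coe_inv]
  group

theorem cjc_one {G : Type*} [Group G] (N : Subgroup G) [N.Normal] (h : G) :
    cjc N h 1 = 1 := by
  apply Subtype.ext
  simp only [cjc, Subgroup.coe_one]
  group

theorem cjc_one_left {G : Type*} [Group G] (N : Subgroup G) [N.Normal] (u : N) :
    cjc N 1 u = u := by
  apply Subtype.ext
  simp only [cjc]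
  group

theorem cjc_cjc {G : Type*} [Group G] (N : Subgroup G) [N.Normal] (h k : G) (u : N) :
    cjc N h (cjc N k u) = cjc N (h * k) u := by
  apply Subtype.ext
  simp only [cjc]
  group

theorem cjc_pow {G : Type*} [Group G] (N : Subgroup G) [N.Normal] (h : G) (u : N) (p : ℕ) :
    cjc N h (u ^ p) = (cjc N h u) ^ p := by
  induction p with
  | zero => rw [pow_zero, pow_zero, cjc_one]
  | succ n ih => rw [pow_succ, pow_succ, cjc_mul, ih]

theorem orb_stab {X : Type*} (S : Type*) [Group S] [MulAction S X] (x : X) :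
    Nat.card (orbit S x) * Nat.card (stabilizer S x) = Nat.card S := by
  have e : Nat.card (orbit S x) = (stabilizer S x).index :=
    Nat.card_congr (orbitEquivQuotientStabilizer S x)
  rw [e, mul_comm]
  exact Subgroup.card_mul_index _

theorem ord_dvd {S X : Type*} [Group S] [MulAction S X] [Finite X] (f : ℕ)
    (hf : ∀ x : X, Nat.card (orbit S x) = f) : f ∣ Nat.card X := by
  classical
  haveI : Fintype (orbitRel.Quotient S X) := Fintype.ofFinite _
  rw [Nat.card_congr (MulAction.selfEquivSigmaOrbits S X), Nat.card_sigma]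
  apply Finset.dvd_sum
  intro i _
  rw [hf]

theorem card_stab_sub {G Ω : Type*} [Group G] [MulAction G Ω] (S : Subgroup G) (z : Ω) :
    Nat.card (stabilizer S z) = Nat.card ↥(S ⊓ stabilizer G z) := by
  have e : stabilizer S z = (stabilizer G z).subgroupOf S := by
    ext x
    simp [Subgroup.mem_subgroupOf, MulAction.mem_stabilizer_iff, Subgroup.smul_def]
  rw [e, inf_comm, ← Subgroup.subgroupOf_map_subtype]
  exact Nat.card_congr (Subgroup.equivMapOfInjective _ _ S.subtype_injective).toEquiv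

theorem orbit_eq_f {G Ω : Type*} [Group G] [Finite G] [MulAction G Ω] [Finite Ω] (S : Subgroup G)
    (C : Set Ω) (hinv : ∀ s ∈ S, ∀ w ∈ C, s • w ∈ C) (c f : ℕ) (hc : 0 < c) (hf : Nat.card S = f * c)
    (hst : ∀ w ∈ C, Nat.card ↥(S ⊓ stabilizer G w) = c) : f ∣ Nat.card C := by
  let C' : SubMulAction S Ω := ⟨C, fun s w hw => hinv s s.2 w hw⟩
  have : f ∣ Nat.card C' := by
    apply ord_dvd (S := S) f
    intro x
    have h1 := orb_stab S x
    rw [SubMulAction.stabilizer_of_subMul, card_stab_sub, hst x.1 x.2, hf] at h1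
    exact Nat.eq_of_mul_eq_mul_right hc h1
  exact this

theorem main_ab {G Ω : Type*} [Group G] [Finite G] [MulAction G Ω] [FaithfulSMul G Ω] [Finite Ω]
    (N : Subgroup G) [hN : N.Normal] (hNt : MulAction.IsPretransitive N Ω)
    (hNr : ∀ a : Ω, MulAction.stabilizer N a = ⊥)
    (a b₀ : Ω) (hab : a ≠ b₀) (hst : stabilizer G a ⊓ stabilizer G b₀ ≠ ⊥)
    (hhalf : ∀ b c : Ω, b ≠ a → c ≠ a →
      Nat.card (orbit (stabilizer G a) b) = Nat.card (orbit (stabilizer G a) c)) :
    (∃ p : ℕ, p.Prime ∧ IsMulCommutative N ∧ ∀ x ∈ N, x ^ p = 1) ∧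
    (∀ M : Subgroup G, M.Normal → M ≠ ⊥ → N ≤ M) := by
  classical
  let H : Subgroup G := stabilizer G a
  let P : N → Ω := fun n => (n : G) • a
  have Pinj : Function.Injective P := by
    intro u v huv
    have h1 : (v⁻¹ * u) ∈ stabilizer N a := by
      rw [mem_stabilizer_iff, mul_smul, inv_smul_eq_iff]
      exact huv
    rw [hNr a, Subgroup.mem_bot] at h1
    exact (inv_mul_eq_one.mp h1).symm
  have Psurj : Function.Surjective P := by
    intro w
    obtain ⟨n, hn⟩ := MulAction.exists_smul_eq N a w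
    exact ⟨n, hn⟩
  have P1 : P 1 = a := by simp [P]
  have Pne : ∀ n : N, n ≠ 1 → P n ≠ a := fun n hn h => hn (Pinj (h.trans P1.symm))
  have Pcj : ∀ h ∈ H, ∀ n : N, h • P n = P (cjc N h n) := by
    intro h hh n
    have hh' : h • a = a := hh
    have h2 : h⁻¹ • a = a := by rw [inv_smul_eq_iff]; exact hh'.symm
    show h • ((n : G) • a) = (h * n * h⁻¹ : G) • a
    rw [mul_smul (h * (n : G)) h⁻¹, h2, mul_smul]
  have card_N : Nat.card N = Nat.card Ω := Nat.card_congr (Equiv.ofBijective P ⟨Pinj, Psurj⟩)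
  obtain ⟨n₀, hn₀⟩ := Psurj b₀
  have hn₀1 : n₀ ≠ 1 := by
    rintro rfl
    exact hab (P1.symm.trans hn₀)
  let L : N → Subgroup G := fun n => H ⊓ stabilizer G (P n)
  have memL : ∀ n h, h ∈ L n ↔ h ∈ H ∧ cjc N h n = n := by
    intro n h
    show h ∈ H ⊓ stabilizer G (P n) ↔ _
    rw [Subgroup.mem_inf]
    constructor
    · rintro ⟨hh, hs⟩
      refine ⟨hh, Pinj ?_⟩
      rw [← Pcj h hh n]
      exact hs
    · rintro ⟨hh, hs⟩
      refine ⟨hh, ?_⟩
      show h • P n = P n
      rw [Pcj h hh n, hs]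
  let c := Nat.card (L n₀)
  let d := Nat.card (orbit H (P n₀))
  have hcpos : 0 < c := Nat.card_pos
  have hcd : Nat.card H = d * c := by
    have e2 := orb_stab H (P n₀)
    rw [card_stab_sub] at e2
    exact e2.symm
  have cardL : ∀ n : N, n ≠ 1 → Nat.card (L n) = c := by
    intro n hn
    have e1 := orb_stab H (P n)
    rw [card_stab_sub] at e1
    have e3 : Nat.card (orbit H (P n)) = d := hhalf (P n) (P n₀) (Pne n hn) (Pne n₀ hn₀1)
    rw [e3, hcd] at e1
    have hdpos : 0 < d := by
      apply Nat.pos_of_ne_zero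
      intro h
      rw [h, zero_mul] at hcd
      exact Nat.card_pos.ne' hcd
    exact Nat.eq_of_mul_eq_mul_left hdpos e1
  have hd1 : d ∣ Nat.card (({a}ᶜ : Set Ω)) := by
    refine orbit_eq_f H {a}ᶜ ?_ c d hcpos hcd ?_
    · intro s hs w hw h2
      apply hw
      have h3 : s • w = s • a := h2.trans (hs : s • a = a).symm
      exact smul_left_cancel s h3
    · intro w hw
      obtain ⟨n, rfl⟩ := Psurj w
      have hn : n ≠ 1 := by
        rintro rfl
        exact hw P1
      exact cardL n hn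
  have hcop : Nat.Coprime d (Nat.card Ω) := by
    have e := Set.ncard_add_ncard_compl ({a} : Set Ω)
    rw [Set.ncard_singleton, ← Nat.card_coe_set_eq ({a}ᶜ : Set Ω)] at e
    rw [← e]
    obtain ⟨k, hk⟩ := hd1
    rw [hk]
    simp [Nat.coprime_add_mul_left_right]
  have KL : ∀ T : Set N, (1 : N) ∉ T → Nat.card T ∣ Nat.card N →
      (∀ z ∈ T, ∀ h ∈ H, cjc N h z = z → ∀ w ∈ T, cjc N h w ∈ T) →
      ∀ z ∈ T, ∀ w ∈ T, ∀ h ∈ H, cjc N h z = z → cjc N h w = w := by
    intro T h1T hdvd hblock z hz w hw h hh hzfix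
    let S : Subgroup G :=
      { carrier := {s | s ∈ H ∧ ∀ t, t ∈ T ↔ cjc N s t ∈ T}
        mul_mem' := by
          rintro s₁ s₂ ⟨h1, h1'⟩ ⟨h2, h2'⟩
          refine ⟨H.mul_mem h1 h2, fun t => (h2' t).trans ?_⟩
          rw [← cjc_cjc]
          exact h1' _
        one_mem' := ⟨H.one_mem, fun t => by rw [cjc_one_left]⟩
        inv_mem' := by
          rintro s ⟨h1, h1'⟩
          refine ⟨H.inv_mem h1, fun t => ?_⟩
          have e := h1' (cjc N s⁻¹ t)
          rw [cjc_cjc, mul_inv_cancel, cjc_one_left] at e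
          exact e.symm }
    have LS : ∀ u ∈ T, L u ≤ S := by
      intro u hu s hs
      obtain ⟨hs1, hs2⟩ := (memL u s).mp hs
      refine ⟨hs1, fun t => ⟨fun ht => hblock u hu s hs1 hs2 t ht, fun ht => ?_⟩⟩
      have e : cjc N s⁻¹ u = u := by
        conv_lhs => rw [← hs2]
        rw [cjc_cjc, inv_mul_cancel, cjc_one_left]
      have := hblock u hu s⁻¹ (H.inv_mem hs1) e _ ht
      rwa [cjc_cjc, inv_mul_cancel, cjc_one_left] at this
    have T1 : ∀ u ∈ T, u ≠ 1 := fun u hu h => h1T (h ▸ hu)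
    have SH : S ≤ H := fun s hs => hs.1
    have hS : ∀ u ∈ T, S ⊓ stabilizer G (P u) = L u := by
      intro u hu
      apply le_antisymm
      · rintro s ⟨h1, h2⟩
        exact ⟨SH h1, h2⟩
      · intro s hs
        exact ⟨LS u hu hs, hs.2⟩
    have hcS : c ∣ Nat.card S := by
      rw [← cardL z (T1 z hz)]
      exact Subgroup.card_dvd_of_le (LS z hz)
    obtain ⟨f, hf⟩ := hcS
    have hfd : f ∣ Nat.card (P '' T) := by
      refine orbit_eq_f S (P '' T) ?_ c f hcpos (by rw [hf, mul_comm]) ?_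
      · rintro s hs _ ⟨u, hu, rfl⟩
        exact ⟨cjc N s u, (hs.2 u).mp hu, (Pcj s hs.1 u).symm⟩
      · rintro _ ⟨u, hu, rfl⟩
        rw [hS u hu]
        exact cardL u (T1 u hu)
    rw [Nat.card_image_of_injective Pinj] at hfd
    have hfdd : f ∣ d := by
      have h5 : Nat.card S ∣ Nat.card H := Subgroup.card_dvd_of_le SH
      rw [hf, hcd, mul_comm c f] at h5
      exact Nat.dvd_of_mul_dvd_mul_right hcpos h5
    have hf1 : f = 1 := by
      have h3 : Nat.Coprime f f := by
        apply Nat.Coprime.coprime_dvd_left hfdd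
        exact Nat.Coprime.coprime_dvd_right (hfd.trans (hdvd.trans card_N.dvd)) hcop
      exact (Nat.coprime_self f).mp h3
    have hSL : ∀ u ∈ T, L u = S := by
      intro u hu
      apply Subgroup.eq_of_le_of_card_ge (LS u hu)
      exact (by rw [hf, hf1, mul_one, cardL u (T1 u hu)] : Nat.card S = Nat.card (L u)).le
    have hmem : h ∈ S := by
      rw [← hSL z hz]
      exact (memL z h).mpr ⟨hh, hzfix⟩
    rw [← hSL w hw] at hmem
    exact ((memL w h).mp hmem).2
  have Lmono : ∀ u v : N, u ≠ 1 → v ≠ 1 → L u ≤ L v → L u = L v := by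
    intro u v hu hv hle
    apply Subgroup.eq_of_le_of_card_ge hle
    exact (by rw [cardL u hu, cardL v hv] : Nat.card (L v) = Nat.card (L u)).le
  obtain ⟨t, htm, ht⟩ := (Subgroup.bot_or_exists_ne_one _).resolve_left hst
  have ht1 : t ∈ stabilizer G a := (Subgroup.mem_inf.mp htm).1
  have ht2 : t ∈ stabilizer G b₀ := (Subgroup.mem_inf.mp htm).2
  have tL : t ∈ L n₀ := by
    refine Subgroup.mem_inf.mpr ⟨ht1, ?_⟩
    show t • P n₀ = P n₀
    rw [hn₀]
    exact ht2
  have notall : ∀ e : N, e ≠ 1 → ∃ w : N, w ≠ 1 ∧ L w ≠ L e := by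
    intro e he
    by_contra hcon
    push Not at hcon
    apply ht
    apply FaithfulSMul.eq_of_smul_eq_smul (α := Ω)
    intro ω
    obtain ⟨w, rfl⟩ := Psurj ω
    rw [one_smul]
    by_cases hw : w = 1
    · subst hw
      rw [P1]
      exact ht1
    · have h6 : t ∈ L w := by
        rw [hcon w hw, ← hcon n₀ hn₀1]
        exact tL
      exact (Subgroup.mem_inf.mp h6).2
  have hconj : ∀ x : N, x ≠ 1 → ∀ g : N, ∀ h ∈ L x, cjc N h (g * x * g⁻¹) = g * x * g⁻¹ := by
    intro x hx g h hh
    obtain ⟨hh1, hh2⟩ := (memL x h).mp hh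
    refine KL (orbit (ConjAct N) x) ?_ ?_ ?_ x (mem_orbit_self x) _ ?_ h hh1 hh2
    · intro h1
      rw [ConjAct.mem_orbit_conjAct] at h1
      exact hx (isConj_one_right.mp h1)
    · have h7 := orb_stab (ConjAct N) x
      have e : Nat.card (ConjAct N) = Nat.card N := rfl
      rw [e] at h7
      exact Dvd.intro _ h7
    · intro z hz k hk hkz w hw
      rw [ConjAct.mem_orbit_conjAct] at hz hw ⊢
      have hwz : IsConj z w := hz.trans hw.symm
      obtain ⟨u, hu⟩ := isConj_iff.mp hwz
      refine IsConj.trans ?_ hz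
      rw [← hu, cjc_mul, cjc_mul, cjc_inv, hkz]
      exact (isConj_iff.mpr ⟨_, rfl⟩).symm
    · rw [ConjAct.mem_orbit_conjAct]
      exact (isConj_iff.mpr ⟨g, rfl⟩).symm
  have comm4 : ∀ x y : N, x ≠ 1 → y ≠ 1 → L x ≠ L y → x * y = y * x := by
    intro x y hx hy hne
    by_contra hcom
    let u : N := x * y * x⁻¹ * y⁻¹
    have hu : u ≠ 1 := by
      intro h
      apply hcom
      have h8 : x * y * x⁻¹ = y := mul_inv_eq_one.mp h
      have h9 : x * y = y * x := mul_inv_eq_iff_eq_mul.mp h8
      exact h9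
    have h1 : L x ≤ L u := by
      intro h hh
      have hh0 := (memL x h).mp hh
      refine (memL u h).mpr ⟨hh0.1, ?_⟩
      have e1 := hconj x hx y h hh
      have e : u = x * (y * x * y⁻¹)⁻¹ := by
        show x * y * x⁻¹ * y⁻¹ = _
        group
      rw [e, cjc_mul, cjc_inv, e1, hh0.2]
    have h2 : L y ≤ L u := by
      intro h hh
      have hh0 := (memL y h).mp hh
      refine (memL u h).mpr ⟨hh0.1, ?_⟩
      have e1 := hconj y hy x h hh
      show cjc N h (x * y * x⁻¹ * y⁻¹) = _
      rw [cjc_mul, e1, cjc_inv, hh0.2]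
    exact hne ((Lmono x u hx hu h1).trans (Lmono y u hy hu h2).symm)
  have comm5 : ∀ x y : N, x * y = y * x := by
    intro x y
    by_cases hx : x = 1
    · simp [hx]
    by_cases hy : y = 1
    · simp [hy]
    by_cases hL : L x = L y
    swap
    · exact comm4 x y hx hy hL
    obtain ⟨w, hw, hwL⟩ := notall x hx
    have hwx : w * x = x * w := comm4 w x hw hx hwL
    have hwy : w * y = y * w := comm4 w y hw hy (by rw [← hL]; exact hwL)
    by_cases h1 : w * y = 1
    · have h10 : y = w⁻¹ := eq_inv_of_mul_eq_one_right h1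
      rw [h10]
      rw [eq_inv_mul_iff_mul_eq, ← mul_assoc, hwx, mul_assoc, mul_inv_cancel, mul_one]
    · have h2 : L (w * y) ≠ L x := by
        intro h3
        apply hwL
        apply (Lmono x w hx hw ?_).symm
        intro h hh
        have a1 : cjc N h (w * y) = w * y := ((memL (w * y) h).mp (by rw [h3]; exact hh)).2
        have a2 : cjc N h y = y := ((memL y h).mp (by rw [← hL]; exact hh)).2
        refine (memL w h).mpr ⟨((memL x h).mp hh).1, ?_⟩
        rw [cjc_mul, a2] at a1
        exact mul_right_cancel a1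
      have h4 : x * (w * y) = (w * y) * x := comm4 x (w * y) hx h1 h2.symm
      rw [← mul_assoc, ← hwx, mul_assoc, mul_assoc] at h4
      exact mul_left_cancel h4
  have irred : ∀ A : Subgroup N, A ≠ ⊥ → (∀ h ∈ H, ∀ y ∈ A, cjc N h y ∈ A) → A = ⊤ := by
    intro A hA hinv
    by_contra hAt
    obtain ⟨v, hv⟩ : ∃ v, v ∉ A := by
      by_contra hcon
      push Not at hcon
      exact hAt (eq_top_iff.mpr fun x _ => hcon x)
    obtain ⟨a₁, ha₁, ha₁1⟩ := (Subgroup.bot_or_exists_ne_one A).resolve_left hA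
    have key : ∀ v, v ∉ A → ∀ y ∈ A, y ≠ 1 → L v = L y := by
      intro v hv y hy hy1
      have hv1 : v ≠ 1 := fun h => hv (h ▸ A.one_mem)
      apply Lmono v y hv1 hy1
      intro h hh
      have hh0 := (memL v h).mp hh
      refine (memL y h).mpr ⟨hh0.1, ?_⟩
      have e := KL ((fun q => v * q) '' (A : Set N)) ?_ ?_ ?_ v ⟨1, A.one_mem, mul_one v⟩ (v * y) ⟨y, hy, rfl⟩ h hh0.1 hh0.2
      · rw [cjc_mul, hh0.2] at e
        exact mul_left_cancel e
      · rintro ⟨q, hq, h1⟩
        apply hv
        have h11 : v = q⁻¹ := eq_inv_of_mul_eq_one_left h1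
        rw [h11]
        exact A.inv_mem hq
      · rw [Nat.card_image_of_injective (mul_right_injective v)]
        exact Subgroup.card_subgroup_dvd_card A
      · rintro _ ⟨q₀, hq₀, rfl⟩ k hk hkz _ ⟨q, hq, rfl⟩
        simp only [] at hkz ⊢
        rw [cjc_mul] at hkz
        have e1 : cjc N k v = v * q₀ * (cjc N k q₀)⁻¹ := by
          rw [← hkz]
          group
        refine ⟨q₀ * (cjc N k q₀)⁻¹ * cjc N k q, A.mul_mem (A.mul_mem hq₀ (A.inv_mem (hinv k hk q₀ hq₀))) (hinv k hk q hq), ?_⟩
        simp only []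
        rw [cjc_mul, e1]
        group
    obtain ⟨w, hw, hwL⟩ := notall a₁ ha₁1
    by_cases hwA : w ∈ A
    · exact hwL ((key v hv w hwA hw).symm.trans (key v hv a₁ ha₁ ha₁1))
    · exact hwL (key w hwA a₁ ha₁ ha₁1)
  have hcomm : IsMulCommutative N := ⟨⟨comm5⟩⟩
  haveI : Nontrivial N := ⟨⟨n₀, 1, hn₀1⟩⟩
  obtain ⟨p, hp, hpd⟩ := Nat.exists_prime_and_dvd (Finite.one_lt_card (α := N)).ne'
  haveI := Fact.mk hp
  obtain ⟨x₀, hx₀⟩ := exists_prime_orderOf_dvd_card' p hpd
  let A : Subgroup N :=
    { carrier := {y | y ^ p = 1}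
      mul_mem' := by
        intro u v hu hv
        show (u * v) ^ p = 1
        have hu' : u ^ p = 1 := hu
        have hv' : v ^ p = 1 := hv
        rw [(show Commute u v from comm5 u v).mul_pow, hu', hv', one_mul]
      one_mem' := one_pow p
      inv_mem' := by
        intro u hu
        show u⁻¹ ^ p = 1
        have hu' : u ^ p = 1 := hu
        rw [inv_pow, hu', inv_one] }
  have hAt : A = ⊤ := by
    apply irred
    · intro hb
      have h12 : x₀ ∈ A := by
        show x₀ ^ p = 1
        rw [← hx₀]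
        exact pow_orderOf_eq_one x₀
      rw [hb, Subgroup.mem_bot] at h12
      rw [h12, orderOf_one] at hx₀
      exact hp.one_lt.ne hx₀
    · intro h _ y hy
      show (cjc N h y) ^ p = 1
      have hy' : y ^ p = 1 := hy
      rw [← cjc_pow, hy', cjc_one]
  refine ⟨⟨p, hp, hcomm, ?_⟩, ?_⟩
  · intro x hx
    have h13 : (⟨x, hx⟩ : N) ∈ A := by
      rw [hAt]
      trivial
    have h14 : (⟨x, hx⟩ : N) ^ p = 1 := h13
    have h15 := congrArg Subtype.val h14
    simpa using h15
  · intro M hM hMne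
    let A' : Subgroup N := M.subgroupOf N
    have hAb : A' ≠ ⊥ := by
      intro hb
      have hMN : ∀ m ∈ M, m ∈ N → m = 1 := by
        intro m hm hmN
        have h16 : (⟨m, hmN⟩ : N) ∈ A' := hm
        rw [hb, Subgroup.mem_bot] at h16
        exact congrArg Subtype.val h16
      obtain ⟨m, hm, hm1⟩ := (Subgroup.bot_or_exists_ne_one M).resolve_left hMne
      have hmc : ∀ n : N, m * n = n * m := by
        intro n
        have h1 : m * n * m⁻¹ * (n : G)⁻¹ = 1 := by
          apply hMN
          · have h17 : m * (n * m⁻¹ * (n : G)⁻¹) ∈ M := M.mul_mem hm (hM.conj_mem _ (M.inv_mem hm) _)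
            have e : m * n * m⁻¹ * (n : G)⁻¹ = m * (n * m⁻¹ * (n : G)⁻¹) := by group
            rw [e]
            exact h17
          · exact N.mul_mem (hN.conj_mem _ n.2 m) (N.inv_mem n.2)
        have h2 : m * n * m⁻¹ = n := mul_inv_eq_one.mp h1
        exact mul_inv_eq_iff_eq_mul.mp h2
      obtain ⟨k, hk⟩ := Psurj (m • a)
      have hmk : m = k := by
        apply FaithfulSMul.eq_of_smul_eq_smul (α := Ω)
        intro ω
        obtain ⟨n, rfl⟩ := Psurj ω
        show m • ((n : G) • a) = (k : G) • ((n : G) • a)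
        have hk' : m • a = (k : G) • a := hk.symm
        rw [← mul_smul, hmc n, mul_smul, hk', ← mul_smul, ← mul_smul]
        have h18 : (n : G) * k = k * n := congrArg Subtype.val (comm5 n k)
        rw [h18]
      exact hm1 (hMN m hm (hmk ▸ k.2))
    have hAt' : A' = ⊤ := irred A' hAb (by
      intro h _ y hy
      exact hM.conj_mem _ hy h)
    intro x hx
    have h19 : (⟨x, hx⟩ : N) ∈ A' := by
      rw [hAt']
      trivial
    exact h19


/-- Let G be a finite 3/2-transitive permutation group: G acts faithfully and transitively on a finite set, the point stabilizers are non-trivial, and for each point a all orbits of G_a on the remaining points have the same size. Suppose G has a regular normal subgroup N and G is not a Frobenius group (some two-point stabilizer is non-trivial). Then N is an elementary abelian p-group for some prime p, and every non-trivial normal subgroup of G contains N (so N is the unique minimal normal subgroup). -/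
theorem result {G Ω : Type*} [Group G] [Finite G]
    [MulAction G Ω] [FaithfulSMul G Ω] [Finite Ω] (htrans : MulAction.IsPretransitive G Ω)
    (hne : ∀ a : Ω, MulAction.stabilizer G a ≠ ⊥)
    (hhalf : ∀ a b c : Ω, b ≠ a → c ≠ a →
      Nat.card (MulAction.orbit (MulAction.stabilizer G a) b) = Nat.card (MulAction.orbit (MulAction.stabilizer G a) c))
    (N : Subgroup G) [hN : N.Normal] (hNt : MulAction.IsPretransitive N Ω) (hNr : ∀ a : Ω, MulAction.stabilizer N a = ⊥)
    (hnotF : ∃ a b : Ω, a ≠ b ∧ MulAction.stabilizer G a ⊓ MulAction.stabilizer G b ≠ ⊥) :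
    (∃ p : ℕ, p.Prime ∧ IsMulCommutative N ∧ ∀ x ∈ N, x ^ p = 1) ∧
    (∀ M : Subgroup G, M.Normal → M ≠ ⊥ → N ≤ M) := by
  obtain ⟨a, b, hab, hst⟩ := hnotF
  exact main_ab N hNt hNr a b hab hst (hhalf a)

end Cfsg.Agent.S3356
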