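import Cfsg.Statements.S3374
import Cfsg.Agent.Lib.FrobSemi

set_option autoImplicit false
set_option linter.all false
open Cfsg

namespace Cfsg.Agent.S3374


/-- The table, packed into one number: four nibbles per entry. -/
def tabNat : Nat := 12472581917399162376757022019516223631317832613095476343629480604709651168057489678810470447039679199106910759989936852914305373164063686222207944545171492817208864690288339484767587972589469219601829207870518404040785830664634600423573926354595810483064847959873527526559020911223064187778447301316780290574733458991296767124171768093428562131758688802424466942964829993248792264972766913508766177734593613022549388370821133110456995866386519300326462761135109529046355027503224463888672271065507042444867462128537476869357226137089396388390996289128703725989688865146571606430294452433425746302532573325438135676980136078284459540906313925074328911216963975972291510221968509136681360851688110530242144312048748539744701310845751215996349826192042710536783072681755965992634549994106533539268320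6758988555687132034525591854215683838601852480939740792353332830546612936024358094222651284602251556472426425439964523391519470653616392500993925257263818481039584886827209687790516117788499344663018306867829132966023944133593169247329523188132749488512896031042371711146430581387584659912463868980574911000455619483484959640238521570811214945574220073605178289211347769248048241557177994388755322418157810209222031500035758061497924604172420699243705452323892900204165191228499640497847335378889306908641165005982964437727054715219848330319026997176387630967397781595417486686371199474598447380583227210766977936361248899677860688940315922113919834164561519817861275353715422014792777865180834397265659319246739401709972764104335044530388136608404458834169760383818889871780207263167079683021215212266853422823197137875025897669883762238905273484588999354989558796299167364739937568506606010410512074758399835053667251348928480299824933947508144498750586129614807926195829756126121392641003950063233945297831812987902235565570893438460270469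0845518241574827702711798219708376124280880123420322965739429288363015758295325904443766929995183154750802631858022322358990724177422197110523488903784709091772585420499790446075621169343607363702180123075148555108508394218791541476466157213084538479125776930769949715549973980858911666012785902840236959353110996365353510525251737270126517035803506910802227942519599253052982726269016661441921285942589487052738385618079675162366126361761945077072747155863829936893930926711327350801829489379016360396148517789602210428850034622007947012928571069069687071386438054083614352803005672274558659710986143193694710434796221948042743207250558205033770679513971223586861547604413118988899413603304057792863210971243999755361135308733454166885651523391848261021300669515149462817003080406069905017898388925502043984350782733188191860672217237325477436633819012472051267866460746969808442028702365109784868189205329294824010360434803502993387202509565433911556866390355654406112236141954763275551442942263536720112681966209260898524622166410838555371107466808230682187379950112153797528766468729353367498528056795970011628120985905541713855158999294049901027359031250075928039425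

def entN (i k : Nat) : Fin 11 := Fin.ofNat 11 ((tabNat >>> (16 * i + 4 * k)) % 16)

def tab (a b c d : Fin 5) : Fin 11 × Fin 11 × Fin 11 × Fin 11 :=
  let i := a.val * 125 + b.val * 25 + c.val * 5 + d.val
  (entN i 0, entN i 1, entN i 2, entN i 3)

def els : List (Fin 5 × Fin 5 × Fin 5 × Fin 5) := [
    (0,1,4,0), (0,1,4,1), (0,1,4,2), (0,1,4,3), (0,1,4,4), (0,2,2,0), (0,2,2,1), (0,2,2,2), (0,2,2,3), (0,2,2,4),
    (0,3,3,0), (0,3,3,1), (0,3,3,2), (0,3,3,3), (0,3,3,4), (0,4,1,0), (0,4,1,1), (0,4,1,2), (0,4,1,3), (0,4,1,4),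
    (1,0,0,1), (1,0,1,1), (1,0,2,1), (1,0,3,1), (1,0,4,1), (1,1,0,1), (1,1,1,2), (1,1,2,3), (1,1,3,4), (1,1,4,0),
    (1,2,0,1), (1,2,1,3), (1,2,2,0), (1,2,3,2), (1,2,4,4), (1,3,0,1), (1,3,1,4), (1,3,2,2), (1,3,3,0), (1,3,4,3),
    (1,4,0,1), (1,4,1,0), (1,4,2,4), (1,4,3,3), (1,4,4,2), (2,0,0,3), (2,0,1,3), (2,0,2,3), (2,0,3,3), (2,0,4,3),
    (2,1,0,3), (2,1,1,1), (2,1,2,4), (2,1,3,2), (2,1,4,0), (2,2,0,3), (2,2,1,4), (2,2,2,0), (2,2,3,1), (2,2,4,2),
    (2,3,0,3), (2,3,1,2), (2,3,2,1), (2,3,3,0), (2,3,4,4), (2,4,0,3), (2,4,1,0), (2,4,2,2), (2,4,3,4), (2,4,4,1),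
    (3,0,0,2), (3,0,1,2), (3,0,2,2), (3,0,3,2), (3,0,4,2), (3,1,0,2), (3,1,1,4), (3,1,2,1), (3,1,3,3), (3,1,4,0),
    (3,2,0,2), (3,2,1,1), (3,2,2,0), (3,2,3,4), (3,2,4,3), (3,3,0,2), (3,3,1,3), (3,3,2,4), (3,3,3,0), (3,3,4,1),
    (3,4,0,2), (3,4,1,0), (3,4,2,3), (3,4,3,1), (3,4,4,4), (4,0,0,4), (4,0,1,4), (4,0,2,4), (4,0,3,4), (4,0,4,4),
    (4,1,0,4), (4,1,1,3), (4,1,2,2), (4,1,3,1), (4,1,4,0), (4,2,0,4), (4,2,1,2), (4,2,2,0), (4,2,3,3), (4,2,4,1),
    (4,3,0,4), (4,3,1,1), (4,3,2,3), (4,3,3,0), (4,3,4,2), (4,4,0,4), (4,4,1,0), (4,4,2,1), (4,4,3,2), (4,4,4,3)]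

set_option maxRecDepth 100000 in
set_option maxHeartbeats 0 in
theorem mem_els : ∀ a b c d : Fin 5, a * d = b * c + 1 → (a, b, c, d) ∈ els := by
  decide +kernel

def chkP (x y : Fin 5 × Fin 5 × Fin 5 × Fin 5) : Bool :=
  let a := x.1; let b := x.2.1; let c := x.2.2.1; let d := x.2.2.2
  let e := y.1; let f := y.2.1; let g := y.2.2.1; let h := y.2.2.2
  let t := tab a b c d; let s := tab e f g h
  let r := tab (a * e + b * g) (a * f + b * h) (c * e + d * g) (c * f + d * h)
  decide (r.1 = t.1 * s.1 + t.2.1 * s.2.2.1) && decide (r.2.1 = t.1 * s.2.1 + t.2.1 * s.2.2.2) &&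
  decide (r.2.2.1 = t.2.2.1 * s.1 + t.2.2.2 * s.2.2.1) && decide (r.2.2.2 = t.2.2.1 * s.2.1 + t.2.2.2 * s.2.2.2)

set_option maxRecDepth 100000 in
set_option maxHeartbeats 0 in
theorem chk_all : els.all (fun x => els.all (fun y => chkP x y)) = true := by
  decide +kernel

def m5x (a b : Fin 5) : Fin 5 := a * b
def a5x (a b : Fin 5) : Fin 5 := a + b

theorem tab_mul_aux : ∀ a b c d e f g h : Fin 5, a * d = b * c + 1 → e * h = f * g + 1 →
    (let t := tab a b c d; let s := tab e f g h
     tab (a * e + b * g) (a * f + b * h) (c * e + d * g) (c * f + d * h) =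
      (t.1 * s.1 + t.2.1 * s.2.2.1, t.1 * s.2.1 + t.2.1 * s.2.2.2,
       t.2.2.1 * s.1 + t.2.2.2 * s.2.2.1, t.2.2.1 * s.2.1 + t.2.2.2 * s.2.2.2)) := by
  intro a b c d e f g h h1 h2
  have h3 := (List.all_eq_true.1 chk_all) _ (mem_els a b c d h1)
  have h4 := (List.all_eq_true.1 h3) _ (mem_els e f g h h2)
  simp only [chkP, Bool.and_eq_true, decide_eq_true_eq] at h4
  obtain ⟨⟨⟨h5, h6⟩, h7⟩, h8⟩ := h4
  exact Prod.ext h5 (Prod.ext h6 (Prod.ext h7 h8))

def chkF (x : Fin 5 × Fin 5 × Fin 5 × Fin 5) : Bool :=
  let t := tab x.1 x.2.1 x.2.2.1 x.2.2.2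
  (x == (1, 0, 0, 1)) || (List.finRange 11).all fun u => (List.finRange 11).all fun v =>
    ! (decide (t.1 * u + t.2.1 * v = u) && decide (t.2.2.1 * u + t.2.2.2 * v = v)) || (decide (u = 0) && decide (v = 0))

set_option maxRecDepth 100000 in
set_option maxHeartbeats 0 in
theorem chkF_all : els.all chkF = true := by
  decide +kernel

theorem tab_fpf_aux : ∀ a b c d : Fin 5, a * d = b * c + 1 → ¬ (a = 1 ∧ b = 0 ∧ c = 0 ∧ d = 1) →
    ∀ u v : Fin 11, (tab a b c d).1 * u + (tab a b c d).2.1 * v = u →
      (tab a b c d).2.2.1 * u + (tab a b c d).2.2.2 * v = v → u = 0 ∧ v = 0 := by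
  intro a b c d h1 h2 u v h3 h4
  have h5 := (List.all_eq_true.1 chkF_all) _ (mem_els a b c d h1)
  simp only [chkF, Bool.or_eq_true, beq_iff_eq, Prod.mk.injEq, List.all_eq_true, List.mem_finRange, forall_const,
    Bool.not_eq_true', Bool.and_eq_true, decide_eq_true_eq, Bool.and_eq_false_iff, decide_eq_false_iff_not] at h5
  rcases h5 with h5 | h5
  · exact absurd h5 h2
  · rcases h5 u v with h6 | h6
    · rcases h6 with h6 | h6
      · exact absurd h3 h6
      · exact absurd h4 h6
    · exact h6

theorem tab_one : tab 1 0 0 1 = (1, 0, 0, 1) := by decide +kernel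

/-- The image as a function on the prime field of order 5. -/
def F11 (a b c d : ZMod 5) (w : ZMod 11 × ZMod 11) : ZMod 11 × ZMod 11 :=
  let t : ZMod 11 × ZMod 11 × ZMod 11 × ZMod 11 := tab a b c d
  (t.1 * w.1 + t.2.1 * w.2, t.2.2.1 * w.1 + t.2.2.2 * w.2)

theorem tab_mul11 : ∀ a b c d e f g h : ZMod 5, a * d = b * c + 1 → e * h = f * g + 1 →
    (let t : ZMod 11 × ZMod 11 × ZMod 11 × ZMod 11 := tab a b c d
     let s : ZMod 11 × ZMod 11 × ZMod 11 × ZMod 11 := tab e f g h
     ((tab (a * e + b * g) (a * f + b * h) (c * e + d * g) (c * f + d * h) :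
        ZMod 11 × ZMod 11 × ZMod 11 × ZMod 11)) =
      (t.1 * s.1 + t.2.1 * s.2.2.1, t.1 * s.2.1 + t.2.1 * s.2.2.2,
       t.2.2.1 * s.1 + t.2.2.2 * s.2.2.1, t.2.2.1 * s.2.1 + t.2.2.2 * s.2.2.2)) :=
  tab_mul_aux

theorem tab_fpf11 : ∀ a b c d : ZMod 5, a * d = b * c + 1 → ¬ (a = 1 ∧ b = 0 ∧ c = 0 ∧ d = 1) →
    ∀ u v : ZMod 11, F11 a b c d (u, v) = (u, v) → u = 0 ∧ v = 0 := by
  intro a b c d h1 h2 u v h3
  exact tab_fpf_aux a b c d h1 h2 u v (congrArg Prod.fst h3) (congrArg Prod.snd h3)

theorem F11_one (w : ZMod 11 × ZMod 11) : F11 1 0 0 1 w = w := by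
  rcases w with ⟨u, v⟩
  show (((1 : ZMod 11) * u + (0 : ZMod 11) * v, (0 : ZMod 11) * u + (1 : ZMod 11) * v) : ZMod 11 × ZMod 11) = (u, v)
  simp

theorem F11_mul (a b c d e f g h : ZMod 5) (h1 : a * d = b * c + 1) (h2 : e * h = f * g + 1)
    (w : ZMod 11 × ZMod 11) :
    F11 (a * e + b * g) (a * f + b * h) (c * e + d * g) (c * f + d * h) w =
      F11 a b c d (F11 e f g h w) := by
  have := tab_mul11 a b c d e f g h h1 h2
  simp only at this
  simp only [F11, this]
  ext <;> simp <;> ring

theorem F11_add (a b c d : ZMod 5) (w w' : ZMod 11 × ZMod 11) :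
    F11 a b c d (w + w') = F11 a b c d w + F11 a b c d w' := by
  simp only [F11]
  ext <;> simp <;> ring

/-- The entries. -/
def ent (g : Matrix.SpecialLinearGroup (Fin 2) (ZMod 5)) (w : ZMod 11 × ZMod 11) : ZMod 11 × ZMod 11 :=
  F11 (g.1 0 0) (g.1 0 1) (g.1 1 0) (g.1 1 1) w

theorem ent_det (g : Matrix.SpecialLinearGroup (Fin 2) (ZMod 5)) :
    g.1 0 0 * g.1 1 1 = g.1 0 1 * g.1 1 0 + 1 := by
  have h := g.2
  rw [Matrix.det_fin_two] at h
  linear_combination h

theorem ent_mul (g h : Matrix.SpecialLinearGroup (Fin 2) (ZMod 5)) (w : ZMod 11 × ZMod 11) :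
    ent (g * h) w = ent g (ent h w) := by
  have := F11_mul _ _ _ _ _ _ _ _ (ent_det g) (ent_det h) w
  simp only [ent]
  rw [← this]
  congr 1 <;> simp [Matrix.mul_apply, Fin.sum_univ_two]

theorem ent_one (w : ZMod 11 × ZMod 11) : ent 1 w = w := by
  simp only [ent]
  convert F11_one w <;> simp

theorem ent_add (g : Matrix.SpecialLinearGroup (Fin 2) (ZMod 5)) (w w' : ZMod 11 × ZMod 11) :
    ent g (w + w') = ent g w + ent g w' := F11_add _ _ _ _ _ _


/-- SL(2,5) occurs as a Frobenius complement of some finite Frobenius group. -/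
theorem result :
    ∃ (L : Type) (_ : Group L) (_ : Finite L) (H : Subgroup L), Cfsg.IsFrobeniusComplement H ∧ Nonempty (H ≃* Matrix.SpecialLinearGroup (Fin 2) (ZMod 5)) := by
  classical
  let ρ : Matrix.SpecialLinearGroup (Fin 2) (ZMod 5) →* MulAut (Multiplicative (ZMod 11 × ZMod 11)) :=
    MonoidHom.mk' (fun g => Cfsg.Agent.Lib.FrobSemi.mulOf
      { toFun := ent g
        invFun := ent g⁻¹
        left_inv := fun w => by rw [← ent_mul, inv_mul_cancel, ent_one]
        right_inv := fun w => by rw [← ent_mul, mul_inv_cancel, ent_one]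
        map_add' := ent_add g }) (fun g h => by
      refine MulEquiv.ext fun x => ?_
      exact congrArg Multiplicative.ofAdd (ent_mul g h (Multiplicative.toAdd x)))
  have hfp : ∀ c v, ρ c v = v → c = 1 ∨ v = 1 := by
    intro g x hx
    by_cases h1 : g = 1
    · exact Or.inl h1
    · right
      have h2 : ¬ (g.1 0 0 = 1 ∧ g.1 0 1 = 0 ∧ g.1 1 0 = 0 ∧ g.1 1 1 = 1) := by
        rintro ⟨e1, e2, e3, e4⟩
        apply h1
        apply Subtype.ext
        ext i j
        fin_cases i <;> fin_cases j <;> simp [e1, e2, e3, e4]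
      have h3 := tab_fpf11 _ _ _ _ (ent_det g) h2 (Multiplicative.toAdd x).1 (Multiplicative.toAdd x).2
        (congrArg Multiplicative.toAdd hx)
      exact Prod.ext h3.1 h3.2
  haveI : Fact (Nat.Prime 11) := ⟨by norm_num⟩
  haveI : Nontrivial (Matrix.SpecialLinearGroup (Fin 2) (ZMod 5)) := by
    refine ⟨⟨⟨!![1, 1; 0, 1], by simp [Matrix.det_fin_two]⟩, 1, fun h => ?_⟩⟩
    have h1 : (1 : ZMod 5) = 0 := by
      simpa using congrArg (fun g : Matrix.SpecialLinearGroup (Fin 2) (ZMod 5) => g.1 0 1) h
    exact absurd h1 (by decide)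
  haveI : Finite (Matrix.SpecialLinearGroup (Fin 2) (ZMod 5)) := inferInstance
  obtain ⟨L, i1, i2, H, h1, ⟨e⟩, -⟩ := Cfsg.Agent.Lib.FrobSemi.exists_of_fpf ρ hfp
  exact ⟨L, i1, i2, H, h1, ⟨e.symm⟩⟩

end Cfsg.Agent.S3374
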