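import Mathlib
import Cfsg.Statements.S3375
-- import your own Cfsg.Agent.* helpers here

set_option autoImplicit false
open Cfsg

namespace Cfsg.Agent.S3375

/-- Let γ be an automorphism of order 2 of a finite group H. (i) If γ fixes only the identity, then H is abelian and γ inverts every element. (ii) If γ has exactly two fixed points and H has a subgroup of index 2, then H has a γ-invariant abelian subgroup of index 2 on which γ acts by inversion. -/
theorem result {H : Type*} [Group H] [Finite H] (γ : MulAut H) (hγ : orderOf γ = 2) :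
    ((∀ h : H, γ h = h → h = 1) → (∀ a b : H, a * b = b * a) ∧ ∀ h : H, γ h = h⁻¹) ∧
    ((Nat.card {h : H // γ h = h} = 2 ∧ ∃ M : Subgroup H, M.index = 2) →
      ∃ A : Subgroup H, A.index = 2 ∧ IsMulCommutative A ∧ (∀ a ∈ A, γ a ∈ A) ∧ ∀ a ∈ A, γ a = a⁻¹) := by
  classical
  have := Fintype.ofFinite H
  have hγ2 : ∀ h : H, γ (γ h) = h := by
    intro h
    have h1 : γ ^ 2 = 1 := by rw [← hγ]; exact pow_orderOf_eq_one γ
    have h2 : (γ ^ 2) h = h := by rw [h1]; rfl
    simpa [pow_two] using h2
  let φ : H → H := fun x => x⁻¹ * γ x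
  have hφγ : ∀ x, γ (φ x) = (φ x)⁻¹ := by
    intro x
    simp only [φ, map_mul, map_inv, hγ2, mul_inv_rev, inv_inv]
  have hcomm_of_inv : ∀ a b : H, γ a = a⁻¹ → γ b = b⁻¹ → γ (a * b) = (a * b)⁻¹ → a * b = b * a := by
    intro a b ha hb hab
    rw [map_mul, ha, hb, mul_inv_rev] at hab
    have h1 : (a⁻¹ * b⁻¹)⁻¹ = (b⁻¹ * a⁻¹)⁻¹ := by rw [hab]
    simpa using h1.symm
  have hfib : ∀ x y, φ x = φ y → γ (y * x⁻¹) = y * x⁻¹ := by
    intro x y hxy
    simp only [φ] at hxy
    have h1 : γ y = y * x⁻¹ * γ x := by
      have : y⁻¹ * γ y = x⁻¹ * γ x := hxy.symm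
      calc γ y = y * (y⁻¹ * γ y) := by group
        _ = y * (x⁻¹ * γ x) := by rw [this]
        _ = _ := by group
    rw [map_mul, map_inv, h1]
    group
  refine ⟨?_, ?_⟩
  · intro hfix
    have hinj : Function.Injective φ := by
      intro x y hxy
      have h1 := hfix _ (hfib x y hxy)
      exact (mul_inv_eq_one.1 h1).symm
    have hsurj := Finite.injective_iff_surjective.1 hinj
    have hinv : ∀ h : H, γ h = h⁻¹ := by
      intro h
      obtain ⟨x, rfl⟩ := hsurj h
      exact hφγ x
    exact ⟨fun a b => hcomm_of_inv a b (hinv a) (hinv b) (hinv _), hinv⟩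
  · rintro ⟨hC, M, hM⟩
    -- an invariant subgroup of index two
    obtain ⟨A, hA, hAinv⟩ : ∃ A : Subgroup H, A.index = 2 ∧ ∀ a ∈ A, γ a ∈ A := by
      by_cases hinvM : ∀ a ∈ M, γ a ∈ M
      · exact ⟨M, hM, hinvM⟩
      · push Not at hinvM
        obtain ⟨y₀, hy₀, hy₀'⟩ := hinvM
        have hmul := fun a b => Subgroup.mul_mem_iff_of_index_two (H := M) hM (a := a) (b := b)
        let A : Subgroup H :=
          { carrier := {x | x ∈ M ↔ γ x ∈ M}
            one_mem' := by simp [M.one_mem]
            mul_mem' := by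
              intro a b ha hb
              show a * b ∈ M ↔ γ (a * b) ∈ M
              have ha' : a ∈ M ↔ γ a ∈ M := ha
              have hb' : b ∈ M ↔ γ b ∈ M := hb
              rw [map_mul, hmul, hmul, ha', hb']
            inv_mem' := by
              intro a ha
              show a⁻¹ ∈ M ↔ γ a⁻¹ ∈ M
              have ha' : a ∈ M ↔ γ a ∈ M := ha
              rw [map_inv, M.inv_mem_iff, M.inv_mem_iff]
              exact ha' }
        have hmemA : ∀ x, x ∈ A ↔ (x ∈ M ↔ γ x ∈ M) := fun x => Iff.rfl
        refine ⟨A, ?_, ?_⟩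
        · rw [Subgroup.index_eq_two_iff]
          refine ⟨y₀, fun b => ?_⟩
          have hy : ¬ (y₀ ∈ M ↔ γ y₀ ∈ M) := by
            intro h
            exact hy₀' (h.1 hy₀)
          rw [hmemA, hmemA, map_mul, hmul, hmul]
          unfold Xor
          tauto
        · intro a ha
          rw [hmemA] at ha ⊢
          rw [hγ2]
          exact ha.symm
    have hφA : ∀ x, φ x ∈ A := by
      intro x
      by_cases hx : x ∈ A
      · exact A.mul_mem (A.inv_mem hx) (hAinv x hx)
      · have h1 : γ x ∉ A := by
          intro h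
          apply hx
          have := hAinv _ h
          rwa [hγ2] at this
        show x⁻¹ * γ x ∈ A
        rw [Subgroup.mul_mem_iff_of_index_two hA, A.inv_mem_iff]
        exact iff_of_false hx h1
    have hfibcard : ∀ a ∈ Finset.univ.image φ, (Finset.univ.filter (fun x => φ x = a)).card ≤ 2 := by
      intro a ha
      obtain ⟨x₀, -, rfl⟩ := Finset.mem_image.1 ha
      have h1 : (Finset.univ.filter (fun h : H => γ h = h)).card = 2 := by
        rw [← hC, Nat.card_eq_fintype_card, Fintype.card_subtype]
      rw [← h1]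
      apply Finset.card_le_card_of_injOn (fun x => x * x₀⁻¹)
      · intro x hx
        have hx' : φ x = φ x₀ := by simpa using hx
        simpa using hfib x₀ x hx'.symm
      · intro x _ y _ hxy
        exact mul_right_cancel hxy
    have h1 := Finset.card_le_mul_card_image (Finset.univ : Finset H) 2 hfibcard
    have h2 := Subgroup.card_mul_index A
    rw [hA] at h2
    have h3 : (Finset.univ.image φ) = Finset.univ.filter (fun x => x ∈ A) := by
      apply Finset.eq_of_subset_of_card_le
      · intro a ha
        obtain ⟨x, -, rfl⟩ := Finset.mem_image.1 ha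
        simpa using hφA x
      · have h4 : (Finset.univ.filter (fun x => x ∈ A)).card = Nat.card A := by
          rw [Nat.card_eq_fintype_card, Fintype.card_subtype]
        rw [h4]
        rw [Finset.card_univ, ← Nat.card_eq_fintype_card, ← h2] at h1
        omega
    have hinv : ∀ a ∈ A, γ a = a⁻¹ := by
      intro a ha
      have h4 : a ∈ Finset.univ.image φ := by
        rw [h3]
        simpa using ha
      obtain ⟨x, -, rfl⟩ := Finset.mem_image.1 h4
      exact hφγ x
    refine ⟨A, hA, ⟨⟨fun a b => ?_⟩⟩, hAinv, hinv⟩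
    apply Subtype.ext
    exact hcomm_of_inv a b (hinv a a.2) (hinv b b.2) (hinv _ (A.mul_mem a.2 b.2))

end Cfsg.Agent.S3375
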