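import Mathlib
import Cfsg.Statements.S3379
-- import your own Cfsg.Agent.* helpers here

set_option autoImplicit false
open Cfsg

namespace Cfsg.Agent.S3379

open scoped commutatorElement

/-- Let G be a finite group all of whose Sylow subgroups are cyclic. Then G is generated by two elements x and y of coprime orders n and m with x⁻¹yx = y^r, where gcd(r − 1, m) = 1 and r^n ≡ 1 (mod m). -/
theorem result {G : Type*} [Group G] [Finite G]
    (hZ : ∀ (p : ℕ) [Fact p.Prime] (P : Sylow p G), IsCyclic (P : Subgroup G)) :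
    ∃ (x y : G) (n m r : ℕ), Subgroup.closure {x, y} = ⊤ ∧ orderOf x = n ∧ orderOf y = m ∧
      x⁻¹ * y * x = y ^ r ∧ Nat.Coprime (r - 1) m ∧ Nat.Coprime n m ∧ 1 ≤ r ∧ r ^ n % m = 1 % m := by
  classical
  haveI : IsZGroup G := ⟨fun p hp P => by
    haveI := Fact.mk hp
    exact hZ p P⟩
  set N : Subgroup G := commutator G with hN
  haveI hNc : IsCyclic N := IsZGroup.isCyclic_commutator G
  have hcop : (Nat.card N).Coprime N.index := IsZGroup.coprime_commutator_index G
  haveI hNn : N.Normal := inferInstanceAs (commutator G).Normal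
  obtain ⟨H, hH⟩ := Subgroup.exists_right_complement'_of_coprime hcop
  have hdisj : Disjoint N H := hH.disjoint
  haveI hQc : IsCyclic (G ⧸ N) := IsZGroup.isCyclic_abelianization
  have hinj : Function.Injective ((QuotientGroup.mk' N).comp H.subtype) := by
    rw [← MonoidHom.ker_eq_bot_iff, eq_bot_iff]
    intro h hh
    have h1 : (h : G) ∈ N := (QuotientGroup.eq_one_iff _).1 hh
    have h2 : (h : G) = 1 := Subgroup.disjoint_def.1 hdisj h1 h.2
    exact Subtype.ext h2
  haveI hHc : IsCyclic H := isCyclic_of_injective _ hinj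
  obtain ⟨x₀, hx₀⟩ := IsCyclic.exists_generator (α := H)
  obtain ⟨y₀, hy₀⟩ := IsCyclic.exists_generator (α := N)
  set x : G := (x₀ : G) with hx
  set y : G := (y₀ : G) with hy
  have hzx : Subgroup.zpowers x = H := by
    apply le_antisymm
    · rw [Subgroup.zpowers_le]; exact x₀.2
    · intro h hh
      obtain ⟨i, hi⟩ := hx₀ ⟨h, hh⟩
      refine ⟨i, ?_⟩
      have := congrArg Subtype.val hi
      simpa using this
  have hzy : Subgroup.zpowers y = N := by
    apply le_antisymm
    · rw [Subgroup.zpowers_le]; exact y₀.2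
    · intro h hh
      obtain ⟨i, hi⟩ := hy₀ ⟨h, hh⟩
      refine ⟨i, ?_⟩
      have := congrArg Subtype.val hi
      simpa using this
  have hox : orderOf x = Nat.card H := by rw [← hzx, Nat.card_zpowers]
  have hoy : orderOf y = Nat.card N := by rw [← hzy, Nat.card_zpowers]
  have hidx : N.index = Nat.card H := by
    have h1 := hH.card_mul_card
    have h2 := N.card_mul_index
    have h3 : 0 < Nat.card N := Nat.card_pos
    apply Nat.eq_of_mul_eq_mul_left h3
    rw [h2, h1]
  have hm0 : 0 < orderOf y := by rw [hoy]; exact Nat.card_pos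
  -- the exponent
  have hxy : x⁻¹ * y * x ∈ N := by
    have := hNn.conj_mem y y₀.2 x⁻¹
    simpa using this
  rw [← hzy] at hxy
  obtain ⟨k, hk⟩ := hxy
  simp only at hk
  set m := orderOf y with hm
  set r : ℕ := (k % (m : ℤ)).toNat + m with hr
  have hrz : y ^ (r : ℤ) = y ^ k := by
    have h1 : (0 : ℤ) ≤ k % (m : ℤ) := Int.emod_nonneg _ (by omega)
    have h2 : (r : ℤ) = k % (m : ℤ) + m := by
      rw [hr]; push_cast; rw [Int.toNat_of_nonneg h1]
    rw [h2, zpow_add, zpow_natCast, hm, pow_orderOf_eq_one, mul_one]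
    rw [← hm]
    rw [zpow_eq_zpow_iff_modEq, ← hm]
    exact Int.mod_modEq k m
  have hconj : x⁻¹ * y * x = y ^ r := by
    rw [← hk, ← zpow_natCast, hrz]
  have hr1 : 1 ≤ r := by rw [hr]; omega
  -- powers
  have hpow : ∀ j : ℕ, (x⁻¹) ^ j * y * x ^ j = y ^ r ^ j := by
    intro j
    induction j with
    | zero => simp
    | succ j ih =>
      have e : x⁻¹ ^ (j + 1) * y * x ^ (j + 1) = x⁻¹ * (x⁻¹ ^ j * y * x ^ j) * x := by
        rw [pow_succ', pow_succ]
        group
      rw [e, ih]
      have h1 : x⁻¹ * y ^ r ^ j * x = (x⁻¹ * y * x⁻¹⁻¹) ^ r ^ j := by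
        rw [conj_pow, inv_inv]
      rw [h1, inv_inv, hconj, ← pow_mul, pow_succ, mul_comm]
  have hrn : r ^ orderOf x % m = 1 % m := by
    have h1 := hpow (orderOf x)
    rw [inv_pow, pow_orderOf_eq_one, inv_one, one_mul, mul_one] at h1
    have h2 : y ^ r ^ orderOf x = y ^ 1 := by rw [← h1, pow_one]
    exact (pow_eq_pow_iff_modEq.1 h2)
  -- generation
  have hgen : Subgroup.closure {x, y} = ⊤ := by
    rw [eq_top_iff, ← hH.sup_eq_top]
    apply sup_le
    · rw [← hzy, Subgroup.zpowers_le]
      exact Subgroup.subset_closure (by simp)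
    · rw [← hzx, Subgroup.zpowers_le]
      exact Subgroup.subset_closure (by simp)
  -- the exponent minus one is prime to `m`
  set M : Subgroup G := Subgroup.zpowers (y ^ (r - 1)) with hMdef
  have hMn : M.Normal := by
    refine ⟨fun w hw g => ?_⟩
    obtain ⟨i, rfl⟩ := hw
    simp only
    have h1 : g * y * g⁻¹ ∈ N := hNn.conj_mem y y₀.2 g
    rw [← hzy] at h1
    obtain ⟨s, hs⟩ := h1
    simp only at hs
    rw [← conj_zpow, ← conj_pow, ← hs]
    have e2 : ((y ^ s) ^ (r - 1)) ^ i = (y ^ (r - 1)) ^ (s * i) := by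
      rw [← zpow_natCast (y ^ s), ← zpow_natCast y, ← zpow_mul, ← zpow_mul, ← zpow_mul]
      congr 1
      ring
    rw [e2]
    exact zpow_mem (Subgroup.mem_zpowers _) _
  haveI := hMn
  have hcM : N ≤ M := by
    rw [hN, show commutator G = ⁅(⊤ : Subgroup G), ⊤⁆ from rfl, Subgroup.commutator_le]
    intro g₁ _ g₂ _
    rw [← QuotientGroup.eq_one_iff]
    have hq : ∀ a b : G, (QuotientGroup.mk' M) a * (QuotientGroup.mk' M) b = (QuotientGroup.mk' M) b * (QuotientGroup.mk' M) a := by
      have hcomm0 : (QuotientGroup.mk' M) x * (QuotientGroup.mk' M) y = (QuotientGroup.mk' M) y * (QuotientGroup.mk' M) x := by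
        rw [← map_mul, ← map_mul]
        rw [QuotientGroup.mk'_apply, QuotientGroup.mk'_apply, QuotientGroup.eq]
        have e : (x * y)⁻¹ * (y * x) = y⁻¹ * (x⁻¹ * y * x) := by group
        rw [e, hconj]
        have e2 : y⁻¹ * y ^ r = y ^ (r - 1) := by
          obtain ⟨r', hr'⟩ : ∃ r', r = r' + 1 := ⟨r - 1, by omega⟩
          rw [hr', pow_succ']
          simp
        rw [e2]
        exact Subgroup.mem_zpowers _
      have hsurj : Subgroup.closure {(QuotientGroup.mk' M) x, (QuotientGroup.mk' M) y} = ⊤ := by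
        have h1 := MonoidHom.map_closure (QuotientGroup.mk' M) ({x, y} : Set G)
        rw [hgen, ← MonoidHom.range_eq_map, QuotientGroup.range_mk', Set.image_pair] at h1
        exact h1.symm
      set s : Set (G ⧸ M) := {(QuotientGroup.mk' M) x, (QuotientGroup.mk' M) y} with hs
      have hs1 : ∀ u ∈ s, ∀ v ∈ s, u * v = v * u := by
        intro u hu v hv
        simp only [hs, Set.mem_insert_iff, Set.mem_singleton_iff] at hu hv
        rcases hu with rfl | rfl <;> rcases hv with rfl | rfl
        · rfl
        · exact hcomm0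
        · exact hcomm0.symm
        · rfl
      have hall1 : ∀ u ∈ s, ∀ w : G ⧸ M, w * u = u * w := by
        intro u hu w
        have hle : Subgroup.closure s ≤ Subgroup.centralizer ({u} : Set (G ⧸ M)) := by
          rw [Subgroup.closure_le]
          intro v hv
          rw [SetLike.mem_coe, Subgroup.mem_centralizer_singleton_iff]
          exact hs1 v hv u hu
        have := hle (by rw [hsurj]; trivial : w ∈ Subgroup.closure s)
        exact Subgroup.mem_centralizer_singleton_iff.1 this
      have hall2 : ∀ w v : G ⧸ M, v * w = w * v := by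
        intro w v
        have hle : Subgroup.closure s ≤ Subgroup.centralizer ({w} : Set (G ⧸ M)) := by
          rw [Subgroup.closure_le]
          intro u hu
          rw [SetLike.mem_coe, Subgroup.mem_centralizer_singleton_iff]
          exact (hall1 u hu w).symm
        have := hle (by rw [hsurj]; trivial : v ∈ Subgroup.closure s)
        exact Subgroup.mem_centralizer_singleton_iff.1 this
      intro a b
      exact hall2 _ _
    have h5 : (QuotientGroup.mk' M) ⁅g₁, g₂⁆ = 1 := by
      rw [map_commutatorElement, commutatorElement_eq_one_iff_mul_comm]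
      exact hq g₁ g₂
    exact h5
  have hord : orderOf (y ^ (r - 1)) = m := by
    have h1 : Nat.card M = Nat.card N := by
      apply le_antisymm
      · apply Subgroup.card_le_of_le
        rw [hMdef, Subgroup.zpowers_le, ← hzy]
        exact pow_mem (Subgroup.mem_zpowers y) _
      · exact Subgroup.card_le_of_le hcM
    rw [hMdef, Nat.card_zpowers] at h1
    rw [h1, hoy]
  have hgcd : Nat.Coprime (r - 1) m := by
    rw [orderOf_pow] at hord
    have h2 : Nat.gcd m (r - 1) = 1 := by
      rcases (Nat.div_eq_self.1 hord) with h | h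
      · omega
      · exact h
    rw [Nat.Coprime, Nat.gcd_comm]
    exact h2
  refine ⟨x, y, orderOf x, m, r, hgen, rfl, rfl, hconj, hgcd, ?_, hr1, hrn⟩
  rw [hox, ← hidx, hoy]
  exact hcop.symm

end Cfsg.Agent.S3379
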