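import Mathlib
import Cfsg.Statements.S3381
-- import your own Cfsg.Agent.* helpers here

set_option autoImplicit false
open Cfsg

namespace Cfsg.Agent.S3381

/-- Let G be a finite group acting faithfully and linearly on a non-trivial finite vector space V over the field with q elements (q prime) so that every non-zero vector has a stabilizer of order 2, and suppose G has a central involution. Then V has q^(2r) elements for some r and G contains exactly q^r + 1 non-central involutions. -/
theorem result
    (q : ℕ) [Fact q.Prime] {V : Type*} [AddCommGroup V] [Module (ZMod q) V] [Finite V] [Nontrivial V]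
    {G : Type*} [Group G] [Finite G] (ρ : G →* (V ≃ₗ[ZMod q] V)) (hρ : Function.Injective ρ)
    (hstab : ∀ v : V, v ≠ 0 → Nat.card {g : G // ρ g v = v} = 2)
    (z : G) (hz : orderOf z = 2) (hzc : z ∈ Subgroup.center G) :
    ∃ r : ℕ, Nat.card V = q ^ (2 * r) ∧
      Nat.card {g : G // orderOf g = 2 ∧ g ∉ Subgroup.center G} = q ^ r + 1 := by
  classical
  haveI : Fintype V := Fintype.ofFinite V
  haveI : Fintype G := Fintype.ofFinite G
  -- action lemmas
  have hmul : ∀ (g h : G) (v : V), ρ (g * h) v = ρ g (ρ h v) := by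
    intro g h v
    rw [map_mul]
    rfl
  have hone : ∀ v : V, ρ 1 v = v := by
    intro v
    rw [map_one]
    rfl
  have hinjV : ∀ g h : G, (∀ v, ρ g v = ρ h v) → g = h := by
    intro g h hgh
    apply hρ
    ext v
    exact hgh v
  -- three elements fixing a vector
  have hthree : ∀ v : V, v ≠ 0 → ∀ a b c : G, ρ a v = v → ρ b v = v → ρ c v = v → a = b ∨ a = c ∨ b = c := by
    intro v hv a b c ha hb hc
    obtain ⟨x, y, -, hxy⟩ := Nat.card_eq_two_iff.1 (hstab v hv)
    have hm : ∀ w : {g : G // ρ g v = v}, w = x ∨ w = y := by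
      intro w
      have : w ∈ ({x, y} : Set {g : G // ρ g v = v}) := by rw [hxy]; trivial
      simpa using this
    have e : ∀ {A B : {g : G // ρ g v = v}}, A = B → A.1 = B.1 := fun h => congrArg Subtype.val h
    rcases hm ⟨a, ha⟩ with h1 | h1 <;> rcases hm ⟨b, hb⟩ with h2 | h2 <;> rcases hm ⟨c, hc⟩ with h3 | h3
    · exact Or.inl (e (h1.trans h2.symm))
    · exact Or.inl (e (h1.trans h2.symm))
    · exact Or.inr (Or.inl (e (h1.trans h3.symm)))
    · exact Or.inr (Or.inr (e (h2.trans h3.symm)))
    · exact Or.inr (Or.inr (e (h2.trans h3.symm)))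
    · exact Or.inr (Or.inl (e (h1.trans h3.symm)))
    · exact Or.inl (e (h1.trans h2.symm))
    · exact Or.inl (e (h1.trans h2.symm))
  have hexist : ∀ v : V, v ≠ 0 → ∃ t : G, t ≠ 1 ∧ ρ t v = v ∧ orderOf t = 2 := by
    intro v hv
    have h2 : 1 < Nat.card {g : G // ρ g v = v} := by rw [hstab v hv]; norm_num
    haveI : Nontrivial {g : G // ρ g v = v} := Finite.one_lt_card_iff_nontrivial.1 h2
    obtain ⟨⟨t, ht⟩, htne⟩ := exists_ne (⟨1, hone v⟩ : {g : G // ρ g v = v})
    have ht1 : t ≠ 1 := fun h => htne (Subtype.ext h)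
    refine ⟨t, ht1, ht, ?_⟩
    have htt : ρ (t * t) v = v := by rw [hmul, ht, ht]
    have h3 : t * t = 1 := by
      rcases hthree v hv 1 t (t * t) (hone v) ht htt with h | h | h
      · exact absurd h.symm ht1
      · exact h.symm
      · exact absurd (by simpa using h.symm) ht1
    exact orderOf_eq_prime (by rw [pow_two]; exact h3) ht1
  -- central involutions act as `-1`
  have hcentral : ∀ u : G, orderOf u = 2 → u ∈ Subgroup.center G → ∀ v : V, ρ u v = -v := by
    intro u hu huc
    have huu : u * u = 1 := by rw [← pow_two, ← hu, pow_orderOf_eq_one]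
    have hu1 : u ≠ 1 := by
      rintro rfl
      simp at hu
    have hcomm : ∀ g : G, g * u = u * g := fun g => (Subgroup.mem_center_iff.1 huc g)
    have hor : ∀ v : V, ρ u v = v ∨ ρ u v = -v := by
      intro v
      by_cases hv : ρ u v = v
      · exact Or.inl hv
      · right
        have hv0 : v ≠ 0 := by
          rintro rfl
          exact hv (map_zero _)
        obtain ⟨t, ht1, htv, -⟩ := hexist v hv0
        have htu : t ≠ u := by
          rintro rfl
          exact hv htv
        by_contra hw
        have hw0 : v + ρ u v ≠ 0 := by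
          intro h
          exact hw (eq_neg_of_add_eq_zero_right h)
        have h1 : ρ t (v + ρ u v) = v + ρ u v := by
          rw [map_add, htv, ← hmul, hcomm, hmul, htv]
        have h2 : ρ u (v + ρ u v) = v + ρ u v := by
          rw [map_add, ← hmul, huu, hone, add_comm]
        rcases hthree _ hw0 1 t u (hone _) h1 h2 with h | h | h
        · exact ht1 h.symm
        · exact hu1 h.symm
        · exact htu h
    by_contra hcon
    push Not at hcon
    obtain ⟨v₂, hv₂⟩ := hcon
    have hv₂' : ρ u v₂ = v₂ := (hor v₂).resolve_right hv₂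
    have hnot : ¬ ∀ v : V, ρ u v = v := by
      intro h
      exact hu1 (hinjV u 1 (fun v => by rw [h, hone]))
    push Not at hnot
    obtain ⟨v₁, hv₁⟩ := hnot
    have hv₁' : ρ u v₁ = -v₁ := (hor v₁).resolve_left hv₁
    rcases hor (v₁ + v₂) with h | h
    · rw [map_add, hv₁', hv₂'] at h
      apply hv₁
      rw [hv₁']
      have : -v₁ = v₁ := by simpa using h
      exact this
    · rw [map_add, hv₁', hv₂', neg_add] at h
      apply hv₂
      rw [hv₂']
      have : v₂ = -v₂ := by simpa using h
      exact this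
  have hz1 : z ≠ 1 := by
    rintro rfl
    simp at hz
  have hzz : z * z = 1 := by rw [← pow_two, ← hz, pow_orderOf_eq_one]
  have hzneg := hcentral z hz hzc
  have hzcomm : ∀ g : G, g * z = z * g := fun g => (Subgroup.mem_center_iff.1 hzc g)
  -- the characteristic is not two
  have h2 : ∀ v : V, v ≠ 0 → v + v ≠ 0 := by
    intro v hv hvv
    by_cases h20 : (2 : ZMod q) = 0
    · apply hz1
      apply hinjV
      intro w
      rw [hzneg, hone]
      have : w + w = 0 := by
        rw [← two_smul (ZMod q) w, h20, zero_smul]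
      exact (eq_neg_of_add_eq_zero_left this).symm
    · rw [← two_smul (ZMod q) v] at hvv
      exact (smul_ne_zero h20 hv) hvv
  have h20 : (2 : ZMod q) ≠ 0 := by
    intro h
    obtain ⟨v, hv⟩ := exists_ne (0 : V)
    apply h2 v hv
    rw [← two_smul (ZMod q) v, h, zero_smul]
  have hzfix : ∀ v : V, v ≠ 0 → ρ z v ≠ v := by
    intro v hv h
    rw [hzneg] at h
    apply h2 v hv
    nth_rewrite 1 [← h]
    simp
  -- noncentral involutions
  let P : G → Prop := fun g => orderOf g = 2 ∧ g ∉ Subgroup.center G
  have hPz : ∀ t : G, orderOf t = 2 → (P t ↔ t ≠ z) := by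
    intro t ht
    constructor
    · rintro ⟨-, h⟩ rfl
      exact h hzc
    · intro h
      refine ⟨ht, fun htc => h ?_⟩
      apply hinjV
      intro v
      rw [hcentral t ht htc, hzneg]
  have hP2 : ∀ t : G, P t → t * t = 1 := by
    intro t ht
    rw [← pow_two, ← ht.1, pow_orderOf_eq_one]
  have hP1 : ∀ t : G, P t → t ≠ 1 := by
    rintro t ⟨h, -⟩ rfl
    simp at h
  have hPne : ∀ t : G, P t → t ≠ z := fun t ht => (hPz t ht.1).1 ht
  have hzt : ∀ t : G, P t → P (z * t) := by
    intro t ht
    have h1 : (z * t) * (z * t) = 1 := by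
      calc (z * t) * (z * t) = z * (t * z) * t := by group
        _ = z * (z * t) * t := by rw [hzcomm]
        _ = (z * z) * (t * t) := by group
        _ = 1 := by rw [hzz, hP2 t ht, one_mul]
    have h2' : z * t ≠ 1 := by
      intro h
      apply hPne t ht
      have := eq_inv_of_mul_eq_one_right h
      rw [inv_eq_of_mul_eq_one_left hzz] at this
      exact this
    have h3 : orderOf (z * t) = 2 := orderOf_eq_prime (by rw [pow_two]; exact h1) h2'
    rw [hPz _ h3]
    intro h
    exact hP1 t ht (by simpa using h)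
  have hzzt : ∀ t : G, z * (z * t) = t := by
    intro t
    rw [← mul_assoc, hzz, one_mul]
  have htzt : ∀ t : G, t ≠ z * t := by
    intro t h
    apply hz1
    have : t * t⁻¹ = z * t * t⁻¹ := by rw [← h]
    simpa using this.symm
  -- uniqueness of the involution fixing a vector
  have huniq : ∀ v : V, v ≠ 0 → ∀ s t : G, P s → P t → ρ s v = v → ρ t v = v → s = t := by
    intro v hv s t hs ht h1 h2'
    rcases hthree v hv 1 s t (hone v) h1 h2' with h | h | h
    · exact absurd h.symm (hP1 s hs)
    · exact absurd h.symm (hP1 t ht)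
    · exact h
  have hexistP : ∀ v : V, v ≠ 0 → ∃ t : G, P t ∧ ρ t v = v := by
    intro v hv
    obtain ⟨t, -, h2', h3⟩ := hexist v hv
    refine ⟨t, (hPz t h3).2 ?_, h2'⟩
    rintro rfl
    exact hzfix v hv h2'
  -- fixed subspaces
  let Fix : G → Submodule (ZMod q) V := fun t => LinearMap.ker ((ρ t : V →ₗ[ZMod q] V) - LinearMap.id)
  have hFix : ∀ (t : G) (v : V), v ∈ Fix t ↔ ρ t v = v := by
    intro t v
    simp only [Fix, LinearMap.mem_ker, LinearMap.sub_apply, LinearMap.id_apply, sub_eq_zero]
    rfl
  let a : G → ℕ := fun t => Nat.card (Fix t)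
  have hzact : ∀ (t : G) (v : V), ρ (z * t) v = -ρ t v := by
    intro t v
    rw [hmul, hzneg]
  -- the dimension of the product
  have hinj : ∀ s t : G, P s → P t → s ≠ t →
      Function.Injective (fun x : (Fix s) × (Fix t) => (x.1 : V) + (x.2 : V)) := by
    rintro s t hs ht hst ⟨⟨x₁, hx₁⟩, ⟨y₁, hy₁⟩⟩ ⟨⟨x₂, hx₂⟩, ⟨y₂, hy₂⟩⟩ h
    simp only at h
    have h3 : x₁ - x₂ = y₂ - y₁ := by
      rw [sub_eq_sub_iff_add_eq_add, add_comm y₂]
      exact h
    have h4 : x₁ - x₂ = 0 := by
      by_contra hne
      apply hst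
      apply huniq _ hne s t hs ht
      · rw [← hFix]
        exact sub_mem hx₁ hx₂
      · rw [← hFix, h3]
        exact sub_mem hy₂ hy₁
    have h5 : y₂ - y₁ = 0 := by rw [← h3, h4]
    have e1 : x₁ = x₂ := sub_eq_zero.1 h4
    have e2 : y₁ = y₂ := (sub_eq_zero.1 h5).symm
    subst e1 e2
    rfl
  set Q := Nat.card V with hQ
  have hle : ∀ s t : G, P s → P t → s ≠ t → a s * a t ≤ Q := by
    intro s t hs ht hst
    show Nat.card (Fix s) * Nat.card (Fix t) ≤ Nat.card V
    rw [← Nat.card_prod]
    exact Nat.card_le_card_of_injective _ (hinj s t hs ht hst)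
  have heq : ∀ t : G, P t → a t * a (z * t) = Q := by
    intro t ht
    show Nat.card (Fix t) * Nat.card (Fix (z * t)) = Nat.card V
    rw [← Nat.card_prod]
    apply Nat.card_congr
    refine Equiv.ofBijective (fun x : (Fix t) × (Fix (z * t)) => (x.1 : V) + (x.2 : V))
      ⟨hinj t _ ht (hzt t ht) (htzt t), ?_⟩
    intro v
    have hc : (2 : ZMod q)⁻¹ * 2 = 1 := inv_mul_cancel₀ h20
    let c := (2 : ZMod q)⁻¹
    have htt : ρ t (ρ t v) = v := by
      rw [← hmul, hP2 t ht, hone]
    refine ⟨⟨⟨c • (v + ρ t v), ?_⟩, ⟨c • (v - ρ t v), ?_⟩⟩, ?_⟩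
    · rw [hFix, map_smul, map_add, htt, add_comm]
    · rw [hFix, hzact, map_smul, map_sub, htt, ← smul_neg, neg_sub]
    · show c • (v + ρ t v) + c • (v - ρ t v) = v
      rw [← smul_add]
      have : v + ρ t v + (v - ρ t v) = (2 : ZMod q) • v := by
        rw [two_smul]; abel
      rw [this, smul_smul, hc, one_smul]
  have hcardpos : ∀ t : G, 0 < a t := fun t => Nat.card_pos
  have hne_bot : ∀ t : G, P t → ∃ v : V, v ≠ 0 ∧ ρ t v = v := by
    intro t ht
    have hnot : ¬ ∀ v : V, ρ (z * t) v = v := by
      intro h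
      exact hP1 _ (hzt t ht) (hinjV _ 1 (fun v => by rw [h, hone]))
    push Not at hnot
    obtain ⟨v, hv⟩ := hnot
    refine ⟨v - ρ (z * t) v, ?_, ?_⟩
    · intro h
      exact hv (sub_eq_zero.1 h).symm
    · have htt : ρ t (ρ t v) = v := by
        rw [← hmul, hP2 t ht, hone]
      rw [hzact t v, sub_neg_eq_add, map_add, htt, add_comm]
  have hthird : ∀ t : G, P t → ∃ s : G, P s ∧ s ≠ t ∧ s ≠ z * t := by
    intro t ht
    obtain ⟨x, hx0, hx⟩ := hne_bot t ht
    obtain ⟨y, hy0, hy⟩ := hne_bot (z * t) (hzt t ht)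
    have hty : ρ t y = -y := by
      rw [hzact] at hy
      exact (neg_eq_iff_eq_neg.1 hy)
    have hu0 : x + y ≠ 0 := by
      intro h
      have h3 : x = -y := eq_neg_of_add_eq_zero_left h
      apply h2 y hy0
      have h4 : ρ t x = x := hx
      rw [h3, map_neg, hty, neg_neg] at h4
      nth_rewrite 1 [h4]
      simp
    obtain ⟨s, hs, hsu⟩ := hexistP _ hu0
    refine ⟨s, hs, ?_, ?_⟩
    · rintro rfl
      rw [map_add, hx, hty] at hsu
      apply h2 y hy0
      have h5 : -y = y := by simpa using hsu
      nth_rewrite 1 [← h5]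
      simp
    · rintro rfl
      rw [map_add, hzact, hzact, hx, hty, neg_neg] at hsu
      apply h2 x hx0
      have h5 : -x = x := by simpa using hsu
      nth_rewrite 1 [← h5]
      simp
  -- every fixed space has the same size
  have hsquare : ∀ t : G, P t → a t * a t = Q := by
    intro t ht
    obtain ⟨s, hs, hst, hszt⟩ := hthird t ht
    have hzs := hzt s hs
    have hzt' := hzt t ht
    have i1 := hle s t hs ht hst
    have i2 := hle (z * s) t hzs ht (by
      intro h
      apply hszt
      rw [← h, hzzt])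
    have i3 := hle s (z * t) hs hzt' hszt
    have i4 := hle (z * s) (z * t) hzs hzt' (by
      intro h
      apply hst
      have := congrArg (fun w => z * w) h
      simpa [hzzt] using this)
    have e1 := heq s hs
    have e2 := heq t ht
    have j1 : a t ≤ a (z * s) := by
      rw [← e1] at i1
      exact Nat.le_of_mul_le_mul_left i1 (hcardpos s)
    have j2 : a t ≤ a s := by
      rw [← e1, mul_comm (a s)] at i2
      exact Nat.le_of_mul_le_mul_left i2 (hcardpos _)
    have j3 : a (z * t) ≤ a (z * s) := by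
      rw [← e1] at i3
      exact Nat.le_of_mul_le_mul_left i3 (hcardpos s)
    have j4 : a (z * t) ≤ a s := by
      rw [← e1, mul_comm (a s)] at i4
      exact Nat.le_of_mul_le_mul_left i4 (hcardpos _)
    have k1 : a t * a t ≤ Q := by
      rw [← e1]
      exact Nat.mul_le_mul j2 j1
    have k2 : a (z * t) * a (z * t) ≤ Q := by
      rw [← e1]
      exact Nat.mul_le_mul j4 j3
    have l1 : a t ≤ a (z * t) := by
      rw [← e2] at k1
      exact Nat.le_of_mul_le_mul_left k1 (hcardpos t)
    have l2 : a (z * t) ≤ a t := by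
      rw [← e2, mul_comm (a t)] at k2
      exact Nat.le_of_mul_le_mul_left k2 (hcardpos _)
    have l3 : a (z * t) = a t := le_antisymm l2 l1
    rw [← e2, l3]
  -- the final count
  obtain ⟨v₀, hv₀⟩ := exists_ne (0 : V)
  obtain ⟨t₀, ht₀, ht₀v⟩ := hexistP v₀ hv₀
  set A := a t₀ with hA
  have hall : ∀ t : G, P t → a t = A := by
    intro t ht
    have h3 := hsquare t ht
    have h4 := hsquare t₀ ht₀
    have h5 : a t * a t = a t₀ * a t₀ := by rw [h3, h4]
    exact Nat.mul_self_inj.1 h5
  have hQA : Q = A * A := (hsquare t₀ ht₀).symm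
  have hApow : ∃ r : ℕ, A = q ^ r := by
    haveI : Fintype (Fix t₀) := Fintype.ofFinite _
    refine ⟨Module.finrank (ZMod q) (Fix t₀), ?_⟩
    have h3 := Module.card_eq_pow_finrank (K := ZMod q) (V := Fix t₀)
    rw [ZMod.card] at h3
    rw [hA]
    show Nat.card (Fix t₀) = _
    rw [Nat.card_eq_fintype_card, h3]
  obtain ⟨r, hr⟩ := hApow
  have hA1 : 1 < A := by
    have h3 : 1 < Nat.card (Fix t₀) := by
      haveI : Nontrivial (Fix t₀) := by
        obtain ⟨w, hw0, hw⟩ := hne_bot t₀ ht₀
        refine ⟨⟨⟨w, (hFix t₀ w).2 hw⟩, 0, ?_⟩⟩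
        intro h
        exact hw0 (congrArg Subtype.val h)
      exact Finite.one_lt_card
    exact h3
  refine ⟨r, ?_, ?_⟩
  · show Q = _
    rw [hQA, hr]
    ring
  · -- counting vectors
    rw [← hr]
    choose! f hfP hff using hexistP
    let I : Finset G := Finset.univ.filter P
    let X : Finset V := Finset.univ.erase 0
    have hXc : X.card = Q - 1 := by
      rw [Finset.card_erase_of_mem (Finset.mem_univ _), Finset.card_univ, hQ, Nat.card_eq_fintype_card]
    have hmaps : ∀ v ∈ X, f v ∈ I := by
      intro v hv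
      simp only [I, Finset.mem_filter, Finset.mem_univ, true_and]
      exact hfP v (Finset.ne_of_mem_erase hv)
    have hsum := Finset.card_eq_sum_card_fiberwise (f := f) (s := X) (t := I) hmaps
    have hfib : ∀ t ∈ I, (X.filter (fun v => f v = t)).card = A - 1 := by
      intro t ht
      have htP : P t := by simpa [I] using ht
      have h3 : X.filter (fun v => f v = t) = (Finset.univ.filter (fun v => v ∈ Fix t)).erase 0 := by
        ext v
        simp only [X, Finset.mem_filter, Finset.mem_erase, Finset.mem_univ, and_true, true_and]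
        constructor
        · rintro ⟨h0, rfl⟩
          exact ⟨h0, (hFix _ _).2 (hff v h0)⟩
        · rintro ⟨h0, h1⟩
          exact ⟨h0, huniq v h0 _ _ (hfP v h0) htP (hff v h0) ((hFix _ _).1 h1)⟩
      rw [h3, Finset.card_erase_of_mem]
      · have h4 : (Finset.univ.filter (fun v => v ∈ Fix t)).card = Nat.card (Fix t) := by
          rw [Nat.card_eq_fintype_card, Fintype.card_subtype]
        rw [h4]
        show a t - 1 = A - 1
        rw [hall t htP]
      · simp
    rw [Finset.sum_congr rfl hfib, Finset.sum_const, smul_eq_mul, hXc, hQA] at hsum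
    have hIc : Nat.card {g : G // orderOf g = 2 ∧ g ∉ Subgroup.center G} = I.card := by
      rw [Nat.card_eq_fintype_card, Fintype.card_subtype]
    rw [hIc]
    obtain ⟨B, hB⟩ : ∃ B, A = B + 2 := ⟨A - 2, by omega⟩
    rw [hB] at hsum ⊢
    have h5 : (B + 2) * (B + 2) - 1 = (B + 3) * (B + 1) := by
      have : (B + 2) * (B + 2) = (B + 3) * (B + 1) + 1 := by ring
      omega
    have h6 : B + 2 - 1 = B + 1 := by omega
    rw [h5, h6] at hsum
    have h7 := Nat.eq_of_mul_eq_mul_right (by omega) hsum
    omega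

end Cfsg.Agent.S3381
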