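import Mathlib
import Cfsg.Prelude
import Cfsg.Statements.S3382
-- import your own Cfsg.Agent.* helpers here

set_option autoImplicit false
open Cfsg

namespace Cfsg.Agent.S3382


theorem z3_a : (-1 : ZMod 3) ≠ 1 := by decide
theorem z3_b : ∀ a : ZMod 3, a ≠ 0 → a * a = 1 := by decide
theorem z3_c : ∀ a : ZMod 3, a * a = 1 → a = 1 ∨ a = -1 := by decide
theorem z2_a : ∀ a : ZMod 2, a ≠ 0 → a = 1 := by decide
theorem z2_b : ∀ s : ZMod 2, (s = 1 ∨ s = -1) → s = 1 := by decide

section Basic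

variable {q : ℕ} [hqf : Fact q.Prime]

abbrev LE (q : ℕ) [Fact q.Prime] := (Fin 2 → ZMod q) ≃ₗ[ZMod q] (Fin 2 → ZMod q)

def isD (f : LE q) (a b : ZMod q) : Prop := ∀ v, f v = ![a * v 0, b * v 1]
def isA (f : LE q) (a b : ZMod q) : Prop := ∀ v, f v = ![a * v 1, b * v 0]

theorem isD_mul {f g : LE q} {a b c d : ZMod q} (hf : isD f a b) (hg : isD g c d) :
    isD (f * g) (a * c) (b * d) := by
  intro v
  rw [LinearEquiv.mul_apply, hf, hg]
  simp [mul_assoc]

theorem isA_mul_A {f g : LE q} {a b c d : ZMod q} (hf : isA f a b) (hg : isA g c d) :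
    isD (f * g) (a * d) (b * c) := by
  intro v
  rw [LinearEquiv.mul_apply, hf, hg]
  simp [mul_assoc]

theorem isD_mul_A {f g : LE q} {a b c d : ZMod q} (hf : isD f a b) (hg : isA g c d) :
    isA (f * g) (a * c) (b * d) := by
  intro v
  rw [LinearEquiv.mul_apply, hf, hg]
  simp [mul_assoc]

theorem isA_mul_D {f g : LE q} {a b c d : ZMod q} (hf : isA f a b) (hg : isD g c d) :
    isA (f * g) (a * d) (b * c) := by
  intro v
  rw [LinearEquiv.mul_apply, hf, hg]
  simp [mul_assoc]

theorem isD_eq {f g : LE q} {a b : ZMod q} (hf : isD f a b) (hg : isD g a b) : f = g :=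
  LinearEquiv.ext fun v => by rw [hf, hg]

theorem isA_eq {f g : LE q} {a b : ZMod q} (hf : isA f a b) (hg : isA g a b) : f = g :=
  LinearEquiv.ext fun v => by rw [hf, hg]

theorem isD_one : isD (1 : LE q) 1 1 := by
  intro v
  ext i
  fin_cases i <;> simp

theorem isD_eq_one {f : LE q} (hf : isD f 1 1) : f = 1 := isD_eq hf isD_one

theorem isD_vals {f : LE q} {a b c d : ZMod q} (hf : isD f a b) (hg : isD f c d) : a = c ∧ b = d := by
  have h1 := hf ![1, 1]
  rw [hg ![1, 1]] at h1
  have h2 := congrFun h1 0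
  have h3 := congrFun h1 1
  simp at h2 h3
  exact ⟨h2.symm, h3.symm⟩

theorem isA_vals {f : LE q} {a b c d : ZMod q} (hf : isA f a b) (hg : isA f c d) : a = c ∧ b = d := by
  have h1 := hf ![1, 1]
  rw [hg ![1, 1]] at h1
  have h2 := congrFun h1 0
  have h3 := congrFun h1 1
  simp at h2 h3
  exact ⟨h2.symm, h3.symm⟩

def mkD (a b : ZMod q) (ha : a ≠ 0) (hb : b ≠ 0) : LE q :=
  { toFun := fun v => ![a * v 0, b * v 1]
    map_add' := by
      intro u v
      ext i
      fin_cases i <;> simp <;> ring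
    map_smul' := by
      intro c v
      ext i
      fin_cases i <;> simp <;> ring
    invFun := fun v => ![a⁻¹ * v 0, b⁻¹ * v 1]
    left_inv := by
      intro v
      ext i
      fin_cases i <;> simp [ha, hb]
    right_inv := by
      intro v
      ext i
      fin_cases i <;> simp [ha, hb] }

def mkA (a b : ZMod q) (ha : a ≠ 0) (hb : b ≠ 0) : LE q :=
  { toFun := fun v => ![a * v 1, b * v 0]
    map_add' := by
      intro u v
      ext i
      fin_cases i <;> simp <;> ring
    map_smul' := by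
      intro c v
      ext i
      fin_cases i <;> simp <;> ring
    invFun := fun v => ![b⁻¹ * v 1, a⁻¹ * v 0]
    left_inv := by
      intro v
      ext i
      fin_cases i <;> simp [ha, hb]
    right_inv := by
      intro v
      ext i
      fin_cases i <;> simp [ha, hb] }

theorem mkD_isD (a b : ZMod q) (ha : a ≠ 0) (hb : b ≠ 0) : isD (mkD a b ha hb) a b := fun _ => rfl
theorem mkA_isA (a b : ZMod q) (ha : a ≠ 0) (hb : b ≠ 0) : isA (mkA a b ha hb) a b := fun _ => rfl

def inB (f : LE q) : Prop := ∃ a s : ZMod q, a ≠ 0 ∧ (s = 1 ∨ s = -1) ∧ isD f a (s * a⁻¹)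
def inA (f : LE q) : Prop := ∃ a s : ZMod q, a ≠ 0 ∧ (s = 1 ∨ s = -1) ∧ isA f (s * a⁻¹) a

theorem sq_s {s : ZMod q} (hs : s = 1 ∨ s = -1) : s * s = 1 := by
  rcases hs with rfl | rfl <;> simp

theorem inB_mul {f g : LE q} (hf : inB f) (hg : inB g) : inB (f * g) := by
  obtain ⟨a, s, ha, hs, h1⟩ := hf
  obtain ⟨c, u, hc, hu, h2⟩ := hg
  refine ⟨a * c, s * u, mul_ne_zero ha hc, ?_, ?_⟩
  · rcases hs with rfl | rfl <;> rcases hu with rfl | rfl <;> simp
  · have := isD_mul h1 h2
    have e : s * a⁻¹ * (u * c⁻¹) = s * u * (a * c)⁻¹ := by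
      rw [mul_inv]; ring
    rwa [e] at this

theorem inB_one : inB (1 : LE q) := ⟨1, 1, one_ne_zero, Or.inl rfl, by simpa using isD_one⟩

theorem isD_inv {f : LE q} {a b : ZMod q} (ha : a ≠ 0) (hb : b ≠ 0) (hf : isD f a b) : isD f⁻¹ a⁻¹ b⁻¹ := by
  intro v
  have h1 : f ![a⁻¹ * v 0, b⁻¹ * v 1] = v := by
    rw [hf]
    ext i
    fin_cases i <;> simp [ha, hb]
  have h2 : (f⁻¹ * f) ![a⁻¹ * v 0, b⁻¹ * v 1] = ![a⁻¹ * v 0, b⁻¹ * v 1] := by
    rw [inv_mul_cancel]
    rfl
  rw [LinearEquiv.mul_apply, h1] at h2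
  exact h2

theorem inB_inv {f : LE q} (hf : inB f) : inB f⁻¹ := by
  obtain ⟨a, s, ha, hs, h1⟩ := hf
  have hs0 : s ≠ 0 := by
    rcases hs with rfl | rfl <;> simp
  refine ⟨a⁻¹, s, inv_ne_zero ha, hs, ?_⟩
  have := isD_inv ha (mul_ne_zero hs0 (inv_ne_zero ha)) h1
  have e : (s * a⁻¹)⁻¹ = s * (a⁻¹)⁻¹ := by
    rw [mul_inv, inv_inv]
    have h2 : s⁻¹ = s := by
      rcases hs with rfl | rfl <;> simp
    rw [h2]
  rwa [e] at this

theorem inB_comm {f g : LE q} (hf : inB f) (hg : inB g) : f * g = g * f := by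
  obtain ⟨a, s, ha, hs, h1⟩ := hf
  obtain ⟨c, u, hc, hu, h2⟩ := hg
  have h3 := isD_mul h1 h2
  have h4 := isD_mul h2 h1
  rw [mul_comm c a, mul_comm (u * c⁻¹)] at h4
  exact isD_eq h3 h4

theorem inA_mul_A {f g : LE q} (hf : inA f) (hg : inA g) : inB (f * g) := by
  obtain ⟨a, s, ha, hs, h1⟩ := hf
  obtain ⟨c, u, hc, hu, h2⟩ := hg
  have hs0 : s ≠ 0 := by
    rcases hs with rfl | rfl <;> simp
  have hss : s⁻¹ = s := by
    rcases hs with rfl | rfl <;> simp
  refine ⟨s * a⁻¹ * c, s * u, mul_ne_zero (mul_ne_zero hs0 (inv_ne_zero ha)) hc, ?_, ?_⟩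
  · rcases hs with rfl | rfl <;> rcases hu with rfl | rfl <;> simp
  · have := isA_mul_A h1 h2
    have e : a * (u * c⁻¹) = s * u * (s * a⁻¹ * c)⁻¹ := by
      rw [mul_inv, mul_inv, inv_inv, hss]
      have := sq_s hs
      linear_combination (-(a * u * c⁻¹)) * this
    rwa [e] at this

theorem inA_pow4 {f : LE q} (hf : inA f) : f ^ 4 = 1 := by
  obtain ⟨a, s, ha, hs, h1⟩ := hf
  have h2 := isA_mul_A h1 h1
  have e1 : s * a⁻¹ * a = s := by
    rw [mul_assoc, inv_mul_cancel₀ ha, mul_one]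
  have e2 : a * (s * a⁻¹) = s := by
    rw [mul_comm, e1]
  rw [e1, e2] at h2
  have h3 := isD_mul h2 h2
  rw [sq_s hs] at h3
  have h4 := isD_eq_one h3
  rw [← h4, show (4 : ℕ) = 2 + 2 by norm_num, pow_add, pow_two]

theorem odd_fix {X : Type*} [Group X] (α : MulAut X) (r : ℕ) (hr : Odd r) (hα : α ^ r = 1) (K : ℕ) (x : X)
    (h : (α ^ (2 ^ K)) x = x) : α x = x := by
  by_cases hr1 : r = 1
  · subst hr1
    rw [pow_one] at hα
    rw [hα]
    rfl
  have h1r : 1 < r := by
    obtain ⟨l, rfl⟩ := hr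
    omega
  have hco : Nat.Coprime (2 ^ K) r := Nat.Coprime.pow_left K (Nat.coprime_two_left.mpr hr)
  obtain ⟨m, hm⟩ := Nat.exists_mul_mod_eq_one_of_coprime hco h1r
  have h2 : α = α ^ (2 ^ K * m) := by
    rw [pow_eq_pow_mod (2 ^ K * m) hα, hm.2, pow_one]
  have h3 : ∀ n : ℕ, ((α ^ (2 ^ K)) ^ n) x = x := by
    intro n
    induction n with
    | zero => rfl
    | succ n ih =>
      rw [pow_succ, MulAut.mul_apply, h, ih]
  rw [h2, pow_mul]
  exact h3 m

theorem pow_coprime_one {X : Type*} [Group X] (b : X) (r m : ℕ) (hr : Odd r) (h1 : b ^ r = 1) (h2 : b ^ (2 ^ m) = 1) : b = 1 := by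
  have hco : Nat.Coprime (2 ^ m) r := Nat.Coprime.pow_left m (Nat.coprime_two_left.mpr hr)
  have := (pow_gcd_eq_one (a := b) (m := 2 ^ m) (n := r)).mpr ⟨h2, h1⟩
  rwa [hco, pow_one] at this

end Basic

section Core

variable {q : ℕ} [hqf : Fact q.Prime]

theorem core_big (T : Subgroup (LE q))
    (hT : ∀ f : LE q, f ∈ T ↔ ∃ a s : ZMod q, a ≠ 0 ∧ (s = 1 ∨ s = -1) ∧ (isD f a (s * a⁻¹) ∨ isA f (s * a⁻¹) a))
    (m : ℕ) (hq : q = 2 ^ m + 1) (hq15 : 15 < q) (hi : ∃ i : ZMod q, i * i = -1)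
    (α : MulAut T) (r : ℕ) (hr : Odd r) (hα : α ^ r = 1) (x : T) : α x = x := by
  classical
  have hpp : q.Prime := hqf.out
  have hdich : ∀ t : T, inB (t : LE q) ∨ inA (t : LE q) := by
    intro t
    obtain ⟨a, s, ha, hs, h | h⟩ := (hT _).mp t.2
    · exact Or.inl ⟨a, s, ha, hs, h⟩
    · exact Or.inr ⟨a, s, ha, hs, h⟩
  have hmemB : ∀ f : LE q, inB f → f ∈ T := by
    rintro f ⟨a, s, ha, hs, h⟩
    exact (hT _).mpr ⟨a, s, ha, hs, Or.inl h⟩
  have h2 : ∀ y : T, α (α y) = y → α y = y := by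
    intro y hy
    apply odd_fix α r hr hα 1 y
    rw [pow_one, pow_two, MulAut.mul_apply, hy]
  have hiter : ∀ (k : ℕ) (P : T → Prop), (∀ y, P y → P (α y)) → ∀ y, P y → P ((α ^ k) y) := by
    intro k P hP y hy
    induction k with
    | zero => simpa using hy
    | succ k ih =>
      rw [pow_succ', MulAut.mul_apply]
      exact hP _ ih
  -- a diagonal element whose fourth power is not trivial
  have h20 : (2 : ZMod q) ≠ 0 := by
    intro h0
    have h1 : ((2 : ℕ) : ZMod q) = 0 := by exact_mod_cast h0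
    rw [ZMod.natCast_eq_zero_iff] at h1
    have := Nat.le_of_dvd (by norm_num) h1
    omega
  have h24 : (2 : ZMod q) ^ 4 ≠ 1 := by
    intro h0
    have h1 : ((15 : ℕ) : ZMod q) = 0 := by
      push_cast
      linear_combination h0
    rw [ZMod.natCast_eq_zero_iff] at h1
    have := Nat.le_of_dvd (by norm_num) h1
    omega
  have hb2 : 1 * (2 : ZMod q)⁻¹ ≠ 0 := by simpa using h20
  have hρB : inB (mkD (2 : ZMod q) (1 * (2 : ZMod q)⁻¹) h20 hb2) :=
    ⟨2, 1, h20, Or.inl rfl, mkD_isD _ _ _ _⟩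
  let ρ : T := ⟨_, hmemB _ hρB⟩
  have hρ4 : ρ ^ 4 ≠ 1 := by
    intro h0
    have h1 : ((ρ ^ 4 : T) : LE q) = 1 := by rw [h0]; rfl
    have h3 : isD (ρ : LE q) 2 (1 * (2 : ZMod q)⁻¹) := mkD_isD 2 (1 * (2 : ZMod q)⁻¹) h20 hb2
    have h4 := isD_mul (isD_mul h3 h3) (isD_mul h3 h3)
    have h5 : ((ρ ^ 4 : T) : LE q) = (ρ : LE q) * ρ * (ρ * ρ) := by
      rw [Subgroup.coe_pow, show (4 : ℕ) = 2 + 2 by norm_num, pow_add, pow_two]
    rw [← h5, h1] at h4
    have h6 := (isD_vals h4 isD_one).1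
    apply h24
    rw [← h6]
    ring
  -- the invariance of the diagonal part
  have hnB4 : ∀ t : T, ¬ inB (t : LE q) → t ^ 4 = 1 := by
    intro t ht
    apply Subtype.ext
    rw [Subgroup.coe_pow]
    exact inA_pow4 ((hdich t).resolve_left ht)
  have hB4 : ∀ t : T, t ^ 4 ≠ 1 → inB ((α t : T) : LE q) := by
    intro t ht
    by_contra hno
    apply ht
    have h1 := hnB4 _ hno
    rw [← map_pow] at h1
    exact α.injective (h1.trans (map_one α).symm)
  have hBα : ∀ t : T, inB (t : LE q) → inB ((α t : T) : LE q) := by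
    intro t ht
    by_cases h4 : t ^ 4 = 1
    · have hu : ρ⁻¹ * t ≠ 1 ∧ (ρ⁻¹ * t) ^ 4 ≠ 1 := by
        have hc : Commute ρ⁻¹ t := by
          apply Commute.inv_left
          apply Subtype.ext
          exact inB_comm hρB ht
        have h5 : (ρ⁻¹ * t) ^ 4 ≠ 1 := by
          intro h6
          rw [hc.mul_pow, h4, mul_one, inv_pow, inv_eq_one] at h6
          exact hρ4 h6
        refine ⟨?_, h5⟩
        intro h6
        rw [h6, one_pow] at h5
        exact h5 rfl
      have h6 : t = ρ * (ρ⁻¹ * t) := by group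
      rw [h6, map_mul]
      exact inB_mul (hB4 _ hρ4) (hB4 _ hu.2)
    · exact hB4 t h4
  have hBinv : ∀ t : T, inB ((α t : T) : LE q) → inB (t : LE q) := by
    intro t ht
    have h1 : 0 < r := hr.pos
    have h3 := hiter (r - 1) (fun y => inB (y : LE q)) hBα (α t) ht
    have h4 : (α ^ (r - 1)) (α t) = t := by
      rw [← MulAut.mul_apply, ← pow_succ, show r - 1 + 1 = r by omega, hα]
      rfl
    rw [h4] at h3
    exact h3
  -- squares in the diagonal part
  have hsqvals : ∀ (f : LE q) (a b : ZMod q), isD f a b → f * f = 1 → a = 1 ∨ a = -1 := by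
    intro f a b hf h1
    have h3 := isD_mul hf hf
    rw [h1] at h3
    have h4 := (isD_vals h3 isD_one).1
    have h5 : (a - 1) * (a + 1) = 0 := by linear_combination h4
    rcases mul_eq_zero.mp h5 with h6 | h6
    · exact Or.inl (sub_eq_zero.mp h6)
    · exact Or.inr (eq_neg_of_add_eq_zero_left h6)
  have hsqvals2 : ∀ (f : LE q) (a b : ZMod q), isD f a b → f * f = 1 → b = 1 ∨ b = -1 := by
    intro f a b hf h1
    have h3 := isD_mul hf hf
    rw [h1] at h3
    have h4 := (isD_vals h3 isD_one).2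
    have h5 : (b - 1) * (b + 1) = 0 := by linear_combination h4
    rcases mul_eq_zero.mp h5 with h6 | h6
    · exact Or.inl (sub_eq_zero.mp h6)
    · exact Or.inr (eq_neg_of_add_eq_zero_left h6)
  -- minus the identity
  obtain ⟨i, hi2⟩ := hi
  have hi0 : i ≠ 0 := by
    rintro rfl
    simp at hi2
  have hn1 : (-1 : ZMod q) ≠ 1 := by
    intro h0
    have h1 : ((2 : ℕ) : ZMod q) = 0 := by
      push_cast
      linear_combination -h0
    exact h20 (by exact_mod_cast h1)
  have hinv2 : i⁻¹ * i⁻¹ = -1 := by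
    have h1 : i⁻¹ * i⁻¹ = (i * i)⁻¹ := by rw [mul_inv]
    rw [h1, hi2]
    simp
  have hbi : 1 * i⁻¹ ≠ 0 := by simpa using hi0
  have hρ'B : inB (mkD i (1 * i⁻¹) hi0 hbi) := ⟨i, 1, hi0, Or.inl rfl, mkD_isD _ _ _ _⟩
  let ρ' : T := ⟨_, hmemB _ hρ'B⟩
  have hρ'D : isD (ρ' : LE q) i (1 * i⁻¹) := mkD_isD i (1 * i⁻¹) hi0 hbi
  let mI : T := ρ' * ρ'
  have hmID : isD (mI : LE q) (-1) (-1) := by
    have h1 := isD_mul hρ'D hρ'D
    rw [hi2, one_mul, hinv2] at h1
    exact h1
  have hmI1 : mI ≠ 1 := by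
    intro h0
    have h1 : isD (mI : LE q) 1 1 := by
      rw [h0]
      exact isD_one
    exact hn1 (isD_vals hmID h1).1
  have hmI2 : mI * mI = 1 := by
    apply Subtype.ext
    have h1 := isD_mul hmID hmID
    simp only [mul_neg, mul_one, neg_neg] at h1
    exact isD_eq_one h1
  have hαmI : α mI = mI := by
    have h1 : inB ((α ρ' : T) : LE q) := hBα ρ' ⟨i, 1, hi0, Or.inl rfl, hρ'D⟩
    obtain ⟨c, s, hc, hs, h3⟩ := h1
    have h4 : α mI = α ρ' * α ρ' := map_mul _ _ _
    have h5 : isD ((α mI : T) : LE q) (c * c) (s * c⁻¹ * (s * c⁻¹)) := by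
      rw [h4]
      exact isD_mul h3 h3
    have h6 : (α mI) * (α mI) = 1 := by
      rw [← map_mul, hmI2, map_one]
    have h7 := hsqvals _ _ _ h5 (congrArg Subtype.val h6)
    have h8 : s * c⁻¹ * (s * c⁻¹) = (c * c)⁻¹ := by
      rw [mul_inv]
      have := sq_s hs
      linear_combination (c⁻¹ * c⁻¹) * this
    rw [h8] at h5
    rcases h7 with h7 | h7
    · exfalso
      rw [h7] at h5
      apply hmI1
      apply α.injective
      rw [map_one]
      apply Subtype.ext
      apply isD_eq_one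
      simpa using h5
    · rw [h7] at h5
      apply Subtype.ext
      have e : (-1 : ZMod q)⁻¹ = -1 := by simp
      rw [e] at h5
      exact isD_eq h5 hmID
  -- involutions of the diagonal part
  have hU1 : ∀ t : T, inB (t : LE q) → t * t = 1 → α t = t := by
    intro t ht htt
    obtain ⟨a, s, ha, hs, h3⟩ := ht
    have hab := hsqvals _ _ _ h3 (congrArg Subtype.val htt)
    have hbb := hsqvals2 _ _ _ h3 (congrArg Subtype.val htt)
    have hfixI : ∀ y : T, ∀ c d : ZMod q, isD (y : LE q) c d → (c = 1 ∨ c = -1) → (d = 1 ∨ d = -1) → c = d → α y = y := by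
      intro y c d hy hc hd hcd
      rcases hc with rfl | rfl
      · subst hcd
        have : y = 1 := Subtype.ext (isD_eq_one hy)
        rw [this, map_one]
      · subst hcd
        have : y = mI := Subtype.ext (isD_eq hy hmID)
        rw [this, hαmI]
    have hαt : inB ((α t : T) : LE q) := hBα t ⟨a, s, ha, hs, h3⟩
    obtain ⟨c, u, hc0, hu, h4⟩ := hαt
    have hαtt : α t * α t = 1 := by rw [← map_mul, htt, map_one]
    have hcc := hsqvals _ _ _ h4 (congrArg Subtype.val hαtt)
    have hdd := hsqvals2 _ _ _ h4 (congrArg Subtype.val hαtt)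
    generalize s * a⁻¹ = b at h3 hbb
    generalize u * c⁻¹ = d at h4 hdd
    by_cases hab' : a = b
    · exact hfixI t _ _ h3 hab hbb hab'
    by_cases hcd' : c = d
    · exfalso
      have h5 := hfixI _ _ _ h4 hcc hdd hcd'
      have h6 : α t = t := α.injective h5
      rw [h6] at h4
      have h7 := isD_vals h3 h4
      exact hab' (h7.1.trans (hcd'.trans h7.2.symm))
    have hcases : (c = a ∧ d = b) ∨ (c = -a ∧ d = -b) := by
      rcases hab with rfl | rfl <;> rcases hbb with rfl | rfl <;> rcases hcc with rfl | rfl <;> rcases hdd with rfl | rfl <;>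
        first
          | exact absurd rfl hab'
          | exact absurd rfl hcd'
          | exact Or.inl ⟨rfl, rfl⟩
          | exact Or.inr ⟨by simp, by simp⟩
    rcases hcases with ⟨h5, h6⟩ | ⟨h5, h6⟩
    · rw [h5, h6] at h4
      exact Subtype.ext (isD_eq h4 h3)
    · apply h2
      rw [h5, h6] at h4
      have h7 : α t = mI * t := by
        apply Subtype.ext
        have h8 := isD_mul hmID h3
        simp only [neg_mul, one_mul] at h8
        exact isD_eq h4 h8
      rw [h7, map_mul, hαmI, h7, ← mul_assoc, hmI2, one_mul]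
  -- the whole diagonal part
  let B : Subgroup T :=
    { carrier := {t | inB (t : LE q)}
      mul_mem' := fun ha hb => inB_mul ha hb
      one_mem' := inB_one
      inv_mem' := fun ha => inB_inv ha }
  have hBfix : ∀ (K : ℕ) (y : T), inB (y : LE q) → y ^ (2 ^ K) = 1 → α y = y := by
    intro K
    induction K with
    | zero =>
      intro y _ hy
      rw [pow_zero, pow_one] at hy
      rw [hy, map_one]
    | succ K ih =>
      intro y hy hyK
      have hy2 : α (y * y) = y * y := by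
        apply ih (y * y) (inB_mul hy hy)
        rw [← pow_two, ← pow_mul, ← pow_succ']
        exact hyK
      have hαy : inB ((α y : T) : LE q) := hBα y hy
      let n : T := α y * y⁻¹
      have hnB : inB (n : LE q) := inB_mul hαy (inB_inv hy)
      have hcomm1 : Commute (α y) y⁻¹ := by
        apply Commute.inv_right
        apply Subtype.ext
        exact inB_comm hαy hy
      have hnn : n * n = 1 := by
        have h3 : n * n = (α y * α y) * (y⁻¹ * y⁻¹) := by
          show (α y * y⁻¹) * (α y * y⁻¹) = _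
          rw [mul_assoc, ← mul_assoc y⁻¹, hcomm1.symm.eq]
          group
        rw [h3, ← map_mul, hy2]
        group
      have hαn := hU1 n hnB hnn
      apply h2
      have h3 : α y = n * y := by
        show α y = α y * y⁻¹ * y
        group
      rw [h3, map_mul, hαn, h3, ← mul_assoc, hnn, one_mul]
  have hBpow : ∀ y : T, inB (y : LE q) → y ^ (2 ^ m) = 1 := by
    rintro y ⟨a, s, ha, hs, h3⟩
    have hs0 : s ≠ 0 := by
      rcases hs with rfl | rfl <;> simp
    have hb0 : s * a⁻¹ ≠ 0 := mul_ne_zero hs0 (inv_ne_zero ha)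
    have hcard : q - 1 = 2 ^ m := by omega
    have h4 : a ^ (2 ^ m) = 1 := by
      rw [← hcard]
      exact ZMod.pow_card_sub_one_eq_one ha
    have h5 : (s * a⁻¹) ^ (2 ^ m) = 1 := by
      rw [← hcard]
      exact ZMod.pow_card_sub_one_eq_one hb0
    have hpowD : ∀ n : ℕ, isD (((y ^ n : T)) : LE q) (a ^ n) ((s * a⁻¹) ^ n) := by
      intro n
      induction n with
      | zero =>
        simp only [pow_zero]
        exact isD_one
      | succ n ih =>
        rw [pow_succ, pow_succ, pow_succ]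
        exact isD_mul ih h3
    have h6 := hpowD (2 ^ m)
    rw [h4, h5] at h6
    exact Subtype.ext (isD_eq_one h6)
  by_cases hxB : inB (x : LE q)
  · exact hBfix m x hxB (hBpow x hxB)
  -- the off-diagonal part
  have hαx : ¬ inB ((α x : T) : LE q) := fun h => hxB (hBinv x h)
  have hxinv : ¬ inB ((x⁻¹ : T) : LE q) := by
    intro h
    apply hxB
    have := inB_inv h
    simpa using this
  obtain ⟨b, hbdef⟩ : ∃ b : T, b = α x * x⁻¹ := ⟨_, rfl⟩
  have hbB : inB (b : LE q) := by
    rw [hbdef]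
    exact inA_mul_A ((hdich _).resolve_left hαx) ((hdich _).resolve_left hxinv)
  have hαb : α b = b := hBfix m b hbB (hBpow b hbB)
  have hαxb : α x = b * x := by
    rw [hbdef]
    group
  have hk : ∀ k : ℕ, (α ^ k) x = b ^ k * x := by
    intro k
    induction k with
    | zero => simp
    | succ k ih =>
      rw [pow_succ', MulAut.mul_apply, ih, map_mul, map_pow, hαb, hαxb, pow_succ, mul_assoc]
  have hbr : b ^ r = 1 := by
    have h3 := hk r
    rw [hα] at h3
    exact (mul_eq_right.mp h3.symm)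
  have hb1 : b = 1 := pow_coprime_one b r m hr hbr (hBpow b hbB)
  rw [hαxb, hb1, one_mul]

def ND (f : LE q) (e : ZMod q) : Prop := ∃ a b : ZMod q, a * a = 1 ∧ b * b = 1 ∧ a * b = e ∧ isD f a b
def NA (f : LE q) (e : ZMod q) : Prop := ∃ a b : ZMod q, a * a = 1 ∧ b * b = 1 ∧ a * b = e ∧ isA f a b

theorem ND_ND {f g : LE q} {e e' : ZMod q} (hf : ND f e) (hg : ND g e') : ND (f * g) (e * e') := by
  obtain ⟨a, b, h1, h2, h3, h4⟩ := hf
  obtain ⟨c, d, h5, h6, h7, h8⟩ := hg
  refine ⟨a * c, b * d, ?_, ?_, ?_, isD_mul h4 h8⟩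
  · linear_combination (c * c) * h1 + h5
  · linear_combination (d * d) * h2 + h6
  · linear_combination (c * d) * h3 + e * h7

theorem ND_NA {f g : LE q} {e e' : ZMod q} (hf : ND f e) (hg : NA g e') : NA (f * g) (e * e') := by
  obtain ⟨a, b, h1, h2, h3, h4⟩ := hf
  obtain ⟨c, d, h5, h6, h7, h8⟩ := hg
  refine ⟨a * c, b * d, ?_, ?_, ?_, isD_mul_A h4 h8⟩
  · linear_combination (c * c) * h1 + h5
  · linear_combination (d * d) * h2 + h6
  · linear_combination (c * d) * h3 + e * h7

theorem NA_ND {f g : LE q} {e e' : ZMod q} (hf : NA f e) (hg : ND g e') : NA (f * g) (e * e') := by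
  obtain ⟨a, b, h1, h2, h3, h4⟩ := hf
  obtain ⟨c, d, h5, h6, h7, h8⟩ := hg
  refine ⟨a * d, b * c, ?_, ?_, ?_, isA_mul_D h4 h8⟩
  · linear_combination (d * d) * h1 + h6
  · linear_combination (c * c) * h2 + h5
  · linear_combination (c * d) * h3 + e * h7

theorem NA_NA {f g : LE q} {e e' : ZMod q} (hf : NA f e) (hg : NA g e') : ND (f * g) (e * e') := by
  obtain ⟨a, b, h1, h2, h3, h4⟩ := hf
  obtain ⟨c, d, h5, h6, h7, h8⟩ := hg
  refine ⟨a * d, b * c, ?_, ?_, ?_, isA_mul_A h4 h8⟩
  · linear_combination (d * d) * h1 + h6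
  · linear_combination (c * c) * h2 + h5
  · linear_combination (c * d) * h3 + e * h7

theorem ND_sq {f : LE q} {e : ZMod q} (hf : ND f e) : f * f = 1 := by
  obtain ⟨a, b, h1, h2, h3, h4⟩ := hf
  have := isD_mul h4 h4
  rw [h1, h2] at this
  exact isD_eq_one this

theorem NA_sq {f : LE q} {e : ZMod q} (hf : NA f e) : isD (f * f) e e := by
  obtain ⟨a, b, h1, h2, h3, h4⟩ := hf
  have := isA_mul_A h4 h4
  rw [mul_comm b a, h3] at this
  exact this

theorem core3 (T : Subgroup (LE q))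
    (hT : ∀ f : LE q, f ∈ T ↔ ∃ a s : ZMod q, a ≠ 0 ∧ (s = 1 ∨ s = -1) ∧ (isD f a (s * a⁻¹) ∨ isA f (s * a⁻¹) a))
    (hq : q = 3) (α : MulAut T) (r : ℕ) (hr : Odd r) (hα : α ^ r = 1) (x : T) : α x = x := by
  classical
  have h2 : ∀ y : T, α (α y) = y → α y = y := by
    intro y hy
    apply odd_fix α r hr hα 1 y
    rw [pow_one, pow_two, MulAut.mul_apply, hy]
  have hn1 : (-1 : ZMod q) ≠ 1 := by
    subst hq
    exact z3_a
  have hall : ∀ a : ZMod q, a ≠ 0 → a * a = 1 := by
    subst hq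
    exact z3_b
  have hall2 : ∀ a : ZMod q, a * a = 1 → a = 1 ∨ a = -1 := by
    subst hq
    exact z3_c
  have hinv : ∀ a : ZMod q, a ≠ 0 → a⁻¹ = a := by
    intro a ha
    exact inv_eq_of_mul_eq_one_right (hall a ha)
  have hform : ∀ t : T, ((ND (t : LE q) 1 ∨ NA (t : LE q) (-1)) ∨ (ND (t : LE q) (-1) ∨ NA (t : LE q) 1)) := by
    intro t
    obtain ⟨a, s, ha, hs, h | h⟩ := (hT _).mp t.2
    · rw [hinv a ha] at h
      have haa := hall a ha
      rcases hs with rfl | rfl
      · exact Or.inl (Or.inl ⟨a, 1 * a, haa, by linear_combination haa, by linear_combination haa, h⟩)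
      · exact Or.inr (Or.inl ⟨a, -1 * a, haa, by linear_combination haa, by linear_combination -haa, h⟩)
    · rw [hinv a ha] at h
      have haa := hall a ha
      rcases hs with rfl | rfl
      · exact Or.inr (Or.inr ⟨1 * a, a, by linear_combination haa, haa, by linear_combination haa, h⟩)
      · exact Or.inl (Or.inr ⟨-1 * a, a, by linear_combination haa, haa, by linear_combination -haa, h⟩)
  have hne : (-1 : ZMod q) ≠ 0 := by simp
  have hw1 : isA (mkA 1 (-1) one_ne_zero hne) ((-1) * (-1 : ZMod q)⁻¹) (-1) := by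
    have e : (-1 : ZMod q) * (-1 : ZMod q)⁻¹ = 1 := by simp
    rw [e]
    exact mkA_isA _ _ _ _
  have hwT : mkA 1 (-1) one_ne_zero hne ∈ T :=
    (hT _).mpr ⟨-1, -1, hne, Or.inr rfl, Or.inr hw1⟩
  let w : T := ⟨_, hwT⟩
  have hwA : isA (w : LE q) 1 (-1) := mkA_isA 1 (-1) one_ne_zero hne
  have hwN : NA (w : LE q) (-1) := ⟨1, -1, by simp, by simp, by simp, hwA⟩
  obtain ⟨mI, hmIdef⟩ : ∃ mI : T, mI = w * w := ⟨_, rfl⟩
  have hmID : isD (mI : LE q) (-1) (-1) := by
    rw [hmIdef]
    exact NA_sq hwN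
  have hmI1 : mI ≠ 1 := by
    intro h0
    have h1 : isD (mI : LE q) 1 1 := by
      rw [h0]
      exact isD_one
    exact hn1 (isD_vals hmID h1).1
  have hmIN : ND (mI : LE q) 1 := ⟨-1, -1, by simp, by simp, by simp, hmID⟩
  have hmI2 : mI * mI = 1 := Subtype.ext (ND_sq hmIN)
  have hw2 : isA ((w * mI : T) : LE q) (-1) 1 := by
    have := isA_mul_D hwA hmID
    simpa using this
  have hwmI : NA ((w * mI : T) : LE q) (-1) := ⟨-1, 1, by simp, by simp, by simp, hw2⟩
  -- the image of w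
  have hαw2 : α w * α w ≠ 1 := by
    rw [← map_mul, ← hmIdef]
    intro h0
    exact hmI1 (α.injective (h0.trans (map_one α).symm))
  have hαwN : NA ((α w : T) : LE q) (-1) := by
    rcases hform (α w) with (h | h) | (h | h)
    · exact absurd (Subtype.ext (ND_sq h)) hαw2
    · exact h
    · exact absurd (Subtype.ext (ND_sq h)) hαw2
    · exact absurd (Subtype.ext (isD_eq_one (NA_sq h))) hαw2
  have hαmI : α mI = mI := by
    rw [hmIdef, map_mul]
    exact Subtype.ext (isD_eq (NA_sq hαwN) (by rw [← hmIdef]; exact hmID))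
  have hαw : α w = w := by
    obtain ⟨a, b, h1, h3, h4, h5⟩ := hαwN
    have hb : b = -a := by
      linear_combination a * h4 - b * h1
    rcases hall2 a h1 with rfl | rfl
    · rw [hb] at h5
      exact Subtype.ext (isA_eq h5 hwA)
    · rw [hb, neg_neg] at h5
      have h6 : α w = w * mI := Subtype.ext (isA_eq h5 hw2)
      apply h2
      rw [h6, map_mul, hαmI, h6, mul_assoc, hmI2, mul_one]
  -- the N class is fixed
  have hNfix : ∀ t : T, (ND (t : LE q) 1 ∨ NA (t : LE q) (-1)) → α t = t := by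
    intro t ht
    rcases ht with ⟨a, b, h1, h3, h4, h5⟩ | ⟨a, b, h1, h3, h4, h5⟩
    · have hb : b = a := by
        linear_combination a * h4 - b * h1
      rw [hb] at h5
      rcases hall2 a h1 with rfl | rfl
      · have : t = 1 := Subtype.ext (isD_eq_one h5)
        rw [this, map_one]
      · have : t = mI := Subtype.ext (isD_eq h5 hmID)
        rw [this, hαmI]
    · have hb : b = -a := by
        linear_combination a * h4 - b * h1
      rw [hb] at h5
      rcases hall2 a h1 with rfl | rfl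
      · have : t = w := Subtype.ext (isA_eq h5 hwA)
        rw [this, hαw]
      · rw [neg_neg] at h5
        have : t = w * mI := Subtype.ext (isA_eq h5 hw2)
        rw [this, map_mul, hαw, hαmI]
  have hNpow : ∀ t : T, (ND (t : LE q) 1 ∨ NA (t : LE q) (-1)) → t ^ 4 = 1 := by
    intro t ht
    have h1 : t * t = 1 ∨ t * t = mI := by
      rcases ht with h | h
      · exact Or.inl (Subtype.ext (ND_sq h))
      · exact Or.inr (Subtype.ext (isD_eq (NA_sq h) hmID))
    have h3 : t ^ 4 = (t * t) * (t * t) := by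
      rw [show (4 : ℕ) = 2 + 2 by norm_num, pow_add, pow_two]
    rw [h3]
    rcases h1 with h | h
    · rw [h, one_mul]
    · rw [h, hmI2]
  rcases hform x with hx | hx
  · exact hNfix x hx
  rcases hform (α x) with hy | hy
  · exact α.injective (hNfix _ hy)
  -- both in the R class
  have hxx : x * x = 1 := by
    rcases hx with h | h
    · exact Subtype.ext (ND_sq h)
    · exact Subtype.ext (isD_eq_one (NA_sq h))
  obtain ⟨n, hndef⟩ : ∃ n : T, n = α x * x := ⟨_, rfl⟩
  have hnN : ND (n : LE q) 1 ∨ NA (n : LE q) (-1) := by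
    rw [hndef]
    rcases hy with h | h <;> rcases hx with h' | h'
    · left
      simpa using ND_ND h h'
    · right
      simpa using ND_NA h h'
    · right
      simpa using NA_ND h h'
    · left
      simpa using NA_NA h h'
  have hαn := hNfix n hnN
  have hαxn : α x = n * x := by
    rw [hndef, mul_assoc, hxx, mul_one]
  have hk : ∀ k : ℕ, (α ^ k) x = n ^ k * x := by
    intro k
    induction k with
    | zero => simp
    | succ k ih =>
      rw [pow_succ', MulAut.mul_apply, ih, map_mul, map_pow, hαn, hαxn, pow_succ, mul_assoc]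
  apply odd_fix α r hr hα 2 x
  rw [hk, show (2 : ℕ) ^ 2 = 4 by norm_num, hNpow n hnN, one_mul]

theorem core2 (T : Subgroup (LE q))
    (hT : ∀ f : LE q, f ∈ T ↔ ∃ a s : ZMod q, a ≠ 0 ∧ (s = 1 ∨ s = -1) ∧ (isD f a (s * a⁻¹) ∨ isA f (s * a⁻¹) a))
    (hq : q = 2) (α : MulAut T) (x : T) : α x = x := by
  classical
  have hall : ∀ a : ZMod q, a ≠ 0 → a = 1 := by
    subst hq
    exact z2_a
  have hs1 : ∀ s : ZMod q, (s = 1 ∨ s = -1) → s = 1 := by
    subst hq
    exact z2_b
  have hform : ∀ t : T, t = 1 ∨ isA (t : LE q) 1 1 := by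
    intro t
    obtain ⟨a, s, ha, hs, h | h⟩ := (hT _).mp t.2
    · rw [hs1 s hs, hall a ha] at h
      left
      apply Subtype.ext
      apply isD_eq_one
      simpa using h
    · rw [hs1 s hs, hall a ha] at h
      right
      simpa using h
  rcases hform x with rfl | hx
  · exact map_one α
  rcases hform (α x) with h | h
  · have : x = 1 := α.injective (h.trans (map_one α).symm)
    rw [this, map_one]
  · exact Subtype.ext (isA_eq h hx)

end Core


/-- Let q = 2^m + 1 be a prime other than 5. Then the automorphism group of the group of linear maps of F_q² of the forms (x, y) ↦ (a x, ± a⁻¹ y) and (x, y) ↦ (± a⁻¹ y, a x) with a ≠ 0 is itself a 2-group. -/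
theorem result (q m : ℕ) [Fact q.Prime] (hq : q = 2 ^ m + 1) (hq5 : q ≠ 5)
    (T : Subgroup ((Fin 2 → ZMod q) ≃ₗ[ZMod q] (Fin 2 → ZMod q)))
    (hT : ∀ f, f ∈ T ↔ ∃ a s : ZMod q, a ≠ 0 ∧ (s = 1 ∨ s = -1) ∧
      ((∀ v, f v = ![a * v 0, s * a⁻¹ * v 1]) ∨ (∀ v, f v = ![s * a⁻¹ * v 1, a * v 0]))) :
    IsPGroup 2 (MulAut T) := by
  classical
  have hpp : q.Prime := Fact.out
  haveI hF : Finite (LE q) := Finite.of_injective (fun f : LE q => (f : (Fin 2 → ZMod q) → (Fin 2 → ZMod q))) DFunLike.coe_injective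
  haveI hFT : Finite T := inferInstance
  haveI hFA : Finite (MulAut T) := inferInstance
  have hmain : ∀ (α : MulAut T) (r : ℕ), Odd r → α ^ r = 1 → ∀ x, α x = x := by
    intro α r hr hα x
    by_cases hm0 : m = 0
    · exact core2 T hT (by rw [hq, hm0]; norm_num) α x
    by_cases hm1 : m = 1
    · exact core3 T hT (by rw [hq, hm1]; norm_num) α r hr hα x
    by_cases hm2 : m = 2
    · exfalso
      apply hq5
      rw [hq, hm2]
      norm_num
    by_cases hm3 : m = 3
    · exfalso
      have h9 : q = 9 := by rw [hq, hm3]; norm_num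
      rw [h9] at hpp
      norm_num at hpp
    have hm4 : 4 ≤ m := by omega
    have h16 : 2 ^ 4 ≤ 2 ^ m := Nat.pow_le_pow_right (by norm_num) hm4
    have hq15 : 15 < q := by
      rw [hq]
      omega
    have hi : ∃ i : ZMod q, i * i = -1 := by
      have h1 : IsSquare (-1 : ZMod q) := by
        rw [ZMod.exists_sq_eq_neg_one_iff]
        obtain ⟨n, rfl⟩ : ∃ n, m = n + 2 := ⟨m - 2, by omega⟩
        have h3 : q = 4 * 2 ^ n + 1 := by
          rw [hq, pow_add]
          ring
        omega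
      obtain ⟨i, hi⟩ := h1
      exact ⟨i, hi.symm⟩
    exact core_big T hT m hq hq15 hi α r hr hα x
  intro β
  have hn : orderOf β ≠ 0 := (orderOf_pos β).ne'
  obtain ⟨k, r, hr, hkr⟩ := Nat.exists_eq_two_pow_mul_odd hn
  refine ⟨k, ?_⟩
  have h1 : (β ^ (2 ^ k)) ^ r = 1 := by
    rw [← pow_mul, ← hkr, pow_orderOf_eq_one]
  refine MulEquiv.ext fun x => ?_
  exact hmain _ r hr h1 x

end Cfsg.Agent.S3382
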