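import Cfsg.Statements.S3383
-- import your own Cfsg.Agent.* helpers here

set_option autoImplicit false
open Cfsg

namespace Cfsg.Agent.S3383

open scoped Pointwise

/-- Let H be a Frobenius complement in a finite group L and K the Frobenius kernel (as a subgroup). Then K is characteristic in L, and every normal subgroup of L either contains K or is contained in K. -/
theorem result {L : Type*} [Group L] [Finite L]
    (H : Subgroup L) (hH : Cfsg.IsFrobeniusComplement H)
    (K : Subgroup L) (hK : (K : Set L) = Cfsg.frobeniusKernel H) :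
    K.Characteristic ∧ ∀ N : Subgroup L, N.Normal → K ≤ N ∨ N ≤ K := by
  classical
  have hKnorm : K.Normal := by
    constructor
    intro k hk g
    have hk' : k ∈ (K : Set L) := hk
    rw [hK] at hk'
    show g * k * g⁻¹ ∈ (K : Set L)
    rw [hK]
    rcases hk' with h1 | h2
    · left; simp [h1]
    · right
      intro a ha
      apply h2 (g⁻¹ * a)
      rw [Subgroup.mem_pointwise_smul_iff_inv_smul_mem] at ha ⊢
      simpa [MulAut.conj_apply, mul_assoc] using ha
  have hnotK : ∀ x : L, x ∉ K → ∃ g : L, x ∈ MulAut.conj g • H := by
    intro x hx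
    by_contra hcon
    push Not at hcon
    apply hx
    show x ∈ (K : Set L)
    rw [hK]
    exact Or.inr hcon
  have hKH : ∀ (g k : L), k ∈ K → k ∈ MulAut.conj g • H → k = 1 := by
    intro g k hk hkH
    have hk' : k ∈ (K : Set L) := hk
    rw [hK] at hk'
    rcases hk' with h1 | h2
    · exact h1
    · exact (h2 g hkH).elim
  have key : ∀ N : Subgroup L, N.Normal → K ≤ N ∨ N ≤ K := by
    intro N hN
    by_cases hNK : N ≤ K
    · exact Or.inr hNK
    left
    rw [SetLike.not_le_iff_exists] at hNK
    obtain ⟨n, hnN, hnK⟩ := hNK
    obtain ⟨g, hg⟩ := hnotK n hnK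
    -- conjugate `n` into `H`
    set m : L := g⁻¹ * n * g with hm
    have hmH : m ∈ H := by
      rw [Subgroup.mem_pointwise_smul_iff_inv_smul_mem] at hg
      simpa [MulAut.conj_apply, mul_assoc, hm] using hg
    have hmN : m ∈ N := by
      have := hN.conj_mem n hnN g⁻¹
      simpa [hm] using this
    have hmK : m ∉ K := by
      intro hc
      apply hnK
      have := hKnorm.conj_mem m hc g
      simpa [hm, mul_assoc] using this
    have hm1 : m ≠ 1 := by
      intro h; apply hmK; rw [h]; exact K.one_mem
    -- the commutator map is injective on K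
    let f : K → K := fun k => ⟨m⁻¹ * (k : L)⁻¹ * m * (k : L), by
      apply K.mul_mem _ k.2
      have := hKnorm.conj_mem ((k : L)⁻¹) (K.inv_mem k.2) m⁻¹
      simpa using this⟩
    have hf : Function.Injective f := by
      intro a b hab
      have h1 : m⁻¹ * (a : L)⁻¹ * m * (a : L) = m⁻¹ * (b : L)⁻¹ * m * (b : L) := congrArg Subtype.val hab
      -- c = b a⁻¹ commutes with m
      set c : L := (b : L) * (a : L)⁻¹ with hc
      have hcK : c ∈ K := K.mul_mem b.2 (K.inv_mem a.2)
      have hcomm : c⁻¹ * m * c = m := by
        have h2 : (a : L)⁻¹ * m * (a : L) = (b : L)⁻¹ * m * (b : L) := by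
          have := congrArg (fun t => m * t) h1
          simpa [mul_assoc] using this
        have h3 : m = (a : L) * ((b : L)⁻¹ * m * (b : L)) * (a : L)⁻¹ := by
          rw [← h2]; group
        rw [hc]
        conv_rhs => rw [h3]
        group
      -- hence c ∈ H
      have hcH : c ∈ H := by
        by_contra hcn
        have hint := hH.2.2 c hcn
        have : m ∈ H ⊓ (MulAut.conj c • H) := by
          refine Subgroup.mem_inf.2 ⟨hmH, ?_⟩
          rw [Subgroup.mem_pointwise_smul_iff_inv_smul_mem]
          have : (MulAut.conj c)⁻¹ • m = c⁻¹ * m * c := by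
            simp [MulAut.conj_apply]
          rw [this, hcomm]; exact hmH
        rw [hint, Subgroup.mem_bot] at this
        exact hm1 this
      have hc1 : c = 1 := by
        apply hKH 1 c hcK
        simpa using hcH
      apply Subtype.ext
      have : (b : L) = (a : L) := by
        have := congrArg (fun t => t * (a : L)) hc1
        simpa [hc, mul_assoc] using this
      exact this.symm
    have hfs : Function.Surjective f := Finite.injective_iff_surjective.1 hf
    intro k hk
    obtain ⟨a, ha⟩ := hfs ⟨k, hk⟩
    have : k = m⁻¹ * ((a : L)⁻¹ * m * (a : L)) := by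
      have := congrArg Subtype.val ha
      simp only [f] at this
      rw [← this]; group
    rw [this]
    apply N.mul_mem (N.inv_mem hmN)
    have := hN.conj_mem m hmN (a : L)⁻¹
    simpa using this
  refine ⟨⟨?_⟩, key⟩
  intro α
  have hcard : Nat.card (K.comap α.toMonoidHom) = Nat.card K := by
    have e : K.comap α.toMonoidHom ≃ K := by
      refine ⟨fun x => ⟨α x.1, x.2⟩, fun y => ⟨α.symm y.1, by simpa [Subgroup.mem_comap] using y.2⟩, ?_, ?_⟩
      · intro x; ext; simp
      · intro y; ext; simp
    exact Nat.card_congr e
  have hN : (K.comap α.toMonoidHom).Normal := hKnorm.comap _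
  rcases key _ hN with h | h
  · exact (Subgroup.eq_of_le_of_card_ge h (by rw [hcard])).symm
  · exact Subgroup.eq_of_le_of_card_ge h (by rw [hcard])

end Cfsg.Agent.S3383
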