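import Mathlib
import Cfsg.Agent.Lib.H5AltSpec
import Cfsg.Statements.S3419
-- import your own Cfsg.Agent.* helpers here

set_option autoImplicit false
open Cfsg

namespace Cfsg.Agent.S3419

/-- Let n ≥ 5 and let G be a finite group with the same order and the same set of element orders as the alternating group of degree n. Then G is not solvable. -/
theorem result {G : Type*} [Group G] [Finite G] (n : ℕ) (hn : 5 ≤ n)
    (hcard : Nat.card G = Nat.card ↥(alternatingGroup (Fin n)))
    (hspec : Set.range (orderOf : G → ℕ) = Set.range (orderOf : ↥(alternatingGroup (Fin n)) → ℕ)) :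
    ¬ Group.IsSolvable G := by
  open Cfsg.Agent.Lib.H5AltSpec in
  by_cases h : 11 ≤ n
  · obtain ⟨N, H, hN, -, -, hs, hnc, -⟩ := alt_section h hcard hspec
    exact not_solvable_of_section N H hN hs hnc
  · have hn2 : 2 ≤ n := by omega
    have h2 := two_mul_card hn2 hcard
    have hle : n ≤ 10 := by omega
    interval_cases n
    · exact small_aux (p := 5) (r := 3) (m := 60) (by norm_num) (by norm_num) (by norm_num) hn2 (by norm_num)
        (by norm_num) (by norm_num) (by norm_num) (by norm_num) (by norm_num) hcard hspec
        (by simp [Nat.factorial] at h2; omega) (by norm_num) (by norm_num) (by norm_num) (by norm_num)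
    · exact small_aux (p := 5) (r := 3) (m := 360) (by norm_num) (by norm_num) (by norm_num) hn2 (by norm_num)
        (by norm_num) (by norm_num) (by norm_num) (by norm_num) (by norm_num) hcard hspec
        (by simp [Nat.factorial] at h2; omega) (by norm_num) (by norm_num) (by norm_num) (by norm_num)
    · exact small_aux (p := 7) (r := 5) (m := 2520) (by norm_num) (by norm_num) (by norm_num) hn2 (by norm_num)
        (by norm_num) (by norm_num) (by norm_num) (by norm_num) (by norm_num) hcard hspec
        (by simp [Nat.factorial] at h2; omega) (by norm_num) (by norm_num) (by norm_num) (by norm_num)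
    · exact small_aux (p := 7) (r := 5) (m := 20160) (by norm_num) (by norm_num) (by norm_num) hn2 (by norm_num)
        (by norm_num) (by norm_num) (by norm_num) (by norm_num) (by norm_num) hcard hspec
        (by simp [Nat.factorial] at h2; omega) (by norm_num) (by norm_num) (by norm_num) (by norm_num)
    · exact small_aux (p := 7) (r := 5) (m := 181440) (by norm_num) (by norm_num) (by norm_num) hn2 (by norm_num)
        (by norm_num) (by norm_num) (by norm_num) (by norm_num) (by norm_num) hcard hspec
        (by simp [Nat.factorial] at h2; omega) (by norm_num) (by norm_num) (by norm_num) (by norm_num)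
    · exact small_aux (p := 7) (r := 5) (m := 1814400) (by norm_num) (by norm_num) (by norm_num) hn2 (by norm_num)
        (by norm_num) (by norm_num) (by norm_num) (by norm_num) (by norm_num) hcard hspec
        (by simp [Nat.factorial] at h2; omega) (by norm_num) (by norm_num) (by norm_num) (by norm_num)

end Cfsg.Agent.S3419
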