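import Cfsg.Statements.S3704
import Cfsg.Agent.Lib.CharSuborbit
import Cfsg.Agent.Lib.CharPermRep
import Cfsg.Agent.Lib.CharIso
import Cfsg.Agent.Lib.Coherence
import Cfsg.Agent.Lib.CharBlockInd
-- import your own Cfsg.Agent.* helpers here

set_option autoImplicit false
set_option linter.all false
open Cfsg

namespace Cfsg.Agent.S3704

open scoped ComplexConjugate
open MulAction Cfsg Cfsg.Agent.Lib.CharOps Cfsg.Agent.Lib.CharAb Cfsg.Agent.Lib.CharIso Cfsg.Agent.Lib.CharSuborbit Cfsg.Agent.Lib.CharPermRep


/-- Let G be a finite group acting faithfully and 2-transitively on a finite set Ω of size n, and let H be a subgroup of index n in G which is not transitive on Ω and fixes no point of Ω. Then H has exactly two orbits on Ω. -/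
theorem result {G Ω : Type*} [Group G] [Finite G] [MulAction G Ω] [FaithfulSMul G Ω] [Finite Ω] (h2 : MulAction.IsMultiplyPretransitive G Ω 2) (H : Subgroup G) (hidx : H.index = Nat.card Ω) (hnt : ¬ MulAction.IsPretransitive H Ω) (hfix : ∀ a : Ω, ∃ h : H, h • a ≠ a) : Nat.card (MulAction.orbitRel.Quotient H Ω) = 2 := by
  classical
  letI : Fintype G := Fintype.ofFinite _
  letI : Fintype Ω := Fintype.ofFinite _
  letI : Fintype H := Fintype.ofFinite _
  have hn0 : Nat.card Ω ≠ 0 := by
    rw [← hidx]
    exact Subgroup.index_ne_zero_of_finite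
  have hn1 : Nat.card Ω ≠ 1 := by
    intro h1
    apply hnt
    haveI : Subsingleton Ω := (Nat.card_eq_one_iff_unique.1 h1).1
    obtain ⟨a⟩ := (Nat.card_eq_one_iff_unique.1 h1).2
    exact ⟨fun x y => ⟨1, Subsingleton.elim _ _⟩⟩
  haveI hne : Nonempty Ω := (Nat.card_pos_iff.1 (Nat.pos_of_ne_zero hn0)).1
  obtain ⟨a⟩ := hne
  haveI hnt' : Nontrivial Ω := by
    refine Finite.one_lt_card_iff_nontrivial.1 ?_
    omega
  obtain ⟨b, hb⟩ := exists_ne a
  haveI htr : IsPretransitive G Ω := @isPretransitive_of_is_two_pretransitive _ _ _ _ h2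
  have h2' : ∀ {a b c d : Ω}, a ≠ b → c ≠ d → ∃ g : G, g • a = c ∧ g • b = d :=
    is_two_pretransitive_iff.1 h2
  -- the rank
  have hrank : Nat.card (orbitRel.Quotient (stabilizer G a) Ω) = 2 := by
    rw [Nat.card_eq_two_iff]
    refine ⟨Quotient.mk'' a, Quotient.mk'' b, ?_, ?_⟩
    · intro h
      have h3 : a ∈ orbit (stabilizer G a) b := orbitRel_apply.1 (Quotient.exact' h)
      obtain ⟨u, hu⟩ := h3
      have hu' : (u : G) • b = a := hu
      have hua : (u : G) • a = a := u.2
      have : b = a := by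
        apply MulAction.injective (u : G)
        show (u : G) • b = (u : G) • a
        rw [hu', hua]
      exact hb this
    · ext q
      obtain ⟨c, rfl⟩ := Quotient.exists_rep q
      simp only [Set.mem_insert_iff, Set.mem_singleton_iff, Set.mem_univ, iff_true]
      by_cases hc : c = a
      · left
        rw [hc]
      · right
        apply Quotient.sound'
        rw [orbitRel_apply]
        obtain ⟨g, hg1, hg2⟩ := h2' (Ne.symm hb) (Ne.symm hc)
        exact ⟨⟨g, hg1⟩, hg2⟩
  -- the permutation character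
  let π : G → ℂ := fun g => (Nat.card (fixedBy Ω g) : ℂ)
  have hπind : π = indFun (stabilizer G a) (fun _ => 1) := by
    funext g
    rw [indFun_stabilizer_eq_card_fixed]
  have hπ : IsCharacter G π := by
    rw [hπind]
    exact isCharacter_indFun _ isCharacter_one
  have hπ1 : π 1 = (Nat.card Ω : ℂ) := by
    show (Nat.card (fixedBy Ω (1 : G)) : ℂ) = _
    congr 1
    apply Nat.card_congr
    exact (Equiv.subtypeUnivEquiv (fun x => by simp))
  have hone : IsIrrCharacter G (fun _ : G => (1 : ℂ)) := isIrr_one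
  have hπone : classInner π (fun _ => 1) = 1 := classInner_perm_one a
  have hππ : classInner π π = 2 := by
    have := classInner_perm_self (G := G) (Ω := Ω) a
    rw [hrank] at this
    have h3 : classInner π π = ((2 : ℕ) : ℂ) := this
    rw [h3]
    norm_num
  let one : G → ℂ := fun _ => 1
  have honeone : classInner one one = 1 := (Cfsg.Agent.Lib.CharDecomp.isIrr_iff.1 hone).2
  have honeπ : classInner one π = 1 := by
    have h3 := Cfsg.Agent.Lib.Coherence.inner_symm_of_int (a := π) (b := one) (n := 1) (by rw [hπone]; norm_num)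
    rw [h3]
    norm_num
  have hπc : IsClassFunction G π := by
    rw [hπind]
    exact indFun_isClassFunction _ _
  have hχc : IsCharacter G (π - ((1 : ℕ) : ℂ) • one) := sub_isCharacter hπ hone 1 (by simpa using hπone)
  have hχe : π - ((1 : ℕ) : ℂ) • one = π - one := by
    funext g
    simp
  rw [hχe] at hχc
  have hχn : classInner (π - one) (π - one) = 1 := by
    rw [Cfsg.Agent.Lib.Coherence.inner_sub_left, Cfsg.Agent.Lib.Coherence.inner_sub_right,
      Cfsg.Agent.Lib.Coherence.inner_sub_right, hππ, hπone, honeπ, honeone]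
    norm_num
  have hχ : IsIrrCharacter G (π - one) := isIrr_of_norm_one hχc hχn
  -- the coset character
  let θ : G → ℂ := indFun H (fun _ => 1)
  have hθ : IsCharacter G θ := isCharacter_indFun _ isCharacter_one
  have hθ1 : θ 1 = (Nat.card Ω : ℂ) := by
    show indFun H (fun _ => 1) 1 = _
    rw [Cfsg.Agent.Lib.CharBlockInd.indFun_one_eq, hidx, mul_one]
  have hθπ : classInner θ π = (Nat.card (orbitRel.Quotient H Ω) : ℂ) := by
    have hH : (Nat.card H : ℂ) ≠ 0 := by exact_mod_cast Nat.card_pos.ne'
    show classInner (indFun H (fun _ => 1)) π = _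
    rw [frobenius_reciprocity _ _ hπc, Cfsg.classInner]
    simp only [π, Complex.conj_natCast, one_mul]
    have h1 := sum_card_fixed (H := H) (X := Ω)
    have h3 : ∑ u : H, (Nat.card (fixedBy Ω (u : G)) : ℂ) = ∑ u : H, (Nat.card (fixedBy Ω u) : ℂ) := rfl
    rw [h3, h1]
    field_simp
  have hθone : classInner θ one = 1 := by
    show classInner (indFun H (fun _ => 1)) one = _
    rw [frobenius_reciprocity _ _ (fun g h => rfl)]
    exact (Cfsg.Agent.Lib.CharDecomp.isIrr_iff.1 (isIrr_one (G := H))).2
  -- at least two orbits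
  have hk2 : 2 ≤ Nat.card (orbitRel.Quotient H Ω) := by
    by_contra hlt
    apply hnt
    have hk1 : Nat.card (orbitRel.Quotient H Ω) ≤ 1 := by omega
    haveI : Subsingleton (orbitRel.Quotient H Ω) := (Finite.card_le_one_iff_subsingleton).1 hk1
    refine ⟨fun x y => ?_⟩
    have h3 : (Quotient.mk'' x : orbitRel.Quotient H Ω) = Quotient.mk'' y := Subsingleton.elim _ _
    have h4 : y ∈ orbit H x := orbitRel_apply.1 (Quotient.exact' h3.symm)
    exact h4
  set k := Nat.card (orbitRel.Quotient H Ω) with hk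
  obtain ⟨m, hm⟩ : ∃ m : ℕ, k = m + 1 := ⟨k - 1, by omega⟩
  -- `θ - 1` is a character containing `χ` with multiplicity `m`
  have hθ1c : IsCharacter G (θ - ((1 : ℕ) : ℂ) • one) := sub_isCharacter hθ hone 1 (by simpa using hθone)
  have hθe : θ - ((1 : ℕ) : ℂ) • one = θ - one := by
    funext g
    simp
  rw [hθe] at hθ1c
  have hχone : classInner (π - one) one = 0 := by
    rw [Cfsg.Agent.Lib.Coherence.inner_sub_left, hπone, honeone]
    norm_num
  have honeχ : classInner one (π - one) = 0 := by
    rw [Cfsg.Agent.Lib.Coherence.inner_sub_right, honeπ, honeone]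
    norm_num
  have hmult : classInner (θ - one) (π - one) = (m : ℂ) := by
    rw [Cfsg.Agent.Lib.Coherence.inner_sub_left, honeχ, Cfsg.Agent.Lib.Coherence.inner_sub_right, hθπ, hθone, hm]
    push_cast
    ring
  have hfin := sub_isCharacter hθ1c hχ m hmult
  obtain ⟨d, hd⟩ := exists_degree hfin
  simp only [Pi.sub_apply, Pi.smul_apply, smul_eq_mul, hθ1, hπ1] at hd
  have hone1 : one 1 = 1 := rfl
  rw [hone1] at hd
  have hn2 : 2 ≤ Nat.card Ω := by omega
  obtain ⟨n', hn'⟩ : ∃ n' : ℕ, Nat.card Ω = n' + 1 := ⟨Nat.card Ω - 1, by omega⟩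
  rw [hn'] at hd
  have hd2 : (n' : ℂ) = (d : ℂ) + (m : ℂ) * n' := by
    push_cast at hd
    linear_combination hd
  have hd3 : n' = d + m * n' := by exact_mod_cast hd2
  have hn'pos : 0 < n' := by omega
  have hm1 : m ≤ 1 := by
    by_contra hlt
    have : 2 * n' ≤ m * n' := Nat.mul_le_mul_right _ (by omega)
    omega
  omega

end Cfsg.Agent.S3704
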