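import Cfsg.Statements.S3707
import Mathlib

set_option autoImplicit false
set_option linter.all false
open Cfsg

namespace Cfsg.Agent.S3707


open MulAction Pointwise

/-- Jordan sets. -/
def IsJ (G : Type*) {Ω : Type*} [Group G] [MulAction G Ω] (J : Set Ω) : Prop :=
  ∀ x ∈ J, ∀ y ∈ J, ∃ g : G, (∀ z, z ∉ J → g • z = z) ∧ g • x = y

theorem IsJ.smul {G Ω : Type*} [Group G] [MulAction G Ω] {J : Set Ω} (h : IsJ G J) (a : G) :
    IsJ G (a • J) := by
  intro x hx y hy
  obtain ⟨x₀, hx₀, rfl⟩ := hx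
  obtain ⟨y₀, hy₀, rfl⟩ := hy
  obtain ⟨g, hg, hgx⟩ := h x₀ hx₀ y₀ hy₀
  refine ⟨a * g * a⁻¹, ?_, ?_⟩
  · intro z hz
    have h1 : a⁻¹ • z ∉ J := by
      intro h2
      exact hz ⟨a⁻¹ • z, h2, by simp⟩
    have h2 := hg _ h1
    rw [mul_smul, mul_smul, h2]
    simp
  · simp only [mul_smul, inv_smul_smul, hgx]

theorem IsJ.union {G Ω : Type*} [Group G] [MulAction G Ω] {J₁ J₂ : Set Ω} (h₁ : IsJ G J₁) (h₂ : IsJ G J₂)
    (hne : (J₁ ∩ J₂).Nonempty) : IsJ G (J₁ ∪ J₂) := by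
  obtain ⟨p, hp₁, hp₂⟩ := hne
  have key : ∀ x ∈ J₁ ∪ J₂, ∃ g : G, (∀ z, z ∉ J₁ ∪ J₂ → g • z = z) ∧ g • x = p := by
    rintro x (hx | hx)
    · obtain ⟨g, hg, hgx⟩ := h₁ x hx p hp₁
      exact ⟨g, fun z hz => hg z (fun h => hz (Or.inl h)), hgx⟩
    · obtain ⟨g, hg, hgx⟩ := h₂ x hx p hp₂
      exact ⟨g, fun z hz => hg z (fun h => hz (Or.inr h)), hgx⟩
  intro x hx y hy
  obtain ⟨g, hg, hgx⟩ := key x hx
  obtain ⟨k, hk, hky⟩ := key y hy
  refine ⟨k⁻¹ * g, ?_, ?_⟩
  · intro z hz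
    rw [mul_smul, hg z hz, inv_smul_eq_iff, hk z hz]
  · rw [mul_smul, hgx, inv_smul_eq_iff, hky]


/-- Let G be a finite primitive permutation group on Ω of degree n and Γ ⊂ Ω a subset with 1 < #Γ ≤ n/2 such that the pointwise stabilizer of Ω ∖ Γ is transitive on Γ. Then G is 3-transitive on Ω. -/
theorem result {G Ω : Type*} [Group G] [Finite G] [MulAction G Ω] [FaithfulSMul G Ω] [Finite Ω] (hprim : MulAction.IsPreprimitive G Ω) (Γ : Set Ω) (h1 : 1 < Γ.ncard) (h2 : 2 * Γ.ncard ≤ Nat.card Ω) (htr : ∀ x ∈ Γ, ∀ y ∈ Γ, ∃ g : G, (∀ z ∉ Γ, g • z = z) ∧ g • x = y) : MulAction.IsMultiplyPretransitive G Ω 3 := by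
  classical
  set n := Nat.card Ω with hn
  have hΓc : Γ.ncard + Γᶜ.ncard = n := Set.ncard_add_ncard_compl Γ
  have hcomplc : ∀ S : Set Ω, S.ncard + Sᶜ.ncard = n := fun S => Set.ncard_add_ncard_compl S
  have hsmulc : ∀ (g : G) (S : Set Ω), (g • S).ncard = S.ncard := by
    intro g S
    exact Set.ncard_image_of_injective _ (MulAction.injective g)
  -- 2-transitivity
  have h2tr : IsMultiplyPretransitive G Ω 2 := by
    obtain ⟨m, hm⟩ : ∃ m, Γᶜ.ncard = m + 1 := ⟨Γᶜ.ncard - 1, by omega⟩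
    apply hprim.is_two_pretransitive (s := Γᶜ) hm (by omega)
    refine ⟨fun x y => ?_⟩
    have hx : (x : Ω) ∈ Γ := by
      have := (SubMulAction.mem_ofFixingSubgroup_iff G).mp x.2
      simpa using this
    have hy : (y : Ω) ∈ Γ := by
      have := (SubMulAction.mem_ofFixingSubgroup_iff G).mp y.2
      simpa using this
    obtain ⟨g, hg, hgx⟩ := htr _ hx _ hy
    refine ⟨⟨g, ?_⟩, Subtype.ext hgx⟩
    rw [mem_fixingSubgroup_iff]
    intro z hz
    exact hg z hz
  have h2 : ∀ a b c d : Ω, a ≠ b → c ≠ d → ∃ g : G, g • a = c ∧ g • b = d :=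
    fun a b c d hab hcd => is_two_pretransitive_iff.mp h2tr hab hcd
  -- a maximal Jordan set
  let 𝓙 : Set (Set Ω) := {J | IsJ G J ∧ Γ ⊆ J ∧ 2 ≤ Jᶜ.ncard}
  have hne : 𝓙.Nonempty := ⟨Γ, htr, subset_rfl, by omega⟩
  obtain ⟨J, ⟨hJJ, hΓle, hc2⟩, hmax⟩ := (Set.toFinite 𝓙).exists_maximal hne
  have hJcard : J.ncard + Jᶜ.ncard = n := hcomplc J
  have hΓJ : Γ.ncard ≤ J.ncard := Set.ncard_le_ncard hΓle (Set.toFinite _)
  -- growing
  have hgrow : ∀ g : G, (J ∩ g • J).Nonempty → 2 ≤ (J ∪ g • J)ᶜ.ncard → g • J = J := by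
    intro g hp hc
    have h1 : J ∪ g • J ∈ 𝓙 := ⟨hJJ.union (hJJ.smul g) hp, hΓle.trans Set.subset_union_left, hc⟩
    have h3 : J ∪ g • J ≤ J := hmax h1 Set.subset_union_left
    have h4 : g • J ⊆ J := fun x hx => h3 (Or.inr hx)
    exact Set.eq_of_subset_of_ncard_le h4 (by rw [hsmulc]) (Set.toFinite _)
  -- `J` is large
  have hlarge : n ≤ 2 * J.ncard := by
    by_contra hlt
    push_neg at hlt
    have hblock : IsBlock G J := by
      rw [isBlock_iff_smul_eq_or_disjoint]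
      intro g
      by_cases hd : Disjoint (g • J) J
      · exact Or.inr hd
      · left
        have hp : (J ∩ g • J).Nonempty := by
          rw [Set.not_disjoint_iff_nonempty_inter, Set.inter_comm] at hd
          exact hd
        apply hgrow g hp
        have h5 := Set.ncard_union_add_ncard_inter J (g • J)
        have h6 : 1 ≤ (J ∩ g • J).ncard := (Set.ncard_pos (Set.toFinite _)).mpr hp
        have h7 := hcomplc (J ∪ g • J)
        rw [hsmulc] at h5
        omega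
    rcases hprim.isTrivialBlock_of_isBlock hblock with h | h
    · have := Set.ncard_le_one_iff_subsingleton.mpr h
      omega
    · rw [h, Set.compl_univ, Set.ncard_empty] at hc2
      omega
  -- the two cases
  by_cases hc3 : Jᶜ.ncard = 2
  · obtain ⟨α, β, hαβ, hC⟩ := Set.ncard_eq_two.mp hc3
    have hmemC : ∀ x, x ∉ J ↔ x = α ∨ x = β := by
      intro x
      have : x ∈ Jᶜ ↔ x ∈ ({α, β} : Set Ω) := by rw [hC]
      simpa using this
    rw [isMultiplyPretransitive_iff]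
    intro x y
    have hx01 : x 0 ≠ x 1 := fun h => absurd (x.injective h) (by decide)
    have hx02 : x 0 ≠ x 2 := fun h => absurd (x.injective h) (by decide)
    have hx12 : x 1 ≠ x 2 := fun h => absurd (x.injective h) (by decide)
    have hy01 : y 0 ≠ y 1 := fun h => absurd (y.injective h) (by decide)
    have hy02 : y 0 ≠ y 2 := fun h => absurd (y.injective h) (by decide)
    have hy12 : y 1 ≠ y 2 := fun h => absurd (y.injective h) (by decide)
    obtain ⟨a, ha0, ha1⟩ := h2 _ _ α β hx01 hαβ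
    obtain ⟨b, hb0, hb1⟩ := h2 _ _ α β hy01 hαβ
    have hax : a • x 2 ∈ J := by
      by_contra h
      rcases (hmemC _).mp h with h | h
      · rw [← ha0] at h
        exact hx02 (MulAction.injective a h).symm
      · rw [← ha1] at h
        exact hx12 (MulAction.injective a h).symm
    have hby : b • y 2 ∈ J := by
      by_contra h
      rcases (hmemC _).mp h with h | h
      · rw [← hb0] at h
        exact hy02 (MulAction.injective b h).symm
      · rw [← hb1] at h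
        exact hy12 (MulAction.injective b h).symm
    obtain ⟨c, hc, hcx⟩ := hJJ _ hax _ hby
    have hcα : c • α = α := hc α (fun h => (hmemC α).mpr (Or.inl rfl) h)
    have hcβ : c • β = β := hc β (fun h => (hmemC β).mpr (Or.inr rfl) h)
    refine ⟨b⁻¹ * c * a, ?_⟩
    ext i
    fin_cases i
    · show (b⁻¹ * c * a) • x 0 = y 0
      rw [mul_smul, mul_smul, ha0, hcα, inv_smul_eq_iff, hb0]
    · show (b⁻¹ * c * a) • x 1 = y 1
      rw [mul_smul, mul_smul, ha1, hcβ, inv_smul_eq_iff, hb1]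
    · show (b⁻¹ * c * a) • x 2 = y 2
      rw [mul_smul, mul_smul, hcx, inv_smul_smul]
  · exfalso
    have hc3' : 3 ≤ Jᶜ.ncard := by omega
    set C := Jᶜ with hCdef
    have hsmulC : ∀ g : G, g • C = (g • J)ᶜ := fun g => by rw [hCdef, Set.smul_set_compl]
    -- two common points force equality
    have hL : ∀ g : G, 2 ≤ (C ∩ g • C).ncard → g • C = C := by
      intro g hg
      have h1 : (J ∪ g • J)ᶜ = C ∩ g • C := by
        rw [Set.compl_union, hsmulC]
      have h3 : (J ∪ g • J)ᶜ.ncard ≥ 2 := by rw [h1]; exact hg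
      have h5 := Set.ncard_union_add_ncard_inter J (g • J)
      rw [hsmulc] at h5
      have h7 := hcomplc (J ∪ g • J)
      have hp : (J ∩ g • J).Nonempty := by
        rw [← Set.ncard_pos (Set.toFinite _)]
        omega
      have h8 := hgrow g hp h3
      rw [hsmulC, h8]
    obtain ⟨α, β, hαβ, hαC, hβC⟩ : ∃ α β : Ω, α ≠ β ∧ α ∈ C ∧ β ∈ C := by
      have : 1 < C.ncard := by omega
      obtain ⟨a, ha, b, hb, hab⟩ := (Set.one_lt_ncard (Set.toFinite _)).mp this
      exact ⟨a, b, hab, ha, hb⟩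
    -- lines through two points
    have hex : ∀ x y : Ω, x ≠ y → ∃ g : G, x ∈ g • C ∧ y ∈ g • C := by
      intro x y hxy
      obtain ⟨g, hg1, hg2⟩ := h2 α β x y hαβ hxy
      exact ⟨g, ⟨α, hαC, hg1⟩, ⟨β, hβC, hg2⟩⟩
    have huniq : ∀ (g h : G) (x y : Ω), x ≠ y → x ∈ g • C → y ∈ g • C → x ∈ h • C → y ∈ h • C → g • C = h • C := by
      intro g h x y hxy hxg hyg hxh hyh
      have h1 : (h⁻¹ * g) • C = C := by
        apply hL
        have h3 : ({h⁻¹ • x, h⁻¹ • y} : Set Ω) ⊆ C ∩ (h⁻¹ * g) • C := by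
          intro w hw
          have hxg' : h⁻¹ • x ∈ (h⁻¹ * g) • C := by
            rw [mul_smul]; exact Set.smul_mem_smul_set hxg
          have hyg' : h⁻¹ • y ∈ (h⁻¹ * g) • C := by
            rw [mul_smul]; exact Set.smul_mem_smul_set hyg
          have hxh' : h⁻¹ • x ∈ C := by
            obtain ⟨u, hu, rfl⟩ := hxh
            simpa using hu
          have hyh' : h⁻¹ • y ∈ C := by
            obtain ⟨u, hu, rfl⟩ := hyh
            simpa using hu
          rcases hw with rfl | rfl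
          · exact ⟨hxh', hxg'⟩
          · exact ⟨hyh', hyg'⟩
        have h4 : ({h⁻¹ • x, h⁻¹ • y} : Set Ω).ncard = 2 :=
          Set.ncard_pair (fun h5 => hxy (MulAction.injective h⁻¹ h5))
        rw [← h4]
        exact Set.ncard_le_ncard h3 (Set.toFinite _)
      rw [mul_smul, inv_smul_eq_iff] at h1
      exact h1
    have hmove : ∀ (g : G) (x y p : Ω), x ≠ y → x ∈ g • C → y ∈ g • C → x ∉ Γ → y ∉ Γ → p ∈ g • C → p ∈ Γ →
        Γ ⊆ g • C := by
      intro g x y p hxy hxg hyg hxΓ hyΓ hpg hpΓ p' hp'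
      obtain ⟨k, hk, hkp⟩ := htr p hpΓ p' hp'
      have hmem : ∀ v, v ∉ Γ → v ∈ g • C → v ∈ (k * g) • C := by
        intro v hvΓ hv
        rw [mul_smul, ← hk v hvΓ]
        have := Set.smul_mem_smul_set (a := k) hv
        rwa [hk v hvΓ] at this ⊢
      have h1 : (k * g) • C = g • C :=
        huniq (k * g) g x y hxy (hmem x hxΓ hxg) (hmem y hyΓ hyg) hxg hyg
      rw [← h1, mul_smul, ← hkp]
      exact Set.smul_mem_smul_set hpg
    have hone : ∀ (g : G) (x y p : Ω), x ∈ g • C → y ∈ g • C → x ∉ Γ → y ∉ Γ → p ∈ g • C → p ∈ Γ → x = y := by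
      intro g x y p hxg hyg hxΓ hyΓ hpg hpΓ
      by_contra hxy
      have hsub := hmove g x y p hxy hxg hyg hxΓ hyΓ hpg hpΓ
      obtain ⟨z, hz⟩ : ∃ z, z ∉ g • C := by
        by_contra h
        push_neg at h
        have h3 : g • C = Set.univ := Set.eq_univ_of_forall h
        have h4 : (g • C).ncard = n := by rw [h3, Set.ncard_univ]
        rw [hsmulc] at h4
        omega
      have hzΓ : z ∉ Γ := fun h => hz (hsub h)
      obtain ⟨q, hq, q', hq', hqq'⟩ := (Set.one_lt_ncard (Set.toFinite _)).mp h1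
      have hzq : z ≠ q := fun h => hz (h ▸ hsub hq)
      obtain ⟨k, hzk, hqk⟩ := hex z q hzq
      obtain ⟨w, hwk, hw⟩ := Set.exists_mem_notMem_of_ncard_lt_ncard (s := ({z, q} : Set Ω)) (t := k • C) (by
        rw [hsmulc, Set.ncard_pair hzq]
        omega)
      have hwz : w ≠ z := fun h => hw (Or.inl h)
      have hwq : w ≠ q := fun h => hw (Or.inr h)
      have hwl : w ∉ g • C := by
        intro hwg
        have := huniq g k q w (Ne.symm hwq) (hsub hq) hwg hqk hwk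
        exact hz (this ▸ hzk)
      have hwΓ : w ∉ Γ := fun h => hwl (hsub h)
      have hsub2 := hmove k z w q (Ne.symm hwz) hzk hwk hzΓ hwΓ hqk hq
      have := huniq g k q q' hqq' (hsub hq) (hsub hq') (hsub2 hq) (hsub2 hq')
      exact hz (this ▸ hzk)
    obtain ⟨q, hq, q', hq', hqq'⟩ := (Set.one_lt_ncard (Set.toFinite _)).mp h1
    have hpx : ∀ x : Ω, x ∉ Γ → q ≠ x := fun x hx h => hx (h ▸ hq)
    have hw : ∀ x : Ω, x ∉ Γ → ∃ (g : G) (w : Ω), q ∈ g • C ∧ x ∈ g • C ∧ w ∈ g • C ∧ w ≠ q ∧ w ≠ x := by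
      intro x hx
      obtain ⟨g, h3, h4⟩ := hex q x (hpx x hx)
      obtain ⟨w, hwk, hw⟩ := Set.exists_mem_notMem_of_ncard_lt_ncard (s := ({q, x} : Set Ω)) (t := g • C) (by
        rw [hsmulc, Set.ncard_pair (hpx x hx)]
        omega)
      exact ⟨g, w, h3, h4, hwk, fun h => hw (Or.inl h), fun h => hw (Or.inr h)⟩
    haveI : Nonempty Ω := ⟨q⟩
    choose! g w hg1 hg2 hg3 hg4 hg5 using hw
    have hle : Γᶜ.ncard ≤ (Γ \ {q}).ncard := by
      apply Set.ncard_le_ncard_of_injOn w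
      · intro x hx
        have hx' : x ∉ Γ := hx
        refine ⟨?_, hg4 x hx'⟩
        by_contra hwΓ
        exact hg5 x hx' (hone (g x) (w x) x q (hg3 x hx') (hg2 x hx') hwΓ hx' (hg1 x hx') hq)
      · intro x hx x' hx' hxx
        have hxΓ : x ∉ Γ := hx
        have hxΓ' : x' ∉ Γ := hx'
        have h3 := huniq (g x) (g x') q (w x) (Ne.symm (hg4 x hxΓ)) (hg1 x hxΓ) (hg3 x hxΓ) (hg1 x' hxΓ') (by rw [hxx]; exact hg3 x' hxΓ')
        exact hone (g x) x x' q (hg2 x hxΓ) (by rw [h3]; exact hg2 x' hxΓ') hxΓ hxΓ' (hg1 x hxΓ) hq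
    rw [Set.ncard_diff_singleton_of_mem hq] at hle
    omega

end Cfsg.Agent.S3707
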