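import Mathlib
import Cfsg.Statements.S3733
-- import your own Cfsg.Agent.* helpers here

set_option autoImplicit false
open Cfsg

namespace Cfsg.Agent.S3733

/-- Let A and V be subgroups of a finite group with V abelian and nontrivial and A normalizing V. Suppose a nonempty finite family of proper subgroups of A partitions A: every non-identity element of A lies in exactly one member. If the number of members minus one is coprime to the order of V, then some member B of the family has a non-identity fixed point on V, that is V ∩ C(B) ≠ 1. -/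
theorem result {G : Type*} [Group G] [Finite G] (A V : Subgroup G) (hVab : IsMulCommutative V) (hV : V ≠ ⊥) (hAV : A ≤ Subgroup.normalizer (V : Set G)) (𝒜 : Finset (Subgroup G)) (hne : 𝒜.Nonempty) (hprop : ∀ B ∈ 𝒜, B < A) (hpart : ∀ a ∈ A, a ≠ 1 → ∃! B, B ∈ 𝒜 ∧ a ∈ B) (hk : (𝒜.card - 1).Coprime (Nat.card V)) : ∃ B ∈ 𝒜, V ⊓ Subgroup.centralizer (B : Set G) ≠ ⊥ := by
  classical
  by_contra hcon
  push Not at hcon
  haveI := Fintype.ofFinite A
  letI : CommGroup V := { (inferInstance : Group V) with mul_comm := hVab.is_comm.comm }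
  have hmem : ∀ (a : A) (v : V), a.1 * v.1 * a.1⁻¹ ∈ V := fun a v =>
    (Subgroup.mem_normalizer_iff.mp (hAV a.2) v.1).mp v.2
  let c : A → V →* V := fun a =>
    { toFun := fun v => ⟨a.1 * v.1 * a.1⁻¹, hmem a v⟩
      map_one' := by
        apply Subtype.ext
        simp
      map_mul' := by
        intro x y
        apply Subtype.ext
        change a.1 * (x.1 * y.1) * a.1⁻¹ = (a.1 * x.1 * a.1⁻¹) * (a.1 * y.1 * a.1⁻¹)
        group }
  have hc : ∀ (a : A) (v : V), (c a v).1 = a.1 * v.1 * a.1⁻¹ := fun _ _ => rfl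
  have hcmul : ∀ (a b : A) (v : V), c a (c b v) = c (a * b) v := by
    intro a b v
    apply Subtype.ext
    rw [hc, hc, hc]
    simp only [Subgroup.coe_mul]
    group
  have hcone : ∀ v : V, c 1 v = v := by
    intro v
    apply Subtype.ext
    rw [hc]
    simp
  -- fixed vectors vanish
  have hzero : ∀ (B : Subgroup G), B ∈ 𝒜 → ∀ w : V, (∀ b : A, b.1 ∈ B → c b w = w) → w = 1 := by
    intro B hB w hw
    have hBA : B ≤ A := (hprop B hB).le
    have h1 : w.1 ∈ V ⊓ Subgroup.centralizer (B : Set G) := by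
      refine ⟨w.2, ?_⟩
      change w.1 ∈ Subgroup.centralizer (B : Set G)
      rw [Subgroup.mem_centralizer_iff]
      intro b hb
      have h2 := hw ⟨b, hBA hb⟩ hb
      have h3 : b * w.1 * b⁻¹ = w.1 := congrArg Subtype.val h2
      calc b * w.1 = (b * w.1 * b⁻¹) * b := by group
        _ = w.1 * b := by rw [h3]
    rw [hcon B hB, Subgroup.mem_bot] at h1
    exact Subtype.ext h1
  let F : Subgroup G → Finset A := fun B => Finset.univ.filter (fun a => a.1 ∈ B ∧ a ≠ 1)
  have hTB : ∀ B ∈ 𝒜, ∀ v : V, (∏ a ∈ F B, c a v) * v = 1 := by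
    intro B hB v
    apply hzero B hB
    intro b hb
    have h1 : (∏ a ∈ F B, c a v) * v = ∏ a ∈ Finset.univ.filter (fun a : A => a.1 ∈ B), c a v := by
      have h2 : Finset.univ.filter (fun a : A => a.1 ∈ B) = insert 1 (F B) := by
        ext a
        simp only [Finset.mem_filter, Finset.mem_univ, true_and, Finset.mem_insert, F]
        constructor
        · intro ha
          by_cases h : a = 1
          · exact Or.inl h
          · exact Or.inr ⟨ha, h⟩
        · rintro (rfl | h)
          · exact B.one_mem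
          · exact h.1
      rw [h2, Finset.prod_insert (by simp [F]), hcone, mul_comm]
    rw [h1, map_prod]
    refine Finset.prod_nbij' (fun a => b * a) (fun a => b⁻¹ * a) ?_ ?_ ?_ ?_ ?_
    · intro a ha
      simp only [Finset.mem_filter, Finset.mem_univ, true_and] at ha ⊢
      exact B.mul_mem hb ha
    · intro a ha
      simp only [Finset.mem_filter, Finset.mem_univ, true_and] at ha ⊢
      exact B.mul_mem (B.inv_mem hb) ha
    · intro a _
      simp
    · intro a _
      simp
    · intro a _
      rw [hcmul]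
  have hTA : ∀ v : V, (∏ a ∈ Finset.univ.filter (fun a : A => a ≠ 1), c a v) * v = 1 := by
    intro v
    obtain ⟨B, hB⟩ := hne
    apply hzero B hB
    intro b _
    have h1 : (∏ a ∈ Finset.univ.filter (fun a : A => a ≠ 1), c a v) * v = ∏ a : A, c a v := by
      have h2 : (Finset.univ : Finset A) = insert 1 (Finset.univ.filter (fun a : A => a ≠ 1)) := by
        ext a
        simp only [Finset.mem_filter, Finset.mem_univ, true_and, Finset.mem_insert]
        tauto
      rw [h2, Finset.prod_insert (by simp), hcone, mul_comm, ← h2]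
    rw [h1, map_prod]
    refine Finset.prod_nbij' (fun a => b * a) (fun a => b⁻¹ * a) ?_ ?_ ?_ ?_ ?_
    · intro a _
      exact Finset.mem_univ _
    · intro a _
      exact Finset.mem_univ _
    · intro a _
      simp
    · intro a _
      simp
    · intro a _
      rw [hcmul]
  have hunion : Finset.univ.filter (fun a : A => a ≠ 1) = 𝒜.biUnion F := by
    ext a
    simp only [Finset.mem_filter, Finset.mem_univ, true_and, Finset.mem_biUnion, F]
    constructor
    · intro ha
      have ha' : a.1 ≠ 1 := fun h => ha (Subtype.ext h)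
      obtain ⟨B, ⟨hB, haB⟩, -⟩ := hpart a.1 a.2 ha'
      exact ⟨B, hB, haB, ha⟩
    · rintro ⟨B, -, -, h⟩
      exact h
  have hdisj : (𝒜 : Set (Subgroup G)).PairwiseDisjoint F := by
    intro B hB C hC hBC
    rw [Function.onFun, Finset.disjoint_left]
    intro a ha ha'
    simp only [Finset.mem_filter, Finset.mem_univ, true_and, F] at ha ha'
    have ha1 : a.1 ≠ 1 := fun h => ha.2 (Subtype.ext h)
    obtain ⟨D, -, hD⟩ := hpart a.1 a.2 ha1
    exact hBC ((hD B ⟨hB, ha.1⟩).trans (hD C ⟨hC, ha'.1⟩).symm)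
  have hpow : ∀ v : V, v ^ (𝒜.card - 1) = 1 := by
    intro v
    have h1 : ∏ B ∈ 𝒜, ((∏ a ∈ F B, c a v) * v) = 1 :=
      Finset.prod_eq_one (fun B hB => hTB B hB v)
    rw [Finset.prod_mul_distrib, ← Finset.prod_biUnion hdisj, ← hunion, Finset.prod_const] at h1
    have h2 := hTA v
    obtain ⟨k, hk0⟩ : ∃ k, 𝒜.card = k + 1 := ⟨𝒜.card - 1, by
      have := Finset.card_pos.mpr hne
      omega⟩
    rw [hk0] at h1 ⊢
    rw [Nat.add_sub_cancel]
    rw [pow_succ, mul_left_comm, h2, mul_one] at h1
    exact h1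
  apply hV
  rw [eq_bot_iff]
  intro x hx
  have h1 := hpow ⟨x, hx⟩
  have h2 : orderOf (⟨x, hx⟩ : V) ∣ Nat.gcd (𝒜.card - 1) (Nat.card V) :=
    Nat.dvd_gcd (orderOf_dvd_of_pow_eq_one h1) (orderOf_dvd_natCard _)
  rw [hk] at h2
  have h3 : (⟨x, hx⟩ : V) = 1 := orderOf_eq_one_iff.mp (Nat.dvd_one.mp h2)
  exact (Subgroup.mem_bot).mpr (congrArg Subtype.val h3)

end Cfsg.Agent.S3733
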