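import Mathlib
import Cfsg.Statements.S3734
import Cfsg.Agent.Lib.CoprimeGen4
import Cfsg.Agent.Lib.SchurZ
import Cfsg.Agent.Lib.SchurZ2
import Cfsg.Agent.Lib.H5Basic
-- import your own Cfsg.Agent.* helpers here

set_option autoImplicit false
open Cfsg

namespace Cfsg.Agent.S3734

universe u

set_option linter.unusedSectionVars false
set_option linter.style.haveILetI false

open Cfsg.Agent.Lib.SchurZ Cfsg.Agent.Lib.Commutators

theorem card_map_mk_mul {X : Type*} [Group X] [Finite X] {K M : Subgroup X} [M.Normal] (h : M ≤ K) :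
    Nat.card (K.map (QuotientGroup.mk' M)) * Nat.card M = Nat.card K := by
  let ψ : K →* X ⧸ M := (QuotientGroup.mk' M).comp K.subtype
  have h1 : ψ.range = K.map (QuotientGroup.mk' M) := by
    rw [MonoidHom.range_comp, Subgroup.range_subtype]
  have h2 : Nat.card ψ.ker = Nat.card M := by
    apply Nat.card_congr
    refine ⟨fun k => ⟨(k.1 : X), ?_⟩, fun x => ⟨⟨x.1, h x.2⟩, ?_⟩, ?_, ?_⟩
    · have := k.2
      rw [MonoidHom.mem_ker] at this
      exact (QuotientGroup.eq_one_iff _).mp this
    · rw [MonoidHom.mem_ker]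
      exact (QuotientGroup.eq_one_iff _).mpr x.2
    · intro k
      rfl
    · intro x
      rfl
  rw [← h1, ← h2]
  have h3 := Subgroup.card_mul_index ψ.ker
  rw [Subgroup.index_ker] at h3
  rw [mul_comm]
  exact h3

/-- Generation by the fixed points of subgroups with cyclic quotient. -/
theorem gen_cyclic_quot : ∀ (n : ℕ) (X : Type u) [Group X] [Finite X] (A K : Subgroup X), Nat.card A = n →
    (∀ x ∈ A, ∀ y ∈ A, x * y = y * x) → A ≤ Subgroup.normalizer (K : Set X) → (Nat.card A).Coprime (Nat.card K) →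
    K ≤ ⨆ B ∈ {B : Subgroup X | B ≤ A ∧ ∃ a ∈ A, B ⊔ Subgroup.zpowers a = A}, K ⊓ Subgroup.centralizer (B : Set X) := by
  intro n
  induction n using Nat.strong_induction_on with
  | _ n ih =>
    intro X _ _ A K hn hc hAK hcop
    classical
    set S : Set (Subgroup X) := {B : Subgroup X | B ≤ A ∧ ∃ a ∈ A, B ⊔ Subgroup.zpowers a = A} with hS
    set Z : Subgroup X := ⨆ B ∈ S, K ⊓ Subgroup.centralizer (B : Set X) with hZ
    have hZle : ∀ B ∈ S, K ⊓ Subgroup.centralizer (B : Set X) ≤ Z := fun B hB =>
      le_iSup₂_of_le B hB le_rfl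
    by_cases hcyc : IsCyclic A
    · obtain ⟨g, hg⟩ := hcyc.exists_generator
      have hB : (⊥ : Subgroup X) ∈ S := by
        refine ⟨bot_le, g, g.2, ?_⟩
        rw [bot_sup_eq]
        apply le_antisymm
        · rw [Subgroup.zpowers_le]
          exact g.2
        · intro x hx
          obtain ⟨i, hi⟩ := Subgroup.mem_zpowers_iff.mp (hg ⟨x, hx⟩)
          refine Subgroup.mem_zpowers_iff.mpr ⟨i, ?_⟩
          have := congrArg Subtype.val hi
          simpa using this
      refine le_trans ?_ (hZle _ hB)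
      intro k hk
      refine ⟨hk, ?_⟩
      refine Subgroup.mem_centralizer_iff.mpr ?_
      intro b hb
      have : b = 1 := by simpa using hb
      rw [this, one_mul, mul_one]
    · haveI : IsMulCommutative A := ⟨⟨fun a b => Subtype.ext (hc a a.2 b b.2)⟩⟩
      have hgen := Cfsg.Agent.Lib.CoprimeGen4.gen_eq A K hcyc hAK hcop
      rw [← hgen]
      refine iSup₂_le ?_
      rintro a ⟨haA, ha1⟩
      -- the centraliser of `a`
      set K₁ : Subgroup X := K ⊓ Subgroup.centralizer {a} with hK₁
      have hK₁K : K₁ ≤ K := inf_le_left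
      let T : Subgroup X := K₁ ⊔ A
      have hK₁T : K₁ ≤ T := le_sup_left
      have hAT : A ≤ T := le_sup_right
      have haT : a ∈ T := hAT haA
      have hTc : ∀ t ∈ T, t * a = a * t := by
        have h1 : T ≤ Subgroup.centralizer {a} := by
          refine sup_le inf_le_right ?_
          intro x hx
          rw [Subgroup.mem_centralizer_iff]
          intro y hy
          have hy' : y = a := by simpa using hy
          rw [hy']
          exact hc a haA x hx
        intro t ht
        have h2 := Subgroup.mem_centralizer_iff.mp (h1 ht) a (by simp)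
        exact h2.symm
      let a' : T := ⟨a, haT⟩
      let D : Subgroup T := Subgroup.zpowers a'
      haveI hDn : D.Normal := by
        constructor
        rintro _ ⟨i, rfl⟩ g
        have hg : g * a' = a' * g := Subtype.ext (hTc g g.2)
        refine ⟨i, ?_⟩
        have h3 : Commute g (a' ^ i) := (show Commute g a' from hg).zpow_right i
        show a' ^ i = g * a' ^ i * g⁻¹
        rw [h3.eq]
        group
      let f : T →* T ⧸ D := QuotientGroup.mk' D
      have hfk : ∀ x, f x = 1 ↔ x ∈ D := fun x => QuotientGroup.eq_one_iff x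
      have hf : Function.Surjective f := QuotientGroup.mk'_surjective D
      let A' : Subgroup T := A.subgroupOf T
      let K' : Subgroup T := K₁.subgroupOf T
      have hcA' : Nat.card A' = Nat.card A := Nat.card_congr (Subgroup.subgroupOfEquivOfLe hAT).toEquiv
      have hcK' : Nat.card K' = Nat.card K₁ := Nat.card_congr (Subgroup.subgroupOfEquivOfLe hK₁T).toEquiv
      have hDA : D ≤ A' := by
        rw [Subgroup.zpowers_le]
        exact Subgroup.mem_subgroupOf.mpr haA
      have hltA : Nat.card (A'.map f) < n := by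
        rw [← hn, ← hcA']
        have h1 : Nat.card (A'.map f) * Nat.card D = Nat.card A' := card_map_mk_mul hDA
        have h2 : 1 < Nat.card D := by
          rw [Subgroup.one_lt_card_iff_ne_bot]
          intro h
          have h3 : a' ∈ D := Subgroup.mem_zpowers a'
          rw [h, Subgroup.mem_bot] at h3
          exact ha1 (congrArg Subtype.val h3)
        have h3 : 0 < Nat.card (A'.map f) := Nat.card_pos
        nlinarith
      have hcopDK : ∀ z : T, z ∈ D → z ∈ K' → z = 1 := by
        intro z hzD hzK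
        have h1 : (z : X) ∈ A ⊓ K := ⟨Subgroup.mem_subgroupOf.mp (hDA hzD), hK₁K (Subgroup.mem_subgroupOf.mp hzK)⟩
        have h2 : A ⊓ K = ⊥ := inf_eq_bot_of_coprime hcop
        rw [h2, Subgroup.mem_bot] at h1
        exact Subtype.ext h1
      have hcK₁dvd : Nat.card K₁ ∣ Nat.card K := Subgroup.card_dvd_of_le hK₁K
      have hAK₁ : ∀ x ∈ A, ∀ y ∈ K₁, x * y * x⁻¹ ∈ K₁ := by
        intro x hx' y hy'
        refine ⟨conj_mem_of_mem_normalizer (hAK hx') hy'.1, ?_⟩
        refine Subgroup.mem_centralizer_iff.mpr ?_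
        intro w hw
        have hw' : w = a := by simpa using hw
        rw [hw']
        have h2 := Subgroup.mem_centralizer_iff.mp hy'.2 a (by simp)
        have h3 : x * a = a * x := hc _ hx' _ haA
        have h4 : x⁻¹ * a = a * x⁻¹ := by
          have : Commute x a := h3
          exact this.inv_left.eq
        calc a * (x * y * x⁻¹) = (a * x) * y * x⁻¹ := by group
          _ = x * (a * y) * x⁻¹ := by rw [← h3]; group
          _ = x * (y * a) * x⁻¹ := by rw [h2]
          _ = x * y * (a * x⁻¹) := by group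
          _ = x * y * (x⁻¹ * a) := by rw [h4]
          _ = x * y * x⁻¹ * a := by group
      have hIH := ih _ hltA (T ⧸ D) (A'.map f) (K'.map f) rfl
        (by
          rintro _ ⟨x, hx, rfl⟩ _ ⟨y, hy, rfl⟩
          rw [← map_mul, ← map_mul]
          congr 1
          exact Subtype.ext (hc x (Subgroup.mem_subgroupOf.mp hx) y (Subgroup.mem_subgroupOf.mp hy)))
        (by
          rintro _ ⟨x, hx, rfl⟩
          apply Cfsg.Agent.Lib.H5Basic.mem_normalizer_of_map_conj_le
          rintro _ ⟨_, ⟨y, hy, rfl⟩, rfl⟩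
          refine ⟨x * y * x⁻¹, ?_, by simp⟩
          apply Subgroup.mem_subgroupOf.mpr
          simpa using hAK₁ _ (Subgroup.mem_subgroupOf.mp hx) _ (Subgroup.mem_subgroupOf.mp hy))
        (by
          refine Nat.Coprime.coprime_dvd_left (Subgroup.card_map_dvd A' f) ?_
          refine Nat.Coprime.coprime_dvd_right (Subgroup.card_map_dvd K' f) ?_
          rw [hcA', hcK']
          exact Nat.Coprime.coprime_dvd_right hcK₁dvd hcop)
      -- pulling back
      let Z' : Subgroup T := Z.subgroupOf T ⊓ K'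
      have hkey : K'.map f ≤ Z'.map f := by
        refine hIH.trans (iSup₂_le ?_)
        rintro Bb ⟨hBb, ab, hab, hBsup⟩
        -- the preimage
        let B : Subgroup X := ((Bb.comap f).map T.subtype) ⊓ A
        obtain ⟨a₁, ha₁, rfl⟩ := hab
        have ha₁A : (a₁ : X) ∈ A := Subgroup.mem_subgroupOf.mp ha₁
        have hBS : B ∈ S := by
          refine ⟨inf_le_right, a₁, ha₁A, ?_⟩
          apply le_antisymm
          · exact sup_le inf_le_right (by rw [Subgroup.zpowers_le]; exact ha₁A)
          · intro y hy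
            set W : Subgroup T := (B ⊔ Subgroup.zpowers (a₁ : X)).subgroupOf T with hW
            have hle : Bb ⊔ Subgroup.zpowers (f a₁) ≤ W.map f := by
              refine sup_le ?_ ?_
              · intro β hβ
                obtain ⟨b', hb', rfl⟩ := hBb hβ
                refine ⟨b', Subgroup.mem_subgroupOf.mpr ((le_sup_left : B ≤ _) ?_), rfl⟩
                exact ⟨⟨b', hβ, rfl⟩, Subgroup.mem_subgroupOf.mp hb'⟩
              · rw [Subgroup.zpowers_le]
                exact ⟨a₁, Subgroup.mem_subgroupOf.mpr ((le_sup_right : Subgroup.zpowers (a₁ : X) ≤ _)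
                  (Subgroup.mem_zpowers _)), rfl⟩
            have hy' : f ⟨y, hAT hy⟩ ∈ Bb ⊔ Subgroup.zpowers (f a₁) := by
              rw [hBsup]
              exact ⟨⟨y, hAT hy⟩, Subgroup.mem_subgroupOf.mpr hy, rfl⟩
            obtain ⟨w, hw, hwe⟩ := hle hy'
            have hd : w⁻¹ * ⟨y, hAT hy⟩ ∈ D := by
              rw [← hfk, map_mul, map_inv, hwe, inv_mul_cancel]
            have hdB : ((w⁻¹ * ⟨y, hAT hy⟩ : T) : X) ∈ B := by
              refine ⟨⟨w⁻¹ * ⟨y, hAT hy⟩, ?_, rfl⟩, Subgroup.mem_subgroupOf.mp (hDA hd)⟩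
              show f _ ∈ Bb
              rw [(hfk _).mpr hd]
              exact one_mem _
            have h7 : y = (w : X) * ((w⁻¹ * ⟨y, hAT hy⟩ : T) : X) := by
              simp
            rw [h7]
            exact mul_mem (Subgroup.mem_subgroupOf.mp hw) ((le_sup_left : B ≤ _) hdB)
        rintro _ ⟨⟨k, hk1, rfl⟩, hk2⟩
        refine ⟨k, ⟨?_, hk1⟩, rfl⟩
        apply Subgroup.mem_subgroupOf.mpr
        apply hZle B hBS
        have hk1' : (k : X) ∈ K₁ := Subgroup.mem_subgroupOf.mp hk1
        refine ⟨hK₁K hk1', Subgroup.mem_centralizer_iff.mpr ?_⟩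
        rintro b ⟨⟨b', hb', rfl⟩, hbA⟩
        have h8 := Subgroup.mem_centralizer_iff.mp hk2 (f b') hb'
        have h9 : f (b' * k * b'⁻¹ * k⁻¹) = 1 := by
          simp only [map_mul, map_inv]
          rw [h8]
          group
        have h10 : b' * k * b'⁻¹ * k⁻¹ ∈ D := (hfk _).mp h9
        have h11 : b' * k * b'⁻¹ * k⁻¹ ∈ K' := by
          apply Subgroup.mem_subgroupOf.mpr
          simpa using mul_mem (hAK₁ _ hbA _ hk1') (inv_mem hk1')
        have h12 := hcopDK _ h10 h11
        have h13 : b' * k = k * b' := by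
          have h14 : b' * k * b'⁻¹ = k := by
            have := mul_eq_one_iff_eq_inv.mp h12
            rw [inv_inv] at this
            exact this
          calc b' * k = (b' * k * b'⁻¹) * b' := by group
            _ = k * b' := by rw [h14]
        exact congrArg Subtype.val h13
      intro x hx
      have h1 : f ⟨x, hK₁T hx⟩ ∈ K'.map f := ⟨⟨x, hK₁T hx⟩, Subgroup.mem_subgroupOf.mpr hx, rfl⟩
      obtain ⟨z, hz, hzx⟩ := hkey h1
      have h2 : z⁻¹ * ⟨x, hK₁T hx⟩ ∈ D := by
        rw [← hfk, map_mul, map_inv, hzx, inv_mul_cancel]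
      have h3 := hcopDK _ h2 (mul_mem (inv_mem hz.2) (Subgroup.mem_subgroupOf.mpr hx))
      have h4 : (⟨x, hK₁T hx⟩ : T) = z := (inv_mul_eq_one.mp h3).symm
      have h5 : x = (z : X) := congrArg Subtype.val h4
      rw [h5]
      exact hz.1

/-- Let A and G be subgroups of a finite group with A abelian, A normalizing G and the orders of A and G coprime. Then G is generated by the fixed-point subgroups C_G(B) of those subgroups B of A for which A/B is cyclic (that is, A = ⟨B, a⟩ for some a), and [G, A] is generated by the commutator subgroups [C_G(B), A] over the same subgroups B. -/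
theorem result {X : Type*} [Group X] [Finite X] (A G : Subgroup X) (hAab : IsMulCommutative A) (hAG : A ≤ Subgroup.normalizer (G : Set X)) (hcop : (Nat.card A).Coprime (Nat.card G)) : (⨆ B ∈ {B : Subgroup X | B ≤ A ∧ ∃ a ∈ A, B ⊔ Subgroup.zpowers a = A}, G ⊓ Subgroup.centralizer (B : Set X)) = G ∧ (⨆ B ∈ {B : Subgroup X | B ≤ A ∧ ∃ a ∈ A, B ⊔ Subgroup.zpowers a = A}, ⁅G ⊓ Subgroup.centralizer (B : Set X), A⁆) = ⁅G, A⁆ := by
  classical
  set S : Set (Subgroup X) := {B : Subgroup X | B ≤ A ∧ ∃ a ∈ A, B ⊔ Subgroup.zpowers a = A} with hS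
  have hc : ∀ x ∈ A, ∀ y ∈ A, x * y = y * x := fun x hx y hy => by
    have := hAab.is_comm.comm (⟨x, hx⟩ : A) ⟨y, hy⟩
    exact congrArg Subtype.val this
  have hAs : Group.IsSolvable A := Group.isSolvable_of_comm (fun a b => hAab.is_comm.comm a b)
  have hgen : G ≤ ⨆ B ∈ S, G ⊓ Subgroup.centralizer (B : Set X) :=
    gen_cyclic_quot _ X A G rfl hc hAG hcop
  refine ⟨le_antisymm (iSup₂_le fun _ _ => inf_le_left) hgen, ?_⟩
  set Y : Subgroup X := ⨆ B ∈ S, ⁅G ⊓ Subgroup.centralizer (B : Set X), A⁆ with hY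
  -- invariance of the pieces
  have hAM : ∀ B ∈ S, A ≤ Subgroup.normalizer ((G ⊓ Subgroup.centralizer (B : Set X) : Subgroup X) : Set X) := by
    intro B hB a ha
    apply Cfsg.Agent.Lib.H5Basic.mem_normalizer_of_map_conj_le
    rintro _ ⟨g, hg, rfl⟩
    refine ⟨conj_mem_of_mem_normalizer (hAG ha) hg.1, Subgroup.mem_centralizer_iff.mpr ?_⟩
    intro b hb
    have h1 := Subgroup.mem_centralizer_iff.mp hg.2 b hb
    have hbA : b ∈ A := hB.1 hb
    have h3 : a * b = b * a := hc a ha b hbA
    have h4 : a⁻¹ * b = b * a⁻¹ := by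
      have : Commute a b := h3
      exact this.inv_left.eq
    simp only [MulEquiv.coe_toMonoidHom, MulAut.conj_apply]
    calc b * (a * g * a⁻¹) = (b * a) * g * a⁻¹ := by group
      _ = a * (b * g) * a⁻¹ := by rw [← h3]; group
      _ = a * (g * b) * a⁻¹ := by rw [h1]
      _ = a * g * (b * a⁻¹) := by group
      _ = a * g * (a⁻¹ * b) := by rw [h4]
      _ = a * g * a⁻¹ * b := by group
  have hMcard : ∀ B : Subgroup X, (Nat.card (G ⊓ Subgroup.centralizer (B : Set X) : Subgroup X)).Coprime (Nat.card A) :=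
    fun B => Nat.Coprime.coprime_dvd_left (Subgroup.card_dvd_of_le inf_le_left) hcop.symm
  set C : Subgroup X := G ⊓ Subgroup.centralizer (A : Set X) with hC
  have hYle : Y ≤ G := iSup₂_le fun B hB =>
    (commutator_le_of_normalizes (hAM B hB)).trans inf_le_left
  have hGdec : G ≤ Y ⊔ C := by
    refine hgen.trans (iSup₂_le ?_)
    intro B hB
    have h1 := commutator_sup_centralizer (hAM B hB) (hMcard B) (Or.inr hAs)
    rw [← h1]
    refine sup_le_sup (le_iSup₂_of_le B hB le_rfl) ?_
    exact inf_le_inf_right _ inf_le_left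
  -- `A` and `C` normalize `Y`
  have hAY : ∀ a ∈ A, a ∈ Subgroup.normalizer (Y : Set X) := by
    intro a ha
    apply Cfsg.Agent.Lib.H5Basic.mem_normalizer_of_map_conj_le
    rw [hY]
    simp only [Subgroup.map_iSup]
    refine iSup₂_le ?_
    intro B hB
    refine le_iSup₂_of_le B hB ?_
    rw [Subgroup.map_commutator]
    apply Subgroup.commutator_mono
    · rintro _ ⟨g, hg, rfl⟩
      exact conj_mem_of_mem_normalizer (hAM B hB ha) hg
    · rintro _ ⟨g, hg, rfl⟩
      simp only [MulEquiv.coe_toMonoidHom, MulAut.conj_apply]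
      rw [hc a ha g hg]
      simpa using hg
  have hCY : ∀ c ∈ C, c ∈ Subgroup.normalizer (Y : Set X) := by
    intro c hcC
    apply Cfsg.Agent.Lib.H5Basic.mem_normalizer_of_map_conj_le
    rw [hY]
    simp only [Subgroup.map_iSup]
    refine iSup₂_le ?_
    intro B hB
    refine le_iSup₂_of_le B hB ?_
    rw [Subgroup.map_commutator]
    have hcG : c ∈ G := hcC.1
    have hcA : ∀ a ∈ A, a * c = c * a := Subgroup.mem_centralizer_iff.mp hcC.2
    apply Subgroup.commutator_mono
    · rintro _ ⟨g, hg, rfl⟩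
      refine ⟨G.mul_mem (G.mul_mem hcG hg.1) (G.inv_mem hcG), Subgroup.mem_centralizer_iff.mpr ?_⟩
      intro b hb
      have h1 := Subgroup.mem_centralizer_iff.mp hg.2 b hb
      have hbA : b ∈ A := hB.1 hb
      have h3 : b * c = c * b := hcA b hbA
      have h4 : c⁻¹ * b = b * c⁻¹ := by
        have : Commute c b := h3.symm
        exact this.inv_left.eq
      simp only [MulEquiv.coe_toMonoidHom, MulAut.conj_apply]
      calc b * (c * g * c⁻¹) = (b * c) * g * c⁻¹ := by group
        _ = c * (b * g) * c⁻¹ := by rw [h3]; group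
        _ = c * (g * b) * c⁻¹ := by rw [h1]
        _ = c * g * (b * c⁻¹) := by group
        _ = c * g * (c⁻¹ * b) := by rw [h4]
        _ = c * g * c⁻¹ * b := by group
    · rintro _ ⟨a, ha, rfl⟩
      simp only [MulEquiv.coe_toMonoidHom, MulAut.conj_apply]
      rw [← hcA a ha]
      simpa using ha
  -- the subgroup of elements with commutators in `Y`
  let W : Subgroup X :=
    { carrier := {g | g ∈ Subgroup.normalizer (Y : Set X) ∧ ∀ a ∈ A, g * a * g⁻¹ * a⁻¹ ∈ Y}
      one_mem' := ⟨one_mem _, fun a _ => by simp⟩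
      mul_mem' := by
        rintro g h ⟨hg, hg2⟩ ⟨hh, hh2⟩
        refine ⟨mul_mem hg hh, fun a ha => ?_⟩
        have h1 : g * h * a * (g * h)⁻¹ * a⁻¹ = g * (h * a * h⁻¹ * a⁻¹) * g⁻¹ * (g * a * g⁻¹ * a⁻¹) := by group
        rw [h1]
        exact mul_mem (conj_mem_of_mem_normalizer hg (hh2 a ha)) (hg2 a ha)
      inv_mem' := by
        rintro g ⟨hg, hg2⟩
        refine ⟨inv_mem hg, fun a ha => ?_⟩
        have h1 : g⁻¹ * a * g⁻¹⁻¹ * a⁻¹ = g⁻¹ * (g * a * g⁻¹ * a⁻¹)⁻¹ * g := by group
        rw [h1]
        have h2 := conj_mem_of_mem_normalizer (inv_mem hg) (inv_mem (hg2 a ha))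
        simpa using h2 }
  have hYW : Y ⊔ C ≤ W := by
    refine sup_le ?_ ?_
    · intro y hy
      refine ⟨Subgroup.le_normalizer hy, fun a ha => ?_⟩
      have h1 : y * a * y⁻¹ * a⁻¹ = y * (a * y⁻¹ * a⁻¹) := by group
      rw [h1]
      exact mul_mem hy (conj_mem_of_mem_normalizer (hAY a ha) (inv_mem hy))
    · intro c hcC
      refine ⟨hCY c hcC, fun a ha => ?_⟩
      have h1 : a * c = c * a := Subgroup.mem_centralizer_iff.mp hcC.2 a ha
      have h2 : c * a * c⁻¹ * a⁻¹ = 1 := by
        rw [← h1]
        group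
      rw [h2]
      exact one_mem _
  apply le_antisymm
  · refine iSup₂_le ?_
    intro B _
    exact Subgroup.commutator_mono inf_le_left le_rfl
  · rw [Subgroup.commutator_le]
    intro g hg a ha
    rw [commutatorElement_def]
    exact (hYW (hGdec hg)).2 a ha

end Cfsg.Agent.S3734
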