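import Mathlib
import Cfsg.Statements.S3735
-- import your own Cfsg.Agent.* helpers here

set_option autoImplicit false
open Cfsg

namespace Cfsg.Agent.S3735

variable {G : Type*} [Group G]

private lemma inv_sup {A U W : Subgroup G} (hU : A ≤ Subgroup.normalizer (U : Set G))
    (hW : A ≤ Subgroup.normalizer (W : Set G)) : A ≤ Subgroup.normalizer ((U ⊔ W : Subgroup G) : Set G) := by
  intro a ha
  rw [Subgroup.mem_normalizer_iff]
  have key : ∀ b ∈ A, ∀ x ∈ U ⊔ W, b * x * b⁻¹ ∈ U ⊔ W := by
    intro b hb x hx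
    have hle : U ⊔ W ≤ (U ⊔ W).comap (MulAut.conj b).toMonoidHom := by
      apply sup_le
      · intro u hu
        exact (le_sup_left : U ≤ U ⊔ W) ((Subgroup.mem_normalizer_iff.mp (hU hb) u).mp hu)
      · intro u hu
        exact (le_sup_right : W ≤ U ⊔ W) ((Subgroup.mem_normalizer_iff.mp (hW hb) u).mp hu)
    exact hle hx
  intro x
  constructor
  · exact key a ha x
  · intro hx
    have := key a⁻¹ (A.inv_mem ha) _ hx
    simpa [mul_assoc] using this

private lemma inv_inf {A U W : Subgroup G} (hU : A ≤ Subgroup.normalizer (U : Set G))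
    (hW : A ≤ Subgroup.normalizer (W : Set G)) : A ≤ Subgroup.normalizer ((U ⊓ W : Subgroup G) : Set G) := by
  intro a ha
  rw [Subgroup.mem_normalizer_iff]
  intro x
  have h1 := Subgroup.mem_normalizer_iff.mp (hU ha) x
  have h2 := Subgroup.mem_normalizer_iff.mp (hW ha) x
  simp only [Subgroup.mem_inf, h1, h2]

private lemma mem_sup_comm {W S : Subgroup G} (h : ∀ w ∈ W, ∀ s ∈ S, w * s = s * w) {x : G}
    (hx : x ∈ W ⊔ S) : ∃ w ∈ W, ∃ s ∈ S, w * s = x := by
  rw [Subgroup.sup_eq_closure] at hx
  induction hx using Subgroup.closure_induction with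
  | mem y hy =>
    rcases hy with hy | hy
    · exact ⟨y, hy, 1, S.one_mem, by simp⟩
    · exact ⟨1, W.one_mem, y, hy, by simp⟩
  | one => exact ⟨1, W.one_mem, 1, S.one_mem, by simp⟩
  | mul a b _ _ ha hb =>
    obtain ⟨w, hw, s, hs, rfl⟩ := ha
    obtain ⟨w', hw', s', hs', rfl⟩ := hb
    refine ⟨w * w', W.mul_mem hw hw', s * s', S.mul_mem hs hs', ?_⟩
    have := h w' hw' s hs
    calc w * w' * (s * s') = w * (w' * s) * s' := by group
      _ = w * (s * w') * s' := by rw [this]
      _ = w * s * (w' * s') := by group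
  | inv a _ ha =>
    obtain ⟨w, hw, s, hs, rfl⟩ := ha
    refine ⟨w⁻¹, W.inv_mem hw, s⁻¹, S.inv_mem hs, ?_⟩
    have := h w hw s hs
    rw [this, mul_inv_rev]


/-- Clifford's Theorem for actions on finite abelian groups, first part. Let H and V be subgroups of a finite group with V abelian and H normalizing V, and let A be a normal subgroup of H. If every H-invariant subgroup of V has an H-invariant complement in V, then every A-invariant subgroup of V has an A-invariant complement in V. -/
theorem result {G : Type*} [Group G] [Finite G] (H A V : Subgroup G) (hVab : IsMulCommutative V) (hHV : H ≤ Subgroup.normalizer (V : Set G)) (hAH : A ≤ H) (hAn : H ≤ Subgroup.normalizer (A : Set G)) (hss : ∀ U : Subgroup G, U ≤ V → H ≤ Subgroup.normalizer (U : Set G) → ∃ W : Subgroup G, W ≤ V ∧ H ≤ Subgroup.normalizer (W : Set G) ∧ U ⊓ W = ⊥ ∧ U ⊔ W = V) (U : Subgroup G) (hUV : U ≤ V) (hAU : A ≤ Subgroup.normalizer (U : Set G)) : ∃ W : Subgroup G, W ≤ V ∧ A ≤ Subgroup.normalizer (W : Set G) ∧ U ⊓ W = ⊥ ∧ U ⊔ W = V := by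
  classical
  -- the commutativity of `V`
  have hcomm : ∀ x ∈ V, ∀ y ∈ V, x * y = y * x := by
    intro x hx y hy
    have := hVab.is_comm.comm ⟨x, hx⟩ ⟨y, hy⟩
    exact congrArg Subtype.val this
  -- the simple pieces
  let 𝒮 : Set (Subgroup G) := {S | S ≤ V ∧ A ≤ Subgroup.normalizer (S : Set G) ∧ S ≠ ⊥ ∧
    ∀ S' : Subgroup G, S' ≤ S → A ≤ Subgroup.normalizer (S' : Set G) → S' = ⊥ ∨ S' = S}
  have hmin : ∀ X : Subgroup G, X ≤ V → A ≤ Subgroup.normalizer (X : Set G) → X ≠ ⊥ →
      ∃ S ∈ 𝒮, S ≤ X := by
    intro X hXV hXA hX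
    let s : Set (Subgroup G) := {S | S ≤ X ∧ A ≤ Subgroup.normalizer (S : Set G) ∧ S ≠ ⊥}
    obtain ⟨S, hS, hSmin⟩ := WellFounded.has_min (wellFounded_lt (α := Subgroup G)) s
      ⟨X, le_refl _, hXA, hX⟩
    refine ⟨S, ⟨hS.1.trans hXV, hS.2.1, hS.2.2, ?_⟩, hS.1⟩
    intro S' hS' hS'A
    by_contra hne
    push_neg at hne
    exact hSmin S' ⟨hS'.trans hS.1, hS'A, hne.1⟩ (lt_of_le_of_ne hS' hne.2)
  set V₀ := sSup 𝒮 with hV₀
  have hV₀V : V₀ ≤ V := sSup_le (fun S hS => hS.1)
  -- conjugation by `H` preserves the simple pieces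
  have hH₀ : H ≤ Subgroup.normalizer (V₀ : Set G) := by
    have key : ∀ h ∈ H, ∀ x ∈ V₀, h * x * h⁻¹ ∈ V₀ := by
      intro h hh x hx
      have hle : V₀ ≤ V₀.comap (MulAut.conj h).toMonoidHom := by
        apply sSup_le
        intro S hS y hy
        change h * y * h⁻¹ ∈ V₀
        let S₁ := S.map (MulAut.conj h).toMonoidHom
        have hmem : h * y * h⁻¹ ∈ S₁ := ⟨y, hy, rfl⟩
        have hconj : ∀ a ∈ A, h⁻¹ * a * h ∈ A := by
          intro a ha
          have := (Subgroup.mem_normalizer_iff.mp (hAn (H.inv_mem hh)) a).mp ha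
          simpa using this
        have hconj' : ∀ a ∈ A, h * a * h⁻¹ ∈ A := by
          intro a ha
          exact (Subgroup.mem_normalizer_iff.mp (hAn hh) a).mp ha
        have hS₁ : S₁ ∈ 𝒮 := by
          refine ⟨?_, ?_, ?_, ?_⟩
          · rintro _ ⟨z, hz, rfl⟩
            exact (Subgroup.mem_normalizer_iff.mp (hHV hh) z).mp (hS.1 hz)
          · intro a ha
            rw [Subgroup.mem_normalizer_iff]
            have hb := Subgroup.mem_normalizer_iff.mp (hS.2.1 (hconj a ha))
            intro z
            have hmemS : ∀ w, w ∈ S₁ ↔ h⁻¹ * w * h ∈ S := by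
              intro w
              constructor
              · rintro ⟨z', hz', rfl⟩
                have : h⁻¹ * ((MulAut.conj h).toMonoidHom z') * h = z' := by
                  simp [MulAut.conj_apply]
                  group
                rw [this]
                exact hz'
              · intro hw
                refine ⟨_, hw, ?_⟩
                simp [MulAut.conj_apply]
                group
            rw [hmemS, hmemS]
            have h3 := hb (h⁻¹ * z * h)
            rw [h3]
            have : h⁻¹ * a * h * (h⁻¹ * z * h) * (h⁻¹ * a * h)⁻¹ = h⁻¹ * (a * z * a⁻¹) * h := by group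
            rw [this]
          · intro hbot
            apply hS.2.2.1
            rw [eq_bot_iff]
            intro y hy
            have : (MulAut.conj h).toMonoidHom y ∈ S₁ := ⟨y, hy, rfl⟩
            rw [hbot, Subgroup.mem_bot] at this
            have h5 : (MulAut.conj h) y = 1 := this
            simpa using h5
          · intro S' hS' hS'A
            let S₂ := S'.map (MulAut.conj h⁻¹).toMonoidHom
            have hS₂S : S₂ ≤ S := by
              rintro _ ⟨z, hz, rfl⟩
              obtain ⟨z', hz', rfl⟩ := hS' hz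
              simpa [MulAut.conj_apply, mul_assoc] using hz'
            have hS₂A : A ≤ Subgroup.normalizer (S₂ : Set G) := by
              intro a ha
              rw [Subgroup.mem_normalizer_iff]
              have hb := Subgroup.mem_normalizer_iff.mp (hS'A (hconj' a ha))
              have hmem2 : ∀ w, w ∈ S₂ ↔ h * w * h⁻¹ ∈ S' := by
                intro w
                constructor
                · rintro ⟨z', hz', rfl⟩
                  have : h * ((MulAut.conj h⁻¹).toMonoidHom z') * h⁻¹ = z' := by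
                    simp [MulAut.conj_apply]
                    group
                  rw [this]
                  exact hz'
                · intro hw
                  refine ⟨_, hw, ?_⟩
                  simp [MulAut.conj_apply]
                  group
              intro z
              rw [hmem2, hmem2, hb (h * z * h⁻¹)]
              have : h * a * h⁻¹ * (h * z * h⁻¹) * (h * a * h⁻¹)⁻¹ = h * (a * z * a⁻¹) * h⁻¹ := by group
              rw [this]
            rcases hS.2.2.2 S₂ hS₂S hS₂A with h6 | h6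
            · left
              rw [eq_bot_iff]
              intro w hw
              have : (MulAut.conj h⁻¹).toMonoidHom w ∈ S₂ := ⟨w, hw, rfl⟩
              rw [h6, Subgroup.mem_bot] at this
              have h5 : (MulAut.conj h⁻¹) w = 1 := this
              exact EmbeddingLike.map_eq_one_iff.mp h5
            · right
              apply le_antisymm hS'
              rintro _ ⟨z, hz, rfl⟩
              rw [← h6] at hz
              obtain ⟨z', hz', rfl⟩ := hz
              simpa [MulAut.conj_apply, mul_assoc] using hz'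
        exact (le_sSup hS₁ : S₁ ≤ V₀) hmem
      exact hle hx
    intro h hh
    rw [Subgroup.mem_normalizer_iff]
    intro x
    constructor
    · exact key h hh x
    · intro hx
      have := key h⁻¹ (H.inv_mem hh) _ hx
      simpa [mul_assoc] using this
  obtain ⟨W₀, hW₀V, hW₀H, hW₀i, hW₀s⟩ := hss V₀ hV₀V hH₀
  have hW₀ : W₀ = ⊥ := by
    by_contra hne
    obtain ⟨S, hS, hSW⟩ := hmin W₀ hW₀V (hAH.trans hW₀H) hne
    apply hS.2.2.1
    rw [eq_bot_iff, ← hW₀i]
    exact le_inf (le_sSup hS) hSW
  have hV₀eq : V₀ = V := by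
    rw [hW₀, sup_bot_eq] at hW₀s
    exact hW₀s
  -- the maximal complement
  let s : Set (Subgroup G) := {W | W ≤ V ∧ A ≤ Subgroup.normalizer (W : Set G) ∧ U ⊓ W = ⊥}
  have hbot : (⊥ : Subgroup G) ∈ s := by
    refine ⟨bot_le, ?_, inf_bot_eq _⟩
    intro a _
    rw [Subgroup.mem_normalizer_iff]
    intro x
    simp only [Subgroup.mem_bot]
    constructor
    · rintro rfl
      simp
    · intro h
      have : a * x * a⁻¹ * a = 1 * a := by rw [h]
      have h2 : a * x = a := by simpa using this
      simpa using h2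
  obtain ⟨W, hW, hWmax⟩ := WellFounded.has_min (wellFounded_gt (α := Subgroup G)) s ⟨⊥, hbot⟩
  refine ⟨W, hW.1, hW.2.1, hW.2.2, ?_⟩
  apply le_antisymm (sup_le hUV hW.1)
  by_contra hnle
  -- some simple piece is not contained in `U ⊔ W`
  have hex : ∃ S ∈ 𝒮, ¬ S ≤ U ⊔ W := by
    by_contra hall
    push_neg at hall
    apply hnle
    rw [← hV₀eq]
    exact sSup_le hall
  obtain ⟨S, hS, hSn⟩ := hex
  have hTA := inv_sup hAU hW.2.1
  have hinf : S ⊓ (U ⊔ W) = ⊥ := by
    rcases hS.2.2.2 _ inf_le_left (inv_inf hS.2.1 hTA) with h | h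
    · exact h
    · exact absurd (inf_eq_left.mp h) hSn
  apply hWmax (W ⊔ S)
  · refine ⟨sup_le hW.1 hS.1, inv_sup hW.2.1 hS.2.1, ?_⟩
    rw [eq_bot_iff]
    rintro u ⟨huU, huWS⟩
    obtain ⟨w, hw, t, ht, rfl⟩ := mem_sup_comm (fun a ha b hb => hcomm a (hW.1 ha) b (hS.1 hb)) huWS
    have ht1 : t ∈ S ⊓ (U ⊔ W) := by
      refine ⟨ht, ?_⟩
      have : t = (w * t) * w⁻¹ := by
        have := hcomm w (hW.1 hw) t (hS.1 ht)
        rw [this]
        group
      rw [this]
      exact Subgroup.mul_mem _ ((le_sup_left : U ≤ U ⊔ W) huU) ((le_sup_right : W ≤ U ⊔ W) (W.inv_mem hw))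
    rw [hinf, Subgroup.mem_bot] at ht1
    subst ht1
    rw [mul_one] at huU ⊢
    have : w ∈ U ⊓ W := ⟨huU, hw⟩
    rw [hW.2.2] at this
    exact this
  · refine lt_of_le_of_ne le_sup_left ?_
    intro h
    apply hS.2.2.1
    rw [eq_bot_iff, ← hinf]
    refine le_inf (le_refl _) ?_
    have : S ≤ W := by
      rw [h]
      exact le_sup_right
    exact this.trans le_sup_right

end Cfsg.Agent.S3735
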