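import Mathlib
import Cfsg.Statements.S3736
import Cfsg.Agent.Lib.H5Basic
import Cfsg.Agent.Lib.CoprimeAct
import Cfsg.Agent.Lib.CoprimeAB
import Cfsg.Agent.Lib.H6PGroup
import Cfsg.Agent.Lib.H6Basic
import Cfsg.Agent.Lib.LieTrick
-- import your own Cfsg.Agent.* helpers here

set_option autoImplicit false
open Cfsg

namespace Cfsg.Agent.S3736

open Subgroup Cfsg.Agent.Lib
open scoped commutatorElement

section
variable {X : Type*} [Group X] [Finite X]

/-- the averaging argument: an element fixed by `A` lies in the derived subgroup when `[P,A]=P` -/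
theorem fixed_mem_commutator {p : ℕ} [Fact p.Prime] (P A : Subgroup X) (hP : IsPGroup p P)
    (hA : A ≤ Subgroup.normalizer (P : Set X)) (hAp : (Nat.card A).Coprime p)
    (hPA : ⁅P, A⁆ = P) {z : X} (hzP : z ∈ P) (hz : ∀ a ∈ A, a * z = z * a) :
    (⟨z, hzP⟩ : P) ∈ commutator P := by
  classical
  haveI : Fintype A := Fintype.ofFinite A
  have hcm : ∀ (a : A) (x : P), (a : X) * x * (a : X)⁻¹ ∈ P := fun a x =>
    (Subgroup.mem_normalizer_iff.1 (hA a.2) x).1 x.2
  let cP : A → P → P := fun a x => ⟨(a : X) * x * (a : X)⁻¹, hcm a x⟩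
  have hcPmul : ∀ a x y, cP a (x * y) = cP a x * cP a y := by
    intro a x y
    apply Subtype.ext
    show (a : X) * ((x : X) * (y : X)) * (a : X)⁻¹ = ((a : X) * x * (a : X)⁻¹) * ((a : X) * y * (a : X)⁻¹)
    group
  have hcPcomp : ∀ a b x, cP a (cP b x) = cP (a * b) x := by
    intro a b x
    apply Subtype.ext
    show (a : X) * ((b : X) * x * (b : X)⁻¹) * (a : X)⁻¹ = ((a : X) * (b : X)) * x * ((a : X) * (b : X))⁻¹
    group
  let τ : P →* Abelianization P := MonoidHom.mk' (fun x => ∏ a : A, Abelianization.of (cP a x)) (by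
    intro x y
    rw [← Finset.prod_mul_distrib]
    refine Finset.prod_congr rfl fun a _ => ?_
    rw [hcPmul, map_mul])
  have hτ : ∀ x, τ x = ∏ a : A, Abelianization.of (cP a x) := fun x => rfl
  have hinv : ∀ (b : A) (x : P), τ (cP b x) = τ x := by
    intro b x
    rw [hτ, hτ]
    simp only [hcPcomp]
    exact Fintype.prod_equiv (Equiv.mulRight b) _ _ (fun a => rfl)
  have hle : P ≤ τ.ker.map P.subtype := by
    conv_lhs => rw [← hPA]
    rw [Subgroup.commutator_le]
    intro x hx a ha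
    refine ⟨⟨x, hx⟩ * (cP ⟨a, ha⟩ ⟨x, hx⟩)⁻¹, ?_, ?_⟩
    · rw [SetLike.mem_coe, MonoidHom.mem_ker, map_mul, map_inv, hinv, mul_inv_cancel]
    · simp [cP, commutatorElement_def]
      group
  have hτ1 : τ ⟨z, hzP⟩ = 1 := by
    obtain ⟨w, hw, hwz⟩ := hle hzP
    have : w = ⟨z, hzP⟩ := Subtype.ext hwz
    rw [← this]
    exact hw
  have hfix : ∀ a : A, cP a ⟨z, hzP⟩ = ⟨z, hzP⟩ := by
    intro a
    apply Subtype.ext
    show (a : X) * z * (a : X)⁻¹ = z
    rw [hz a a.2, mul_inv_cancel_right]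
  rw [hτ] at hτ1
  simp only [hfix, Finset.prod_const, Finset.card_univ] at hτ1
  rw [Fintype.card_eq_nat_card] at hτ1
  obtain ⟨k, hk⟩ := (IsPGroup.iff_orderOf.1 hP) ⟨z, hzP⟩
  have h2 : (Abelianization.of (⟨z, hzP⟩ : P)) ^ (p ^ k) = 1 := by
    rw [← map_pow, ← hk, pow_orderOf_eq_one, map_one]
  have h3 := (pow_gcd_eq_one (a := Abelianization.of (⟨z, hzP⟩ : P))).2 ⟨hτ1, h2⟩
  have h4 : (Nat.card A).gcd (p ^ k) = 1 := Nat.Coprime.pow_right k hAp
  rw [h4, pow_one] at h3
  have h5 : (⟨z, hzP⟩ : P) ∈ (Abelianization.of (G := P)).ker := h3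
  rwa [Abelianization.ker_of] at h5

theorem conj_char_normalizer (P B : Subgroup X) (hBP : B ≤ Subgroup.normalizer (P : Set X))
    (K : Subgroup P) [hK : K.Characteristic] : B ≤ Subgroup.normalizer ((K.map P.subtype : Subgroup X) : Set X) := by
  intro b hb
  apply Cfsg.Agent.Lib.H5Basic.mem_normalizer_of_map_conj_le
  rintro _ ⟨x, hx, rfl⟩
  exact Cfsg.Agent.Lib.CoprimeAB.conj_mem_of_char P K (hBP hb) hx

end

/-- The Hall–Higman reduction for a minimal non-trivial action. Let B, A and P be subgroups of a finite group with P a p-group, B normalizing P, and A a normal subgroup of B of order prime to p. Suppose A does not centralize P but centralizes every proper B-invariant subgroup of P. Then [P, A] = P; P is elementary abelian or special; B acts irreducibly on P/Φ(P), that is, the only B-invariant subgroups of P containing Φ(P) are Φ(P) and P; and if p is odd then every element of P has order dividing p. -/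
theorem result {X : Type*} [Group X] [Finite X] {p : ℕ} [Fact p.Prime] (B A P : Subgroup X) (hP : IsPGroup p P) (hBP : B ≤ Subgroup.normalizer (P : Set X)) (hAB : A ≤ B) (hAn : B ≤ Subgroup.normalizer (A : Set X)) (hAp : (Nat.card A).Coprime p) (hnt : ⁅P, A⁆ ≠ ⊥) (hmin : ∀ U : Subgroup X, U < P → B ≤ Subgroup.normalizer (U : Set X) → ⁅U, A⁆ = ⊥) : ⁅P, A⁆ = P ∧ (Cfsg.IsElementaryAbelian p P ∨ Cfsg.IsSpecial p ↥P) ∧ (∀ U : Subgroup X, (frattini ↥P).map P.subtype ≤ U → U ≤ P → B ≤ Subgroup.normalizer (U : Set X) → U = (frattini ↥P).map P.subtype ∨ U = P) ∧ (p ≠ 2 → ∀ x ∈ P, x ^ p = 1) := by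
  classical
  have hAnP : A ≤ Subgroup.normalizer (P : Set X) := hAB.trans hBP
  have hcent : ∀ U : Subgroup X, U < P → B ≤ Subgroup.normalizer (U : Set X) →
      ∀ u ∈ U, ∀ a ∈ A, a * u = u * a := by
    intro U hU hUB u hu a ha
    have h1 := hmin U hU hUB
    rw [Subgroup.commutator_eq_bot_iff_le_centralizer] at h1
    exact Subgroup.mem_centralizer_iff.1 (h1 hu) a ha
  have hordA : ∀ a ∈ A, (orderOf a).Coprime p := by
    intro a ha
    have h1 : orderOf (⟨a, ha⟩ : A) ∣ Nat.card A := orderOf_dvd_natCard _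
    rw [Subgroup.orderOf_mk] at h1
    exact Nat.Coprime.coprime_dvd_left h1 hAp
  have hconjP : ∀ a ∈ A, ∀ x ∈ P, a * x * a⁻¹ ∈ P := fun a ha x hx =>
    (Subgroup.mem_normalizer_iff.1 (hAnP ha) x).1 hx
  have hPAle : ⁅P, A⁆ ≤ P := by
    rw [Subgroup.commutator_le]
    intro x hx a ha
    have h2 : ⁅x, a⁆ = x * (a * x⁻¹ * a⁻¹) := by
      rw [commutatorElement_def]; group
    rw [h2]
    exact mul_mem hx (hconjP a ha _ (inv_mem hx))
  have hcommB : ∀ U V : Subgroup X, B ≤ Subgroup.normalizer (U : Set X) →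
      B ≤ Subgroup.normalizer (V : Set X) → B ≤ Subgroup.normalizer ((⁅U, V⁆ : Subgroup X) : Set X) := by
    intro U V hU hV b hb
    apply Cfsg.Agent.Lib.H5Basic.mem_normalizer_of_map_conj_le
    rw [Subgroup.map_commutator]
    apply Subgroup.commutator_mono
    · rintro _ ⟨u, hu, rfl⟩
      exact (Subgroup.mem_normalizer_iff.1 (hU hb) u).1 hu
    · rintro _ ⟨u, hu, rfl⟩
      exact (Subgroup.mem_normalizer_iff.1 (hV hb) u).1 hu
  have h1 : ⁅P, A⁆ = P := by
    by_contra hne
    have hlt : ⁅P, A⁆ < P := lt_of_le_of_ne hPAle hne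
    have hc := hcent _ hlt (hcommB P A hBP hAn)
    apply hnt
    rw [Subgroup.commutator_eq_bot_iff_le_centralizer]
    intro x hx
    rw [Subgroup.mem_centralizer_iff]
    intro a ha
    have hcomm : ⁅a, x⁆ ∈ ⁅P, A⁆ := by
      rw [← commutatorElement_inv]
      exact inv_mem (Subgroup.commutator_mem_commutator hx ha)
    have hac := hc _ hcomm a ha
    have h3 := Cfsg.Agent.Lib.CoprimeAct.commutator_trivial_of_coprime (p := p) hP (hPAle hcomm) hac (hordA a ha)
    exact mul_inv_eq_iff_eq_mul.1 h3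
  -- the Frattini subgroup
  have hPbot : P ≠ ⊥ := by
    rintro rfl
    exact hnt (Subgroup.commutator_bot_left A)
  haveI hPnt : Nontrivial P := (Subgroup.nontrivial_iff_ne_bot P).2 hPbot
  have hΦne : frattini P ≠ ⊤ := by
    intro h
    have h2 : (⊥ : Subgroup P) = ⊤ := frattini_nongenerating (by rw [h]; simp)
    exact bot_ne_top h2
  have hmapne : ∀ K : Subgroup P, K ≠ ⊤ → K.map P.subtype < P := by
    intro K hK
    refine lt_of_le_of_ne (Subgroup.map_subtype_le K) ?_
    intro h2
    apply hK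
    rw [Subgroup.eq_top_iff']
    intro x
    have h3 : (x : X) ∈ K.map P.subtype := by rw [h2]; exact x.2
    obtain ⟨y, hy, hyx⟩ := h3
    have : y = x := Subtype.ext hyx
    rwa [← this]
  have hΦlt := hmapne _ hΦne
  have hΦB := conj_char_normalizer P B hBP (frattini P)
  have hΦC := hcent _ hΦlt hΦB
  have hDΦ : commutator P ≤ frattini P := by
    rw [commutator_def, Subgroup.commutator_le]
    intro x _ y _
    rw [commutatorElement_def]
    exact Cfsg.Agent.Lib.H6PGroup.comm_mem_frattini hP x y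
  have hCD : ∀ z (hz : z ∈ P), (∀ a ∈ A, a * z = z * a) → (⟨z, hz⟩ : P) ∈ commutator P :=
    fun z hz h2 => fixed_mem_commutator P A hP hAnP hAp h1 hz h2
  have hΦD : frattini P ≤ commutator P := by
    intro x hx
    exact hCD x.1 x.2 (hΦC _ ⟨x, hx, rfl⟩)
  have hΦeq : frattini P = commutator P := le_antisymm hΦD hDΦ
  -- the Frattini subgroup is central
  have hEle : ⁅(frattini P).map P.subtype, P⁆ ≤ (frattini P).map P.subtype := by
    rw [Subgroup.commutator_le]
    rintro _ ⟨f, hf, rfl⟩ x hx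
    have h2 : ⁅(f : X), x⁆ = ((f * ((⟨x, hx⟩ : P) * f⁻¹ * (⟨x, hx⟩ : P)⁻¹) : P) : X) := by
      simp [commutatorElement_def, mul_assoc]
    change ⁅(f : X), x⁆ ∈ _
    rw [h2]
    exact ⟨_, mul_mem hf (Subgroup.Normal.conj_mem inferInstance _ (inv_mem hf) _), rfl⟩
  have hΦP : ⁅P, (frattini P).map P.subtype⁆ = ⊥ := by
    have h2 := Cfsg.Agent.Lib.H6Basic.three_subgroups A ((frattini P).map P.subtype) P ⊥ (by
      have h3 : ⁅A, (frattini P).map P.subtype⁆ = ⊥ := by
        rw [Subgroup.commutator_comm]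
        exact hmin _ hΦlt hΦB
      rw [h3, Subgroup.commutator_bot_left]) (by
      have h3 : ⁅(frattini P).map P.subtype, P⁆ < P := lt_of_le_of_lt hEle hΦlt
      rw [hmin _ h3 (hcommB _ _ hΦB hBP)])
    rw [h1] at h2
    exact le_bot_iff.1 h2
  have hΦZ : ∀ u ∈ (frattini P).map P.subtype, ∀ x ∈ P, x * u = u * x := by
    intro u hu x hx
    rw [Subgroup.commutator_eq_bot_iff_le_centralizer] at hΦP
    exact (Subgroup.mem_centralizer_iff.1 (hΦP hx) u hu).symm
  have hΦZ' : ∀ (f : P), f ∈ frattini P → ∀ x : P, x * f = f * x := by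
    intro f hf x
    apply Subtype.ext
    exact hΦZ f ⟨f, hf, rfl⟩ x x.2
  refine ⟨h1, ?_, ?_, ?_⟩
  · -- elementary abelian or special
    by_cases hab : commutator P = ⊥
    · left
      refine ⟨⟨⟨?_⟩⟩, ?_⟩
      · intro x y
        have h2 : ⁅x, y⁆ ∈ commutator P := Subgroup.commutator_mem_commutator (mem_top x) (mem_top y)
        rw [hab, Subgroup.mem_bot] at h2
        exact commutatorElement_eq_one_iff_mul_comm.1 h2
      · intro a ha
        have h2 := Cfsg.Agent.Lib.H6PGroup.pow_mem_frattini hP (⟨a, ha⟩ : P)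
        rw [hΦeq, hab, Subgroup.mem_bot] at h2
        exact congrArg Subtype.val h2
    · right
      have hZne : Subgroup.center P ≠ ⊤ := by
        intro h2
        apply hab
        rw [commutator_eq_bot_iff_center_eq_top]
        exact h2
      have hZlt := hmapne _ hZne
      have hZB := conj_char_normalizer P B hBP (Subgroup.center P)
      have hZC := hcent _ hZlt hZB
      have hZD : Subgroup.center P ≤ commutator P := by
        intro x hx
        exact hCD x.1 x.2 (hZC _ ⟨x, hx, rfl⟩)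
      have hΦcen : frattini P ≤ Subgroup.center P := by
        intro f hf
        rw [Subgroup.mem_center_iff]
        intro x
        exact hΦZ' f hf x
      have hfin : frattini P = Subgroup.center P :=
        le_antisymm hΦcen (by rw [hΦeq]; exact hZD)
      exact ⟨hP, hfin, by rw [← hΦeq, hfin]⟩
  · -- irreducibility
    intro U hΦU hUP hUB
    by_cases hU : U = P
    · exact Or.inr hU
    left
    refine le_antisymm ?_ hΦU
    have hlt : U < P := lt_of_le_of_ne hUP hU
    intro u hu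
    have h2 := hCD u (hUP hu) (hcent U hlt hUB u hu)
    rw [← hΦeq] at h2
    exact ⟨_, h2, rfl⟩
  · -- exponent p
    intro hp2 x hx
    have hp := Fact.out (p := p.Prime)
    have hc : Cfsg.Agent.Lib.LieTrick.Class2 P := by
      intro u v w
      have h2 : ⁅u, v⁆ ∈ frattini P :=
        hDΦ (Subgroup.commutator_mem_commutator (mem_top u) (mem_top v))
      exact (hΦZ' _ h2 w).symm
    have hpowone : ∀ u v : P, ⁅u, v⁆ ^ p = 1 := by
      intro u v
      rw [← Cfsg.Agent.Lib.LieTrick.comm_pow_left hc u v p]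
      rw [commutatorElement_eq_one_iff_mul_comm]
      exact (hΦZ' _ (Cfsg.Agent.Lib.H6PGroup.pow_mem_frattini hP u) v).symm
    have hmulp : ∀ u v : P, (u * v) ^ p = u ^ p * v ^ p := by
      intro u v
      rw [Cfsg.Agent.Lib.LieTrick.mul_pow_class2 hc u v p]
      have h2 : 2 < p := lt_of_le_of_ne hp.two_le (Ne.symm hp2)
      obtain ⟨m, hm⟩ := hp.dvd_choose_self (k := 2) (by norm_num) h2
      rw [hm, pow_mul, hpowone, one_pow, mul_one]
    let π : P →* P := MonoidHom.mk' (fun u => u ^ p) hmulp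
    have hπ : ∀ u : P, π u = u ^ p := fun u => rfl
    have hle : P ≤ π.ker.map P.subtype := by
      conv_lhs => rw [← h1]
      rw [Subgroup.commutator_le]
      intro y hy a ha
      let y' : P := ⟨y, hy⟩
      let z' : P := ⟨a * y * a⁻¹, hconjP a ha y hy⟩
      refine ⟨y' * z'⁻¹, ?_, ?_⟩
      · rw [SetLike.mem_coe, MonoidHom.mem_ker, map_mul, map_inv, hπ, hπ]
        have h2 : z' ^ p = y' ^ p := by
          apply Subtype.ext
          show (a * y * a⁻¹) ^ p = y ^ p
          rw [conj_pow]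
          have h3 : a * y ^ p = y ^ p * a :=
            hΦC _ ⟨y' ^ p, Cfsg.Agent.Lib.H6PGroup.pow_mem_frattini hP y', rfl⟩ a ha
          rw [h3, mul_inv_cancel_right]
        rw [h2, mul_inv_cancel]
      · simp [y', z', commutatorElement_def]
        group
    obtain ⟨w, hw, hwx⟩ := hle hx
    have h3 : w = ⟨x, hx⟩ := Subtype.ext hwx
    rw [h3, SetLike.mem_coe, MonoidHom.mem_ker, hπ] at hw
    exact congrArg Subtype.val hw

end Cfsg.Agent.S3736
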