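import Mathlib
import Cfsg.Statements.S3737
import Cfsg.Agent.Lib.H5Basic
import Cfsg.Agent.Lib.CoprimeAB
import Cfsg.Agent.Lib.Critical
import Cfsg.Agent.Lib.H6Baer
-- import your own Cfsg.Agent.* helpers here

set_option autoImplicit false
open Cfsg

namespace Cfsg.Agent.S3737

open Subgroup Cfsg.Agent.Lib Cfsg.Agent.Lib.LieTrick
open scoped commutatorElement

section
variable {G : Type*} [Group G] [Finite G]

open Cfsg.Agent.Lib.CoprimeAB in
theorem omega_crit {p : ℕ} [Fact p.Prime] (hp : p ≠ 2) {H : Subgroup G} (hH : IsPGroup p H)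
    (C : Subgroup H) (hchar : C.Characteristic)
    (hcomm : ⁅C, (⊤ : Subgroup H)⁆ ≤ C ⊓ Subgroup.centralizer (C : Set H))
    (hC : Subgroup.centralizer (C : Set H) ≤ C) {a : G}
    (haN : a ∈ Subgroup.normalizer (H : Set G)) (hao : (orderOf a).Coprime p)
    (h1 : ∀ x ∈ C.map H.subtype, x ^ p = 1 → a * x = x * a) : ∀ x ∈ H, a * x = x * a := by
  let C' : Subgroup G := C.map H.subtype
  have hC'N : a ∈ Subgroup.normalizer (C' : Set G) := by
    rw [Subgroup.mem_normalizer_iff]
    intro x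
    constructor
    · intro hx
      exact conj_mem_of_char H C haN hx
    · intro hx
      have hainv : a⁻¹ ∈ Subgroup.normalizer (H : Set G) := Subgroup.inv_mem _ haN
      have := conj_mem_of_char H C hainv hx
      have e : a⁻¹ * (a * x * a⁻¹) * a⁻¹⁻¹ = x := by group
      rwa [e] at this
  let N : Subgroup G := Subgroup.normalizer (C' : Set G)
  let B : Subgroup N := C'.subgroupOf N
  have hBN : B.Normal := Subgroup.normal_in_normalizer
  have hBp : IsPGroup p B := by
    have h3 : IsPGroup p C' := (hH.to_subgroup C).map H.subtype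
    exact h3.of_equiv (Subgroup.subgroupOfEquivOfLe Subgroup.le_normalizer).symm
  have hc2 : ∀ b ∈ B, ∀ c ∈ B, ∀ d ∈ B, ⁅b, c⁆ * d = d * ⁅b, c⁆ := by
    intro b hb c hc d hd
    apply Subtype.ext
    obtain ⟨b', hb', hbe⟩ := hb
    obtain ⟨c', hc', hce⟩ := hc
    obtain ⟨d', hd', hde⟩ := hd
    have h4 : ⁅b', c'⁆ ∈ Subgroup.centralizer (C : Set H) :=
      (hcomm (Subgroup.commutator_mem_commutator hb' (Subgroup.mem_top c'))).2
    have h5 := Subgroup.mem_centralizer_iff.1 h4 d' hd'
    have h6 := congrArg Subtype.val h5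
    simp only [Subgroup.coe_mul, commutatorElement_def, Subgroup.coe_inv] at h6 ⊢
    have e1 : (b' : G) = (b : G) := hbe
    have e2 : (c' : G) = (c : G) := hce
    have e3 : (d' : G) = (d : G) := hde
    rw [e1, e2, e3] at h6
    exact h6.symm
  have hy := Cfsg.Agent.Lib.ZJOmega.centralizes_of_omega (X := N) hp hBN hBp hc2 (y := ⟨a, hC'N⟩)
    (by rw [Subgroup.orderOf_mk]; exact hao) (orderOf_pos _) (by
      intro x hx hxp
      apply Subtype.ext
      obtain ⟨x', hx', hxe⟩ := hx
      have e1 : (x' : G) = (x : G) := hxe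
      have h3 : (x : G) ^ p = 1 := by
        have := congrArg Subtype.val hxp
        simpa using this
      exact h1 _ ⟨x', hx', e1⟩ h3)
  have hfixC : ∀ x ∈ C, (conjOnN H haN) x = x := by
    intro x hx
    apply Subtype.ext
    rw [conjOnN_apply]
    have h3 : (x : G) ∈ N := Subgroup.le_normalizer ⟨x, hx, rfl⟩
    have h4 := hy ⟨(x : G), h3⟩ (show ((x : G)) ∈ C' from ⟨x, hx, rfl⟩)
    have h5 := congrArg Subtype.val h4
    simp only [Subgroup.coe_mul] at h5
    rw [h5]
    group
  have hone := Cfsg.Agent.Lib.Critical.aut_eq_one hH C hchar hC (conjOnN H haN)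
    (Nat.Coprime.coprime_dvd_left (orderOf_conjOnN_dvd H haN) hao) hfixC
  intro x hx
  have h3 := congrArg (fun f : MulAut H => ((f ⟨x, hx⟩ : H) : G)) hone
  simp only [conjOnN_apply] at h3
  have h4 : a * x * a⁻¹ = x := h3
  rwa [mul_inv_eq_iff_eq_mul] at h4

end

/-- Thompson's strengthening of the P × Q lemma for odd primes. Let p be an odd prime and let P, Q and G be subgroups of a finite group with P a p-group, Q of order prime to p and normalized by P, and G a p-group normalized by both P and Q. If every element of G centralized by P is centralized by Q, then Q centralizes G. -/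
theorem result {X : Type*} [Group X] [Finite X] {p : ℕ} [Fact p.Prime] (hp : p ≠ 2) (P Q G : Subgroup X) (hP : IsPGroup p P) (hQ : (Nat.card Q).Coprime p) (hPQ : P ≤ Subgroup.normalizer (Q : Set X)) (hG : IsPGroup p G) (hPG : P ≤ Subgroup.normalizer (G : Set X)) (hQG : Q ≤ Subgroup.normalizer (G : Set X)) (hC : G ⊓ Subgroup.centralizer (P : Set X) ≤ Subgroup.centralizer (Q : Set X)) : Q ≤ Subgroup.centralizer (G : Set X) := by
  classical
  have hpp : p.Prime := Fact.out
  obtain ⟨C, hchar, -, hcomm, hCc⟩ := Cfsg.Agent.Lib.Critical.exists_critical hG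
  let C' : Subgroup X := C.map G.subtype
  have hC'class : Class2 C' := by
    rintro ⟨u, u', hu', rfl⟩ ⟨v, v', hv', rfl⟩ ⟨w, w', hw', rfl⟩
    apply Subtype.ext
    have h4 : ⁅u', v'⁆ ∈ Subgroup.centralizer (C : Set G) :=
      (hcomm (Subgroup.commutator_mem_commutator hu' (Subgroup.mem_top v'))).2
    have h5 := Subgroup.mem_centralizer_iff.1 h4 w' hw'
    have h6 := congrArg Subtype.val h5
    simp only [Subgroup.coe_mul, commutatorElement_def, Subgroup.coe_inv] at h6 ⊢
    exact h6.symm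
  have hmul : ∀ x y : C', x ^ p = 1 → y ^ p = 1 → (x * y) ^ p = 1 := by
    intro x y hx hy
    rw [mul_pow_class2 hC'class x y p, hx, hy, one_mul, one_mul]
    have h2 : 2 < p := lt_of_le_of_ne hpp.two_le (Ne.symm hp)
    obtain ⟨m, hm⟩ := hpp.dvd_choose_self (k := 2) (by norm_num) h2
    have h3 : ⁅y, x⁆ ^ p = 1 := by
      rw [← comm_pow_left hC'class y x p, hy]
      exact comm_one_left hC'class x
    rw [hm, pow_mul, h3, one_pow]
  let D : Subgroup X :=
    { carrier := {x | x ∈ C' ∧ x ^ p = 1}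
      mul_mem' := by
        rintro x y ⟨hx, hxp⟩ ⟨hy, hyp⟩
        refine ⟨mul_mem hx hy, ?_⟩
        have := hmul ⟨x, hx⟩ ⟨y, hy⟩ (Subtype.ext (by simpa using hxp)) (Subtype.ext (by simpa using hyp))
        simpa using congrArg Subtype.val this
      one_mem' := ⟨one_mem _, one_pow p⟩
      inv_mem' := by
        rintro x ⟨hx, hxp⟩
        exact ⟨inv_mem hx, by rw [inv_pow, hxp, inv_one]⟩ }
  have hDC : ∀ x ∈ D, x ∈ C' := fun x hx => hx.1
  have hDclass : Class2 D := by
    rintro ⟨u, hu⟩ ⟨v, hv⟩ ⟨w, hw⟩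
    apply Subtype.ext
    have := congrArg Subtype.val (hC'class ⟨u, hu.1⟩ ⟨v, hv.1⟩ ⟨w, hw.1⟩)
    simpa [commutatorElement_def] using this
  have hDnorm : Subgroup.normalizer (G : Set X) ≤ Subgroup.normalizer (D : Set X) := by
    intro g hg
    apply Cfsg.Agent.Lib.H5Basic.mem_normalizer_of_map_conj_le
    rintro _ ⟨x, hx, rfl⟩
    refine ⟨Cfsg.Agent.Lib.CoprimeAB.conj_mem_of_char G C hg hx.1, ?_⟩
    show (g * x * g⁻¹) ^ p = 1
    rw [conj_pow, hx.2]
    simp
  have hres := Cfsg.Agent.Lib.H6Baer.baer_trick hp (D := D) (P := P) (Q := Q) (fun x hx => hx.2) hDclass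
    (hPG.trans hDnorm) (hQG.trans hDnorm) hPQ hP hQ (by
      intro x hx hxP q hq
      have h1 : x ∈ G ⊓ Subgroup.centralizer (P : Set X) := by
        obtain ⟨x', -, rfl⟩ := hx.1
        exact ⟨x'.2, Subgroup.mem_centralizer_iff.2 hxP⟩
      exact Subgroup.mem_centralizer_iff.1 (hC h1) q hq)
  intro q hq
  rw [Subgroup.mem_centralizer_iff]
  intro x hx
  have hord : (orderOf q).Coprime p := by
    have h1 : orderOf (⟨q, hq⟩ : Q) ∣ Nat.card Q := orderOf_dvd_natCard _
    rw [Subgroup.orderOf_mk] at h1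
    exact Nat.Coprime.coprime_dvd_left h1 hQ
  exact (omega_crit hp hG C hchar hcomm hCc (hQG hq) hord
    (fun y hy hyp => hres q hq y ⟨hy, hyp⟩) x hx).symm

end Cfsg.Agent.S3737
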