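import Mathlib
import Cfsg.Statements.S3740
import Cfsg.Agent.Lib.PSL2Inv
import Cfsg.Agent.Lib.GL2Odd
import Cfsg.Agent.Lib.SL23
import Cfsg.Agent.Lib.SchurZ2
import Cfsg.Agent.Lib.CoprimeSylow
import Cfsg.Agent.Lib.Quaternion
-- import your own Cfsg.Agent.* helpers here

set_option autoImplicit false
open Cfsg

namespace Cfsg.Agent.S3740


section
open Matrix Subgroup
open scoped MatrixGroups
open Cfsg.Agent.Lib.PSL2Inv Cfsg.Agent.Lib.GL2Odd

/-- Case analysis in a group with a central involution. -/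
theorem Tcases {G : Type*} [Group G] (z e f r : G) (hz : ∀ x, z * x = x * z) (hzz : z * z = 1)
    (hee : e * e = z) (hff : f * f = z) (hef : e * f = z * (f * e))
    (hsch : ∀ s, s * e = e * s → s * f = f * s → s = 1 ∨ s = z)
    (h1 : r * e = e * r ∨ r * e = z * (e * r)) (h2 : r * f = f * r ∨ r * f = z * (f * r)) :
    r = 1 ∨ r = z ∨ r = e ∨ r = z * e ∨ r = f ∨ r = z * f ∨ r = e * f ∨ r = z * (e * f) := by
  have hfe : f * e = z * (e * f) := by
    rw [hef, ← mul_assoc, hzz, one_mul]
  have hrz : ∀ x, x * z = z * x := fun x => (hz x).symm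
  have hzz' : ∀ x, z * (z * x) = x := fun x => by rw [← mul_assoc, hzz, one_mul]
  rcases h1 with h1 | h1 <;> rcases h2 with h2 | h2
  · rcases hsch r h1 h2 with h | h
    · exact Or.inl h
    · exact Or.inr (Or.inl h)
  · -- r commutes with e, anticommutes with f
    have hs1 : (r * e) * e = e * (r * e) := by
      rw [← mul_assoc, h1]
    have hs2 : (r * e) * f = f * (r * e) := by
      calc (r * e) * f = r * (e * f) := by rw [mul_assoc]
        _ = r * (z * (f * e)) := by rw [hef]
        _ = z * ((r * f) * e) := by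
          rw [← mul_assoc r z, hrz r, mul_assoc z r, mul_assoc r f e]
        _ = z * ((z * (f * r)) * e) := by rw [h2]
        _ = f * (r * e) := by
          rw [mul_assoc z, hzz', mul_assoc]
    rcases hsch _ hs1 hs2 with h | h
    · right; right; right; left
      -- r * e = 1
      have : r = z * e := by
        have h3 : (z * e) * e = 1 := by rw [mul_assoc, hee, hzz]
        exact mul_right_cancel (h.trans h3.symm)
      exact this
    · right; right; left
      have h3 : e * e = r * e := by rw [hee, h]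
      exact (mul_right_cancel h3).symm
  · -- r anticommutes with e, commutes with f
    have hs1 : (r * f) * e = e * (r * f) := by
      calc (r * f) * e = r * (f * e) := by rw [mul_assoc]
        _ = r * (z * (e * f)) := by rw [hfe]
        _ = z * ((r * e) * f) := by
          rw [← mul_assoc r z, hrz r, mul_assoc z r, mul_assoc r e f]
        _ = z * ((z * (e * r)) * f) := by rw [h1]
        _ = e * (r * f) := by
          rw [mul_assoc z, hzz', mul_assoc]
    have hs2 : (r * f) * f = f * (r * f) := by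
      rw [← mul_assoc, h2]
    rcases hsch _ hs1 hs2 with h | h
    · right; right; right; right; right; left
      have h3 : (z * f) * f = 1 := by rw [mul_assoc, hff, hzz]
      exact mul_right_cancel (h.trans h3.symm)
    · right; right; right; right; left
      have h3 : f * f = r * f := by rw [hff, h]
      exact (mul_right_cancel h3).symm
  · -- both anticommute
    have hs1 : (r * (e * f)) * e = e * (r * (e * f)) := by
      calc (r * (e * f)) * e = r * (e * (f * e)) := by simp only [mul_assoc]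
        _ = r * (e * (z * (e * f))) := by rw [hfe]
        _ = z * ((r * e) * (e * f)) := by
          rw [← mul_assoc e z, hrz e, mul_assoc z e, ← mul_assoc r z, hrz r, mul_assoc z r]
          simp only [mul_assoc]
        _ = z * ((z * (e * r)) * (e * f)) := by rw [h1]
        _ = e * (r * (e * f)) := by
          rw [mul_assoc z, hzz', mul_assoc]
    have hs2 : (r * (e * f)) * f = f * (r * (e * f)) := by
      have hfr : f * r = z * (r * f) := by rw [h2, hzz']
      calc (r * (e * f)) * f = r * (e * (f * f)) := by simp only [mul_assoc]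
        _ = r * (e * z) := by rw [hff]
        _ = z * (r * e) := by rw [hrz e, ← mul_assoc, hrz r, mul_assoc]
        _ = z * (r * (z * (z * e))) := by rw [hzz']
        _ = z * (r * (z * (e * (f * f)))) := by rw [hff, hrz e]
        _ = z * (r * ((z * (e * f)) * f)) := by simp only [mul_assoc]
        _ = z * (r * ((f * e) * f)) := by rw [hfe]
        _ = (z * (r * f)) * (e * f) := by simp only [mul_assoc]
        _ = (f * r) * (e * f) := by rw [hfr]
        _ = f * (r * (e * f)) := by rw [mul_assoc]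
    have h4 : (e * f) * (e * f) = z := by
      calc (e * f) * (e * f) = e * (f * e) * f := by simp only [mul_assoc]
        _ = e * (z * (e * f)) * f := by rw [hfe]
        _ = z * ((e * e) * (f * f)) := by
          rw [← mul_assoc e z, hrz e, mul_assoc z e]
          simp only [mul_assoc]
        _ = z := by rw [hee, hff, hzz, mul_one]
    rcases hsch _ hs1 hs2 with h | h
    · right; right; right; right; right; right; right
      have h3 : (z * (e * f)) * (e * f) = 1 := by rw [mul_assoc, h4, hzz]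
      exact mul_right_cancel (h.trans h3.symm)
    · right; right; right; right; right; right; left
      have h3 : (e * f) * (e * f) = r * (e * f) := by rw [h4, h]
      exact (mul_right_cancel h3).symm

variable {F : Type} [Field F]

theorem coe_mO : ((mO : SL(2, F)) : Matrix (Fin 2) (Fin 2) F) = -1 := by
  ext i j
  fin_cases i <;> fin_cases j <;> simp [mO, Cfsg.Agent.Lib.MkSL.mkSL]

theorem sq_sub (A : Matrix (Fin 2) (Fin 2) F) (hd : A.det = 1) :
    (A - 1) * (A - 1) = (A.trace - 2) • A := by
  have hc := cayley A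
  rw [hd, one_smul] at hc
  have : (A - 1) * (A - 1) = A * A - A - A + 1 := by noncomm_ring
  rw [this, hc, sub_smul, two_smul]
  abel

theorem trace_of_uni (g : SL(2, F)) (h : (g.1 - 1) * (g.1 - 1) = 0) : g.1.trace = 2 := by
  rw [sq_sub g.1 g.2] at h
  by_contra hne
  have h1 : g.1.trace - 2 ≠ 0 := sub_ne_zero.mpr hne
  have h2 : g.1 = 0 := (smul_eq_zero.mp h).resolve_left h1
  have h3 := g.2
  rw [h2] at h3
  simp at h3

variable {p : ℕ} [hpp : Fact p.Prime] [hch : CharP F p]

include hpp hch in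
theorem uni_of_pow (a : SL(2, F)) (k : ℕ) (h : a ^ p ^ k = 1) : (a.1 - 1) * (a.1 - 1) = 0 := by
  rw [sq_sub a.1 a.2]
  by_contra hne
  have ht : a.1.trace - 2 ≠ 0 := by
    intro h0
    apply hne
    rw [h0, zero_smul]
  haveI : CharP (Matrix (Fin 2) (Fin 2) F) p := inferInstance
  haveI : ExpChar (Matrix (Fin 2) (Fin 2) F) p := ExpChar.prime hpp.out
  have h1 : (a.1 - 1) ^ p ^ k = 0 := by
    rw [sub_pow_expChar_pow_of_commute p k (Commute.one_right _), one_pow]
    have h2 : (a ^ p ^ k).1 = 1 := by rw [h]; rfl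
    rw [Matrix.SpecialLinearGroup.coe_pow] at h2
    rw [h2, sub_self]
  have h3 : (a.1 - 1).det ≠ 0 := by
    intro h0
    have h4 := congrArg Matrix.det (sq_sub a.1 a.2)
    rw [Matrix.det_mul, h0, Matrix.det_smul, a.2] at h4
    simp at h4
    exact ht (pow_eq_zero_iff two_ne_zero |>.mp h4.symm)
  have h5 := congrArg Matrix.det h1
  rw [Matrix.det_pow, Matrix.det_zero] at h5
  exact h3 (pow_eq_zero_iff (pow_ne_zero k hpp.out.ne_zero) |>.mp h5)

include hpp hch in
theorem pow_of_uni (g : SL(2, F)) (h : (g.1 - 1) * (g.1 - 1) = 0) : g ^ p = 1 := by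
  have h2 := unipotent_pow g.1 h p
  rw [CharP.cast_eq_zero F p, zero_smul, add_zero] at h2
  apply Subtype.ext
  rw [Matrix.SpecialLinearGroup.coe_pow, h2]
  rfl

include hpp hch in
theorem pow2_of (y : SL(2, F)) (h : (y.1 * y.1 - 1) * (y.1 * y.1 - 1) = 0) : y ^ (2 * p) = 1 := by
  have h1 : (y * y) ^ p = 1 := pow_of_uni (y * y) (by
    rw [Matrix.SpecialLinearGroup.coe_mul]; exact h)
  rw [pow_mul, pow_two]; exact h1

theorem sq_unip_of_trace (y : SL(2, F)) (ht : y.1.trace ^ 2 = 4) :
    (y.1 * y.1 - 1) * (y.1 * y.1 - 1) = 0 := by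
  set Y := y.1 with hY
  set t := Y.trace with htd
  have hc : Y * Y = t • Y - 1 := by
    have := cayley Y
    rw [y.2, one_smul] at this
    exact this
  have e1 : Y * Y - 1 = t • Y - (2 : F) • 1 := by
    rw [hc, two_smul]; abel
  rw [e1]
  have e2 : (t • Y - (2 : F) • (1 : Matrix (Fin 2) (Fin 2) F)) * (t • Y - (2 : F) • 1) =
      (t * t) • (Y * Y) - (4 * t) • Y + (4 : F) • 1 := by
    simp only [sub_mul, mul_sub, smul_mul_assoc, mul_smul_comm, smul_smul, mul_one, one_mul]
    module
  rw [e2, hc, show t * t = 4 by rw [← pow_two]; exact ht]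
  module

include hpp hch in
theorem coprime_sq (y : SL(2, F)) (h : y ^ (2 * p) = 1) (hy : (orderOf y).Coprime p) : y * y = 1 := by
  have h1 := orderOf_dvd_of_pow_eq_one h
  have h2 : orderOf y ∣ 2 := hy.dvd_of_dvd_mul_right h1
  rw [← pow_two]
  exact orderOf_dvd_iff_pow_eq_one.mp h2

include hpp hch in
theorem cen (a y : SL(2, F)) (ha : (a.1 - 1) * (a.1 - 1) = 0) (ha1 : a ≠ 1) (hc : y * a = a * y) :
    y ^ (2 * p) = 1 := by
  apply pow2_of
  have ht := trace_of_uni a ha
  have hns : ¬ ∃ c : F, a.1 = c • 1 := by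
    rintro ⟨c, hc'⟩
    apply ha1
    have h1 : (a.1 - 1) = (c - 1) • (1 : Matrix (Fin 2) (Fin 2) F) := by rw [hc', sub_smul, one_smul]
    rw [h1] at ha
    simp only [smul_mul_assoc, mul_smul_comm, mul_one, smul_smul] at ha
    have h2 : (c - 1) * (c - 1) = 0 := by
      by_contra h3
      have := (smul_eq_zero.mp ha).resolve_left h3
      exact one_ne_zero this
    have h3 : c - 1 = 0 := mul_self_eq_zero.mp h2
    have h4 : c = 1 := sub_eq_zero.mp h3
    apply Subtype.ext
    rw [hc', h4, one_smul]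
    rfl
  obtain ⟨α, β, hy⟩ := commutant a.1 y.1 hns (by
    have := congrArg Subtype.val hc
    simpa using this)
  have hd := det_add_smul a.1 α β
  rw [← hy, y.2, a.2, ht] at hd
  set N := a.1 - 1 with hN
  have haN : a.1 = 1 + N := by rw [hN]; abel
  have hyN : y.1 = (α + β) • 1 + β • N := by
    rw [hy, haN, smul_add, add_smul, add_assoc]
  have hl : (α + β) ^ 2 = 1 := by linear_combination -hd
  have hYY : y.1 * y.1 - 1 = (2 * (α + β) * β) • N := by
    have e : ((α + β) • (1 : Matrix (Fin 2) (Fin 2) F) + β • N) * ((α + β) • 1 + β • N) =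
        ((α + β) ^ 2) • 1 + (2 * (α + β) * β) • N + (β * β) • (N * N) := by
      simp only [add_mul, mul_add, smul_mul_assoc, mul_smul_comm, mul_one, one_mul, smul_add, smul_smul]
      module
    rw [hyN, e, ha, hl, one_smul, smul_zero, add_zero]
    abel
  rw [hYY, smul_mul_assoc, mul_smul_comm, ha, smul_zero, smul_zero]

include hpp hch in
theorem two_ne' (hp : p ≠ 2) : (2 : F) ≠ 0 := by
  intro h
  have h1 : ((2 : ℕ) : F) = 0 := by exact_mod_cast h
  have h2 := (CharP.cast_eq_zero_iff F p 2).1 h1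
  exact hp ((Nat.prime_dvd_prime_iff_eq hpp.out Nat.prime_two).1 h2)

theorem comm_of_pow {G : Type*} [Group G] (a y : G) {p k : ℕ} [Fact p.Prime]
    (hap : a ^ p = 1) (ha1 : a ≠ 1) (hk : k.Coprime p) (h : Commute (a ^ k) y) : Commute a y := by
  have ho : orderOf a = p := orderOf_eq_prime hap ha1
  obtain ⟨m, hm⟩ := exists_pow_eq_self_of_coprime (x := a) (n := k) (by rw [ho]; exact hk)
  rw [← hm]
  exact h.pow_left m

include hpp hch in
theorem main_E (hp : p ≠ 2) (a y : SL(2, F)) (ha : (a.1 - 1) * (a.1 - 1) = 0) (ha1 : a ≠ 1)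
    (hy : (orderOf y).Coprime p) (hc : Commute (a * y * a⁻¹) y) : y = 1 ∨ y = mO := by
  have h2F : (2 : F) ≠ 0 := two_ne' hp
  by_contra hne
  push_neg at hne
  have hy2 : y * y ≠ 1 := fun h => (sq_eq_one h2F h).elim hne.1 hne.2
  have ht2 : y.1.trace ^ 2 ≠ 4 := fun h =>
    hy2 (coprime_sq y (pow2_of y (sq_unip_of_trace y h)) hy)
  have hns : ¬ ∃ c : F, y.1 = c • 1 := by
    rintro ⟨c, hc'⟩
    apply ht2
    have h1 : c ^ 2 = 1 := by
      have := y.2
      rw [hc', Matrix.det_smul, Matrix.det_one, mul_one, Fintype.card_fin] at this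
      exact this
    rw [hc', Matrix.trace_smul, Matrix.trace_one, Fintype.card_fin, smul_eq_mul]
    push_cast
    linear_combination 4 * h1
  set w := a * y * a⁻¹ with hw
  have hwc : w.1 * y.1 = y.1 * w.1 := by
    have := congrArg Subtype.val hc.eq
    simpa using this
  obtain ⟨α, β, hw2⟩ := commutant y.1 w.1 hns hwc
  have htr : w.1.trace = y.1.trace := by
    rw [hw, Matrix.SpecialLinearGroup.coe_mul, Matrix.SpecialLinearGroup.coe_mul, Matrix.trace_mul_comm,
      ← mul_assoc, ← Matrix.SpecialLinearGroup.coe_mul, inv_mul_cancel]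
    simp
  have hap : a ^ p = 1 := pow_of_uni a ha
  have hcomm : Commute a y := by
    rcases eq_or_inv_of_same_algebra y.1 w.1 α β y.2 w.2 htr ht2 h2F hw2 with h | h
    · have h1 : w = y := Subtype.ext h
      show a * y = y * a
      calc a * y = (a * y * a⁻¹) * a := by group
        _ = y * a := by rw [← hw, h1]
    · have h1 : w * y = 1 := Subtype.ext (by simpa using h)
      have h3 : Commute (a ^ 2) y := by
        show a ^ 2 * y = y * a ^ 2
        have h4 : a * y * a⁻¹ = y⁻¹ := eq_inv_of_mul_eq_one_left h1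
        have h5 : a * y⁻¹ * a⁻¹ = y := by
          have : a * y⁻¹ * a⁻¹ = (a * y * a⁻¹)⁻¹ := by group
          rw [this, h4, inv_inv]
        rw [pow_two]
        calc a * a * y = (a * (a * y * a⁻¹) * a⁻¹) * (a * a) := by group
          _ = (a * y⁻¹ * a⁻¹) * (a * a) := by rw [h4]
          _ = y * (a * a) := by rw [h5]
      exact comm_of_pow a y hap ha1 (by
        rw [Nat.coprime_primes Nat.prime_two hpp.out]; exact fun h => hp h.symm) h3
  have := cen a y ha ha1 hcomm.symm.eq
  exact hy2 (coprime_sq y this hy)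


section rest
variable [Finite F]

instance finSL : Finite (SL(2, F)) :=
  Finite.of_injective (fun g => (g : Matrix (Fin 2) (Fin 2) F)) Subtype.val_injective

include hpp hch in
/-- `R` is a `2`-group. -/
theorem two_group (hp : p ≠ 2) (a : SL(2, F)) (ha : (a.1 - 1) * (a.1 - 1) = 0) (ha1 : a ≠ 1)
    (R : Subgroup (SL(2, F))) (hR : (Nat.card R).Coprime p)
    (haR : a ∈ Subgroup.normalizer (R : Set (SL(2, F)))) : IsPGroup 2 R := by
  classical
  have hap : a ^ p = 1 := pow_of_uni a ha
  have hord : orderOf a = p := orderOf_eq_prime hap ha1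
  have hA : IsPGroup p (zpowers a) := by
    rw [IsPGroup.iff_card]
    exact ⟨1, by rw [Nat.card_zpowers, hord, pow_one]⟩
  have hL : ¬ p ∣ Nat.card R := fun h => by
    have := Nat.Coprime.eq_one_of_dvd hR.symm h
    exact hpp.out.one_lt.ne' this
  have hnorm : ∀ c ∈ zpowers a, ∀ l ∈ R, c * l * c⁻¹ ∈ R := by
    intro c hc l hl
    have h1 : zpowers a ≤ Subgroup.normalizer (R : Set (SL(2, F))) := by
      rwa [zpowers_le]
    exact (Subgroup.mem_normalizer_iff.mp (h1 hc) l).mp hl
  have hprime : ∀ q : ℕ, q.Prime → q ∣ Nat.card R → q = 2 := by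
    intro q hq hd
    by_contra hq2
    haveI : Fact q.Prime := ⟨hq⟩
    obtain ⟨S, hS⟩ := Cfsg.Agent.Lib.CoprimeSylow.exists_invariant_sylow (r := q) (zpowers a) R hA hL hnorm
    have hSne : (S : Subgroup R) ≠ ⊥ := by
      intro h0
      have h1 := S.not_dvd_index
      rw [h0, Subgroup.index_bot] at h1
      exact h1 hd
    haveI hnt : Nontrivial (S : Subgroup R) := Subgroup.nontrivial_iff_ne_bot _ |>.mpr hSne
    haveI := IsPGroup.center_nontrivial (S.isPGroup' : IsPGroup q (S : Subgroup R))
    obtain ⟨c, hc⟩ := exists_ne (1 : Subgroup.center (S : Subgroup R))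
    set y : SL(2, F) := (((c : (S : Subgroup R)) : R) : SL(2, F)) with hy
    have hc1 : y ≠ 1 := by
      intro h
      apply hc
      apply Subtype.ext
      apply Subtype.ext
      exact Subtype.ext h
    have hyR : y ∈ R := ((c : (S : Subgroup R)) : R).2
    have hordy : (orderOf y).Coprime p := by
      have h1 : orderOf y ∣ Nat.card R := by
        have h0 : orderOf y = orderOf ((c : (S : Subgroup R)) : R) := Subgroup.orderOf_coe _
        rw [h0]
        exact orderOf_dvd_natCard _
      exact Nat.Coprime.coprime_dvd_left h1 hR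
    have hconj : a * y * a⁻¹ ∈ R := hnorm a (mem_zpowers a) y hyR
    have hS2 := hS a (mem_zpowers a) ((c : (S : Subgroup R)) : R) (c : (S : Subgroup R)).2 hconj
    have hcomm : Commute (a * y * a⁻¹) y := by
      have h1 := (Subgroup.mem_center_iff.mp c.2) ⟨_, hS2⟩
      have h2 := congrArg (fun t : (S : Subgroup R) => ((t : R) : SL(2, F))) h1
      exact h2
    rcases main_E hp a y ha ha1 hordy hcomm with h | h
    · exact hc1 h
    · obtain ⟨k, hk⟩ := (S.isPGroup' : IsPGroup q (S : Subgroup R)) (c : (S : Subgroup R))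
      have h3 : y ^ q ^ k = 1 := by
        have := congrArg (fun t : (S : Subgroup R) => ((t : R) : SL(2, F))) hk
        exact this
      have h4 : y * y = 1 := by rw [h]; exact mO_mul_mO
      have h5 : orderOf y ∣ 2 := by
        apply orderOf_dvd_of_pow_eq_one; rw [pow_two]; exact h4
      have h6 : orderOf y ∣ q ^ k := orderOf_dvd_of_pow_eq_one h3
      have h7 : Nat.Coprime 2 (q ^ k) := by
        apply Nat.Coprime.pow_right
        rw [Nat.coprime_primes Nat.prime_two hq]
        exact fun h => hq2 h.symm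
      have h8 : orderOf y = 1 := Nat.eq_one_of_dvd_coprimes h7 h5 h6
      exact hc1 (orderOf_eq_one_iff.mp h8)
  have hcard : Nat.card R ≠ 0 := Nat.card_pos.ne'
  exact IsPGroup.of_card (Nat.eq_prime_pow_of_unique_prime_dvd hcard (fun {d} hd hdv => hprime d hd hdv))


theorem bab (A B : Matrix (Fin 2) (Fin 2) F) (hd : B.det = 0) : B * A * B = (A * B).trace • B := by
  rw [Matrix.det_fin_two] at hd
  ext i j
  fin_cases i <;> fin_cases j <;>
    simp [Matrix.mul_apply, Fin.sum_univ_two, Matrix.trace_fin_two] <;>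
    first
    | linear_combination (A 1 1) * hd
    | linear_combination (-A 1 1) * hd
    | linear_combination (A 0 1) * hd
    | linear_combination (-A 0 1) * hd
    | linear_combination (A 1 0) * hd
    | linear_combination (-A 1 0) * hd
    | linear_combination (A 0 0) * hd
    | linear_combination (-A 0 0) * hd

/-- `T` in `SL₂(3)` -/
def T3 : Cfsg.Agent.Lib.SL23.G3 := ⟨!![1, 1; 0, 1], by decide⟩
/-- `U` in `SL₂(3)` -/
def U3 : Cfsg.Agent.Lib.SL23.G3 := ⟨!![1, 0; 2, 1], by decide⟩

theorem gen3 : ∀ g : Cfsg.Agent.Lib.SL23.G3, ∃ i j k l m : Fin 3,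
    g = T3 ^ (i : ℕ) * U3 ^ (j : ℕ) * T3 ^ (k : ℕ) * U3 ^ (l : ℕ) * T3 ^ (m : ℕ) := by
  decide +kernel

end rest

section main_res
theorem main_res (F : Type) [Field F] [Fintype F] {p : ℕ} [Fact p.Prime] [CharP F p] (hp : p ≠ 2) (a : Matrix.SpecialLinearGroup (Fin 2) F) (ha : IsPGroup p ↥(Subgroup.zpowers a)) (R : Subgroup (Matrix.SpecialLinearGroup (Fin 2) F)) (hR : (Nat.card R).Coprime p) (haR : a ∈ Subgroup.normalizer (R : Set (Matrix.SpecialLinearGroup (Fin 2) F))) (hnt : ⁅R, Subgroup.zpowers a⁆ ≠ ⊥) : p = 3 ∧ Nonempty (↥R ≃* QuaternionGroup 2) ∧ Nonempty (↥(R ⊔ Subgroup.zpowers a) ≃* Matrix.SpecialLinearGroup (Fin 2) (ZMod 3)) := by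
  classical
  haveI : Finite F := inferInstance
  have h2F : (2 : F) ≠ 0 := two_ne' hp
  have hO1 : (mO : SL(2, F)) ≠ 1 := mO_ne_one h2F
  obtain ⟨k, hk⟩ := ha ⟨a, Subgroup.mem_zpowers a⟩
  have hk' : a ^ p ^ k = 1 := congrArg Subtype.val hk
  have hu := uni_of_pow a k hk'
  have ha1 : a ≠ 1 := by
    rintro rfl
    apply hnt
    rw [Subgroup.zpowers_one_eq_bot, Subgroup.commutator_bot_right]
  have hap : a ^ p = 1 := pow_of_uni a hu
  have hord : orderOf a = p := orderOf_eq_prime hap ha1
  have h2G := two_group hp a hu ha1 R hR haR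
  have hnorm : ∀ l ∈ R, a * l * a⁻¹ ∈ R := fun l hl => (Subgroup.mem_normalizer_iff.mp haR l).mp hl
  have hnorm' : ∀ l ∈ R, a⁻¹ * l * a ∈ R := fun l hl => by
    apply (Subgroup.mem_normalizer_iff.mp haR _).mpr
    have : a * (a⁻¹ * l * a) * a⁻¹ = l := by group
    rwa [this]
  have hordR : ∀ y ∈ R, (orderOf y).Coprime p := by
    intro y hy
    have h0 : orderOf y = orderOf (⟨y, hy⟩ : R) := (Subgroup.orderOf_mk y hy).symm
    rw [h0]
    exact Nat.Coprime.coprime_dvd_left (orderOf_dvd_natCard _) hR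
  have hE : ∀ y ∈ R, Commute (a * y * a⁻¹) y → y = 1 ∨ y = mO := fun y hy h =>
    main_E hp a y hu ha1 (hordR y hy) h
  -- a non-central element
  obtain ⟨r0, hr0R, hr0⟩ : ∃ r ∈ R, ¬ Commute r a := by
    by_contra hcon
    push_neg at hcon
    apply hnt
    rw [Subgroup.commutator_eq_bot_iff_le_centralizer]
    intro r hr
    rw [Subgroup.mem_centralizer_iff]
    intro u hu'
    obtain ⟨n, rfl⟩ := Subgroup.mem_zpowers_iff.mp hu'
    exact ((hcon r hr).zpow_right n).symm.eq
  have hr01 : r0 ≠ 1 := by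
    rintro rfl
    exact hr0 (Commute.one_left a)
  have hr0O : r0 ≠ mO := by
    rintro rfl
    exact hr0 (mO_central a)
  -- mO lies in R
  haveI : Fact (Nat.Prime 2) := ⟨Nat.prime_two⟩
  have h2dvd : 2 ∣ Nat.card R := by
    obtain ⟨n, hn⟩ := IsPGroup.iff_card.mp h2G
    rw [hn]
    apply dvd_pow_self
    rintro rfl
    rw [pow_zero] at hn
    have := (Subgroup.eq_bot_of_card_eq R hn)
    apply hr01
    rw [this] at hr0R
    exact hr0R
  have hmOR : (mO : SL(2, F)) ∈ R := by
    obtain ⟨x, hx⟩ := exists_prime_orderOf_dvd_card' 2 h2dvd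
    have hx1 : x * x = 1 := by
      have := pow_orderOf_eq_one x
      rw [hx, pow_two] at this
      exact this
    have hx2 : (x : SL(2, F)) * x = 1 := congrArg Subtype.val hx1
    rcases sq_eq_one h2F hx2 with h | h
    · exfalso
      have : x = 1 := Subtype.ext h
      rw [this, orderOf_one] at hx
      omega
    · rw [← h]; exact x.2
  -- the central subgroup
  let Zs : Subgroup R :=
    { carrier := {x | (x : SL(2, F)) = 1 ∨ (x : SL(2, F)) = mO}
      mul_mem' := by
        rintro x y (hx | hx) (hy | hy) <;> simp only [Set.mem_setOf_eq, Subgroup.coe_mul, hx, hy, one_mul, mul_one, mO_mul_mO, true_or, or_true]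
      one_mem' := Or.inl rfl
      inv_mem' := by
        rintro x (hx | hx)
        · left; simp [hx]
        · right
          simp only [InvMemClass.coe_inv, hx]
          exact inv_eq_of_mul_eq_one_left mO_mul_mO }
  have hZs : ∀ x : R, x ∈ Zs ↔ (x : SL(2, F)) = 1 ∨ (x : SL(2, F)) = mO := fun x => Iff.rfl
  haveI hZn : Zs.Normal := by
    constructor
    rintro x (hx | hx) g
    · left
      simp [hx]
    · right
      simp only [Subgroup.coe_mul, InvMemClass.coe_inv, hx]
      rw [← mO_central, mul_assoc, mul_inv_cancel, mul_one]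
  have h2Q : IsPGroup 2 (R ⧸ Zs) := IsPGroup.to_quotient h2G Zs
  have hr0Z : (⟨r0, hr0R⟩ : R) ∉ Zs := by
    rintro (h | h)
    · exact hr01 h
    · exact hr0O h
  haveI hQnt : Nontrivial (R ⧸ Zs) := by
    refine ⟨⟨(⟨r0, hr0R⟩ : R), 1, ?_⟩⟩
    intro h
    exact hr0Z ((QuotientGroup.eq_one_iff _).mp h)
  haveI hcnt := IsPGroup.center_nontrivial h2Q
  have h2C : IsPGroup 2 (Subgroup.center (R ⧸ Zs)) := h2Q.to_subgroup _
  have h2dC : 2 ∣ Nat.card (Subgroup.center (R ⧸ Zs)) := by
    obtain ⟨n, hn⟩ := IsPGroup.iff_card.mp h2C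
    rw [hn]
    apply dvd_pow_self
    rintro rfl
    rw [pow_zero] at hn
    exact Finite.one_lt_card.ne' hn
  obtain ⟨c, hc⟩ := exists_prime_orderOf_dvd_card' 2 h2dC
  obtain ⟨e₀, he₀⟩ := QuotientGroup.mk_surjective (c : R ⧸ Zs)
  have hc1 : (c : R ⧸ Zs) ≠ 1 := by
    intro h
    have : c = 1 := Subtype.ext h
    rw [this, orderOf_one] at hc
    omega
  have hc2 : (c : R ⧸ Zs) * c = 1 := by
    have h3 : c * c = 1 := by
      have := pow_orderOf_eq_one c
      rw [hc, pow_two] at this
      exact this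
    exact congrArg Subtype.val h3
  have hZ1 : e₀ ∉ Zs := by
    intro h
    apply hc1
    rw [← he₀]
    exact (QuotientGroup.eq_one_iff _).mpr h
  have hZ2 : e₀ * e₀ ∈ Zs := by
    rw [← QuotientGroup.eq_one_iff, QuotientGroup.mk_mul, he₀]
    exact hc2
  have hZ3 : ∀ r : R, r * e₀ * r⁻¹ * e₀⁻¹ ∈ Zs := by
    intro r
    rw [← QuotientGroup.eq_one_iff, QuotientGroup.mk_mul, QuotientGroup.mk_mul, QuotientGroup.mk_mul,
      QuotientGroup.mk_inv, QuotientGroup.mk_inv, he₀]
    have h3 := Subgroup.mem_center_iff.mp c.2 (r : R ⧸ Zs)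
    rw [h3, mul_inv_cancel_right, mul_inv_cancel]
  set e : SL(2, F) := (e₀ : SL(2, F)) with he
  have heR : e ∈ R := e₀.2
  have he2 : e * e = mO := by
    rcases (hZs _).mp hZ2 with h | h
    · exfalso
      have h3 : e * e = 1 := h
      rcases sq_eq_one h2F h3 with h4 | h4
      · exact hZ1 (Or.inl h4)
      · exact hZ1 (Or.inr h4)
    · exact h
  have hER : ∀ r ∈ R, r * e = e * r ∨ r * e = mO * (e * r) := by
    intro r hr
    rcases (hZs _).mp (hZ3 ⟨r, hr⟩) with h | h
    · left
      have h3 : r * e * r⁻¹ * e⁻¹ = 1 := h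
      calc r * e = (r * e * r⁻¹ * e⁻¹) * (e * r) := by group
        _ = e * r := by rw [h3, one_mul]
    · right
      have h3 : r * e * r⁻¹ * e⁻¹ = mO := h
      calc r * e = (r * e * r⁻¹ * e⁻¹) * (e * r) := by group
        _ = mO * (e * r) := by rw [h3]
  clear_value e
  have hae : a * mO * a⁻¹ = mO := by
    rw [← mO_central, mul_assoc, mul_inv_cancel, mul_one]
  have haemul : ∀ x y : SL(2, F), a * (x * y) * a⁻¹ = (a * x * a⁻¹) * (a * y * a⁻¹) := by
    intro x y; group
  set f : SL(2, F) := a * e * a⁻¹ with hf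
  clear_value f
  have hfR : f ∈ R := by rw [hf]; exact hnorm e heR
  have hf2 : f * f = mO := by
    rw [hf, ← haemul, he2, hae]
  have hFR : ∀ r ∈ R, r * f = f * r ∨ r * f = mO * (f * r) := by
    intro r hr
    have hr1 := hnorm' r hr
    have e1 : a * (a⁻¹ * r * a) * a⁻¹ = r := by group
    rcases hER _ hr1 with h | h
    · left
      calc r * f = (a * (a⁻¹ * r * a) * a⁻¹) * (a * e * a⁻¹) := by rw [e1, hf]
        _ = a * ((a⁻¹ * r * a) * e) * a⁻¹ := (haemul _ _).symm
        _ = a * (e * (a⁻¹ * r * a)) * a⁻¹ := by rw [h]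
        _ = (a * e * a⁻¹) * (a * (a⁻¹ * r * a) * a⁻¹) := haemul _ _
        _ = f * r := by rw [e1, hf]
    · right
      calc r * f = (a * (a⁻¹ * r * a) * a⁻¹) * (a * e * a⁻¹) := by rw [e1, hf]
        _ = a * ((a⁻¹ * r * a) * e) * a⁻¹ := (haemul _ _).symm
        _ = a * (mO * (e * (a⁻¹ * r * a))) * a⁻¹ := by rw [h]
        _ = (a * mO * a⁻¹) * ((a * e * a⁻¹) * (a * (a⁻¹ * r * a) * a⁻¹)) := by
          rw [haemul, haemul]
        _ = mO * (f * r) := by rw [e1, hae, hf]
  have hene : ∀ x : SL(2, F), x * x = mO → x ≠ 1 ∧ x ≠ mO := by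
    intro x hx
    constructor
    · rintro rfl
      rw [one_mul] at hx
      exact hO1 hx.symm
    · rintro rfl
      rw [mO_mul_mO] at hx
      exact hO1 hx.symm
  have hef : e * f = mO * (f * e) := by
    rcases hFR e heR with h | h
    · exfalso
      rcases hE e heR (by
        show (a * e * a⁻¹) * e = e * (a * e * a⁻¹)
        rw [← hf]; exact h.symm) with h3 | h3
      · exact (hene e he2).1 h3
      · exact (hene e he2).2 h3
    · exact h
  have hsch : ∀ s : SL(2, F), s * e = e * s → s * f = f * s → s = 1 ∨ s = mO := by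
    intro s h1 h3
    have hmat : e.1 * f.1 = - (f.1 * e.1) := by
      have := congrArg Subtype.val hef
      simp only [Matrix.SpecialLinearGroup.coe_mul, coe_mO] at this
      rw [this]
      simp
    have hns : ¬ ∃ c : F, e.1 = c • 1 := by
      rintro ⟨c', hc'⟩
      have h5 : e * f = f * e := by
        apply Subtype.ext
        rw [Matrix.SpecialLinearGroup.coe_mul, Matrix.SpecialLinearGroup.coe_mul, hc']
        simp
      rw [h5] at hef
      apply hO1
      have := mul_right_cancel (b := f * e) (a := 1) (c := mO) (by rw [one_mul]; exact hef)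
      exact this.symm
    obtain ⟨α, β, hs⟩ := commutant e.1 s.1 hns (by
      have := congrArg Subtype.val h1
      simpa using this)
    have hfe0 : f.1 * e.1 ≠ 0 := by
      intro h0
      have h5 := (f * e).2
      rw [Matrix.SpecialLinearGroup.coe_mul, h0, Matrix.det_zero] at h5
      exact zero_ne_one h5
    have hβ : β = 0 := by
      have h5 := congrArg Subtype.val h3
      rw [Matrix.SpecialLinearGroup.coe_mul, Matrix.SpecialLinearGroup.coe_mul, hs] at h5
      simp only [add_mul, mul_add, smul_mul_assoc, mul_smul_comm, one_mul, mul_one, hmat] at h5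
      have h6 : (2 * β) • (f.1 * e.1) = 0 := by
        have h7 : α • f.1 + -(β • (f.1 * e.1)) = α • f.1 + β • (f.1 * e.1) := by
          rw [← h5]; simp
        have h8 : β • (f.1 * e.1) + β • (f.1 * e.1) = 0 := by
          have h9 := add_left_cancel h7
          have := congrArg (fun t => β • (f.1 * e.1) + t) h9
          simpa using this.symm
        rw [two_mul, add_smul]; exact h8
      have h7 := (smul_eq_zero.mp h6).resolve_right hfe0
      exact (mul_eq_zero.mp h7).resolve_left h2F
    have hsq : s * s = 1 := by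
      rw [hβ, zero_smul, add_zero] at hs
      have h5 := s.2
      rw [hs, Matrix.det_smul, Matrix.det_one, mul_one, Fintype.card_fin] at h5
      apply Subtype.ext
      rw [Matrix.SpecialLinearGroup.coe_mul, hs, smul_mul_assoc, one_mul, smul_smul, ← pow_two, h5, one_smul]
      rfl
    exact sq_eq_one h2F hsq
  have hT : ∀ r ∈ R, r = 1 ∨ r = mO ∨ r = e ∨ r = mO * e ∨ r = f ∨ r = mO * f ∨ r = e * f ∨ r = mO * (e * f) :=
    fun r hr => Tcases mO e f r mO_central mO_mul_mO he2 hf2 hef hsch (hER r hr) (hFR r hr)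
  have hmsq : ∀ x : SL(2, F), x * x = mO → (mO * x) * (mO * x) = mO := by
    intro x hx
    calc (mO * x) * (mO * x) = (mO * mO) * (x * x) := by
          rw [mul_assoc, ← mul_assoc x, ← mO_central x, mul_assoc, mul_assoc]
      _ = mO := by rw [mO_mul_mO, one_mul, hx]
  have hfe : f * e = mO * (e * f) := by
    rw [hef, ← mul_assoc, mO_mul_mO, one_mul]
  have hgg : (e * f) * (e * f) = mO := by
    calc (e * f) * (e * f) = e * (f * e) * f := by simp only [mul_assoc]
      _ = e * (mO * (e * f)) * f := by rw [hfe]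
      _ = mO * ((e * e) * (f * f)) := by
        rw [← mul_assoc e mO, ← mO_central e, mul_assoc mO e]
        simp only [mul_assoc]
      _ = mO := by rw [he2, hf2, mO_mul_mO, mul_one]
  have hnoncomm : ¬ Commute a e := by
    intro h
    have h1 := cen a e hu ha1 h.symm.eq
    have h3 := coprime_sq e h1 (hordR e heR)
    exact hO1 (he2.symm.trans h3)
  -- p = 3
  have hp3 : p = 3 := by
    by_contra h3
    have hp5 : Nat.Coprime 3 p := (Nat.coprime_primes Nat.prime_three Fact.out).mpr (fun h => h3 h.symm)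
    have hp4 : Nat.Coprime 4 p := by
      have : Nat.Coprime (2 ^ 2) p :=
        Nat.Coprime.pow_left 2 ((Nat.coprime_primes Nat.prime_two Fact.out).mpr (fun h => hp h.symm))
      simpa using this
    set g₁ := a * f * a⁻¹ with hg₁
    clear_value g₁
    have hcf : ¬ Commute g₁ f := by
      intro h
      rcases hE f hfR (by rw [← hg₁]; exact h) with h5 | h5
      · exact (hene f hf2).1 h5
      · exact (hene f hf2).2 h5
    have hg₁R : g₁ ∈ R := by rw [hg₁]; exact hnorm f hfR
    have hg1sq : g₁ * g₁ = mO := by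
      rw [hg₁, ← haemul, hf2, hae]
    have hg3 : a ^ 3 * e = (a * g₁ * a⁻¹) * a ^ 3 := by
      rw [hg₁, hf, pow_succ, pow_two]; group
    have hg2 : a ^ 2 * e = g₁ * a ^ 2 := by
      rw [hg₁, hf, pow_two]; group
    have hp2c : Nat.Coprime 2 p := (Nat.coprime_primes Nat.prime_two Fact.out).mpr (fun h => hp h.symm)
    have hfef : f * (e * f) = e := by
      calc f * (e * f) = (f * e) * f := by rw [mul_assoc]
        _ = (mO * (e * f)) * f := by rw [hfe]
        _ = mO * (e * (f * f)) := by simp only [mul_assoc]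
        _ = mO * (e * mO) := by rw [hf2]
        _ = e := by rw [← mO_central e, ← mul_assoc, mO_mul_mO, one_mul]
    rcases hT g₁ hg₁R with h | h | h | h | h | h | h | h
    · exact (hene g₁ hg1sq).1 h
    · exact (hene g₁ hg1sq).2 h
    · -- g₁ = e
      apply hnoncomm
      refine comm_of_pow a e hap ha1 hp2c ?_
      show a ^ 2 * e = e * a ^ 2
      rw [hg2, h]
    · -- g₁ = mO e
      apply hnoncomm
      refine comm_of_pow a e hap ha1 hp4 ?_
      show a ^ 4 * e = e * a ^ 4
      calc a ^ 4 * e = a ^ 2 * (a ^ 2 * e) := by rw [← mul_assoc, ← pow_add]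
        _ = a ^ 2 * ((mO * e) * a ^ 2) := by rw [hg2, h]
        _ = mO * ((a ^ 2 * e) * a ^ 2) := by
          rw [← mul_assoc (a ^ 2), ← mul_assoc (a ^ 2), ← (mO_central (a ^ 2))]
          simp only [mul_assoc]
        _ = mO * (((mO * e) * a ^ 2) * a ^ 2) := by rw [hg2, h]
        _ = (mO * mO) * e * (a ^ 2 * a ^ 2) := by simp only [mul_assoc]
        _ = e * a ^ 4 := by rw [mO_mul_mO, one_mul, ← pow_add]
    · exact hcf (by rw [h])
    · exact hcf (by
        rw [h]
        show (mO * f) * f = f * (mO * f)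
        rw [mul_assoc, ← mul_assoc f, ← mO_central f, mul_assoc])
    · -- g₁ = e f
      apply hnoncomm
      refine comm_of_pow a e hap ha1 hp5 ?_
      show a ^ 3 * e = e * a ^ 3
      rw [hg3, h, haemul, ← hf, ← hg₁, h, hfef]
    · -- g₁ = mO e f
      apply hnoncomm
      refine comm_of_pow a e hap ha1 hp5 ?_
      show a ^ 3 * e = e * a ^ 3
      have e1 : a * g₁ * a⁻¹ = e := by
        rw [h, haemul, hae, haemul, ← hf, ← hg₁, h]
        calc mO * (f * (mO * (e * f))) = (mO * mO) * (f * (e * f)) := by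
              rw [← mul_assoc f, ← mO_central f, mul_assoc mO f]
              simp only [mul_assoc]
          _ = e := by rw [mO_mul_mO, one_mul, hfef]
      rw [hg3, e1]
  subst hp3
  refine ⟨rfl, ?_⟩
  -- the quaternion group
  let x : R := ⟨e, heR⟩
  let s : R := ⟨f, hfR⟩
  have hx2 : x ^ 2 = ⟨mO, hmOR⟩ := by
    apply Subtype.ext
    show e ^ 2 = mO
    rw [pow_two, he2]
  have hxord : orderOf x = 2 * 2 := by
    have h3 : orderOf x = 2 ^ (1 + 1) := by
      apply orderOf_eq_prime_pow
      · rw [pow_one, hx2]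
        intro h
        exact hO1 (congrArg Subtype.val h)
      · rw [show (2 : ℕ) ^ (1 + 1) = 2 * 2 by norm_num, pow_mul, hx2]
        apply Subtype.ext
        show mO ^ 2 = 1
        rw [pow_two, mO_mul_mO]
    rw [h3]; norm_num
  have hss : s * s = x ^ 2 := by
    rw [hx2]; exact Subtype.ext hf2
  have hsx : s * x * s⁻¹ = x⁻¹ := by
    apply Subtype.ext
    show f * e * f⁻¹ = e⁻¹
    rw [inv_eq_of_sq hf2, inv_eq_of_sq he2, hfe]
    calc mO * (e * f) * (mO * f) = mO * (e * (f * mO) * f) := by simp only [mul_assoc]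
      _ = mO * (e * (mO * f) * f) := by rw [← mO_central f]
      _ = mO * ((e * mO) * (f * f)) := by simp only [mul_assoc]
      _ = mO * ((mO * e) * (f * f)) := by rw [← mO_central e]
      _ = (mO * mO) * (e * (f * f)) := by simp only [mul_assoc]
      _ = mO * e := by rw [mO_mul_mO, one_mul, hf2, ← mO_central]
  have hsn : s ∉ Subgroup.zpowers x := by
    intro h
    obtain ⟨k, hk⟩ := Subgroup.mem_zpowers_iff.mp h
    have h3 : Commute x s := by
      rw [← hk]; exact (Commute.refl x).zpow_right k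
    have h4 : e * f = f * e := congrArg Subtype.val h3.eq
    rw [h4] at hef
    apply hO1
    have := mul_right_cancel (b := f * e) (a := 1) (c := mO) (by rw [one_mul]; exact hef)
    exact this.symm
  have hH : ∀ y : R, ((y : SL(2, F)) = 1 ∨ (y : SL(2, F)) = mO ∨ (y : SL(2, F)) = e ∨ (y : SL(2, F)) = mO * e) → y ∈ Subgroup.zpowers x := by
    rintro y (h | h | h | h)
    · have : y = 1 := Subtype.ext h
      rw [this]; exact Subgroup.one_mem _
    · have : y = x ^ 2 := by rw [hx2]; exact Subtype.ext h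
      rw [this]; exact pow_mem (Subgroup.mem_zpowers x) 2
    · have : y = x := Subtype.ext h
      rw [this]; exact Subgroup.mem_zpowers x
    · have : y = x ^ 2 * x := by
        rw [hx2]; exact Subtype.ext h
      rw [this]; exact mul_mem (pow_mem (Subgroup.mem_zpowers x) 2) (Subgroup.mem_zpowers x)
  have hidx : (Subgroup.zpowers x).index = 2 := by
    refine Subgroup.index_eq_two_iff.mpr ⟨s, fun b => ?_⟩
    by_cases hb : b ∈ Subgroup.zpowers x
    · refine Or.inr ⟨hb, fun h => hsn ?_⟩
      have := mul_mem (inv_mem hb) h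
      rwa [inv_mul_cancel_left] at this
    · refine Or.inl ⟨?_, hb⟩
      apply hH
      show (b : SL(2, F)) * f = 1 ∨ (b : SL(2, F)) * f = mO ∨ (b : SL(2, F)) * f = e ∨ (b : SL(2, F)) * f = mO * e
      rcases hT b b.2 with h | h | h | h | h | h | h | h
      · exact absurd (hH b (Or.inl h)) hb
      · exact absurd (hH b (Or.inr (Or.inl h))) hb
      · exact absurd (hH b (Or.inr (Or.inr (Or.inl h)))) hb
      · exact absurd (hH b (Or.inr (Or.inr (Or.inr h)))) hb
      · right; left; rw [h, hf2]
      · left; rw [h, mul_assoc, hf2, mO_mul_mO]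
      · right; right; right
        rw [h, mul_assoc, hf2, mO_central]
      · right; right; left
        rw [h, mul_assoc, mul_assoc, hf2, ← mO_central e, ← mul_assoc, mO_mul_mO, one_mul]
  have hcardR : Nat.card R = 8 := by
    rw [← Subgroup.card_mul_index (Subgroup.zpowers x), hidx, Nat.card_zpowers, hxord]
  refine ⟨Cfsg.Agent.Lib.Quaternion.nonempty_mulEquiv_quaternion 2 x s hxord hss hsx hsn (by rw [hcardR]), ?_⟩
  -- SL₂(3)
  have hcardX : Nat.card ↥(R ⊔ Subgroup.zpowers a) = 24 := by
    have h1 := Cfsg.Agent.Lib.SchurZ2.card_sup_mul_card_inf R (Subgroup.zpowers a) (by rwa [Subgroup.zpowers_le])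
    have h3 : R ⊓ Subgroup.zpowers a = ⊥ := by
      rw [eq_bot_iff]
      rintro y ⟨hy1, hy2⟩
      have h4 : orderOf y ∣ 8 := by
        rw [← hcardR, ← Subgroup.orderOf_mk y hy1]
        exact orderOf_dvd_natCard _
      have h5 : orderOf y ∣ 3 := hord ▸ orderOf_dvd_of_mem_zpowers hy2
      have h6 : orderOf y = 1 := Nat.eq_one_of_dvd_coprimes (by norm_num : Nat.Coprime 8 3) h4 h5
      exact orderOf_eq_one_iff.mp h6
    rw [h3, Subgroup.card_bot, mul_one, hcardR, Nat.card_zpowers, hord] at h1
    exact h1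
  set b : SL(2, F) := e * a * e⁻¹ with hb
  clear_value b
  have hb3 : b ^ 3 = 1 := by
    rw [hb, conj_pow, hap, mul_one, mul_inv_cancel]
  have hbu := uni_of_pow b 1 (by rw [pow_one]; exact hb3)
  have hb1 : b ≠ 1 := by
    intro h
    apply ha1
    have h3 : e * a = e := by
      calc e * a = b * e := by rw [hb]; group
        _ = e := by rw [h, one_mul]
    exact mul_left_cancel (h3.trans (mul_one e).symm)
  have hyR : a⁻¹ * b ∈ R := by
    have e1 : a⁻¹ * b = (a⁻¹ * e * a) * e⁻¹ := by rw [hb]; group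
    rw [e1]
    exact R.mul_mem (hnorm' e heR) (R.inv_mem heR)
  have hy1 : a⁻¹ * b ≠ 1 := by
    intro h
    apply hnoncomm
    have h3 : b = a := by
      have := congrArg (fun t => a * t) h
      simpa using this
    show a * e = e * a
    calc a * e = b * e := by rw [h3]
      _ = e * a := by rw [hb]; group
  have hyO : a⁻¹ * b ≠ mO := by
    intro h
    have h3 : b = a * mO := by
      have := congrArg (fun t => a * t) h
      simpa using this
    have hc : Commute a mO := (mO_central a).symm
    have h4 : b ^ 3 = a ^ 3 * mO ^ 3 := by rw [h3, hc.mul_pow]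
    rw [hb3, hap, one_mul, pow_succ, pow_two, mO_mul_mO, one_mul] at h4
    exact hO1 h4.symm
  have hysq : (a⁻¹ * b) * (a⁻¹ * b) = mO := by
    rcases hT _ hyR with h | h | h | h | h | h | h | h
    · exact absurd h hy1
    · exact absurd h hyO
    · rw [h, he2]
    · rw [h]; exact hmsq e he2
    · rw [h, hf2]
    · rw [h]; exact hmsq f hf2
    · rw [h, hgg]
    · rw [h]; exact hmsq _ hgg
  have htrace0 : (a⁻¹ * b).1.trace = 0 := by
    rw [Matrix.trace_fin_two]
    exact (sq_eq_mO_iff h2F _).mp hysq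
  set N := a.1 - 1 with hN
  set N' := b.1 - 1 with hN'
  have ha2 : a.1 = 1 + N := by rw [hN]; abel
  have hb2 : b.1 = 1 + N' := by rw [hN']; abel
  have htrN : N.trace = 0 := by
    rw [hN, Matrix.trace_sub, trace_of_uni a hu, Matrix.trace_one, Fintype.card_fin]
    norm_num
  have htrN' : N'.trace = 0 := by
    rw [hN', Matrix.trace_sub, trace_of_uni b hbu, Matrix.trace_one, Fintype.card_fin]
    norm_num
  have hainv : (a⁻¹).1 = 1 - N := by
    have h1 : (a⁻¹).1 * a.1 = 1 := by
      rw [← Matrix.SpecialLinearGroup.coe_mul, inv_mul_cancel]; rfl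
    have h3 : a.1 * (1 - N) = 1 := by
      rw [ha2, add_mul, one_mul, mul_sub, mul_one, hu]; abel
    calc (a⁻¹).1 = (a⁻¹).1 * (a.1 * (1 - N)) := by rw [h3, mul_one]
      _ = 1 - N := by rw [← mul_assoc, h1, one_mul]
  have htrNN : (N * N').trace = 2 := by
    have e1 : (a⁻¹ * b).1 = 1 + N' - N - N * N' := by
      rw [Matrix.SpecialLinearGroup.coe_mul, hainv, hb2]
      noncomm_ring
    rw [e1, Matrix.trace_sub, Matrix.trace_sub, Matrix.trace_add, htrN, htrN', Matrix.trace_one, Fintype.card_fin] at htrace0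
    push_cast at htrace0
    linear_combination -htrace0
  have hdet' : N'.det = 0 := by
    have h3 := congrArg Matrix.det hbu
    rw [Matrix.det_mul, Matrix.det_zero] at h3
    exact mul_self_eq_zero.mp h3
  have hbab := bab N N' hdet'
  rw [htrNN] at hbab
  have hN'ne : N' ≠ 0 := by
    intro h0
    apply hb1
    apply Subtype.ext
    rw [hb2, h0, add_zero]
    rfl
  obtain ⟨z, hz⟩ : ∃ z : Fin 2 → F, N' *ᵥ z ≠ 0 := by
    by_contra hcon
    push_neg at hcon
    apply hN'ne
    ext i j
    have := congrFun (hcon (Pi.single j 1)) i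
    simpa [Matrix.mulVec_single] using this
  set w := N' *ᵥ z with hw
  set v := N *ᵥ w with hv
  have hN'w : N' *ᵥ w = 0 := by
    rw [hw, Matrix.mulVec_mulVec, hbu, Matrix.zero_mulVec]
  have hNv : N *ᵥ v = 0 := by
    rw [hv, Matrix.mulVec_mulVec, hu, Matrix.zero_mulVec]
  have hN'v : N' *ᵥ v = (2 : F) • w := by
    rw [hv, hw, Matrix.mulVec_mulVec, Matrix.mulVec_mulVec, hbab, Matrix.smul_mulVec]
  have hwedge : wedge w v ≠ 0 := by
    intro h0
    obtain ⟨c, hc⟩ := exists_smul_of_wedge_eq_zero hz h0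
    have h3 : N' *ᵥ v = 0 := by
      rw [hc, Matrix.mulVec_smul, hN'w, smul_zero]
    rw [hN'v] at h3
    exact hz ((smul_eq_zero.mp h3).resolve_left h2F)
  have hav : a.1 *ᵥ v = (1 : F) • v + (0 : F) • w := by
    rw [ha2, Matrix.add_mulVec, Matrix.one_mulVec, hNv]; simp
  have haw : a.1 *ᵥ w = (1 : F) • v + (1 : F) • w := by
    rw [ha2, Matrix.add_mulVec, Matrix.one_mulVec, ← hv]; simp [add_comm]
  have hbv : b.1 *ᵥ v = (1 : F) • v + (2 : F) • w := by
    rw [hb2, Matrix.add_mulVec, Matrix.one_mulVec, hN'v]; simp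
  have hbw : b.1 *ᵥ w = (0 : F) • v + (1 : F) • w := by
    rw [hb2, Matrix.add_mulVec, Matrix.one_mulVec, hN'w]; simp
  set P : Matrix (Fin 2) (Fin 2) F := !![v 0, w 0; v 1, w 1] with hP
  have hPdet : IsUnit P.det := by
    rw [isUnit_iff_ne_zero, hP, Matrix.det_fin_two_of]
    intro h0
    apply hwedge
    unfold wedge
    linear_combination -h0
  have hPP : P * P⁻¹ = 1 := Matrix.mul_nonsing_inv P hPdet
  have hPP' : P⁻¹ * P = 1 := Matrix.nonsing_inv_mul P hPdet
  have hcol : ∀ (M : Matrix (Fin 2) (Fin 2) F) (t00 t01 t10 t11 : F),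
      M *ᵥ v = t00 • v + t10 • w → M *ᵥ w = t01 • v + t11 • w → M * P = P * !![t00, t01; t10, t11] := by
    intro M t00 t01 t10 t11 h1 h3
    have h10 := congrFun h1 0
    have h11 := congrFun h1 1
    have h30 := congrFun h3 0
    have h31 := congrFun h3 1
    simp only [Matrix.mulVec, dotProduct, Fin.sum_univ_two, Pi.add_apply, Pi.smul_apply, smul_eq_mul] at h10 h11 h30 h31
    ext i j
    fin_cases i <;> fin_cases j <;>
      simp [hP, Matrix.mul_apply, Fin.sum_univ_two]
    · linear_combination h10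
    · linear_combination h30
    · linear_combination h11
    · linear_combination h31
  have haP := hcol a.1 1 1 0 1 hav haw
  have hbP := hcol b.1 1 0 2 1 hbv hbw
  let ι : ZMod 3 →+* F := ZMod.castHom (dvd_refl 3) F
  have hιinj : Function.Injective ι := ι.injective
  let ψ : Cfsg.Agent.Lib.SL23.G3 →* SL(2, F) :=
    { toFun := fun g => ⟨P * (Matrix.SpecialLinearGroup.map ι g).1 * P⁻¹, by
        rw [Matrix.det_mul, Matrix.det_mul, (Matrix.SpecialLinearGroup.map ι g).2, mul_one, ← Matrix.det_mul, hPP,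
          Matrix.det_one]⟩
      map_one' := by
        apply Subtype.ext
        show P * (Matrix.SpecialLinearGroup.map ι 1).1 * P⁻¹ = 1
        rw [map_one]
        show P * 1 * P⁻¹ = 1
        rw [mul_one, hPP]
      map_mul' := by
        intro g h
        apply Subtype.ext
        show P * (Matrix.SpecialLinearGroup.map ι (g * h)).1 * P⁻¹ =
          (P * (Matrix.SpecialLinearGroup.map ι g).1 * P⁻¹) * (P * (Matrix.SpecialLinearGroup.map ι h).1 * P⁻¹)
        rw [map_mul, Matrix.SpecialLinearGroup.coe_mul]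
        calc P * ((Matrix.SpecialLinearGroup.map ι g).1 * (Matrix.SpecialLinearGroup.map ι h).1) * P⁻¹
            = P * (Matrix.SpecialLinearGroup.map ι g).1 * (P⁻¹ * P) * (Matrix.SpecialLinearGroup.map ι h).1 * P⁻¹ := by
              rw [hPP', mul_one]; simp only [mul_assoc]
          _ = _ := by simp only [mul_assoc] }
  have hψcoe : ∀ g, (ψ g).1 = P * (Matrix.SpecialLinearGroup.map ι g).1 * P⁻¹ := fun g => rfl
  have hψinj : Function.Injective ψ := by
    intro g h hgh
    have h1 : P * (Matrix.SpecialLinearGroup.map ι g).1 * P⁻¹ = P * (Matrix.SpecialLinearGroup.map ι h).1 * P⁻¹ :=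
      congrArg Subtype.val hgh
    have h3 : (Matrix.SpecialLinearGroup.map ι g).1 = (Matrix.SpecialLinearGroup.map ι h).1 := by
      have h4 : P⁻¹ * (P * (Matrix.SpecialLinearGroup.map ι g).1 * P⁻¹) * P = P⁻¹ * (P * (Matrix.SpecialLinearGroup.map ι h).1 * P⁻¹) * P := by rw [h1]
      have e1 : ∀ X : Matrix (Fin 2) (Fin 2) F, P⁻¹ * (P * X * P⁻¹) * P = X := by
        intro X
        calc P⁻¹ * (P * X * P⁻¹) * P = (P⁻¹ * P) * X * (P⁻¹ * P) := by simp only [mul_assoc]
          _ = X := by rw [hPP', one_mul, mul_one]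
      rwa [e1, e1] at h4
    apply Subtype.ext
    ext i j
    apply hιinj
    have := congrFun (congrFun h3 i) j
    exact this
  have hψT : ψ T3 = a := by
    apply Subtype.ext
    rw [hψcoe]
    have e1 : (Matrix.SpecialLinearGroup.map ι T3).1 = !![1, 1; 0, 1] := by
      ext i j
      show ι (T3.1 i j) = _
      fin_cases i <;> fin_cases j <;> simp [T3]
    rw [e1, ← haP, mul_assoc, hPP, mul_one]
  have hψU : ψ U3 = b := by
    apply Subtype.ext
    rw [hψcoe]
    have e1 : (Matrix.SpecialLinearGroup.map ι U3).1 = !![1, 0; 2, 1] := by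
      ext i j
      show ι (U3.1 i j) = _
      fin_cases i <;> fin_cases j <;> simp [U3]
      exact map_ofNat ι 2
    rw [e1, ← hbP, mul_assoc, hPP, mul_one]
  have haX : a ∈ R ⊔ Subgroup.zpowers a := (le_sup_right : Subgroup.zpowers a ≤ _) (Subgroup.mem_zpowers a)
  have heX : e ∈ R ⊔ Subgroup.zpowers a := (le_sup_left : R ≤ _) heR
  have hbX : b ∈ R ⊔ Subgroup.zpowers a := by
    rw [hb]
    exact mul_mem (mul_mem heX haX) (inv_mem heX)
  have hle : ψ.range ≤ R ⊔ Subgroup.zpowers a := by
    rintro _ ⟨g, rfl⟩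
    obtain ⟨i, j, k', l, n, rfl⟩ := gen3 g
    simp only [map_mul, map_pow, hψT, hψU]
    exact mul_mem (mul_mem (mul_mem (mul_mem (pow_mem haX _) (pow_mem hbX _)) (pow_mem haX _)) (pow_mem hbX _)) (pow_mem haX _)
  have hcardψ : Nat.card ψ.range = 24 := by
    rw [← Nat.card_congr (MonoidHom.ofInjective hψinj).toEquiv, Nat.card_eq_fintype_card]
    exact Cfsg.Agent.Lib.SL23.card_G3
  have heq : ψ.range = R ⊔ Subgroup.zpowers a :=
    Subgroup.eq_of_le_of_card_ge hle (by rw [hcardX, hcardψ])
  exact ⟨(MulEquiv.subgroupCongr heq.symm).trans (MonoidHom.ofInjective hψinj).symm⟩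

end main_res

end

/-- Let F be a finite field of odd characteristic p and let a be a p-element of SL₂(F) normalizing a subgroup R of order prime to p with [R, a] ≠ 1. Then p = 3, R is a quaternion group of order 8, and R⟨a⟩ is isomorphic to SL₂(3). -/
theorem result (F : Type) [Field F] [Fintype F] {p : ℕ} [Fact p.Prime] [CharP F p] (hp : p ≠ 2) (a : Matrix.SpecialLinearGroup (Fin 2) F) (ha : IsPGroup p ↥(Subgroup.zpowers a)) (R : Subgroup (Matrix.SpecialLinearGroup (Fin 2) F)) (hR : (Nat.card R).Coprime p) (haR : a ∈ Subgroup.normalizer (R : Set (Matrix.SpecialLinearGroup (Fin 2) F))) (hnt : ⁅R, Subgroup.zpowers a⁆ ≠ ⊥) : p = 3 ∧ Nonempty (↥R ≃* QuaternionGroup 2) ∧ Nonempty (↥(R ⊔ Subgroup.zpowers a) ≃* Matrix.SpecialLinearGroup (Fin 2) (ZMod 3)) := by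
  exact main_res F hp a ha R hR haR hnt

end Cfsg.Agent.S3740
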