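import Mathlib
import Cfsg.Statements.S3741
import Cfsg.Agent.Lib.H5Basic
import Cfsg.Agent.Lib.H6Conj
import Cfsg.Agent.Lib.PGroupBasic
-- import your own Cfsg.Agent.* helpers here

set_option autoImplicit false
open Cfsg

namespace Cfsg.Agent.S3741

theorem side {G : Type*} [Group G] [Finite G] {p : ℕ} [Fact p.Prime] (A B Z : Subgroup G)
    (hZ : Nat.card Z = p) (hZ1 : ∀ a ∈ A, ∀ b ∈ B, a * b * a⁻¹ * b⁻¹ ∈ Z)
    (hZ2 : ∀ z ∈ Z, ∀ b ∈ B, z * b = b * z) [Fintype A] :
    (∑ a : A, Nat.card {b : B // Commute a.1 b.1}) * p =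
      Nat.card A * Nat.card B + Nat.card ↥(A ⊓ Subgroup.centralizer (B : Set G)) * Nat.card B * (p - 1) := by
  classical
  have hp : p.Prime := Fact.out
  have hval : ∀ a : A, Nat.card {b : B // Commute a.1 b.1} * p =
      Nat.card B + (if a.1 ∈ Subgroup.centralizer (B : Set G) then Nat.card B * (p - 1) else 0) := by
    intro a
    by_cases ha : a.1 ∈ Subgroup.centralizer (B : Set G)
    · rw [if_pos ha]
      have h1 : Nat.card {b : B // Commute a.1 b.1} = Nat.card B := by
        refine Nat.card_congr (Equiv.subtypeUnivEquiv ?_)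
        intro b
        exact ((Subgroup.mem_centralizer_iff.mp ha) b.1 b.2).symm
      rw [h1]
      have : 1 ≤ p := hp.one_lt.le
      obtain ⟨r, rfl⟩ : ∃ r, p = r + 1 := ⟨p - 1, by omega⟩
      simp only [Nat.add_sub_cancel]
      ring
    · rw [if_neg ha, add_zero]
      let φ : B →* Z :=
        { toFun := fun b => ⟨a.1 * b.1 * a.1⁻¹ * b.1⁻¹, hZ1 a.1 a.2 b.1 b.2⟩
          map_one' := by
            apply Subtype.ext
            simp
          map_mul' := by
            intro x y
            apply Subtype.ext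
            change a.1 * (x.1 * y.1) * a.1⁻¹ * (x.1 * y.1)⁻¹ =
              (a.1 * x.1 * a.1⁻¹ * x.1⁻¹) * (a.1 * y.1 * a.1⁻¹ * y.1⁻¹)
            have h1 := hZ2 _ (hZ1 a.1 a.2 y.1 y.2) x.1⁻¹ (B.inv_mem x.2)
            calc a.1 * (x.1 * y.1) * a.1⁻¹ * (x.1 * y.1)⁻¹
                = (a.1 * x.1 * a.1⁻¹) * ((a.1 * y.1 * a.1⁻¹ * y.1⁻¹) * x.1⁻¹) := by group
              _ = (a.1 * x.1 * a.1⁻¹) * (x.1⁻¹ * (a.1 * y.1 * a.1⁻¹ * y.1⁻¹)) := by rw [h1]
              _ = _ := by group }
      have hker : Nat.card {b : B // Commute a.1 b.1} = Nat.card φ.ker := by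
        refine Nat.card_congr (Equiv.subtypeEquivRight ?_)
        intro b
        rw [MonoidHom.mem_ker]
        constructor
        · intro h
          apply Subtype.ext
          change a.1 * b.1 * a.1⁻¹ * b.1⁻¹ = 1
          rw [h.eq]
          group
        · intro h
          have h1 : a.1 * b.1 * a.1⁻¹ * b.1⁻¹ = 1 := congrArg Subtype.val h
          rw [mul_inv_eq_one, mul_inv_eq_iff_eq_mul] at h1
          exact h1
      have hrange : φ.range = ⊤ := by
        haveI : Fact (Nat.card Z).Prime := ⟨by rw [hZ]; exact hp⟩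
        rcases Subgroup.eq_bot_or_eq_top_of_prime_card φ.range with h | h
        · exfalso
          apply ha
          rw [Subgroup.mem_centralizer_iff]
          intro b hb
          have h2 : φ ⟨b, hb⟩ = 1 := by
            have : φ ⟨b, hb⟩ ∈ φ.range := ⟨_, rfl⟩
            rw [h, Subgroup.mem_bot] at this
            exact this
          have h1 : a.1 * b * a.1⁻¹ * b⁻¹ = 1 := congrArg Subtype.val h2
          rw [mul_inv_eq_one, mul_inv_eq_iff_eq_mul] at h1
          exact h1.symm
        · exact h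
      have h3 : Nat.card φ.range = p := by
        rw [hrange, Subgroup.card_top, hZ]
      rw [hker, ← h3, ← Subgroup.index_ker]
      exact φ.ker.card_mul_index
  rw [Finset.sum_mul, Finset.sum_congr rfl (fun a _ => hval a), Finset.sum_add_distrib, Finset.sum_const,
    Finset.card_univ, ← Nat.card_eq_fintype_card, smul_eq_mul]
  congr 1
  rw [Finset.sum_ite, Finset.sum_const_zero, add_zero, Finset.sum_const, smul_eq_mul, mul_assoc]
  congr 1
  rw [← Fintype.card_subtype, ← Nat.card_eq_fintype_card]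
  refine Nat.card_congr ?_
  exact
    { toFun := fun a => ⟨a.1.1, a.1.2, a.2⟩
      invFun := fun a => ⟨⟨a.1, a.2.1⟩, a.2.2⟩
      left_inv := fun _ => rfl
      right_inv := fun _ => rfl }


/-- Let A and B be subgroups of a finite p-group with [A, B] ≤ A ∩ B and [A, B] of order at most p. Then |A : C_A(B)| = |B : C_B(A)|. -/
theorem result {G : Type*} [Group G] [Finite G] {p : ℕ} [Fact p.Prime] (hG : IsPGroup p G) (A B : Subgroup G) (hAB : ⁅A, B⁆ ≤ A ⊓ B) (hcard : Nat.card ↥⁅A, B⁆ ≤ p) : (A ⊓ Subgroup.centralizer (B : Set G)).relIndex A = (B ⊓ Subgroup.centralizer (A : Set G)).relIndex B := by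
  classical
  have hp : p.Prime := Fact.out
  haveI := Fintype.ofFinite A
  haveI := Fintype.ofFinite B
  set Z : Subgroup G := ⁅A, B⁆ with hZdef
  have hcm : ∀ a ∈ A, ∀ b ∈ B, a * b * a⁻¹ * b⁻¹ ∈ Z := fun a ha b hb =>
    Subgroup.commutator_mem_commutator ha hb
  have hZA : Z ≤ A := hAB.trans inf_le_left
  have hZB : Z ≤ B := hAB.trans inf_le_right
  obtain ⟨k, hk⟩ := IsPGroup.iff_card.mp (hG.to_subgroup Z)
  have hk1 : k ≤ 1 := by
    by_contra h
    have h1 : p ^ 2 ≤ p ^ k := Nat.pow_le_pow_right hp.pos (by omega)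
    have h2 : p ^ k ≤ p := hk ▸ hcard
    have h3 : p < p ^ 2 := by nlinarith [hp.two_le]
    omega
  rcases Nat.le_one_iff_eq_zero_or_eq_one.mp hk1 with rfl | rfl
  · -- trivial commutator
    rw [pow_zero] at hk
    have hbot : Z = ⊥ := Subgroup.card_eq_one.mp hk
    have h1 : ∀ a ∈ A, ∀ b ∈ B, a * b = b * a := by
      intro a ha b hb
      have h2 := hcm a ha b hb
      rw [hbot, Subgroup.mem_bot, mul_inv_eq_one, mul_inv_eq_iff_eq_mul] at h2
      exact h2
    have e1 : (A ⊓ Subgroup.centralizer (B : Set G)).relIndex A = 1 := by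
      rw [Subgroup.relIndex_eq_one]
      refine fun a ha => ⟨ha, ?_⟩
      change a ∈ Subgroup.centralizer (B : Set G)
      rw [Subgroup.mem_centralizer_iff]
      exact fun b hb => (h1 a ha b hb).symm
    have e2 : (B ⊓ Subgroup.centralizer (A : Set G)).relIndex B = 1 := by
      rw [Subgroup.relIndex_eq_one]
      refine fun b hb => ⟨hb, ?_⟩
      change b ∈ Subgroup.centralizer (A : Set G)
      rw [Subgroup.mem_centralizer_iff]
      exact fun a ha => h1 a ha b hb
    rw [e1, e2]
  · rw [pow_one] at hk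
    -- `Z` is normalized by `A` and `B`
    let X : Subgroup G := A ⊔ B
    have hZX : Z ≤ X := hZA.trans le_sup_left
    have hAn : A ≤ Subgroup.normalizer (Z : Set G) := by
      intro a ha
      have key : ∀ u ∈ A, ∀ z ∈ Z, u * z * u⁻¹ ∈ Z := by
        intro u hu z hz
        have h1 := hcm u hu z (hZB hz)
        have h2 : u * z * u⁻¹ = (u * z * u⁻¹ * z⁻¹) * z := by group
        rw [h2]
        exact Z.mul_mem h1 hz
      rw [Subgroup.mem_normalizer_iff]
      intro z
      refine ⟨key a ha z, fun hz => ?_⟩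
      have h3 := key a⁻¹ (A.inv_mem ha) _ hz
      have h4 : a⁻¹ * (a * z * a⁻¹) * a⁻¹⁻¹ = z := by group
      rwa [h4] at h3
    have hBn : B ≤ Subgroup.normalizer (Z : Set G) := by
      intro b hb
      have key : ∀ u ∈ B, ∀ z ∈ Z, u * z * u⁻¹ ∈ Z := by
        intro u hu z hz
        have h1 := hcm z (hZA hz) u hu
        have h2 : u * z * u⁻¹ = (z⁻¹ * (z * u * z⁻¹ * u⁻¹))⁻¹ := by group
        rw [h2]
        exact Z.inv_mem (Z.mul_mem (Z.inv_mem hz) h1)
      rw [Subgroup.mem_normalizer_iff]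
      intro z
      refine ⟨key b hb z, fun hz => ?_⟩
      have h3 := key b⁻¹ (B.inv_mem hb) _ hz
      have h4 : b⁻¹ * (b * z * b⁻¹) * b⁻¹⁻¹ = z := by group
      rwa [h4] at h3
    have hXn : X ≤ Subgroup.normalizer (Z : Set G) := sup_le hAn hBn
    haveI hnorm : (Z.subgroupOf X).Normal := (Subgroup.normal_subgroupOf_iff_le_normalizer hZX).mpr hXn
    have hZne : Z.subgroupOf X ≠ ⊥ := by
      intro h
      have h1 : Nat.card (Z.subgroupOf X) = Nat.card Z :=
        Nat.card_congr (Subgroup.subgroupOfEquivOfLe hZX).toEquiv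
      rw [h, Subgroup.card_bot, hk] at h1
      exact hp.one_lt.ne h1
    obtain ⟨x, hxZ, hx1, hxc⟩ := Cfsg.Agent.Lib.PGroupBasic.exists_ne_one_mem_center_of_normal
      (hG.to_subgroup X) (Z.subgroupOf X) hZne
    have hcen : ∀ z ∈ Z, ∀ u ∈ X, z * u = u * z := by
      intro z hz u hu
      haveI : Fact (Nat.card Z).Prime := ⟨by rw [hk]; exact hp⟩
      have hx' : (⟨x.1, hxZ⟩ : Z) ≠ 1 := by
        intro h
        apply hx1
        apply Subtype.ext
        exact congrArg (fun t : Z => (t : G)) h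
      obtain ⟨n, hn⟩ := mem_zpowers_of_prime_card (p := Nat.card Z) rfl (g := (⟨x.1, hxZ⟩ : Z)) (g' := ⟨z, hz⟩) hx'
      have hn' : (x.1 : G) ^ n = z := congrArg Subtype.val hn
      have hxu : (x.1 : G) * u = u * x.1 := by
        have := (Subgroup.mem_center_iff.mp hxc) ⟨u, hu⟩
        exact (congrArg Subtype.val this).symm
      rw [← hn']
      exact ((show Commute (x.1 : G) u from hxu).zpow_left n).eq
    have s1 := side (p := p) A B Z hk hcm (fun z hz b hb => hcen z hz b (le_sup_right (a := A) hb))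
    have hcm' : ∀ b ∈ B, ∀ a ∈ A, b * a * b⁻¹ * a⁻¹ ∈ Z := by
      intro b hb a ha
      have h1 := Z.inv_mem (hcm a ha b hb)
      have h2 : (a * b * a⁻¹ * b⁻¹)⁻¹ = b * a * b⁻¹ * a⁻¹ := by group
      rwa [h2] at h1
    have s2 := side (p := p) B A Z hk hcm' (fun z hz a ha => hcen z hz a (le_sup_left (b := B) ha))
    have hswap : (∑ a : A, Nat.card {b : B // Commute a.1 b.1}) = ∑ b : B, Nat.card {a : A // Commute b.1 a.1} := by
      rw [Cfsg.Agent.Lib.H6Conj.sum_card_swap (fun (a : A) (b : B) => Commute a.1 b.1)]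
      refine Finset.sum_congr rfl (fun b _ => ?_)
      exact Nat.card_congr (Equiv.subtypeEquivRight (fun a => ⟨fun h => h.symm, fun h => h.symm⟩))
    rw [hswap, s2] at s1
    -- arithmetic
    set nA := Nat.card A
    set nB := Nat.card B
    set cA := Nat.card ↥(A ⊓ Subgroup.centralizer (B : Set G))
    set cB := Nat.card ↥(B ⊓ Subgroup.centralizer (A : Set G))
    have hpm : 0 < p - 1 := by have := hp.one_lt; omega
    have h5 : cB * nA = cA * nB := by
      have h6 : cB * nA * (p - 1) = cA * nB * (p - 1) := by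
        have h7 : nB * nA = nA * nB := mul_comm _ _
        omega
      exact Nat.eq_of_mul_eq_mul_right hpm h6
    have hiA : cA * (A ⊓ Subgroup.centralizer (B : Set G)).relIndex A = nA := by
      have h := Cfsg.Agent.Lib.H5Basic.card_inf_mul_relIndex (A ⊓ Subgroup.centralizer (B : Set G)) A
      rw [inf_eq_left.mpr inf_le_left] at h
      exact h
    have hiB : cB * (B ⊓ Subgroup.centralizer (A : Set G)).relIndex B = nB := by
      have h := Cfsg.Agent.Lib.H5Basic.card_inf_mul_relIndex (B ⊓ Subgroup.centralizer (A : Set G)) B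
      rw [inf_eq_left.mpr inf_le_left] at h
      exact h
    have hApos : 0 < cA := Nat.card_pos
    have hBpos : 0 < cB := Nat.card_pos
    rw [← hiA, ← hiB] at h5
    have h8 : (cA * cB) * (A ⊓ Subgroup.centralizer (B : Set G)).relIndex A =
        (cA * cB) * (B ⊓ Subgroup.centralizer (A : Set G)).relIndex B := by
      calc _ = cB * (cA * (A ⊓ Subgroup.centralizer (B : Set G)).relIndex A) := by ring
        _ = cA * (cB * (B ⊓ Subgroup.centralizer (A : Set G)).relIndex B) := h5
        _ = _ := by ring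
    exact Nat.eq_of_mul_eq_mul_left (Nat.mul_pos hApos hBpos) h8

end Cfsg.Agent.S3741
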