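import Mathlib
import Cfsg.Statements.S3742
import Cfsg.Agent.Lib.Quaternion
-- import your own Cfsg.Agent.* helpers here

set_option autoImplicit false
open Cfsg

namespace Cfsg.Agent.S3742

/-- evaluation of a generating pair -/
def ev (s t : QuaternionGroup 2) : QuaternionGroup 2 → QuaternionGroup 2
  | QuaternionGroup.a i => s ^ i.val
  | QuaternionGroup.xa i => t * s ^ i.val

/-- the table of images of the generators -/
def tbl : Fin 4 → Fin 4 → Fin 4 → QuaternionGroup 2 × QuaternionGroup 2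
  | 0, 1, 2 => (QuaternionGroup.a 1, QuaternionGroup.xa 0)
  | 0, 1, 3 => (QuaternionGroup.xa 2, QuaternionGroup.a 3)
  | 0, 2, 1 => (QuaternionGroup.a 3, QuaternionGroup.xa 3)
  | 0, 2, 3 => (QuaternionGroup.xa 1, QuaternionGroup.a 1)
  | 0, 3, 1 => (QuaternionGroup.xa 0, QuaternionGroup.xa 1)
  | 0, 3, 2 => (QuaternionGroup.xa 3, QuaternionGroup.xa 2)
  | 1, 0, 2 => (QuaternionGroup.xa 0, QuaternionGroup.a 1)
  | 1, 0, 3 => (QuaternionGroup.a 3, QuaternionGroup.xa 2)
  | 1, 2, 0 => (QuaternionGroup.xa 2, QuaternionGroup.xa 1)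
  | 1, 2, 3 => (QuaternionGroup.xa 3, QuaternionGroup.xa 0)
  | 1, 3, 0 => (QuaternionGroup.a 1, QuaternionGroup.xa 3)
  | 1, 3, 2 => (QuaternionGroup.xa 1, QuaternionGroup.a 3)
  | 2, 0, 1 => (QuaternionGroup.xa 3, QuaternionGroup.a 3)
  | 2, 0, 3 => (QuaternionGroup.a 1, QuaternionGroup.xa 1)
  | 2, 1, 0 => (QuaternionGroup.xa 1, QuaternionGroup.xa 2)
  | 2, 1, 3 => (QuaternionGroup.xa 0, QuaternionGroup.xa 3)
  | 2, 3, 0 => (QuaternionGroup.a 3, QuaternionGroup.xa 0)
  | 2, 3, 1 => (QuaternionGroup.xa 2, QuaternionGroup.a 1)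
  | 3, 0, 1 => (QuaternionGroup.xa 1, QuaternionGroup.xa 0)
  | 3, 0, 2 => (QuaternionGroup.xa 2, QuaternionGroup.xa 3)
  | 3, 1, 0 => (QuaternionGroup.xa 3, QuaternionGroup.a 1)
  | 3, 1, 2 => (QuaternionGroup.a 3, QuaternionGroup.xa 1)
  | 3, 2, 0 => (QuaternionGroup.xa 0, QuaternionGroup.a 3)
  | 3, 2, 1 => (QuaternionGroup.a 1, QuaternionGroup.xa 2)
  | _, _, _ => (1, 1)

/-- the pair attached to a permutation -/
def pairOf (σ : Equiv.Perm (Fin 4)) : QuaternionGroup 2 × QuaternionGroup 2 := tbl (σ 0) (σ 1) (σ 2)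

theorem ev_mul : ∀ (σ : Equiv.Perm (Fin 4)) (g h : QuaternionGroup 2),
    ev (pairOf σ).1 (pairOf σ).2 (g * h) = ev (pairOf σ).1 (pairOf σ).2 g * ev (pairOf σ).1 (pairOf σ).2 h := by
  decide +kernel

theorem ev_comp : ∀ (σ τ : Equiv.Perm (Fin 4)) (g : QuaternionGroup 2),
    ev (pairOf (σ * τ)).1 (pairOf (σ * τ)).2 g = ev (pairOf σ).1 (pairOf σ).2 (ev (pairOf τ).1 (pairOf τ).2 g) := by
  decide +kernel

theorem ev_one : ∀ g : QuaternionGroup 2, ev (pairOf 1).1 (pairOf 1).2 g = g := by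
  decide +kernel

theorem pairOf_inj : ∀ σ τ : Equiv.Perm (Fin 4), pairOf σ = pairOf τ → σ = τ := by
  decide +kernel

theorem ev_gens : ∀ σ : Equiv.Perm (Fin 4), ev (pairOf σ).1 (pairOf σ).2 (QuaternionGroup.a 1) = (pairOf σ).1 ∧
    ev (pairOf σ).1 (pairOf σ).2 (QuaternionGroup.xa 0) = (pairOf σ).2 := by
  decide +kernel

/-- the automorphism attached to a permutation -/
def autOf (σ : Equiv.Perm (Fin 4)) : MulAut (QuaternionGroup 2) where
  toFun := ev (pairOf σ).1 (pairOf σ).2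
  invFun := ev (pairOf σ⁻¹).1 (pairOf σ⁻¹).2
  left_inv := fun g => by
    rw [← ev_comp, inv_mul_cancel, ev_one]
  right_inv := fun g => by
    rw [← ev_comp, mul_inv_cancel, ev_one]
  map_mul' := ev_mul σ


/-- The automorphism group of the quaternion group of order 8 is isomorphic to the symmetric group of degree 4. -/
theorem result : Nonempty (MulAut (QuaternionGroup 2) ≃* Equiv.Perm (Fin 4)) := by
  classical
  let ρ : Equiv.Perm (Fin 4) →* MulAut (QuaternionGroup 2) :=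
    { toFun := autOf
      map_one' := by
        ext g
        exact ev_one g
      map_mul' := fun σ τ => by
        ext g
        exact ev_comp σ τ g }
  have hinj : Function.Injective ρ := by
    intro σ τ h
    apply pairOf_inj
    have h1 : ∀ g, ev (pairOf σ).1 (pairOf σ).2 g = ev (pairOf τ).1 (pairOf τ).2 g := fun g => congrArg (fun φ : MulAut (QuaternionGroup 2) => φ g) h
    have h2 := h1 (QuaternionGroup.a 1)
    have h3 := h1 (QuaternionGroup.xa 0)
    rw [(ev_gens σ).1, (ev_gens τ).1] at h2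
    rw [(ev_gens σ).2, (ev_gens τ).2] at h3
    exact Prod.ext h2 h3
  have hcard : Nat.card (MulAut (QuaternionGroup 2)) ≤ Nat.card (Equiv.Perm (Fin 4)) := by
    have h1 := Nat.le_of_dvd (by norm_num) Cfsg.Agent.Lib.Quaternion.card_mulAut_q8_dvd
    have h2 : Nat.card (Equiv.Perm (Fin 4)) = 24 := by
      rw [Nat.card_eq_fintype_card, Fintype.card_perm]
      rfl
    omega
  have hbij := hinj.bijective_of_nat_card_le hcard
  exact ⟨(MulEquiv.ofBijective ρ hbij).symm⟩

end Cfsg.Agent.S3742
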