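import Cfsg.Statements.S3743
import Cfsg.Agent.Lib.FitCore
import Cfsg.Agent.Lib.Layer
import Cfsg.Prelude.Def_OddOrderLocal

set_option autoImplicit false
open Cfsg

namespace Cfsg.Agent.S3743

theorem map_normal_of_char {G : Type*} [Group G] {H K : Subgroup G} (hle : H ≤ K)
    (hN : (H.subgroupOf K).Normal) (C : Subgroup H) (hC : C.Characteristic) :
    ((C.map H.subtype).subgroupOf K).Normal := by
  let e : H.subgroupOf K ≃* H := Subgroup.subgroupOfEquivOfLe hle
  refine ⟨fun x hx k => ?_⟩
  rw [Subgroup.mem_subgroupOf] at hx ⊢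
  obtain ⟨c, hc, hcx⟩ := hx
  let φ : H ≃* H := e.symm.trans ((MulAut.conjNormal k).trans e)
  have h1 : φ c ∈ C := (Subgroup.characteristic_iff_map_le.1 hC φ) ⟨c, hc, rfl⟩
  refine ⟨φ c, h1, ?_⟩
  have : ((φ c : H) : G) = (k : G) * (c : G) * (k : G)⁻¹ := by
    have h2 := MulAut.conjNormal_apply (H := H.subgroupOf K) k (e.symm c)
    show ((MulAut.conjNormal k (e.symm c) : H.subgroupOf K) : K).1 = _
    rw [h2]
    show (k : G) * (c : G) * (k : G)⁻¹ = _
    rfl
  simp only [Subgroup.subtype_apply, this]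
  have hcx' : (c : G) = x := hcx
  rw [hcx']
  simp

theorem piCore_char (π : Set ℕ) (H : Type*) [Group H] : (Cfsg.piCore π H).Characteristic := by
  rw [Subgroup.characteristic_iff_map_le]
  intro φ
  rw [Subgroup.map_le_iff_le_comap]
  apply sSup_le
  rintro N ⟨hN, hpi⟩
  rw [← Subgroup.map_le_iff_le_comap]
  apply le_sSup
  refine ⟨hN.map _ φ.surjective, ?_⟩
  intro p hp hd
  rw [Subgroup.card_map_of_injective φ.injective] at hd
  exact hpi p hp hd

theorem piCore_pi (π : Set ℕ) (H : Type*) [Group H] [Finite H] (p : ℕ) (hp : p.Prime)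
    (hd : p ∣ Nat.card (Cfsg.piCore π H)) : p ∈ π := by
  revert p
  unfold Cfsg.piCore
  refine Cfsg.Agent.Lib.FitCore.sSup_induction (fun N => ∀ p : ℕ, p.Prime → p ∣ Nat.card N → p ∈ π) ?_ ?_ _ ?_
  · intro p hp hd
    simp at hd
    exact absurd hd hp.one_lt.ne'
  · intro A B hA hB hPA hPB p hp hd
    have h1 : Nat.card (A ⊔ B : Subgroup H) = Nat.card A * A.relIndex B := by
      have h2 := Subgroup.relIndex_mul_relIndex (⊥ : Subgroup H) A (A ⊔ B) bot_le le_sup_left
      rw [Subgroup.relIndex_bot_left, Subgroup.relIndex_bot_left, Subgroup.relIndex_sup_left] at h2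
      exact h2.symm
    rw [h1] at hd
    rcases (Nat.Prime.dvd_mul hp).mp hd with h | h
    · exact hPA p hp h
    · exact hPB p hp (h.trans (Subgroup.relIndex_dvd_card A B))
  · rintro N ⟨hN, hc⟩
    exact ⟨hN, hc⟩

theorem normal_of_top {G : Type*} [Group G] (B : Subgroup G) (h : (B.subgroupOf (⊤ : Subgroup G)).Normal) : B.Normal := by
  refine ⟨fun x hx g => ?_⟩
  have := h.conj_mem ⟨x, trivial⟩ (by rw [Subgroup.mem_subgroupOf]; exact hx) ⟨g, trivial⟩
  rw [Subgroup.mem_subgroupOf] at this
  exact this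

theorem keyF {G : Type*} [Group G] [Finite G] (A : Subgroup G) (hA : A.IsSubnormal) :
    ∀ B : Subgroup G, B ≤ A → (B.subgroupOf A).Normal → Group.IsNilpotent B → B ≤ Cfsg.fittingSubgroup G := by
  induction hA with
  | top =>
    intro B _ hB hn
    exact Cfsg.Agent.Lib.FitCore.le_fitting B (normal_of_top B hB) hn
  | step H K hle _ hN ih =>
    intro B hBH hB hn
    have hnil' : Group.IsNilpotent (B.subgroupOf H) :=
      nilpotent_of_mulEquiv (Subgroup.subgroupOfEquivOfLe hBH).symm
    have h1 : B.subgroupOf H ≤ Cfsg.fittingSubgroup H := Cfsg.Agent.Lib.FitCore.le_fitting _ hB hnil'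
    have hC := Cfsg.Agent.Lib.Layer.fitting_characteristic H
    have h2 := map_normal_of_char hle hN _ hC
    have hCle : (Cfsg.fittingSubgroup H).map H.subtype ≤ K :=
      (Subgroup.map_subtype_le _).trans hle
    haveI := Cfsg.Agent.Lib.FitCore.fitting_isNilpotent (G := H)
    have hCnil : Group.IsNilpotent ((Cfsg.fittingSubgroup H).map H.subtype) :=
      nilpotent_of_mulEquiv
        ((Cfsg.fittingSubgroup H).equivMapOfInjective H.subtype H.subtype_injective)
    have h3 := ih _ hCle h2 hCnil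
    refine le_trans ?_ h3
    intro x hx
    exact ⟨⟨x, hBH hx⟩, h1 (by rw [Subgroup.mem_subgroupOf]; exact hx), rfl⟩

theorem keyP {G : Type*} [Group G] [Finite G] (π : Set ℕ) (A : Subgroup G) (hA : A.IsSubnormal) :
    ∀ B : Subgroup G, B ≤ A → (B.subgroupOf A).Normal → (∀ p : ℕ, p.Prime → p ∣ Nat.card B → p ∈ π) → B ≤ Cfsg.piCore π G := by
  induction hA with
  | top =>
    intro B _ hB hn
    exact le_sSup ⟨normal_of_top B hB, hn⟩
  | step H K hle _ hN ih =>
    intro B hBH hB hn
    have hpi' : ∀ p : ℕ, p.Prime → p ∣ Nat.card (B.subgroupOf H) → p ∈ π := by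
      intro p hp hd
      rw [Nat.card_congr (Subgroup.subgroupOfEquivOfLe hBH).toEquiv] at hd
      exact hn p hp hd
    have h1 : B.subgroupOf H ≤ Cfsg.piCore π H := le_sSup ⟨hB, hpi'⟩
    have hC := piCore_char π H
    have h2 := map_normal_of_char hle hN _ hC
    have hCle : (Cfsg.piCore π H).map H.subtype ≤ K :=
      (Subgroup.map_subtype_le _).trans hle
    have hCpi : ∀ p : ℕ, p.Prime → p ∣ Nat.card ((Cfsg.piCore π H).map H.subtype) → p ∈ π := by
      intro p hp hd
      rw [Subgroup.card_map_of_injective H.subtype_injective] at hd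
      exact piCore_pi π H p hp hd
    have h3 := ih _ hCle h2 hCpi
    refine le_trans ?_ h3
    intro x hx
    exact ⟨⟨x, hBH hx⟩, h1 (by rw [Subgroup.mem_subgroupOf]; exact hx), rfl⟩

/-- In a finite group G, every subnormal nilpotent subgroup lies in the Fitting subgroup F(G), and, for a set of primes π, every subnormal subgroup all of whose prime divisors lie in π lies in O_π(G). -/
theorem result {G : Type*} [Group G] [Finite G] (A : Subgroup G) (hA : A.IsSubnormal) : (Group.IsNilpotent A → A ≤ Cfsg.fittingSubgroup G) ∧ ∀ π : Set ℕ, (∀ p : ℕ, p.Prime → p ∣ Nat.card A → p ∈ π) → A ≤ Cfsg.piCore π G := by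
  constructor
  · intro hnil
    apply keyF A hA A le_rfl _ hnil
    rw [Subgroup.subgroupOf_self]
    infer_instance
  · intro π hpi
    apply keyP π A hA A le_rfl _ hpi
    rw [Subgroup.subgroupOf_self]
    infer_instance

end Cfsg.Agent.S3743
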