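import Mathlib
import Cfsg.Statements.S3744
import Cfsg.Agent.Lib.H6Hall
import Cfsg.Agent.Lib.SchurZ
import Cfsg.Agent.Lib.SchurZ2
-- import your own Cfsg.Agent.* helpers here

set_option autoImplicit false
open Cfsg

namespace Cfsg.Agent.S3744

universe u

theorem card_map_conj' {G : Type*} [Group G] (H : Subgroup G) (g : G) :
    Nat.card (H.map (MulAut.conj g).toMonoidHom) = Nat.card H :=
  Subgroup.card_map_of_injective (MulAut.conj g).injective

/-- Every subgroup of order prime to `p` is conjugate into a given `p`-complement. -/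
theorem conj_into_chain (p : ℕ) [hp : Fact p.Prime] (n : ℕ) :
    ∀ (G : Type u) [Group G] [Finite G] (H : Fin (n + 1) → Subgroup G),
    H 0 = ⊥ → H (Fin.last n) = ⊤ → Monotone H → (∀ i, (H i).Normal) →
    (∀ i : Fin n, (∃ m : ℕ, (H i.castSucc).relIndex (H i.succ) = p ^ m) ∨
      ((H i.castSucc).relIndex (H i.succ)).Coprime p) →
    ∀ S U : Subgroup G, (Nat.card S).Coprime p → (∃ m : ℕ, S.index = p ^ m) → (Nat.card U).Coprime p →
      ∃ g : G, U.map (MulAut.conj g).toMonoidHom ≤ S := by
  induction n with
  | zero =>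
    intro G _ _ H h0 hl _ _ _ S U _ _ _
    have h : (⊥ : Subgroup G) = ⊤ := by
      rw [← h0, ← hl]
      rfl
    refine ⟨1, ?_⟩
    have hU : U = ⊥ := by
      rw [eq_bot_iff, h]
      exact le_top
    rw [hU]
    simp
  | succ n ih =>
    intro G _ _ H h0 hl hmono hnorm hc S U hS hSi hU
    let N : Subgroup G := H (Fin.succ 0)
    haveI hN : N.Normal := hnorm _
    let f : G →* G ⧸ N := QuotientGroup.mk' N
    have hf : Function.Surjective f := QuotientGroup.mk'_surjective N
    have hker : f.ker = N := QuotientGroup.ker_mk' N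
    have hNle : ∀ i : Fin (n + 1), N ≤ H i.succ := fun i => hmono (Fin.succ_le_succ_iff.mpr (Fin.zero_le _))
    obtain ⟨m, hm⟩ := hSi
    obtain ⟨gb, hgb⟩ := ih (G ⧸ N) (fun i => (H i.succ).map f)
      (by
        change N.map f = ⊥
        exact QuotientGroup.map_mk'_self N)
      (by
        change (H (Fin.last (n + 1))).map f = ⊤
        rw [hl]
        exact Subgroup.map_top_of_surjective f hf)
      (fun i j hij => Subgroup.map_mono (hmono (Fin.succ_le_succ_iff.mpr hij)))
      (fun i => by
        haveI := hnorm i.succ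
        exact Subgroup.Normal.map inferInstance f hf)
      (by
        intro i
        have key : ((H i.castSucc.succ).map f).relIndex ((H i.succ.succ).map f)
            = (H i.succ.castSucc).relIndex (H i.succ.succ) := by
          rw [Subgroup.relIndex_map_map, hker]
          have h1 : H i.castSucc.succ ⊔ N = H i.castSucc.succ := sup_eq_left.mpr (hNle _)
          have h2 : H i.succ.succ ⊔ N = H i.succ.succ := sup_eq_left.mpr (hNle _)
          rw [h1, h2, Fin.succ_castSucc]
        have := hc i.succ
        rw [← key] at this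
        exact this)
      (S.map f) (U.map f)
      (Nat.Coprime.coprime_dvd_left (Subgroup.card_map_dvd S f) hS)
      (by
        have h1 : (S.map f).index ∣ S.index := Subgroup.index_map_dvd S hf
        rw [hm] at h1
        obtain ⟨t, -, ht⟩ := (Nat.dvd_prime_pow hp.out).mp h1
        exact ⟨t, ht⟩)
      (Nat.Coprime.coprime_dvd_left (Subgroup.card_map_dvd U f) hU)
    obtain ⟨g, rfl⟩ := hf gb
    set V := U.map (MulAut.conj g).toMonoidHom with hV
    have hVcard : (Nat.card V).Coprime p := by
      rw [hV, card_map_conj']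
      exact hU
    have hVle : V ≤ N ⊔ S := by
      intro x hx
      have h1 : f x ∈ S.map f := by
        apply hgb
        obtain ⟨u, hu, rfl⟩ := hx
        refine ⟨f u, ⟨u, hu, rfl⟩, ?_⟩
        simp
      obtain ⟨s, hs, hsx⟩ := h1
      have h2 : s⁻¹ * x ∈ N := by
        rw [← hker, MonoidHom.mem_ker, map_mul, map_inv, hsx, inv_mul_cancel]
      have h3 : x = (x * s⁻¹) * s := by group
      rw [h3]
      refine mul_mem ?_ ((le_sup_right : S ≤ N ⊔ S) hs)
      apply (le_sup_left : N ≤ N ⊔ S)
      have h4 : x * s⁻¹ = s * (s⁻¹ * x) * s⁻¹ := by group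
      rw [h4]
      exact hN.conj_mem _ h2 s
    have hNcard : Nat.card N = (⊥ : Subgroup G).relIndex N := by
      rw [Subgroup.relIndex_bot_left]
    have hcN := hc 0
    have e0 : H (Fin.castSucc (0 : Fin (n + 1))) = ⊥ := by
      rw [← h0]
      rfl
    have e1 : H (Fin.succ (0 : Fin (n + 1))) = N := rfl
    rw [e0, e1, ← hNcard] at hcN
    rcases hcN with ⟨k, hk⟩ | hcop
    · -- `N` is a `p`-group
      have hNV : (Nat.card N).Coprime (Nat.card V) := by
        rw [hk]
        exact (Nat.Coprime.pow_left k hVcard.symm)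
      have hNS : (Nat.card N).Coprime (Nat.card S) := by
        rw [hk]
        exact (Nat.Coprime.pow_left k hS.symm)
      set T := N ⊔ V with hT
      have hcT1 : Nat.card T = Nat.card N * Nat.card V :=
        Cfsg.Agent.Lib.SchurZ.card_sup_of_disjoint N V
          (Cfsg.Agent.Lib.SchurZ.inf_eq_bot_of_coprime hNV)
      have hTdec : T = N ⊔ (T ⊓ S) := by
        apply le_antisymm
        · intro x hx
          have hx2 : x ∈ N ⊔ S := sup_le le_sup_left hVle hx
          obtain ⟨a, ha, s, hs, rfl⟩ := Subgroup.mem_sup_of_normal_left.mp hx2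
          refine mul_mem ((le_sup_left : N ≤ N ⊔ (T ⊓ S)) ha) ((le_sup_right : T ⊓ S ≤ N ⊔ (T ⊓ S)) ⟨?_, hs⟩)
          have h5 : s = a⁻¹ * (a * s) := by group
          rw [h5]
          exact mul_mem ((le_sup_left : N ≤ T) (inv_mem ha)) hx
        · exact sup_le le_sup_left inf_le_left
      have hcT2 : Nat.card T = Nat.card N * Nat.card (T ⊓ S : Subgroup G) := by
        conv_lhs => rw [hTdec]
        refine Cfsg.Agent.Lib.SchurZ.card_sup_of_disjoint N (T ⊓ S) ?_
        refine Cfsg.Agent.Lib.SchurZ.inf_eq_bot_of_coprime ?_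
        exact Nat.Coprime.coprime_dvd_right (Subgroup.card_dvd_of_le inf_le_right) hNS
      have hcard : Nat.card (T ⊓ S : Subgroup G) = Nat.card V := by
        have hpos : 0 < Nat.card N := Nat.card_pos
        exact Nat.eq_of_mul_eq_mul_left hpos (hcT2.symm.trans hcT1)
      obtain ⟨a, ha, hae⟩ := Cfsg.Agent.Lib.SchurZ.sz_conj_ambient N V (T ⊓ S)
        (by rw [Subgroup.normalizer_eq_top_iff.mpr hN]; exact le_top)
        inf_le_left hcard hNV
        (Or.inl (by
          have hpg : IsPGroup p N := IsPGroup.of_card hk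
          haveI := hpg.isNilpotent
          infer_instance))
      refine ⟨a * g, ?_⟩
      have h6 : U.map (MulAut.conj (a * g)).toMonoidHom = V.map (MulAut.conj a).toMonoidHom := by
        rw [hV, Subgroup.map_map]
        congr 1
        ext x
        simp [mul_assoc]
      rw [h6, hae]
      exact inf_le_right
    · -- `N` has order prime to `p`
      refine ⟨g, ?_⟩
      have hNS : N ≤ S := by
        set W := N ⊔ S with hW
        have h1 := Cfsg.Agent.Lib.SchurZ2.card_sup_mul_card_inf N S (by
          rw [Subgroup.normalizer_eq_top_iff.mpr hN]; exact le_top)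
        have h2 : (Nat.card W).Coprime p := by
          have h3 : Nat.card W ∣ Nat.card N * Nat.card S := by
            rw [← h1]
            exact dvd_mul_right _ _
          exact Nat.Coprime.coprime_dvd_left h3 (Nat.Coprime.mul_left hcop hS)
        have hSW : S ≤ W := le_sup_right
        have h3 : S.relIndex W ∣ p ^ m := by
          rw [← hm]
          rw [← Subgroup.relIndex_mul_index hSW]
          exact dvd_mul_right _ _
        have h4 : S.relIndex W ∣ Nat.card W := Subgroup.relIndex_dvd_card S W
        have h5 : S.relIndex W = 1 := by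
          have h6 : (S.relIndex W).Coprime (p ^ m) :=
            Nat.Coprime.pow_right m (Nat.Coprime.coprime_dvd_left h4 h2)
          exact Nat.Coprime.eq_one_of_dvd h6 h3
        have h7 : W ≤ S := Subgroup.relIndex_eq_one.mp h5
        exact le_trans le_sup_left h7
      rw [sup_eq_right.mpr hNS] at hVle
      exact hVle

/-- A finite p-soluble group has a p-complement, all its p-complements are conjugate, and every subgroup of order prime to p lies in one of them. Here a p-complement is a subgroup of order prime to p whose index is a power of p. -/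
theorem result {G : Type*} [Group G] [Finite G] {p : ℕ} [Fact p.Prime] (hG : Cfsg.IsPSolvable p G) : (∃ H : Subgroup G, (Nat.card H).Coprime p ∧ ∃ n : ℕ, H.index = p ^ n) ∧ (∀ H₁ H₂ : Subgroup G, (Nat.card H₁).Coprime p → (∃ n : ℕ, H₁.index = p ^ n) → (Nat.card H₂).Coprime p → (∃ n : ℕ, H₂.index = p ^ n) → ∃ g : G, H₂ = H₁.map (MulAut.conj g).toMonoidHom) ∧ (∀ U : Subgroup G, (Nat.card U).Coprime p → ∃ H : Subgroup G, (Nat.card H).Coprime p ∧ (∃ n : ℕ, H.index = p ^ n) ∧ ∃ g : G, U.map (MulAut.conj g).toMonoidHom ≤ H) := by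
  have key : ∀ S U : Subgroup G, (Nat.card S).Coprime p → (∃ m : ℕ, S.index = p ^ m) → (Nat.card U).Coprime p →
      ∃ g : G, U.map (MulAut.conj g).toMonoidHom ≤ S := by
    obtain ⟨n, H, h0, hl, hmono, hnorm, hc⟩ := hG
    exact conj_into_chain p n G H h0 hl hmono hnorm hc
  obtain ⟨S, hS, hSi⟩ := Cfsg.Agent.Lib.H6Hall.exists_hall p hG
  refine ⟨⟨S, hS, hSi⟩, ?_, ?_⟩
  · intro H₁ H₂ h1 ⟨a, ha⟩ h2 ⟨b, hb⟩
    obtain ⟨g, hg⟩ := key H₂ H₁ h2 ⟨b, hb⟩ h1
    refine ⟨g, ?_⟩
    have hc1 : Nat.card H₁ * p ^ a = Nat.card G := by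
      rw [← ha, Subgroup.card_mul_index]
    have hc2 : Nat.card H₂ * p ^ b = Nat.card G := by
      rw [← hb, Subgroup.card_mul_index]
    have hcard : Nat.card H₁ = Nat.card H₂ := by
      have h3 : Nat.card H₁ ∣ Nat.card H₂ := by
        have h4 : Nat.card H₁ ∣ Nat.card H₂ * p ^ b := by
          rw [hc2, ← hc1]
          exact dvd_mul_right _ _
        exact Nat.Coprime.dvd_of_dvd_mul_right (Nat.Coprime.pow_right b h1) h4
      have h5 : Nat.card H₂ ∣ Nat.card H₁ := by
        have h4 : Nat.card H₂ ∣ Nat.card H₁ * p ^ a := by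
          rw [hc1, ← hc2]
          exact dvd_mul_right _ _
        exact Nat.Coprime.dvd_of_dvd_mul_right (Nat.Coprime.pow_right a h2) h4
      exact Nat.dvd_antisymm h3 h5
    refine (Subgroup.eq_of_le_of_card_ge hg ?_).symm
    rw [card_map_conj', hcard]
  · intro U hU
    obtain ⟨g, hg⟩ := key S U hS hSi hU
    exact ⟨S, hS, hSi, g, hg⟩

end Cfsg.Agent.S3744
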