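import Mathlib
import Cfsg.Statements.S3745
import Cfsg.Agent.Lib.H6Glaub
import Cfsg.Agent.Lib.Hall
-- import your own Cfsg.Agent.* helpers here

set_option autoImplicit false
open Cfsg

namespace Cfsg.Agent.S3745

universe u

set_option linter.unusedSectionVars false
set_option linter.style.haveILetI false

open Cfsg.Agent.Lib.SchurZ Cfsg.Agent.Lib.SchurZ2 Cfsg.Agent.Lib.H6Glaub Cfsg.Agent.Lib.Commutators

theorem split_pi (π : Set ℕ) : ∀ N : ℕ, 0 < N → ∃ m n : ℕ, N = m * n ∧ (∀ p : ℕ, p.Prime → p ∣ m → p ∈ π) ∧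
    (∀ p : ℕ, p.Prime → p ∣ n → p ∉ π) := by
  intro N
  induction N using Nat.strong_induction_on with
  | _ N ih =>
    intro hN
    by_cases h1 : N = 1
    · subst h1
      refine ⟨1, 1, rfl, ?_, ?_⟩
      · intro p hp hd
        exact absurd (Nat.dvd_one.mp hd) hp.ne_one
      · intro p hp hd
        exact absurd (Nat.dvd_one.mp hd) hp.ne_one
    · have hp := Nat.minFac_prime h1
      obtain ⟨N', hN'⟩ := Nat.minFac_dvd N
      set q := N.minFac with hq
      have hpos : 0 < N' := by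
        rcases Nat.eq_zero_or_pos N' with h | h
        · rw [h, mul_zero] at hN'
          omega
        · exact h
      have hlt : N' < N := by
        rw [hN']
        have := hp.two_le
        nlinarith
      obtain ⟨m, n, he, hm, hn⟩ := ih N' hlt hpos
      by_cases hqπ : q ∈ π
      · refine ⟨q * m, n, by rw [hN', he, mul_assoc], ?_, hn⟩
        intro p hpp hd
        rcases (Nat.Prime.dvd_mul hpp).mp hd with h | h
        · rwa [(Nat.prime_dvd_prime_iff_eq hpp hp).mp h]
        · exact hm p hpp h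
      · refine ⟨m, q * n, by rw [hN', he]; ring, hm, ?_⟩
        intro p hpp hd
        rcases (Nat.Prime.dvd_mul hpp).mp hd with h | h
        · rwa [(Nat.prime_dvd_prime_iff_eq hpp hp).mp h]
        · exact hn p hpp h

theorem cop_of_pi {π : Set ℕ} {m n : ℕ} (hm : ∀ p : ℕ, p.Prime → p ∣ m → p ∈ π)
    (hn : ∀ p : ℕ, p.Prime → p ∣ n → p ∉ π) : m.Coprime n :=
  Nat.coprime_of_dvd (fun k hk h1 h2 => hn k hk h2 (hm k hk h1))

theorem eq_of_split {π : Set ℕ} {m n m' n' : ℕ} (hm : ∀ p : ℕ, p.Prime → p ∣ m → p ∈ π)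
    (hn : ∀ p : ℕ, p.Prime → p ∣ n → p ∉ π) (hm' : ∀ p : ℕ, p.Prime → p ∣ m' → p ∈ π)
    (hn' : ∀ p : ℕ, p.Prime → p ∣ n' → p ∉ π) (h : m * n = m' * n') : m = m' := by
  apply Nat.dvd_antisymm
  · exact (cop_of_pi hm hn').dvd_of_dvd_mul_right (h ▸ dvd_mul_right m n)
  · exact (cop_of_pi hm' hn).dvd_of_dvd_mul_right (h.symm ▸ dvd_mul_right m' n')

section
variable {X : Type u} [Group X] [Finite X]

theorem card_rel {H K : Subgroup X} (h : H ≤ K) : Nat.card H * H.relIndex K = Nat.card K := by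
  have := Subgroup.relIndex_mul_relIndex (⊥ : Subgroup X) H K bot_le h
  simpa [Subgroup.relIndex_bot_left] using this

theorem hall_rel {π : Set ℕ} {H G : Subgroup X} (h : Cfsg.IsPiHallOf π H G) :
    ∀ p : ℕ, p.Prime → p ∣ H.relIndex G → p ∉ π :=
  fun p hp hd hpi => h.2.2 p hp hpi hd

theorem hall_of_card {π : Set ℕ} {H G : Subgroup X} (hle : H ≤ G) (hH : ∀ p : ℕ, p.Prime → p ∣ Nat.card H → p ∈ π)
    {r : ℕ} (hr : ∀ p : ℕ, p.Prime → p ∣ r → p ∉ π) (hc : Nat.card G = Nat.card H * r) : Cfsg.IsPiHallOf π H G := by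
  refine ⟨hle, hH, ?_⟩
  have h1 := card_rel hle
  have h2 : H.relIndex G = r := by
    rw [hc] at h1
    exact Nat.eq_of_mul_eq_mul_left Nat.card_pos h1
  intro p hp hpi hd
  rw [h2] at hd
  exact hr p hp hd hpi

theorem conj_map_card' (H : Subgroup X) (g : X) : Nat.card (H.map (MulAut.conj g).toMonoidHom) = Nat.card H :=
  Subgroup.card_map_of_injective (MulAut.conj g).injective

theorem hall_map_conj {π : Set ℕ} {H G : Subgroup X} (h : Cfsg.IsPiHallOf π H G) {t : X}
    (ht : t ∈ Subgroup.normalizer (G : Set X)) : Cfsg.IsPiHallOf π (H.map (MulAut.conj t).toMonoidHom) G := by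
  refine hall_of_card (r := H.relIndex G) ?_ ?_ (hall_rel h) ?_
  · rintro _ ⟨x, hx, rfl⟩
    exact conj_mem_of_mem_normalizer ht (h.1 hx)
  · rw [conj_map_card']
    exact h.2.1
  · rw [conj_map_card', card_rel h.1]

theorem hall_conj_amb {π : Set ℕ} {H U G : Subgroup X} (hsolv : Group.IsSolvable G) (h : Cfsg.IsPiHallOf π H G) (hUG : U ≤ G)
    (hU : ∀ p : ℕ, p.Prime → p ∣ Nat.card U → p ∈ π) : ∃ y ∈ G, U ≤ H.map (MulAut.conj y).toMonoidHom := by
  haveI := hsolv
  have hcH : Nat.card (H.subgroupOf G) = Nat.card H :=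
    Nat.card_congr (Subgroup.subgroupOfEquivOfLe h.1).toEquiv
  have hcU : Nat.card (U.subgroupOf G) = Nat.card U :=
    Nat.card_congr (Subgroup.subgroupOfEquivOfLe hUG).toEquiv
  obtain ⟨g, hg⟩ := Cfsg.Agent.Lib.Hall.hall_conj _ G (Nat.card H) (H.relIndex G) rfl
    (card_rel h.1).symm (cop_of_pi h.2.1 (hall_rel h)) (H.subgroupOf G) (U.subgroupOf G) hcH
    (by rw [hcU]; exact cop_of_pi hU (hall_rel h))
  refine ⟨g, g.2, ?_⟩
  intro u hu
  have h1 : (⟨u, hUG hu⟩ : G) ∈ U.subgroupOf G := Subgroup.mem_subgroupOf.mpr hu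
  obtain ⟨z, hz, hze⟩ := hg h1
  refine ⟨z, Subgroup.mem_subgroupOf.mp hz, ?_⟩
  have := congrArg Subtype.val hze
  simpa using this

theorem hall_conj_eq {π : Set ℕ} {H₁ H₂ G : Subgroup X} (hsolv : Group.IsSolvable G) (h₁ : Cfsg.IsPiHallOf π H₁ G)
    (h₂ : Cfsg.IsPiHallOf π H₂ G) : ∃ y ∈ G, H₂ = H₁.map (MulAut.conj y).toMonoidHom := by
  obtain ⟨y, hy, hle⟩ := hall_conj_amb hsolv h₁ h₂.1 h₂.2.1
  refine ⟨y, hy, Subgroup.eq_of_le_of_card_ge hle ?_⟩
  rw [conj_map_card']
  have := eq_of_split h₁.2.1 (hall_rel h₁) h₂.2.1 (hall_rel h₂)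
    ((card_rel h₁.1).trans (card_rel h₂.1).symm)
  rw [this]

theorem exists_hall_pi (π : Set ℕ) (G : Subgroup X) (hsolv : Group.IsSolvable G) : ∃ H : Subgroup X, Cfsg.IsPiHallOf π H G := by
  haveI := hsolv
  obtain ⟨m, n, he, hm, hn⟩ := split_pi π (Nat.card G) Nat.card_pos
  obtain ⟨H', hH'⟩ := Cfsg.Agent.Lib.Hall.hall_exists _ G m n rfl he (cop_of_pi hm hn)
  have hc : Nat.card (H'.map G.subtype) = m := by
    rw [← hH']
    exact Subgroup.card_map_of_injective G.subtype_injective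
  refine ⟨H'.map G.subtype, hall_of_card (Subgroup.map_subtype_le _) ?_ hn ?_⟩
  · rw [hc]
    exact hm
  · rw [hc]
    exact he

theorem exists_hall_inv (π : Set ℕ) (A G : Subgroup X) (hAG : A ≤ Subgroup.normalizer (G : Set X))
    (hcop : (Nat.card A).Coprime (Nat.card G)) (hsolv : Group.IsSolvable G) :
    ∃ H : Subgroup X, Cfsg.IsPiHallOf π H G ∧ A ≤ Subgroup.normalizer (H : Set X) := by
  obtain ⟨H₀, hH₀⟩ := exists_hall_pi π G hsolv
  have hTN : G ⊔ A ≤ Subgroup.normalizer (G : Set X) := sup_le Subgroup.le_normalizer hAG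
  obtain ⟨n, hn, hnA⟩ := glaub_exists A G H₀ hAG hcop.symm (Or.inl hsolv) (by
    intro t ht
    have h1 := hall_map_conj hH₀ (hTN ht)
    obtain ⟨y, hy, hye⟩ := hall_conj_eq hsolv h1 hH₀
    refine ⟨y, hy, ?_⟩
    apply Cfsg.Agent.Lib.H5Basic.mem_normalizer_of_map_conj_le
    have h2 : H₀.map (MulAut.conj (y * t)).toMonoidHom =
        (H₀.map (MulAut.conj t).toMonoidHom).map (MulAut.conj y).toMonoidHom := by
      rw [Subgroup.map_map]
      congr 1
      ext x
      simp [mul_assoc]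
    rw [h2, ← hye])
  exact ⟨_, hall_map_conj hH₀ (Subgroup.le_normalizer hn), hnA⟩

theorem hall_inv_conj {π : Set ℕ} (A G H₁ H₂ : Subgroup X) (hAG : A ≤ Subgroup.normalizer (G : Set X))
    (hcop : (Nat.card A).Coprime (Nat.card G)) (hsolv : Group.IsSolvable G) (h₁ : Cfsg.IsPiHallOf π H₁ G)
    (hA₁ : A ≤ Subgroup.normalizer (H₁ : Set X)) (h₂ : Cfsg.IsPiHallOf π H₂ G)
    (hA₂ : A ≤ Subgroup.normalizer (H₂ : Set X)) :
    ∃ c ∈ G ⊓ Subgroup.centralizer (A : Set X), H₂ = H₁.map (MulAut.conj c).toMonoidHom := by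
  obtain ⟨y, hy, hye⟩ := hall_conj_eq hsolv h₁ h₂
  obtain ⟨c, hc, hc2, hc3⟩ := glaub_conj A G H₁ H₂ hAG hcop.symm (Or.inl hsolv) y hy hye hA₁ hA₂
  exact ⟨c, ⟨hc, hc2⟩, hc3⟩

end


section
variable {X : Type u} [Group X] [Finite X]

theorem card_map_mk_mul {K M : Subgroup X} [M.Normal] (h : M ≤ K) :
    Nat.card (K.map (QuotientGroup.mk' M)) * Nat.card M = Nat.card K := by
  let ψ : K →* X ⧸ M := (QuotientGroup.mk' M).comp K.subtype
  have h1 : ψ.range = K.map (QuotientGroup.mk' M) := by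
    rw [MonoidHom.range_comp, Subgroup.range_subtype]
  have h2 : Nat.card ψ.ker = Nat.card M := by
    apply Nat.card_congr
    refine ⟨fun k => ⟨(k.1 : X), ?_⟩, fun x => ⟨⟨x.1, h x.2⟩, ?_⟩, ?_, ?_⟩
    · have := k.2
      rw [MonoidHom.mem_ker] at this
      exact (QuotientGroup.eq_one_iff _).mp this
    · rw [MonoidHom.mem_ker]
      exact (QuotientGroup.eq_one_iff _).mpr x.2
    · intro k
      rfl
    · intro x
      rfl
  rw [← h1, ← h2]
  have h3 := Subgroup.card_mul_index ψ.ker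
  rw [Subgroup.index_ker] at h3
  rw [mul_comm]
  exact h3

/-- The containment statement when a normal subgroup of the ambient group is available. -/
theorem contain_step (π : Set ℕ) (n : ℕ)
    (IH : ∀ m < n, ∀ (X : Type u) [Group X] [Finite X] (A G U : Subgroup X), Nat.card G = m →
      A ≤ Subgroup.normalizer (G : Set X) → (Nat.card A).Coprime (Nat.card G) → Group.IsSolvable G → U ≤ G →
      A ≤ Subgroup.normalizer (U : Set X) → (∀ p : ℕ, p.Prime → p ∣ Nat.card U → p ∈ π) →
      ∃ H : Subgroup X, Cfsg.IsPiHallOf π H G ∧ A ≤ Subgroup.normalizer (H : Set X) ∧ U ≤ H)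
    (A G U : Subgroup X) (hn : Nat.card G = n) (hAG : A ≤ Subgroup.normalizer (G : Set X))
    (hcop : (Nat.card A).Coprime (Nat.card G)) (hsolv : Group.IsSolvable G) (hUG : U ≤ G)
    (hAU : A ≤ Subgroup.normalizer (U : Set X)) (hU : ∀ p : ℕ, p.Prime → p ∣ Nat.card U → p ∈ π)
    (M : Subgroup X) [hMn : M.Normal] (hMG : M ≤ G) (hM1 : M ≠ ⊥)
    (hM : (∀ p : ℕ, p.Prime → p ∣ Nat.card M → p ∈ π) ∨ (∀ p : ℕ, p.Prime → p ∣ Nat.card M → p ∉ π)) :
    ∃ H : Subgroup X, Cfsg.IsPiHallOf π H G ∧ A ≤ Subgroup.normalizer (H : Set X) ∧ U ≤ H := by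
  let f : X →* X ⧸ M := QuotientGroup.mk' M
  have hf : Function.Surjective f := QuotientGroup.mk'_surjective M
  have hfk : ∀ x, f x = 1 ↔ x ∈ M := fun x => QuotientGroup.eq_one_iff x
  have hcG : Nat.card (G.map f) * Nat.card M = Nat.card G := card_map_mk_mul hMG
  have hMpos : 1 < Nat.card M := (Subgroup.one_lt_card_iff_ne_bot M).mpr hM1
  have hlt : Nat.card (G.map f) < n := by
    rw [← hn, ← hcG]
    have : 0 < Nat.card (G.map f) := Nat.card_pos
    nlinarith
  have hnorm_map : ∀ (S : Subgroup X), A ≤ Subgroup.normalizer (S : Set X) →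
      A.map f ≤ Subgroup.normalizer ((S.map f : Subgroup (X ⧸ M)) : Set (X ⧸ M)) := by
    rintro S hS _ ⟨a, ha, rfl⟩
    apply Cfsg.Agent.Lib.H5Basic.mem_normalizer_of_map_conj_le
    rintro _ ⟨_, ⟨s, hs, rfl⟩, rfl⟩
    refine ⟨a * s * a⁻¹, conj_mem_of_mem_normalizer (hS ha) hs, ?_⟩
    simp
  obtain ⟨Hb, hHb, hAHb, hUHb⟩ := IH _ hlt (X ⧸ M) (A.map f) (G.map f) (U.map f) rfl (hnorm_map G hAG)
    (Nat.Coprime.coprime_dvd_left (Subgroup.card_map_dvd A f)
      (Nat.Coprime.coprime_dvd_right (Subgroup.card_map_dvd G f) hcop))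
    (by
      haveI := hsolv
      exact Group.isSolvable_of_surjective (f := f.subgroupMap G) (f.subgroupMap_surjective G))
    (Subgroup.map_mono hUG) (hnorm_map U hAU)
    (fun p hp hd => hU p hp (hd.trans (Subgroup.card_map_dvd U f)))
  let H₁ : Subgroup X := Hb.comap f
  have hMH₁ : M ≤ H₁ := by
    intro x hx
    have : f x = 1 := (hfk x).mpr hx
    show f x ∈ Hb
    rw [this]
    exact one_mem _
  have hH₁map : H₁.map f = Hb := Subgroup.map_comap_eq_self_of_surjective hf Hb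
  have hH₁G : H₁ ≤ G := by
    intro x hx
    obtain ⟨g, hg, hge⟩ := hHb.1 hx
    have h1 : g⁻¹ * x ∈ M := by
      rw [← hfk, map_mul, map_inv, hge, inv_mul_cancel]
    have h2 : x = g * (g⁻¹ * x) := by group
    rw [h2]
    exact mul_mem hg (hMG h1)
  have hAH₁ : A ≤ Subgroup.normalizer (H₁ : Set X) := by
    intro a ha
    apply Cfsg.Agent.Lib.H5Basic.mem_normalizer_of_map_conj_le
    rintro _ ⟨x, hx, rfl⟩
    have h1 : f a ∈ A.map f := ⟨a, ha, rfl⟩
    have h2 := conj_mem_of_mem_normalizer (hAHb h1) (show f x ∈ Hb from hx)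
    show f (a * x * a⁻¹) ∈ Hb
    have h3 : f (a * x * a⁻¹) = f a * f x * (f a)⁻¹ := by simp
    rw [h3]
    exact h2
  have hcH₁ : Nat.card Hb * Nat.card M = Nat.card H₁ := by
    have h1 := card_map_mk_mul hMH₁
    have h2 : H₁.map (QuotientGroup.mk' M) = Hb := hH₁map
    rwa [h2] at h1
  have hrel : H₁.relIndex G = Hb.relIndex (G.map f) := by
    have h1 := card_rel hH₁G
    have h2 := card_rel hHb.1
    rw [← hcG, ← h2, ← hcH₁] at h1
    have hpos : 0 < Nat.card Hb * Nat.card M := Nat.mul_pos Nat.card_pos Nat.card_pos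
    apply Nat.eq_of_mul_eq_mul_left hpos
    rw [h1]
    ring
  have hUH₁ : U ≤ H₁ := fun u hu => hUHb ⟨u, hu, rfl⟩
  have hrelπ : ∀ p : ℕ, p.Prime → p ∣ H₁.relIndex G → p ∉ π := by
    rw [hrel]
    exact hall_rel hHb
  rcases hM with hMπ | hMπ'
  · refine ⟨H₁, ⟨hH₁G, ?_, ?_⟩, hAH₁, hUH₁⟩
    · intro p hp hd
      rw [← hcH₁] at hd
      rcases (Nat.Prime.dvd_mul hp).mp hd with h | h
      · exact hHb.2.1 p hp h
      · exact hMπ p hp h
    · intro p hp hpi hd
      exact hrelπ p hp hd hpi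
  · by_cases hH₁e : H₁ = G
    · obtain ⟨L, hL, hAL⟩ := exists_hall_inv π A G hAG hcop hsolv
      have hcG2 : Nat.card G = Nat.card Hb * Nat.card M := by
        rw [hcH₁, hH₁e]
      have hcL : Nat.card L = Nat.card Hb := by
        have h2 : Nat.card Hb * Nat.card M = Nat.card L * L.relIndex G := by
          rw [← hcG2, card_rel hL.1]
        exact (eq_of_split hHb.2.1 hMπ' hL.2.1 (hall_rel hL) h2).symm
      have hdML : (Nat.card M).Coprime (Nat.card L) := (cop_of_pi hL.2.1 hMπ').symm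
      have hsupML : M ⊔ L = G := by
        apply Subgroup.eq_of_le_of_card_ge (sup_le hMG hL.1)
        rw [card_sup_of_disjoint M L (inf_eq_bot_of_coprime hdML), hcL, hcG2, mul_comm]
      have hdMU : (Nat.card M).Coprime (Nat.card U) := (cop_of_pi hU hMπ').symm
      set V := M ⊔ U with hV
      have hVG : V ≤ G := sup_le hMG hUG
      have hcV : Nat.card V = Nat.card M * Nat.card U :=
        card_sup_of_disjoint M U (inf_eq_bot_of_coprime hdMU)
      set L₁ := V ⊓ L with hL₁
      have hVdec : V = M ⊔ L₁ := by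
        apply le_antisymm
        · intro v hv
          have hv2 : v ∈ M ⊔ L := by
            rw [hsupML]
            exact hVG hv
          obtain ⟨m, hm, l, hl, rfl⟩ := Subgroup.mem_sup_of_normal_left.mp hv2
          refine mul_mem ((le_sup_left : M ≤ M ⊔ L₁) hm) ((le_sup_right : L₁ ≤ M ⊔ L₁) ⟨?_, hl⟩)
          have h5 : l = m⁻¹ * (m * l) := by group
          rw [h5]
          exact mul_mem ((le_sup_left : M ≤ V) (inv_mem hm)) hv
        · exact sup_le le_sup_left inf_le_left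
      have hcV2 : Nat.card V = Nat.card M * Nat.card L₁ := by
        conv_lhs => rw [hVdec]
        refine card_sup_of_disjoint M L₁ (inf_eq_bot_of_coprime ?_)
        exact Nat.Coprime.coprime_dvd_right (Subgroup.card_dvd_of_le inf_le_right) hdML
      have hL₁π : ∀ p : ℕ, p.Prime → p ∣ Nat.card L₁ → p ∈ π := fun p hp hd =>
        hL.2.1 p hp (hd.trans (Subgroup.card_dvd_of_le inf_le_right))
      have hU_V : Cfsg.IsPiHallOf π U V :=
        hall_of_card le_sup_right hU hMπ' (by rw [hcV, mul_comm])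
      have hL₁_V : Cfsg.IsPiHallOf π L₁ V :=
        hall_of_card inf_le_left hL₁π hMπ' (by rw [hcV2, mul_comm])
      have hAV : A ≤ Subgroup.normalizer (V : Set X) := by
        intro a ha
        apply Cfsg.Agent.Lib.H5Basic.mem_normalizer_of_map_conj_le
        rw [hV, Subgroup.map_sup]
        apply sup_le_sup
        · rintro _ ⟨x, hx, rfl⟩
          exact hMn.conj_mem x hx a
        · rintro _ ⟨x, hx, rfl⟩
          exact conj_mem_of_mem_normalizer (hAU ha) hx
      have hAL₁ : A ≤ Subgroup.normalizer (L₁ : Set X) := by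
        intro a ha
        apply Cfsg.Agent.Lib.H5Basic.mem_normalizer_of_map_conj_le
        rintro _ ⟨x, hx, rfl⟩
        exact ⟨conj_mem_of_mem_normalizer (hAV ha) hx.1, conj_mem_of_mem_normalizer (hAL ha) hx.2⟩
      obtain ⟨c, ⟨hcV', hcA⟩, hce⟩ := hall_inv_conj A V L₁ U hAV
        (Nat.Coprime.coprime_dvd_right (Subgroup.card_dvd_of_le hVG) hcop) (isSolvable_of_le hVG hsolv)
        hL₁_V hAL₁ hU_V hAU
      refine ⟨L.map (MulAut.conj c).toMonoidHom, hall_map_conj hL (Subgroup.le_normalizer (hVG hcV')), ?_, ?_⟩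
      · intro a ha
        apply Cfsg.Agent.Lib.H5Basic.mem_normalizer_of_map_conj_le
        rintro _ ⟨_, ⟨l, hl, rfl⟩, rfl⟩
        refine ⟨a * l * a⁻¹, conj_mem_of_mem_normalizer (hAL ha) hl, ?_⟩
        have hac : a * c = c * a := Subgroup.mem_centralizer_iff.mp hcA a ha
        have hac2 : c⁻¹ * a⁻¹ = a⁻¹ * c⁻¹ := by
          rw [← mul_inv_rev, ← mul_inv_rev, hac]
        simp only [MulEquiv.coe_toMonoidHom, MulAut.conj_apply]
        calc c * (a * l * a⁻¹) * c⁻¹ = (c * a) * l * (a⁻¹ * c⁻¹) := by group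
          _ = (a * c) * l * (c⁻¹ * a⁻¹) := by rw [hac, hac2]
          _ = a * (c * l * c⁻¹) * a⁻¹ := by group
      · rw [hce]
        exact Subgroup.map_mono inf_le_right
    · have hlt2 : Nat.card H₁ < n := by
        rw [← hn]
        exact lt_of_le_of_ne (Subgroup.card_le_of_le hH₁G)
          (fun h => hH₁e (Subgroup.eq_of_le_of_card_ge hH₁G h.ge))
      obtain ⟨H, hH, hAH, hUH⟩ := IH _ hlt2 X A H₁ U rfl hAH₁
        (Nat.Coprime.coprime_dvd_right (Subgroup.card_dvd_of_le hH₁G) hcop) (isSolvable_of_le hH₁G hsolv) hUH₁ hAU hU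
      refine ⟨H, ⟨hH.1.trans hH₁G, hH.2.1, ?_⟩, hAH, hUH⟩
      intro p hp hpi hd
      rw [← Subgroup.relIndex_mul_relIndex H H₁ G hH.1 hH₁G] at hd
      rcases (Nat.Prime.dvd_mul hp).mp hd with h | h
      · exact hH.2.2 p hp hpi h
      · exact hrelπ p hp h hpi

theorem contain (π : Set ℕ) : ∀ (n : ℕ) (X : Type u) [Group X] [Finite X] (A G U : Subgroup X), Nat.card G = n →
      A ≤ Subgroup.normalizer (G : Set X) → (Nat.card A).Coprime (Nat.card G) → Group.IsSolvable G → U ≤ G →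
      A ≤ Subgroup.normalizer (U : Set X) → (∀ p : ℕ, p.Prime → p ∣ Nat.card U → p ∈ π) →
      ∃ H : Subgroup X, Cfsg.IsPiHallOf π H G ∧ A ≤ Subgroup.normalizer (H : Set X) ∧ U ≤ H := by
  intro n
  induction n using Nat.strong_induction_on with
  | _ n ih =>
    intro X _ _ A G U hn hAG hcop hsolv hUG hAU hU
    by_cases hG1 : G = ⊥
    · refine ⟨⊥, hall_of_card (r := 1) bot_le ?_ ?_ ?_, ?_, ?_⟩
      · intro p hp hd
        rw [Subgroup.card_bot] at hd
        exact absurd (Nat.dvd_one.mp hd) hp.ne_one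
      · intro p hp hd
        exact absurd (Nat.dvd_one.mp hd) hp.ne_one
      · rw [hG1]
        simp
      · intro a _
        apply Cfsg.Agent.Lib.H5Basic.mem_normalizer_of_map_conj_le
        rw [Subgroup.map_bot]
      · rw [← hG1]
        exact hUG
    · let T : Subgroup X := G ⊔ A
      have hGT : G ≤ T := le_sup_left
      have hAT : A ≤ T := le_sup_right
      have hUT : U ≤ T := hUG.trans hGT
      have hTN : T ≤ Subgroup.normalizer (G : Set X) := sup_le Subgroup.le_normalizer hAG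
      let G' : Subgroup T := G.subgroupOf T
      let A' : Subgroup T := A.subgroupOf T
      let U' : Subgroup T := U.subgroupOf T
      haveI hG'n : G'.Normal := Subgroup.normal_subgroupOf_of_le_normalizer hTN
      have hcG' : Nat.card G' = Nat.card G := Nat.card_congr (Subgroup.subgroupOfEquivOfLe hGT).toEquiv
      have hcA' : Nat.card A' = Nat.card A := Nat.card_congr (Subgroup.subgroupOfEquivOfLe hAT).toEquiv
      have hcU' : Nat.card U' = Nat.card U := Nat.card_congr (Subgroup.subgroupOfEquivOfLe hUT).toEquiv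
      have hsG' : Group.IsSolvable G' := by
        haveI := hsolv
        exact Group.isSolvable_of_isSolvable_injective (f := (Subgroup.subgroupOfEquivOfLe hGT).toMonoidHom)
          (Subgroup.subgroupOfEquivOfLe hGT).injective
      have hG'1 : G' ≠ ⊥ := by
        intro h
        apply hG1
        rw [eq_bot_iff]
        intro x hx
        have h1 : (⟨x, hGT hx⟩ : T) ∈ G' := Subgroup.mem_subgroupOf.mpr hx
        rw [h, Subgroup.mem_bot] at h1
        have := congrArg Subtype.val h1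
        simpa using this
      obtain ⟨Z, hZn, hZG, hZ1, hZc⟩ := exists_abelian_normal G' hsG' hG'1
      have hZcard : Nat.card Z ≠ 1 := by
        intro h
        exact hZ1 (Subgroup.eq_bot_of_card_eq Z h)
      obtain ⟨p, hp, hpd⟩ := Nat.exists_prime_and_dvd hZcard
      haveI : Fact p.Prime := ⟨hp⟩
      let M : Subgroup T :=
        { carrier := {x | x ∈ Z ∧ ∃ k : ℕ, x ^ p ^ k = 1}
          one_mem' := ⟨one_mem _, 0, one_pow _⟩
          mul_mem' := by
            rintro x y ⟨hx, k, hk⟩ ⟨hy, l, hl⟩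
            refine ⟨mul_mem hx hy, k + l, ?_⟩
            have hc : Commute x y := hZc x hx y hy
            rw [hc.mul_pow, pow_add, pow_mul, hk, one_pow, one_mul, mul_comm (p ^ k), pow_mul, hl, one_pow]
          inv_mem' := by
            rintro x ⟨hx, k, hk⟩
            exact ⟨inv_mem hx, k, by rw [inv_pow, hk, inv_one]⟩ }
      haveI hMn : M.Normal := by
        constructor
        rintro x ⟨hx, k, hk⟩ g
        exact ⟨hZn.conj_mem x hx g, k, by rw [conj_pow, hk]; group⟩
      have hMp : IsPGroup p M := by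
        rintro ⟨x, hx, k, hk⟩
        exact ⟨k, Subtype.ext hk⟩
      have hM1 : M ≠ ⊥ := by
        haveI : Fact p.Prime := ⟨hp⟩
        obtain ⟨z, hz⟩ := exists_prime_orderOf_dvd_card' p hpd
        intro h
        have h1 : (z : T) ∈ M := ⟨z.2, 1, by
          rw [pow_one]
          have := pow_orderOf_eq_one z
          rw [hz] at this
          exact congrArg Subtype.val this⟩
        rw [h, Subgroup.mem_bot] at h1
        have h2 : z = 1 := Subtype.ext h1
        rw [h2, orderOf_one] at hz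
        exact hp.ne_one hz.symm
      have hMG' : M ≤ G' := fun x hx => hZG hx.1
      have hMprimes : ∀ q : ℕ, q.Prime → q ∣ Nat.card M → q = p := by
        intro q hq hd
        obtain ⟨k, hk⟩ := IsPGroup.iff_card.mp hMp
        rw [hk] at hd
        exact (Nat.prime_dvd_prime_iff_eq hq hp).mp (hq.dvd_of_dvd_pow hd)
      have hMcase : (∀ q : ℕ, q.Prime → q ∣ Nat.card M → q ∈ π) ∨ (∀ q : ℕ, q.Prime → q ∣ Nat.card M → q ∉ π) := by
        by_cases hpπ : p ∈ π
        · left
          intro q hq hd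
          rwa [hMprimes q hq hd]
        · right
          intro q hq hd
          rwa [hMprimes q hq hd]
      have hAU' : A' ≤ Subgroup.normalizer (U' : Set T) := by
        intro a ha
        apply Cfsg.Agent.Lib.H5Basic.mem_normalizer_of_map_conj_le
        rintro _ ⟨x, hx, rfl⟩
        have h1 := conj_mem_of_mem_normalizer (hAU (Subgroup.mem_subgroupOf.mp ha)) (Subgroup.mem_subgroupOf.mp hx)
        apply Subgroup.mem_subgroupOf.mpr
        simpa using h1
      obtain ⟨H', hH', hAH', hUH'⟩ := contain_step π n ih A' G' U' (by rw [hcG', hn])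
        (by rw [Subgroup.normalizer_eq_top_iff.mpr hG'n]; exact le_top)
        (by rw [hcG', hcA']; exact hcop)
        hsG' ((fun x hx => Subgroup.mem_subgroupOf.mpr (hUG (Subgroup.mem_subgroupOf.mp hx)))) hAU'
        (by rw [hcU']; exact hU) M hMG' hM1 hMcase
      have hcH : Nat.card (H'.map T.subtype) = Nat.card H' :=
        Subgroup.card_map_of_injective T.subtype_injective
      refine ⟨H'.map T.subtype, hall_of_card (r := H'.relIndex G') ?_ ?_ (hall_rel hH') ?_, ?_, ?_⟩
      · rintro _ ⟨x, hx, rfl⟩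
        exact Subgroup.mem_subgroupOf.mp (hH'.1 hx)
      · rw [hcH]
        exact hH'.2.1
      · rw [hcH, card_rel hH'.1, hcG']
      · intro a ha
        apply Cfsg.Agent.Lib.H5Basic.mem_normalizer_of_map_conj_le
        rintro _ ⟨_, ⟨x, hx, rfl⟩, rfl⟩
        have h1 : (⟨a, hAT ha⟩ : T) ∈ A' := Subgroup.mem_subgroupOf.mpr ha
        exact ⟨_, conj_mem_of_mem_normalizer (hAH' h1) hx, rfl⟩
      · intro u hu
        have h1 : (⟨u, hUT hu⟩ : T) ∈ U' := Subgroup.mem_subgroupOf.mpr hu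
        exact ⟨_, hUH' h1, rfl⟩

end

/-- Coprime action on a solvable group and Hall subgroups. Let A and G be subgroups of a finite group with A normalizing G, the orders of A and G coprime, and G solvable, and let π be a set of primes. Then (a) G has an A-invariant Hall π-subgroup; (b) any two A-invariant Hall π-subgroups of G are conjugate by an element of C_G(A); (c) every A-invariant π-subgroup of G lies in an A-invariant Hall π-subgroup of G. -/
theorem result {X : Type*} [Group X] [Finite X] (A G : Subgroup X) (hAG : A ≤ Subgroup.normalizer (G : Set X)) (hcop : (Nat.card A).Coprime (Nat.card G)) (hsolv : Group.IsSolvable G) (π : Set ℕ) : (∃ H : Subgroup X, Cfsg.IsPiHallOf π H G ∧ A ≤ Subgroup.normalizer (H : Set X)) ∧ (∀ H₁ H₂ : Subgroup X, Cfsg.IsPiHallOf π H₁ G → A ≤ Subgroup.normalizer (H₁ : Set X) → Cfsg.IsPiHallOf π H₂ G → A ≤ Subgroup.normalizer (H₂ : Set X) → ∃ c ∈ G ⊓ Subgroup.centralizer (A : Set X), H₂ = H₁.map (MulAut.conj c).toMonoidHom)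 ∧ (∀ U : Subgroup X, U ≤ G → A ≤ Subgroup.normalizer (U : Set X) → (∀ p : ℕ, p.Prime → p ∣ Nat.card U → p ∈ π) → ∃ H : Subgroup X, Cfsg.IsPiHallOf π H G ∧ A ≤ Subgroup.normalizer (H : Set X) ∧ U ≤ H) := by
  refine ⟨exists_hall_inv π A G hAG hcop hsolv, ?_, ?_⟩
  · intro H₁ H₂ h₁ hA₁ h₂ hA₂
    exact hall_inv_conj A G H₁ H₂ hAG hcop hsolv h₁ hA₁ h₂ hA₂
  · intro U hUG hAU hU
    exact contain π _ X A G U rfl hAG hcop hsolv hUG hAU hU

end Cfsg.Agent.S3745
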