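import Cfsg.Statements.S3746
import Mathlib
import Cfsg.Agent.Lib.Comps

set_option autoImplicit false
open Cfsg

namespace Cfsg.Agent.S3746

open scoped commutatorElement

/-- Let Z ≤ Z(G) be a central subgroup of a finite group G and E a subgroup of G containing Z whose image E/Z is a component of G/Z (subnormal and quasisimple). Then the derived subgroup [E, E] is a component of G. -/
theorem result {G : Type*} [Group G] [Finite G] (Z : Subgroup G) (hZ : Z ≤ Subgroup.center G) [Z.Normal] (E : Subgroup G) (hZE : Z ≤ E) (hE : Cfsg.IsComponent (E.map (QuotientGroup.mk' Z))) : Cfsg.IsComponent ⁅E, E⁆ := by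
  classical
  let q := QuotientGroup.mk' Z
  have hperf := Cfsg.Agent.Lib.Comps.comp_perfect hE
  have hmap : (⁅E, E⁆).map q = E.map q := by
    rw [Subgroup.map_commutator, hperf]
  have hcomap : E = (E.map q).comap q := by
    apply le_antisymm (Subgroup.le_comap_map _ _)
    rintro x ⟨y, hy, hyx⟩
    have h1 : y⁻¹ * x ∈ Z := by
      rw [← QuotientGroup.eq]
      exact hyx
    have h2 : x = y * (y⁻¹ * x) := by group
    rw [h2]
    exact E.mul_mem hy (hZE h1)
  have hEsn : E.IsSubnormal := by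
    rw [hcomap]
    exact hE.1.comap q
  have hKE : ⁅E, E⁆ ≤ E := Subgroup.commutator_le_self E
  have hZc : ∀ z ∈ Z, ∀ y : G, z * y = y * z := fun z hz y =>
    (Subgroup.mem_center_iff.1 (hZ hz) y).symm
  refine ⟨?_, ?_⟩
  · apply Subgroup.IsSubnormal.trans hKE _ hEsn
    apply Subgroup.Normal.isSubnormal
    constructor
    intro n hn g
    exact Cfsg.Agent.Lib.Comps.conj_mem_comm_self hn g.2
  -- decomposition
  have hdec : ∀ y ∈ E, ∃ x ∈ ⁅E, E⁆, ∃ z ∈ Z, y = x * z := by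
    intro y hy
    have h1 : q y ∈ (⁅E, E⁆).map q := by
      rw [hmap]
      exact ⟨y, hy, rfl⟩
    obtain ⟨x, hx, hxy⟩ := h1
    refine ⟨x, hx, x⁻¹ * y, ?_, by group⟩
    rw [← QuotientGroup.eq]
    exact hxy
  have hperfK : ⁅(⁅E, E⁆ : Subgroup G), ⁅E, E⁆⁆ = ⁅E, E⁆ := by
    apply le_antisymm
    · exact Subgroup.commutator_mono hKE hKE
    · rw [Subgroup.commutator_le]
      intro a ha b hb
      obtain ⟨x, hx, z, hz, rfl⟩ := hdec a ha
      obtain ⟨x', hx', z', hz', rfl⟩ := hdec b hb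
      have h : ⁅x * z, x' * z'⁆ = ⁅x, x'⁆ := by
        rw [commutatorElement_def, commutatorElement_def]
        have hz1 : ∀ y : G, z * y = y * z := hZc z hz
        have hz2 : ∀ y : G, z' * y = y * z' := hZc z' hz'
        have s1 : z * (x' * z') * z⁻¹ = x' * z' := by rw [hz1, mul_assoc, mul_inv_cancel, mul_one]
        have s2 : z' * x⁻¹ * z'⁻¹ = x⁻¹ := by rw [hz2, mul_assoc, mul_inv_cancel, mul_one]
        calc x * z * (x' * z') * (x * z)⁻¹ * (x' * z')⁻¹
            = x * (z * (x' * z') * z⁻¹) * x⁻¹ * z'⁻¹ * x'⁻¹ := by group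
          _ = x * (x' * z') * x⁻¹ * z'⁻¹ * x'⁻¹ := by rw [s1]
          _ = x * x' * (z' * x⁻¹ * z'⁻¹) * x'⁻¹ := by group
          _ = x * x' * x⁻¹ * x'⁻¹ := by rw [s2]
      rw [h]
      exact Subgroup.commutator_mem_commutator hx hx'
  refine ⟨Subgroup.isPerfect_iff.2 hperfK, ?_⟩
  -- the map onto the simple quotient
  set K : Subgroup G := ⁅E, E⁆ with hK
  set Eb : Subgroup (G ⧸ Z) := E.map q with hEb
  have hqK : ∀ x : K, q x ∈ Eb := fun x => ⟨x, hKE x.2, rfl⟩
  let ψ₀ : K →* Eb := (q.comp K.subtype).codRestrict Eb hqK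
  let ψ : K →* Eb ⧸ Subgroup.center Eb := (QuotientGroup.mk' (Subgroup.center Eb)).comp ψ₀
  have hψ₀ : Function.Surjective ψ₀ := by
    rintro ⟨y, hy⟩
    rw [← hmap] at hy
    obtain ⟨x, hx, rfl⟩ := hy
    exact ⟨⟨x, hx⟩, rfl⟩
  have hψ : Function.Surjective ψ := (QuotientGroup.mk'_surjective _).comp hψ₀
  -- the kernel is central
  let T : Subgroup G := E ⊓ ((Subgroup.center Eb).map Eb.subtype).comap q
  have hTE : ∀ t ∈ T, ∀ y ∈ E, ⁅t, y⁆ ∈ Z := by
    rintro t ⟨ht1, c, hc, hct⟩ y hy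
    have h1 : q ⁅t, y⁆ = 1 := by
      rw [map_commutatorElement, commutatorElement_eq_one_iff_commute]
      have hq : q y ∈ Eb := ⟨y, hy, rfl⟩
      have h2 := Subgroup.mem_center_iff.1 hc ⟨q y, hq⟩
      have h3 : (q y) * (c : G ⧸ Z) = (c : G ⧸ Z) * (q y) := congrArg Subtype.val h2
      have h4 : (c : G ⧸ Z) = q t := hct
      rw [h4] at h3
      exact h3.symm
    rwa [MonoidHom.mem_ker.symm, QuotientGroup.ker_mk'] at h1
  have hbot1 : ⁅⁅T, E⁆, E⁆ = ⊥ := by
    rw [Subgroup.commutator_eq_bot_iff_le_centralizer]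
    have : ⁅T, E⁆ ≤ Z := by
      rw [Subgroup.commutator_le]
      intro t ht y hy
      exact hTE t ht y hy
    intro w hw
    rw [Subgroup.mem_centralizer_iff]
    intro u _
    exact (hZc w (this hw) u).symm
  have hbot2 : ⁅⁅E, T⁆, E⁆ = ⊥ := by
    rw [Subgroup.commutator_comm E T]
    exact hbot1
  have hKT : ⁅⁅E, E⁆, T⁆ = ⊥ := Subgroup.commutator_commutator_eq_bot_of_rotate hbot2 hbot1
  have hker : ψ.ker ≤ Subgroup.center K := by
    intro x hx
    have h1 : QuotientGroup.mk' (Subgroup.center Eb) (ψ₀ x) = 1 := hx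
    rw [QuotientGroup.mk'_apply, QuotientGroup.eq_one_iff] at h1
    have hxT : (x : G) ∈ T := ⟨hKE x.2, ψ₀ x, h1, rfl⟩
    rw [Subgroup.mem_center_iff]
    intro y
    have h2 : ⁅(y : G), (x : G)⁆ ∈ ⁅⁅E, E⁆, T⁆ := Subgroup.commutator_mem_commutator y.2 hxT
    rw [hKT, Subgroup.mem_bot, commutatorElement_eq_one_iff_mul_comm] at h2
    exact Subtype.ext h2
  let e := QuotientGroup.quotientKerEquivOfSurjective ψ hψ
  haveI hs0 : IsSimpleGroup (Eb ⧸ Subgroup.center Eb) := hE.2.2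
  haveI hs : IsSimpleGroup (K ⧸ ψ.ker) := e.isSimpleGroup
  have hna : ¬ IsMulCommutative (K ⧸ ψ.ker) := by
    intro h
    have h1 := (Subgroup.Normal.quotient_commutative_iff_commutator_le).1 h
    have h2 : commutator K = ⊤ := (Subgroup.isPerfect_iff.2 hperfK).commutator_eq_top
    rw [h2] at h1
    obtain ⟨a, ha⟩ := exists_ne (1 : Eb ⧸ Subgroup.center Eb)
    obtain ⟨k, rfl⟩ := hψ a
    exact ha (h1 (Subgroup.mem_top k))
  obtain ⟨h1, -, -⟩ := Cfsg.Agent.Lib.Comps.central_quot ψ.ker hker hs hna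
  exact (QuotientGroup.quotientMulEquivOfEq h1).symm.isSimpleGroup

end Cfsg.Agent.S3746
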