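import Cfsg.Statements.S3747
import Mathlib
import Cfsg.Agent.Lib.Comps
import Cfsg.Agent.Lib.Layer

set_option autoImplicit false
open Cfsg

namespace Cfsg.Agent.S3747

open scoped commutatorElement

def Triv {G : Type*} [Group G] (A : Subgroup G) : Prop :=
  ∀ a ∈ A, (∀ y ∈ A, y * a = a * y) → a = 1

theorem exists_mul_of_sup {G : Type*} [Group G] {A B : Subgroup G} (hAB : ⁅A, B⁆ = ⊥) {x : G}
    (hx : x ∈ A ⊔ B) : ∃ a ∈ A, ∃ b ∈ B, x = a * b := by
  have hcomm : ∀ a ∈ A, ∀ b ∈ B, a * b = b * a := by
    intro a ha b hb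
    have h : ⁅a, b⁆ ∈ ⁅A, B⁆ := Subgroup.commutator_mem_commutator ha hb
    rw [hAB, Subgroup.mem_bot] at h
    exact commutatorElement_eq_one_iff_mul_comm.1 h
  rw [Subgroup.sup_eq_closure] at hx
  induction hx using Subgroup.closure_induction with
  | mem y hy =>
    rcases hy with h | h
    · exact ⟨y, h, 1, B.one_mem, by simp⟩
    · exact ⟨1, A.one_mem, y, h, by simp⟩
  | one => exact ⟨1, A.one_mem, 1, B.one_mem, by simp⟩
  | mul u v _ _ hu hv =>
    obtain ⟨a, ha, b, hb, rfl⟩ := hu
    obtain ⟨a', ha', b', hb', rfl⟩ := hv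
    refine ⟨a * a', A.mul_mem ha ha', b * b', B.mul_mem hb hb', ?_⟩
    calc a * b * (a' * b') = a * (b * a') * b' := by group
      _ = a * (a' * b) * b' := by rw [hcomm a' ha' b hb]
      _ = a * a' * (b * b') := by group
  | inv u _ hu =>
    obtain ⟨a, ha, b, hb, rfl⟩ := hu
    refine ⟨a⁻¹, A.inv_mem ha, b⁻¹, B.inv_mem hb, ?_⟩
    rw [mul_inv_rev, hcomm _ (A.inv_mem ha) _ (B.inv_mem hb)]

theorem triv_sup {G : Type*} [Group G] {A B : Subgroup G} (hAB : ⁅A, B⁆ = ⊥) (hA : Triv A) (hB : Triv B) :
    Triv (A ⊔ B) := by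
  have hcomm : ∀ a ∈ A, ∀ b ∈ B, a * b = b * a := by
    intro a ha b hb
    have h : ⁅a, b⁆ ∈ ⁅A, B⁆ := Subgroup.commutator_mem_commutator ha hb
    rw [hAB, Subgroup.mem_bot] at h
    exact commutatorElement_eq_one_iff_mul_comm.1 h
  intro x hx hc
  obtain ⟨a, ha, b, hb, rfl⟩ := exists_mul_of_sup hAB hx
  have h1 : a = 1 := by
    apply hA a ha
    intro y hy
    have h2 := hc y (Subgroup.mem_sup_left hy)
    have h3 := hcomm y hy b hb
    have h4 : y * a * b = a * y * b := by
      calc y * a * b = y * (a * b) := by group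
        _ = a * b * y := h2
        _ = a * (b * y) := by group
        _ = a * (y * b) := by rw [h3]
        _ = a * y * b := by group
    exact mul_right_cancel h4
  have h5 : b = 1 := by
    apply hB b hb
    intro y hy
    have h2 := hc y (Subgroup.mem_sup_right hy)
    have h3 := hcomm a ha y hy
    rw [h1, one_mul] at h2
    exact h2
  rw [h1, h5, one_mul]

theorem triv_sSup {G : Type*} [Group G] [Finite G] (S : Set (Subgroup G)) (hS : ∀ A ∈ S, Triv A)
    (hpair : ∀ A ∈ S, ∀ B ∈ S, A ≠ B → ⁅A, B⁆ = ⊥) : Triv (sSup S) := by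
  have hfin : S.Finite := Set.toFinite S
  induction S, hfin using Set.Finite.induction_on with
  | empty =>
    intro a ha _
    simpa using ha
  | @insert a s hns _ ih =>
    rw [sSup_insert]
    apply triv_sup
    · rw [Subgroup.commutator_eq_bot_iff_le_centralizer]
      intro x hx
      rw [Subgroup.mem_centralizer_iff]
      intro y hy
      have hle : sSup s ≤ Subgroup.centralizer ({x} : Set G) := by
        apply sSup_le
        intro B hB
        intro u hu
        rw [Subgroup.mem_centralizer_iff]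
        intro w hw
        rw [Set.mem_singleton_iff] at hw
        subst hw
        have hne : a ≠ B := fun h => hns (h ▸ hB)
        have h1 := hpair a (Set.mem_insert _ _) B (Set.mem_insert_of_mem _ hB) hne
        have h2 : ⁅w, u⁆ ∈ ⁅a, B⁆ := Subgroup.commutator_mem_commutator hx hu
        rw [h1, Subgroup.mem_bot] at h2
        exact commutatorElement_eq_one_iff_mul_comm.1 h2
      have h3 := Subgroup.mem_centralizer_iff.1 (hle hy) x rfl
      exact h3.symm
    · exact hS a (Set.mem_insert _ _)
    · exact ih (fun A hA => hS A (Set.mem_insert_of_mem _ hA))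
        (fun A hA B hB => hpair A (Set.mem_insert_of_mem _ hA) B (Set.mem_insert_of_mem _ hB))

theorem part_a {G : Type*} [Group G] [Finite G] (K : Subgroup G) (hK : Cfsg.IsComponent K)
    (hc : Subgroup.center ↥K = ⊥) :
    Subgroup.normalClosure (K : Set G) ≠ ⊥ ∧ ∀ N : Subgroup G, N.Normal → N ≤ Subgroup.normalClosure (K : Set G) →
      N = ⊥ ∨ N = Subgroup.normalClosure (K : Set G) := by
  classical
  have hle : K ≤ Subgroup.normalClosure (K : Set G) := Subgroup.le_normalClosure
  refine ⟨fun h => Cfsg.Agent.Lib.Comps.comp_ne_bot hK (le_bot_iff.1 (h ▸ hle)), ?_⟩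
  intro N hN hNle
  rcases Cfsg.Agent.Lib.Comps.comp_lemma hK hN.isSubnormal with h | h
  · right
    apply le_antisymm hNle
    exact Subgroup.normalClosure_le_normal h
  left
  -- `N` commutes with all conjugates of `K`
  let S : Set (Subgroup G) := Set.range fun g : G => K.map (MulAut.conj g).toMonoidHom
  have hScomp : ∀ A ∈ S, Cfsg.IsComponent A := by
    rintro A ⟨g, rfl⟩
    exact Cfsg.Agent.Lib.Layer.isComponent_map (MulAut.conj g) hK
  have hStriv : ∀ A ∈ S, Triv A := by
    rintro A ⟨g, rfl⟩
    rintro _ ⟨k, hk, rfl⟩ hcen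
    have h1 : k = 1 := by
      have h2 : (⟨k, hk⟩ : K) ∈ Subgroup.center K := by
        rw [Subgroup.mem_center_iff]
        intro y
        apply Subtype.ext
        have h3 := hcen (MulAut.conj g y) ⟨y, y.2, rfl⟩
        simp only [MulEquiv.coe_toMonoidHom, map_mul] at h3
        exact (MulAut.conj g).injective (by simpa [map_mul] using h3)
      rw [hc, Subgroup.mem_bot] at h2
      exact congrArg Subtype.val h2
    rw [h1, map_one]
  have hpair : ∀ A ∈ S, ∀ B ∈ S, A ≠ B → ⁅A, B⁆ = ⊥ := by
    intro A hA B hB hne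
    exact (Cfsg.Agent.Lib.Comps.comp_comm_comp (hScomp A hA) (hScomp B hB)).resolve_left hne
  have hTriv := triv_sSup S hStriv hpair
  have hNC : Subgroup.normalClosure (K : Set G) ≤ sSup S := by
    unfold Subgroup.normalClosure
    rw [Subgroup.closure_le]
    intro x hx
    rw [Group.mem_conjugatesOfSet_iff] at hx
    obtain ⟨k, hk, hkx⟩ := hx
    obtain ⟨c, rfl⟩ := isConj_iff.1 hkx
    have : c * k * c⁻¹ ∈ K.map (MulAut.conj c).toMonoidHom := ⟨k, hk, rfl⟩
    exact (le_sSup (Set.mem_range_self c) : _ ≤ sSup S) this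
  have hcommS : sSup S ≤ Subgroup.centralizer (N : Set G) := by
    apply sSup_le
    rintro A ⟨g, rfl⟩
    rintro _ ⟨k, hk, rfl⟩
    rw [Subgroup.mem_centralizer_iff]
    intro m hm
    have h1 : g⁻¹ * m * g ∈ N := by
      have := hN.conj_mem m hm g⁻¹
      simpa using this
    have h2 : ⁅k, g⁻¹ * m * g⁆ ∈ ⁅K, N⁆ := Subgroup.commutator_mem_commutator hk h1
    rw [h, Subgroup.mem_bot, commutatorElement_eq_one_iff_mul_comm] at h2
    show m * (g * k * g⁻¹) = g * k * g⁻¹ * m
    calc m * (g * k * g⁻¹) = g * ((g⁻¹ * m * g) * k) * g⁻¹ := by group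
      _ = g * (k * (g⁻¹ * m * g)) * g⁻¹ := by rw [h2]
      _ = g * k * g⁻¹ * m := by group
  rw [eq_bot_iff]
  intro x hx
  rw [Subgroup.mem_bot]
  apply hTriv x (hNC (hNle hx))
  intro y hy
  exact (Subgroup.mem_centralizer_iff.1 (hcommS hy) x hx).symm

/-- Let G be a finite group. (a) If K is a component of G with trivial centre, then the normal closure of K in G is a minimal normal subgroup of G. (b) If the Fitting subgroup of G is trivial, then the layer E(G) is generated by the minimal normal subgroups of G. -/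
theorem result {G : Type*} [Group G] [Finite G] : (∀ K : Subgroup G, Cfsg.IsComponent K → Subgroup.center ↥K = ⊥ → (Subgroup.normalClosure (K : Set G) ≠ ⊥ ∧ ∀ N : Subgroup G, N.Normal → N ≤ Subgroup.normalClosure (K : Set G) → N = ⊥ ∨ N = Subgroup.normalClosure (K : Set G))) ∧ (Cfsg.fittingSubgroup G = ⊥ → sSup {N : Subgroup G | N ≠ ⊥ ∧ N.Normal ∧ ∀ N' : Subgroup G, N'.Normal → N' ≤ N → N' = ⊥ ∨ N' = N} = Cfsg.layer G) := by
  classical
  refine ⟨part_a, ?_⟩
  intro hF
  have hEn : (Cfsg.layer G).Normal := inferInstance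
  apply le_antisymm
  · apply sSup_le
    rintro N ⟨hne, hN, hmin⟩
    have h1 : Cfsg.generalizedFittingSubgroup G = Cfsg.layer G := by
      unfold Cfsg.generalizedFittingSubgroup
      rw [hF, sup_bot_eq]
    have hb := Cfsg.Agent.Lib.Comps.bender (G := G)
    rw [h1] at hb
    rcases hmin (N ⊓ Cfsg.layer G) (Subgroup.normal_inf_normal _ _) inf_le_left with h | h
    · exfalso
      apply hne
      have h2 : ⁅N, Cfsg.layer G⁆ ≤ N ⊓ Cfsg.layer G := Subgroup.commutator_le_inf _ _
      rw [h, le_bot_iff, Subgroup.commutator_eq_bot_iff_le_centralizer] at h2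
      have h3 : N ≤ Cfsg.layer G := by
        intro x hx
        apply hb
        rw [Subgroup.mem_centralizer_iff]
        intro y hy
        have h4 := Subgroup.mem_centralizer_iff.1 (h2 hx) y hy
        exact h4
      rw [eq_bot_iff, ← h]
      exact le_inf le_rfl h3
    · rw [← h]
      exact inf_le_right
  · apply sSup_le
    intro K hK
    have hc : Subgroup.center ↥K = ⊥ := by
      have h1 : ((Subgroup.center ↥K).map K.subtype).IsSubnormal :=
        Subgroup.IsSubnormal.trans' (Subgroup.Normal.isSubnormal inferInstance) hK.1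
      have h2 : Group.IsNilpotent ((Subgroup.center ↥K).map K.subtype) := by
        haveI : Group.IsNilpotent (Subgroup.center ↥K) := by
          letI : CommGroup (Subgroup.center ↥K) := { (inferInstance : Group (Subgroup.center ↥K)) with
            mul_comm := fun a b => Subtype.ext ((Subgroup.mem_center_iff.1 a.2 b).symm) }
          exact CommGroup.isNilpotent
        exact Group.nilpotent_of_surjective
          ((Subgroup.equivMapOfInjective (Subgroup.center ↥K) K.subtype K.subtype_injective).toMonoidHom)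
          (MulEquiv.surjective _)
      have h3 := Cfsg.Agent.Lib.Comps.subnormal_nilpotent_le_fitting h1 h2
      rw [hF, le_bot_iff, Subgroup.map_eq_bot_iff_of_injective _ K.subtype_injective] at h3
      exact h3
    obtain ⟨hne, hmin⟩ := part_a K hK hc
    exact (Subgroup.le_normalClosure).trans (le_sSup ⟨hne, Subgroup.normalClosure_normal, hmin⟩)

end Cfsg.Agent.S3747
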