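import Mathlib
import Cfsg.Statements.S3749
import Cfsg.Agent.Lib.H6PExp2
-- import your own Cfsg.Agent.* helpers here

set_option autoImplicit false
open Cfsg

namespace Cfsg.Agent.S3749

open Cfsg.Agent.Lib.H6PExp2

/-- Call a proper subgroup M of G primitive when M = N_G(N) for every non-trivial normal subgroup N of M. Let M be a primitive subgroup of the finite group G, p a prime with O_p(M) ≠ 1, and N a normal subgroup of G with M ∩ N = 1. Then p does not divide the order of N; for every prime q there is exactly one Sylow q-subgroup of N normalized by M; and if the order of N has at least two prime divisors then M is not a maximal subgroup of G. -/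
theorem result {G : Type*} [Group G] [Finite G] (M : Subgroup G) (hM : M ≠ ⊤) (hprim : ∀ N : Subgroup G, N ≤ M → M ≤ Subgroup.normalizer (N : Set G) → N ≠ ⊥ → Subgroup.normalizer (N : Set G) = M) {p : ℕ} [Fact p.Prime] (hOp : Cfsg.pCore p ↥M ≠ ⊥) (N : Subgroup G) [N.Normal] (hMN : M ⊓ N = ⊥) : ¬ p ∣ Nat.card N ∧ (∀ q : ℕ, [Fact q.Prime] → ∃! Q : Sylow q ↥N, M ≤ Subgroup.normalizer ((Q : Subgroup ↥N).map N.subtype : Set G)) ∧ ((∃ q r : ℕ, q.Prime ∧ r.Prime ∧ q ≠ r ∧ q ∣ Nat.card N ∧ r ∣ Nat.card N) → ¬ IsCoatom M) := by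
  classical
  haveI hMpn : (Cfsg.pCore p ↥M).Normal := inferInstance
  let O : Subgroup G := (Cfsg.pCore p ↥M).map M.subtype
  have hOM : O ≤ M := by
    rintro _ ⟨a, _, rfl⟩
    exact a.2
  have hOp' : IsPGroup p O := (Cfsg.Agent.Lib.FitCore.pCore_isPGroup p).map _
  have hMO : M ≤ Subgroup.normalizer (O : Set G) := by
    intro m hm
    apply norm_of_conj_le
    rintro _ ⟨a, ha, rfl⟩
    refine ⟨⟨m, hm⟩ * a * ⟨m, hm⟩⁻¹, hMpn.conj_mem a ha _, ?_⟩
    simp
  have hOne : O ≠ ⊥ := by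
    intro h
    apply hOp
    rw [Subgroup.map_eq_bot_iff] at h
    rw [eq_bot_iff]
    intro a ha
    have := h ha
    rw [MonoidHom.mem_ker] at this
    rw [Subgroup.mem_bot]
    exact Subtype.ext this
  have hnorm := hprim O hOM hMO hOne
  have hNN : ∀ x ∈ N, (∀ a ∈ O, x * a = a * x) → x = 1 := by
    intro x hx hc
    have h1 : x ∈ Subgroup.normalizer (O : Set G) := by
      apply norm_of_conj_le
      intro a ha
      rw [hc a ha]
      simpa using ha
    rw [hnorm] at h1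
    have h2 : x ∈ M ⊓ N := ⟨h1, hx⟩
    rw [hMN, Subgroup.mem_bot] at h2
    exact h2
  have hON : ∀ a ∈ O, ∀ l ∈ N, a * l * a⁻¹ ∈ N := fun a _ l hl => ‹N.Normal›.conj_mem l hl a
  -- `p` does not divide the order of `N`
  have hpN : ¬ p ∣ Nat.card N := by
    intro hd
    letI := Cfsg.Agent.Lib.CoprimeSylow.conjOn O N hON
    have h1 := hOp'.card_modEq_card_fixedPoints N
    have h2 : Nat.card (MulAction.fixedPoints O N) = 1 := by
      rw [Nat.card_eq_one_iff_unique]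
      refine ⟨⟨?_⟩, ⟨⟨1, ?_⟩⟩⟩
      · rintro ⟨x, hx⟩ ⟨y, hy⟩
        have key : ∀ z : N, z ∈ MulAction.fixedPoints O N → z = 1 := by
          intro z hz
          apply Subtype.ext
          apply hNN z z.2
          intro a ha
          have h3 : (⟨a, ha⟩ : O) • z = z := hz ⟨a, ha⟩
          have h4 : a * (z : G) * a⁻¹ = z := congrArg Subtype.val h3
          exact (mul_inv_eq_iff_eq_mul.1 h4).symm
        apply Subtype.ext
        exact (key x hx).trans (key y hy).symm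
      · intro a
        apply Subtype.ext
        show (a : G) * 1 * (a : G)⁻¹ = 1
        simp
    rw [h2] at h1
    have h3 := (Nat.modEq_zero_iff_dvd.2 hd).symm.trans h1
    have h4 := (Nat.modEq_zero_iff_dvd).1 h3.symm
    exact (Fact.out : p.Prime).one_lt.ne' (Nat.dvd_one.1 h4)
  -- uniqueness of the invariant Sylow subgroups
  have huniq : ∀ (q : ℕ) [Fact q.Prime], ∀ R R' : Sylow q ↥N,
      (∀ a ∈ O, ∀ x ∈ (R : Subgroup ↥N), ∀ hx : a * x.1 * a⁻¹ ∈ N, (⟨a * x.1 * a⁻¹, hx⟩ : N) ∈ (R : Subgroup ↥N)) →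
      (∀ a ∈ O, ∀ x ∈ (R' : Subgroup ↥N), ∀ hx : a * x.1 * a⁻¹ ∈ N, (⟨a * x.1 * a⁻¹, hx⟩ : N) ∈ (R' : Subgroup ↥N)) →
      R = R' := by
    intro q _ R R' hR hR'
    obtain ⟨u₀, hu₀⟩ := MulAction.exists_smul_eq N R R'
    let X : Set G := {x | x ∈ N ∧ ∀ hx : x ∈ N, (⟨x, hx⟩ : N) • R = R'}
    have hcard : Nat.card X = Nat.card (MulAction.stabilizer N R) := by
      refine Nat.card_congr ⟨fun x => ⟨u₀⁻¹ * ⟨x.1, x.2.1⟩, ?_⟩, fun y => ⟨u₀ * (y : N), ?_, ?_⟩, ?_, ?_⟩
      · rw [MulAction.mem_stabilizer_iff, mul_smul, x.2.2 x.2.1, ← hu₀, inv_smul_smul]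
      · exact N.mul_mem u₀.2 (y : N).2
      · intro _
        have hy : (y : N) • R = R := y.2
        show (u₀ * (y : N)) • R = R'
        rw [mul_smul, hy, hu₀]
      · intro x
        apply Subtype.ext
        show ((u₀ * (u₀⁻¹ * ⟨x.1, x.2.1⟩) : N) : G) = x.1
        simp
      · intro y
        apply Subtype.ext
        show (u₀⁻¹ * (u₀ * (y : N)) : N) = y
        simp
    have hXc : ¬ p ∣ Nat.card X := by
      rw [hcard]
      intro hd
      exact hpN (hd.trans (Subgroup.card_subgroup_dvd_card _))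
    have hXinv : ∀ b ∈ O, ∀ s ∈ X, b * s * b⁻¹ ∈ X := by
      intro b hb s hs
      have hm : b * s * b⁻¹ ∈ N := hON b hb s hs.1
      refine ⟨hm, fun _ => ?_⟩
      have hsR := hs.2 hs.1
      have hle : ∀ r ∈ (R : Subgroup ↥N), (⟨b * s * b⁻¹, hm⟩ : N) * r * (⟨b * s * b⁻¹, hm⟩ : N)⁻¹ ∈ (R' : Subgroup ↥N) := by
        intro r hr
        have h1 : b⁻¹ * r.1 * (b⁻¹)⁻¹ ∈ N := hON _ (O.inv_mem hb) _ r.2
        have h2 := hR _ (O.inv_mem hb) r hr h1
        have h3 : (⟨s, hs.1⟩ : N) * ⟨b⁻¹ * r.1 * (b⁻¹)⁻¹, h1⟩ * (⟨s, hs.1⟩ : N)⁻¹ ∈ (R' : Subgroup ↥N) := by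
          have h3' : (⟨s, hs.1⟩ : N) * ⟨b⁻¹ * r.1 * (b⁻¹)⁻¹, h1⟩ * (⟨s, hs.1⟩ : N)⁻¹ ∈ (((⟨s, hs.1⟩ : N) • R : Sylow q N) : Subgroup N) := by
            rw [Cfsg.Agent.Lib.H6Cover.mem_smul_sylow]
            have e : ((⟨s, hs.1⟩ : N))⁻¹ * ((⟨s, hs.1⟩ : N) * ⟨b⁻¹ * r.1 * (b⁻¹)⁻¹, h1⟩ * (⟨s, hs.1⟩ : N)⁻¹) * (⟨s, hs.1⟩ : N) = ⟨b⁻¹ * r.1 * (b⁻¹)⁻¹, h1⟩ := by group
            rw [e]
            exact h2
          rw [hsR] at h3'
          exact h3'
        have h4 : b * ((⟨s, hs.1⟩ : N) * ⟨b⁻¹ * r.1 * (b⁻¹)⁻¹, h1⟩ * (⟨s, hs.1⟩ : N)⁻¹ : N).1 * b⁻¹ ∈ N :=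
          hON _ hb _ (Subtype.property _)
        have h5 := hR' b hb _ h3 h4
        convert h5 using 1
        apply Subtype.ext
        show (b * s * b⁻¹) * r.1 * (b * s * b⁻¹)⁻¹ = b * (s * (b⁻¹ * r.1 * (b⁻¹)⁻¹) * s⁻¹) * b⁻¹
        group
      apply Sylow.ext
      refine ((((⟨b * s * b⁻¹, hm⟩ : N) • R : Sylow q N)).is_maximal' R'.isPGroup' ?_).symm
      intro y hy
      rw [Cfsg.Agent.Lib.H6Cover.mem_smul_sylow] at hy
      have := hle _ hy
      have e : (⟨b * s * b⁻¹, hm⟩ : N) * ((⟨b * s * b⁻¹, hm⟩ : N)⁻¹ * y * (⟨b * s * b⁻¹, hm⟩ : N)) * (⟨b * s * b⁻¹, hm⟩ : N)⁻¹ = y := by group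
      rw [e] at this
      exact this
    obtain ⟨c, hcX, hcfix⟩ := Cfsg.Agent.Lib.CoprimeGen.exists_fixed_of_coprime hOp' X hXinv hXc
    have hc1 : c = 1 := by
      apply hNN c hcX.1
      intro a ha
      have := hcfix a ha
      exact (mul_inv_eq_iff_eq_mul.1 this).symm
    have huR := hcX.2 hcX.1
    have hu1 : (⟨c, hcX.1⟩ : N) = 1 := Subtype.ext hc1
    rw [hu1, one_smul] at huR
    exact huR
  -- existence
  have hex : ∀ (q : ℕ) [Fact q.Prime], ∃ R : Sylow q ↥N,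
      (M ≤ Subgroup.normalizer ((R : Subgroup ↥N).map N.subtype : Set G)) ∧
      ∀ R' : Sylow q ↥N, M ≤ Subgroup.normalizer ((R' : Subgroup ↥N).map N.subtype : Set G) → R' = R := by
    intro q _
    obtain ⟨R, hR⟩ := Cfsg.Agent.Lib.CoprimeSylow.exists_invariant_sylow (r := q) O N hOp' hpN hON
    refine ⟨R, ?_, ?_⟩
    · intro m hm
      apply norm_of_conj_le
      rintro _ ⟨x, hx, rfl⟩
      -- conjugating by `m`
      let α : N ≃* N := MulAut.conjNormal m
      have hαs : Function.Surjective α.toMonoidHom := α.surjective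
      let S₂ : Sylow q N := R.mapSurjective hαs
      have hS₂ : S₂ = R := by
        apply huniq q S₂ R _ hR
        intro a ha y hy hy'
        have hy2 : y ∈ (R : Subgroup N).map α.toMonoidHom := by
          rw [← Sylow.coe_mapSurjective hαs]; exact hy
        obtain ⟨z, hz, rfl⟩ := hy2
        have ha' : m⁻¹ * a * m ∈ O := by
          have := (Subgroup.mem_normalizer_iff.1 (Subgroup.inv_mem _ (hMO hm)) a).1 ha
          simpa using this
        have h1 : (m⁻¹ * a * m) * z.1 * (m⁻¹ * a * m)⁻¹ ∈ N := hON _ ha' _ z.2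
        have h2 := hR _ ha' z hz h1
        have h3 : (⟨a * (α.toMonoidHom z).1 * a⁻¹, hy'⟩ : N) = α.toMonoidHom ⟨_, h1⟩ := by
          apply Subtype.ext
          show a * (m * z.1 * m⁻¹) * a⁻¹ = m * ((m⁻¹ * a * m) * z.1 * (m⁻¹ * a * m)⁻¹) * m⁻¹
          group
        rw [h3]
        show _ ∈ (S₂ : Subgroup N)
        rw [Sylow.coe_mapSurjective]
        exact ⟨_, h2, rfl⟩
      have h1 : α x ∈ (S₂ : Subgroup N) := by
        rw [Sylow.coe_mapSurjective]
        exact ⟨x, hx, rfl⟩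
      rw [hS₂] at h1
      exact ⟨_, h1, rfl⟩
    · intro R' hR'
      apply huniq q R' R _ hR
      intro a ha y hy hy'
      have h1 := (Subgroup.mem_normalizer_iff.1 (hR' (hOM ha)) y.1).1 ⟨y, hy, rfl⟩
      obtain ⟨z, hz, hze⟩ := h1
      have : (⟨a * y.1 * a⁻¹, hy'⟩ : N) = z := Subtype.ext hze.symm
      rw [this]
      exact hz
  refine ⟨hpN, ?_, ?_⟩
  · intro q _
    obtain ⟨R, h1, h2⟩ := hex q
    exact ⟨R, h1, h2⟩
  · rintro ⟨q, r, hq, hr, hqr, hqN, hrN⟩ hcoat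
    haveI : Fact q.Prime := ⟨hq⟩
    obtain ⟨R, h1, -⟩ := hex q
    let Rh : Subgroup G := (R : Subgroup ↥N).map N.subtype
    have hRhN : Rh ≤ N := by
      rintro _ ⟨x, _, rfl⟩
      exact x.2
    have hRhne : Rh ≠ ⊥ := by
      intro hb
      have h2 : (R : Subgroup ↥N) = ⊥ := by
        rw [Subgroup.map_eq_bot_iff] at hb
        rw [eq_bot_iff]
        intro x hx
        have := hb hx
        rw [MonoidHom.mem_ker] at this
        rw [Subgroup.mem_bot]
        exact Subtype.ext this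
      have h3 := R.card_eq_multiplicity
      rw [h2, Subgroup.card_bot] at h3
      have h4 : (Nat.card N).factorization q ≠ 0 := by
        have := hq.factorization_pos_of_dvd Nat.card_pos.ne' hqN
        omega
      have h5 : 1 < q ^ (Nat.card N).factorization q := Nat.one_lt_pow h4 hq.one_lt
      omega
    have hRhM : ¬ Rh ≤ M := by
      intro hle
      apply hRhne
      rw [eq_bot_iff, ← hMN]
      exact le_inf hle hRhN
    -- the normalizer is everything
    have hnt : Subgroup.normalizer (Rh : Set G) = ⊤ := by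
      apply hcoat.2
      refine lt_of_le_of_ne h1 ?_
      intro he
      apply hRhM
      rw [he]
      exact Subgroup.le_normalizer
    haveI hRhn : Rh.Normal := Subgroup.normalizer_eq_top_iff.1 hnt
    have hsup : Rh ⊔ M = ⊤ := by
      rw [sup_comm]
      apply hcoat.2
      refine lt_of_le_of_ne le_sup_left ?_
      intro he
      apply hRhM
      rw [he]
      exact le_sup_right
    have hNR : N ≤ Rh := by
      intro n hn
      have h2 : n ∈ Rh ⊔ M := by rw [hsup]; trivial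
      obtain ⟨y, hy, m, hm, rfl⟩ := Subgroup.mem_sup_of_normal_left.1 h2
      have hmN : m ∈ N := by
        have := N.mul_mem (N.inv_mem (hRhN hy)) hn
        simpa using this
      have hm1 : m ∈ M ⊓ N := ⟨hm, hmN⟩
      rw [hMN, Subgroup.mem_bot] at hm1
      rw [hm1, mul_one]
      exact hy
    have hNq : IsPGroup q N := (R.isPGroup'.map N.subtype).to_le hNR
    obtain ⟨k, hk⟩ := IsPGroup.iff_card.1 hNq
    rw [hk] at hrN
    exact hqr ((Nat.prime_dvd_prime_iff_eq hr hq).1 (hr.dvd_of_dvd_pow hrN)).symm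

end Cfsg.Agent.S3749
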