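import Mathlib
import Cfsg.Statements.S3750
import Cfsg.Agent.Lib.H6PExp2
import Cfsg.Agent.Lib.Comps
import Cfsg.Agent.Lib.TypeP
-- import your own Cfsg.Agent.* helpers here

set_option autoImplicit false
open Cfsg

namespace Cfsg.Agent.S3750

open Cfsg.Agent.Lib.H6PExp2

/-- Call a proper subgroup M of G primitive when M = N_G(N) for every non-trivial normal subgroup N of M. Let M be a primitive subgroup of the finite group G and N a normal subgroup of G with M ∩ F*(N) ≠ 1. Then F(G) = 1 and F*(N) = F*(G) = E(G); in particular every minimal normal subgroup of G is contained in N. -/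
theorem result {G : Type*} [Group G] [Finite G] (M : Subgroup G) (hM : M ≠ ⊤) (hprim : ∀ N : Subgroup G, N ≤ M → M ≤ Subgroup.normalizer (N : Set G) → N ≠ ⊥ → Subgroup.normalizer (N : Set G) = M) (N : Subgroup G) [N.Normal] (hMF : M ⊓ (Cfsg.generalizedFittingSubgroup ↥N).map N.subtype ≠ ⊥) : Cfsg.fittingSubgroup G = ⊥ ∧ (Cfsg.generalizedFittingSubgroup ↥N).map N.subtype = Cfsg.generalizedFittingSubgroup G ∧ Cfsg.generalizedFittingSubgroup G = Cfsg.layer G ∧ ∀ K : Subgroup G, K.Normal → K ≠ ⊥ → (∀ K' : Subgroup G, K'.Normal → K' ≤ K → K' = ⊥ ∨ K' = K) → K ≤ N := by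
  classical
  haveI hNn : N.Normal := inferInstance
  set X : Subgroup G := (Cfsg.generalizedFittingSubgroup ↥N).map N.subtype with hX
  haveI : (Cfsg.generalizedFittingSubgroup ↥N).Characteristic := Cfsg.Agent.Lib.Layer.genFitting_characteristic _
  haveI hXn : X.Normal := Cfsg.Agent.Lib.FitCore.map_subtype_normal_of_char N _
  have hXN : X ≤ N := by
    rintro _ ⟨x, _, rfl⟩
    exact x.2
  -- normal subgroups are not in `M`
  have hA : ∀ A : Subgroup G, A.Normal → A ≠ ⊥ → ¬ A ≤ M := by
    intro A hAn hne hle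
    have h1 := hprim A hle (by rw [Subgroup.normalizer_eq_top_iff.2 hAn]; exact le_top) hne
    rw [Subgroup.normalizer_eq_top_iff.2 hAn] at h1
    exact hM h1.symm
  -- the main normalizer
  set Y : Subgroup G := M ⊓ X with hY
  have hYnorm : Subgroup.normalizer (Y : Set G) = M := by
    apply hprim Y inf_le_left _ hMF
    intro m hm
    apply norm_of_conj_le
    rintro y ⟨hy1, hy2⟩
    exact ⟨M.mul_mem (M.mul_mem hm hy1) (M.inv_mem hm), hXn.conj_mem y hy2 m⟩
  have hcent : ∀ z : G, (∀ y ∈ Y, z * y = y * z) → z ∈ M := by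
    intro z hz
    rw [← hYnorm]
    apply norm_of_conj_le
    intro y hy
    rw [hz y hy]
    simpa using hy
  have hCN : Subgroup.centralizer (N : Set G) = ⊥ := by
    by_contra hne
    haveI : (Subgroup.centralizer (N : Set G)).Normal := Subgroup.normal_centralizer
    apply hA _ inferInstance hne
    intro c hc
    apply hcent
    intro y hy
    exact (Subgroup.mem_centralizer_iff.1 hc y (hXN hy.2)).symm
  -- the Fitting subgroup
  have hFit : Cfsg.fittingSubgroup G = ⊥ := by
    by_contra hF
    have hcard : Nat.card (Cfsg.fittingSubgroup G) ≠ 1 := fun h => hF (Subgroup.card_eq_one.1 h)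
    obtain ⟨q, hq, hqd⟩ := Nat.exists_prime_and_dvd hcard
    haveI : Fact q.Prime := ⟨hq⟩
    have hP : Cfsg.pCore q G ≠ ⊥ := by
      intro hb
      have h1 := Cfsg.Agent.Lib.FitCore.relIndex_pCore_not_dvd_fitting (G := G) q
      rw [hb, Subgroup.relIndex_bot_left] at h1
      exact h1 hqd
    set P := Cfsg.pCore q G with hPd
    have hPp : IsPGroup q P := Cfsg.Agent.Lib.FitCore.pCore_isPGroup q
    haveI hPnt : Nontrivial P := by
      refine (Subgroup.nontrivial_iff_ne_bot P).2 hP
    haveI : Nontrivial (Subgroup.center P) := hPp.center_nontrivial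
    let A : Subgroup G := (Subgroup.center P).map P.subtype
    haveI hAn : A.Normal := Cfsg.Agent.Lib.FitCore.map_subtype_normal_of_char P _
    have hAP : A ≤ P := by
      rintro _ ⟨x, _, rfl⟩
      exact x.2
    have hAq : IsPGroup q A := hPp.to_le hAP |> fun _ => (hPp.to_subgroup _).map _
    have hAne : A ≠ ⊥ := by
      intro hb
      obtain ⟨z, hz⟩ := exists_ne (1 : Subgroup.center P)
      have h1 : ((z : P) : G) ∈ A := ⟨z, z.2, rfl⟩
      rw [hb, Subgroup.mem_bot] at h1
      apply hz
      exact Subtype.ext (Subtype.ext h1)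
    have hAcomm : ∀ a ∈ A, ∀ b ∈ A, a * b = b * a := by
      rintro _ ⟨a, ha, rfl⟩ _ ⟨b, hb, rfl⟩
      have := Subgroup.mem_center_iff.1 ha b
      exact (congrArg Subtype.val this).symm
    -- `M ∩ A = 1`
    have hMA : ∀ a ∈ A, a ∈ M → a = 1 := by
      intro a ha haM
      by_contra ha1
      have hne : M ⊓ A ≠ ⊥ := by
        intro hb
        have : a ∈ M ⊓ A := ⟨haM, ha⟩
        rw [hb, Subgroup.mem_bot] at this
        exact ha1 this
      have h1 := hprim (M ⊓ A) inf_le_left (by
        intro m hm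
        apply norm_of_conj_le
        rintro y ⟨hy1, hy2⟩
        exact ⟨M.mul_mem (M.mul_mem hm hy1) (M.inv_mem hm), hAn.conj_mem y hy2 m⟩) hne
      apply hA A hAn hAne
      intro b hb
      rw [← h1]
      apply norm_of_conj_le
      rintro y ⟨hy1, hy2⟩
      rw [hAcomm b hb y hy2]
      simpa using (⟨hy1, hy2⟩ : y ∈ M ⊓ A)
    -- `C_M(A) = 1`
    have hCMA : ∀ m ∈ M, m ∈ Subgroup.centralizer (A : Set G) → m = 1 := by
      intro m hm hmc
      by_contra hm1
      haveI hcn : (Subgroup.centralizer (A : Set G)).Normal := Subgroup.normal_centralizer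
      have hne : M ⊓ Subgroup.centralizer (A : Set G) ≠ ⊥ := by
        intro hb
        have : m ∈ M ⊓ Subgroup.centralizer (A : Set G) := ⟨hm, hmc⟩
        rw [hb, Subgroup.mem_bot] at this
        exact hm1 this
      have h1 := hprim _ inf_le_left (by
        intro m' hm'
        apply norm_of_conj_le
        rintro y ⟨hy1, hy2⟩
        exact ⟨M.mul_mem (M.mul_mem hm' hy1) (M.inv_mem hm'), hcn.conj_mem y hy2 m'⟩) hne
      apply hA A hAn hAne
      intro b hb
      rw [← h1]
      apply norm_of_conj_le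
      rintro y ⟨hy1, hy2⟩
      rw [Subgroup.mem_centralizer_iff.1 hy2 b hb]
      simpa using (⟨hy1, hy2⟩ : y ∈ M ⊓ Subgroup.centralizer (A : Set G))
    -- the exponent
    have hcard0 : Nat.card (Cfsg.fittingSubgroup G) ≠ 0 := Nat.card_pos.ne'
    obtain ⟨e, m, hm, hem⟩ := Nat.exists_eq_pow_mul_and_not_dvd hcard0 q hq.ne_one
    have hFitC : ∀ x ∈ Cfsg.fittingSubgroup G, x ^ (q ^ e) ∈ Subgroup.centralizer (A : Set G) := by
      intro x hx
      rw [Subgroup.mem_centralizer_iff]
      intro b hb
      haveI : Group.IsNilpotent (Cfsg.fittingSubgroup G) := Cfsg.Agent.Lib.FitCore.fitting_isNilpotent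
      have hbF : b ∈ Cfsg.fittingSubgroup G := Cfsg.Agent.Lib.FitCore.pCore_le_fitting q (hAP hb)
      let u : Cfsg.fittingSubgroup G := (⟨x, hx⟩ : Cfsg.fittingSubgroup G) ^ (q ^ e)
      let b' : Cfsg.fittingSubgroup G := ⟨b, hbF⟩
      have hu : orderOf u ∣ m := by
        apply orderOf_dvd_of_pow_eq_one
        show ((⟨x, hx⟩ : Cfsg.fittingSubgroup G) ^ (q ^ e)) ^ m = 1
        rw [← pow_mul, ← hem]
        exact pow_card_eq_one'
      obtain ⟨i, hi⟩ := hAq ⟨b, hb⟩
      have hbi : b' ^ (q ^ i) = 1 := by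
        apply Subtype.ext
        simpa using congrArg Subtype.val hi
      have hb' : orderOf b' ∣ q ^ i := orderOf_dvd_of_pow_eq_one hbi
      have hco : (orderOf u).Coprime (orderOf b') := by
        refine Nat.Coprime.coprime_dvd_left hu (Nat.Coprime.coprime_dvd_right hb' ?_)
        exact Nat.Coprime.pow_right _ ((Nat.Prime.coprime_iff_not_dvd hq).2 hm).symm
      have h1 := Cfsg.Agent.Lib.TypeP.nilp_comm_coprime (N := Cfsg.fittingSubgroup G) _ u rfl b' hco
      exact (congrArg Subtype.val h1).symm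
    -- the layer of `N` centralizes `A`
    have hAsol : Group.IsSolvable A := by
      haveI := hAq.isNilpotent
      infer_instance
    have hEC : (Cfsg.layer ↥N).map N.subtype ≤ Subgroup.centralizer (A : Set G) := by
      rw [Subgroup.map_le_iff_le_comap]
      refine sSup_le fun K hK => ?_
      rw [← Subgroup.map_le_iff_le_comap]
      have h1 := Cfsg.Agent.Lib.Comps.isComponent_map_subtype hNn.isSubnormal hK
      have h2 := Cfsg.Agent.Lib.Comps.comp_comm_of_normal_solvable h1 hAn hAsol
      rwa [Subgroup.commutator_eq_bot_iff_le_centralizer] at h2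
    have hFiF : (Cfsg.fittingSubgroup ↥N).map N.subtype ≤ Cfsg.fittingSubgroup G :=
      Cfsg.Agent.Lib.Comps.map_fitting_le_of_subnormal hNn.isSubnormal
    haveI : (Cfsg.layer ↥N).Characteristic := Cfsg.Agent.Lib.Layer.layer_characteristic _
    haveI hEn : ((Cfsg.layer ↥N).map N.subtype).Normal := Cfsg.Agent.Lib.FitCore.map_subtype_normal_of_char N _
    haveI hcn : (Subgroup.centralizer (A : Set G)).Normal := Subgroup.normal_centralizer
    have hXpow : ∀ y ∈ X, y ^ (q ^ e) ∈ Subgroup.centralizer (A : Set G) := by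
      intro y hy
      rw [hX, Cfsg.generalizedFittingSubgroup, Subgroup.map_sup] at hy
      obtain ⟨a, ha, f, hf, rfl⟩ := Subgroup.mem_sup_of_normal_left.1 hy
      have h1 := hFitC f (hFiF hf)
      rw [← QuotientGroup.eq_one_iff] at h1 ⊢
      rw [QuotientGroup.mk_pow, QuotientGroup.mk_mul, (QuotientGroup.eq_one_iff a).2 (hEC ha), one_mul]
      rw [QuotientGroup.mk_pow] at h1
      exact h1
    have hYq : IsPGroup q Y := by
      rintro ⟨y, hy⟩
      refine ⟨e, Subtype.ext ?_⟩
      exact hCMA _ (M.pow_mem hy.1 _) (hXpow y hy.2)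
    -- the fixed points
    have hYA : ∀ a ∈ Y, ∀ l ∈ A, a * l * a⁻¹ ∈ A := fun a _ l hl => hAn.conj_mem l hl a
    letI := Cfsg.Agent.Lib.CoprimeSylow.conjOn Y A hYA
    have h1 := hYq.card_modEq_card_fixedPoints A
    have h2 : Nat.card (MulAction.fixedPoints Y A) = 1 := by
      rw [Nat.card_eq_one_iff_unique]
      refine ⟨⟨?_⟩, ⟨⟨1, ?_⟩⟩⟩
      · rintro ⟨x, hx⟩ ⟨y, hy⟩
        have key : ∀ z : A, z ∈ MulAction.fixedPoints Y A → z = 1 := by
          intro z hz
          apply Subtype.ext
          apply hMA _ z.2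
          apply hcent
          intro a ha
          have h3 : (⟨a, ha⟩ : Y) • z = z := hz ⟨a, ha⟩
          have h4 : a * (z : G) * a⁻¹ = z := congrArg Subtype.val h3
          exact (mul_inv_eq_iff_eq_mul.1 h4).symm
        apply Subtype.ext
        exact (key x hx).trans (key y hy).symm
      · intro a
        apply Subtype.ext
        show (a : G) * 1 * (a : G)⁻¹ = 1
        simp
    rw [h2] at h1
    obtain ⟨n, hn⟩ := IsPGroup.iff_card.1 hAq
    have hn0 : n ≠ 0 := by
      rintro rfl
      rw [pow_zero] at hn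
      exact hAne (Subgroup.card_eq_one.1 hn)
    have hd : q ∣ Nat.card A := by
      rw [hn]; exact dvd_pow_self _ hn0
    have h3 := (Nat.modEq_zero_iff_dvd.2 hd).symm.trans h1
    have h4 := (Nat.modEq_zero_iff_dvd).1 h3.symm
    exact hq.one_lt.ne' (Nat.dvd_one.1 h4)
  -- the conclusions
  have hFN : Cfsg.fittingSubgroup ↥N = ⊥ := by
    have h1 : (Cfsg.fittingSubgroup ↥N).map N.subtype ≤ Cfsg.fittingSubgroup G :=
      Cfsg.Agent.Lib.Comps.map_fitting_le_of_subnormal hNn.isSubnormal
    rw [hFit, le_bot_iff] at h1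
    exact (Subgroup.map_eq_bot_iff_of_injective _ N.subtype_injective).1 h1
  have hXl : X = (Cfsg.layer ↥N).map N.subtype := by
    rw [hX, Cfsg.generalizedFittingSubgroup, hFN, sup_bot_eq]
  have hGl : Cfsg.generalizedFittingSubgroup G = Cfsg.layer G := by
    rw [Cfsg.generalizedFittingSubgroup, hFit, sup_bot_eq]
  have hEq : (Cfsg.layer ↥N).map N.subtype = Cfsg.layer G := by
    apply le_antisymm
    · rw [Subgroup.map_le_iff_le_comap]
      refine sSup_le fun K hK => ?_
      rw [← Subgroup.map_le_iff_le_comap]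
      exact le_sSup (Cfsg.Agent.Lib.Comps.isComponent_map_subtype hNn.isSubnormal hK)
    · refine sSup_le fun L hL => ?_
      rcases Cfsg.Agent.Lib.Comps.comp_lemma hL hNn.isSubnormal with h | h
      · have h1 := Cfsg.Agent.Lib.Comps.isComponent_subgroupOf hL h
        have h2 : L.subgroupOf N ≤ Cfsg.layer ↥N := le_sSup h1
        have h3 := Subgroup.map_mono (f := N.subtype) h2
        rwa [Subgroup.map_subgroupOf_eq_of_le h] at h3
      · exfalso
        rw [Subgroup.commutator_eq_bot_iff_le_centralizer] at h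
        have h4 : L ≤ Subgroup.centralizer (N : Set G) := h
        rw [hCN, le_bot_iff] at h4
        exact Cfsg.Agent.Lib.Comps.comp_ne_bot hL h4
  refine ⟨hFit, ?_, hGl, ?_⟩
  · rw [hXl, hEq, hGl]
  · intro K hKn hKne hmin
    rcases hmin (K ⊓ N) (Subgroup.normal_inf_normal _ _) inf_le_left with h | h
    · exfalso
      apply hKne
      have h1 : K ≤ Subgroup.centralizer (N : Set G) := by
        intro k hk
        rw [Subgroup.mem_centralizer_iff]
        intro n hn
        have h2 : n * k * n⁻¹ * k⁻¹ ∈ K ⊓ N := by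
          constructor
          · exact K.mul_mem (hKn.conj_mem k hk n) (K.inv_mem hk)
          · have h3 := hNn.conj_mem n⁻¹ (N.inv_mem hn) k
            have e : n * k * n⁻¹ * k⁻¹ = n * (k * n⁻¹ * k⁻¹) := by group
            rw [e]
            exact N.mul_mem hn h3
        rw [h, Subgroup.mem_bot] at h2
        have h5 : n * k * n⁻¹ = k := by
          have := mul_inv_eq_one.1 h2
          exact this
        exact mul_inv_eq_iff_eq_mul.1 h5
      rw [hCN, le_bot_iff] at h1
      exact h1
    · rw [← h]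
      exact inf_le_right

end Cfsg.Agent.S3750
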