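import Mathlib
import Cfsg.Statements.S3751
import Cfsg.Agent.Lib.H6PExp2
import Cfsg.Agent.Lib.FStarAct
-- import your own Cfsg.Agent.* helpers here

set_option autoImplicit false
open Cfsg

namespace Cfsg.Agent.S3751

open Cfsg.Agent.Lib.H6PExp2
open Subgroup

/-- `O_p(H)` as a subgroup of the ambient group. -/
def pc {G : Type*} [Group G] (p : ℕ) (H : Subgroup G) : Subgroup G := (Cfsg.pCore p ↥H).map H.subtype

/-- The maximal `p`-local subgroups. -/
def IsMax {G : Type*} [Group G] (p : ℕ) (M : Subgroup G) : Prop :=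
  (∃ T : Subgroup G, IsPGroup p T ∧ T ≠ ⊥ ∧ M = Subgroup.normalizer (T : Set G)) ∧
    ∀ L : Subgroup G, (∃ T : Subgroup G, IsPGroup p T ∧ T ≠ ⊥ ∧ L = Subgroup.normalizer (T : Set G)) → M ≤ L → L = M

section Pc

variable {G : Type*} [Group G] [Finite G] {p : ℕ} [hp : Fact p.Prime]

theorem pc_le (H : Subgroup G) : pc p H ≤ H := by
  rintro _ ⟨a, _, rfl⟩
  exact a.2

theorem pc_isP (H : Subgroup G) : IsPGroup p (pc p H) :=
  (Cfsg.Agent.Lib.FitCore.pCore_isPGroup p).map _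

theorem pc_norm (H : Subgroup G) : H ≤ normalizer (pc p H : Set G) := by
  intro m hm
  apply norm_of_conj_le
  rintro _ ⟨a, ha, rfl⟩
  haveI : (Cfsg.pCore p ↥H).Normal := inferInstance
  refine ⟨⟨m, hm⟩ * a * ⟨m, hm⟩⁻¹, this.conj_mem a ha _, ?_⟩
  simp

theorem le_pc (S H : Subgroup G) (hSH : S ≤ H) (hn : H ≤ normalizer (S : Set G)) (hS : IsPGroup p S) :
    S ≤ pc p H := by
  intro s hs
  refine ⟨⟨s, hSH hs⟩, ?_, rfl⟩
  have hnS : (S.subgroupOf H).Normal := by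
    refine ⟨fun x hx g => ?_⟩
    rw [Subgroup.mem_subgroupOf] at hx ⊢
    exact (Subgroup.mem_normalizer_iff.1 (hn g.2) _).1 hx
  have hpS : IsPGroup p (S.subgroupOf H) := by
    intro x
    obtain ⟨i, hi⟩ := hS ⟨((x : H) : G), x.2⟩
    refine ⟨i, Subtype.ext (Subtype.ext ?_)⟩
    simpa using congrArg Subtype.val hi
  have := Cfsg.Agent.Lib.FitCore.le_pCore p _ hnS hpS
  exact this (by rw [Subgroup.mem_subgroupOf]; exact hs)

theorem pc_conj (H : Subgroup G) {y : G} (hy : y ∈ normalizer (H : Set G)) :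
    y ∈ normalizer (pc p H : Set G) := by
  apply norm_of_conj_le
  intro s hs
  have h1 : ((pc p H).map (MulAut.conj y).toMonoidHom) ≤ pc p H := by
    apply le_pc
    · rintro _ ⟨t, ht, rfl⟩
      exact (Subgroup.mem_normalizer_iff.1 hy _).1 (pc_le H ht)
    · intro h hh
      apply norm_of_conj_le
      rintro _ ⟨t, ht, rfl⟩
      have hh' : y⁻¹ * h * y ∈ H := by
        have := (Subgroup.mem_normalizer_iff.1 (Subgroup.inv_mem _ hy) h).1 hh
        simpa using this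
      have h2 := (Subgroup.mem_normalizer_iff.1 (pc_norm H hh') t).1 ht
      refine ⟨_, h2, ?_⟩
      show y * (y⁻¹ * h * y * t * (y⁻¹ * h * y)⁻¹) * y⁻¹ = h * (y * t * y⁻¹) * h⁻¹
      group
    · exact (pc_isP H).map _
  exact h1 ⟨s, hs, rfl⟩

theorem pc_map_conj (H : Subgroup G) (x y : G) (hy : y ∈ pc p (H.map (MulAut.conj x).toMonoidHom)) :
    x⁻¹ * y * x ∈ pc p H := by
  set H' := H.map (MulAut.conj x).toMonoidHom with hH'
  have hmem : ∀ u, u ∈ H' ↔ x⁻¹ * u * x ∈ H := by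
    intro u
    constructor
    · rintro ⟨t, ht, rfl⟩
      have e : x⁻¹ * ((MulAut.conj x).toMonoidHom t) * x = t := by
        show x⁻¹ * (x * t * x⁻¹) * x = t
        group
      rw [e]; exact ht
    · intro hu
      refine ⟨_, hu, ?_⟩
      show x * (x⁻¹ * u * x) * x⁻¹ = u
      group
  have h1 : ((pc p H').map (MulAut.conj x⁻¹).toMonoidHom) ≤ pc p H := by
    apply le_pc
    · rintro _ ⟨t, ht, rfl⟩
      have := (hmem t).1 (pc_le H' ht)
      show x⁻¹ * t * x⁻¹⁻¹ ∈ H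
      simpa using this
    · intro h hh
      apply norm_of_conj_le
      rintro _ ⟨t, ht, rfl⟩
      have hh' : x * h * x⁻¹ ∈ H' := by
        rw [hmem]
        have e : x⁻¹ * (x * h * x⁻¹) * x = h := by group
        rw [e]; exact hh
      have h2 := (Subgroup.mem_normalizer_iff.1 (pc_norm H' hh') t).1 ht
      refine ⟨_, h2, ?_⟩
      show x⁻¹ * (x * h * x⁻¹ * t * (x * h * x⁻¹)⁻¹) * x⁻¹⁻¹ = h * (x⁻¹ * t * x⁻¹⁻¹) * h⁻¹
      group
    · exact (pc_isP H').map _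
  have h2 := h1 ⟨y, hy, rfl⟩
  simpa using h2

end Pc

section Max

variable {G : Type*} [Group G] [Finite G] {p : ℕ} [hp : Fact p.Prime]

theorem IsMax.pc_ne_bot {M : Subgroup G} (hM : IsMax p M) : pc p M ≠ ⊥ := by
  obtain ⟨⟨T, hT, hne, rfl⟩, -⟩ := hM
  intro hb
  apply hne
  have h1 : T ≤ pc p (normalizer (T : Set G)) :=
    le_pc T _ Subgroup.le_normalizer le_rfl hT
  rw [hb, le_bot_iff] at h1
  exact h1

theorem IsMax.norm_pc {M : Subgroup G} (hM : IsMax p M) : normalizer (pc p M : Set G) = M :=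
  hM.2 _ ⟨_, pc_isP M, hM.pc_ne_bot, rfl⟩ (pc_norm M)

theorem IsMax.norm_self {M : Subgroup G} (hM : IsMax p M) {y : G} (hy : y ∈ normalizer (M : Set G)) : y ∈ M := by
  have := pc_conj (p := p) M hy
  rwa [hM.norm_pc] at this

theorem exists_max {T : Subgroup G} (hT : IsPGroup p T) (hne : T ≠ ⊥) :
    ∃ M : Subgroup G, IsMax p M ∧ normalizer (T : Set G) ≤ M := by
  let S : Set (Subgroup G) := {L | ∃ T : Subgroup G, IsPGroup p T ∧ T ≠ ⊥ ∧ L = normalizer (T : Set G)}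
  have hmem : normalizer (T : Set G) ∈ S := ⟨T, hT, hne, rfl⟩
  obtain ⟨m, hm, hmax⟩ := (Set.toFinite S).exists_le_maximal hmem
  refine ⟨m, ⟨hmax.1, fun L hL hmL => ?_⟩, hm⟩
  exact le_antisymm (hmax.2 hL hmL) hmL

theorem IsMax.conj {M : Subgroup G} (hM : IsMax p M) (x : G) : IsMax p (M.map (MulAut.conj x).toMonoidHom) := by
  have hloc : ∀ (g : G) (L : Subgroup G), (∃ T : Subgroup G, IsPGroup p T ∧ T ≠ ⊥ ∧ L = normalizer (T : Set G)) →
      ∃ T : Subgroup G, IsPGroup p T ∧ T ≠ ⊥ ∧ L.map (MulAut.conj g).toMonoidHom = normalizer (T : Set G) := by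
    rintro g L ⟨T, hT, hne, rfl⟩
    refine ⟨T.map (MulAut.conj g).toMonoidHom, hT.map _, ?_, ?_⟩
    · intro hb
      apply hne
      rwa [Subgroup.map_eq_bot_iff_of_injective _ (MulAut.conj g).injective] at hb
    · exact Subgroup.map_equiv_normalizer_eq T (MulAut.conj g)
  refine ⟨hloc x M hM.1, fun L hL hle => ?_⟩
  have h1 := hM.2 (L.map (MulAut.conj x⁻¹).toMonoidHom) (hloc _ L hL) (by
    intro m hm
    have := hle ⟨m, hm, rfl⟩
    refine ⟨_, this, ?_⟩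
    show x⁻¹ * (x * m * x⁻¹) * x⁻¹⁻¹ = m
    group)
  ext u
  constructor
  · intro hu
    have h2 : x⁻¹ * u * x⁻¹⁻¹ ∈ M := by
      rw [← h1]
      exact ⟨u, hu, rfl⟩
    refine ⟨_, h2, ?_⟩
    show x * (x⁻¹ * u * x⁻¹⁻¹) * x⁻¹ = u
    group
  · intro hu
    exact hle hu

/-- Normal subgroups of a maximal `p`-local subgroup control their normalizers. -/
theorem IsMax.norm_le (hloc : Cfsg.IsOfLocalCharacteristic p G) {X A : Subgroup G} (hX : IsMax p X) (hA : A ≠ ⊥)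
    (hAX : A ≤ X) (hXA : X ≤ normalizer (A : Set G)) : normalizer (A : Set G) ≤ X := by
  have hW : pc p A ≠ ⊥ := by
    intro hb
    apply hA
    set U := pc p X with hU
    have hUX : U ≤ X := pc_le X
    have hinf : A ⊓ U ≤ pc p A := by
      apply le_pc
      · exact inf_le_left
      · intro a ha
        apply norm_of_conj_le
        rintro y ⟨hy1, hy2⟩
        refine ⟨A.mul_mem (A.mul_mem ha hy1) (A.inv_mem ha), ?_⟩
        exact (Subgroup.mem_normalizer_iff.1 (pc_norm X (hAX ha)) y).1 hy2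
      · exact (pc_isP X).to_le inf_le_right
    rw [hb, le_bot_iff] at hinf
    rw [eq_bot_iff]
    intro a ha
    -- `a` centralizes `U`
    have hcomm : ∀ u ∈ U, u * a = a * u := by
      intro u hu
      have h1 : a * u * a⁻¹ * u⁻¹ ∈ A ⊓ U := by
        constructor
        · have h2 := (Subgroup.mem_normalizer_iff.1 (hXA (hUX hu)) a⁻¹).1 (A.inv_mem ha)
          have e : a * u * a⁻¹ * u⁻¹ = a * (u * a⁻¹ * u⁻¹) := by group
          rw [e]
          exact A.mul_mem ha h2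
        · have h2 := (Subgroup.mem_normalizer_iff.1 (pc_norm X (hAX ha)) u).1 hu
          exact U.mul_mem h2 (U.inv_mem hu)
      rw [hinf, Subgroup.mem_bot] at h1
      have h3 : a * u * a⁻¹ = u := mul_inv_eq_one.1 h1
      exact (mul_inv_eq_iff_eq_mul.1 h3).symm
    have hcent : (⟨a, hAX ha⟩ : X) ∈ Subgroup.centralizer (Cfsg.pCore p ↥X : Set ↥X) := by
      rw [Subgroup.mem_centralizer_iff]
      intro u hu
      apply Subtype.ext
      exact hcomm (u : G) ⟨u, hu, rfl⟩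
    have hc2 : Subgroup.centralizer (Cfsg.pCore p ↥X : Set ↥X) ≤ Cfsg.pCore p ↥X := by
      obtain ⟨⟨T, hT, hne, rfl⟩, -⟩ := hX
      exact hloc.2 T hT hne
    have h5 : a ∈ U := ⟨_, hc2 hcent, rfl⟩
    have h6 : a ∈ A ⊓ U := ⟨ha, h5⟩
    rw [hinf] at h6
    exact h6
  have hL := hX.2 (normalizer (pc p A : Set G)) ⟨_, pc_isP A, hW, rfl⟩
    (fun x hx => pc_conj A (hXA hx))
  intro y hy
  have := pc_conj (p := p) A hy
  rwa [hL] at this

end Max

theorem step {G : Type*} [Group G] [Finite G] {p : ℕ} [hp : Fact p.Prime] {P X₂ : Subgroup G}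
    (hb : ∀ X X' R : Subgroup G, IsMax p X → IsMax p X' → X ≠ X' → IsPGroup p R → R ≠ ⊥ → R ≤ X ⊓ X' →
      Nat.card R ≤ Nat.card P)
    (hX₂ : IsMax p X₂) (hP : IsPGroup p P) (hPne : P ≠ ⊥) (hPX : P ≤ X₂) (hnot : ¬ pc p X₂ ≤ P) :
    ∃ x ∈ pc p X₂, x ∈ normalizer (P : Set G) ∧ x ∉ P ∧ ∀ X : Subgroup G, IsMax p X → P ≤ X → x ∈ X → X = X₂ := by
  classical
  set U := pc p X₂ with hU
  have hPU : P ≤ normalizer (U : Set G) := hPX.trans (pc_norm X₂)
  have hYp : IsPGroup p (P ⊔ U : Subgroup G) := IsPGroup.to_sup_of_normal_right' hP (pc_isP X₂) hPU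
  let Y : Subgroup G := P ⊔ U
  haveI hnil : Group.IsNilpotent Y := hYp.isNilpotent
  let P' : Subgroup Y := P.subgroupOf Y
  have hP'top : P' < ⊤ := by
    rw [lt_top_iff_ne_top]
    intro ht
    apply hnot
    intro u hu
    have h1 : (⟨u, Subgroup.mem_sup_right hu⟩ : Y) ∈ P' := by rw [ht]; trivial
    exact h1
  have hcond := (normalizerCondition_of_isNilpotent (G := Y)) P' hP'top
  obtain ⟨y, hy1, hy2⟩ := SetLike.exists_of_lt hcond
  have hyN : (y : G) ∈ normalizer (P : Set G) := by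
    apply norm_of_conj_le
    intro r hr
    have h1 : (⟨r, Subgroup.mem_sup_left hr⟩ : Y) ∈ P' := hr
    have h2 := (Subgroup.mem_normalizer_iff.1 hy1 _).1 h1
    exact h2
  obtain ⟨a, ha, c, hc, hac⟩ := Cfsg.Agent.Lib.FStarAct.mem_sup_normalizes hPU y.2
  have hc' : c = a⁻¹ * y := by rw [hac]; group
  refine ⟨c, hc, ?_, ?_, ?_⟩
  · rw [hc']
    exact Subgroup.mul_mem _ (Subgroup.inv_mem _ (Subgroup.le_normalizer ha)) hyN
  · intro hcP
    apply hy2
    show (y : G) ∈ P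
    rw [hac]
    exact P.mul_mem ha hcP
  · intro X hX hPX' hcX
    by_contra hne
    let R : Subgroup G := P ⊔ Subgroup.zpowers c
    have hRX : R ≤ X ⊓ X₂ := by
      refine sup_le (le_inf hPX' hPX) ?_
      rw [Subgroup.zpowers_le]
      exact ⟨hcX, pc_le X₂ hc⟩
    have hRY : R ≤ Y := by
      refine sup_le le_sup_left ?_
      rw [Subgroup.zpowers_le]
      exact Subgroup.mem_sup_right hc
    have hRp : IsPGroup p R := hYp.to_le hRY
    have hRne : R ≠ ⊥ := by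
      intro hb'
      apply hPne
      rw [eq_bot_iff, ← hb']
      exact le_sup_left
    have h1 := hb X X₂ R hX hX₂ hne hRp hRne hRX
    have h2 : P = R := Subgroup.eq_of_le_of_card_ge le_sup_left h1
    have h3 : c ∈ R := Subgroup.mem_sup_right (Subgroup.mem_zpowers c)
    rw [← h2] at h3
    have h4 : (y : G) ∈ P := by
      rw [hac]; exact P.mul_mem ha h3
    exact hy2 h4

/-- Two distinct subgroups M₁, M₂ of G form a primitive pair when, for {i, j} = {1, 2}, every non-trivial normal subgroup A of M_i contained in M₁ ∩ M₂ satisfies N_{M_j}(A) = M₁ ∩ M₂; the pair has characteristic p when moreover C_{M_i}(O_p(M_i)) ≤ O_p(M_i) for both i and O_p(M₁)O_p(M₂) ≤ M₁ ∩ M₂. Let G be a finite group, p a prime dividing its order, with O_p(G) = 1 and every p-local subgroup of characteristic p. Then either G has a primitive pair of characteristic p, or every maximal p-local subgroup M of G is strongly p-embedded in G: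 M is a proper subgroup, p divides its order, and for every g ∉ M the order of M ∩ gMg⁻¹ is prime to p. -/
theorem result {G : Type*} [Group G] [Finite G] {p : ℕ} [Fact p.Prime] (hloc : Cfsg.IsOfLocalCharacteristic p G) (hOp : Cfsg.pCore p G = ⊥) : (∃ M₁ M₂ : Subgroup G, M₁ ≠ M₂ ∧ (∀ A : Subgroup G, A ≠ ⊥ → A ≤ M₁ ⊓ M₂ → (M₁ ≤ Subgroup.normalizer (A : Set G) → M₂ ⊓ Subgroup.normalizer (A : Set G) = M₁ ⊓ M₂) ∧ (M₂ ≤ Subgroup.normalizer (A : Set G) → M₁ ⊓ Subgroup.normalizer (A : Set G) = M₁ ⊓ M₂)) ∧ Subgroup.centralizer (Cfsg.pCore p ↥M₁ : Set ↥M₁) ≤ Cfsg.pCore p ↥M₁ ∧ Subgroup.centralizer (Cfsg.pCore p ↥M₂ : Set ↥M₂) ≤ Cfsg.pCore p ↥M₂ ∧ (Cfsg.pCore p ↥M₁).map M₁.subtype ⊔ (Cfsg.pCore p ↥M₂).map M₂.subtype ≤ M₁ ⊓ M₂) ∨ (∀ M : Subgroup G, (∃ T : Subgroup G, IsPGroup p T ∧ T ≠ ⊥ ∧ M = Subgroup.normalizer (T : Set G)) → (∀ L : Subgroup G, (∃ T : Subgroup G, IsPGroup p T ∧ T ≠ ⊥ ∧ L = Subgroup.normalizer (T : Set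 G)) → M ≤ L → L = M) → M ≠ ⊤ ∧ p ∣ Nat.card M ∧ ∀ g : G, g ∉ M → ¬ p ∣ Nat.card ↥(M ⊓ M.map (MulAut.conj g).toMonoidHom)) := by
  classical
  by_cases hfirst : ∃ M₁ M₂ : Subgroup G, M₁ ≠ M₂ ∧ (∀ A : Subgroup G, A ≠ ⊥ → A ≤ M₁ ⊓ M₂ → (M₁ ≤ Subgroup.normalizer (A : Set G) → M₂ ⊓ Subgroup.normalizer (A : Set G) = M₁ ⊓ M₂) ∧ (M₂ ≤ Subgroup.normalizer (A : Set G) → M₁ ⊓ Subgroup.normalizer (A : Set G) = M₁ ⊓ M₂)) ∧ Subgroup.centralizer (Cfsg.pCore p ↥M₁ : Set ↥M₁) ≤ Cfsg.pCore p ↥M₁ ∧ Subgroup.centralizer (Cfsg.pCore p ↥M₂ : Set ↥M₂) ≤ Cfsg.pCore p ↥M₂ ∧ (Cfsg.pCore p ↥M₁).map M₁.subtype ⊔ (Cfsg.pCore p ↥M₂).map M₂.subtype ≤ M₁ ⊓ M₂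
  · exact Or.inl hfirst
  right
  intro M hM1 hM2
  have hM : IsMax p M := ⟨hM1, hM2⟩
  obtain ⟨T, hT, hne, hMT⟩ := hM1
  have hTM : T ≤ M := by
    rw [hMT]; exact Subgroup.le_normalizer
  have hcent : ∀ X : Subgroup G, IsMax p X →
      Subgroup.centralizer (Cfsg.pCore p ↥X : Set ↥X) ≤ Cfsg.pCore p ↥X := by
    rintro X ⟨⟨U, hU, hUne, rfl⟩, -⟩
    exact hloc.2 U hU hUne
  have hpair : ∀ X₁ X₂ : Subgroup G, IsMax p X₁ → IsMax p X₂ → X₁ ≠ X₂ → pc p X₁ ≤ X₂ → pc p X₂ ≤ X₁ → False := by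
    intro X₁ X₂ h₁ h₂ hne12 h12 h21
    apply hfirst
    refine ⟨X₁, X₂, hne12, ?_, hcent X₁ h₁, hcent X₂ h₂, ?_⟩
    · intro A hA hAle
      constructor
      · intro hXA
        apply le_antisymm
        · rintro y ⟨hy1, hy2⟩
          exact ⟨h₁.norm_le hloc hA (hAle.trans inf_le_left) hXA hy2, hy1⟩
        · rintro y ⟨hy1, hy2⟩
          exact ⟨hy2, hXA hy1⟩
      · intro hXA
        apply le_antisymm
        · rintro y ⟨hy1, hy2⟩
          exact ⟨hy1, h₂.norm_le hloc hA (hAle.trans inf_le_right) hXA hy2⟩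
        · rintro y ⟨hy1, hy2⟩
          exact ⟨hy1, hXA hy2⟩
    · exact sup_le (le_inf (pc_le X₁) h12) (le_inf h21 (pc_le X₂))
  refine ⟨?_, ?_, ?_⟩
  · intro htop
    rw [hMT] at htop
    have hTn : T.Normal := Subgroup.normalizer_eq_top_iff.1 htop
    have h1 := Cfsg.Agent.Lib.FitCore.le_pCore p T hTn hT
    rw [hOp, le_bot_iff] at h1
    exact hne h1
  · obtain ⟨k, hk⟩ := IsPGroup.iff_card.1 hT
    have hk0 : k ≠ 0 := by
      rintro rfl
      rw [pow_zero] at hk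
      exact hne (Subgroup.card_eq_one.1 hk)
    have h1 : p ∣ Nat.card T := by
      rw [hk]; exact dvd_pow_self _ hk0
    exact h1.trans (Subgroup.card_dvd_of_le hTM)
  · intro g hg hd
    -- the set of triples
    let S : Set (Subgroup G × Subgroup G × Subgroup G) :=
      {t | IsMax p t.1 ∧ IsMax p t.2.1 ∧ t.1 ≠ t.2.1 ∧ IsPGroup p t.2.2 ∧ t.2.2 ≠ ⊥ ∧ t.2.2 ≤ t.1 ⊓ t.2.1}
    have hSne : S.Nonempty := by
      obtain ⟨x, hx⟩ := exists_prime_orderOf_dvd_card' (G := ↥(M ⊓ M.map (MulAut.conj g).toMonoidHom)) p hd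
      refine ⟨(M, M.map (MulAut.conj g).toMonoidHom, Subgroup.zpowers (x : G)), hM, hM.conj g, ?_, ?_, ?_, ?_⟩
      · intro he
        apply hg
        apply hM.norm_self
        apply norm_of_conj_le
        intro r hr
        show g * r * g⁻¹ ∈ M
        have h1 : g * r * g⁻¹ ∈ M.map (MulAut.conj g).toMonoidHom := ⟨r, hr, rfl⟩
        have he' : M = M.map (MulAut.conj g).toMonoidHom := he
        rw [← he'] at h1
        exact h1
      · show IsPGroup p (Subgroup.zpowers (x : G))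
        apply IsPGroup.of_card (n := 1)
        rw [Nat.card_zpowers, Subgroup.orderOf_coe, hx, pow_one]
      · show Subgroup.zpowers (x : G) ≠ ⊥
        rw [Ne, Subgroup.zpowers_eq_bot]
        intro h1
        have h2 : orderOf x = 1 := by
          rw [← Subgroup.orderOf_coe, h1, orderOf_one]
        rw [hx] at h2
        exact (Fact.out : p.Prime).one_lt.ne' h2
      · show Subgroup.zpowers (x : G) ≤ M ⊓ M.map (MulAut.conj g).toMonoidHom
        rw [Subgroup.zpowers_le]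
        exact x.2
    obtain ⟨⟨X₁, X₂, P⟩, hmem, hmax⟩ := Set.exists_max_image S (fun t => Nat.card t.2.2) (Set.toFinite _) hSne
    obtain ⟨hX₁, hX₂, hX12, hPp, hPne, hPle⟩ := hmem
    simp only at hX₁ hX₂ hX12 hPp hPne hPle
    have hb : ∀ X X' R : Subgroup G, IsMax p X → IsMax p X' → X ≠ X' → IsPGroup p R → R ≠ ⊥ → R ≤ X ⊓ X' →
        Nat.card R ≤ Nat.card P := by
      intro X X' R h1 h2 h3 h4 h5 h6
      exact hmax (X, X', R) ⟨h1, h2, h3, h4, h5, h6⟩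
    have hPX₁ : P ≤ X₁ := hPle.trans inf_le_left
    have hPX₂ : P ≤ X₂ := hPle.trans inf_le_right
    -- the case in which one core is not inside `P`
    have hfinish : ∀ Y₁ Y₂ : Subgroup G, IsMax p Y₁ → IsMax p Y₂ → Y₁ ≠ Y₂ → P ≤ Y₁ → P ≤ Y₂ → pc p Y₁ ≤ P →
        ¬ pc p Y₂ ≤ P → False := by
      intro Y₁ Y₂ hY₁ hY₂ hne12 hP1 hP2 h1 h2
      obtain ⟨x, hxU, hxN, hxP, hxuniq⟩ := step hb hY₂ hPp hPne hP2 h2
      have hxY₁ : x ∉ Y₁ := fun hx => hne12 (hxuniq Y₁ hY₁ hP1 hx)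
      have hconjP : ∀ v ∈ P, x⁻¹ * v * x ∈ P := by
        intro v hv
        have := (Subgroup.mem_normalizer_iff.1 (Subgroup.inv_mem _ hxN) v).1 hv
        simpa using this
      have hPY₃ : P ≤ Y₁.map (MulAut.conj x).toMonoidHom := by
        intro v hv
        refine ⟨_, hP1 (hconjP v hv), ?_⟩
        show x * (x⁻¹ * v * x) * x⁻¹ = v
        group
      refine hpair Y₁ _ hY₁ (hY₁.conj x) ?_ (h1.trans hPY₃) ?_
      · intro he
        apply hxY₁
        apply hY₁.norm_self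
        apply norm_of_conj_le
        intro r hr
        have h3 : x * r * x⁻¹ ∈ Y₁.map (MulAut.conj x).toMonoidHom := ⟨r, hr, rfl⟩
        rw [← he] at h3
        exact h3
      · intro y hy
        have h3 := h1 (pc_map_conj Y₁ x y hy)
        have h4 := (Subgroup.mem_normalizer_iff.1 hxN _).1 h3
        have e : x * (x⁻¹ * y * x) * x⁻¹ = y := by group
        rw [e] at h4
        exact hP1 h4
    by_cases h1 : pc p X₁ ≤ P
    · by_cases h2 : pc p X₂ ≤ P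
      · exact hpair X₁ X₂ hX₁ hX₂ hX12 (h1.trans hPX₂) (h2.trans hPX₁)
      · exact hfinish X₁ X₂ hX₁ hX₂ hX12 hPX₁ hPX₂ h1 h2
    · by_cases h2 : pc p X₂ ≤ P
      · exact hfinish X₂ X₁ hX₂ hX₁ hX12.symm hPX₂ hPX₁ h2 h1
      · obtain ⟨x₁, _, hx₁N, _, hx₁⟩ := step hb hX₁ hPp hPne hPX₁ h1
        obtain ⟨x₂, _, hx₂N, _, hx₂⟩ := step hb hX₂ hPp hPne hPX₂ h2
        obtain ⟨M₃, hM₃, hM₃le⟩ := exists_max hPp hPne
        have hPM₃ : P ≤ M₃ := Subgroup.le_normalizer.trans hM₃le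
        have e1 := hx₁ M₃ hM₃ hPM₃ (hM₃le hx₁N)
        have e2 := hx₂ M₃ hM₃ hPM₃ (hM₃le hx₂N)
        exact hX12 (e1.symm.trans e2)

end Cfsg.Agent.S3751
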