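import Mathlib
import Cfsg.Statements.S3754
import Cfsg.Agent.Lib.FitCore
import Cfsg.Agent.Lib.H6PGroup
import Cfsg.Agent.Lib.UpperP
import Cfsg.Agent.Lib.CoprimeGen
import Cfsg.Agent.Lib.H6PExp
import Cfsg.Agent.Lib.PResidual
-- import your own Cfsg.Agent.* helpers here

set_option autoImplicit false
open Cfsg

namespace Cfsg.Agent.S3754

open scoped commutatorElement Pointwise

theorem sylow_core {p : ℕ} [hp : Fact p.Prime] {H : Type*} [Group H] [Finite H]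
    (V D E : Subgroup H) [hVn : V.Normal]
    (hV : ∀ u ∈ V, ∀ k : ℕ, u ^ p ^ k = 1 → u = 1) (hD : ∀ u ∈ D, ∃ k : ℕ, u ^ p ^ k = 1)
    (hE : ∀ u ∈ E, ∃ k : ℕ, u ^ p ^ k = 1)
    (hVD : ∀ h : H, ∃ d ∈ D, h * d⁻¹ ∈ V) :
    ∃ v ∈ V, ∀ e ∈ E, ∃ d ∈ D, e = v * d * v⁻¹ := by
  classical
  have hD' : IsPGroup p D := by
    rintro ⟨u, hu⟩
    obtain ⟨k, hk⟩ := hD u hu
    exact ⟨k, Subtype.ext (by simpa using hk)⟩
  have hE' : IsPGroup p E := by
    rintro ⟨u, hu⟩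
    obtain ⟨k, hk⟩ := hE u hu
    exact ⟨k, Subtype.ext (by simpa using hk)⟩
  obtain ⟨P₁, hP₁⟩ := hD'.exists_le_sylow
  obtain ⟨P₂, hP₂⟩ := hE'.exists_le_sylow
  obtain ⟨g, hg⟩ := MulAction.exists_smul_eq H P₁ P₂
  obtain ⟨d₀, hd₀, hv₀⟩ := hVD g
  refine ⟨g * d₀⁻¹, hv₀, ?_⟩
  intro e he
  have h3 : e ∈ (MulAut.conj g • (P₁ : Subgroup H)) := by
    have h : e ∈ ((g • P₁ : Sylow p H) : Subgroup H) := by rw [hg]; exact hP₂ he
    rwa [Sylow.coe_subgroup_smul] at h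
  rw [Subgroup.mem_pointwise_smul_iff_inv_smul_mem] at h3
  have h4 : g⁻¹ * e * g ∈ (P₁ : Subgroup H) := by simpa [MulAut.smul_def] using h3
  obtain ⟨d, hd, hw⟩ := hVD (g⁻¹ * e * g)
  have h5 : g⁻¹ * e * g * d⁻¹ ∈ (P₁ : Subgroup H) :=
    (P₁ : Subgroup H).mul_mem h4 ((P₁ : Subgroup H).inv_mem (hP₁ hd))
  obtain ⟨k, hk⟩ := P₁.isPGroup' ⟨_, h5⟩
  have h6 : (g⁻¹ * e * g * d⁻¹) ^ p ^ k = 1 := by simpa using congrArg Subtype.val hk
  have h7 := hV _ hw k h6
  have h8 : g⁻¹ * e * g = d := mul_inv_eq_one.1 h7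
  refine ⟨d₀ * d * d₀⁻¹, D.mul_mem (D.mul_mem hd₀ hd) (D.inv_mem hd₀), ?_⟩
  have h9 : e = g * d * g⁻¹ := by rw [← h8]; group
  rw [h9]; group

theorem sylow_step {p : ℕ} [hp : Fact p.Prime] {G : Type*} [Group G] [Finite G]
    (V D : Subgroup G) [hVn : V.Normal]
    (hV : ∀ u ∈ V, ∀ k : ℕ, u ^ p ^ k = 1 → u = 1) (hD : ∀ u ∈ D, ∃ k : ℕ, u ^ p ^ k = 1)
    (y : G) (hy : y ∈ V) :
    ∃ t ∈ V, t ∈ D ⊔ D.map (MulAut.conj y).toMonoidHom ∧ ∀ d ∈ D, t * d * t⁻¹ = y * d * y⁻¹ := by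
  classical
  set H := D ⊔ D.map (MulAut.conj y).toMonoidHom with hH
  have hDH : D ≤ H := le_sup_left
  have hDyH : D.map (MulAut.conj y).toMonoidHom ≤ H := le_sup_right
  have hle : H ≤ V ⊔ D := by
    refine sup_le le_sup_right ?_
    rintro _ ⟨d, hd, rfl⟩
    have h1 : (MulAut.conj y).toMonoidHom d = (y * d * y⁻¹ * d⁻¹) * d := by
      simp [MulAut.conj_apply]
    rw [h1]
    refine Subgroup.mul_mem _ (Subgroup.mem_sup_left ?_) (Subgroup.mem_sup_right hd)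
    have := V.mul_mem hy (hVn.conj_mem _ (V.inv_mem hy) d)
    simpa [mul_assoc] using this
  have hE : ∀ u ∈ D.map (MulAut.conj y).toMonoidHom, ∃ k : ℕ, u ^ p ^ k = 1 := by
    rintro _ ⟨d, hd, rfl⟩
    obtain ⟨k, hk⟩ := hD d hd
    exact ⟨k, by rw [← map_pow, hk, map_one]⟩
  obtain ⟨v, hv, hvE⟩ := sylow_core (p := p) (V.subgroupOf H) (D.subgroupOf H)
    ((D.map (MulAut.conj y).toMonoidHom).subgroupOf H)
    (by
      intro u hu k hk
      have h1 := hV (u : G) hu k (by simpa using congrArg Subtype.val hk)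
      exact Subtype.ext h1)
    (by
      intro u hu
      obtain ⟨k, hk⟩ := hD (u : G) hu
      exact ⟨k, Subtype.ext (by simpa using hk)⟩)
    (by
      intro u hu
      obtain ⟨k, hk⟩ := hE (u : G) hu
      exact ⟨k, Subtype.ext (by simpa using hk)⟩)
    (by
      rintro ⟨h, hh⟩
      have h1 : h ∈ ((V ⊔ D : Subgroup G) : Set G) := hle hh
      rw [Subgroup.normal_mul, Set.mem_mul] at h1
      obtain ⟨w, hw, d, hd, rfl⟩ := h1
      refine ⟨⟨d, hDH hd⟩, hd, ?_⟩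
      rw [Subgroup.mem_subgroupOf]
      simpa using hw)
  refine ⟨(v : G), hv, v.2, ?_⟩
  intro d hd
  have he : y * d * y⁻¹ ∈ D.map (MulAut.conj y).toMonoidHom := ⟨d, hd, by simp [MulAut.conj_apply]⟩
  obtain ⟨d', hd', hde⟩ := hvE ⟨y * d * y⁻¹, hDyH he⟩ he
  have hde' : y * d * y⁻¹ = (v : G) * (d' : G) * (v : G)⁻¹ := by simpa using congrArg Subtype.val hde
  have hd'D : (d' : G) ∈ D := hd'
  have h2 : (v : G)⁻¹ * y * d * ((v : G)⁻¹ * y)⁻¹ = (d' : G) := by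
    have h : (v : G)⁻¹ * (y * d * y⁻¹) * (v : G) = (d' : G) := by rw [hde']; group
    rw [← h]; group
  have hn : (v : G)⁻¹ * y ∈ V := V.mul_mem (V.inv_mem hv) hy
  have h3 : (d' : G) * d⁻¹ ∈ V := by
    have h := V.mul_mem hn (hVn.conj_mem _ (V.inv_mem hn) d)
    have e : (d' : G) * d⁻¹ = ((v : G)⁻¹ * y) * (d * ((v : G)⁻¹ * y)⁻¹ * d⁻¹) := by
      rw [← h2]; group
    rw [e]; exact h
  have h4 : (d' : G) * d⁻¹ ∈ D := D.mul_mem hd'D (D.inv_mem hd)
  obtain ⟨k, hk⟩ := hD _ h4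
  have h5 : (d' : G) = d := mul_inv_eq_one.1 (hV _ h3 k hk)
  rw [hde', h5]

theorem coprime_part {p : ℕ} [hp : Fact p.Prime] {M : Type*} [Group M] [Finite M] {G : Type*} [Group G]
    (π : M →* G) (u : M) (ho : (orderOf (π u)).Coprime p) :
    ∃ k : ℕ, π (u ^ k) = π u ∧ (orderOf (u ^ k)).Coprime p := by
  classical
  have hu0 : orderOf u ≠ 0 := (orderOf_pos u).ne'
  obtain ⟨e, r, hr, hm⟩ := Nat.exists_eq_pow_mul_and_not_dvd hu0 p hp.out.ne_one
  set s := orderOf (π u) with hs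
  have hs0 : 0 < s := Nat.pos_of_dvd_of_pos (orderOf_map_dvd π u) (orderOf_pos u)
  have hcop : Nat.Coprime (p ^ e) s := Nat.Coprime.pow_left e ho.symm
  have hmod : (p ^ e) ^ Nat.totient s ≡ 1 [MOD s] := Nat.ModEq.pow_totient hcop
  refine ⟨(p ^ e) ^ Nat.totient s, ?_, ?_⟩
  · rw [map_pow]
    have h := (pow_eq_pow_iff_modEq (x := π u) (n := (p ^ e) ^ Nat.totient s) (m := 1)).2 hmod
    simpa using h
  · have hd : orderOf (u ^ ((p ^ e) ^ Nat.totient s)) ∣ r := by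
      apply orderOf_dvd_of_pow_eq_one
      rw [← pow_mul]
      have h : orderOf u ∣ (p ^ e) ^ Nat.totient s * r := by
        rw [hm]
        exact Nat.mul_dvd_mul (dvd_pow_self _ (Nat.totient_pos.2 hs0).ne') (dvd_refl r)
      exact orderOf_dvd_iff_pow_eq_one.1 h
    exact Nat.Coprime.coprime_dvd_left hd ((Nat.Prime.coprime_iff_not_dvd hp.out).2 hr).symm

theorem lift_step {p : ℕ} [hp : Fact p.Prime] {M G : Type*} [Group M] [Finite M] [Group G] [Finite G]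
    (π : M →* G) (A : Subgroup M) (V B : Subgroup G) [hVn : V.Normal]
    (hV : ∀ u ∈ V, ∀ k : ℕ, u ^ p ^ k = 1 → u = 1)
    (hVo : ∀ u ∈ V, (orderOf u).Coprime p)
    (hD : ∀ u ∈ A.map π, ∃ k : ℕ, u ^ p ^ k = 1)
    (hcomm : ∀ a ∈ A.map π, ∀ b ∈ A.map π, a * b = b * a) (hBD : B ≤ A.map π) :
    ∀ (n : ℕ) (y : M), Nat.card ↥(A ⊔ A.map (MulAut.conj y).toMonoidHom) = n → π y ∈ V →
      (∀ b ∈ B, π y * b = b * π y) → (∃ d ∈ A.map π, π y * d ≠ d * π y) →
    ∃ x : M, π x ∈ V ∧ (∀ b ∈ B, π x * b = b * π x) ∧ (∃ d ∈ A.map π, π x * d ≠ d * π x) ∧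
      (orderOf x).Coprime p ∧ x ∈ A ⊔ A.map (MulAut.conj x).toMonoidHom := by
  classical
  intro n
  induction n using Nat.strong_induction_on with
  | _ n ih =>
    intro y hn hyV hyB hyD
    obtain ⟨t, htV, htH, ht⟩ := sylow_step (p := p) V (A.map π) hV hD (π y) hyV
    have hmapL : (A ⊔ A.map (MulAut.conj y).toMonoidHom).map π
        = A.map π ⊔ (A.map π).map (MulAut.conj (π y)).toMonoidHom := by
      rw [Subgroup.map_sup]
      congr 1
      rw [Subgroup.map_map, Subgroup.map_map]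
      have h : π.comp (MulAut.conj y).toMonoidHom = (MulAut.conj (π y)).toMonoidHom.comp π := by
        ext z; simp [MulAut.conj_apply]
      rw [h]
    have htmem : t ∈ (A ⊔ A.map (MulAut.conj y).toMonoidHom).map π := by rw [hmapL]; exact htH
    obtain ⟨u, huL, hut⟩ := htmem
    obtain ⟨k, hk1, hk2⟩ := coprime_part (p := p) π u (by rw [hut]; exact hVo t htV)
    have hx₁L : u ^ k ∈ A ⊔ A.map (MulAut.conj y).toMonoidHom := Subgroup.pow_mem _ huL k
    have htB : ∀ b ∈ B, t * b = b * t := by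
      intro b hb
      have hC : A.map π ⊔ (A.map π).map (MulAut.conj (π y)).toMonoidHom
          ≤ Subgroup.centralizer (B : Set G) := by
        refine sup_le ?_ ?_
        · intro d hd
          rw [Subgroup.mem_centralizer_iff]
          intro b hb
          exact hcomm b (hBD hb) d hd
        · rintro _ ⟨d, hd, rfl⟩
          rw [Subgroup.mem_centralizer_iff]
          intro b hb
          have h1 := hyB b hb
          have h2 := hcomm b (hBD hb) d hd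
          show b * (π y * d * (π y)⁻¹) = (π y * d * (π y)⁻¹) * b
          calc b * (π y * d * (π y)⁻¹) = (b * π y) * d * (π y)⁻¹ := by group
            _ = π y * b * d * (π y)⁻¹ := by rw [h1]
            _ = π y * (b * d) * (π y)⁻¹ := by group
            _ = π y * (d * b) * (π y)⁻¹ := by rw [h2]
            _ = π y * d * (b * π y) * (π y)⁻¹ * (π y)⁻¹ := by group
            _ = π y * d * (π y * b) * (π y)⁻¹ * (π y)⁻¹ := by rw [h1]
            _ = (π y * d * (π y)⁻¹) * (π y * π y * b * (π y)⁻¹ * (π y)⁻¹) := by group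
            _ = (π y * d * (π y)⁻¹) * (π y * (π y * b) * (π y)⁻¹ * (π y)⁻¹) := by group
            _ = (π y * d * (π y)⁻¹) * (π y * (b * π y) * (π y)⁻¹ * (π y)⁻¹) := by rw [h1]
            _ = (π y * d * (π y)⁻¹) * ((π y * b) * (π y)⁻¹) := by group
            _ = (π y * d * (π y)⁻¹) * ((b * π y) * (π y)⁻¹) := by rw [h1]
            _ = (π y * d * (π y)⁻¹) * b := by group
      exact (Subgroup.mem_centralizer_iff.1 (hC htH) b hb).symm
    have htD : ∃ d ∈ A.map π, t * d ≠ d * t := by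
      obtain ⟨d, hd, hne⟩ := hyD
      refine ⟨d, hd, fun h => hne ?_⟩
      have h1 := ht d hd
      rw [h] at h1
      have h2 : d = π y * d * (π y)⁻¹ := by simpa using h1
      calc π y * d = (π y * d * (π y)⁻¹) * π y := by group
        _ = d * π y := by rw [← h2]
    have hx₁V : π (u ^ k) ∈ V := by rw [hk1, hut]; exact htV
    by_cases hmem : u ^ k ∈ A ⊔ A.map (MulAut.conj (u ^ k)).toMonoidHom
    · exact ⟨u ^ k, hx₁V, by rwa [hk1, hut], by rwa [hk1, hut], hk2, hmem⟩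
    · have hle : A ⊔ A.map (MulAut.conj (u ^ k)).toMonoidHom ≤ A ⊔ A.map (MulAut.conj y).toMonoidHom := by
        refine sup_le le_sup_left ?_
        rintro _ ⟨a, ha, rfl⟩
        show u ^ k * a * (u ^ k)⁻¹ ∈ _
        exact Subgroup.mul_mem _ (Subgroup.mul_mem _ hx₁L (Subgroup.mem_sup_left ha)) (Subgroup.inv_mem _ hx₁L)
      have hlt : Nat.card ↥(A ⊔ A.map (MulAut.conj (u ^ k)).toMonoidHom) < n := by
        rw [← hn]
        have hne : A ⊔ A.map (MulAut.conj (u ^ k)).toMonoidHom ≠ A ⊔ A.map (MulAut.conj y).toMonoidHom :=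
          fun h => hmem (h ▸ hx₁L)
        exact lt_of_not_ge fun hge => hne (Subgroup.eq_of_le_of_card_ge hle hge)
      exact ih _ hlt (u ^ k) rfl hx₁V (by rwa [hk1, hut]) (by rwa [hk1, hut])

theorem core {p : ℕ} [hp : Fact p.Prime] {M G : Type*} [Group M] [Finite M] [Group G] [Finite G]
    (π : M →* G) (A : Subgroup M) (V B : Subgroup G) [hVn : V.Normal]
    (hV1 : ∀ u ∈ V, ∀ k : ℕ, u ^ p ^ k = 1 → u = 1)
    (hAp : ∀ a ∈ A, ∃ k : ℕ, a ^ p ^ k = 1)
    (hkerp : ∀ g, π g = 1 → ∃ k : ℕ, g ^ p ^ k = 1)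
    (hDcomm : ∀ a ∈ A.map π, ∀ b ∈ A.map π, a * b = b * a)
    (hBD : B ≤ A.map π) (hBr : B.relIndex (A.map π) = p)
    (x : M) (hxV : π x ∈ V) (hxB : ∀ b ∈ B, π x * b = b * π x)
    (hxD : ∃ d ∈ A.map π, π x * d ≠ d * π x) (hxo : (orderOf x).Coprime p)
    (L : Subgroup M) (hLd : L = A ⊔ A.map (MulAut.conj x).toMonoidHom) (hxL : x ∈ L) :
    x ∈ (pResidual p L).map L.subtype ∧ (pResidual p L).map L.subtype ≤ V.comap π ∧
    ⁅(pResidual p L).map L.subtype, A⁆ = (pResidual p L).map L.subtype ∧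
    (A ⊓ (pCore p L).map L.subtype).relIndex A = p ∧
    ⁅A ⊓ (pCore p L).map L.subtype, L⁆ ≤ π.ker := by
  classical
  have hAL : A ≤ L := hLd ▸ le_sup_left
  have hLind : ∀ S : Subgroup M, A ≤ S → (∀ a ∈ A, x * a * x⁻¹ ∈ S) → L ≤ S := by
    intro S h1 h2
    rw [hLd]
    refine sup_le h1 ?_
    rintro _ ⟨a, ha, rfl⟩
    exact h2 a ha
  have hDp : ∀ u ∈ A.map π, ∃ k : ℕ, u ^ p ^ k = 1 := by
    rintro _ ⟨a, ha, rfl⟩
    obtain ⟨k, hk⟩ := hAp a ha
    exact ⟨k, by rw [← map_pow, hk, map_one]⟩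
  have hDpg : IsPGroup p (A.map π) := by
    rintro ⟨u, hu⟩
    obtain ⟨k, hk⟩ := hDp u hu
    exact ⟨k, Subtype.ext (by simpa using hk)⟩
  have hx1 : x ∈ (pResidual p L).map L.subtype :=
    ⟨⟨x, hxL⟩, Cfsg.Agent.Lib.PResidual.mem_pResidual_of_coprime (by simpa [Subgroup.orderOf_mk] using hxo), rfl⟩
  set R := (pResidual p L).map L.subtype with hR
  have h2 : R ≤ V.comap π := by
    rw [hR, Subgroup.map_le_iff_le_comap]
    unfold pResidual
    rw [Subgroup.closure_le]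
    intro g hg
    have hg1 : (g : M) ∈ (V ⊔ A.map π).comap π := by
      refine hLind ((V ⊔ A.map π).comap π) ?_ ?_ g.2
      · intro a ha
        exact Subgroup.mem_sup_right ⟨a, ha, rfl⟩
      · intro a ha
        rw [Subgroup.mem_comap, map_mul, map_mul, map_inv]
        exact Subgroup.mul_mem _ (Subgroup.mul_mem _ (Subgroup.mem_sup_left hxV)
          (Subgroup.mem_sup_right ⟨a, ha, rfl⟩)) (Subgroup.inv_mem _ (Subgroup.mem_sup_left hxV))
    have hg2 : (orderOf (π (g : M))).Coprime p := by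
      refine Nat.Coprime.coprime_dvd_left (orderOf_map_dvd π (g : M)) ?_
      rw [Subgroup.orderOf_coe]
      exact hg
    exact Cfsg.Agent.Lib.PResidual.mem_of_coprime_of_mem_sup hDpg hg1 hg2
  have hRL : R ≤ L := Subgroup.map_subtype_le _
  have hRconj : ∀ l ∈ L, ∀ r ∈ R, l * r * l⁻¹ ∈ R := by
    rintro l hl _ ⟨r, hr, rfl⟩
    exact ⟨⟨l, hl⟩ * r * (⟨l, hl⟩ : L)⁻¹,
      (Cfsg.Agent.Lib.PResidual.pResidual_normal p L).conj_mem r hr ⟨l, hl⟩, by simp⟩
  set T := ⁅R, A⁆ with hT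
  have hTR : T ≤ R := by
    rw [hT, Subgroup.commutator_le]
    intro r hr a ha
    have h := R.mul_mem hr (hRconj a (hAL ha) r⁻¹ (R.inv_mem hr))
    simpa [commutatorElement_def, mul_assoc] using h
  have hconj : ∀ c : M, (∀ r ∈ R, ∀ a ∈ A, c * ⁅r, a⁆ * c⁻¹ ∈ T) → ∀ t ∈ T, c * t * c⁻¹ ∈ T := by
    intro c hc t ht
    rw [hT, Subgroup.commutator_def] at ht
    induction ht using Subgroup.closure_induction with
    | mem z hz =>
      obtain ⟨r, hr, a, ha, rfl⟩ := hz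
      exact hc r hr a ha
    | one => simp [T.one_mem]
    | mul u v _ _ hu hv =>
      have h := T.mul_mem hu hv
      have e : c * (u * v) * c⁻¹ = c * u * c⁻¹ * (c * v * c⁻¹) := by group
      rw [e]; exact h
    | inv u _ hu =>
      have h := T.inv_mem hu
      have e : c * u⁻¹ * c⁻¹ = (c * u * c⁻¹)⁻¹ := by group
      rw [e]; exact h
  have hTA : ∀ a' ∈ A, ∀ t ∈ T, a' * t * a'⁻¹ ∈ T := by
    intro a' ha'
    apply hconj
    intro r hr a ha
    have h1 : a' * ⁅r, a⁆ * a'⁻¹ = ⁅a' * r * a'⁻¹, a' * a * a'⁻¹⁆ := by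
      simp only [commutatorElement_def]; group
    rw [h1]
    exact Subgroup.commutator_mem_commutator (hRconj a' (hAL ha') r hr)
      (A.mul_mem (A.mul_mem ha' ha) (A.inv_mem ha'))
  have hTRc : ∀ s ∈ R, ∀ t ∈ T, s * t * s⁻¹ ∈ T := by
    intro s hs
    apply hconj
    intro r hr a ha
    have h1 : s * ⁅r, a⁆ * s⁻¹ = ⁅s * r, a⁆ * ⁅s, a⁆⁻¹ := by
      simp only [commutatorElement_def]; group
    rw [h1]
    exact T.mul_mem (Subgroup.commutator_mem_commutator (R.mul_mem hs hr) ha)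
      (T.inv_mem (Subgroup.commutator_mem_commutator hs ha))
  have hANorm : A ≤ Subgroup.normalizer (T : Set M) := by
    intro a ha
    rw [Subgroup.mem_normalizer_iff]
    intro t
    constructor
    · exact hTA a ha t
    · intro h
      have h' := hTA a⁻¹ (A.inv_mem ha) _ h
      have e : a⁻¹ * (a * t * a⁻¹) * a⁻¹⁻¹ = t := by group
      rwa [e] at h'
  have hxNorm : x ∈ Subgroup.normalizer (T : Set M) := by
    rw [Subgroup.mem_normalizer_iff]
    intro t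
    constructor
    · exact hTRc x hx1 t
    · intro h
      have h' := hTRc x⁻¹ (R.inv_mem hx1) _ h
      have e : x⁻¹ * (x * t * x⁻¹) * x⁻¹⁻¹ = t := by group
      rwa [e] at h'
  have hnorm : L ≤ Subgroup.normalizer (T : Set M) := by
    apply hLind _ hANorm
    intro a ha
    exact Subgroup.mul_mem _ (Subgroup.mul_mem _ hxNorm (hANorm ha)) (Subgroup.inv_mem _ hxNorm)
  have hLTA : L ≤ T ⊔ A := by
    apply hLind _ le_sup_right
    intro a ha
    have e : x * a * x⁻¹ = ⁅x, a⁆ * a := by simp [commutatorElement_def]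
    rw [e]
    exact Subgroup.mul_mem _ (Subgroup.mem_sup_left (Subgroup.commutator_mem_commutator hx1 ha))
      (Subgroup.mem_sup_right ha)
  have hTL : T ≤ L := hTR.trans hRL
  haveI hTn : (T.subgroupOf L).Normal := (Subgroup.normal_subgroupOf_iff_le_normalizer hTL).2 hnorm
  have hsup : T.subgroupOf L ⊔ A.subgroupOf L = ⊤ := by
    rw [← Subgroup.subgroupOf_sup hTL hAL]
    exact Subgroup.subgroupOf_eq_top.2 hLTA
  have hAsub : IsPGroup p (A.subgroupOf L) := by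
    rintro ⟨u, hu⟩
    obtain ⟨k, hk⟩ := hAp (u : M) hu
    exact ⟨k, Subtype.ext (Subtype.ext (by simpa using hk))⟩
  have hRle : pResidual p L ≤ T.subgroupOf L :=
    Cfsg.Agent.Lib.PResidual.pResidual_le_of_sup_eq_top hAsub hsup
  have h3 : T = R := le_antisymm hTR (by
    rintro _ ⟨r, hr, rfl⟩
    exact Subgroup.mem_subgroupOf.1 (hRle hr))
  set W := (pCore p L).map L.subtype with hW
  have hWconj : ∀ l ∈ L, ∀ w ∈ W, l * w * l⁻¹ ∈ W := by
    rintro l hl _ ⟨w, hw, rfl⟩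
    exact ⟨⟨l, hl⟩ * w * (⟨l, hl⟩ : L)⁻¹,
      (Cfsg.Agent.Lib.FitCore.pCore_normal p).conj_mem w hw ⟨l, hl⟩, by simp⟩
  have hWp : ∀ w ∈ W, ∃ k : ℕ, w ^ p ^ k = 1 := by
    rintro _ ⟨w, hw, rfl⟩
    obtain ⟨k, hk⟩ := (Cfsg.Agent.Lib.FitCore.pCore_isPGroup (G := L) p) ⟨w, hw⟩
    refine ⟨k, ?_⟩
    have h := congrArg (fun z => ((z : pCore p L) : L)) hk
    have h' : w ^ p ^ k = 1 := by simpa using h
    show ((w : L) : M) ^ p ^ k = 1
    rw [← Subgroup.coe_pow, h']; rfl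
  have hLC : ∀ l ∈ L, ∀ b ∈ B, π l * b = b * π l := by
    intro l hl
    have hS : l ∈ (Subgroup.centralizer (B : Set G)).comap π := by
      refine hLind _ ?_ ?_ hl
      · intro a ha
        rw [Subgroup.mem_comap, Subgroup.mem_centralizer_iff]
        intro b hb
        exact hDcomm b (hBD hb) _ ⟨a, ha, rfl⟩
      · intro a ha
        rw [Subgroup.mem_comap, Subgroup.mem_centralizer_iff]
        intro b hb
        have h1 := hxB b hb
        have h2 := hDcomm b (hBD hb) _ ⟨a, ha, rfl⟩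
        have h1' : b * (π x)⁻¹ = (π x)⁻¹ * b := by
          calc b * (π x)⁻¹ = (π x)⁻¹ * (π x * b) * (π x)⁻¹ := by group
            _ = (π x)⁻¹ * (b * π x) * (π x)⁻¹ := by rw [h1]
            _ = (π x)⁻¹ * b := by group
        rw [map_mul, map_mul, map_inv]
        calc b * (π x * π a * (π x)⁻¹) = (b * π x) * π a * (π x)⁻¹ := by group
          _ = π x * (b * π a) * (π x)⁻¹ := by rw [← h1]; group
          _ = π x * (π a * b) * (π x)⁻¹ := by rw [h2]
          _ = π x * π a * (b * (π x)⁻¹) := by group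
          _ = π x * π a * ((π x)⁻¹ * b) := by rw [h1']
          _ = π x * π a * (π x)⁻¹ * b := by group
    intro b hb
    exact (Subgroup.mem_centralizer_iff.1 hS b hb).symm
  have hBW : A ⊓ B.comap π ≤ A ⊓ W := by
    rintro a ⟨haA, haB⟩
    refine ⟨haA, ?_⟩
    have hN'n : ((B.comap π).subgroupOf L).Normal := by
      refine ⟨fun n hn g => ?_⟩
      rw [Subgroup.mem_subgroupOf, Subgroup.mem_comap] at hn ⊢
      have h := hLC g g.2 (π n) hn
      have e : π ((g * n * g⁻¹ : L) : M) = π n := by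
        simp only [Subgroup.coe_mul, Subgroup.coe_inv, map_mul, map_inv]
        rw [h]; group
      rw [e]; exact hn
    have hN'p : IsPGroup p ((B.comap π).subgroupOf L) := by
      rintro ⟨n, hn⟩
      have hn1 : π (n : M) ∈ B := hn
      obtain ⟨k, hk⟩ := hDp _ (hBD hn1)
      obtain ⟨j, hj⟩ := hkerp ((n : M) ^ p ^ k) (by rw [map_pow, hk])
      refine ⟨k + j, Subtype.ext (Subtype.ext ?_)⟩
      have e : (n : M) ^ p ^ (k + j) = 1 := by rw [pow_add, pow_mul]; exact hj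
      simpa using e
    have hle := Cfsg.Agent.Lib.FitCore.le_pCore p _ hN'n hN'p
    have hmem : (⟨a, hAL haA⟩ : L) ∈ (B.comap π).subgroupOf L := haB
    exact ⟨⟨a, hAL haA⟩, hle hmem, rfl⟩
  have hWB : A ⊓ W = A ⊓ B.comap π := by
    refine le_antisymm ?_ hBW
    rintro a' ⟨ha'A, ha'W⟩
    refine ⟨ha'A, ?_⟩
    by_contra hnB
    obtain ⟨d, hd, hdne⟩ := hxD
    apply hdne
    have hx1' : π x = 1 := by
      have hBE : B ≤ W.map π ⊓ A.map π := by
        intro b hb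
        refine ⟨?_, hBD hb⟩
        obtain ⟨a, ha, rfl⟩ := hBD hb
        exact ⟨a, (hBW ⟨ha, hb⟩).2, rfl⟩
      have hED : W.map π ⊓ A.map π ≤ A.map π := inf_le_right
      have hmul := Subgroup.relIndex_mul_relIndex B (W.map π ⊓ A.map π) (A.map π) hBE hED
      rw [hBr] at hmul
      have hDE : A.map π ≤ W.map π ⊓ A.map π := by
        rcases Nat.Prime.eq_one_or_self_of_dvd hp.out _ ⟨_, hmul.symm⟩ with h | h
        · exfalso
          have h' : W.map π ⊓ A.map π ≤ B := Subgroup.relIndex_eq_one.1 h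
          exact hnB (h' ⟨⟨a', ha'W, rfl⟩, ⟨a', ha'A, rfl⟩⟩)
        · rw [h] at hmul
          have h' : (W.map π ⊓ A.map π).relIndex (A.map π) = 1 :=
            Nat.eq_of_mul_eq_mul_left hp.out.pos (hmul.trans (mul_one p).symm)
          exact Subgroup.relIndex_eq_one.1 h'
      have hLW : L ≤ (W.map π).comap π := by
        apply hLind
        · intro a ha
          exact (hDE ⟨a, ha, rfl⟩).1
        · intro a ha
          obtain ⟨w, hw, hwe⟩ := (hDE ⟨a, ha, rfl⟩).1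
          refine ⟨x * w * x⁻¹, hWconj x hxL w hw, ?_⟩
          simp [map_mul, hwe]
      obtain ⟨w, hw, hwe⟩ := hLW hxL
      obtain ⟨k, hk⟩ := hWp w hw
      exact hV1 _ hxV k (by rw [← hwe, ← map_pow, hk, map_one])
    rw [hx1']; simp
  rw [h3] at *
  refine ⟨hx1, h2, h3, ?_, ?_⟩
  · rw [hWB, Subgroup.inf_relIndex_left, Subgroup.relIndex_comap]
    exact hBr
  · rw [hWB, Subgroup.commutator_le]
    intro g₁ hg₁ g₂ hg₂
    rw [MonoidHom.mem_ker, map_commutatorElement, commutatorElement_eq_one_iff_commute]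
    exact (hLC g₂ hg₂ _ hg₁.2).symm


/-- Let M be a finite p-soluble group and A a p-subgroup of M with Φ(A) ≤ O_p(M) but A ≰ O_p(M). Then there is x ∈ O_{p,p'}(M) such that L = ⟨A, xAx⁻¹⟩ satisfies: x ∈ O^p(L) and O^p(L) ≤ O_{p,p'}(M); [O^p(L), A] = O^p(L); A ∩ O_p(L) has index p in A; and [A ∩ O_p(L), L] ≤ O_p(M). Here O^p(L) is the subgroup generated by the p'-elements of L and O_{p,p'}(M) the preimage of O_{p'}(M/O_p(M)). -/
theorem result {M : Type*} [Group M] [Finite M] {p : ℕ} [Fact p.Prime] (hM : Cfsg.IsPSolvable p M) (A : Subgroup M) (hA : IsPGroup p A) (hΦ : (frattini ↥A).map A.subtype ≤ Cfsg.pCore p M) (hnot : ¬ A ≤ Cfsg.pCore p M) : ∃ x ∈ (Cfsg.pPrimeCore p (M ⧸ Cfsg.pCore p M)).comap (QuotientGroup.mk' (Cfsg.pCore p M)), x ∈ (Cfsg.pResidual p ↥(A ⊔ A.map (MulAut.conj x).toMonoidHom)).map (A ⊔ A.map (MulAut.conj x).toMonoidHom).subtype ∧ (Cfsg.pResidual p ↥(A ⊔ A.map (MulAut.conj x).toMonoidHom)).map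 (A ⊔ A.map (MulAut.conj x).toMonoidHom).subtype ≤ (Cfsg.pPrimeCore p (M ⧸ Cfsg.pCore p M)).comap (QuotientGroup.mk' (Cfsg.pCore p M)) ∧ ⁅(Cfsg.pResidual p ↥(A ⊔ A.map (MulAut.conj x).toMonoidHom)).map (A ⊔ A.map (MulAut.conj x).toMonoidHom).subtype, A⁆ = (Cfsg.pResidual p ↥(A ⊔ A.map (MulAut.conj x).toMonoidHom)).map (A ⊔ A.map (MulAut.conj x).toMonoidHom).subtype ∧ (A ⊓ (Cfsg.pCore p ↥(A ⊔ A.map (MulAut.conj x).toMonoidHom)).map (A ⊔ A.map (MulAut.conj x).toMonoidHom).subtype).relIndex A = p ∧ ⁅A ⊓ (Cfsg.pCore p ↥(A ⊔ A.map (MulAut.conj x).toMonoidHom)).map (A ⊔ A.map (MulAut.conj x).toMonoidHom).subtype, A ⊔ A.map (MulAut.conj x).toMonoidHom⁆ ≤ Cfsg.pCore p M := by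
  classical
  haveI hQn : (Cfsg.pCore p M).Normal := Cfsg.Agent.Lib.FitCore.pCore_normal p
  have hQp : IsPGroup p (Cfsg.pCore p M) := Cfsg.Agent.Lib.FitCore.pCore_isPGroup p
  have hπs : Function.Surjective (QuotientGroup.mk' (Cfsg.pCore p M)) := QuotientGroup.mk'_surjective _
  have hker : ∀ g : M, QuotientGroup.mk' (Cfsg.pCore p M) g = 1 ↔ g ∈ Cfsg.pCore p M :=
    fun g => QuotientGroup.eq_one_iff g
  have hkerp : ∀ g : M, QuotientGroup.mk' (Cfsg.pCore p M) g = 1 → ∃ k : ℕ, g ^ p ^ k = 1 := by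
    intro g hg
    obtain ⟨k, hk⟩ := hQp ⟨g, (hker g).1 hg⟩
    exact ⟨k, by simpa using congrArg Subtype.val hk⟩
  have hlift : ∀ (g : M) (k : ℕ), (QuotientGroup.mk' (Cfsg.pCore p M) g) ^ p ^ k = 1 → ∃ j : ℕ, g ^ p ^ j = 1 := by
    intro g k hk
    obtain ⟨j, hj⟩ := hkerp (g ^ p ^ k) (by rw [map_pow]; exact hk)
    exact ⟨k + j, by rw [pow_add, pow_mul]; exact hj⟩
  have hG0 : Cfsg.pCore p (M ⧸ Cfsg.pCore p M) = ⊥ := by
    refine le_antisymm ?_ bot_le
    have hNc : ((Cfsg.pCore p (M ⧸ Cfsg.pCore p M)).comap (QuotientGroup.mk' (Cfsg.pCore p M))).Normal :=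
      Subgroup.Normal.comap (Cfsg.Agent.Lib.FitCore.pCore_normal p) _
    have hNp : IsPGroup p ((Cfsg.pCore p (M ⧸ Cfsg.pCore p M)).comap (QuotientGroup.mk' (Cfsg.pCore p M))) := by
      rintro ⟨g, hg⟩
      obtain ⟨k, hk⟩ := (Cfsg.Agent.Lib.FitCore.pCore_isPGroup (G := M ⧸ Cfsg.pCore p M) p) ⟨_, hg⟩
      obtain ⟨j, hj⟩ := hlift g k (by simpa using congrArg Subtype.val hk)
      exact ⟨j, Subtype.ext (by simpa using hj)⟩
    have hle := Cfsg.Agent.Lib.FitCore.le_pCore p _ hNc hNp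
    intro n hn
    obtain ⟨g, rfl⟩ := hπs n
    rw [Subgroup.mem_bot]
    exact (hker g).2 (hle hn)
  have hGs : Cfsg.IsPSolvable p (M ⧸ Cfsg.pCore p M) := Cfsg.Agent.Lib.UpperP.isPSolvable_quotient hM _
  have hcent := Cfsg.Agent.Lib.H6PExp.centralizer_pPrimeCore_le hGs hG0
  haveI hVn : (Cfsg.pPrimeCore p (M ⧸ Cfsg.pCore p M)).Normal := Cfsg.Agent.Lib.FitCore.pPrimeCore_normal p
  have hVc : ¬ p ∣ Nat.card (Cfsg.pPrimeCore p (M ⧸ Cfsg.pCore p M)) :=
    Cfsg.Agent.Lib.FitCore.not_dvd_card_pPrimeCore p (Fact.out)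
  have hVo : ∀ u ∈ Cfsg.pPrimeCore p (M ⧸ Cfsg.pCore p M), (orderOf u).Coprime p := fun u hu =>
    Nat.Coprime.coprime_dvd_left (Subgroup.orderOf_dvd_natCard _ hu)
      ((Nat.Prime.coprime_iff_not_dvd Fact.out).2 hVc).symm
  have hV1 : ∀ u ∈ Cfsg.pPrimeCore p (M ⧸ Cfsg.pCore p M), ∀ k : ℕ, u ^ p ^ k = 1 → u = 1 := by
    intro u hu k hk
    exact orderOf_eq_one_iff.1 (Nat.Coprime.eq_one_of_dvd ((hVo u hu).pow_right k) (orderOf_dvd_of_pow_eq_one hk))
  have hAp : ∀ a ∈ A, ∃ k : ℕ, a ^ p ^ k = 1 := by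
    intro a ha
    obtain ⟨k, hk⟩ := hA ⟨a, ha⟩
    exact ⟨k, by simpa using congrArg Subtype.val hk⟩
  have hDp : ∀ u ∈ A.map (QuotientGroup.mk' (Cfsg.pCore p M)), ∃ k : ℕ, u ^ p ^ k = 1 := by
    rintro _ ⟨a, ha, rfl⟩
    obtain ⟨k, hk⟩ := hAp a ha
    exact ⟨k, by rw [← map_pow, hk, map_one]⟩
  have hDpg : IsPGroup p (A.map (QuotientGroup.mk' (Cfsg.pCore p M))) := by
    rintro ⟨u, hu⟩
    obtain ⟨k, hk⟩ := hDp u hu
    exact ⟨k, Subtype.ext (by simpa using hk)⟩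
  have hFrQ : ∀ z : A, z ∈ frattini A → (z : M) ∈ Cfsg.pCore p M := fun z hz => hΦ ⟨z, hz, rfl⟩
  have hDcomm : ∀ a ∈ A.map (QuotientGroup.mk' (Cfsg.pCore p M)), ∀ b ∈ A.map (QuotientGroup.mk' (Cfsg.pCore p M)), a * b = b * a := by
    rintro _ ⟨a, ha, rfl⟩ _ ⟨b, hb, rfl⟩
    have h1 := hFrQ _ (Cfsg.Agent.Lib.H6PGroup.comm_mem_frattini hA ⟨a, ha⟩ ⟨b, hb⟩)
    have h2 : QuotientGroup.mk' (Cfsg.pCore p M) (a * b * a⁻¹ * b⁻¹) = 1 := (hker _).2 (by simpa using h1)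
    simp only [map_mul, map_inv] at h2
    calc QuotientGroup.mk' (Cfsg.pCore p M) a * QuotientGroup.mk' (Cfsg.pCore p M) b
        = (QuotientGroup.mk' (Cfsg.pCore p M) a * QuotientGroup.mk' (Cfsg.pCore p M) b * (QuotientGroup.mk' (Cfsg.pCore p M) a)⁻¹ * (QuotientGroup.mk' (Cfsg.pCore p M) b)⁻¹) * (QuotientGroup.mk' (Cfsg.pCore p M) b * QuotientGroup.mk' (Cfsg.pCore p M) a) := by group
      _ = _ := by rw [h2, one_mul]
  have hDexp : ∀ a ∈ A.map (QuotientGroup.mk' (Cfsg.pCore p M)), a ^ p = 1 := by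
    rintro _ ⟨a, ha, rfl⟩
    have h1 := hFrQ _ (Cfsg.Agent.Lib.H6PGroup.pow_mem_frattini hA ⟨a, ha⟩)
    rw [← map_pow]
    exact (hker _).2 (by simpa using h1)
  have hnc : ¬ (Cfsg.pPrimeCore p (M ⧸ Cfsg.pCore p M) ≤ Subgroup.centralizer ((A.map (QuotientGroup.mk' (Cfsg.pCore p M)) : Subgroup _) : Set (M ⧸ Cfsg.pCore p M))) := by
    intro hle
    obtain ⟨a, haA, haQ⟩ := SetLike.not_le_iff_exists.1 hnot
    have hπa : QuotientGroup.mk' (Cfsg.pCore p M) a ∈ A.map (QuotientGroup.mk' (Cfsg.pCore p M)) := ⟨a, haA, rfl⟩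
    have h1 : QuotientGroup.mk' (Cfsg.pCore p M) a ∈ Cfsg.pPrimeCore p (M ⧸ Cfsg.pCore p M) := hcent (by
      rw [Subgroup.mem_centralizer_iff]
      intro v hv
      exact ((Subgroup.mem_centralizer_iff.1 (hle hv)) _ hπa).symm)
    obtain ⟨k, hk⟩ := hDp _ hπa
    exact haQ ((hker a).1 (hV1 _ h1 k hk))
  have hyper : ∃ B : Subgroup (M ⧸ Cfsg.pCore p M), B ≤ A.map (QuotientGroup.mk' (Cfsg.pCore p M)) ∧
      B.relIndex (A.map (QuotientGroup.mk' (Cfsg.pCore p M))) = p ∧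
      ∃ y ∈ Cfsg.pPrimeCore p (M ⧸ Cfsg.pCore p M), (∀ b ∈ B, y * b = b * y) ∧
        ∃ d ∈ A.map (QuotientGroup.mk' (Cfsg.pCore p M)), y * d ≠ d * y := by
    by_cases hc : p ^ 2 ≤ Nat.card (A.map (QuotientGroup.mk' (Cfsg.pCore p M)))
    · have hgen := Cfsg.Agent.Lib.CoprimeGen.gen_all (A.map (QuotientGroup.mk' (Cfsg.pCore p M)))
        (Cfsg.pPrimeCore p (M ⧸ Cfsg.pCore p M)) hDcomm hDexp hc (fun a _ x hx => hVn.conj_mem x hx a) hVc
      by_contra hno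
      push_neg at hno
      apply hnc
      refine hgen.trans (iSup_le ?_)
      rintro ⟨B, hB, hBr⟩
      rintro y ⟨hyV, hyB⟩
      rw [SetLike.mem_coe, Subgroup.mem_centralizer_iff] at *
      intro d hd
      exact (hno B hB hBr y hyV (fun b hb => (hyB b hb).symm) d hd).symm
    · obtain ⟨n, hn⟩ := IsPGroup.iff_card.1 hDpg
      have hn1 : n = 1 := by
        have hle2 : n < 2 := by
          by_contra h2
          exact hc (by rw [hn]; exact Nat.pow_le_pow_right (Fact.out : p.Prime).pos (not_lt.1 h2))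
        have hn0 : n ≠ 0 := by
          rintro rfl
          apply hnc
          have hbot : A.map (QuotientGroup.mk' (Cfsg.pCore p M)) = ⊥ :=
            Subgroup.eq_bot_of_card_eq _ (by simpa using hn)
          rw [hbot]
          intro v _
          rw [Subgroup.mem_centralizer_iff]
          intro h hh
          have : h = 1 := by simpa using hh
          simp [this]
        omega
      refine ⟨⊥, bot_le, by rw [Subgroup.relIndex_bot_left, hn, hn1, pow_one], ?_⟩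
      obtain ⟨y, hy, hyn⟩ := SetLike.not_le_iff_exists.1 hnc
      rw [Subgroup.mem_centralizer_iff] at hyn
      push_neg at hyn
      obtain ⟨d, hd, hne⟩ := hyn
      refine ⟨y, hy, ?_, d, hd, fun h => hne h.symm⟩
      intro b hb
      have : b = 1 := by simpa using hb
      simp [this]
  obtain ⟨B, hBD, hBr, y, hyV, hyB, hyD⟩ := hyper
  obtain ⟨y₀, rfl⟩ := hπs y
  obtain ⟨x, hxV, hxB, hxD, hxo, hxL⟩ := lift_step (p := p) (QuotientGroup.mk' (Cfsg.pCore p M)) A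
    (Cfsg.pPrimeCore p (M ⧸ Cfsg.pCore p M)) B hV1 hVo hDp hDcomm hBD _ y₀ rfl hyV hyB hyD
  refine ⟨x, hxV, ?_⟩
  have h := core (p := p) (QuotientGroup.mk' (Cfsg.pCore p M)) A (Cfsg.pPrimeCore p (M ⧸ Cfsg.pCore p M)) B
    hV1 hAp hkerp hDcomm hBD hBr x hxV hxB hxD hxo _ rfl hxL
  rw [QuotientGroup.ker_mk'] at h
  exact h

end Cfsg.Agent.S3754
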