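import Cfsg.Statements.S3755
import Cfsg.Agent.Lib.S4Sec
import Cfsg.Agent.Lib.Offender
import Cfsg.Agent.Lib.FitCore
-- import your own Cfsg.Agent.* helpers here

set_option autoImplicit false
open Cfsg

namespace Cfsg.Agent.S3755

/-- Let M and V be subgroups of a finite group with V an elementary abelian 2-group, M normalizing V and acting faithfully on it (M ∩ C(V) = 1), and C_M(O_{2'}(M)) ≤ O_{2'}(M). If some elementary abelian 2-subgroup A of M satisfies |V : C_V(A)| < |A|², then M has a section isomorphic to the symmetric group of degree 3. -/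
theorem result {X : Type*} [Group X] [Finite X] (M V : Subgroup X) (hV : Cfsg.IsElementaryAbelian 2 V) (hMV : M ≤ Subgroup.normalizer (V : Set X)) (hfaith : M ⊓ Subgroup.centralizer (V : Set X) = ⊥) (hcon : Subgroup.centralizer (Cfsg.pPrimeCore 2 ↥M : Set ↥M) ≤ Cfsg.pPrimeCore 2 ↥M) (A : Subgroup X) (hAM : A ≤ M) (hA : Cfsg.IsElementaryAbelian 2 A) (hsmall : (V ⊓ Subgroup.centralizer (A : Set X)).relIndex V < Nat.card A ^ 2) : Cfsg.Involves (Equiv.Perm (Fin 3)) ↥M := by
  classical
  haveI : Fact (Nat.Prime 2) := ⟨Nat.prime_two⟩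
  haveI hVc : IsMulCommutative V := hV.1
  letI : CommGroup V := { (inferInstance : Group V) with mul_comm := fun a b => mul_comm' a b }
  have hVexp : ∀ v : V, v * v = 1 := by
    intro v
    apply Subtype.ext
    have := hV.2 v v.2
    simpa [pow_two] using this
  let ρ : ↥M →* MulAut V := (Subgroup.normalizerMonoidHom V).comp (Subgroup.inclusion hMV)
  have hρa : ∀ (m : M) (v : V), ((ρ m v : V) : X) = (m : X) * v * (m : X)⁻¹ := fun m v => rfl
  have hρ : Function.Injective ρ := by
    rw [injective_iff_map_eq_one]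
    intro m hm
    have h1 : (m : X) ∈ M ⊓ Subgroup.centralizer (V : Set X) := by
      refine ⟨m.2, Subgroup.mem_centralizer_iff.2 ?_⟩
      intro v hv
      have h2 : ρ m ⟨v, hv⟩ = ⟨v, hv⟩ := by rw [hm]; rfl
      have h3 := congrArg Subtype.val h2
      rw [hρa] at h3
      show v * m = m * v
      rw [mul_inv_eq_iff_eq_mul] at h3
      exact h3.symm
    rw [hfaith, Subgroup.mem_bot] at h1
    exact Subtype.ext h1
  haveI hRn : (Cfsg.pPrimeCore 2 ↥M).Normal := Cfsg.Agent.Lib.FitCore.pPrimeCore_normal 2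
  have hRodd : Odd (Nat.card (Cfsg.pPrimeCore 2 ↥M)) :=
    Nat.odd_iff.2 (Nat.two_dvd_ne_zero.1 (Cfsg.Agent.Lib.FitCore.not_dvd_card_pPrimeCore 2 Nat.prime_two))
  let A' : Subgroup ↥M := A.subgroupOf M
  have hcardA' : Nat.card A' = Nat.card A := Nat.card_congr (Subgroup.subgroupOfEquivOfLe hAM).toEquiv
  have hAcomm : ∀ a ∈ A, ∀ b ∈ A, a * b = b * a := by
    intro a ha b hb
    haveI := hA.1
    have := mul_comm' (⟨a, ha⟩ : A) ⟨b, hb⟩
    exact congrArg Subtype.val this
  have hA2 : ∀ a ∈ A, a * a = 1 := by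
    intro a ha
    have := hA.2 a ha
    simpa [pow_two] using this
  have hfa : ∀ a ∈ A', (∀ r ∈ Cfsg.pPrimeCore 2 ↥M, a * r = r * a) → a = 1 := by
    intro a ha hc
    have h1 : a ∈ Subgroup.centralizer (Cfsg.pPrimeCore 2 ↥M : Set ↥M) :=
      Subgroup.mem_centralizer_iff.2 (fun r hr => (hc r hr).symm)
    have h2 := hcon h1
    have h3 : orderOf (⟨a, h2⟩ : Cfsg.pPrimeCore 2 ↥M) ∣ Nat.card (Cfsg.pPrimeCore 2 ↥M) :=
      orderOf_dvd_natCard _
    have h4 : a ^ 2 = 1 := by
      apply Subtype.ext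
      simpa [pow_two] using hA2 a.1 ha
    have h5 : orderOf a ∣ 2 := orderOf_dvd_of_pow_eq_one h4
    rw [Subgroup.orderOf_mk] at h3
    have h6 : Nat.Coprime (orderOf a) 2 :=
      Nat.Coprime.coprime_dvd_left h3 (Nat.coprime_two_right.2 hRodd)
    exact orderOf_eq_one_iff.1 (Nat.Coprime.eq_one_of_dvd h6 h5)
  rcases Cfsg.Agent.Lib.Offender.offender hVexp ρ hρ (Cfsg.pPrimeCore 2 ↥M) hRodd _ A' rfl
      (fun a ha b hb => Subtype.ext (hAcomm a.1 ha b.1 hb))
      (fun a ha => Subtype.ext (hA2 a.1 ha))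
      (fun a _ r hr => hRn.conj_mem r hr a) hfa with h | h
  · obtain ⟨a, ha, d, _, had, hd1, hd3⟩ := h
    exact Cfsg.Agent.Lib.S4Sec.s3_of_pair a d (Subtype.ext (hA2 a.1 ha)) hd1 hd3 had
  · exfalso
    have h1 := Cfsg.Agent.Lib.Offender.card_eq_mul_relIndex (inf_le_left : V ⊓ Subgroup.centralizer (A : Set X) ≤ V)
    have hc : Nat.card (V ⊓ Subgroup.centralizer (A : Set X) : Subgroup X) ≤
        Nat.card (Cfsg.Agent.Lib.Offender.fixA ρ A') := by
      let f : (V ⊓ Subgroup.centralizer (A : Set X) : Subgroup X) → Cfsg.Agent.Lib.Offender.fixA ρ A' :=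
        fun v => ⟨⟨v.1, v.2.1⟩, by
          intro a ha
          apply Subtype.ext
          rw [hρa]
          have h2 := Subgroup.mem_centralizer_iff.1 v.2.2 a.1 ha
          show (a : X) * v.1 * (a : X)⁻¹ = v.1
          rw [h2]
          group⟩
      apply Nat.card_le_card_of_injective f
      intro x y hxy
      have := congrArg (fun z => ((z : V) : X)) (congrArg Subtype.val hxy)
      exact Subtype.ext this
    rw [hcardA'] at h
    have h3 : 0 < Nat.card (V ⊓ Subgroup.centralizer (A : Set X) : Subgroup X) := Nat.card_pos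
    have h4 : Nat.card V < Nat.card (V ⊓ Subgroup.centralizer (A : Set X) : Subgroup X) * Nat.card A ^ 2 := by
      rw [h1]
      exact Nat.mul_lt_mul_of_pos_left hsmall h3
    have h5 : Nat.card A ^ 2 * Nat.card (V ⊓ Subgroup.centralizer (A : Set X) : Subgroup X) ≤ Nat.card V :=
      (Nat.mul_le_mul_left _ hc).trans h
    rw [mul_comm] at h5
    omega

end Cfsg.Agent.S3755
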