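import Cfsg.Statements.S3760
-- import your own Cfsg.Agent.* helpers here

set_option autoImplicit false
open Cfsg

namespace Cfsg.Agent.S3760

/-- Let the group G act transitively on a set X, let x ∈ X with stabilizer H = G_x, and let K ≤ H. Then N_G(K) acts transitively on the set of fixed points of K if and only if every G-conjugate of K contained in H is already an H-conjugate of K. -/
theorem result {G : Type*} [Group G] {X : Type*} [MulAction G X] (htrans : ∀ a b : X, ∃ g : G, g • a = b) (x : X) (K : Subgroup G) (hK : K ≤ MulAction.stabilizer G x) : (∀ a b : X, (∀ k ∈ K, k • a = a) → (∀ k ∈ K, k • b = b) → ∃ g ∈ Subgroup.normalizer (K : Set G), g • a = b) ↔ ∀ g : G, K.map (MulAut.conj g).toMonoidHom ≤ MulAction.stabilizer G x → ∃ h ∈ MulAction.stabilizer G x, K.map (MulAut.conj g).toMonoidHom = K.map (MulAut.conj h).toMonoidHom := by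
  classical
  have hconjfix : ∀ (g : G) (c : X), (∀ k ∈ K, k • c = c) → ∀ y ∈ K.map (MulAut.conj g).toMonoidHom, y • (g • c) = g • c := by
    rintro g c hc _ ⟨k, hk, rfl⟩
    change (g * k * g⁻¹) • g • c = g • c
    rw [← mul_smul]
    have : g * k * g⁻¹ * g = g * k := by group
    rw [this, mul_smul, hc k hk]
  constructor
  · intro hN g hg
    -- `K` fixes `g⁻¹ • x`
    have hfix : ∀ k ∈ K, k • (g⁻¹ • x) = g⁻¹ • x := by
      intro k hk
      have h1 : (g * k * g⁻¹) • x = x := hg ⟨k, hk, rfl⟩
      rw [← mul_smul]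
      have h2 : k * g⁻¹ = g⁻¹ * (g * k * g⁻¹) := by group
      rw [h2, mul_smul, h1]
    obtain ⟨n, hn, hnx⟩ := hN x (g⁻¹ • x) (fun k hk => hK hk) hfix
    refine ⟨g * n, ?_, ?_⟩
    · change (g * n) • x = x
      rw [mul_smul, hnx, smul_inv_smul]
    · have h3 : K.map (MulAut.conj n).toMonoidHom = K := by
        have := Subgroup.mem_normalizer_iff_map_conj_eq.mp hn
        exact this
      conv_lhs => rw [← h3]
      rw [Subgroup.map_map]
      congr 1
      ext y
      simp [MulAut.conj_apply, mul_assoc]
  · intro hconj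
    -- every fixed point is carried to `x`
    have key : ∀ a : X, (∀ k ∈ K, k • a = a) → ∃ n ∈ Subgroup.normalizer (K : Set G), n • a = x := by
      intro a ha
      obtain ⟨g, hg⟩ := htrans a x
      have hle : K.map (MulAut.conj g).toMonoidHom ≤ MulAction.stabilizer G x := by
        intro y hy
        have := hconjfix g a ha y hy
        rw [hg] at this
        exact this
      obtain ⟨h, hh, hKh⟩ := hconj g hle
      refine ⟨h⁻¹ * g, ?_, ?_⟩
      · rw [Subgroup.mem_normalizer_iff_map_conj_eq]
        have h1 : (K.map (MulAut.conj g).toMonoidHom).map (MulAut.conj h⁻¹).toMonoidHom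
            = (K.map (MulAut.conj h).toMonoidHom).map (MulAut.conj h⁻¹).toMonoidHom := by rw [hKh]
        rw [Subgroup.map_map, Subgroup.map_map] at h1
        have h2 : ((MulAut.conj h⁻¹).toMonoidHom.comp (MulAut.conj h).toMonoidHom) = MonoidHom.id G := by
          ext y
          simp [MulAut.conj_apply, mul_assoc]
        rw [h2, Subgroup.map_id] at h1
        convert h1 using 2
        ext y
        simp [MulAut.conj_apply, mul_assoc]
      · have h3 : h⁻¹ • x = x := (MulAction.stabilizer G x).inv_mem hh
        rw [mul_smul, hg, h3]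
    intro a b ha hb
    obtain ⟨n, hn, hna⟩ := key a ha
    obtain ⟨m, hm, hmb⟩ := key b hb
    refine ⟨m⁻¹ * n, Subgroup.mul_mem _ (Subgroup.inv_mem _ hm) hn, ?_⟩
    rw [mul_smul, hna, ← hmb, inv_smul_smul]

end Cfsg.Agent.S3760
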