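import Mathlib
import Cfsg.Statements.S3761
import Cfsg.Agent.Lib.Dihedral
import Cfsg.Agent.Lib.Quaternion
-- import your own Cfsg.Agent.* helpers here

set_option autoImplicit false
open Cfsg

namespace Cfsg.Agent.S3761


section
open Subgroup
open scoped commutatorElement
open Cfsg.Agent.Lib.Dihedral Cfsg.Agent.Lib.Quaternion

variable {G : Type*} [Group G]

/-- `g` acts on `x` as the power `s`. -/
def Act (x g : G) (s : ℕ) : Prop := g * x * g⁻¹ = x ^ s

theorem Act.mul {x g h : G} {s r : ℕ} (hg : Act x g s) (hh : Act x h r) :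
    Act x (g * h) (s * r) := by
  unfold Act at *
  calc g * h * x * (g * h)⁻¹ = g * (h * x * h⁻¹) * g⁻¹ := by group
    _ = g * x ^ r * g⁻¹ := by rw [hh]
    _ = (g * x * g⁻¹) ^ r := by rw [conj_pow]
    _ = x ^ (s * r) := by rw [hg, pow_mul]

theorem Act.one (x : G) : Act x 1 1 := by simp [Act]

theorem Act.pow {x g : G} {s : ℕ} (hg : Act x g s) (k : ℕ) : Act x (g ^ k) (s ^ k) := by
  induction k with
  | zero => simpa using Act.one x
  | succ k ih => rw [pow_succ, pow_succ]; exact ih.mul hg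

theorem Act.cp {x g : G} {s : ℕ} (hg : Act x g s) (i : ℕ) : g * x ^ i * g⁻¹ = x ^ (s * i) := by
  rw [← conj_pow, show g * x * g⁻¹ = x ^ s from hg, pow_mul]

theorem Act.modEq {x g : G} {s r : ℕ} (h1 : Act x g s) (h2 : Act x g r) :
    s ≡ r [MOD orderOf x] :=
  pow_eq_pow_iff_modEq.mp (h1.symm.trans h2)

theorem Act.congr {x g : G} {s r : ℕ} (h1 : Act x g s) (h : s ≡ r [MOD orderOf x]) : Act x g r :=
  h1.trans (pow_eq_pow_iff_modEq.mpr h)

theorem Act.div {x g h : G} {s : ℕ} (h1 : Act x g s) (h2 : Act x h s) : Act x (h⁻¹ * g) 1 := by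
  unfold Act at *
  have e : g * x * g⁻¹ = h * x * h⁻¹ := h1.trans h2.symm
  calc h⁻¹ * g * x * (h⁻¹ * g)⁻¹ = h⁻¹ * (g * x * g⁻¹) * h := by group
    _ = h⁻¹ * (h * x * h⁻¹) * h := by rw [e]
    _ = x ^ 1 := by group

theorem Act.mul_pow' {x g : G} {s : ℕ} (hg : Act x g s) (i k : ℕ) :
    (x ^ i * g) ^ k = x ^ (i * ∑ j ∈ Finset.range k, s ^ j) * g ^ k := by
  induction k with
  | zero => simp
  | succ k ih =>
    rw [pow_succ', ih, geom_sum_succ]
    set S := ∑ j ∈ Finset.range k, s ^ j with hS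
    have e : g * x ^ (i * S) = x ^ (s * (i * S)) * g := by
      rw [← hg.cp]; group
    calc x ^ i * g * (x ^ (i * S) * g ^ k) = x ^ i * (g * x ^ (i * S)) * g ^ k := by group
      _ = x ^ i * (x ^ (s * (i * S)) * g) * g ^ k := by rw [e]
      _ = (x ^ i * x ^ (s * (i * S))) * (g * g ^ k) := by group
      _ = x ^ (i * (s * S + 1)) * g ^ (k + 1) := by
        rw [← pow_add, ← pow_succ']
        congr 2
        ring

theorem geom_aux {R : Type*} [CommRing R] (e : R) (he : e * e = 0) (k : ℕ) :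
    (1 + e) ^ k = 1 + k * e ∧ ∑ j ∈ Finset.range k, (1 + e) ^ j = k + (k.choose 2 : ℕ) * e := by
  induction k with
  | zero => simp
  | succ k ih =>
    obtain ⟨h1, h2⟩ := ih
    refine ⟨?_, ?_⟩
    · rw [pow_succ, h1]; push_cast; linear_combination (k : R) * he
    · rw [Finset.sum_range_succ, h2, h1]
      have : ((k + 1).choose 2 : ℕ) = k + k.choose 2 := by
        rw [show (2 : ℕ) = 1 + 1 from rfl, Nat.choose_succ_succ', Nat.choose_one_right]
      rw [this]; push_cast; ring

theorem pow_one_add_modEq {M m : ℕ} (c k : ℕ) (h : M ∣ m * m) :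
    (1 + m * c) ^ k ≡ 1 + k * (m * c) [MOD M] := by
  rw [← ZMod.natCast_eq_natCast_iff]
  push_cast
  have he : ((m : ZMod M) * c) * ((m : ZMod M) * c) = 0 := by
    have : ((m * m * (c * c) : ℕ) : ZMod M) = 0 :=
      (ZMod.natCast_eq_zero_iff _ _).mpr (h.trans (dvd_mul_right _ _))
    push_cast at this
    linear_combination this
  exact (geom_aux _ he k).1

/-- The geometric sum is `p` times a number prime to `p`. -/
theorem geom_w {p m : ℕ} [hp : Fact p.Prime] (h1 : p ^ 2 ∣ m * m) (h2 : p ^ 2 ∣ m * p.choose 2)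
    (c : ℕ) : ∃ w : ℕ, ∑ j ∈ Finset.range p, (1 + m * c) ^ j = p * w ∧ Nat.Coprime w p := by
  have h0 : ∑ j ∈ Finset.range p, (1 + m * c) ^ j ≡ p [MOD p ^ 2] := by
    rw [← ZMod.natCast_eq_natCast_iff]
    push_cast
    have he : ((m : ZMod (p ^ 2)) * c) * ((m : ZMod (p ^ 2)) * c) = 0 := by
      have : ((m * m * (c * c) : ℕ) : ZMod (p ^ 2)) = 0 :=
        (ZMod.natCast_eq_zero_iff _ _).mpr (h1.trans (dvd_mul_right _ _))
      push_cast at this
      linear_combination this
    rw [(geom_aux _ he p).2]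
    have : ((m * p.choose 2 * c : ℕ) : ZMod (p ^ 2)) = 0 :=
      (ZMod.natCast_eq_zero_iff _ _).mpr (h2.trans (dvd_mul_right _ _))
    push_cast at this
    linear_combination this
  have hdvd : p ∣ ∑ j ∈ Finset.range p, (1 + m * c) ^ j := by
    have h3 := (h0.of_dvd (dvd_pow_self p two_ne_zero))
    exact (Nat.modEq_zero_iff_dvd.mp (h3.trans (by simp [Nat.ModEq])))
  obtain ⟨w, hw⟩ := hdvd
  refine ⟨w, hw, ?_⟩
  rw [hw] at h0
  have h4 : w ≡ 1 [MOD p] := by
    have hp0 : p ≠ 0 := hp.out.ne_zero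
    have : p * w ≡ p * 1 [MOD p * p] := by
      rw [mul_one, ← pow_two]; exact h0
    exact Nat.ModEq.mul_left_cancel' hp0 this
  have : Nat.gcd w p = Nat.gcd 1 p := h4.gcd_eq
  rw [Nat.Coprime, this]; simp

theorem fermat_one {p s n : ℕ} [hp : Fact p.Prime] (hn : 1 ≤ n) (h : s ^ p ≡ 1 [MOD p ^ n]) :
    s ≡ 1 [MOD p] := by
  have h1 : s ^ p ≡ 1 [MOD p] := h.of_dvd (dvd_pow_self p (by omega))
  rw [← ZMod.natCast_eq_natCast_iff] at h1 ⊢
  push_cast at h1 ⊢
  rwa [ZMod.pow_card] at h1

theorem lte_one {p s n : ℕ} [hp : Fact p.Prime] (hodd : Odd p) (hn : 1 ≤ n)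
    (h : s ^ p ≡ 1 [MOD p ^ n]) (hs1 : s ≡ 1 [MOD p]) : s ≡ 1 [MOD p ^ (n - 1)] := by
  have hp1 := hp.out.one_lt
  have hs0 : s ≠ 0 := by
    rintro rfl
    have : (0 : ℕ) ≡ 1 [MOD p] := hs1
    have h3 : p ∣ 1 := (Nat.modEq_zero_iff_dvd.mp this.symm)
    exact hp.out.one_lt.ne' (Nat.dvd_one.mp h3)
  rcases Nat.lt_or_ge 1 s with hgt | hle
  · have hnd : ¬ p ∣ s := by
      intro hd
      have h3 : s ≡ 0 [MOD p] := Nat.modEq_zero_iff_dvd.mpr hd
      have h4 : p ∣ 1 := Nat.modEq_zero_iff_dvd.mp (hs1.symm.trans h3)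
      exact hp.out.one_lt.ne' (Nat.dvd_one.mp h4)
    have hd1 : p ∣ s - 1 := (Nat.modEq_iff_dvd' (by omega)).mp hs1.symm
    have hlte := padicValNat.pow_sub_pow (p := p) (x := s) (y := 1) hodd hgt hd1 hnd hp.out.ne_zero
    rw [one_pow, padicValNat.self hp1] at hlte
    have hsp : 1 ≤ s ^ p := Nat.one_le_pow _ _ (by omega)
    have hd2 : p ^ n ∣ s ^ p - 1 := (Nat.modEq_iff_dvd' hsp).mp h.symm
    have hsp2 : s ^ p - 1 ≠ 0 := by
      have : s < s ^ p := by
        calc s = s ^ 1 := (pow_one s).symm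
          _ < s ^ p := Nat.pow_lt_pow_right hgt hp1
      omega
    have hle2 : n ≤ padicValNat p (s ^ p - 1) := (padicValNat_dvd_iff_le hsp2).mp hd2
    have hle3 : n - 1 ≤ padicValNat p (s - 1) := by omega
    have hd3 : p ^ (n - 1) ∣ s - 1 := (padicValNat_dvd_iff_le (by omega)).mpr hle3
    exact ((Nat.modEq_iff_dvd' (by omega)).mpr hd3).symm
  · have : s = 1 := by omega
    rw [this]

theorem two_arith {s n : ℕ} (hn : 2 ≤ n) (h : s * s ≡ 1 [MOD 2 ^ n]) :
    (s % 4 = 1 → s ≡ 1 [MOD 2 ^ (n - 1)]) ∧ (s % 4 = 3 → 2 ^ (n - 1) ∣ s + 1) := by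
  have e2 : 2 ^ n = 2 * 2 ^ (n - 1) := by
    rw [← pow_succ']; congr 1; omega
  constructor
  · intro h4
    have hs1 : 1 ≤ s := by omega
    have hd : 2 ^ n ∣ s * s - 1 := (Nat.modEq_iff_dvd' (by nlinarith)).mp h.symm
    obtain ⟨u, hu⟩ : ∃ u, s + 1 = 2 * u := ⟨(s + 1) / 2, by omega⟩
    have hodd : Nat.Coprime u (2 ^ (n - 1)) := by
      apply Nat.Coprime.pow_right
      rw [Nat.coprime_comm, Nat.prime_two.coprime_iff_not_dvd]
      omega
    have e : s * s - 1 = 2 * (u * (s - 1)) := by
      obtain ⟨t, rfl⟩ : ∃ t, s = t + 1 := ⟨s - 1, by omega⟩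
      have : t + 1 + 1 = 2 * u := hu
      simp only [Nat.add_sub_cancel]
      have h5 : (t + 1) * (t + 1) - 1 = (t + 1 + 1) * t := by
        have : (t + 1) * (t + 1) = (t + 1 + 1) * t + 1 := by ring
        omega
      rw [h5, this]; ring
    rw [e, e2] at hd
    have hd2 : 2 ^ (n - 1) ∣ u * (s - 1) := Nat.dvd_of_mul_dvd_mul_left (by norm_num) hd
    have hd3 := (hodd.symm).dvd_of_dvd_mul_left hd2
    exact ((Nat.modEq_iff_dvd' hs1).mpr hd3).symm
  · intro h4
    have hs1 : 1 ≤ s := by omega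
    have hd : 2 ^ n ∣ s * s - 1 := (Nat.modEq_iff_dvd' (by nlinarith)).mp h.symm
    obtain ⟨u, hu⟩ : ∃ u, s - 1 = 2 * u := ⟨(s - 1) / 2, by omega⟩
    have hodd : Nat.Coprime u (2 ^ (n - 1)) := by
      apply Nat.Coprime.pow_right
      rw [Nat.coprime_comm, Nat.prime_two.coprime_iff_not_dvd]
      omega
    have e : s * s - 1 = 2 * (u * (s + 1)) := by
      obtain ⟨t, rfl⟩ : ∃ t, s = t + 1 := ⟨s - 1, by omega⟩
      simp only [Nat.add_sub_cancel] at hu
      have h5 : (t + 1) * (t + 1) - 1 = (t + 1 + 1) * t := by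
        have : (t + 1) * (t + 1) = (t + 1 + 1) * t + 1 := by ring
        omega
      rw [h5, hu]; ring
    rw [e, e2] at hd
    have hd2 : 2 ^ (n - 1) ∣ u * (s + 1) := Nat.dvd_of_mul_dvd_mul_left (by norm_num) hd
    exact (hodd.symm).dvd_of_dvd_mul_left hd2

theorem exists_nat_pow [Finite G] {x g : G} (h : g ∈ zpowers x) : ∃ b : ℕ, g = x ^ b := by
  have : g ∈ Submonoid.powers x := mem_powers_iff_mem_zpowers.mpr h
  obtain ⟨b, hb⟩ := Submonoid.mem_powers_iff _ _ |>.mp this
  exact ⟨b, hb.symm⟩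

/-- The structure of `M = C_G(U₁)` when `U` has index `p` in it. -/
theorem alt2 [Finite G] {p : ℕ} [hp : Fact p.Prime] {n : ℕ} (hn : 2 ≤ n) (x : G)
    (hord : orderOf x = p ^ n) [hN : (zpowers x).Normal]
    (hU : ∀ g, g ∈ zpowers x ↔ Act x g 1) (hact : ∀ g, ∃ s, Act x g s)
    (M : Subgroup G) (hM : ∀ g s, Act x g s → (g ∈ M ↔ s ≡ 1 [MOD p ^ (n - 1)]))
    (h1 : p ^ 2 ∣ p ^ (n - 1) * p ^ (n - 1)) (h2 : p ^ 2 ∣ p ^ (n - 1) * p.choose 2)
    (y₀ : G) (hy₀M : y₀ ∈ M) (hy₀U : y₀ ∉ zpowers x) :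
    (zpowers x).relIndex M = p ∧ Cfsg.IsElementaryAbelian p (Cfsg.omegaOne p M) ∧
      Nat.card (Cfsg.omegaOne p M) = p ^ 2 := by
  classical
  have hp1 := hp.out.one_lt
  have hp0 := hp.out.pos
  set m := p ^ (n - 1) with hm
  have hpm : p ^ n = p * m := by
    rw [hm, ← pow_succ']; congr 1; omega
  have hm1 : 1 < m := Nat.one_lt_pow (by omega) hp1
  have hpdm : p ∣ m := dvd_pow_self p (by omega)
  have hMm : p ^ n ∣ m * m := by
    rw [hpm]; exact Nat.mul_dvd_mul hpdm dvd_rfl
  have hordm : orderOf x = p * m := hord.trans hpm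
  -- normal form of the exponent
  have hform : ∀ s, s ≡ 1 [MOD m] → ∃ c, s = 1 + m * c := by
    intro s hs
    have hs1 : 1 ≤ s := by
      by_contra h0
      have h00 : s = 0 := by omega
      rw [h00] at hs
      have h4 : m ∣ 1 := Nat.modEq_zero_iff_dvd.mp hs.symm
      have := Nat.le_of_dvd one_pos h4
      omega
    obtain ⟨c, hc⟩ := (Nat.modEq_iff_dvd' hs1).mp hs.symm
    exact ⟨c, by omega⟩
  have hone : ∀ c, 1 + m * c ≡ 1 [MOD m] := by
    intro c
    simp [Nat.ModEq]
  obtain ⟨t, ht⟩ := hact y₀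
  obtain ⟨c, rfl⟩ := hform t ((hM y₀ t ht).mp hy₀M)
  have hcop : Nat.Coprime c p := by
    rw [Nat.coprime_comm, hp.out.coprime_iff_not_dvd]
    rintro ⟨c', rfl⟩
    apply hy₀U
    rw [hU]
    apply ht.congr
    rw [hordm]
    have : 1 + m * (p * c') = 1 + p * m * c' := by ring
    rw [this]
    simp [Nat.ModEq]
  -- the powers of y₀
  have hkey : ∀ a b : ℕ, 1 + m * (a * c) + b ≡ 1 + b [MOD p * m] → p ∣ a := by
    intro a b h
    have h3 : m * (a * c) + (1 + b) ≡ 0 + (1 + b) [MOD p * m] := by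
      have e : m * (a * c) + (1 + b) = 1 + m * (a * c) + b := by ring
      rw [e, zero_add]; exact h
    have h4 : m * (a * c) ≡ 0 [MOD p * m] := Nat.ModEq.add_right_cancel' _ h3
    have h5 : p * m ∣ m * (a * c) := Nat.modEq_zero_iff_dvd.mp h4
    rw [mul_comm p m] at h5
    have h6 : p ∣ a * c := Nat.dvd_of_mul_dvd_mul_left (by omega) h5
    exact (hcop.symm.dvd_of_dvd_mul_right h6)
  have hy₀p : y₀ ^ p ∈ zpowers x := by
    rw [hU]
    refine (ht.pow p).congr ?_
    rw [hordm]
    have h3 := pow_one_add_modEq (M := p ^ n) c p hMm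
    rw [hpm] at h3
    refine h3.trans ?_
    have : 1 + p * (m * c) = 1 + p * m * c := by ring
    rw [this]
    simp [Nat.ModEq]
  obtain ⟨b, hb⟩ := exists_nat_pow hy₀p
  -- p divides b
  have hpb : p ∣ b := by
    have hcomm : y₀ * x ^ b * y₀⁻¹ = x ^ b := by
      rw [← hb, (Commute.refl y₀ |>.pow_right p).eq, mul_inv_cancel_right]
    rw [ht.cp] at hcomm
    have h3 : (1 + m * c) * b ≡ b [MOD p * m] := by
      rw [← hordm]; exact pow_eq_pow_iff_modEq.mp hcomm
    have h4 : m * (b * c) + b ≡ 0 + b [MOD p * m] := by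
      have e : m * (b * c) + b = (1 + m * c) * b := by ring
      rw [e, zero_add]; exact h3
    have h5 : m * (b * c) ≡ 0 [MOD p * m] := Nat.ModEq.add_right_cancel' _ h4
    have h6 : p * m ∣ m * (b * c) := Nat.modEq_zero_iff_dvd.mp h5
    rw [mul_comm p m] at h6
    have h7 : p ∣ b * c := Nat.dvd_of_mul_dvd_mul_left (by omega) h6
    exact (hcop.symm.dvd_of_dvd_mul_right h7)
  obtain ⟨b', rfl⟩ := hpb
  obtain ⟨w, hw, hwco⟩ := geom_w (p := p) h1 h2 c
  -- choose i
  have hwm : Nat.Coprime w m := hwco.pow_right _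
  obtain ⟨w', -, hw'⟩ := Nat.exists_mul_mod_eq_one_of_coprime hwm hm1
  have hww' : w * w' ≡ 1 [MOD m] := by
    unfold Nat.ModEq
    rw [hw', Nat.mod_eq_of_lt hm1]
  set i := (m - 1) * b' * w' with hi
  have hi0 : i * w + b' ≡ 0 [MOD m] := by
    have h3 : i * w = (m - 1) * b' * (w * w') := by rw [hi]; ring
    rw [h3]
    have h4 : (m - 1) * b' * (w * w') + b' ≡ (m - 1) * b' * 1 + b' [MOD m] :=
      Nat.ModEq.add_right _ (Nat.ModEq.mul_left _ hww')
    refine h4.trans ?_
    have h5 : (m - 1) * b' * 1 + b' = m * b' := by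
      obtain ⟨m', hm'⟩ : ∃ m', m = m' + 1 := ⟨m - 1, by omega⟩
      rw [hm']
      simp only [Nat.add_sub_cancel]
      ring
    rw [h5]
    simp [Nat.ModEq]
  -- the element y of order p
  set y := x ^ i * y₀ with hy
  have hxi : ∀ i : ℕ, Act x (x ^ i) 1 := fun i => (hU _).mp ((zpowers x).pow_mem (mem_zpowers x) i)
  have hyact : Act x y (1 + m * c) := by
    have := (hxi i).mul ht
    rwa [one_mul] at this
  have hypow : y ^ p = 1 := by
    rw [hy, ht.mul_pow' i p, hw, hb, ← pow_add]
    have h3 : p ^ n ∣ i * (p * w) + p * b' := by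
      rw [hpm]
      have e : i * (p * w) + p * b' = p * (i * w + b') := by ring
      rw [e]
      exact Nat.mul_dvd_mul dvd_rfl (Nat.modEq_zero_iff_dvd.mp hi0)
    rw [← hord] at h3
    exact orderOf_dvd_iff_pow_eq_one.mp h3
  have hyM : y ∈ M := (hM y _ hyact).mpr (hone c)
  have hyU : y ∉ zpowers x := by
    intro h
    apply hy₀U
    have h3 := (zpowers x).mul_mem ((zpowers x).inv_mem ((zpowers x).pow_mem (mem_zpowers x) i)) h
    rwa [hy, inv_mul_cancel_left] at h3
  have hyne : y ≠ 1 := fun h => hyU (h ▸ (zpowers x).one_mem)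
  haveI : Fact p.Prime := hp
  have hyord : orderOf y = p := orderOf_eq_prime hypow hyne
  -- powers of y
  have hypowact : ∀ k : ℕ, Act x (y ^ k) (1 + k * (m * c)) := by
    intro k
    refine (hyact.pow k).congr ?_
    rw [hord]
    exact pow_one_add_modEq c k hMm
  have hyk : ∀ k : ℕ, y ^ k ∈ zpowers x → p ∣ k := by
    intro k hk
    have h3 := (hU _).mp hk
    have h4 := (hypowact k).modEq h3
    rw [hordm] at h4
    apply hkey k 0
    have e : 1 + m * (k * c) + 0 = 1 + k * (m * c) := by ring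
    rw [e]
    exact h4
  have hinf : zpowers x ⊓ zpowers y = ⊥ := by
    rw [eq_bot_iff]
    rintro g ⟨h3, h4⟩
    obtain ⟨k, rfl⟩ := exists_nat_pow h4
    obtain ⟨k', rfl⟩ := hyk k h3
    rw [pow_mul, hypow, one_pow]
    exact Subgroup.one_mem _
  -- M is generated
  have hMeq : M = zpowers y ⊔ zpowers x := by
    apply le_antisymm
    · intro g hg
      obtain ⟨s, hs⟩ := hact g
      obtain ⟨d, rfl⟩ := hform s ((hM g s hs).mp hg)
      obtain ⟨c', hc'⟩ : ∃ c', c * c' ≡ 1 [MOD p] := by
        obtain ⟨c', -, h3⟩ := Nat.exists_mul_mod_eq_one_of_coprime hcop hp1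
        refine ⟨c', ?_⟩
        unfold Nat.ModEq
        rw [h3, Nat.mod_eq_of_lt hp1]
      have hk : Act x (y ^ (c' * d)) (1 + m * d) := by
        refine (hypowact (c' * d)).congr ?_
        rw [hordm]
        have h3 : c * c' * d ≡ 1 * d [MOD p] := Nat.ModEq.mul_right _ hc'
        have h4 : m * (c * c' * d) ≡ m * (1 * d) [MOD m * p] :=
          Nat.ModEq.mul_left' m h3
        rw [mul_comm m p] at h4
        have e : 1 + c' * d * (m * c) = 1 + m * (c * c' * d) := by ring
        rw [e, one_mul] at *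
        exact Nat.ModEq.add_left _ h4
      have h5 := (hs.div hk)
      have h6 : (y ^ (c' * d))⁻¹ * g ∈ zpowers x := (hU _).mpr h5
      have e : g = y ^ (c' * d) * ((y ^ (c' * d))⁻¹ * g) := by group
      rw [e]
      exact mul_mem ((le_sup_left : zpowers y ≤ _) ((zpowers y).pow_mem (mem_zpowers y) _))
        ((le_sup_right : zpowers x ≤ _) h6)
    · refine sup_le ?_ ?_
      · rwa [zpowers_le]
      · rw [zpowers_le]
        exact (hM x 1 (by simp [Act])).mpr rfl
  have hrel : (zpowers x).relIndex M = p := by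
    rw [hMeq, relIndex_sup_right, ← inf_relIndex_right, hinf, relIndex_bot_left, Nat.card_zpowers,
      hyord]
  -- z
  set z := x ^ m with hz
  have hzp : z ^ p = 1 := by
    rw [hz, ← pow_mul, mul_comm, ← hpm, ← hord, pow_orderOf_eq_one]
  have hzne : z ≠ 1 := by
    intro h
    have h3 : orderOf x ∣ m := orderOf_dvd_of_pow_eq_one h
    rw [hordm] at h3
    have := Nat.le_of_dvd (by omega) h3
    nlinarith
  have hzord : orderOf z = p := orderOf_eq_prime hzp hzne
  have hzy : y * z * y⁻¹ = z := by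
    rw [hz, hyact.cp]
    apply pow_eq_pow_iff_modEq.mpr
    rw [hord]
    have e : (1 + m * c) * m = m + m * m * c := by ring
    rw [e]
    have : m + m * m * c ≡ m + 0 [MOD p ^ n] :=
      Nat.ModEq.add_left _ (Nat.modEq_zero_iff_dvd.mpr (hMm.trans (dvd_mul_right _ _)))
    exact this
  have hcomm : Commute z y := by
    have : y * z = z * y := by
      calc y * z = y * z * y⁻¹ * y := by group
        _ = z * y := by rw [hzy]
    exact this.symm
  haveI hNz : (zpowers z).Normal := by
    constructor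
    intro h hh g
    obtain ⟨i', rfl⟩ := mem_zpowers_iff.mp hh
    obtain ⟨s, hs⟩ := hact g
    rw [← conj_zpow]
    apply zpow_mem
    have : g * z * g⁻¹ = z ^ s := by
      rw [hz, hs.cp, ← pow_mul, mul_comm]
    rw [this]
    exact pow_mem (mem_zpowers z) s
  set W := zpowers z ⊔ zpowers y with hW
  have hzU : zpowers z ≤ zpowers x := by
    rw [zpowers_le]
    exact (zpowers x).pow_mem (mem_zpowers x) m
  have hzM : z ∈ M := (hM z 1 ((hU z).mp (hzU (mem_zpowers z)))).mpr rfl
  have hOm : Cfsg.omegaOne p M = W := by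
    apply le_antisymm
    · refine (Subgroup.closure_le _).mpr ?_
      rintro g ⟨hgM, hgp⟩
      rw [hMeq, sup_comm] at hgM
      obtain ⟨u, hu, v, hv, rfl⟩ := mem_sup_of_normal_left.mp hgM
      obtain ⟨i', rfl⟩ := exists_nat_pow hu
      obtain ⟨k, rfl⟩ := exists_nat_pow hv
      obtain ⟨d, hd⟩ := hform _ (show 1 + k * (m * c) ≡ 1 [MOD m] by
        have e : 1 + k * (m * c) = 1 + m * (k * c) := by ring
        rw [e]; exact hone _)
      have hact2 := hypowact k
      rw [hd] at hact2
      obtain ⟨w₂, hw₂, hw₂co⟩ := geom_w (p := p) h1 h2 d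
      have e2 : (y ^ k) ^ p = 1 := by rw [← pow_mul, mul_comm, pow_mul, hypow, one_pow]
      rw [hact2.mul_pow' i' p, hw₂, e2, mul_one] at hgp
      have h3 : orderOf x ∣ i' * (p * w₂) := orderOf_dvd_of_pow_eq_one hgp
      rw [hordm] at h3
      have h4 : p * m ∣ p * (i' * w₂) := by
        have e : p * (i' * w₂) = i' * (p * w₂) := by ring
        rw [e]; exact h3
      have h5 : m ∣ i' * w₂ := Nat.dvd_of_mul_dvd_mul_left (by omega) h4
      have h6 : m ∣ i' := ((hw₂co.pow_right _).symm).dvd_of_dvd_mul_right h5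
      obtain ⟨i'', rfl⟩ := h6
      have e : x ^ (m * i'') = z ^ i'' := by rw [hz, pow_mul]
      rw [e]
      exact mul_mem ((le_sup_left : zpowers z ≤ W) (pow_mem (mem_zpowers z) _))
        ((le_sup_right : zpowers y ≤ W) (pow_mem (mem_zpowers y) _))
    · refine sup_le ?_ ?_
      · rw [zpowers_le]
        exact Subgroup.subset_closure ⟨hzM, hzp⟩
      · rw [zpowers_le]
        exact Subgroup.subset_closure ⟨hyM, hypow⟩
  have hform2 : ∀ g ∈ W, ∃ i k : ℕ, g = z ^ i * y ^ k := by
    intro g hg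
    obtain ⟨u, hu, v, hv, rfl⟩ := mem_sup_of_normal_left.mp hg
    obtain ⟨i', rfl⟩ := exists_nat_pow hu
    obtain ⟨k, rfl⟩ := exists_nat_pow hv
    exact ⟨i', k, rfl⟩
  rw [hOm]
  refine ⟨hrel, ⟨?_, ?_⟩, ?_⟩
  · refine ⟨⟨fun a b => Subtype.ext ?_⟩⟩
    obtain ⟨i₁, k₁, e₁⟩ := hform2 a a.2
    obtain ⟨i₂, k₂, e₂⟩ := hform2 b b.2
    show (a : G) * b = b * a
    rw [e₁, e₂]
    have h3 : Commute (z ^ i₁ * y ^ k₁) (z ^ i₂ * y ^ k₂) := by
      apply Commute.mul_left <;> apply Commute.mul_right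
      · exact Commute.refl z |>.pow_pow _ _
      · exact hcomm.pow_pow _ _
      · exact hcomm.symm.pow_pow _ _
      · exact Commute.refl y |>.pow_pow _ _
    exact h3
  · intro a ha
    obtain ⟨i₁, k₁, rfl⟩ := hform2 a ha
    have h3 : Commute (z ^ i₁) (y ^ k₁) := hcomm.pow_pow _ _
    have hpc : ∀ (g : G) (i : ℕ), g ^ p = 1 → (g ^ i) ^ p = 1 := fun g i h => by
      rw [← pow_mul, mul_comm, pow_mul, h, one_pow]
    rw [h3.mul_pow, hpc z i₁ hzp, hpc y k₁ hypow, one_mul]
  · have h3 : (⊥ : Subgroup G).relIndex (zpowers z) * (zpowers z).relIndex W =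
        (⊥ : Subgroup G).relIndex W := relIndex_mul_relIndex _ _ _ bot_le le_sup_left
    have hinf2 : zpowers z ⊓ zpowers y = ⊥ := by
      rw [eq_bot_iff, ← hinf]
      exact inf_le_inf_right _ hzU
    rw [relIndex_bot_left, relIndex_bot_left, hW, relIndex_sup_left, ← inf_relIndex_right, hinf2,
      relIndex_bot_left, Nat.card_zpowers, Nat.card_zpowers, hzord, hyord] at h3
    rw [← h3, pow_two]


theorem char_pc (p k : ℕ) (N : Subgroup G) [hN : N.Characteristic] :
    (Cfsg.powerClosure p k N).Characteristic := by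
  rw [Subgroup.characteristic_iff_le_comap]
  intro φ
  refine (Subgroup.closure_le _).mpr ?_
  rintro _ ⟨v, hv, rfl⟩
  show φ (v ^ (p ^ k)) ∈ Cfsg.powerClosure p k N
  rw [map_pow]
  exact Subgroup.subset_closure ⟨φ v, (Subgroup.characteristic_iff_le_comap.mp hN φ) hv, rfl⟩

theorem char_om (p : ℕ) (N : Subgroup G) [hN : N.Characteristic] :
    (Cfsg.omegaOne p N).Characteristic := by
  rw [Subgroup.characteristic_iff_le_comap]
  intro φ
  refine (Subgroup.closure_le _).mpr ?_
  rintro v ⟨hv, hv2⟩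
  show φ v ∈ Cfsg.omegaOne p N
  exact Subgroup.subset_closure ⟨(Subgroup.characteristic_iff_le_comap.mp hN φ) hv, by
    rw [← map_pow, hv2, map_one]⟩

theorem char_all (p : ℕ) (N : Subgroup G) (hall : ∀ g : G, g ^ p = 1 → g ∈ N) :
    (Cfsg.omegaOne p N).Characteristic := by
  rw [Subgroup.characteristic_iff_le_comap]
  intro φ
  refine (Subgroup.closure_le _).mpr ?_
  rintro v ⟨hv, hv2⟩
  show φ v ∈ Cfsg.omegaOne p N
  have h2 : (φ v) ^ p = 1 := by rw [← map_pow, hv2, map_one]
  exact Subgroup.subset_closure ⟨hall _ h2, h2⟩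

theorem main [Finite G] {p : ℕ} [Fact p.Prime] (hG : IsPGroup p G) (hna : ¬ IsMulCommutative G)
    (U : Subgroup G) [U.Normal] (hU : IsCyclic U) (n : ℕ) (hUn : Nat.card U = p ^ n)
    (hC : Subgroup.centralizer (U : Set G) = U) :
    (p = 2 ∧ Nat.card G = 2 ^ (n + 1) ∧ ((∃ m : ℕ, Nonempty (G ≃* DihedralGroup m)) ∨ (∃ m : ℕ, Nonempty (G ≃* QuaternionGroup m)) ∨ Cfsg.IsQuasiDihedral G)) ∨ (U.relIndex (Subgroup.centralizer (Cfsg.powerClosure p 1 U : Set G)) = p ∧ Cfsg.IsElementaryAbelian p (Cfsg.omegaOne p (Subgroup.centralizer (Cfsg.powerClosure p 1 U : Set G))) ∧ Nat.card ↥(Cfsg.omegaOne p (Subgroup.centralizer (Cfsg.powerClosure p 1 U : Set G))) = p ^ 2 ∧ (Cfsg.omegaOne p (Subgroup.centralizer (Cfsg.powerClosure p 1 U : Set G))).Characteristic) := by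
  classical
  have hpp : p.Prime := Fact.out
  obtain ⟨⟨x, hxU⟩, hgen⟩ := IsCyclic.exists_generator (α := U)
  have hUeq : U = zpowers x := by
    apply le_antisymm
    · intro u hu
      obtain ⟨k, hk⟩ := mem_zpowers_iff.mp (hgen ⟨u, hu⟩)
      have := congrArg Subtype.val hk
      exact mem_zpowers_iff.mpr ⟨k, by simpa using this⟩
    · rwa [zpowers_le]
  subst hUeq
  have hord : orderOf x = p ^ n := by rw [← Nat.card_zpowers]; exact hUn
  have hUact : ∀ g, g ∈ zpowers x ↔ Act x g 1 := by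
    intro g
    constructor
    · intro hg
      obtain ⟨k, rfl⟩ := mem_zpowers_iff.mp hg
      show x ^ k * x * (x ^ k)⁻¹ = x ^ 1
      rw [((Commute.refl x).zpow_left k).eq, mul_inv_cancel_right, pow_one]
    · intro h
      have hmem : g ∈ Subgroup.centralizer (zpowers x : Set G) := by
        rw [Subgroup.mem_centralizer_iff]
        intro u hu
        obtain ⟨k, rfl⟩ := mem_zpowers_iff.mp hu
        have hc : Commute x g := by
          have h1 : g * x * g⁻¹ = x := by simpa [Act] using h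
          show x * g = g * x
          calc x * g = g * x * g⁻¹ * g := by rw [h1]
            _ = g * x := by group
        exact (hc.zpow_left k).eq
      rwa [hC] at hmem
  have hact : ∀ g, ∃ s, Act x g s := by
    intro g
    have h1 : g * x * g⁻¹ ∈ zpowers x := (inferInstance : (zpowers x).Normal).conj_mem x (mem_zpowers x) g
    obtain ⟨s, hs⟩ := exists_nat_pow h1
    exact ⟨s, hs⟩
  have hne : ∃ g, g ∉ zpowers x := by
    by_contra h
    push_neg at h
    apply hna
    refine ⟨⟨fun a b => ?_⟩⟩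
    obtain ⟨i, hi⟩ := mem_zpowers_iff.mp (h a)
    obtain ⟨j, hj⟩ := mem_zpowers_iff.mp (h b)
    rw [← hi, ← hj]
    exact ((Commute.refl x).zpow_zpow i j).eq
  have hyex : ∀ g, g ∉ zpowers x → ∃ k, g ^ (p ^ k) ∉ zpowers x ∧ (g ^ (p ^ k)) ^ p ∈ zpowers x := by
    intro g hg
    obtain ⟨K, hK⟩ := hG g
    have hex : ∃ K, g ^ (p ^ K) ∈ zpowers x := ⟨K, by rw [hK]; exact Subgroup.one_mem _⟩
    have hspec := Nat.find_spec hex
    have hK0 : Nat.find hex ≠ 0 := by
      intro h0
      rw [h0] at hspec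
      apply hg
      simpa using hspec
    refine ⟨Nat.find hex - 1, Nat.find_min hex (by omega), ?_⟩
    rw [← pow_mul, ← pow_succ]
    have : Nat.find hex - 1 + 1 = Nat.find hex := by omega
    rw [this]
    exact hspec
  have hn2 : 2 ≤ n := by
    by_contra hlt
    obtain ⟨g, hg⟩ := hne
    obtain ⟨k, hy, hyp⟩ := hyex g hg
    obtain ⟨s, hs⟩ := hact (g ^ (p ^ k))
    have hspow : s ^ p ≡ 1 [MOD p ^ n] := by
      have := (hs.pow p).modEq ((hUact _).mp hyp)
      rwa [hord] at this
    apply hy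
    rw [hUact]
    refine hs.congr ?_
    rw [hord]
    have hn : n = 0 ∨ n = 1 := by omega
    rcases hn with rfl | rfl
    · rw [pow_zero]; exact Nat.modEq_one
    · rw [pow_one]
      exact fermat_one (n := 1) le_rfl hspow
  have hnd : ∀ g s, Act x g s → ¬ p ∣ s := by
    rintro g s hs ⟨s', rfl⟩
    have h1 := hs.cp (p ^ (n - 1))
    have h2 : x ^ (p * s' * p ^ (n - 1)) = 1 := by
      have e : p * s' * p ^ (n - 1) = p ^ n * s' := by
        have : p ^ n = p * p ^ (n - 1) := by rw [← pow_succ']; congr 1; omega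
        rw [this]; ring
      rw [e, ← hord, pow_mul, pow_orderOf_eq_one, one_pow]
    rw [h2] at h1
    have h3 : x ^ (p ^ (n - 1)) = 1 := by
      have h4 : g * x ^ p ^ (n - 1) = g := by
        calc g * x ^ p ^ (n - 1) = (g * x ^ p ^ (n - 1) * g⁻¹) * g := by group
          _ = g := by rw [h1, one_mul]
      exact mul_left_cancel (h4.trans (mul_one g).symm)
    have h5 : orderOf x ∣ p ^ (n - 1) := orderOf_dvd_of_pow_eq_one h3
    rw [hord] at h5
    have h6 := Nat.pow_dvd_pow_iff_le_right hpp.one_lt |>.mp h5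
    omega
  set M := Subgroup.centralizer (Cfsg.powerClosure p 1 (zpowers x) : Set G) with hMdef
  have hxp : x ^ p ∈ Cfsg.powerClosure p 1 (zpowers x) :=
    Subgroup.subset_closure ⟨x, mem_zpowers x, by rw [pow_one]⟩
  have hMiff : ∀ g, g ∈ M ↔ g * x ^ p * g⁻¹ = x ^ p := by
    intro g
    constructor
    · intro h
      have := Subgroup.mem_centralizer_iff.mp h (x ^ p) hxp
      rw [← this]; group
    · intro h
      rw [Subgroup.mem_centralizer_iff]
      have hc : x ^ p * g = g * x ^ p := by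
        calc x ^ p * g = g * x ^ p * g⁻¹ * g := by rw [h]
          _ = g * x ^ p := by group
      have hle : Cfsg.powerClosure p 1 (zpowers x) ≤ Subgroup.centralizer ({g} : Set G) := by
        refine (Subgroup.closure_le _).mpr ?_
        rintro _ ⟨v, hv, rfl⟩
        obtain ⟨k, rfl⟩ := mem_zpowers_iff.mp hv
        rw [SetLike.mem_coe, Subgroup.mem_centralizer_singleton_iff, pow_one]
        have h2 : Commute (x ^ p) g := hc
        have h3 : Commute ((x ^ k) ^ p) g := by
          have e : (x ^ k) ^ p = (x ^ p) ^ k := by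
            rw [← zpow_natCast, ← zpow_natCast x p, ← zpow_mul, ← zpow_mul, mul_comm]
          rw [e]
          exact h2.zpow_left k
        exact h3.eq
      intro u hu
      exact Subgroup.mem_centralizer_singleton_iff.mp (hle hu)
  have hpm : p ^ n = p ^ (n - 1) * p := by rw [← pow_succ]; congr 1; omega
  have hM : ∀ g s, Act x g s → (g ∈ M ↔ s ≡ 1 [MOD p ^ (n - 1)]) := by
    intro g s hs
    rw [hMiff, hs.cp, pow_eq_pow_iff_modEq, hord, hpm]
    constructor
    · intro h
      have h2 : s * p ≡ 1 * p [MOD p ^ (n - 1) * p] := by rwa [one_mul]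
      exact Nat.ModEq.mul_right_cancel' hpp.ne_zero h2
    · intro h
      have h2 := Nat.ModEq.mul_right' p h
      rwa [one_mul] at h2
  have h1 : p ^ 2 ∣ p ^ (n - 1) * p ^ (n - 1) := by
    rw [← pow_add]; exact pow_dvd_pow _ (by omega)
  by_cases hp2 : p = 2
  · subst hp2
    by_cases hc3 : 3 ≤ n ∧ ∃ y₀, y₀ ∈ M ∧ y₀ ∉ zpowers x
    · obtain ⟨hn3, y₀, hy₀M, hy₀U⟩ := hc3
      right
      have h2 : 2 ^ 2 ∣ 2 ^ (n - 1) * Nat.choose 2 2 := by
        rw [Nat.choose_self, mul_one]; exact pow_dvd_pow _ (by omega)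
      obtain ⟨a1, a2, a3⟩ := alt2 hn2 x hord hUact hact M hM h1 h2 y₀ hy₀M hy₀U
      refine ⟨a1, a2, a3, ?_⟩
      by_cases hs3 : ∃ g s, Act x g s ∧ s % 4 = 3
      · obtain ⟨g, s, hs, h4⟩ := hs3
        have hCU : commutator G ≤ zpowers x := by
          rw [_root_.commutator_def, Subgroup.commutator_le]
          intro a _ b _
          obtain ⟨s₁, hs₁⟩ := hact a
          obtain ⟨s₂, hs₂⟩ := hact b
          obtain ⟨s₃, hs₃⟩ := hact a⁻¹
          obtain ⟨s₄, hs₄⟩ := hact b⁻¹
          rw [hUact, commutatorElement_def]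
          have h5 := ((hs₁.mul hs₂).mul hs₃).mul hs₄
          refine h5.congr ?_
          have h6 : s₁ * s₃ ≡ 1 [MOD orderOf x] := by
            have := hs₁.mul hs₃
            rw [mul_inv_cancel] at this
            exact this.modEq (Act.one x)
          have h7 : s₂ * s₄ ≡ 1 [MOD orderOf x] := by
            have := hs₂.mul hs₄
            rw [mul_inv_cancel] at this
            exact this.modEq (Act.one x)
          have e : s₁ * s₂ * s₃ * s₄ = (s₁ * s₃) * (s₂ * s₄) := by ring
          rw [e]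
          simpa using h6.mul h7
        -- x² lies in the commutator
        obtain ⟨u, hu⟩ : ∃ u, s = 2 * u + 1 := ⟨s / 2, by omega⟩
        have hcomm : x ^ (2 * u) ∈ commutator G := by
          have h5 : ⁅g, x⁆ ∈ commutator G := by
            rw [_root_.commutator_def]
            exact Subgroup.commutator_mem_commutator (Subgroup.mem_top _) (Subgroup.mem_top _)
          rw [commutatorElement_def, show g * x * g⁻¹ = x ^ s from hs, hu, pow_succ,
            mul_inv_cancel_right] at h5
          exact h5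
        have huodd : Nat.Coprime u (2 ^ n) := by
          apply Nat.Coprime.pow_right
          rw [Nat.coprime_comm, Nat.prime_two.coprime_iff_not_dvd]
          omega
        have hx2 : x ^ 2 ∈ commutator G := by
          obtain ⟨v, -, hv⟩ := Nat.exists_mul_mod_eq_one_of_coprime huodd (Nat.one_lt_two_pow (by omega))
          have h6 : x ^ (u * v) = x := by
            have h7 : u * v ≡ 1 [MOD orderOf x] := by
              rw [hord]
              unfold Nat.ModEq
              rw [hv, Nat.mod_eq_of_lt (Nat.one_lt_two_pow (by omega))]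
            have := pow_eq_pow_iff_modEq.mpr h7
            rwa [pow_one] at this
          have h8 : (x ^ (2 * u)) ^ v = x ^ 2 := by
            rw [← pow_mul, mul_assoc, mul_comm 2, pow_mul, h6]
          rw [← h8]
          exact (commutator G).pow_mem hcomm v
        haveI hU1 : (Cfsg.powerClosure 2 1 (zpowers x)).Characteristic := by
          by_cases hxC : x ∈ commutator G
          · have e : zpowers x = commutator G :=
              le_antisymm ((zpowers_le).mpr hxC) hCU
            rw [e]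
            exact char_pc 2 1 _
          · have e : Cfsg.powerClosure 2 1 (zpowers x) = commutator G := by
              apply le_antisymm
              · refine (Subgroup.closure_le _).mpr ?_
                rintro _ ⟨v, hv, rfl⟩
                obtain ⟨k, rfl⟩ := exists_nat_pow hv
                have e : (x ^ k) ^ (2 ^ 1) = (x ^ 2) ^ k := by
                  rw [pow_one, ← pow_mul, ← pow_mul, mul_comm]
                rw [SetLike.mem_coe, e]
                exact (commutator G).pow_mem hx2 k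
              · intro w hw
                obtain ⟨b, rfl⟩ := exists_nat_pow (hCU hw)
                rcases Nat.even_or_odd' b with ⟨b₀, rfl | rfl⟩
                · refine Subgroup.subset_closure ⟨x ^ b₀, pow_mem (mem_zpowers x) _, ?_⟩
                  rw [pow_one, ← pow_mul, mul_comm]
                · exfalso
                  apply hxC
                  have h9 : x = x ^ (2 * b₀ + 1) * ((x ^ 2) ^ b₀)⁻¹ := by
                    rw [← pow_mul, pow_succ', mul_inv_cancel_right]
                  rw [h9]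
                  exact mul_mem hw (inv_mem ((commutator G).pow_mem hx2 b₀))
            rw [e]
            infer_instance
        haveI hMc : M.Characteristic := by
          rw [hMdef]; infer_instance
        exact char_om 2 M
      · push_neg at hs3
        apply char_all
        intro g hg
        obtain ⟨s, hs⟩ := hact g
        rw [hM g s hs]
        have h3 := hs.pow 2
        rw [hg] at h3
        have h4 := h3.modEq (Act.one x)
        rw [hord, pow_two] at h4
        have h5 : s % 4 ≠ 3 := hs3 g s hs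
        have h6 : ¬ 2 ∣ s := hnd g s hs
        exact (two_arith hn2 h4).1 (by omega)
    · -- first alternative
      left
      refine ⟨rfl, ?_⟩
      have hodd : ∀ g s, Act x g s → s % 2 = 1 := by
        intro g s hs
        have := hnd g s hs
        omega
      have hsq : ∀ h s, Act x h s → h ^ 2 ∈ zpowers x → s * s ≡ 1 [MOD 2 ^ n] := by
        intro h s hs h2
        have := (hs.pow 2).modEq ((hUact _).mp h2)
        rwa [hord, pow_two] at this
      have hc0 : ∀ h s, Act x h s → h ^ 2 ∈ zpowers x → s % 4 = 1 → h ∈ zpowers x := by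
        intro h s hs h2 h4
        by_cases hn3 : 3 ≤ n
        · by_contra hh
          exact hc3 ⟨hn3, h, (hM h s hs).mpr ((two_arith hn2 (hsq h s hs h2)).1 h4), hh⟩
        · have hn : n = 2 := by omega
          rw [hUact]
          refine hs.congr ?_
          rw [hord, hn]
          unfold Nat.ModEq
          norm_num
          exact h4
      have hsqmod : ∀ r : ℕ, r % 2 = 1 → r ^ 2 % 4 = 1 := by
        intro r hr
        have h3 : r % 4 = 1 ∨ r % 4 = 3 := by omega
        rcases h3 with h3 | h3 <;> simp [pow_two, Nat.mul_mod, h3]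
      have hc1 : ∀ g, g ^ 2 ∈ zpowers x := by
        intro g
        by_contra hg
        obtain ⟨k, hk1, hk2⟩ := hyex _ hg
        obtain ⟨r, hr⟩ := hact (g ^ (2 ^ k))
        have e : (g ^ 2) ^ (2 ^ k) = (g ^ (2 ^ k)) ^ 2 := by
          rw [← pow_mul, ← pow_mul, mul_comm]
        rw [e] at hk1 hk2
        exact hk1 (hc0 _ _ (hr.pow 2) hk2 (hsqmod r (hodd _ _ hr)))
      have hc2 : ∀ g s, Act x g s → g ∉ zpowers x → s % 4 = 3 := by
        intro g s hs hg
        have h3 := hodd g s hs
        by_contra h4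
        exact hg (hc0 g s hs (hc1 g) (by omega))
      have hc3' : ∀ g h, g ∉ zpowers x → h ∉ zpowers x → g * h ∈ zpowers x := by
        intro g h hg hh
        obtain ⟨s, hs⟩ := hact g
        obtain ⟨r, hr⟩ := hact h
        have h3 := hc2 g s hs hg
        have h4 := hc2 h r hr hh
        exact hc0 _ _ (hs.mul hr) (hc1 _) (by simp [Nat.mul_mod, h3, h4])
      obtain ⟨y, hy⟩ := hne
      have hidx : (zpowers x).index = 2 := by
        refine Subgroup.index_eq_two_iff'.mpr ⟨y, fun b => ?_⟩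
        by_cases hb : b ∈ zpowers x
        · refine Or.inr ⟨hb, fun h => hy ?_⟩
          have := mul_mem h (inv_mem hb)
          rwa [mul_inv_cancel_right] at this
        · exact Or.inl ⟨hc3' y b hy hb, hb⟩
      have hcard0 : Nat.card G = 2 ^ n * 2 := by
        rw [← Subgroup.card_mul_index (zpowers x), hidx, hUn]
      have hcardG : Nat.card G = 2 ^ (n + 1) := by rw [hcard0, pow_succ]
      refine ⟨hcardG, ?_⟩
      obtain ⟨s, hs⟩ := hact y
      have hs4 := hc2 y s hs hy
      have hsdvd := (two_arith hn2 (hsq y s hs (hc1 y))).2 hs4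
      obtain ⟨e, he⟩ := hsdvd
      have e2 : 2 ^ n = 2 * 2 ^ (n - 1) := by rw [← pow_succ']; congr 1; omega
      obtain ⟨b, hb⟩ := exists_nat_pow (hc1 y)
      obtain ⟨u, hu⟩ : ∃ u, s = 2 * u + 1 := ⟨s / 2, by omega⟩
      have huodd : ¬ 2 ∣ u := by omega
      have hbd : 2 ^ (n - 1) ∣ b := by
        have hcomm : y * x ^ b * y⁻¹ = x ^ b := by
          rw [← hb, (Commute.refl y |>.pow_right 2).eq, mul_inv_cancel_right]
        rw [hs.cp] at hcomm
        have h3 : s * b ≡ b [MOD 2 ^ n] := by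
          rw [← hord]; exact pow_eq_pow_iff_modEq.mp hcomm
        rw [hu] at h3
        have h4 : 2 * u * b + b ≡ 0 + b [MOD 2 ^ n] := by
          have e : 2 * u * b + b = (2 * u + 1) * b := by ring
          rw [e, zero_add]; exact h3
        have h5 : 2 * u * b ≡ 0 [MOD 2 ^ n] := Nat.ModEq.add_right_cancel' _ h4
        have h6 : 2 ^ n ∣ 2 * (u * b) := by
          rw [← mul_assoc]; exact Nat.modEq_zero_iff_dvd.mp h5
        rw [e2] at h6
        have h7 : 2 ^ (n - 1) ∣ u * b := Nat.dvd_of_mul_dvd_mul_left (by norm_num) h6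
        have h8 : Nat.Coprime (2 ^ (n - 1)) u := by
          apply Nat.Coprime.pow_left
          rw [Nat.prime_two.coprime_iff_not_dvd]
          exact huodd
        exact h8.dvd_of_dvd_mul_left h7
      obtain ⟨c, rfl⟩ := hbd
      have hx2n : x ^ (2 ^ n) = 1 := by rw [← hord]; exact pow_orderOf_eq_one x
      have hxm : ∀ t : ℕ, x ^ (2 ^ (n - 1) * (2 * t)) = 1 := by
        intro t
        have e : 2 ^ (n - 1) * (2 * t) = 2 ^ n * t := by rw [e2]; ring
        rw [e, pow_mul, hx2n, one_pow]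
      rcases Nat.even_or_odd' e with ⟨e', rfl | rfl⟩
      · -- inverted
        have hinv : y * x * y⁻¹ = x⁻¹ := by
          have h3 : x ^ s * x = 1 := by
            rw [← pow_succ, he, hxm]
          exact (show y * x * y⁻¹ = x ^ s from hs).trans (eq_inv_of_mul_eq_one_left h3)
        rcases Nat.even_or_odd' c with ⟨c', rfl | rfl⟩
        · left
          refine ⟨2 ^ n, nonempty_mulEquiv_dihedral (2 ^ n) x y hord ?_ hinv hy ?_⟩
          · rw [hb, hxm]
          · rw [hcard0, mul_comm]
        · right; left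
          refine ⟨2 ^ (n - 1), nonempty_mulEquiv_quaternion (2 ^ (n - 1)) x y ?_ ?_ hinv hy ?_⟩
          · rw [hord, e2]
          · rw [← pow_two, hb, mul_add, pow_add, hxm, one_mul, mul_one]
          · rw [hcard0, e2]; ring
      · -- semidihedral
        right; right
        have hn3 : 3 ≤ n := by
          by_contra hlt
          have hn : n = 2 := by omega
          rw [hn] at he
          norm_num at he
          omega
        have hs1 : s + 1 ≡ 2 ^ (n - 1) [MOD 2 ^ n] := by
          rw [he]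
          have e3 : 2 ^ (n - 1) * (2 * e' + 1) = 2 ^ n * e' + 2 ^ (n - 1) := by
            rw [e2]; ring
          rw [e3]
          simp [Nat.ModEq]
        obtain ⟨y', hy'1, hy'2, hy'3⟩ : ∃ y', y' ∉ zpowers x ∧ Act x y' s ∧ y' ^ 2 = 1 := by
          rcases Nat.even_or_odd' c with ⟨c', rfl | rfl⟩
          · exact ⟨y, hy, hs, by rw [hb, hxm]⟩
          · refine ⟨x ^ 1 * y, ?_, ?_, ?_⟩
            · intro h
              apply hy
              have := mul_mem (inv_mem ((zpowers x).pow_mem (mem_zpowers x) 1)) h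
              rwa [inv_mul_cancel_left] at this
            · have h3 := ((hUact _).mp ((zpowers x).pow_mem (mem_zpowers x) 1)).mul hs
              rwa [one_mul] at h3
            · rw [hs.mul_pow' 1 2, hb, ← pow_add]
              have h3 : 1 * (∑ j ∈ Finset.range 2, s ^ j) = s + 1 := by
                simp [Finset.sum_range_succ]; ring
              rw [h3, he]
              have e4 : 2 ^ (n - 1) * (2 * e' + 1) + 2 ^ (n - 1) * (2 * c' + 1) =
                  2 ^ (n - 1) * (2 * (e' + c' + 1)) := by ring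
              rw [e4, hxm]
        have hy'ne : y' ≠ 1 := fun h => hy'1 (h ▸ Subgroup.one_mem _)
        haveI : Fact (Nat.Prime 2) := ⟨Nat.prime_two⟩
        refine ⟨n, hn3, hcardG, x, y', hord, orderOf_eq_prime hy'3 hy'ne, ?_⟩
        refine hy'2.trans (pow_eq_pow_iff_modEq.mpr ?_)
        rw [hord]
        have h5 : 1 ≤ 2 ^ (n - 1) := Nat.one_le_two_pow
        have h6 : s + 1 ≡ (2 ^ (n - 1) - 1) + 1 [MOD 2 ^ n] := by
          rw [Nat.sub_add_cancel h5]; exact hs1
        exact Nat.ModEq.add_right_cancel' 1 h6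
  · -- p odd
    right
    have hodd : Odd p := hpp.odd_of_ne_two hp2
    have hp3 : 2 < p := by
      have := hpp.two_le
      omega
    have h2 : p ^ 2 ∣ p ^ (n - 1) * p.choose 2 := by
      rw [pow_two]
      exact Nat.mul_dvd_mul (dvd_pow_self p (by omega)) (hpp.dvd_choose_self two_ne_zero hp3)
    have hin : ∀ g s, Act x g s → s ^ p ≡ 1 [MOD p ^ n] → g ∈ M := by
      intro g s hs hsp
      rw [hM g s hs]
      exact lte_one hodd (by omega) hsp (fermat_one (by omega) hsp)
    obtain ⟨g, hg⟩ := hne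
    obtain ⟨k, hy, hyp⟩ := hyex g hg
    obtain ⟨s, hs⟩ := hact (g ^ (p ^ k))
    have hsp : s ^ p ≡ 1 [MOD p ^ n] := by
      have := (hs.pow p).modEq ((hUact _).mp hyp)
      rwa [hord] at this
    obtain ⟨a1, a2, a3⟩ := alt2 hn2 x hord hUact hact M hM h1 h2 _ (hin _ s hs hsp) hy
    refine ⟨a1, a2, a3, ?_⟩
    apply char_all
    intro g' hg'
    obtain ⟨s', hs'⟩ := hact g'
    refine hin g' s' hs' ?_
    have h3 := hs'.pow p
    rw [hg'] at h3
    have := h3.modEq (Act.one x)
    rwa [hord] at this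

end

/-- Let G be a finite non-abelian p-group with a cyclic normal subgroup U of order p^n such that C_G(U) = U. Then either p = 2 and G is dihedral, generalized quaternion or semidihedral of order 2^(n+1); or, writing U₁ for the subgroup generated by the p-th powers of elements of U and M = C_G(U₁), the subgroup U has index p in M and the subgroup Ω₁(M) generated by the elements of M of order dividing p is elementary abelian of order p² and characteristic in G. -/
theorem result {G : Type*} [Group G] [Finite G] {p : ℕ} [Fact p.Prime] (hG : IsPGroup p G) (hna : ¬ IsMulCommutative G) (U : Subgroup G) [U.Normal] (hU : IsCyclic U) (n : ℕ) (hUn : Nat.card U = p ^ n) (hC : Subgroup.centralizer (U : Set G) = U) : (p = 2 ∧ Nat.card G = 2 ^ (n + 1) ∧ ((∃ m : ℕ, Nonempty (G ≃* DihedralGroup m)) ∨ (∃ m : ℕ, Nonempty (G ≃* QuaternionGroup m)) ∨ Cfsg.IsQuasiDihedral G)) ∨ (U.relIndex (Subgroup.centralizer (Cfsg.powerClosure p 1 U : Set G)) = p ∧ Cfsg.IsElementaryAbelian p (Cfsg.omegaOne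 p (Subgroup.centralizer (Cfsg.powerClosure p 1 U : Set G))) ∧ Nat.card ↥(Cfsg.omegaOne p (Subgroup.centralizer (Cfsg.powerClosure p 1 U : Set G))) = p ^ 2 ∧ (Cfsg.omegaOne p (Subgroup.centralizer (Cfsg.powerClosure p 1 U : Set G))).Characteristic) := by
  exact main hG hna U hU n hUn hC

end Cfsg.Agent.S3761
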