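import Mathlib
import Cfsg.Statements.S3762
import Cfsg.Agent.S3761
import Cfsg.Agent.Lib.Critical
import Cfsg.Agent.Lib.CoprimeAct
import Cfsg.Agent.Lib.H6PGroup
import Cfsg.Agent.Lib.NilCyc
import Cfsg.Agent.Lib.H7PGroup
-- import your own Cfsg.Agent.* helpers here

set_option autoImplicit false
open Cfsg

namespace Cfsg.Agent.S3762


set_option autoImplicit false
set_option linter.all false

section H6Sym

open Subgroup Cfsg.Agent.Lib.Critical
open scoped commutatorElement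

theorem cy_root {A : Type*} [Group A] [Finite A] [IsCyclic A] {p n k : ℕ} [hp : Fact p.Prime]
    (hc : Nat.card A = p ^ n) (hk : k < n) (v : A) (hv : v ^ (p ^ k) = 1) : ∃ u : A, v = u ^ p := by
  obtain ⟨g, hg⟩ := IsCyclic.exists_generator (α := A)
  have hord : orderOf g = p ^ n := by
    rw [← hc]
    exact orderOf_eq_card_of_forall_mem_zpowers hg
  obtain ⟨a, rfl⟩ : ∃ a : ℕ, v = g ^ a := Cfsg.Agent.S3761.exists_nat_pow (hg v)
  have h1 : p ^ n ∣ a * p ^ k := by
    rw [← hord]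
    apply orderOf_dvd_of_pow_eq_one
    rw [pow_mul]
    exact hv
  have h2 : p ^ (k + 1) ∣ p ^ n := pow_dvd_pow p (by omega)
  have h3 : p ∣ a := by
    have h4 : p ^ k * p ∣ p ^ k * a := by
      rw [← pow_succ, mul_comm (p ^ k) a]
      exact h2.trans h1
    exact Nat.dvd_of_mul_dvd_mul_left (pow_pos hp.out.pos k) h4
  obtain ⟨a', rfl⟩ := h3
  exact ⟨g ^ a', by rw [← pow_mul, mul_comm]⟩

theorem cy_gen {A : Type*} [Group A] [Finite A] [IsCyclic A] {p n : ℕ} [hp : Fact p.Prime]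
    (hc : Nat.card A = p ^ n) (g : A) (hg : ∀ u : A, g ≠ u ^ p) (h : A) : ∃ t : ℕ, h = g ^ t := by
  obtain ⟨g₀, hg₀⟩ := IsCyclic.exists_generator (α := A)
  have hord : orderOf g₀ = p ^ n := by
    rw [← hc]
    exact orderOf_eq_card_of_forall_mem_zpowers hg₀
  obtain ⟨a, ha⟩ : ∃ a : ℕ, g = g₀ ^ a := Cfsg.Agent.S3761.exists_nat_pow (hg₀ g)
  have hpa : ¬ p ∣ a := by
    rintro ⟨a', rfl⟩
    exact hg (g₀ ^ a') (by rw [ha, ← pow_mul, mul_comm])
  have hn : n ≠ 0 := by
    rintro rfl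
    have h1 : Nat.card A = 1 := by simpa using hc
    haveI : Subsingleton A := (Nat.card_eq_one_iff_unique.1 h1).1
    exact hg 1 (Subsingleton.elim _ _)
  have hcop : Nat.Coprime a (p ^ n) :=
    Nat.Coprime.pow_right n ((Nat.Prime.coprime_iff_not_dvd hp.out).2 hpa).symm
  have h1 : 1 < p ^ n := Nat.one_lt_pow hn hp.out.one_lt
  obtain ⟨m, -, hm⟩ := Nat.exists_mul_mod_eq_one_of_coprime hcop h1
  have h2 : g ^ m = g₀ := by
    rw [ha, ← pow_mul, ← pow_mod_orderOf g₀ (a * m), hord, hm, pow_one]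
  obtain ⟨b, hb⟩ : ∃ b : ℕ, h = g₀ ^ b := Cfsg.Agent.S3761.exists_nat_pow (hg₀ h)
  exact ⟨m * b, by rw [pow_mul, h2, hb]⟩

theorem cy_prime {A : Type*} [Group A] [Finite A] [IsCyclic A] {p : ℕ} [hp : Fact p.Prime] (v w : A) (hv : v ^ p = 1)
    (hw : w ^ p = 1) (hw1 : w ≠ 1) : ∃ t : ℕ, v = w ^ t := by
  by_cases hv1 : v = 1
  · exact ⟨0, by simp [hv1]⟩
  have h1 : orderOf v = p := orderOf_eq_prime hv hv1
  have h2 : orderOf w = p := orderOf_eq_prime hw hw1
  have h3 : v ∈ zpowers w :=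
    Cfsg.Agent.Lib.NilCyc.mem_zpowers_of_cyclic (C := ⊤) hp.out (mem_top _) (mem_top _) h2 h1
  exact Cfsg.Agent.S3761.exists_nat_pow h3

theorem pow_conj {G : Type*} [Group G] {x y z : G} (h0 : x * y * x⁻¹ = z * y) (hxz : x * z = z * x) (n : ℕ) :
    x ^ n * y * (x ^ n)⁻¹ = z ^ n * y := by
  induction n with
  | zero => simp
  | succ n ih =>
    rw [pow_succ' x n]
    calc x * x ^ n * y * (x * x ^ n)⁻¹ = x * (x ^ n * y * (x ^ n)⁻¹) * x⁻¹ := by group
      _ = x * (z ^ n * y) * x⁻¹ := by rw [ih]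
      _ = z ^ n * (x * y * x⁻¹) := by
        have h1 : x * z ^ n = z ^ n * x := ((show Commute x z from hxz).pow_right n).eq
        rw [← mul_assoc x, h1]
        group
      _ = z ^ (n + 1) * y := by
        rw [h0, pow_succ]
        group

theorem one_step {G : Type*} [Group G] {x y z g : G} {a : ℕ} (hz : x * y * x⁻¹ * y⁻¹ = z) (hzx : ∀ u : G, u * z = z * u)
    (hg : g * y * g⁻¹ * y⁻¹ = z ^ a) : ((x ^ a)⁻¹ * g) * y = y * ((x ^ a)⁻¹ * g) := by
  have h0 : x * y * x⁻¹ = z * y := by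
    rw [← hz]
    group
  have h1 := pow_conj h0 (hzx x) a
  have h2 : g * y * g⁻¹ = z ^ a * y := by
    rw [← hg]
    group
  have h3 : g * y * g⁻¹ = x ^ a * y * (x ^ a)⁻¹ := by rw [h2, h1]
  have h4 : g * y = x ^ a * y * (x ^ a)⁻¹ * g := by
    rw [← h3]
    group
  calc (x ^ a)⁻¹ * g * y = (x ^ a)⁻¹ * (g * y) := by group
    _ = (x ^ a)⁻¹ * (x ^ a * y * (x ^ a)⁻¹ * g) := by rw [h4]
    _ = y * ((x ^ a)⁻¹ * g) := by group

theorem pow_comm {G : Type*} [Group G] {x y c : G} (hc : y * x = c * x * y) (hcx : c * x = x * c) (hcy : c * y = y * c)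
    (n : ℕ) : y ^ n * x = c ^ n * x * y ^ n := by
  induction n with
  | zero => simp
  | succ n ih =>
    have h1 : y ^ n * c = c * y ^ n := (((show Commute c y from hcy).pow_right n).eq).symm
    calc y ^ (n + 1) * x = y ^ n * (y * x) := by rw [pow_succ]; group
      _ = y ^ n * (c * x * y) := by rw [hc]
      _ = (y ^ n * c) * x * y := by group
      _ = c * (y ^ n * x) * y := by rw [h1]; group
      _ = c * (c ^ n * x * y ^ n) * y := by rw [ih]
      _ = c ^ (n + 1) * x * y ^ (n + 1) := by rw [pow_succ', pow_succ y n]; group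

theorem pow_formula {G : Type*} [Group G] {x y c : G} (hc : y * x = c * x * y) (hcx : c * x = x * c) (hcy : c * y = y * c)
    (n : ℕ) : (x * y) ^ n = x ^ n * y ^ n * c ^ (n.choose 2) := by
  induction n with
  | zero => simp
  | succ n ih =>
    have h1 : (x * y) ^ (n + 1) = x ^ n * y ^ n * c ^ (n.choose 2) * (x * y) := by rw [pow_succ, ih]
    have h2 : c ^ (n.choose 2) * x = x * c ^ (n.choose 2) := ((show Commute c x from hcx).pow_left _).eq
    have h3 : c ^ (n.choose 2) * y = y * c ^ (n.choose 2) := ((show Commute c y from hcy).pow_left _).eq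
    have h4 : c ^ n * x = x * c ^ n := ((show Commute c x from hcx).pow_left _).eq
    have h5 : c ^ n * y = y * c ^ n := ((show Commute c y from hcy).pow_left _).eq
    have h6 : y ^ n * c ^ n = c ^ n * y ^ n := (((show Commute c y from hcy).pow_pow n n).eq).symm
    rw [h1]
    have e : (n + 1).choose 2 = n + n.choose 2 := by
      rw [Nat.choose_succ_succ' n 1, Nat.choose_one_right]
    rw [e, pow_add c, pow_succ x, pow_succ y]
    calc x ^ n * y ^ n * c ^ n.choose 2 * (x * y)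
        = x ^ n * y ^ n * (c ^ n.choose 2 * x) * y := by group
      _ = x ^ n * (y ^ n * x) * (c ^ n.choose 2 * y) := by rw [h2]; group
      _ = x ^ n * (c ^ n * x * y ^ n) * (y * c ^ n.choose 2) := by rw [pow_comm hc hcx hcy n, h3]
      _ = x ^ n * (x * c ^ n) * y ^ n * y * c ^ n.choose 2 := by rw [h4]; group
      _ = x ^ n * x * (y ^ n * y) * (c ^ n * c ^ n.choose 2) := by
        have h7 : c ^ n * (y ^ n * y) = (y ^ n * y) * c ^ n := by
          rw [← mul_assoc, ← h6, mul_assoc, mul_assoc, h5]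
        calc x ^ n * (x * c ^ n) * y ^ n * y * c ^ n.choose 2
            = x ^ n * x * (c ^ n * (y ^ n * y)) * c ^ n.choose 2 := by group
          _ = _ := by rw [h7]; group

theorem comm_central {G : Type*} [Group G] {a b c d : G} (hca : Commute c a) (hcb : Commute c b) (hcd : Commute c d)
    (hda : Commute d a) (hdb : Commute d b) : (c * a) * (d * b) * (c * a)⁻¹ * (d * b)⁻¹ = a * b * a⁻¹ * b⁻¹ := by
  have hX : Commute c (a * b * a⁻¹) := (hca.mul_right hcb).mul_right hca.inv_right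
  have hY : Commute d (a * b * a⁻¹ * b⁻¹) := ((hda.mul_right hdb).mul_right hda.inv_right).mul_right hdb.inv_right
  have h1 : c * a * (d * b) = d * (c * (a * b)) := by
    calc c * a * (d * b) = c * (a * d) * b := by group
      _ = c * (d * a) * b := by rw [hda.eq]
      _ = (c * d) * a * b := by group
      _ = (d * c) * a * b := by rw [hcd.eq]
      _ = d * (c * (a * b)) := by group
  rw [h1, mul_inv_rev, mul_inv_rev]
  calc d * (c * (a * b)) * (a⁻¹ * c⁻¹) * (b⁻¹ * d⁻¹) = d * (c * (a * b * a⁻¹) * c⁻¹) * b⁻¹ * d⁻¹ := by group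
    _ = d * (a * b * a⁻¹) * b⁻¹ * d⁻¹ := by rw [hX.eq]; group
    _ = d * (a * b * a⁻¹ * b⁻¹) * d⁻¹ := by group
    _ = a * b * a⁻¹ * b⁻¹ := by rw [hY.eq]; group

theorem comm_prod {G : Type*} [Group G] {e₁ e₂ r₁ r₂ : G} (h11 : Commute e₁ r₁) (h12 : Commute e₁ r₂)
    (h21 : Commute e₂ r₁) (h22 : Commute e₂ r₂) :
    (e₁ * r₁) * (e₂ * r₂) * (e₁ * r₁)⁻¹ * (e₂ * r₂)⁻¹ = (e₁ * e₂ * e₁⁻¹ * e₂⁻¹) * (r₁ * r₂ * r₁⁻¹ * r₂⁻¹) := by
  have hA : Commute (r₁ * r₂) e₁⁻¹ := ((h11.mul_right h12).inv_left).symm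
  have hB : Commute (r₁ * r₂ * r₁⁻¹) e₂⁻¹ :=
    (((h21.mul_right h22).mul_right h21.inv_right).inv_left).symm
  have h1 : (e₁ * r₁) * (e₂ * r₂) = (e₁ * e₂) * (r₁ * r₂) := by
    calc (e₁ * r₁) * (e₂ * r₂) = e₁ * (r₁ * e₂) * r₂ := by group
      _ = e₁ * (e₂ * r₁) * r₂ := by rw [h21.eq]
      _ = _ := by group
  have h2 : (e₁ * r₁)⁻¹ = e₁⁻¹ * r₁⁻¹ := by
    rw [mul_inv_rev, (h11.inv_inv).eq]
  have h3 : (e₂ * r₂)⁻¹ = e₂⁻¹ * r₂⁻¹ := by
    rw [mul_inv_rev, (h22.inv_inv).eq]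
  rw [h1, h2, h3]
  calc e₁ * e₂ * (r₁ * r₂) * (e₁⁻¹ * r₁⁻¹) * (e₂⁻¹ * r₂⁻¹)
      = e₁ * e₂ * ((r₁ * r₂) * e₁⁻¹) * r₁⁻¹ * (e₂⁻¹ * r₂⁻¹) := by group
    _ = e₁ * e₂ * e₁⁻¹ * ((r₁ * r₂ * r₁⁻¹) * e₂⁻¹) * r₂⁻¹ := by rw [hA.eq]; group
    _ = _ := by rw [hB.eq]; group

theorem cent_char {G : Type*} [Group G] (N : Subgroup G) (hN : N.Characteristic) :
    (centralizer (N : Set G)).Characteristic := by
  refine characteristic_iff_le_comap.2 fun φ x hx => ?_
  refine mem_centralizer_iff.2 fun h hh => ?_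
  have h1 : φ.symm h ∈ N := characteristic_iff_le_comap.1 hN φ.symm hh
  have h2 := mem_centralizer_iff.1 hx _ h1
  have h3 := congrArg φ h2
  simpa using h3

theorem inf_char {G : Type*} [Group G] (A B : Subgroup G) (hA : A.Characteristic) (hB : B.Characteristic) :
    (A ⊓ B).Characteristic :=
  characteristic_iff_le_comap.2 fun φ _ hx =>
    ⟨characteristic_iff_le_comap.1 hA φ hx.1, characteristic_iff_le_comap.1 hB φ hx.2⟩

theorem es_of {G : Type*} [Group G] [Finite G] {p : ℕ} [hp : Fact p.Prime] (hG : IsPGroup p G) (F Y : Subgroup G)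
    (hYF : Y ≤ F) (hYc : Nat.card Y = p) (hY1 : ∀ y ∈ Y, ∀ f ∈ F, f * y = y * f)
    (hY2 : ∀ f ∈ F, (∀ f' ∈ F, f * f' = f' * f) → f ∈ Y)
    (hcomm : ∀ a ∈ F, ∀ b ∈ F, a * b * a⁻¹ * b⁻¹ ∈ Y) (hpow : ∀ a ∈ F, a ^ p ∈ Y)
    (hna : ∃ a ∈ F, ∃ b ∈ F, a * b ≠ b * a) : Cfsg.IsExtraspecial p ↥F := by
  have hFp : IsPGroup p F := hG.to_subgroup F
  have hcenter : ∀ w : F, w ∈ center F ↔ (w : G) ∈ Y := by
    intro w
    constructor
    · intro hw
      apply hY2 _ w.2
      intro k hk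
      have h1 := (mem_center_iff.mp hw) ⟨k, hk⟩
      exact (congrArg Subtype.val h1).symm
    · intro hw
      rw [mem_center_iff]
      intro g
      apply Subtype.ext
      exact hY1 _ hw _ g.2
  obtain ⟨a, ha, b, hb, hab⟩ := hna
  have hw1 : a * b * a⁻¹ * b⁻¹ ≠ 1 := by
    intro h
    apply hab
    have e : a * b = (a * b * a⁻¹ * b⁻¹) * (b * a) := by group
    rw [e, h, one_mul]
  have hwY := hcomm a ha b hb
  have hYz : ∀ t ∈ Y, ∃ k : ℕ, t = (a * b * a⁻¹ * b⁻¹) ^ k := by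
    intro t ht
    have h1 : (⟨_, hwY⟩ : Y) ≠ 1 := fun h => hw1 (congrArg Subtype.val h)
    have h2 := mem_zpowers_of_prime_card hYc h1 (g' := ⟨t, ht⟩)
    obtain ⟨k, hk⟩ := Cfsg.Agent.S3761.exists_nat_pow h2
    exact ⟨k, by simpa using congrArg Subtype.val hk⟩
  have hcard : Nat.card (center F) = p := by
    have h1 : (center F).map F.subtype = Y := by
      ext y
      constructor
      · rintro ⟨w, hw, rfl⟩
        exact (hcenter w).1 hw
      · intro hy
        exact ⟨⟨y, hYF hy⟩, (hcenter _).2 hy, rfl⟩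
    rw [← hYc, ← h1]
    exact (card_map_of_injective F.subtype_injective).symm
  let w : F := ⟨a, ha⟩ * ⟨b, hb⟩ * (⟨a, ha⟩ : F)⁻¹ * (⟨b, hb⟩ : F)⁻¹
  have hwv : (w : G) = a * b * a⁻¹ * b⁻¹ := rfl
  have hcpow : ∀ t : F, t ∈ center F → ∃ k : ℕ, t = w ^ k := by
    intro t ht
    obtain ⟨k, hk⟩ := hYz _ ((hcenter t).1 ht)
    refine ⟨k, Subtype.ext ?_⟩
    rw [hk]
    simp [hwv]
  refine ⟨⟨hFp, ?_, ?_⟩, hcard⟩
  · apply le_antisymm
    · apply Cfsg.Agent.Lib.CoprimeAct.frattini_le_of_elementary (p := p)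
      · intro a' b'
        rw [hcenter]
        exact hcomm _ a'.2 _ b'.2
      · intro a'
        rw [hcenter]
        exact hpow _ a'.2
    · intro t ht
      obtain ⟨k, rfl⟩ := hcpow t ht
      exact pow_mem (Cfsg.Agent.Lib.H6PGroup.comm_mem_frattini hFp _ _) k
  · apply le_antisymm
    · show commutator F ≤ _
      rw [commutator_def, Subgroup.commutator_le]
      intro a' _ b' _
      rw [commutatorElement_def, hcenter]
      exact hcomm _ a'.2 _ b'.2
    · intro t ht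
      obtain ⟨k, rfl⟩ := hcpow t ht
      apply pow_mem
      have h1 := Subgroup.commutator_mem_commutator (mem_top (⟨a, ha⟩ : F)) (mem_top (⟨b, hb⟩ : F))
      rwa [commutatorElement_def] at h1

theorem act_decomp {G : Type*} [Group G] [Finite G] {p : ℕ} [hp : Fact p.Prime] (Z₀ : Subgroup G) (hc : Nat.card Z₀ = p)
    (hcen : ∀ z ∈ Z₀, ∀ u : G, u * z = z * u) : ∀ (n : ℕ) (G₁ E : Subgroup G), Nat.card E ≤ n → E ≤ G₁ →
      (∀ g ∈ G₁, ∀ e ∈ E, g * e * g⁻¹ * e⁻¹ ∈ Z₀) → (∀ e ∈ E, (∀ e' ∈ E, e * e' = e' * e) → e ∈ Z₀) →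
      ∀ g ∈ G₁, ∃ e ∈ E, ∀ e' ∈ E, (e⁻¹ * g) * e' = e' * (e⁻¹ * g) := by
  intro n
  induction n with
  | zero =>
    intro G₁ E hE
    have h1 := Nat.card_pos (α := E)
    omega
  | succ n ih =>
    intro G₁ E hE hEG hcomm hcenter g hg
    by_cases hab : ∀ a ∈ E, ∀ b ∈ E, a * b = b * a
    · refine ⟨1, E.one_mem, fun e' he' => ?_⟩
      have he0 := hcenter e' he' (fun b hb => hab e' he' b hb)
      simp only [inv_one, one_mul]
      exact hcen e' he0 g
    push Not at hab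
    obtain ⟨x, hx, y, hy, hxy⟩ := hab
    obtain ⟨z, hz⟩ : ∃ z, x * y * x⁻¹ * y⁻¹ = z := ⟨_, rfl⟩
    have hzZ : z ∈ Z₀ := hz ▸ hcomm x (hEG hx) y hy
    have hz1 : z ≠ 1 := by
      intro h
      apply hxy
      have e : x * y = (x * y * x⁻¹ * y⁻¹) * (y * x) := by group
      rw [e, hz, h, one_mul]
    have hzc : ∀ u : G, u * z = z * u := fun u => hcen z hzZ u
    have hpw : ∀ w ∈ Z₀, ∃ a : ℕ, w = z ^ a := by
      intro w hw
      have hz1' : (⟨z, hzZ⟩ : Z₀) ≠ 1 := fun h => hz1 (congrArg Subtype.val h)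
      have h1 := mem_zpowers_of_prime_card hc hz1' (g' := ⟨w, hw⟩)
      obtain ⟨k, hk⟩ := Cfsg.Agent.S3761.exists_nat_pow h1
      exact ⟨k, by simpa using congrArg Subtype.val hk⟩
    have hCL : ∀ h ∈ G₁, ∃ a b : ℕ, ((x ^ a * (y⁻¹) ^ b)⁻¹ * h) * x = x * ((x ^ a * (y⁻¹) ^ b)⁻¹ * h) ∧
        ((x ^ a * (y⁻¹) ^ b)⁻¹ * h) * y = y * ((x ^ a * (y⁻¹) ^ b)⁻¹ * h) := by
      intro h hh
      obtain ⟨a, ha⟩ := hpw _ (hcomm h hh y hy)
      have h1 := one_step hz hzc ha
      have hg₁G : (x ^ a)⁻¹ * h ∈ G₁ := G₁.mul_mem (G₁.inv_mem (G₁.pow_mem (hEG hx) a)) hh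
      obtain ⟨b, hb⟩ := hpw _ (hcomm _ hg₁G x hx)
      have hz' : y⁻¹ * x * (y⁻¹)⁻¹ * x⁻¹ = z := by
        have e : y⁻¹ * x * (y⁻¹)⁻¹ * x⁻¹ = y⁻¹ * (x * y * x⁻¹ * y⁻¹) * y := by group
        rw [e, hz, hzc y⁻¹]
        group
      have h2 := one_step hz' hzc hb
      have e : (x ^ a * y⁻¹ ^ b)⁻¹ * h = ((y⁻¹) ^ b)⁻¹ * ((x ^ a)⁻¹ * h) := by group
      refine ⟨a, b, ?_, ?_⟩
      · rw [e]
        exact h2
      · rw [e]
        have h3 : Commute ((y⁻¹ ^ b)⁻¹) y := (((Commute.refl y).inv_left).pow_left b).inv_left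
        have h4 : Commute ((x ^ a)⁻¹ * h) y := h1
        exact (h3.mul_left h4).eq
    let Cxy : Subgroup G := centralizer ({x, y} : Set G)
    have hmemC : ∀ u, u ∈ Cxy ↔ (u * x = x * u ∧ u * y = y * u) := by
      intro u
      rw [mem_centralizer_iff]
      constructor
      · intro h
        exact ⟨(h x (by simp)).symm, (h y (by simp)).symm⟩
      · rintro ⟨h1, h2⟩ v hv
        rcases hv with rfl | hv
        · exact h1.symm
        · rw [Set.mem_singleton_iff] at hv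
          subst hv
          exact h2.symm
    have hword : ∀ c ∈ Cxy, ∀ a b : ℕ, c * (x ^ a * (y⁻¹) ^ b) = (x ^ a * (y⁻¹) ^ b) * c := by
      intro c hc a b
      obtain ⟨h1, h2⟩ := (hmemC c).1 hc
      have h3 : Commute c x := h1
      have h4 : Commute c y := h2
      exact ((h3.pow_right a).mul_right ((h4.inv_right).pow_right b)).eq
    have hlt : Nat.card ↥(E ⊓ Cxy) ≤ n := by
      by_contra hcon
      have h5 : Nat.card E ≤ Nat.card ↥(E ⊓ Cxy) := by omega
      have h6 : E ⊓ Cxy = E := Subgroup.eq_of_le_of_card_ge inf_le_left h5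
      have h7 : x ∈ E ⊓ Cxy := by
        rw [h6]
        exact hx
      exact hxy ((hmemC x).1 h7.2).2
    have hdec : ∀ e' ∈ E, ∃ a b : ℕ, (x ^ a * (y⁻¹) ^ b)⁻¹ * e' ∈ E ⊓ Cxy := by
      intro e' he'
      obtain ⟨a, b, h1, h2⟩ := hCL e' (hEG he')
      exact ⟨a, b, E.mul_mem (E.inv_mem (E.mul_mem (E.pow_mem hx a) (E.pow_mem (E.inv_mem hy) b))) he',
        (hmemC _).2 ⟨h1, h2⟩⟩
    have hcenter₂ : ∀ e ∈ E ⊓ Cxy, (∀ e' ∈ E ⊓ Cxy, e * e' = e' * e) → e ∈ Z₀ := by
      intro e he hcomm₂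
      apply hcenter e he.1
      intro e' he'
      obtain ⟨a, b, hab⟩ := hdec e' he'
      have h1 := hcomm₂ _ hab
      have h2 := hword e he.2 a b
      calc e * e' = e * ((x ^ a * y⁻¹ ^ b) * ((x ^ a * y⁻¹ ^ b)⁻¹ * e')) := by group
        _ = (x ^ a * y⁻¹ ^ b) * (e * ((x ^ a * y⁻¹ ^ b)⁻¹ * e')) := by rw [← mul_assoc, h2, mul_assoc]
        _ = (x ^ a * y⁻¹ ^ b) * (((x ^ a * y⁻¹ ^ b)⁻¹ * e') * e) := by rw [h1]
        _ = e' * e := by group
    obtain ⟨a, b, h1, h2⟩ := hCL g hg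
    obtain ⟨d, hd⟩ : ∃ d, d = x ^ a * y⁻¹ ^ b := ⟨_, rfl⟩
    rw [← hd] at h1 h2
    have hdE : d ∈ E := hd ▸ E.mul_mem (E.pow_mem hx a) (E.pow_mem (E.inv_mem hy) b)
    have hg₂ : d⁻¹ * g ∈ G₁ ⊓ Cxy := ⟨G₁.mul_mem (G₁.inv_mem (hEG hdE)) hg, (hmemC _).2 ⟨h1, h2⟩⟩
    obtain ⟨e₂, he₂, he₂c⟩ := ih (G₁ ⊓ Cxy) (E ⊓ Cxy) hlt (inf_le_inf_right _ hEG)
      (fun u hu e he => hcomm u hu.1 e he.1) hcenter₂ _ hg₂
    refine ⟨d * e₂, E.mul_mem hdE he₂.1, fun e' he' => ?_⟩
    have e0 : (d * e₂)⁻¹ * g = e₂⁻¹ * (d⁻¹ * g) := by group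
    rw [e0]
    have hcC : e₂⁻¹ * (d⁻¹ * g) ∈ Cxy := Cxy.mul_mem (Cxy.inv_mem he₂.2) hg₂.2
    obtain ⟨a', b', hab'⟩ := hdec e' he'
    have h3 := he₂c _ hab'
    have h4 := hword _ hcC a' b'
    generalize e₂⁻¹ * (d⁻¹ * g) = c at h3 h4 ⊢
    calc c * e' = c * ((x ^ a' * y⁻¹ ^ b') * ((x ^ a' * y⁻¹ ^ b')⁻¹ * e')) := by group
      _ = (x ^ a' * y⁻¹ ^ b') * (c * ((x ^ a' * y⁻¹ ^ b')⁻¹ * e')) := by rw [← mul_assoc, h4, mul_assoc]
      _ = (x ^ a' * y⁻¹ ^ b') * (((x ^ a' * y⁻¹ ^ b')⁻¹ * e') * c) := by rw [h3]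
      _ = e' * c := by group

theorem order8 {R : Type*} [Group R] (hc : Nat.card R = 8) (hna : ¬ ∀ a b : R, a * b = b * a) :
    Nat.card (center R) = 2 ∧ (∀ a b : R, a * b * a⁻¹ * b⁻¹ ∈ center R) ∧ (∀ a : R, a ^ 2 ∈ center R) := by
  classical
  haveI hp2 : Fact (Nat.Prime 2) := ⟨Nat.prime_two⟩
  have hRp : IsPGroup 2 R := IsPGroup.of_card (n := 3) (by rw [hc]; norm_num)
  haveI : Finite R := Nat.finite_of_card_ne_zero (by omega)
  have hcyc : ¬ IsCyclic (R ⧸ center R) := by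
    intro h
    apply hna
    apply commutative_of_cyclic_center_quotient (QuotientGroup.mk' (center R))
    simp
  have hmul : Nat.card (center R) * Nat.card (R ⧸ center R) = 8 := by
    rw [← hc, mul_comm]
    exact (Subgroup.card_eq_card_quotient_mul_card_subgroup _).symm
  have hntR : Nontrivial R := by
    rw [← Finite.one_lt_card_iff_nontrivial, hc]
    omega
  have hnt : 1 < Nat.card (center R) := by
    haveI := hRp.center_nontrivial
    exact Finite.one_lt_card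
  have hq : Nat.card (R ⧸ center R) ∣ 2 ^ 3 := by
    rw [show (2 : ℕ) ^ 3 = 8 by norm_num, ← hmul]
    exact dvd_mul_left _ _
  obtain ⟨k, hk, hk2⟩ := (Nat.dvd_prime_pow Nat.prime_two).1 hq
  have hq4 : Nat.card (R ⧸ center R) = 4 := by
    interval_cases k
    · exfalso
      apply hcyc
      have h1 : Nat.card (R ⧸ center R) = 1 := by simpa using hk2
      haveI : Subsingleton (R ⧸ center R) := (Nat.card_eq_one_iff_unique.1 h1).1
      exact isCyclic_of_subsingleton
    · exfalso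
      apply hcyc
      exact isCyclic_of_prime_card (p := 2) (by simpa using hk2)
    · simpa using hk2
    · exfalso
      rw [hk2] at hmul
      omega
  have hc2 : Nat.card (center R) = 2 := by
    rw [hq4] at hmul
    omega
  refine ⟨hc2, ?_, ?_⟩
  · intro a b
    have h1 := IsPGroup.commutative_of_card_eq_prime_sq (p := 2) (G := R ⧸ center R) (by rw [hq4]; norm_num)
      (a : R ⧸ center R) (b : R ⧸ center R)
    rw [← QuotientGroup.eq_one_iff]
    simp only [QuotientGroup.mk_mul, QuotientGroup.mk_inv]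
    rw [h1]
    group
  · intro a
    rw [← QuotientGroup.eq_one_iff]
    simp only [QuotientGroup.mk_pow]
    have h1 : orderOf (a : R ⧸ center R) ∣ 2 ^ 2 := by
      have h2 := orderOf_dvd_natCard (a : R ⧸ center R)
      rwa [hq4] at h2
    obtain ⟨j, hj, hj2⟩ := (Nat.dvd_prime_pow Nat.prime_two).1 h1
    by_cases hj3 : j = 2
    · exfalso
      apply hcyc
      apply isCyclic_of_orderOf_eq_card (a : R ⧸ center R)
      rw [hq4, hj2, hj3]
      norm_num
    · have hj4 : j ≤ 1 := by omega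
      apply orderOf_dvd_iff_pow_eq_one.1
      rw [hj2]
      exact pow_dvd_pow 2 hj4

theorem exists_E {G : Type*} [Group G] [Finite G] {p : ℕ} [hp : Fact p.Prime] (hG : IsPGroup p G)
    (hsymp : ∀ A : Subgroup G, A.Characteristic → IsMulCommutative A → IsCyclic A) (K : Subgroup G) (hKc : K.Characteristic)
    (hpow : ∀ x ∈ K, x ^ p ∈ zc K) (hcomm : ⁅K, (⊤ : Subgroup G)⁆ ≤ zc K) (hC : centralizer (K : Set G) ≤ K)
    (hna : ∃ x ∈ K, ∃ y ∈ K, x * y ≠ y * x) :
    ∃ E : Subgroup G, E ≤ K ∧ (∀ k ∈ K, ∃ e ∈ E, ∃ z ∈ zc K, k = e * z) ∧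
      (∀ g, ∃ e ∈ E, ∀ e' ∈ E, (e⁻¹ * g) * e' = e' * (e⁻¹ * g)) ∧ Cfsg.IsExtraspecial p ↥E ∧
      (∀ e ∈ E, (∀ e' ∈ E, e * e' = e' * e) → (e ∈ zc K ∧ ∀ g, g * e = e * g)) ∧
      (∀ a ∈ E, ∀ b ∈ E, a * b * a⁻¹ * b⁻¹ ∈ zc K ∧ ∀ g, g * (a * b * a⁻¹ * b⁻¹) = (a * b * a⁻¹ * b⁻¹) * g) ∧
      (∀ e ∈ E, e ^ p ∈ zc K ∧ ∀ g, g * e ^ p = e ^ p * g) ∧ (∀ e ∈ E, (e ^ p) ^ p = 1) ∧
      (p ≠ 2 → Nat.card (zc K) ≠ p → ∀ e ∈ E, e ^ p = 1) := by
  classical
  have hpp := hp.out
  haveI hKn : K.Normal := normal_of_characteristic K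
  have hZc : (zc K).Characteristic := inf_char K _ hKc (cent_char K hKc)
  haveI hZn : (zc K).Normal := normal_of_characteristic _
  have hZcen : ∀ z ∈ zc K, ∀ k ∈ K, k * z = z * k := fun z hz k hk => mem_centralizer_iff.1 hz.2 k hk
  have hZK : zc K ≤ K := inf_le_left
  have hZab : IsMulCommutative (zc K) :=
    ⟨⟨fun a b => Subtype.ext (hZcen _ b.2 _ (hZK a.2))⟩⟩
  haveI hZcyc : IsCyclic (zc K) := hsymp _ hZc hZab
  obtain ⟨n, hn⟩ := IsPGroup.iff_card.1 (hG.to_subgroup (zc K))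
  have hcm : ∀ a ∈ K, ∀ g : G, a * g * a⁻¹ * g⁻¹ ∈ zc K := by
    intro a ha g
    have h1 := hcomm (Subgroup.commutator_mem_commutator ha (mem_top g))
    rwa [commutatorElement_def] at h1
  have hcm' : ∀ a ∈ K, ∀ g : G, g * a * g⁻¹ * a⁻¹ ∈ zc K := by
    intro a ha g
    have h1 := (zc K).inv_mem (hcm a ha g)
    have e : (a * g * a⁻¹ * g⁻¹)⁻¹ = g * a * g⁻¹ * a⁻¹ := by group
    rwa [e] at h1
  have hcp : ∀ a ∈ K, ∀ b ∈ K, (a * b * a⁻¹ * b⁻¹) ^ p = 1 := by
    intro a ha b hb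
    have hcZ : a * b * a⁻¹ * b⁻¹ ∈ zc K := hcm a ha b
    have h0 : a * b * a⁻¹ = (a * b * a⁻¹ * b⁻¹) * b := by group
    have h1 := pow_conj h0 (hZcen _ hcZ a ha) p
    have h2 : a ^ p * b * (a ^ p)⁻¹ = b := by
      rw [← hZcen _ (hpow a ha) b hb]
      group
    rw [h2] at h1
    exact mul_right_cancel (by rw [one_mul]; exact h1.symm : (a * b * a⁻¹ * b⁻¹) ^ p * b = 1 * b)
  have hcG : ∀ a ∈ K, ∀ b ∈ K, ∀ g : G, g * (a * b * a⁻¹ * b⁻¹) = (a * b * a⁻¹ * b⁻¹) * g := by
    intro a ha b hb g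
    have hc₁ := hcm' a ha g
    have hc₂ := hcm' b hb g
    have h3 : g * (a * b * a⁻¹ * b⁻¹) * g⁻¹ =
        (g * a * g⁻¹) * (g * b * g⁻¹) * (g * a * g⁻¹)⁻¹ * (g * b * g⁻¹)⁻¹ := by group
    have ha' : g * a * g⁻¹ = (g * a * g⁻¹ * a⁻¹) * a := by group
    have hb' : g * b * g⁻¹ = (g * b * g⁻¹ * b⁻¹) * b := by group
    generalize g * a * g⁻¹ * a⁻¹ = c₁ at hc₁ ha'
    generalize g * b * g⁻¹ * b⁻¹ = c₂ at hc₂ hb'
    rw [ha', hb', comm_central (hZcen c₁ hc₁ a ha).symm (hZcen c₁ hc₁ b hb).symm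
      (hZcen c₁ hc₁ c₂ (hZK hc₂)).symm (hZcen c₂ hc₂ a ha).symm (hZcen c₂ hc₂ b hb).symm] at h3
    exact mul_inv_eq_iff_eq_mul.1 h3
  obtain ⟨x₀, hx₀, y₀, hy₀, hxy₀⟩ := hna
  obtain ⟨w, hw⟩ : ∃ w, x₀ * y₀ * x₀⁻¹ * y₀⁻¹ = w := ⟨_, rfl⟩
  have hw1 : w ≠ 1 := by
    intro h
    apply hxy₀
    have e : x₀ * y₀ = (x₀ * y₀ * x₀⁻¹ * y₀⁻¹) * (y₀ * x₀) := by group
    rw [e, hw, h, one_mul]
  have hwZ : w ∈ zc K := hw ▸ hcm x₀ hx₀ y₀
  have hwp : w ^ p = 1 := hw ▸ hcp x₀ hx₀ y₀ hy₀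
  have hwG : ∀ g : G, g * w = w * g := fun g => hw ▸ hcG x₀ hx₀ y₀ hy₀ g
  have hZ₀card : Nat.card (zpowers w) = p := by
    rw [Nat.card_zpowers]
    exact orderOf_eq_prime hwp hw1
  have hZ₀Z : zpowers w ≤ zc K := zpowers_le.2 hwZ
  have hZ₀c : ∀ z ∈ zpowers w, ∀ u : G, u * z = z * u := by
    intro z hz u
    obtain ⟨k, rfl⟩ := mem_zpowers_iff.1 hz
    exact ((show Commute u w from hwG u).zpow_right k).eq
  have hZ₀all : ∀ v ∈ zc K, v ^ p = 1 → v ∈ zpowers w := by
    intro v hv hvp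
    obtain ⟨t, ht⟩ := cy_prime (A := zc K) ⟨v, hv⟩ ⟨w, hwZ⟩ (Subtype.ext (by simpa using hvp))
      (Subtype.ext (by simpa using hwp)) (fun h => hw1 (congrArg Subtype.val h))
    have h1 : v = w ^ t := by simpa using congrArg Subtype.val ht
    rw [h1]
    exact npow_mem_zpowers w t
  have hm4 : ∀ E : Subgroup G, E ≤ K → E ⊓ zc K ≤ zpowers w → ∀ g : G, ∀ e ∈ E, g * e * g⁻¹ * e⁻¹ ∈ zpowers w := by
    intro E hE hEZ₀ g e he
    have hcZ := hcm' e (hE he) g
    have hep : e ^ p ∈ zpowers w := hEZ₀ ⟨E.pow_mem he p, hpow e (hE he)⟩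
    have h1 : g * e * g⁻¹ = (g * e * g⁻¹ * e⁻¹) * e := by group
    have h2 : (g * e * g⁻¹) ^ p = g * e ^ p * g⁻¹ := conj_pow
    have h3 : g * e ^ p * g⁻¹ = e ^ p := by
      rw [hZ₀c _ hep g]
      group
    generalize g * e * g⁻¹ * e⁻¹ = c at hcZ h1
    have h4 : (c * e) ^ p = c ^ p * e ^ p := (show Commute c e from (hZcen c hcZ e (hE he)).symm).mul_pow p
    have h5 : c ^ p * e ^ p = e ^ p := by rw [← h4, ← h1, h2, h3]
    have h6 : c ^ p = 1 := by simpa using h5
    exact hZ₀all c hcZ h6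
  have key : ∀ E : Subgroup G, E ≤ K → (∀ k ∈ K, ∃ e ∈ E, ∃ z ∈ zc K, k = e * z) → zpowers w ≤ E →
      E ⊓ zc K ≤ zpowers w →
      (∀ g, ∃ e ∈ E, ∀ e' ∈ E, (e⁻¹ * g) * e' = e' * (e⁻¹ * g)) ∧ Cfsg.IsExtraspecial p ↥E ∧
      (∀ e ∈ E, (∀ e' ∈ E, e * e' = e' * e) → (e ∈ zc K ∧ ∀ g, g * e = e * g)) ∧
      (∀ a ∈ E, ∀ b ∈ E, a * b * a⁻¹ * b⁻¹ ∈ zc K ∧ ∀ g, g * (a * b * a⁻¹ * b⁻¹) = (a * b * a⁻¹ * b⁻¹) * g) ∧
      (∀ e ∈ E, e ^ p ∈ zc K ∧ ∀ g, g * e ^ p = e ^ p * g) ∧ (∀ e ∈ E, (e ^ p) ^ p = 1) := by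
    intro E hE hEZ hZ₀E hEZ₀
    have hcen : ∀ e ∈ E, (∀ e' ∈ E, e * e' = e' * e) → e ∈ zpowers w := by
      intro e he hcomm'
      apply hEZ₀
      refine ⟨he, hE he, mem_centralizer_iff.2 fun k hk => ?_⟩
      obtain ⟨e', he', z, hz, rfl⟩ := hEZ k hk
      calc e' * z * e = e' * (z * e) := by group
        _ = e' * (e * z) := by rw [hZcen z hz e (hE he)]
        _ = (e' * e) * z := by group
        _ = (e * e') * z := by rw [hcomm' e' he']
        _ = e * (e' * z) := by group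
    have hpowE : ∀ e ∈ E, e ^ p ∈ zpowers w := fun e he => hEZ₀ ⟨E.pow_mem he p, hpow e (hE he)⟩
    have hm := hm4 E hE hEZ₀
    refine ⟨fun g => act_decomp (zpowers w) hZ₀card hZ₀c (Nat.card E) ⊤ E le_rfl le_top
        (fun g _ e he => hm g e he) hcen g (mem_top g), ?_, ?_, ?_, ?_, ?_⟩
    · refine es_of hG E (zpowers w) hZ₀E hZ₀card (fun y hy f _ => hZ₀c y hy f) hcen
        (fun a ha b hb => hm a b hb) hpowE ?_
      obtain ⟨e₁, he₁, z₁, hz₁, h1⟩ := hEZ x₀ hx₀
      obtain ⟨e₂, he₂, z₂, hz₂, h2⟩ := hEZ y₀ hy₀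
      refine ⟨e₁, he₁, e₂, he₂, fun h => hxy₀ ?_⟩
      rw [h1, h2]
      have h3 := hZcen z₁ hz₁ e₂ (hE he₂)
      have h4 := hZcen z₂ hz₂ e₁ (hE he₁)
      have h5 := hZcen z₁ hz₁ z₂ (hZK hz₂)
      calc e₁ * z₁ * (e₂ * z₂) = e₁ * (z₁ * e₂) * z₂ := by group
        _ = e₁ * e₂ * (z₁ * z₂) := by rw [← h3]; group
        _ = e₂ * e₁ * (z₂ * z₁) := by rw [h, ← h5]
        _ = e₂ * (e₁ * z₂) * z₁ := by group
        _ = e₂ * z₂ * (e₁ * z₁) := by rw [h4]; group
    · intro e he h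
      have h1 := hcen e he h
      exact ⟨hZ₀Z h1, fun g => hZ₀c e h1 g⟩
    · intro a ha b hb
      have h1 := hm a b hb
      exact ⟨hZ₀Z h1, fun g => hZ₀c _ h1 g⟩
    · intro e he
      have h1 := hpowE e he
      exact ⟨hZ₀Z h1, fun g => hZ₀c _ h1 g⟩
    · intro e he
      have h1 := hpowE e he
      obtain ⟨k, hk⟩ := mem_zpowers_iff.1 h1
      rw [← hk, ← zpow_natCast, ← zpow_mul, mul_comm, zpow_mul, zpow_natCast, hwp, one_zpow]
  by_cases hZp : Nat.card (zc K) = p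
  · have hZeq : zpowers w = zc K := Subgroup.eq_of_le_of_card_ge hZ₀Z (by rw [hZ₀card, hZp])
    obtain ⟨h1, h2, h3, h4, h5, h6⟩ := key K le_rfl (fun k hk => ⟨k, hk, 1, (zc K).one_mem, by simp⟩)
      (hZ₀Z.trans hZK) (by rw [hZeq]; exact inf_le_right)
    exact ⟨K, le_rfl, fun k hk => ⟨k, hk, 1, (zc K).one_mem, by simp⟩, h1, h2, h3, h4, h5, h6,
      fun _ h => absurd hZp h⟩
  -- the second case
  have hn2 : 2 ≤ n := by
    by_contra hcon
    have hn01 : n = 0 ∨ n = 1 := by omega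
    rcases hn01 with h | h
    · subst h
      have h1 : Nat.card (zc K) = 1 := by simpa using hn
      haveI : Subsingleton (zc K) := (Nat.card_eq_one_iff_unique.1 h1).1
      have h2 : (⟨w, hwZ⟩ : zc K) = 1 := Subsingleton.elim _ _
      exact hw1 (congrArg Subtype.val h2)
    · subst h
      exact hZp (by simpa using hn)
  have hroot : ∀ v ∈ zc K, v ^ p = 1 → ∃ u ∈ zc K, v = u ^ p := by
    intro v hv hvp
    obtain ⟨u, hu⟩ := cy_root (A := zc K) (k := 1) hn (by omega) ⟨v, hv⟩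
      (Subtype.ext (by simpa using hvp))
    exact ⟨u, u.2, by simpa using congrArg Subtype.val hu⟩
  have hfm : ∀ a ∈ K, ∀ b ∈ K, ∃ u ∈ zc K, (a * b) ^ p = a ^ p * b ^ p * u ^ p := by
    intro a ha b hb
    have hcZ := hcm b hb a
    have hcP := hcp b hb a ha
    have hf := pow_formula (x := a) (y := b) (c := b * a * b⁻¹ * a⁻¹) (by group)
      (hZcen _ hcZ a ha).symm (hZcen _ hcZ b hb).symm p
    generalize b * a * b⁻¹ * a⁻¹ = c at hcZ hcP hf
    obtain ⟨u, hu, hu2⟩ := hroot (c ^ p.choose 2) ((zc K).pow_mem hcZ _)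
      (by rw [← pow_mul, mul_comm, pow_mul, hcP, one_pow])
    exact ⟨u, hu, by rw [hf, hu2]⟩
  let K₀ : Subgroup G :=
    { carrier := {x | x ∈ K ∧ ∃ z ∈ zc K, x ^ p = z ^ p}
      mul_mem' := by
        rintro a b ⟨ha, z₁, hz₁, h1⟩ ⟨hb, z₂, hz₂, h2⟩
        refine ⟨K.mul_mem ha hb, ?_⟩
        obtain ⟨u, hu, h3⟩ := hfm a ha b hb
        refine ⟨z₁ * z₂ * u, (zc K).mul_mem ((zc K).mul_mem hz₁ hz₂) hu, ?_⟩
        have c1 : Commute z₁ z₂ := (hZcen z₁ hz₁ z₂ (hZK hz₂)).symm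
        have c2 : Commute (z₁ * z₂) u :=
          ((show Commute z₁ u from (hZcen z₁ hz₁ u (hZK hu)).symm).mul_left
            (show Commute z₂ u from (hZcen z₂ hz₂ u (hZK hu)).symm))
        rw [h3, h1, h2, c2.mul_pow, c1.mul_pow]
      one_mem' := ⟨K.one_mem, 1, (zc K).one_mem, rfl⟩
      inv_mem' := by
        rintro a ⟨ha, z, hz, h⟩
        exact ⟨K.inv_mem ha, z⁻¹, (zc K).inv_mem hz, by rw [inv_pow, inv_pow, h]⟩ }
  have hK₀mem : ∀ x, x ∈ K₀ ↔ (x ∈ K ∧ ∃ z ∈ zc K, x ^ p = z ^ p) := fun x => Iff.rfl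
  have hK₀K : K₀ ≤ K := fun x hx => hx.1
  have hZK₀ : zc K ≤ K₀ := fun z hz => ⟨hZK hz, z, hz, rfl⟩
  have hK₀c : K₀.Characteristic := by
    refine characteristic_iff_le_comap.2 fun φ x hx => ?_
    obtain ⟨h1, z, hz, h2⟩ := hx
    refine ⟨characteristic_iff_le_comap.1 hKc φ h1, φ z, characteristic_iff_le_comap.1 hZc φ hz, ?_⟩
    show (φ x) ^ p = (φ z) ^ p
    rw [← map_pow, ← map_pow, h2]
  have hLK₀ : omegaOne p K ≤ K₀ := by
    refine (closure_le _).2 ?_
    rintro x ⟨hx, hxp⟩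
    exact ⟨hx, 1, (zc K).one_mem, by rw [hxp, one_pow]⟩
  have hZ₀L : zpowers w ≤ omegaOne p K :=
    zpowers_le.2 (subset_closure ⟨hZK hwZ, hwp⟩)
  -- the maximal subgroup
  have hne : ({E : Subgroup G | E ≤ omegaOne p K ∧ E ⊓ zc K ≤ zpowers w}).Nonempty := ⟨⊥, bot_le, by simp⟩
  obtain ⟨E, hE⟩ := ({E : Subgroup G | E ≤ omegaOne p K ∧ E ⊓ zc K ≤ zpowers w}).toFinite.exists_maximal hne
  obtain ⟨hEL, hEZ₀⟩ := hE.prop
  have hEK : E ≤ K := hEL.trans (hLK₀.trans hK₀K)
  haveI hZ₀n : (zpowers w).Normal := ⟨fun z hz g => by rw [hZ₀c z hz g]; simpa using hz⟩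
  have hZ₀E : zpowers w ≤ E := by
    have h1 : E ⊔ zpowers w ∈ {E : Subgroup G | E ≤ omegaOne p K ∧ E ⊓ zc K ≤ zpowers w} := by
      refine ⟨sup_le hEL hZ₀L, ?_⟩
      rintro t ⟨ht1, ht2⟩
      have ht3 : t ∈ ((E ⊔ zpowers w : Subgroup G) : Set G) := ht1
      rw [mul_normal] at ht3
      obtain ⟨e, he, v, hv, rfl⟩ := Set.mem_mul.1 ht3
      have hvZ := hZ₀Z hv
      have heZ : e ∈ zc K := by
        have h2 := (zc K).mul_mem ht2 ((zc K).inv_mem hvZ)
        simpa using h2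
      exact (zpowers w).mul_mem (hEZ₀ ⟨he, heZ⟩) hv
    exact le_sup_right.trans (hE.2 h1 le_sup_left)
  have hgen : ∀ l, l ∈ K → l ^ p = 1 → l ∈ E ⊔ zc K := by
    intro l hl hlp
    by_contra hcon
    have hl1 : l ≠ 1 := by
      rintro rfl
      exact hcon (one_mem _)
    have hnorm : zpowers l ≤ normalizer (E : Set G) := by
      refine zpowers_le.2 (mem_normalizer_iff.2 fun h => ?_)
      constructor
      · intro hh
        have h1 : (l * h * l⁻¹ * h⁻¹) ∈ zpowers w :=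
          hZ₀all _ (hcm l hl h) (hcp l hl h (hEK hh))
        have h2 := E.mul_mem (hZ₀E h1) hh
        simpa using h2
      · intro hh
        have h1 : (l⁻¹ * (l * h * l⁻¹) * (l⁻¹)⁻¹ * (l * h * l⁻¹)⁻¹) ∈ zpowers w :=
          hZ₀all _ (hcm _ (K.inv_mem hl) _) (hcp _ (K.inv_mem hl) _ (hEK hh))
        have h2 := E.mul_mem (hZ₀E h1) hh
        have e : l⁻¹ * (l * h * l⁻¹) * (l⁻¹)⁻¹ * (l * h * l⁻¹)⁻¹ * (l * h * l⁻¹) = h := by group
        rwa [e] at h2
    have h1 : E ⊔ zpowers l ∈ {E : Subgroup G | E ≤ omegaOne p K ∧ E ⊓ zc K ≤ zpowers w} := by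
      refine ⟨sup_le hEL (zpowers_le.2 (subset_closure ⟨hl, hlp⟩)), ?_⟩
      rintro t ⟨ht1, ht2⟩
      have ht3 : t ∈ ((E ⊔ zpowers l : Subgroup G) : Set G) := ht1
      rw [Subgroup.coe_mul_of_right_le_normalizer_left E (zpowers l) hnorm] at ht3
      obtain ⟨e, he, u, hu, rfl⟩ := Set.mem_mul.1 ht3
      by_cases hu1 : u = 1
      · subst hu1
        rw [mul_one] at ht2 ⊢
        exact hEZ₀ ⟨he, ht2⟩
      exfalso
      apply hcon
      have hcard : Nat.card (zpowers l) = p := by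
        rw [Nat.card_zpowers]
        exact orderOf_eq_prime hlp hl1
      have hu' : (⟨u, hu⟩ : zpowers l) ≠ 1 := fun h => hu1 (congrArg Subtype.val h)
      have h2 := mem_zpowers_of_prime_card hcard hu' (g' := ⟨l, mem_zpowers l⟩)
      obtain ⟨k, hk⟩ := Cfsg.Agent.S3761.exists_nat_pow h2
      have h3 : l = u ^ k := by simpa using congrArg Subtype.val hk
      rw [h3]
      apply pow_mem
      have h4 : u = e⁻¹ * (e * u) := by group
      rw [h4]
      exact mul_mem_sup (E.inv_mem he) ht2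
    exact hcon ((hE.2 h1 le_sup_left) (mem_sup_right (mem_zpowers l)) |> fun h => mem_sup_left h)
  have hdec : ∀ k ∈ K₀, ∃ e ∈ E, ∃ z ∈ zc K, k = e * z := by
    rintro k ⟨hk, z₁, hz₁, h1⟩
    have hlp : (k * z₁⁻¹) ^ p = 1 := by
      have c1 : Commute k z₁⁻¹ := (show Commute k z₁ from hZcen z₁ hz₁ k hk).inv_right
      rw [c1.mul_pow, h1, inv_pow, mul_inv_cancel]
    have h2 : k * z₁⁻¹ ∈ ((E ⊔ zc K : Subgroup G) : Set G) :=
      hgen _ (K.mul_mem hk (K.inv_mem (hZK hz₁))) hlp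
    rw [mul_normal] at h2
    obtain ⟨e, he, z₂, hz₂, h3⟩ := Set.mem_mul.1 h2
    refine ⟨e, he, z₂ * z₁, (zc K).mul_mem hz₂ hz₁, ?_⟩
    rw [← mul_assoc, h3]
    group
  have hK₀eq : K₀ = K := by
    by_contra hK₀ne
    obtain ⟨c₀, hc₀, hc₀n⟩ : ∃ c₀ ∈ K, c₀ ∉ K₀ := by
      by_contra hcon
      push Not at hcon
      exact hK₀ne (le_antisymm hK₀K hcon)
    -- some element central in K₀ lies outside the centre of K
    obtain ⟨y₁, hy₁, hy₁c, hy₁Z⟩ : ∃ y₁ ∈ K₀, (∀ t ∈ K₀, y₁ * t = t * y₁) ∧ y₁ ∉ zc K := by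
      by_contra hcon
      push Not at hcon
      have hcen : ∀ e ∈ E, (∀ e' ∈ E, e * e' = e' * e) → e ∈ zpowers w := by
        intro e he hcomm'
        have heK₀ : e ∈ K₀ := hLK₀ (hEL he)
        apply hEZ₀
        refine ⟨he, hcon e heK₀ (fun t ht => ?_)⟩
        obtain ⟨e', he', z, hz, rfl⟩ := hdec t ht
        have h1 := hZcen z hz e (hEK he)
        calc e * (e' * z) = (e * e') * z := by group
          _ = (e' * e) * z := by rw [hcomm' e' he']
          _ = e' * (e * z) := by group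
          _ = e' * (z * e) := by rw [h1]
          _ = e' * z * e := by group
      obtain ⟨e, he, hec⟩ := act_decomp (zpowers w) hZ₀card hZ₀c (Nat.card E) ⊤ E le_rfl le_top
        (fun g _ e he => hm4 E hEK hEZ₀ g e he) hcen c₀ (mem_top c₀)
      have hcK : e⁻¹ * c₀ ∈ K := K.mul_mem (K.inv_mem (hEK he)) hc₀
      have hcn : e⁻¹ * c₀ ∉ K₀ := by
        intro h
        apply hc₀n
        have h2 := K₀.mul_mem (hLK₀ (hEL he)) h
        simpa using h2
      generalize hcdef : e⁻¹ * c₀ = c at hec hcK hcn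
      have hcK₀ : ∀ t ∈ K₀, c * t = t * c := by
        intro t ht
        obtain ⟨e', he', z, hz, rfl⟩ := hdec t ht
        have h1 := hZcen z hz c hcK
        calc c * (e' * z) = (c * e') * z := by group
          _ = (e' * c) * z := by rw [hec e' he']
          _ = e' * (c * z) := by group
          _ = e' * (z * c) := by rw [h1]
          _ = e' * z * c := by group
      -- c is central in K
      have hnp : ∀ u : zc K, (⟨c ^ p, hpow c hcK⟩ : zc K) ≠ u ^ p := by
        intro u hu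
        apply hcn
        exact ⟨hcK, u, u.2, by simpa using congrArg Subtype.val hu⟩
      have hcK' : ∀ k ∈ K, k * c = c * k := by
        intro k hk
        obtain ⟨t, ht⟩ := cy_gen hn ⟨c ^ p, hpow c hcK⟩ hnp ⟨k ^ p, hpow k hk⟩
        have ht' : k ^ p = (c ^ p) ^ t := by simpa using congrArg Subtype.val ht
        have hct : (c ^ t)⁻¹ ∈ K := K.inv_mem (K.pow_mem hcK t)
        obtain ⟨u, hu, h3⟩ := hfm k hk _ hct
        have hk₀ : k * (c ^ t)⁻¹ ∈ K₀ := by
          refine ⟨K.mul_mem hk hct, u, hu, ?_⟩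
          rw [h3, inv_pow, ht', ← pow_mul, ← pow_mul, mul_comm p t, mul_inv_cancel, one_mul]
        have h4 := hcK₀ _ hk₀
        have hcomm₁ : c * c ^ t = c ^ t * c := ((Commute.refl c).pow_right t).eq
        calc k * c = (k * (c ^ t)⁻¹) * (c ^ t * c) := by group
          _ = (k * (c ^ t)⁻¹) * (c * c ^ t) := by rw [hcomm₁]
          _ = ((k * (c ^ t)⁻¹) * c) * c ^ t := by group
          _ = (c * (k * (c ^ t)⁻¹)) * c ^ t := by rw [h4]
          _ = c * k := by group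
      have hcZ : c ∈ zc K := ⟨hcK, mem_centralizer_iff.2 hcK'⟩
      exact hcn (hZK₀ hcZ)
    -- now the abelian characteristic subgroup Z(K₀)
    obtain ⟨hy₁K, z₁, hz₁, hy₁p⟩ := hy₁
    have hl : y₁ * z₁⁻¹ ∈ K₀ := K₀.mul_mem ⟨hy₁K, z₁, hz₁, hy₁p⟩ (K₀.inv_mem (hZK₀ hz₁))
    have hlp : (y₁ * z₁⁻¹) ^ p = 1 := by
      have c1 : Commute y₁ z₁⁻¹ := (show Commute y₁ z₁ from hZcen z₁ hz₁ y₁ hy₁K).inv_right
      rw [c1.mul_pow, hy₁p, inv_pow, mul_inv_cancel]
    have hlc : ∀ t ∈ K₀, t * (y₁ * z₁⁻¹) = (y₁ * z₁⁻¹) * t := by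
      intro t ht
      have h1 := hy₁c t ht
      have h2 := hZcen z₁ hz₁ t (hK₀K ht)
      have h3 : t * z₁⁻¹ = z₁⁻¹ * t := (show Commute t z₁ from h2).inv_right.eq
      calc t * (y₁ * z₁⁻¹) = (t * y₁) * z₁⁻¹ := by group
        _ = (y₁ * t) * z₁⁻¹ := by rw [h1]
        _ = y₁ * (t * z₁⁻¹) := by group
        _ = y₁ * (z₁⁻¹ * t) := by rw [h3]
        _ = _ := by group
    have hWc : (K₀ ⊓ centralizer (K₀ : Set G)).Characteristic := inf_char _ _ hK₀c (cent_char _ hK₀c)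
    have hWab : IsMulCommutative ↥(K₀ ⊓ centralizer (K₀ : Set G)) :=
      ⟨⟨fun a b => Subtype.ext (mem_centralizer_iff.1 b.2.2 _ a.2.1)⟩⟩
    haveI hWcyc : IsCyclic ↥(K₀ ⊓ centralizer (K₀ : Set G)) := hsymp _ hWc hWab
    have hlW : y₁ * z₁⁻¹ ∈ K₀ ⊓ centralizer (K₀ : Set G) := ⟨hl, mem_centralizer_iff.2 hlc⟩
    have hwW : w ∈ K₀ ⊓ centralizer (K₀ : Set G) :=
      ⟨hZK₀ hwZ, mem_centralizer_iff.2 fun t ht => hZcen w hwZ t (hK₀K ht)⟩
    obtain ⟨t, ht⟩ := cy_prime (A := ↥(K₀ ⊓ centralizer (K₀ : Set G))) ⟨_, hlW⟩ ⟨w, hwW⟩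
      (Subtype.ext (by simpa using hlp)) (Subtype.ext (by simpa using hwp))
      (fun h => hw1 (congrArg Subtype.val h))
    have h5 : y₁ * z₁⁻¹ = w ^ t := by simpa using congrArg Subtype.val ht
    apply hy₁Z
    have h6 : y₁ = w ^ t * z₁ := by
      rw [← h5]
      group
    rw [h6]
    exact (zc K).mul_mem ((zc K).pow_mem hwZ t) hz₁
  rw [hK₀eq] at hdec
  obtain ⟨h1, h2, h3, h4, h5, h6⟩ := key E hEK hdec hZ₀E hEZ₀
  refine ⟨E, hEK, hdec, h1, h2, h3, h4, h5, h6, fun hp2 _ => ?_⟩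
  -- odd primes: the elements of order dividing p form a subgroup
  have hL : ∀ x ∈ omegaOne p K, x ∈ K ∧ x ^ p = 1 := by
    intro x hx
    induction hx using closure_induction with
    | mem x hx => exact hx
    | one => exact ⟨K.one_mem, one_pow p⟩
    | mul a b _ _ ha hb =>
      refine ⟨K.mul_mem ha.1 hb.1, ?_⟩
      have hcZ := hcm b hb.1 a
      have hcP := hcp b hb.1 a ha.1
      have hf := pow_formula (x := a) (y := b) (c := b * a * b⁻¹ * a⁻¹) (by group)
        (hZcen _ hcZ a ha.1).symm (hZcen _ hcZ b hb.1).symm p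
      rw [hf, ha.2, hb.2, one_mul, one_mul]
      have hp2' : 2 < p := by
        have := hpp.two_le
        omega
      obtain ⟨m, hm⟩ := Nat.Prime.dvd_choose_self hpp (k := 2) (by norm_num) hp2'
      rw [hm, pow_mul, hcP, one_pow]
    | inv a _ ha => exact ⟨K.inv_mem ha.1, by rw [inv_pow, ha.2, inv_one]⟩
  exact fun e he => (hL e (hEL he)).2

theorem mem_cent_closure {G : Type*} [Group G] {S : Set G} {r : G} (h : ∀ s ∈ S, s * r = r * s) :
    ∀ x ∈ closure S, x * r = r * x := by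
  intro x hx
  induction hx using closure_induction with
  | mem x hx => exact h x hx
  | one => simp
  | mul a b _ _ ha hb =>
    calc a * b * r = a * (b * r) := by group
      _ = a * (r * b) := by rw [hb]
      _ = (a * r) * b := by group
      _ = (r * a) * b := by rw [ha]
      _ = r * (a * b) := by group
  | inv a _ ha => exact ((show Commute a r from ha).inv_left).eq

theorem cyc_comm {A : Type*} [Group A] [IsCyclic A] (a b : A) : a * b = b * a := by
  obtain ⟨g, hg⟩ := IsCyclic.exists_generator (α := A)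
  obtain ⟨i, hi⟩ := mem_zpowers_iff.1 (hg a)
  obtain ⟨j, hj⟩ := mem_zpowers_iff.1 (hg b)
  rw [← hi, ← hj, ← zpow_add, ← zpow_add, add_comm]

theorem final {G : Type*} [Group G] [Finite G] {p : ℕ} [hp : Fact p.Prime] (hG : IsPGroup p G)
    (hsymp : ∀ A : Subgroup G, A.Characteristic → IsMulCommutative A → IsCyclic A) (K : Subgroup G) (hKc : K.Characteristic)
    (hC : centralizer (K : Set G) ≤ K) (E : Subgroup G) (hEK : E ≤ K)
    (hEZ : ∀ k ∈ K, ∃ e ∈ E, ∃ z ∈ zc K, k = e * z)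
    (hGE : ∀ g, ∃ e ∈ E, ∀ e' ∈ E, (e⁻¹ * g) * e' = e' * (e⁻¹ * g))
    (hES : E = ⊥ ∨ Cfsg.IsExtraspecial p ↥E)
    (hEcen : ∀ e ∈ E, (∀ e' ∈ E, e * e' = e' * e) → (e ∈ zc K ∧ ∀ g, g * e = e * g))
    (hEcomm : ∀ a ∈ E, ∀ b ∈ E, a * b * a⁻¹ * b⁻¹ ∈ zc K ∧ ∀ g, g * (a * b * a⁻¹ * b⁻¹) = (a * b * a⁻¹ * b⁻¹) * g)
    (hEpow : ∀ e ∈ E, e ^ p ∈ zc K ∧ ∀ g, g * e ^ p = e ^ p * g) (hEsq : ∀ e ∈ E, (e ^ p) ^ p = 1)
    (hOdd : p ≠ 2 → Nat.card (zc K) ≠ p → ∀ e ∈ E, e ^ p = 1) :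
    ∃ E R : Subgroup G, (∀ e ∈ E, ∀ r ∈ R, e * r = r * e) ∧ E ⊔ R = ⊤ ∧ (E = ⊥ ∨ Cfsg.IsExtraspecial p ↥E) ∧
      (IsCyclic R ∨ (p = 2 ∧ 16 ≤ Nat.card R ∧ ((∃ m : ℕ, Nonempty (↥R ≃* DihedralGroup m)) ∨
        (∃ m : ℕ, Nonempty (↥R ≃* QuaternionGroup m)) ∨ Cfsg.IsQuasiDihedral ↥R))) := by
  classical
  have hpp := hp.out
  have hZc : (zc K).Characteristic := inf_char K _ hKc (cent_char K hKc)
  haveI hZn : (zc K).Normal := normal_of_characteristic _
  have hZcen : ∀ z ∈ zc K, ∀ k ∈ K, k * z = z * k := fun z hz k hk => mem_centralizer_iff.1 hz.2 k hk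
  have hZK : zc K ≤ K := inf_le_left
  have hZab : IsMulCommutative (zc K) := ⟨⟨fun a b => Subtype.ext (hZcen _ b.2 _ (hZK a.2))⟩⟩
  haveI hZcyc : IsCyclic (zc K) := hsymp _ hZc hZab
  obtain ⟨n, hn⟩ := IsPGroup.iff_card.1 (hG.to_subgroup (zc K))
  obtain ⟨R, hR⟩ : ∃ R : Subgroup G, R = centralizer (E : Set G) := ⟨_, rfl⟩
  have hRmem : ∀ r, r ∈ R ↔ ∀ e ∈ E, e * r = r * e := by
    intro r
    rw [hR, mem_centralizer_iff]
    exact Iff.rfl
  have hZR : zc K ≤ R := fun z hz => (hRmem z).2 fun e he => hZcen z hz e (hEK he)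
  have hcommE : ∀ e ∈ E, ∀ r ∈ R, e * r = r * e := fun e he r hr => (hRmem r).1 hr e he
  have hdecG : ∀ g, ∃ e ∈ E, ∃ r ∈ R, g = e * r := by
    intro g
    obtain ⟨e, he, h⟩ := hGE g
    exact ⟨e, he, e⁻¹ * g, (hRmem _).2 fun e' he' => (h e' he').symm, by group⟩
  have hsup : E ⊔ R = ⊤ := by
    rw [eq_top_iff]
    intro g _
    obtain ⟨e, he, r, hr, rfl⟩ := hdecG g
    exact mul_mem_sup he hr
  have hCR : ∀ r ∈ R, (∀ z ∈ zc K, r * z = z * r) → r ∈ zc K := by
    intro r hr h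
    have h1 : r ∈ centralizer (K : Set G) := by
      refine mem_centralizer_iff.2 fun k hk => ?_
      obtain ⟨e, he, z, hz, rfl⟩ := hEZ k hk
      calc e * z * r = e * (z * r) := by group
        _ = e * (r * z) := by rw [h z hz]
        _ = (e * r) * z := by group
        _ = (r * e) * z := by rw [hcommE e he r hr]
        _ = r * (e * z) := by group
    exact ⟨hC h1, h1⟩
  by_cases hRab : ∀ a ∈ R, ∀ b ∈ R, a * b = b * a
  · have hRZ : R = zc K := le_antisymm (fun r hr => hCR r hr fun z hz => hRab r hr z (hZR hz)) hZR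
    exact ⟨E, R, hcommE, hsup, hES, Or.inl (hRZ ▸ hZcyc)⟩
  have hZnep : Nat.card (zc K) ≠ p := by
    intro hcard
    have h1 : zc K ≤ center G := Cfsg.Agent.Lib.H7PGroup.normal_le_center_of_card_prime hG (zc K) hcard
    apply hRab
    have hRZ : ∀ r ∈ R, r ∈ zc K := fun r hr => hCR r hr fun z hz => mem_center_iff.1 (h1 hz) r
    intro a ha b hb
    exact (hZcen a (hRZ a ha) b (hZK (hRZ b hb))).symm
  have hRp : IsPGroup p R := hG.to_subgroup R
  have hRab' : ¬ ∀ a b : R, a * b = b * a := by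
    intro h
    apply hRab
    intro a ha b hb
    exact congrArg Subtype.val (h ⟨a, ha⟩ ⟨b, hb⟩)
  have hna : ¬ IsMulCommutative R := fun h => hRab' h.is_comm.comm
  haveI hUn : ((zc K).subgroupOf R).Normal := Subgroup.Normal.subgroupOf hZn R
  have hUcyc : IsCyclic ((zc K).subgroupOf R) :=
    isCyclic_of_surjective (Subgroup.subgroupOfEquivOfLe hZR).symm (Subgroup.subgroupOfEquivOfLe hZR).symm.surjective
  have hUcard : Nat.card ((zc K).subgroupOf R) = p ^ n := by
    rw [Nat.card_congr (Subgroup.subgroupOfEquivOfLe hZR).toEquiv, hn]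
  have hC' : centralizer (((zc K).subgroupOf R : Subgroup R) : Set R) = (zc K).subgroupOf R := by
    apply le_antisymm
    · intro r hr
      rw [mem_subgroupOf]
      apply hCR r r.2
      intro z hz
      have h1 := mem_centralizer_iff.1 hr ⟨z, hZR hz⟩ (mem_subgroupOf.2 hz)
      exact (congrArg Subtype.val h1).symm
    · intro u hu
      refine mem_centralizer_iff.2 fun v hv => ?_
      apply Subtype.ext
      exact hZcen _ (mem_subgroupOf.1 hu) _ (hZK (mem_subgroupOf.1 hv))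
  rcases Cfsg.Agent.S3761.result hRp hna _ hUcyc n hUcard hC' with ⟨hp2, hcardR, hiso⟩ | ⟨_, hV1, hV2, _⟩
  · by_cases h16 : 16 ≤ Nat.card R
    · exact ⟨E, R, hcommE, hsup, hES, Or.inr ⟨hp2, h16, hiso⟩⟩
    subst hp2
    have hn2 : n ≤ 2 := by
      by_contra hcon
      apply h16
      rw [hcardR]
      calc 16 = 2 ^ 4 := by norm_num
        _ ≤ 2 ^ (n + 1) := Nat.pow_le_pow_right (by norm_num) (by omega)
    have hc8 : Nat.card R = 8 := by
      interval_cases n
      · exfalso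
        haveI : IsCyclic R := isCyclic_of_prime_card (p := 2) (by simpa using hcardR)
        exact hRab' cyc_comm
      · exfalso
        exact hRab' (IsPGroup.commutative_of_card_eq_prime_sq (p := 2) (by simpa using hcardR))
      · simpa using hcardR
    obtain ⟨hc2, hcm8, hsq8⟩ := order8 hc8 hRab'
    have hYmem : ∀ y, y ∈ (center ↥R).map R.subtype ↔ (y ∈ R ∧ ∀ r ∈ R, r * y = y * r) := by
      intro y
      constructor
      · rintro ⟨w, hw, rfl⟩
        refine ⟨w.2, fun r hr => ?_⟩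
        exact congrArg Subtype.val (mem_center_iff.1 hw ⟨r, hr⟩)
      · rintro ⟨h1, h2⟩
        refine ⟨⟨y, h1⟩, mem_center_iff.2 fun g => ?_, rfl⟩
        exact Subtype.ext (h2 g g.2)
    have hes : Cfsg.IsExtraspecial 2 ↥(⊤ : Subgroup G) := by
      refine es_of hG ⊤ ((center ↥R).map R.subtype) le_top ?_ ?_ ?_ ?_ ?_ ?_
      · rw [card_map_of_injective R.subtype_injective, hc2]
      · intro y hy f _
        obtain ⟨h1, h2⟩ := (hYmem y).1 hy
        obtain ⟨e, he, r, hr, rfl⟩ := hdecG f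
        calc e * r * y = e * (r * y) := by group
          _ = e * (y * r) := by rw [h2 r hr]
          _ = (e * y) * r := by group
          _ = (y * e) * r := by rw [hcommE e he y h1]
          _ = y * (e * r) := by group
      · intro f _ hf
        obtain ⟨e, he, r, hr, rfl⟩ := hdecG f
        have h1 : ∀ e' ∈ E, e * e' = e' * e := by
          intro e' he'
          have h2 := hf e' (mem_top _)
          have h3 := hcommE e' he' r hr
          have h4 : e * e' * r = e' * e * r := by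
            calc e * e' * r = e * (e' * r) := by group
              _ = e * (r * e') := by rw [h3]
              _ = e * r * e' := by group
              _ = e' * (e * r) := h2
              _ = e' * e * r := by group
          exact mul_right_cancel h4
        obtain ⟨h5, h6⟩ := hEcen e he h1
        have h7 : ∀ r' ∈ R, r * r' = r' * r := by
          intro r' hr'
          have h2 := hf r' (mem_top _)
          have h3 := hcommE e he r' hr'
          have h4 : e * (r * r') = e * (r' * r) := by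
            calc e * (r * r') = e * r * r' := by group
              _ = r' * (e * r) := h2
              _ = (r' * e) * r := by group
              _ = (e * r') * r := by rw [h3]
              _ = e * (r' * r) := by group
          exact mul_left_cancel h4
        exact mul_mem ((hYmem e).2 ⟨hZR h5, fun r' _ => h6 r'⟩) ((hYmem r).2 ⟨hr, fun r' hr' => (h7 r' hr').symm⟩)
      · intro a _ b _
        obtain ⟨e₁, he₁, r₁, hr₁, rfl⟩ := hdecG a
        obtain ⟨e₂, he₂, r₂, hr₂, rfl⟩ := hdecG b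
        rw [comm_prod (hcommE e₁ he₁ r₁ hr₁) (hcommE e₁ he₁ r₂ hr₂) (hcommE e₂ he₂ r₁ hr₁) (hcommE e₂ he₂ r₂ hr₂)]
        obtain ⟨h5, h6⟩ := hEcomm e₁ he₁ e₂ he₂
        refine mul_mem ((hYmem _).2 ⟨hZR h5, fun r' _ => h6 r'⟩) ?_
        have h7 := hcm8 ⟨r₁, hr₁⟩ ⟨r₂, hr₂⟩
        exact ⟨_, h7, rfl⟩
      · intro a _
        obtain ⟨e, he, r, hr, rfl⟩ := hdecG a
        rw [(show Commute e r from hcommE e he r hr).mul_pow]
        obtain ⟨h5, h6⟩ := hEpow e he
        refine mul_mem ((hYmem _).2 ⟨hZR h5, fun r' _ => h6 r'⟩) ?_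
        have h7 := hsq8 ⟨r, hr⟩
        exact ⟨_, h7, rfl⟩
      · push Not at hRab
        obtain ⟨a, ha, b, hb, hab⟩ := hRab
        exact ⟨a, mem_top _, b, mem_top _, hab⟩
    refine ⟨⊤, ⊥, ?_, by simp, Or.inr hes, Or.inl isCyclic_of_subsingleton⟩
    intro e _ r hr
    rw [mem_bot] at hr
    subst hr
    simp
  · exfalso
    obtain ⟨hVcomm, hVp⟩ := hV1
    have hZpc : (Cfsg.powerClosure p 1 (zc K)).Characteristic := by
      haveI := hZc
      exact Cfsg.Agent.S3761.char_pc p 1 (zc K)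
    have hCGc : (centralizer (Cfsg.powerClosure p 1 (zc K) : Set G)).Characteristic := cent_char _ hZpc
    have hYc : (Cfsg.omegaOne p (centralizer (Cfsg.powerClosure p 1 (zc K) : Set G))).Characteristic := by
      haveI := hCGc
      exact Cfsg.Agent.S3761.char_om p _
    have hWc := inf_char _ _ hYc (cent_char _ hYc)
    generalize hCGdef : centralizer (Cfsg.powerClosure p 1 (zc K) : Set G) = CG at hCGc hYc hWc
    have hCGmem : ∀ g, g ∈ CG ↔ ∀ z ∈ zc K, z ^ p * g = g * z ^ p := by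
      intro g
      rw [← hCGdef]
      constructor
      · intro hg z hz
        have h1 := mem_centralizer_iff.1 hg (z ^ (p ^ 1)) (subset_closure ⟨z, hz, rfl⟩)
        rwa [pow_one] at h1
      · intro h
        refine mem_centralizer_iff.2 (mem_cent_closure ?_)
        rintro s ⟨z, hz, rfl⟩
        rw [pow_one]
        exact h z hz
    have hCmem : ∀ r : R, r ∈ centralizer (Cfsg.powerClosure p 1 ((zc K).subgroupOf R) : Set R) ↔ (r : G) ∈ CG := by
      intro r
      rw [hCGmem]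
      constructor
      · intro hr z hz
        have h1 := mem_centralizer_iff.1 hr ((⟨z, hZR hz⟩ : R) ^ (p ^ 1))
          (subset_closure ⟨⟨z, hZR hz⟩, mem_subgroupOf.2 hz, rfl⟩)
        have h2 := congrArg Subtype.val h1
        simpa using h2
      · intro h
        refine mem_centralizer_iff.2 (mem_cent_closure ?_)
        rintro s ⟨u, hu, rfl⟩
        apply Subtype.ext
        have h1 := h (u : G) (mem_subgroupOf.1 hu)
        simpa using h1
    have hVgen : ∀ r : R, r ∈ centralizer (Cfsg.powerClosure p 1 ((zc K).subgroupOf R) : Set R) → r ^ p = 1 →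
        r ∈ Cfsg.omegaOne p (centralizer (Cfsg.powerClosure p 1 ((zc K).subgroupOf R) : Set R)) :=
      fun r h1 h2 => subset_closure ⟨h1, h2⟩
    have hVC : Cfsg.omegaOne p (centralizer (Cfsg.powerClosure p 1 ((zc K).subgroupOf R) : Set R)) ≤
        centralizer (Cfsg.powerClosure p 1 ((zc K).subgroupOf R) : Set R) :=
      (closure_le _).2 fun x hx => hx.1
    generalize hVdef : Cfsg.omegaOne p (centralizer (Cfsg.powerClosure p 1 ((zc K).subgroupOf R) : Set R)) = V
      at hVcomm hVp hV2 hVgen hVC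
    have hVab : ∀ a ∈ V, ∀ b ∈ V, a * b = b * a := fun a ha b hb =>
      congrArg Subtype.val (hVcomm.is_comm.comm ⟨a, ha⟩ ⟨b, hb⟩)
    have hZCG : ∀ z ∈ zc K, z ∈ CG := by
      intro z hz
      refine (hCGmem z).2 fun z' hz' => ?_
      exact (hZcen _ ((zc K).pow_mem hz' p) z (hZK hz)).symm
    have hclaim : ∀ v ∈ V, ∀ y : G, y ∈ CG → y ^ p = 1 → y * (v : G) = (v : G) * y := by
      intro v hv y hy hyp
      obtain ⟨e, he, r, hr, rfl⟩ := hdecG y
      have heC : e ∈ CG := (hCGmem e).2 fun z hz => (hZcen _ ((zc K).pow_mem hz p) e (hEK he)).symm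
      have hrCG : r ∈ CG := by
        have h1 := CG.mul_mem (CG.inv_mem heC) hy
        simpa using h1
      have hr' : (⟨r, hr⟩ : R) ∈ centralizer (Cfsg.powerClosure p 1 ((zc K).subgroupOf R) : Set R) :=
        (hCmem _).2 hrCG
      have hve : e * (v : G) = (v : G) * e := hcommE e he v v.2
      suffices h : r * (v : G) = (v : G) * r by
        calc e * r * v = e * (r * v) := by group
          _ = e * (v * r) := by rw [h]
          _ = (e * v) * r := by group
          _ = (v * e) * r := by rw [hve]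
          _ = v * (e * r) := by group
      have hrp : r ^ p = (e ^ p)⁻¹ := by
        rw [(show Commute e r from hcommE e he r hr).mul_pow] at hyp
        exact eq_inv_of_mul_eq_one_right hyp
      by_cases hep : e ^ p = 1
      · have h1 : (⟨r, hr⟩ : R) ^ p = 1 := by
          apply Subtype.ext
          rw [hep, inv_one] at hrp
          simpa using hrp
        exact congrArg Subtype.val (hVab _ (hVgen _ hr' h1) v hv)
      · have hp2 : p = 2 := by
          by_contra h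
          exact hep (hOdd h hZnep e he)
        subst hp2
        obtain ⟨htZ, htG⟩ := hEpow e he
        have htt := hEsq e he
        generalize e ^ 2 = t at htZ htG htt hep hrp
        have hr2 : r ^ 2 = t := by
          rw [hrp]
          rw [pow_two] at htt
          exact inv_eq_of_mul_eq_one_left htt
        have hn0 : n ≠ 0 := by
          rintro rfl
          have h1 : Nat.card (zc K) = 1 := by simpa using hn
          haveI : Subsingleton (zc K) := (Nat.card_eq_one_iff_unique.1 h1).1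
          have h2 : (⟨t, htZ⟩ : zc K) = 1 := Subsingleton.elim _ _
          exact hep (congrArg Subtype.val h2)
        have hn1 : n ≠ 1 := by
          rintro rfl
          exact hZnep (by simpa using hn)
        obtain ⟨i₀, hi₀⟩ := cy_root (A := zc K) (k := 1) hn (by omega) ⟨t, htZ⟩
          (Subtype.ext (by simpa using htt))
        have hi : t = (i₀ : G) ^ 2 := by simpa using congrArg Subtype.val hi₀
        have hiZ : (i₀ : G) ∈ zc K := i₀.2
        generalize (i₀ : G) = i at hi hiZ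
        by_cases hn2 : n = 2
        · -- the degenerate case
          exfalso
          subst hn2
          have h4 : ∀ z ∈ zc K, z ^ 4 = 1 := by
            intro z hz
            have h5 : (⟨z, hz⟩ : zc K) ^ 4 = 1 := by
              have h6 := pow_card_eq_one' (x := (⟨z, hz⟩ : zc K))
              rw [hn] at h6
              simpa using h6
            simpa using congrArg Subtype.val h5
          have htw : ∀ v ∈ zc K, v ^ 2 = 1 → ∃ k : ℕ, v = t ^ k := by
            intro v hv hvp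
            obtain ⟨k, hk⟩ := cy_prime (A := zc K) ⟨v, hv⟩ ⟨t, htZ⟩ (Subtype.ext (by simpa using hvp))
              (Subtype.ext (by simpa using htt)) (fun h => hep (congrArg Subtype.val h))
            exact ⟨k, by simpa using congrArg Subtype.val hk⟩
          have htcen : ∀ k : ℕ, ∀ g : G, g * t ^ k = t ^ k * g := fun k g =>
            ((show Commute g t from htG g).pow_right k).eq
          have hsqcen : ∀ z ∈ zc K, ∀ g : G, z ^ 2 * g = g * z ^ 2 := by
            intro z hz g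
            obtain ⟨k, hk⟩ := htw (z ^ 2) ((zc K).pow_mem hz 2) (by rw [← pow_mul]; exact h4 z hz)
            rw [hk]
            exact (htcen k g).symm
          have hCGall : ∀ g : G, g ∈ CG := fun g => (hCGmem g).2 fun z hz => hsqcen z hz g
          obtain ⟨v₁, hv₁, hv₁Z⟩ : ∃ v₁ ∈ V, (v₁ : G) ∉ zc K := by
            by_contra hcon
            push Not at hcon
            have h5 : V.map R.subtype ≤ zpowers t := by
              rintro _ ⟨a, ha, rfl⟩
              obtain ⟨k, hk⟩ := htw (a : G) (hcon a ha) (by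
                have h6 := hVp a ha
                simpa using congrArg Subtype.val h6)
              show (a : G) ∈ zpowers t
              rw [hk]
              exact npow_mem_zpowers t k
            have h6 := Subgroup.card_le_of_le h5
            rw [card_map_of_injective R.subtype_injective, hV2, Nat.card_zpowers,
              orderOf_eq_prime htt hep] at h6
            omega
          have hv₁2 : (v₁ : G) ^ 2 = 1 := by simpa using congrArg Subtype.val (hVp v₁ hv₁)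
          have hig : ∀ h ∈ zc K, ∃ k : ℕ, h = i ^ k := by
            intro h hh
            obtain ⟨k, hk⟩ := cy_gen hn (⟨i, hiZ⟩ : zc K) (fun u hu => hep (by
              have h5 : i = (u : G) ^ 2 := by simpa using congrArg Subtype.val hu
              rw [hi, h5, ← pow_mul]
              exact h4 _ u.2)) ⟨h, hh⟩
            exact ⟨k, by simpa using congrArg Subtype.val hk⟩
          have hv₁i : (v₁ : G) * i ≠ i * v₁ := by
            intro hc
            apply hv₁Z
            apply hCR _ v₁.2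
            intro z hz
            obtain ⟨k, rfl⟩ := hig z hz
            exact ((show Commute (v₁ : G) i from hc).pow_right k).eq
          have hi'Z : (v₁ : G) * i * (v₁ : G)⁻¹ ∈ zc K := hZn.conj_mem i hiZ v₁
          have hi'2 : ((v₁ : G) * i * (v₁ : G)⁻¹) ^ 2 = t := by
            rw [conj_pow, ← hi, htG]
            group
          have hcomm' : Commute ((v₁ : G) * i * (v₁ : G)⁻¹) i⁻¹ :=
            (show Commute ((v₁ : G) * i * (v₁ : G)⁻¹) i from (hZcen i hiZ _ (hZK hi'Z))).inv_right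
          have hq2 : ((v₁ : G) * i * (v₁ : G)⁻¹ * i⁻¹) ^ 2 = 1 := by
            rw [hcomm'.mul_pow, hi'2, inv_pow, ← hi, mul_inv_cancel]
          obtain ⟨k, hk⟩ := htw _ ((zc K).mul_mem hi'Z ((zc K).inv_mem hiZ)) hq2
          have hq : (v₁ : G) * i * (v₁ : G)⁻¹ * i⁻¹ = t := by
            have h5 : t ^ k = 1 ∨ t ^ k = t := by
              rcases Nat.even_or_odd' k with ⟨m, hm | hm⟩
              · left
                rw [hm, pow_mul, htt, one_pow]
              · right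
                rw [hm, pow_succ, pow_mul, htt, one_pow, one_mul]
            rcases h5 with h5 | h5
            · exfalso
              rw [h5] at hk
              apply hv₁i
              have h6 : (v₁ : G) * i * (v₁ : G)⁻¹ = i := by
                have h7 := congrArg (· * i) hk
                simpa using h7
              calc (v₁ : G) * i = ((v₁ : G) * i * (v₁ : G)⁻¹) * v₁ := by group
                _ = i * v₁ := by rw [h6]
            · rw [hk, h5]
          have hconj : (v₁ : G) * i = t * i * v₁ := by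
            have h5 : (v₁ : G) * i * (v₁ : G)⁻¹ = t * i := by
              rw [← hq]
              group
            calc (v₁ : G) * i = ((v₁ : G) * i * (v₁ : G)⁻¹) * v₁ := by group
              _ = t * i * v₁ := by rw [h5]
          have hx2 : (i * (v₁ : G)) ^ 2 = 1 := by
            rw [pow_two]
            calc i * (v₁ : G) * (i * (v₁ : G)) = i * ((v₁ : G) * i) * v₁ := by group
              _ = i * (t * i * v₁) * v₁ := by rw [hconj]
              _ = (i * t) * i * ((v₁ : G) ^ 2) := by rw [pow_two]; group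
              _ = (t * i) * i := by rw [hv₁2, mul_one, ← htG i]
              _ = t * (i ^ 2) := by rw [pow_two]; group
              _ = t * t := by rw [← hi]
              _ = 1 := by rw [← pow_two, htt]
          have hiR : i ∈ R := hZR hiZ
          have hx : (⟨i, hiR⟩ : R) * v₁ ∈ V := by
            apply hVgen
            · exact (hCmem _).2 (hCGall _)
            · apply Subtype.ext
              simpa using hx2
          have hiV : (⟨i, hiR⟩ : R) ∈ V := by
            have h5 := V.mul_mem hx (V.inv_mem hv₁)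
            simpa using h5
          have h5 := hVp _ hiV
          have h6 : i ^ 2 = 1 := by simpa using congrArg Subtype.val h5
          exact hep (by rw [hi, h6])
        · -- the main case
          obtain ⟨j₀, hj₀⟩ := cy_root (A := zc K) (k := 2) hn (by omega) (⟨i, hiZ⟩ : zc K)
            (Subtype.ext (by
              show i ^ 2 ^ 2 = 1
              rw [show (2 : ℕ) ^ 2 = 2 * 2 by norm_num, pow_mul, ← hi, htt]))
          have hij : i = (j₀ : G) ^ 2 := by simpa using congrArg Subtype.val hj₀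
          have hiCG : ∀ g ∈ CG, g * i = i * g := by
            intro g hg
            rw [hij]
            exact ((hCGmem g).1 hg _ j₀.2).symm
          have hiR : i ∈ R := hZR hiZ
          have hr₁R : r * i⁻¹ ∈ R := R.mul_mem hr (R.inv_mem hiR)
          have hr₁CG : r * i⁻¹ ∈ CG := CG.mul_mem hrCG (CG.inv_mem (hZCG i hiZ))
          have hr₁2 : (r * i⁻¹) ^ 2 = 1 := by
            have h1 : Commute r i⁻¹ := (show Commute r i from hiCG r hrCG).inv_right
            rw [h1.mul_pow, hr2, inv_pow, ← hi, mul_inv_cancel]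
          have hr₁V : (⟨r * i⁻¹, hr₁R⟩ : R) ∈ V := by
            apply hVgen
            · exact (hCmem _).2 hr₁CG
            · apply Subtype.ext
              simpa using hr₁2
          have h1 : r * i⁻¹ * (v : G) = (v : G) * (r * i⁻¹) :=
            congrArg Subtype.val (hVab _ hr₁V v hv)
          have hvC : (v : G) ∈ CG := (hCmem v).1 (hVC hv)
          have h2 := hiCG _ hvC
          calc r * (v : G) = (r * i⁻¹) * (i * v) := by group
            _ = (r * i⁻¹) * (v * i) := by rw [h2]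
            _ = (r * i⁻¹ * v) * i := by group
            _ = (v * (r * i⁻¹)) * i := by rw [h1]
            _ = v * r := by group
    -- now the characteristic abelian subgroup
    have hVY : ∀ v ∈ V, (v : G) ∈ Cfsg.omegaOne p CG := by
      have h1 : V ≤ (Cfsg.omegaOne p CG).comap R.subtype := by
        rw [← hVdef]
        refine (closure_le _).2 ?_
        rintro x ⟨hx, hxp⟩
        exact subset_closure ⟨(hCmem x).1 hx, by simpa using congrArg Subtype.val hxp⟩
      exact fun v hv => h1 hv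
    have hVW : ∀ v ∈ V, (v : G) ∈ Cfsg.omegaOne p CG ⊓ centralizer (Cfsg.omegaOne p CG : Set G) := by
      intro v hv
      refine ⟨hVY v hv, mem_centralizer_iff.2 fun y hy => ?_⟩
      exact mem_cent_closure (fun s hs => hclaim v hv s hs.1 hs.2) y hy
    have hWab : IsMulCommutative ↥(Cfsg.omegaOne p CG ⊓ centralizer (Cfsg.omegaOne p CG : Set G)) :=
      ⟨⟨fun a b => Subtype.ext (mem_centralizer_iff.1 b.2.2 _ a.2.1)⟩⟩
    haveI hWcyc := hsymp _ hWc hWab
    let φ : V →* ↥(Cfsg.omegaOne p CG ⊓ centralizer (Cfsg.omegaOne p CG : Set G)) :=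
      MonoidHom.codRestrict (R.subtype.comp V.subtype) _ (fun v => hVW v v.2)
    have hφ : Function.Injective φ := by
      intro a b hab
      apply Subtype.ext
      apply Subtype.ext
      have h := congrArg Subtype.val hab
      exact h
    haveI hVcyc : IsCyclic V := isCyclic_of_injective φ hφ
    obtain ⟨g, hg⟩ := IsCyclic.exists_generator (α := V)
    have hord : orderOf g = p ^ 2 := by
      rw [← hV2]
      exact orderOf_eq_card_of_forall_mem_zpowers hg
    have hgp : g ^ p = 1 := by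
      apply Subtype.ext
      simpa using hVp g g.2
    have h1 := orderOf_dvd_of_pow_eq_one hgp
    rw [hord] at h1
    have h2 := Nat.le_of_dvd hpp.pos h1
    have h3 := hpp.two_le
    nlinarith

end H6Sym

/-- Let G be a finite p-group of symplectic type: every characteristic abelian subgroup of G is cyclic. Then G = E ∗ R is a central product of subgroups E and R (they commute elementwise and generate G) where E is extraspecial or trivial, and R is cyclic, or p = 2 and R is dihedral, semidihedral or generalized quaternion of order at least 16. -/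
theorem result {G : Type*} [Group G] [Finite G] {p : ℕ} [Fact p.Prime] (hG : IsPGroup p G) (hsymp : ∀ A : Subgroup G, A.Characteristic → IsMulCommutative A → IsCyclic A) : ∃ E R : Subgroup G, (∀ e ∈ E, ∀ r ∈ R, e * r = r * e) ∧ E ⊔ R = ⊤ ∧ (E = ⊥ ∨ Cfsg.IsExtraspecial p ↥E) ∧ (IsCyclic R ∨ (p = 2 ∧ 16 ≤ Nat.card R ∧ ((∃ m : ℕ, Nonempty (↥R ≃* DihedralGroup m)) ∨ (∃ m : ℕ, Nonempty (↥R ≃* QuaternionGroup m)) ∨ Cfsg.IsQuasiDihedral ↥R))) := by
  obtain ⟨K, hKc, hpow, hcomm, hC⟩ := Cfsg.Agent.Lib.Critical.exists_critical_aux hG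
  by_cases hab : ∀ x ∈ K, ∀ y ∈ K, x * y = y * x
  · refine final hG hsymp K hKc hC ⊥ bot_le ?_ ?_ (Or.inl rfl) ?_ ?_ ?_ ?_ ?_
    · intro k hk
      exact ⟨1, one_mem _, k, ⟨hk, Subgroup.mem_centralizer_iff.2 fun h hh => hab h hh k hk⟩, by simp⟩
    · intro g
      refine ⟨1, one_mem _, fun e' he' => ?_⟩
      rw [Subgroup.mem_bot] at he'
      subst he'
      simp
    · intro e he _
      rw [Subgroup.mem_bot] at he
      subst he
      exact ⟨one_mem _, by simp⟩
    · intro a ha b hb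
      rw [Subgroup.mem_bot] at ha hb
      subst ha
      subst hb
      simp [one_mem]
    · intro e he
      rw [Subgroup.mem_bot] at he
      subst he
      simp [one_mem]
    · intro e he
      rw [Subgroup.mem_bot] at he
      subst he
      simp
    · intro _ _ e he
      rw [Subgroup.mem_bot] at he
      subst he
      simp
  · push Not at hab
    obtain ⟨E, h1, h2, h3, h4, h5, h6, h7, h8, h9⟩ := exists_E hG hsymp K hKc hpow hcomm hC hab
    exact final hG hsymp K hKc hC E h1 h2 h3 (Or.inr h4) h5 h6 h7 h8 h9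

end Cfsg.Agent.S3762
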