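import Mathlib
import Cfsg.Statements.S3766
import Cfsg.Agent.Lib.H6Stab
import Cfsg.Agent.Lib.FitSolv
import Cfsg.Agent.Lib.Layer
-- import your own Cfsg.Agent.* helpers here

set_option autoImplicit false
open Cfsg

namespace Cfsg.Agent.S3766

open Subgroup Cfsg.Agent.Lib.H6Stab
open scoped commutatorElement

def Cs {G : Type*} [Group G] (N F : Subgroup G) : Subgroup G where
  carrier := {x | x ∈ N ∧ ∀ U V, Chief U V → U ≤ F → ∀ u ∈ U, ⁅u, x⁆ ∈ V}
  one_mem' := by
    refine ⟨N.one_mem, ?_⟩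
    intro U V _ _ u _
    simp [commutatorElement_one_right, one_mem]
  mul_mem' := by
    rintro a b ⟨haN, ha⟩ ⟨hbN, hb⟩
    refine ⟨N.mul_mem haN hbN, ?_⟩
    intro U V hχ hUF u hu
    have e : ⁅u, a * b⁆ = ⁅u, a⁆ * (a * ⁅u, b⁆ * a⁻¹) := by
      simp only [commutatorElement_def]; group
    rw [e]
    exact V.mul_mem (ha U V hχ hUF u hu) (hχ.2.1.conj_mem _ (hb U V hχ hUF u hu) a)
  inv_mem' := by
    rintro a ⟨haN, ha⟩
    refine ⟨N.inv_mem haN, ?_⟩
    intro U V hχ hUF u hu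
    have e : ⁅u, a⁻¹⁆ = a⁻¹ * ⁅u, a⁆⁻¹ * a⁻¹⁻¹ := by
      simp only [commutatorElement_def]; group
    rw [e]
    exact hχ.2.1.conj_mem _ (V.inv_mem (ha U V hχ hUF u hu)) _

theorem Cs_normal {G : Type*} [Group G] (N F : Subgroup G) [hN : N.Normal] : (Cs N F).Normal := by
  constructor
  rintro x ⟨hxN, hx⟩ h
  refine ⟨hN.conj_mem _ hxN h, ?_⟩
  intro U V hχ hUF u hu
  have e : ⁅u, h * x * h⁻¹⁆ = h * ⁅h⁻¹ * u * h⁻¹⁻¹, x⁆ * h⁻¹ := by
    simp only [commutatorElement_def]; group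
  rw [e]
  exact hχ.2.1.conj_mem _ (hx U V hχ hUF _ (hχ.1.conj_mem _ hu _)) h

theorem bwd {G : Type*} [Group G] [Finite G] (hG : Group.IsSolvable G) (N : Subgroup G) [hNn : N.Normal] (g : G)
    (hgN : g ∈ N)
    (hg : ∀ U V : Subgroup G, (U.Normal ∧ V.Normal ∧ V < U ∧ ∀ W : Subgroup G, W.Normal → V ≤ W → W ≤ U → W = V ∨ W = U) →
      U ≤ (Cfsg.fittingSubgroup ↥N).map N.subtype → ∀ u ∈ U, u * g * u⁻¹ * g⁻¹ ∈ V) :
    g ∈ (Cfsg.fittingSubgroup ↥N).map N.subtype := by
  classical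
  haveI : (Cfsg.fittingSubgroup N).Characteristic := Cfsg.Agent.Lib.Layer.fitting_characteristic N
  set F := (Cfsg.fittingSubgroup ↥N).map N.subtype with hF
  have hFn : F.Normal := Cfsg.Agent.Lib.FitCore.map_subtype_normal_of_char N _
  haveI : Group.IsSolvable N := solvable_of_solvable_injective N.subtype_injective
  obtain ⟨r, T, h0, htop, hTn, hmono, hch⟩ := exists_chain _ F rfl hFn
  have hnil : Group.IsNilpotent (Cs N F) := by
    refine stab_nilpotent T hTn hmono h0 _ ?_ r ?_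
    · rintro a ⟨_, ha⟩ i y hy
      by_cases hi : i < r
      · have hle : T (i + 1) ≤ F := by
          rw [← htop r le_rfl]
          exact hmono (by omega)
        exact ha _ _ (hch i hi) hle y hy
      · have h1 : T (i + 1) = F := htop _ (by omega)
        have h2 : T i = F := htop _ (by omega)
        rw [h2]
        rw [h1] at hy
        rw [commutatorElement_def]
        have : y * (a * y⁻¹ * a⁻¹) ∈ F := F.mul_mem hy (hFn.conj_mem _ (F.inv_mem hy) a)
        simpa [mul_assoc] using this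
    · rintro x ⟨⟨hxN, _⟩, hxc⟩
      rw [htop r le_rfl] at hxc ⊢
      have h1 : (⟨x, hxN⟩ : N) ∈ Subgroup.centralizer (Cfsg.fittingSubgroup N : Set N) := by
        rw [Subgroup.mem_centralizer_iff]
        intro y hy
        have h2 : (y : G) ∈ F := ⟨y, hy, rfl⟩
        have h3 := Subgroup.mem_centralizer_iff.mp hxc _ h2
        exact Subtype.ext h3
      exact ⟨_, Cfsg.Agent.Lib.FitSolv.centralizer_fitting_le h1, rfl⟩
  have hle : Cs N F ≤ N := fun x hx => hx.1
  haveI : (Cs N F).Normal := Cs_normal N F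
  have h5 : (Cs N F).subgroupOf N ≤ Cfsg.fittingSubgroup N := by
    apply Cfsg.Agent.Lib.FitCore.le_fitting _ (Subgroup.Normal.subgroupOf ‹_› N)
    exact nilpotent_of_mulEquiv (Subgroup.subgroupOfEquivOfLe hle).symm
  have hgC : g ∈ Cs N F := by
    refine ⟨hgN, ?_⟩
    intro U V hχ hUF u hu
    exact hg U V hχ hUF u hu
  exact ⟨⟨g, hgN⟩, h5 (by rw [Subgroup.mem_subgroupOf]; exact hgC), rfl⟩

/-- Let G be a finite solvable group and N a normal subgroup of G. Call a pair V < U of normal subgroups of G a chief factor of G when no normal subgroup of G lies strictly between them; an element g centralizes the chief factor U/V when u g u⁻¹ g⁻¹ ∈ V for all u ∈ U. Then an element of G lies in the Fitting subgroup F(N) if and only if it lies in N and centralizes every chief factor of G; and also if and only if it lies in N and centralizes every chief factor U/V of G with U ≤ F(N). -/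
theorem result {G : Type*} [Group G] [Finite G] (hG : Group.IsSolvable G) (N : Subgroup G) [N.Normal] (g : G) : (g ∈ (Cfsg.fittingSubgroup ↥N).map N.subtype ↔ g ∈ N ∧ ∀ U V : Subgroup G, (U.Normal ∧ V.Normal ∧ V < U ∧ ∀ W : Subgroup G, W.Normal → V ≤ W → W ≤ U → W = V ∨ W = U) → ∀ u ∈ U, u * g * u⁻¹ * g⁻¹ ∈ V) ∧ (g ∈ (Cfsg.fittingSubgroup ↥N).map N.subtype ↔ g ∈ N ∧ ∀ U V : Subgroup G, (U.Normal ∧ V.Normal ∧ V < U ∧ ∀ W : Subgroup G, W.Normal → V ≤ W → W ≤ U → W = V ∨ W = U) → U ≤ (Cfsg.fittingSubgroup ↥N).map N.subtype → ∀ u ∈ U, u * g * u⁻¹ * g⁻¹ ∈ V) := by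
  classical
  haveI : (Cfsg.fittingSubgroup N).Characteristic := Cfsg.Agent.Lib.Layer.fitting_characteristic N
  have hFn : ((Cfsg.fittingSubgroup ↥N).map N.subtype).Normal :=
    Cfsg.Agent.Lib.FitCore.map_subtype_normal_of_char N _
  haveI hFnN : Group.IsNilpotent (Cfsg.fittingSubgroup N) := Cfsg.Agent.Lib.FitCore.fitting_isNilpotent
  have hFnil : Group.IsNilpotent ((Cfsg.fittingSubgroup ↥N).map N.subtype) :=
    nilpotent_of_mulEquiv (Subgroup.equivMapOfInjective _ N.subtype N.subtype_injective)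
  have hle : (Cfsg.fittingSubgroup ↥N).map N.subtype ≤ N := Subgroup.map_subtype_le _
  have hfwd : g ∈ (Cfsg.fittingSubgroup ↥N).map N.subtype → ∀ U V : Subgroup G,
      (U.Normal ∧ V.Normal ∧ V < U ∧ ∀ W : Subgroup G, W.Normal → V ≤ W → W ≤ U → W = V ∨ W = U) →
      ∀ u ∈ U, u * g * u⁻¹ * g⁻¹ ∈ V := by
    intro hg U V hχ u hu
    exact nilpotent_normal_centralizes hFn hFnil hχ u hu g hg
  constructor
  · constructor
    · intro h
      exact ⟨hle h, hfwd h⟩
    · rintro ⟨hN, h⟩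
      exact bwd hG N g hN (fun U V hχ _ => h U V hχ)
  · constructor
    · intro h
      exact ⟨hle h, fun U V hχ _ => hfwd h U V hχ⟩
    · rintro ⟨hN, h⟩
      exact bwd hG N g hN h

end Cfsg.Agent.S3766
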