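import Mathlib
import Cfsg.Prelude
import Cfsg.Agent.Lib.LieTrick
import Cfsg.Statements.S3767
-- import your own Cfsg.Agent.* helpers here

set_option autoImplicit false
open Cfsg

namespace Cfsg.Agent.S3767


open Polynomial Module LinearMap

theorem card_dvd_of_free {A X : Type*} [Group A] [MulAction A X] [Finite A] [Finite X]
    (hfree : ∀ (a : A) (x : X), a • x = x → a = 1) : Nat.card A ∣ Nat.card X := by
  classical
  haveI : Fintype (MulAction.orbitRel.Quotient A X) := Fintype.ofFinite _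
  rw [Nat.card_congr (MulAction.selfEquivSigmaOrbits A X), Nat.card_sigma]
  apply Finset.dvd_sum
  intro ω _
  set x := Quotient.out ω
  have : Nat.card (MulAction.orbit A x) = Nat.card A := by
    refine (Nat.card_congr (Equiv.ofBijective (fun a : A => (⟨a • x, ⟨a, rfl⟩⟩ : MulAction.orbit A x)) ⟨?_, ?_⟩)).symm
    · intro a b hab
      have h1 : a • x = b • x := congrArg Subtype.val hab
      have h2 : (b⁻¹ * a) • x = x := by
        rw [mul_smul, h1, inv_smul_smul]
      have h3 := hfree _ _ h2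
      have : a = b := by
        rw [inv_mul_eq_one] at h3
        exact h3.symm
      exact this
    · rintro ⟨_, a, rfl⟩
      exact ⟨a, rfl⟩
  rw [this]

theorem free_count {X : Type*} [Finite X] (f : X → X) (h : ℕ) (hh : 0 < h) (hfh : f^[h] = id)
    (hfree : ∀ j, ¬ h ∣ j → ∀ x, f^[j] x ≠ x) : h ∣ Nat.card X := by
  classical
  rcases isEmpty_or_nonempty X with hX | ⟨⟨x₀⟩⟩
  · simp
  have hbij : Function.Bijective f := by
    have h1 : Function.LeftInverse (f^[h - 1]) f := by
      intro x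
      have := congrFun hfh x
      rw [show h = (h - 1) + 1 by omega, Function.iterate_succ_apply] at this
      simpa using this
    have h2 : Function.RightInverse (f^[h - 1]) f := by
      intro x
      have := congrFun hfh x
      rw [show h = (h - 1) + 1 by omega, Function.iterate_succ_apply'] at this
      simpa using this
    exact ⟨h1.injective, h2.surjective⟩
  let g : Equiv.Perm X := Equiv.ofBijective f hbij
  have hg : ∀ j x, (g ^ j) x = f^[j] x := by
    intro j x
    rw [← Equiv.Perm.iterate_eq_pow]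
    rfl
  have hgh : g ^ h = 1 := by
    ext x
    rw [hg, hfh]
    rfl
  have hord : orderOf g = h := by
    apply Nat.dvd_antisymm (orderOf_dvd_of_pow_eq_one hgh)
    by_contra hnd
    apply hfree _ hnd x₀
    rw [← hg, pow_orderOf_eq_one]
    rfl
  have hc : Nat.card (Subgroup.zpowers g) = h := by
    rw [Nat.card_zpowers, hord]
  rw [← hc]
  apply card_dvd_of_free
  rintro ⟨a, ha⟩ x hax
  obtain ⟨k, rfl⟩ := mem_powers_iff_mem_zpowers.mpr ha
  have h1 : (g ^ k) x = x := hax
  have h2 : h ∣ k := by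
    by_contra hnd
    apply hfree _ hnd x
    rw [← hg, h1]
  apply Subtype.ext
  show g ^ k = 1
  obtain ⟨c, rfl⟩ := h2
  rw [pow_mul, hgh, one_pow]

section LL

variable {p : ℕ} [hpf : Fact p.Prime] {V : Type*} [AddCommGroup V] [Module (ZMod p) V] [Finite V]

theorem dvd_card_sub_one (τ : Module.End (ZMod p) V) (h : ℕ) (hh0 : 0 < h) (hτh : τ ^ h = 1)
    (hfree : ∀ j, ¬ h ∣ j → ∀ v, (τ ^ j) v = v → v = 0)
    (W : Submodule (ZMod p) V) (hW : ∀ v ∈ W, τ v ∈ W) :
    h ∣ p ^ finrank (ZMod p) W - 1 := by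
  classical
  have hcard : Nat.card W = p ^ finrank (ZMod p) W := by
    rw [Module.natCard_eq_pow_finrank (K := ZMod p), Nat.card_zmod]
  have hcard2 : Nat.card {w : W // w ≠ 0} = p ^ finrank (ZMod p) W - 1 := by
    have h1 := Nat.card_congr (Equiv.optionSubtypeNe (0 : W))
    rw [Finite.card_option, hcard] at h1
    omega
  rw [← hcard2]
  have hinj : ∀ v, τ v = 0 → v = 0 := by
    intro v hv
    have h1 : (τ ^ h) v = v := by rw [hτh]; rfl
    rw [show h = (h - 1) + 1 by omega, pow_succ] at h1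
    rw [← h1]
    simp [hv]
  let f : {w : W // w ≠ 0} → {w : W // w ≠ 0} := fun w =>
    ⟨⟨τ w.1.1, hW _ w.1.2⟩, by
      intro h0
      apply w.2
      apply Subtype.ext
      exact hinj _ (congrArg Subtype.val h0)⟩
  have hf : ∀ (j : ℕ) (w : {w : W // w ≠ 0}), ((f^[j] w).1.1 : V) = (τ ^ j) w.1.1 := by
    intro j w
    induction j with
    | zero => simp
    | succ j ih =>
      rw [Function.iterate_succ_apply', pow_succ']
      show τ ((f^[j] w).1.1) = _
      rw [ih]
      rfl
  apply free_count f h hh0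
  · funext w
    apply Subtype.ext
    apply Subtype.ext
    rw [hf, hτh]
    rfl
  · intro j hj w hw
    have h1 := hf j w
    rw [hw] at h1
    exact w.2 (Subtype.ext (hfree j hj _ h1.symm))

theorem gal_lemma {E : Type*} [Field E] [Finite E] [Algebra (ZMod p) E] (α : E)
    (h : aeval α⁻¹ (minpoly (ZMod p) α) = 0) (hα : α ≠ 0) : ∃ i : ℕ, α ^ (p ^ i + 1) = 1 := by
  have halg : IsAlgebraic (ZMod p) α := Algebra.IsAlgebraic.isAlgebraic α
  obtain ⟨s, hs⟩ := minpoly.exists_algEquiv_of_root' halg h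
  obtain ⟨⟨n, _⟩, hn⟩ := (FiniteField.bijective_frobeniusAlgEquivOfAlgebraic_pow (ZMod p) E).2 s
  refine ⟨n, ?_⟩
  have h1 : ∀ (k : ℕ) (x : E), (FiniteField.frobeniusAlgEquivOfAlgebraic (ZMod p) E ^ k) x = x ^ (p ^ k) := by
    intro k x
    induction k with
    | zero => simp
    | succ k ih =>
      rw [pow_succ', AlgEquiv.mul_apply, ih, FiniteField.coe_frobeniusAlgEquivOfAlgebraic, ZMod.card]
      show (x ^ p ^ k) ^ p = _
      rw [← pow_mul, pow_succ]
  have h2 : α ^ (p ^ n) = α⁻¹ := by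
    rw [← h1, ← hs]
    exact congrArg (fun t => t α) hn
  rw [pow_succ, h2, inv_mul_cancel₀ hα]

theorem field_step (B : LinearMap.BilinForm (ZMod p) V) (halt : B.IsAlt)
    (τ : Module.End (ZMod p) V) (hiso : ∀ u v, B (τ u) (τ v) = B u v)
    (h : ℕ) (hh0 : 0 < h) (hτh : τ ^ h = 1)
    (hfree : ∀ j, ¬ h ∣ j → ∀ v, (τ ^ j) v = v → v = 0)
    (U : Submodule (ZMod p) V) (hU : ∀ v ∈ U, τ v ∈ U) (hne : U ≠ ⊥)
    (hirr : ∀ U' : Submodule (ZMod p) V, U' ≤ U → (∀ v ∈ U', τ v ∈ U') → U' = ⊥ ∨ U' = U)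
    (hnd : ∀ u ∈ U, (∀ v ∈ U, B u v = 0) → u = 0) :
    ∃ i : ℕ, h ∣ p ^ i + 1 := by
  classical
  haveI : Nontrivial U := Submodule.nontrivial_iff_ne_bot.mpr hne
  let σ : Module.End (ZMod p) U := τ.restrict hU
  have hσc : ∀ (u : U), ((σ u : U) : V) = τ u := fun u => rfl
  have hσj : ∀ (j : ℕ) (u : U), (((σ ^ j) u : U) : V) = (τ ^ j) u := by
    intro j u
    induction j with
    | zero => simp
    | succ j ih =>
      rw [pow_succ', pow_succ', Module.End.mul_apply, Module.End.mul_apply, hσc, ih]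
  have hσh : σ ^ h = 1 := by
    ext u
    rw [hσj, hτh]; rfl
  have hdich : ∀ q : (ZMod p)[X], aeval σ q = 0 ∨ Function.Injective (aeval σ q) := by
    intro q
    have hK := hirr ((LinearMap.ker (aeval σ q)).map U.subtype) (Submodule.map_subtype_le U _) (by
       rintro _ ⟨u, hu, rfl⟩
       refine ⟨σ u, ?_, rfl⟩
       have hcomm : aeval σ q * σ = σ * aeval σ q := by
         have h1 : aeval σ (q * X) = aeval σ (X * q) := by rw [mul_comm]
         simpa only [map_mul, aeval_X] using h1
       have h1 := LinearMap.congr_fun hcomm u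
       have hu' : aeval σ q u = 0 := hu
       show aeval σ q (σ u) = 0
       simp only [Module.End.mul_apply] at h1
       rw [h1, hu', map_zero])
    rcases hK with hK | hK
    · right
      apply LinearMap.ker_eq_bot.mp
      rw [LinearMap.ker_eq_bot']
      intro u hu
      have h1 : (u : V) ∈ (LinearMap.ker (aeval σ q)).map U.subtype := ⟨u, hu, rfl⟩
      rw [hK] at h1
      exact Subtype.ext (by simpa using h1)
    · left
      apply LinearMap.ext
      intro u
      have h1 : (u : V) ∈ (LinearMap.ker (aeval σ q)).map U.subtype := by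
        rw [hK]; exact u.2
      obtain ⟨w, hw, hwu⟩ := h1
      have h2 : w = u := Subtype.ext hwu
      subst h2
      have hw' : aeval σ q w = 0 := hw
      rw [hw']
      rfl
  haveI : Module.Finite (ZMod p) U := Module.Finite.of_finite
  haveI hint : Algebra.IsIntegral (ZMod p) (Module.End (ZMod p) U) := Algebra.IsIntegral.of_finite _ _
  have hσint : IsIntegral (ZMod p) σ := Algebra.IsIntegral.isIntegral σ
  have hfm : (minpoly (ZMod p) σ).Monic := minpoly.monic hσint
  have hf0 : aeval σ (minpoly (ZMod p) σ) = 0 := minpoly.aeval (ZMod p) σ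
  have hirrf : Irreducible (minpoly (ZMod p) σ) := by
    rw [irreducible_iff]
    refine ⟨minpoly.not_isUnit _ _, ?_⟩
    intro a b hab
    have h0 : aeval σ a * aeval σ b = 0 := by rw [← map_mul, ← hab]; exact hf0
    have hne0 : a * b ≠ 0 := by rw [← hab]; exact hfm.ne_zero
    rcases hdich a with ha | ha
    · obtain ⟨c, hc⟩ := minpoly.dvd (ZMod p) σ ha
      right
      rw [hab] at hc
      have hb : b * c = 1 := by
        have ha0 : a ≠ 0 := left_ne_zero_of_mul hne0
        apply mul_left_cancel₀ ha0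
        rw [mul_one, ← mul_assoc]
        exact hc.symm
      exact IsUnit.of_mul_eq_one c hb
    · have hb : aeval σ b = 0 := by
        apply LinearMap.ext
        intro u
        have h3 : aeval σ a (aeval σ b u) = 0 := LinearMap.congr_fun h0 u
        apply ha
        rw [h3, LinearMap.zero_apply, map_zero]
      obtain ⟨c, hc⟩ := minpoly.dvd (ZMod p) σ hb
      left
      rw [hab] at hc
      have hb' : a * c = 1 := by
        have hb0 : b ≠ 0 := right_ne_zero_of_mul hne0
        apply mul_left_cancel₀ hb0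
        calc b * (a * c) = a * b * c := by ring
          _ = b := hc.symm
          _ = b * 1 := (mul_one b).symm
      exact IsUnit.of_mul_eq_one c hb'
  haveI : Fact (Irreducible (minpoly (ZMod p) σ)) := ⟨hirrf⟩
  have hf00 : minpoly (ZMod p) σ ≠ 0 := hfm.ne_zero
  haveI : Module.Finite (ZMod p) (AdjoinRoot (minpoly (ZMod p) σ)) := (AdjoinRoot.powerBasis hf00).finite
  haveI : Finite (AdjoinRoot (minpoly (ZMod p) σ)) := Module.finite_of_finite (ZMod p)
  let φ : AdjoinRoot (minpoly (ZMod p) σ) →ₐ[ZMod p] Module.End (ZMod p) U :=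
    Ideal.Quotient.liftₐ (Ideal.span {minpoly (ZMod p) σ}) (aeval σ) (by
      intro a ha
      obtain ⟨c, rfl⟩ := Ideal.mem_span_singleton.mp ha
      rw [map_mul, hf0, zero_mul])
  have hφα : φ (AdjoinRoot.root (minpoly (ZMod p) σ)) = σ := by
    show aeval σ (X : (ZMod p)[X]) = σ
    exact aeval_X σ
  have hφinj : Function.Injective φ := φ.toRingHom.injective
  set α := AdjoinRoot.root (minpoly (ZMod p) σ) with hαdef
  have hαh : α ^ h = 1 := by
    apply hφinj
    rw [map_pow, hφα, hσh, map_one]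
  have hα0 : α ≠ 0 := by
    intro h0
    rw [h0, zero_pow hh0.ne'] at hαh
    exact zero_ne_one hαh
  have hαinv : α⁻¹ = α ^ (h - 1) := by
    symm
    apply eq_inv_of_mul_eq_one_left
    rw [← pow_succ, show h - 1 + 1 = h by omega, hαh]
  set σ' := σ ^ (h - 1) with hσ'
  have hφβ : φ α⁻¹ = σ' := by
    rw [hαinv, map_pow, hφα]
  have hσσ' : σ * σ' = 1 := by
    rw [hσ', ← pow_succ', show h - 1 + 1 = h by omega, hσh]
  have hadj1 : ∀ (u v : U), B (σ u : U) v = B u (σ' v : U) := by
    intro u v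
    have h1 : (v : V) = (σ (σ' v) : U) := by
      have := LinearMap.congr_fun hσσ' v
      rw [Module.End.mul_apply] at this
      rw [this]
      rfl
    conv_lhs => rw [h1]
    rw [hσc, hσc, hiso]
  have hadjn : ∀ (n : ℕ) (u v : U), B ((σ ^ n) u : U) v = B u ((σ' ^ n) v : U) := by
    intro n
    induction n with
    | zero => intro u v; simp
    | succ n ih =>
      intro u v
      rw [pow_succ', Module.End.mul_apply, hadj1, ih, pow_succ, Module.End.mul_apply]
  have hadj : ∀ (q : (ZMod p)[X]) (u v : U), B (aeval σ q u : U) v = B u (aeval σ' q v : U) := by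
    intro q
    induction q using Polynomial.induction_on' with
    | add a b ha hb =>
      intro u v
      simp only [map_add, LinearMap.add_apply, Submodule.coe_add, ha, hb]
    | monomial n a =>
      intro u v
      simp only [aeval_monomial, Module.End.mul_apply, Module.algebraMap_end_apply, Submodule.coe_smul, map_smul,
        LinearMap.smul_apply, hadjn]
  have hf' : aeval σ' (minpoly (ZMod p) σ) = 0 := by
    ext v
    show ((aeval σ' (minpoly (ZMod p) σ) v : U) : V) = 0
    apply hnd _ (Subtype.property _)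
    intro w hw
    have h1 := hadj (minpoly (ZMod p) σ) ⟨w, hw⟩ v
    rw [hf0] at h1
    have h2 : B w (aeval σ' (minpoly (ZMod p) σ) v : U) = 0 := by
      rw [← h1]
      simp
    rw [← LinearMap.BilinForm.IsAlt.neg_eq halt, h2, neg_zero]
  have hmin : minpoly (ZMod p) α = minpoly (ZMod p) σ := by
    rw [hαdef, AdjoinRoot.minpoly_root hf00, hfm.leadingCoeff]
    simp
  have hβ : aeval α⁻¹ (minpoly (ZMod p) α) = 0 := by
    rw [hmin]
    apply hφinj
    rw [← aeval_algHom_apply, hφβ, hf', map_zero]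
  obtain ⟨i, hi⟩ := gal_lemma α hβ hα0
  refine ⟨i, ?_⟩
  have hσi : σ ^ (p ^ i + 1) = 1 := by
    have := congrArg φ hi
    rwa [map_pow, hφα, map_one] at this
  obtain ⟨u, hu⟩ := exists_ne (0 : U)
  by_contra hnd'
  apply hu
  apply Subtype.ext
  apply hfree _ hnd'
  rw [← hσj, hσi]
  rfl

theorem exists_lagr (B : LinearMap.BilinForm (ZMod p) V) (halt : B.IsAlt)
    (τ : Module.End (ZMod p) V) (hiso : ∀ u v, B (τ u) (τ v) = B u v)
    (h : ℕ) (hh0 : 0 < h) (hcop : h.Coprime p) (hτh : τ ^ h = 1)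
    (hfree : ∀ j, ¬ h ∣ j → ∀ v, (τ ^ j) v = v → v = 0)
    (hno : ∀ i : ℕ, ¬ h ∣ p ^ i + 1) :
    ∃ W : Submodule (ZMod p) V, (∀ v ∈ W, τ v ∈ W) ∧ B.orthogonal W = W := by
  classical
  have hpp : p.Prime := hpf.out
  have hτinv : τ * τ ^ (h - 1) = 1 := by
    rw [← pow_succ', show h - 1 + 1 = h by omega, hτh]
  -- orthogonals of invariant subspaces are invariant
  have hoinv : ∀ X : Submodule (ZMod p) V, (∀ v ∈ X, τ v ∈ X) → ∀ v ∈ B.orthogonal X, τ v ∈ B.orthogonal X := by
    intro X hX v hv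
    rw [LinearMap.BilinForm.mem_orthogonal_iff] at hv ⊢
    intro w hw
    have hw1 : (τ ^ (h - 1)) w ∈ X := by
      have : ∀ k : ℕ, (τ ^ k) w ∈ X := by
        intro k
        induction k with
        | zero => simpa using hw
        | succ k ih =>
          rw [pow_succ', Module.End.mul_apply]
          exact hX _ ih
      exact this _
    have h1 : τ ((τ ^ (h - 1)) w) = w := by
      have := LinearMap.congr_fun hτinv w
      simpa using this
    have h2 := hv _ hw1
    rw [← h1, hiso]
    exact h2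
  have hss : τ.IsSemisimple := by
    apply Module.End.isSemisimple_of_squarefree_aeval_eq_zero (p := X ^ h - C 1)
    · apply Separable.squarefree
      apply separable_X_pow_sub_C
      · intro h0
        rw [ZMod.natCast_eq_zero_iff] at h0
        have := Nat.dvd_gcd h0 (dvd_refl p)
        rw [hcop] at this
        exact hpp.one_lt.ne' (Nat.dvd_one.mp this)
      · exact one_ne_zero
    · simp [hτh]
  -- maximal invariant isotropic subspace
  let S : Set (Submodule (ZMod p) V) := {W | (∀ v ∈ W, τ v ∈ W) ∧ W ≤ B.orthogonal W}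
  have hSbot : (⊥ : Submodule (ZMod p) V) ∈ S := by
    refine ⟨?_, bot_le⟩
    intro v hv
    rw [Submodule.mem_bot] at hv ⊢
    rw [hv, map_zero]
  obtain ⟨W, hWmax⟩ := (Set.toFinite S).exists_maximal ⟨_, hSbot⟩
  have hWS : W ∈ S := hWmax.prop
  refine ⟨W, hWS.1, ?_⟩
  by_contra hne
  obtain ⟨C, hCinv, hC⟩ := Module.End.isSemisimple_iff.mp hss W ((Module.End.mem_invtSubmodule_iff_forall_mem_of_mem τ).mpr hWS.1)
  have hCinv' : ∀ v ∈ C, τ v ∈ C := (Module.End.mem_invtSubmodule_iff_forall_mem_of_mem τ).mp hCinv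
  have hOinv := hoinv W hWS.1
  -- C ⊓ orthogonal is nonzero
  have hM : C ⊓ B.orthogonal W ≠ ⊥ := by
    intro hM
    apply hne
    apply le_antisymm _ hWS.2
    intro v hv
    have hv' : v ∈ W ⊔ C := by rw [hC.sup_eq_top]; trivial
    obtain ⟨w, hw, c, hc, rfl⟩ := Submodule.mem_sup.mp hv'
    have hc' : c ∈ B.orthogonal W := by
      have := (B.orthogonal W).sub_mem hv (hWS.2 hw)
      simpa using this
    have hc0 : c ∈ C ⊓ B.orthogonal W := ⟨hc, hc'⟩
    rw [hM, Submodule.mem_bot] at hc0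
    rw [hc0, add_zero]
    exact hw
  let S' : Set (Submodule (ZMod p) V) := {U | (∀ v ∈ U, τ v ∈ U) ∧ U ≠ ⊥ ∧ U ≤ C ⊓ B.orthogonal W}
  have hS'M : C ⊓ B.orthogonal W ∈ S' := by
    refine ⟨?_, hM, le_rfl⟩
    intro v hv
    exact ⟨hCinv' _ hv.1, hOinv _ hv.2⟩
  obtain ⟨U, hUmin⟩ := (Set.toFinite S').exists_minimal ⟨_, hS'M⟩
  have hUS : U ∈ S' := hUmin.prop
  obtain ⟨hUinv, hUne, hUle⟩ := hUS
  have hirr : ∀ U' : Submodule (ZMod p) V, U' ≤ U → (∀ v ∈ U', τ v ∈ U') → U' = ⊥ ∨ U' = U := by
    intro U' hle hinv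
    by_cases hb : U' = ⊥
    · exact Or.inl hb
    · right
      have hU' : U' ∈ S' := ⟨hinv, hb, hle.trans hUle⟩
      exact le_antisymm hle (hUmin.le_of_le hU' hle)
  have hRinv : ∀ v ∈ U ⊓ B.orthogonal U, τ v ∈ U ⊓ B.orthogonal U := by
    intro v hv
    exact ⟨hUinv _ hv.1, hoinv U hUinv _ hv.2⟩
  rcases hirr (U ⊓ B.orthogonal U) inf_le_left hRinv with hR | hR
  · -- nondegenerate on U
    obtain ⟨i, hi⟩ := field_step B halt τ hiso h hh0 hτh hfree U hUinv hUne hirr (by
      intro u hu hu0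
      have : u ∈ U ⊓ B.orthogonal U := by
        refine ⟨hu, ?_⟩
        show u ∈ B.orthogonal U
        rw [LinearMap.BilinForm.mem_orthogonal_iff]
        intro n hn
        rw [← LinearMap.BilinForm.IsAlt.neg_eq halt, hu0 n hn, neg_zero]
      rw [hR, Submodule.mem_bot] at this
      exact this)
    exact hno i hi
  · -- U isotropic
    have hUiso : U ≤ B.orthogonal U := by
      rw [← hR]
      exact inf_le_right.trans (by rw [hR])
    have hWU : W ⊔ U ∈ S := by
      constructor
      · intro v hv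
        obtain ⟨w, hw, u, hu, rfl⟩ := Submodule.mem_sup.mp hv
        rw [map_add]
        exact Submodule.add_mem_sup (hWS.1 _ hw) (hUinv _ hu)
      · intro v hv
        obtain ⟨w, hw, u, hu, rfl⟩ := Submodule.mem_sup.mp hv
        rw [LinearMap.BilinForm.mem_orthogonal_iff]
        intro n hn
        obtain ⟨w', hw', u', hu', rfl⟩ := Submodule.mem_sup.mp hn
        have h1 : B w' w = 0 := LinearMap.BilinForm.mem_orthogonal_iff.mp (hWS.2 hw) _ hw'
        have h2 : B w' u = 0 := LinearMap.BilinForm.mem_orthogonal_iff.mp (hUle hu).2 _ hw'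
        have h3 : B u' w = 0 := by
          rw [← LinearMap.BilinForm.IsAlt.neg_eq halt, LinearMap.BilinForm.mem_orthogonal_iff.mp (hUle hu').2 _ hw, neg_zero]
        have h4 : B u' u = 0 := LinearMap.BilinForm.mem_orthogonal_iff.mp (hUiso hu) _ hu'
        simp [h1, h2, h3, h4]
    have hle : W ⊔ U ≤ W := hWmax.le_of_ge hWU le_sup_left
    have hUW : U ≤ W := le_sup_right.trans hle
    apply hUne
    rw [eq_bot_iff]
    have : U ≤ W ⊓ C := le_inf hUW (hUle.trans inf_le_left)
    rwa [hC.inf_eq_bot] at this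

theorem nt_step (h i n : ℕ) (hcop : h.Coprime p) (hi : h ∣ p ^ i + 1) (h2n : h ∣ p ^ (2 * n) - 1) :
    h ∣ p ^ n + 1 ∨ h ∣ p ^ n - 1 := by
  classical
  have hpp : p.Prime := hpf.out
  have hp1 : ∀ k : ℕ, 1 ≤ p ^ k := fun k => Nat.one_le_pow _ _ hpp.pos
  by_cases h2 : h ∣ 2
  · have hh : h = 1 ∨ h = 2 := by
      rcases (Nat.dvd_prime Nat.prime_two).mp h2 with h1 | h1
      · exact Or.inl h1
      · exact Or.inr h1
    rcases hh with rfl | rfl
    · exact Or.inl (one_dvd _)
    · left
      have hodd : Odd p := by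
        rcases hpp.eq_two_or_odd' with h3 | h3
        · subst h3; simp at hcop
        · exact h3
      exact (hodd.pow.add_odd odd_one).two_dvd
  have hcop' : p.Coprime h := hcop.symm
  let a : (ZMod h)ˣ := ZMod.unitOfCoprime p hcop'
  have hacoe : ((a : (ZMod h)ˣ) : ZMod h) = (p : ZMod h) := ZMod.coe_unitOfCoprime p hcop'
  have hm1 : (-1 : (ZMod h)ˣ) ≠ 1 := by
    intro h3
    have h4 : ((-1 : (ZMod h)ˣ) : ZMod h) = ((1 : (ZMod h)ˣ) : ZMod h) := congrArg _ h3
    have h5 : ((2 : ℕ) : ZMod h) = 0 := by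
      simp only [Units.val_neg, Units.val_one] at h4
      push_cast
      linear_combination -h4
    exact h2 ((ZMod.natCast_eq_zero_iff _ _).mp h5)
  have hai : a ^ i = -1 := by
    apply Units.ext
    have h3 : ((p ^ i + 1 : ℕ) : ZMod h) = 0 := (ZMod.natCast_eq_zero_iff _ _).mpr hi
    push_cast at h3
    rw [Units.val_pow_eq_pow_val, hacoe]
    simp only [Units.val_neg, Units.val_one]
    linear_combination h3
  have ha2n : a ^ (2 * n) = 1 := by
    apply Units.ext
    have h3 : ((p ^ (2 * n) - 1 : ℕ) : ZMod h) = 0 := (ZMod.natCast_eq_zero_iff _ _).mpr h2n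
    rw [Nat.cast_sub (hp1 _)] at h3
    push_cast at h3
    rw [Units.val_pow_eq_pow_val, hacoe]
    simp only [Units.val_one]
    linear_combination h3
  have ha2i : a ^ (2 * i) = 1 := by
    rw [mul_comm, pow_mul, hai]; simp
  obtain ⟨n', i', hc, hn', hi'⟩ := Nat.exists_coprime n i
  set d := Nat.gcd n i with hd
  have hy2 : (a ^ d) ^ 2 = 1 := by
    have h3 : orderOf a ∣ Nat.gcd (2 * n) (2 * i) :=
      Nat.dvd_gcd (orderOf_dvd_of_pow_eq_one ha2n) (orderOf_dvd_of_pow_eq_one ha2i)
    rw [Nat.gcd_mul_left, ← hd] at h3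
    rw [← pow_mul, mul_comm]
    exact orderOf_dvd_iff_pow_eq_one.mp h3
  have hpowy : ∀ k : ℕ, (a ^ d) ^ (2 * k) = 1 := by
    intro k
    rw [pow_mul, hy2, one_pow]
  have hain : a ^ i = (a ^ d) ^ i' := by
    conv_lhs => rw [hi']
    rw [mul_comm, pow_mul]
  have hann : a ^ n = (a ^ d) ^ n' := by
    conv_lhs => rw [hn']
    rw [mul_comm, pow_mul]
  have hi'odd : Odd i' := by
    by_contra hne
    rw [Nat.not_odd_iff_even] at hne
    obtain ⟨k, hk⟩ := hne.exists_two_nsmul
    have h3 := hain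
    rw [hk, smul_eq_mul, hpowy, hai] at h3
    exact hm1 h3
  have hy : a ^ d = -1 := by
    obtain ⟨k, hk⟩ := hi'odd
    have h3 := hain
    rw [hk, pow_succ, hpowy, one_mul, hai] at h3
    exact h3.symm
  have han : a ^ n = 1 ∨ a ^ n = -1 := by
    rw [hann, hy]
    exact neg_one_pow_eq_or _ _
  rcases han with han | han
  · right
    have h3 := congrArg (Units.val) han
    rw [Units.val_pow_eq_pow_val, hacoe, Units.val_one] at h3
    rw [← ZMod.natCast_eq_zero_iff, Nat.cast_sub (hp1 _)]
    push_cast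
    rw [h3, sub_self]
  · left
    have h3 := congrArg (Units.val) han
    rw [Units.val_pow_eq_pow_val, hacoe] at h3
    simp only [Units.val_neg, Units.val_one] at h3
    rw [← ZMod.natCast_eq_zero_iff]
    push_cast
    rw [h3]
    ring

theorem LL_main (B : LinearMap.BilinForm (ZMod p) V) (hB : B.Nondegenerate) (halt : B.IsAlt)
    (τ : Module.End (ZMod p) V) (hiso : ∀ u v, B (τ u) (τ v) = B u v)
    (h : ℕ) (hh0 : 0 < h) (hcop : h.Coprime p) (hτh : τ ^ h = 1)
    (hfree : ∀ j, ¬ h ∣ j → ∀ v, (τ ^ j) v = v → v = 0)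
    (n : ℕ) (hdim : finrank (ZMod p) V = 2 * n) :
    h ∣ p ^ n + 1 ∨ h ∣ p ^ n - 1 := by
  classical
  by_cases hno : ∃ i : ℕ, h ∣ p ^ i + 1
  · obtain ⟨i, hi⟩ := hno
    have h2n : h ∣ p ^ (2 * n) - 1 := by
      have := dvd_card_sub_one τ h hh0 hτh hfree ⊤ (by simp)
      rwa [finrank_top, hdim] at this
    exact nt_step h i n hcop hi h2n
  · push Not at hno
    obtain ⟨W, hW, hWo⟩ := exists_lagr B halt τ hiso h hh0 hcop hτh hfree hno
    right
    have h1 := LinearMap.BilinForm.finrank_orthogonal hB W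
    rw [hWo, hdim] at h1
    have h2 : finrank (ZMod p) W = n := by omega
    have := dvd_card_sub_one τ h hh0 hτh hfree W hW
    rwa [h2] at this

end LL

theorem bridge {p : ℕ} [hpf : Fact p.Prime] {V : Type*} [AddCommGroup V] [Finite V] [Module (ZMod p) V]
    (b' : V → V → ZMod p) (hbl' : ∀ u u' v, b' (u + u') v = b' u v + b' u' v)
    (hbr' : ∀ u v v', b' u (v + v') = b' u v + b' u v')
    (halt : ∀ u, b' u u = 0) (hsep : ∀ u, (∀ v, b' u v = 0) → u = 0)
    (τ0 : V →+ V) (hiso : ∀ u v, b' (τ0 u) (τ0 v) = b' u v)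
    (h : ℕ) (hh0 : 0 < h) (hcop : h.Coprime p) (hτh : ∀ u, τ0^[h] u = u)
    (hfree : ∀ j, ¬ h ∣ j → ∀ v, τ0^[j] v = v → v = 0)
    (n : ℕ) (hcard : Nat.card V = p ^ (2 * n)) : h ∣ p ^ n + 1 ∨ h ∣ p ^ n - 1 := by
  classical
  have hpp : p.Prime := hpf.out
  have hsl : ∀ (c : ZMod p) u v, b' (c • u) v = c • b' u v := by
    intro c u v
    exact (AddMonoidHom.toZModLinearMap p (AddMonoidHom.mk' (fun u => b' u v) (fun u u' => hbl' u u' v))).map_smul c u
  have hsr : ∀ (c : ZMod p) u v, b' u (c • v) = c • b' u v := by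
    intro c u v
    exact (AddMonoidHom.toZModLinearMap p (AddMonoidHom.mk' (fun v => b' u v) (fun v v' => hbr' u v v'))).map_smul c v
  let B : LinearMap.BilinForm (ZMod p) V := LinearMap.mk₂ (ZMod p) b' hbl' hsl hbr' hsr
  let τ : Module.End (ZMod p) V := AddMonoidHom.toZModLinearMap p τ0
  have hτv : ∀ u : V, (τ : V →ₗ[ZMod p] V) u = τ0 u := fun u => rfl
  have hτj : ∀ (j : ℕ) (u : V), (τ ^ j) u = τ0^[j] u := by
    intro j
    induction j with
    | zero => intro x; rfl
    | succ j ih =>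
      intro x
      rw [pow_succ, Module.End.mul_apply, hτv, ih, Function.iterate_succ_apply]
  have hτh' : τ ^ h = 1 := by
    apply LinearMap.ext
    intro u
    rw [hτj, hτh]
    rfl
  have hiso' : ∀ u v, B (τ u) (τ v) = B u v := fun u v => hiso u v
  have halt' : B.IsAlt := halt
  have hBsep : B.SeparatingLeft := hsep
  have hB : B.Nondegenerate := halt'.isRefl.nondegenerate_iff_separatingLeft.mpr hBsep
  have hfree' : ∀ j, ¬ h ∣ j → ∀ v, (τ ^ j) v = v → v = 0 := by
    intro j hj v hv
    rw [hτj] at hv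
    exact hfree j hj v hv
  have hfin : finrank (ZMod p) V = 2 * n := by
    have h1 := hcard
    rw [Module.natCard_eq_pow_finrank (K := ZMod p), Nat.card_zmod] at h1
    exact Nat.pow_right_injective hpp.two_le h1
  exact LL_main B hB halt' τ hiso' h hh0 hcop hτh' hfree' n hfin

section GpLv

open scoped commutatorElement

theorem group_level {W : Type*} [Group W] [Finite W] {p : ℕ} [hpf : Fact p.Prime]
    (hE : IsExtraspecial p W) (n : ℕ) (hn : Nat.card W = p ^ (2 * n + 1))
    (t : W →* W) (h : ℕ) (hh0 : 0 < h) (hcop : h.Coprime p) (hth : t^[h] = id)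
    (htz : ∀ z ∈ Subgroup.center W, t z = z)
    (hfix : ∀ j, ¬ h ∣ j → ∀ x, t^[j] x = x → x ∈ Subgroup.center W) :
    h ∣ p ^ n + 1 ∨ h ∣ p ^ n - 1 := by
  classical
  have hpp : p.Prime := hpf.out
  obtain ⟨⟨hW, -, hcomm⟩, hZ⟩ := hE
  have hcm : ∀ x y : W, ⁅x, y⁆ ∈ Subgroup.center W := by
    intro x y
    rw [← hcomm, commutator_def]
    exact Subgroup.commutator_mem_commutator (Subgroup.mem_top x) (Subgroup.mem_top y)
  have hc : Cfsg.Agent.Lib.LieTrick.Class2 W := fun x y z =>
    (Subgroup.mem_center_iff.mp (hcm x y) z).symm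
  have hZp : ∀ z ∈ Subgroup.center W, z ^ p = 1 := by
    intro z hz
    have := pow_card_eq_one' (x := (⟨z, hz⟩ : Subgroup.center W))
    rw [hZ] at this
    simpa using congrArg Subtype.val this
  haveI : IsCyclic (Subgroup.center W) := isCyclic_of_prime_card hZ
  let ψ : Subgroup.center W ≃* Multiplicative (ZMod p) := mulEquivOfCyclicCardEq (by
    rw [hZ]
    exact (Nat.card_zmod p).symm)
  let b : W → W → ZMod p := fun x y => Multiplicative.toAdd (ψ ⟨⁅x, y⁆, hcm x y⟩)
  have hbeq : ∀ x y x' y' : W, ⁅x, y⁆ = ⁅x', y'⁆ → b x y = b x' y' := by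
    intro x y x' y' h1
    simp only [b]
    congr 2
    exact Subtype.ext h1
  have hbl : ∀ x x' y, b (x * x') y = b x y + b x' y := by
    intro x x' y
    show Multiplicative.toAdd (ψ ⟨⁅x * x', y⁆, hcm _ _⟩) = Multiplicative.toAdd (ψ ⟨⁅x, y⁆, hcm _ _⟩) + Multiplicative.toAdd (ψ ⟨⁅x', y⁆, hcm _ _⟩)
    rw [← toAdd_mul, ← map_mul]
    congr 2
    exact Subtype.ext (Cfsg.Agent.Lib.LieTrick.comm_mul_left hc x x' y)
  have hbr : ∀ x y y', b x (y * y') = b x y + b x y' := by
    intro x y y'
    show Multiplicative.toAdd (ψ ⟨⁅x, y * y'⁆, hcm _ _⟩) = Multiplicative.toAdd (ψ ⟨⁅x, y⁆, hcm _ _⟩) + Multiplicative.toAdd (ψ ⟨⁅x, y'⁆, hcm _ _⟩)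
    rw [← toAdd_mul, ← map_mul]
    congr 2
    exact Subtype.ext (Cfsg.Agent.Lib.LieTrick.comm_mul_right hc x y y')
  have hbz : ∀ x y, b x y = 0 ↔ ⁅x, y⁆ = 1 := by
    intro x y
    constructor
    · intro h1
      have h2 : ψ ⟨⁅x, y⁆, hcm x y⟩ = 1 := h1
      have h3 : (⟨⁅x, y⁆, hcm x y⟩ : Subgroup.center W) = 1 := by
        apply ψ.injective
        rw [h2, map_one]
      exact congrArg Subtype.val h3
    · intro h1
      have h3 : (⟨⁅x, y⁆, hcm x y⟩ : Subgroup.center W) = 1 := Subtype.ext h1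
      show Multiplicative.toAdd (ψ ⟨⁅x, y⁆, hcm x y⟩) = 0
      rw [h3, map_one]
      rfl
  have hbzl : ∀ z ∈ Subgroup.center W, ∀ y, b z y = 0 := by
    intro z hz y
    rw [hbz, commutatorElement_eq_one_iff_mul_comm]
    exact (Subgroup.mem_center_iff.mp hz y).symm
  have hbzr : ∀ z ∈ Subgroup.center W, ∀ y, b y z = 0 := by
    intro z hz y
    rw [hbz, commutatorElement_eq_one_iff_mul_comm]
    exact (Subgroup.mem_center_iff.mp hz y)
  -- the quotient
  have hsurj : Function.Surjective (Abelianization.of : W →* Abelianization W) := by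
    intro a
    obtain ⟨x, hx⟩ := Quot.exists_rep a
    exact ⟨x, hx⟩
  have hker : ∀ x : W, Abelianization.of x = 1 ↔ x ∈ Subgroup.center W := by
    intro x
    rw [← hcomm, ← Abelianization.ker_of, MonoidHom.mem_ker]
  have hcl : ∀ x y : W, Abelianization.of x = Abelianization.of y → ∃ z ∈ Subgroup.center W, y = x * z := by
    intro x y hxy
    refine ⟨x⁻¹ * y, ?_, by group⟩
    rw [← hker, map_mul, map_inv, hxy, inv_mul_cancel]
  have hbc : ∀ x x' y y' : W, Abelianization.of x = Abelianization.of x' → Abelianization.of y = Abelianization.of y' →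
      b x y = b x' y' := by
    intro x x' y y' h1 h2
    obtain ⟨z, hz, rfl⟩ := hcl _ _ h1
    obtain ⟨w, hw, rfl⟩ := hcl _ _ h2
    rw [hbl, hbr, hbzl z hz, hbzr w hw, add_zero, add_zero]
  let s : Abelianization W → W := Function.surjInv hsurj
  have hs : ∀ a, Abelianization.of (s a) = a := Function.surjInv_eq hsurj
  let b' : Additive (Abelianization W) → Additive (Abelianization W) → ZMod p :=
    fun u v => b (s u.toMul) (s v.toMul)
  let oo : W → Additive (Abelianization W) := fun x => Additive.ofMul (Abelianization.of x)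
  have hoo : ∀ u, ∃ x, u = oo x := by
    intro u
    obtain ⟨x, hx⟩ := hsurj u.toMul
    exact ⟨x, by simp [oo, hx]⟩
  have hoom : ∀ x y, oo (x * y) = oo x + oo y := by
    intro x y
    simp [oo]
  have hb'of : ∀ x y, b' (oo x) (oo y) = b x y := fun x y => hbc _ _ _ _ (hs _) (hs _)
  have hbl' : ∀ u u' v, b' (u + u') v = b' u v + b' u' v := by
    intro u u' v
    obtain ⟨x, rfl⟩ := hoo u
    obtain ⟨x', rfl⟩ := hoo u'
    obtain ⟨y, rfl⟩ := hoo v
    rw [← hoom, hb'of, hb'of, hb'of, hbl]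
  have hbr' : ∀ u v v', b' u (v + v') = b' u v + b' u v' := by
    intro u v v'
    obtain ⟨x, rfl⟩ := hoo u
    obtain ⟨y, rfl⟩ := hoo v
    obtain ⟨y', rfl⟩ := hoo v'
    rw [← hoom, hb'of, hb'of, hb'of, hbr]
  have hpow : ∀ x : W, x ^ p ∈ Subgroup.center W := by
    intro x
    rw [Subgroup.mem_center_iff]
    intro y
    have h1 : ⁅x ^ p, y⁆ = ⁅x, y⁆ ^ p := Cfsg.Agent.Lib.LieTrick.comm_pow_left hc x y p
    rw [hZp _ (hcm x y)] at h1
    rw [commutatorElement_eq_one_iff_mul_comm] at h1
    exact h1.symm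
  have hpV : ∀ u : Additive (Abelianization W), p • u = 0 := by
    intro u
    obtain ⟨x, rfl⟩ := hoo u
    have h1 : Abelianization.of (x ^ p) = 1 := (hker _).mpr (hpow x)
    rw [map_pow] at h1
    show Additive.ofMul ((Abelianization.of x) ^ p) = 0
    rw [h1]
    rfl
  have hhb : ∀ x y, b' (oo x) (oo y) = b x y := hb'of
  let τ0 : Additive (Abelianization W) →+ Additive (Abelianization W) := MonoidHom.toAdditive (Abelianization.map t)
  have hτof : ∀ x, τ0 (oo x) = oo (t x) := fun x => rfl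
  have hτj : ∀ (j : ℕ) (x : W), τ0^[j] (oo x) = oo (t^[j] x) := by
    intro j
    induction j with
    | zero => intro x; rfl
    | succ j ih =>
      intro x
      rw [Function.iterate_succ_apply, hτof, ih, Function.iterate_succ_apply]
  have hτh : ∀ u, τ0^[h] u = u := by
    intro u
    obtain ⟨x, rfl⟩ := hoo u
    rw [hτj, hth]
    rfl
  have hiso : ∀ u v, b' (τ0 u) (τ0 v) = b' u v := by
    intro u v
    obtain ⟨x, rfl⟩ := hoo u
    obtain ⟨y, rfl⟩ := hoo v
    rw [hτof, hτof, hhb, hhb]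
    apply hbeq
    rw [← map_commutatorElement, htz _ (hcm x y)]
  have halt : ∀ u, b' u u = 0 := by
    intro u
    obtain ⟨x, rfl⟩ := hoo u
    rw [hhb, hbz, commutatorElement_self]
  have hBsep : ∀ u, (∀ v, b' u v = 0) → u = 0 := by
    intro u hu
    obtain ⟨x, rfl⟩ := hoo u
    have hx : x ∈ Subgroup.center W := by
      rw [Subgroup.mem_center_iff]
      intro y
      have h1 := hu (oo y)
      rw [hhb, hbz, commutatorElement_eq_one_iff_mul_comm] at h1
      exact h1.symm
    show Additive.ofMul (Abelianization.of x) = 0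
    rw [(hker x).mpr hx]
    rfl
  have hfree : ∀ j, ¬ h ∣ j → ∀ v, τ0^[j] v = v → v = 0 := by
    intro j hj v hv
    obtain ⟨x, rfl⟩ := hoo v
    rw [hτj] at hv
    have h1 : Abelianization.of (t^[j] x) = Abelianization.of x := Additive.ofMul.injective hv
    obtain ⟨z, hz, hzx⟩ := hcl _ _ h1.symm
    have htk : ∀ k : ℕ, t^[j * k] x = x * z ^ k := by
      intro k
      induction k with
      | zero => simp
      | succ k ih =>
        rw [mul_add, mul_one, Function.iterate_add_apply, hzx, iterate_map_mul, ih,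
          Function.iterate_fixed (htz z hz), pow_succ, mul_assoc]
    have hzh : z ^ h = 1 := by
      have h2 := htk h
      rw [mul_comm, Function.iterate_mul, hth, Function.iterate_id] at h2
      exact (mul_eq_left.mp h2.symm)
    have hz1 : z = 1 := by
      have := (pow_gcd_eq_one (a := z) (m := h) (n := p)).mpr ⟨hzh, hZp z hz⟩
      rwa [hcop, pow_one] at this
    have hfx : t^[j] x = x := by rw [hzx, hz1, mul_one]
    have hxc := hfix j hj x hfx
    show Additive.ofMul (Abelianization.of x) = 0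
    rw [(hker x).mpr hxc]
    rfl
  have hcardA : Nat.card (Additive (Abelianization W)) = p ^ (2 * n) := by
    have h1 := Subgroup.card_eq_card_quotient_mul_card_subgroup (commutator W)
    rw [hcomm, hZ, hn, pow_succ] at h1
    have h2 : Nat.card (W ⧸ Subgroup.center W) = p ^ (2 * n) :=
      (Nat.eq_of_mul_eq_mul_right hpp.pos h1).symm
    rw [← hcomm] at h2
    exact h2
  letI : Module (ZMod p) (Additive (Abelianization W)) := AddCommGroup.zmodModule hpV
  exact bridge b' hbl' hbr' halt hBsep τ0 hiso h hh0 hcop hτh hfree n hcardA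

end GpLv


/-- Let P be an extraspecial p-group of order p^(2n+1) and H a cyclic group of order h prime to p acting on P (inside a common finite group: H normalizes P) so that C_P(x) = Z(P) for every non-identity x ∈ H. Then h divides p^n + 1 or h divides p^n − 1. -/
theorem result {G : Type*} [Group G] [Finite G] {p : ℕ} [Fact p.Prime] (P H : Subgroup G) (hP : Cfsg.IsExtraspecial p ↥P) (n : ℕ) (hn : Nat.card P = p ^ (2 * n + 1)) (hH : IsCyclic H) (hcop : (Nat.card H).Coprime p) (hHP : H ≤ Subgroup.normalizer (P : Set G)) (hfix : ∀ x ∈ H, x ≠ 1 → P ⊓ Subgroup.centralizer {x} = (Subgroup.center ↥P).map P.subtype) : Nat.card H ∣ p ^ n + 1 ∨ Nat.card H ∣ p ^ n - 1 := by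
  classical
  by_cases hh1 : Nat.card H = 1
  · left; rw [hh1]; exact one_dvd _
  obtain ⟨g, hg⟩ := hH.exists_generator
  have hord : orderOf g = Nat.card H := orderOf_eq_card_of_forall_mem_zpowers hg
  have hx₀ : orderOf (g : G) = Nat.card H := by rw [← hord]; exact Subgroup.orderOf_coe g
  have hconj : ∀ y ∈ P, (g : G) * y * (g : G)⁻¹ ∈ P := fun y hy =>
    (Subgroup.mem_normalizer_iff.mp (hHP g.2) y).mp hy
  let t : ↥P →* ↥P :=
    { toFun := fun y => ⟨(g : G) * y * (g : G)⁻¹, hconj _ y.2⟩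
      map_one' := by ext; simp
      map_mul' := by
        intro a b
        apply Subtype.ext
        show (g : G) * ((a : G) * (b : G)) * (g : G)⁻¹ = ((g : G) * a * (g : G)⁻¹) * ((g : G) * b * (g : G)⁻¹)
        group }
  have htj : ∀ (j : ℕ) (y : ↥P), ((t^[j] y : ↥P) : G) = (g : G) ^ j * y * ((g : G) ^ j)⁻¹ := by
    intro j y
    induction j with
    | zero => simp
    | succ j ih =>
      rw [Function.iterate_succ_apply']
      show (g : G) * ((t^[j] y : ↥P) : G) * (g : G)⁻¹ = _
      rw [ih, pow_succ']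
      group
  have hg1 : (g : G) ≠ 1 := by
    intro h1
    apply hh1
    rw [← hx₀, h1, orderOf_one]
  apply group_level hP n hn t (Nat.card H) Nat.card_pos hcop
  · funext y
    apply Subtype.ext
    rw [htj, ← hx₀, pow_orderOf_eq_one]
    simp
  · intro z hz
    have h1 : (z : G) ∈ P ⊓ Subgroup.centralizer {(g : G)} := by
      rw [hfix (g : G) g.2 hg1]
      exact ⟨z, hz, rfl⟩
    have h2 := Subgroup.mem_centralizer_singleton_iff.mp h1.2
    apply Subtype.ext
    show (g : G) * z * (g : G)⁻¹ = z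
    rw [← h2]
    group
  · intro j hj y hy
    have hne : (g : G) ^ j ≠ 1 := fun h1 => hj (by rw [← hx₀]; exact orderOf_dvd_of_pow_eq_one h1)
    have h1 : (y : G) ∈ P ⊓ Subgroup.centralizer {(g : G) ^ j} := by
      refine ⟨y.2, ?_⟩
      show (y : G) ∈ Subgroup.centralizer {(g : G) ^ j}
      rw [Subgroup.mem_centralizer_singleton_iff]
      have h2 := congrArg Subtype.val hy
      rw [htj] at h2
      rw [mul_inv_eq_iff_eq_mul] at h2
      exact h2.symm
    rw [hfix _ (H.pow_mem g.2 j) hne] at h1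
    obtain ⟨z, hz, hzy⟩ := h1
    have h3 : z = y := Subtype.ext hzy
    rw [← h3]
    exact hz

end Cfsg.Agent.S3767
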