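import Mathlib
import Cfsg.Statements.S3768
import Cfsg.Agent.S0035
-- import your own Cfsg.Agent.* helpers here

set_option autoImplicit false
open Cfsg

namespace Cfsg.Agent.S3768

open scoped Pointwise

theorem mem_conj' {G : Type*} [Group G] (H : Subgroup G) (x y : G) : x ∈ MulAut.conj y • H ↔ y⁻¹ * x * y ∈ H := by
  rw [Subgroup.mem_pointwise_smul_iff_inv_smul_mem]
  simp [MulAut.smul_def, MulAut.conj_inv_apply]


/-- Let G be a finite Frobenius group with Frobenius complement R and Frobenius kernel K (the identity together with the elements in no conjugate of R), and let N be a normal subgroup of G not containing K. Then G/N is a Frobenius group with Frobenius complement RN/N whose Frobenius kernel is the image of K. -/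
theorem result {G : Type*} [Group G] [Finite G] (R : Subgroup G) (hR : Cfsg.IsFrobeniusComplement R) (N : Subgroup G) [N.Normal] (hKN : ¬ Cfsg.frobeniusKernel R ⊆ N) : Cfsg.IsFrobeniusComplement (R.map (QuotientGroup.mk' N)) ∧ Cfsg.frobeniusKernel (R.map (QuotientGroup.mk' N)) = QuotientGroup.mk' N '' Cfsg.frobeniusKernel R := by
  classical
  obtain ⟨K, hKs, hKn, hKc⟩ := Cfsg.Agent.S0035.result R hR
  have hmemK : ∀ x, x ∈ K ↔ x ∈ Cfsg.frobeniusKernel R := by
    intro x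
    rw [← hKs]
    rfl
  have hKR : K ⊓ R = ⊥ := hKc.disjoint.eq_bot
  have hKRone : ∀ x, x ∈ K → x ∈ R → x = 1 := by
    intro x h1 h2
    have : x ∈ K ⊓ R := ⟨h1, h2⟩
    rwa [hKR, Subgroup.mem_bot] at this
  have hdec : ∀ g : G, ∃ k ∈ K, ∃ r ∈ R, g = k * r := by
    intro g
    have : g ∈ K ⊔ R := by
      rw [hKc.sup_eq_top]
      trivial
    obtain ⟨k, hk, r, hr, rfl⟩ := Subgroup.mem_sup_of_normal_left.mp this
    exact ⟨k, hk, r, hr, rfl⟩
  have hnotK : ∀ x, x ∉ K → ∃ g : G, g⁻¹ * x * g ∈ R := by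
    intro x hx
    rw [hmemK] at hx
    simp only [Cfsg.frobeniusKernel, Set.mem_ofPred_eq, not_or, not_forall, not_not] at hx
    obtain ⟨-, g, hg⟩ := hx
    exact ⟨g, (mem_conj' R x g).mp hg⟩
  have hfree : ∀ r ∈ R, r ≠ 1 → ∀ c ∈ K, c * r * c⁻¹ = r → c = 1 := by
    intro r hr hr1 c hc hcr
    by_contra hc1
    have hcR : c ∉ R := fun h => hc1 (hKRone c hc h)
    have h1 := hR.2.2 c hcR
    have h2 : r ∈ R ⊓ (MulAut.conj c • R) := by
      refine ⟨hr, (mem_conj' R r c).mpr ?_⟩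
      have h3 : c⁻¹ * r * c = r := by
        calc c⁻¹ * r * c = c⁻¹ * (c * r * c⁻¹) * c := by rw [hcr]
          _ = r := by group
      rw [h3]
      exact hr
    rw [h1, Subgroup.mem_bot] at h2
    exact hr1 h2
  have hψinj : ∀ r ∈ R, r ≠ 1 → ∀ k ∈ K, ∀ k' ∈ K, r⁻¹ * k * r * k⁻¹ = r⁻¹ * k' * r * k'⁻¹ → k = k' := by
    intro r hr hr1 k hk k' hk' he
    have h1 : k * r * k⁻¹ = k' * r * k'⁻¹ := by
      have h2 : r * (r⁻¹ * k * r * k⁻¹) = r * (r⁻¹ * k' * r * k'⁻¹) := by rw [he]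
      simpa [mul_assoc] using h2
    have h3 := hfree r hr hr1 (k'⁻¹ * k) (mul_mem (inv_mem hk') hk) (by
      calc k'⁻¹ * k * r * (k'⁻¹ * k)⁻¹ = k'⁻¹ * (k * r * k⁻¹) * k' := by group
        _ = k'⁻¹ * (k' * r * k'⁻¹) * k' := by rw [h1]
        _ = r := by group)
    have h4 : k = k' * (k'⁻¹ * k) := by group
    rw [h4, h3, mul_one]
  have hψ : ∀ r ∈ R, r ≠ 1 → ∀ A : Subgroup G, A ≤ K → (∀ a ∈ A, r⁻¹ * a * r ∈ A) → ∀ k ∈ K, r⁻¹ * k * r * k⁻¹ ∈ A → k ∈ A := by
    intro r hr hr1 A hAK hrA k hk hkA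
    let ψ : A → A := fun a => ⟨r⁻¹ * a * r * (a : G)⁻¹, mul_mem (hrA a a.2) (inv_mem a.2)⟩
    have hinj : Function.Injective ψ := by
      intro a b hab
      have h1 : r⁻¹ * (a : G) * r * (a : G)⁻¹ = r⁻¹ * (b : G) * r * (b : G)⁻¹ := congrArg Subtype.val hab
      exact Subtype.ext (hψinj r hr hr1 a (hAK a.2) b (hAK b.2) h1)
    obtain ⟨a, ha⟩ := (Finite.injective_iff_surjective.mp hinj) ⟨_, hkA⟩
    have h2 : r⁻¹ * (a : G) * r * (a : G)⁻¹ = r⁻¹ * k * r * k⁻¹ := congrArg Subtype.val ha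
    have h3 := hψinj r hr hr1 a (hAK a.2) k hk h2
    rw [← h3]
    exact a.2
  have hKnotN : ∃ k ∈ K, k ∉ N := by
    by_contra hcon
    apply hKN
    intro x hx
    by_contra hxN
    exact hcon ⟨x, (hmemK x).mpr hx, hxN⟩
  obtain ⟨k₀, hk₀, hk₀N⟩ := hKnotN
  have hNK : N ≤ K := by
    intro x hxN
    by_contra hxK
    obtain ⟨g, hg⟩ := hnotK x hxK
    have hrN : g⁻¹ * x * g ∈ N := by
      have := (inferInstance : N.Normal).conj_mem x hxN g⁻¹
      simpa using this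
    have hr1 : g⁻¹ * x * g ≠ 1 := by
      intro h
      apply hxK
      have h1 : x = g * (g⁻¹ * x * g) * g⁻¹ := by group
      rw [h1, h, mul_one, mul_inv_cancel]
      exact one_mem _
    set r := g⁻¹ * x * g with hr
    have hk₀2 : k₀ ∈ K ⊓ N := by
      refine hψ r hg hr1 (K ⊓ N) inf_le_left ?_ k₀ hk₀ (Subgroup.mem_inf.mpr ⟨?_, ?_⟩)
      · rintro a ⟨ha1, ha2⟩
        refine Subgroup.mem_inf.mpr ⟨?_, ?_⟩
        · have := hKn.conj_mem a ha1 r⁻¹
          simpa using this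
        · have := (inferInstance : N.Normal).conj_mem a ha2 r⁻¹
          simpa using this
      · refine K.mul_mem ?_ (K.inv_mem hk₀)
        have := hKn.conj_mem k₀ hk₀ r⁻¹
        simpa using this
      · have h1 : r⁻¹ * k₀ * r * k₀⁻¹ = r⁻¹ * (k₀ * r * k₀⁻¹) := by group
        rw [h1]
        exact N.mul_mem (N.inv_mem hrN) ((inferInstance : N.Normal).conj_mem r hrN k₀)
    exact hk₀N hk₀2.2
  let f : G →* G ⧸ N := QuotientGroup.mk' N
  have hf : Function.Surjective f := QuotientGroup.mk'_surjective N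
  have hfk : ∀ x, f x = 1 ↔ x ∈ N := fun x => QuotientGroup.eq_one_iff x
  have hfeq : ∀ x y, f x = f y → y⁻¹ * x ∈ N := by
    intro x y h
    rw [← hfk, map_mul, map_inv, h, inv_mul_cancel]
  refine ⟨⟨?_, ?_, ?_⟩, ?_⟩
  · intro hbot
    apply hR.1
    rw [eq_bot_iff]
    intro r hr
    have h1 : f r ∈ R.map f := ⟨r, hr, rfl⟩
    rw [hbot, Subgroup.mem_bot] at h1
    exact hKRone r (hNK ((hfk r).mp h1)) hr
  · intro htop
    have h1 : f k₀ ∈ R.map f := by
      rw [htop]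
      trivial
    obtain ⟨r, hr, hre⟩ := h1
    have h2 := hfeq _ _ hre.symm
    have h3 : r ∈ K := by
      have h4 : r = k₀ * (r⁻¹ * k₀)⁻¹ := by group
      rw [h4]
      exact mul_mem hk₀ (inv_mem (hNK h2))
    have h5 := hKRone r h3 hr
    rw [h5, map_one] at hre
    exact hk₀N ((hfk k₀).mp hre.symm)
  · intro gb hgb
    obtain ⟨g, rfl⟩ := hf gb
    obtain ⟨k, hk, r₀, hr₀, rfl⟩ := hdec g
    have hkN : k ∉ N := by
      intro h
      apply hgb
      refine ⟨r₀, hr₀, ?_⟩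
      rw [map_mul, (hfk k).mpr h, one_mul]
    rw [eq_bot_iff]
    rintro xb ⟨hx1, hx2⟩
    obtain ⟨r₁, hr₁, rfl⟩ := hx1
    have hx2' := (mem_conj' _ _ _).mp hx2
    obtain ⟨r₂, hr₂, hr₂e⟩ := hx2'
    rw [Subgroup.mem_bot]
    by_contra hne
    have hr₁1 : r₁ ≠ 1 := by
      rintro rfl
      exact hne (map_one f)
    set r₃ := r₀ * r₂ * r₀⁻¹ with hr₃
    have hr₃R : r₃ ∈ R := mul_mem (mul_mem hr₀ hr₂) (inv_mem hr₀)
    have hfu : f (k⁻¹ * r₁ * k) = f r₃ := by
      have h1 : f r₂ = f (k * r₀)⁻¹ * f r₁ * f (k * r₀) := hr₂e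
      rw [hr₃]
      simp only [map_mul, map_inv] at h1 ⊢
      rw [h1]
      group
    have hu := hfeq _ _ hfu
    have hr₃r₁ : r₃⁻¹ * r₁ ∈ K := by
      have hu2 : r₃⁻¹ * (k⁻¹ * r₁ * k) ∈ K := hNK hu
      have h2 : r₃⁻¹ * r₁ = (r₃⁻¹ * (k⁻¹ * r₁ * k)) * (k⁻¹ * r₁⁻¹ * k * r₁) := by group
      rw [h2]
      refine K.mul_mem hu2 ?_
      have h3 : k⁻¹ * r₁⁻¹ * k * r₁ = k⁻¹ * (r₁⁻¹ * k * r₁) := by group
      rw [h3]
      refine K.mul_mem (K.inv_mem hk) ?_
      have := hKn.conj_mem k hk r₁⁻¹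
      simpa using this
    have hr₃e : r₃⁻¹ * r₁ = 1 := hKRone _ hr₃r₁ (R.mul_mem (R.inv_mem hr₃R) hr₁)
    have hr₃eq : r₃ = r₁ := (inv_mul_eq_one.mp hr₃e)
    rw [hr₃eq] at hu
    have hkinv : k⁻¹ ∈ N := by
      refine hψ r₁ hr₁ hr₁1 N hNK ?_ k⁻¹ (K.inv_mem hk) ?_
      · intro a ha
        have := (inferInstance : N.Normal).conj_mem a ha r₁⁻¹
        simpa using this
      · have h3 : r₁⁻¹ * k⁻¹ * r₁ * k⁻¹⁻¹ = r₁⁻¹ * (k⁻¹ * r₁ * k) := by group
        rw [h3]
        exact hu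
    apply hkN
    have := N.inv_mem hkinv
    simpa using this
  · ext xb
    obtain ⟨x, rfl⟩ := hf xb
    constructor
    · intro hx
      by_cases hxK : x ∈ K
      · exact ⟨x, (hmemK x).mp hxK, rfl⟩
      · exfalso
        obtain ⟨g, hg⟩ := hnotK x hxK
        rcases hx with hx | hx
        · exact hxK (hNK ((hfk x).mp hx))
        · apply hx (f g)
          refine (mem_conj' _ _ _).mpr ⟨_, hg, ?_⟩
          show f (g⁻¹ * x * g) = _
          simp only [map_mul, map_inv]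
    · rintro ⟨k, hk, hke⟩
      have hk' : k ∈ K := (hmemK k).mpr hk
      have hkx : f k = f x := hke
      rw [← hkx]
      by_cases hk1 : f k = 1
      · exact Or.inl hk1
      · refine Or.inr ?_
        intro gb hgb
        obtain ⟨g, rfl⟩ := hf gb
        obtain ⟨r, hr, hre⟩ := (mem_conj' _ _ _).mp hgb
        have h1 : f r = f (g⁻¹ * k * g) := by
          rw [hre]
          simp
        have h2 := hfeq _ _ h1
        have h3 : g⁻¹ * k * g ∈ K := by
          have := hKn.conj_mem k hk' g⁻¹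
          simpa using this
        have h4 : r ∈ K := by
          have h5 : r = (g⁻¹ * k * g) * ((g⁻¹ * k * g)⁻¹ * r) := by group
          rw [h5]
          exact K.mul_mem h3 (hNK h2)
        have h5 := hKRone r h4 hr
        rw [h5, map_one] at h1
        have h6 : g⁻¹ * k * g ∈ N := (hfk _).mp h1.symm
        apply hk1
        rw [hfk]
        have := (inferInstance : N.Normal).conj_mem _ h6 g
        simpa [mul_assoc] using this

end Cfsg.Agent.S3768
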