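import Mathlib
import Cfsg.Statements.S3771
import Cfsg.Agent.Lib.H6Frobenius
import Cfsg.Agent.Lib.PGroupBasic
import Cfsg.Agent.Lib.H6Basic
-- import your own Cfsg.Agent.* helpers here

set_option autoImplicit false
open Cfsg

namespace Cfsg.Agent.S3771

/-- Let p be a prime and R a finite p-group of p-rank at most 2 (no elementary abelian subgroup of order p³) in which every element has order dividing p. Then R has order at most p³. -/
theorem result {R : Type*} [Group R] [Finite R] {p : ℕ} [Fact p.Prime] (hR : IsPGroup p R) (hrank : Cfsg.PRankLE p 2 R) (hexp : ∀ x : R, x ^ p = 1) : Nat.card R ≤ p ^ 3 := by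
  classical
  have hp : p.Prime := Fact.out
  obtain ⟨n, hn⟩ := IsPGroup.iff_card.mp hR
  by_contra hcon
  push Not at hcon
  have hn4 : 4 ≤ n := by
    by_contra h
    have h1 : p ^ n ≤ p ^ 3 := Nat.pow_le_pow_right hp.pos (by omega)
    rw [hn] at hcon
    omega
  have hppos : 0 < p := hp.pos
  -- a normal subgroup of order `p ^ 2`
  have hcount := Cfsg.Agent.Lib.H6Frobenius.card_normal_subgroups_modEq_one (G := R) p n 2 hn (by omega)
  have hex : Nonempty {H : Subgroup R // H.Normal ∧ Nat.card H = p ^ 2} := by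
    by_contra hempty
    rw [not_nonempty_iff] at hempty
    rw [Nat.card_of_isEmpty] at hcount
    have h1 : 0 % p = 1 % p := hcount
    rw [Nat.zero_mod, Nat.mod_eq_of_lt hp.one_lt] at h1
    omega
  obtain ⟨⟨A, hAn, hAc⟩⟩ := hex
  haveI := hAn
  have hAbot : A ≠ ⊥ := by
    intro h
    rw [h, Subgroup.card_bot] at hAc
    have : 1 < p ^ 2 := Nat.one_lt_pow (by norm_num) hp.one_lt
    omega
  obtain ⟨z, hzA, hz1, hzc⟩ := Cfsg.Agent.Lib.PGroupBasic.exists_ne_one_mem_center_of_normal hR A hAbot
  have hzord : orderOf z = p := orderOf_eq_prime (hexp z) hz1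
  -- an element of `A` outside `⟨z⟩`
  have hZcard : Nat.card (Subgroup.zpowers z) = p := by rw [Nat.card_zpowers, hzord]
  obtain ⟨a, haA, haz⟩ : ∃ a ∈ A, a ∉ Subgroup.zpowers z := by
    by_contra hall
    push Not at hall
    have hle : A ≤ Subgroup.zpowers z := hall
    have h1 := Subgroup.card_le_of_le hle
    rw [hAc, hZcard] at h1
    nlinarith [hp.two_le]
  -- `A` is commutative and generated by `z` and `a`
  have hAcomm : ∀ u ∈ A, ∀ v ∈ A, u * v = v * u := by
    intro u hu v hv
    haveI : Fact p.Prime := ⟨hp⟩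
    have hcard : Nat.card A = p ^ 2 := hAc
    have h1 := (IsPGroup.isMulCommutative_of_card_eq_prime_sq hcard).is_comm.comm (⟨u, hu⟩ : A) ⟨v, hv⟩
    exact congrArg Subtype.val h1
  have hsup : Subgroup.zpowers z ⊔ Subgroup.zpowers a = A := by
    have hle : Subgroup.zpowers z ⊔ Subgroup.zpowers a ≤ A :=
      sup_le ((Subgroup.zpowers_le).mpr hzA) ((Subgroup.zpowers_le).mpr haA)
    apply Subgroup.eq_of_le_of_card_ge hle
    rw [hAc]
    -- the join is strictly bigger than `⟨z⟩`
    have hlt : Subgroup.zpowers z < Subgroup.zpowers z ⊔ Subgroup.zpowers a := by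
      refine lt_of_le_of_ne le_sup_left (fun h => haz ?_)
      rw [h]
      exact (le_sup_right : Subgroup.zpowers a ≤ _) (Subgroup.mem_zpowers a)
    obtain ⟨t, ht⟩ := IsPGroup.iff_card.mp (hR.to_subgroup (Subgroup.zpowers z ⊔ Subgroup.zpowers a))
    have h1 : Nat.card (Subgroup.zpowers z) < Nat.card ↥(Subgroup.zpowers z ⊔ Subgroup.zpowers a) :=
      lt_of_not_ge (fun h => hlt.ne (Subgroup.eq_of_le_of_card_ge hlt.le h))
    rw [hZcard, ht] at h1
    rw [ht]
    have ht2 : 2 ≤ t := by
      by_contra hlt2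
      have : t ≤ 1 := by omega
      have h2 : p ^ t ≤ p ^ 1 := Nat.pow_le_pow_right hppos this
      rw [pow_one] at h2
      omega
    exact Nat.pow_le_pow_right hppos ht2
  -- centralizer of `a` has index at most `p`
  let C : Subgroup R := Subgroup.centralizer ({a} : Set R)
  have ha1 : a ≠ 1 := fun h => haz (h ▸ Subgroup.one_mem _)
  have hCA : ∀ c ∈ C, ∀ u ∈ A, c * u = u * c := by
    intro c hc u hu
    have hsub : Subgroup.zpowers z ⊔ Subgroup.zpowers a ≤ Subgroup.centralizer ({c} : Set R) := by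
      refine sup_le ?_ ?_
      · rw [Subgroup.zpowers_le, Subgroup.mem_centralizer_singleton_iff]
        exact ((Subgroup.mem_center_iff.mp hzc) c).symm
      · rw [Subgroup.zpowers_le, Subgroup.mem_centralizer_singleton_iff]
        exact (Subgroup.mem_centralizer_singleton_iff.mp hc).symm
    rw [← hsup] at hu
    have := hsub hu
    rw [Subgroup.mem_centralizer_singleton_iff] at this
    exact this.symm
  have hidx : C.index ≤ p := by
    have h1 : Nat.card {y : R // IsConj a y} = C.index := Cfsg.Agent.Lib.H6Basic.card_class_eq_index a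
    have hdvd : C.index ∣ p ^ n := by
      rw [← hn]
      exact Subgroup.index_dvd_card C
    obtain ⟨t, -, ht⟩ := (Nat.dvd_prime_pow hp).mp hdvd
    have h2 : Nat.card {y : R // IsConj a y} < p ^ 2 := by
      have hinj : Function.Injective (fun y : {y : R // IsConj a y} => (⟨y.1, by
          obtain ⟨g, hg⟩ := isConj_iff.mp y.2
          rw [← hg]
          exact hAn.conj_mem a haA g⟩ : A)) := by
        intro x y hxy
        exact Subtype.ext (congrArg (fun t : A => (t : R)) hxy)
      have hns : ¬ Function.Surjective (fun y : {y : R // IsConj a y} => (⟨y.1, by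
          obtain ⟨g, hg⟩ := isConj_iff.mp y.2
          rw [← hg]
          exact hAn.conj_mem a haA g⟩ : A)) := by
        intro hsurj
        obtain ⟨y, hy⟩ := hsurj 1
        have h3 : y.1 = 1 := congrArg (fun t : A => (t : R)) hy
        obtain ⟨g, hg⟩ := isConj_iff.mp y.2
        rw [h3] at hg
        apply ha1
        have : a = g⁻¹ * (g * a * g⁻¹) * g := by group
        rw [this, hg]
        group
      by_contra hge
      push Not at hge
      exact hns (hinj.bijective_of_nat_card_le (by rw [hAc]; exact hge)).2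
    rw [h1, ht] at h2
    rw [ht]
    have ht1 : t ≤ 1 := by
      by_contra hlt
      have h5 : p ^ 2 ≤ p ^ t := Nat.pow_le_pow_right hppos (by omega)
      omega
    calc p ^ t ≤ p ^ 1 := Nat.pow_le_pow_right hppos ht1
      _ = p := pow_one p
  have hCcard : p ^ 3 ≤ Nat.card C := by
    have h1 := C.card_mul_index
    rw [hn] at h1
    have h2 : Nat.card C * C.index ≤ Nat.card C * p := Nat.mul_le_mul_left _ hidx
    have h3 : p ^ 4 ≤ p ^ n := Nat.pow_le_pow_right hppos hn4
    have h4 : p ^ 3 * p ≤ Nat.card C * p := by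
      calc p ^ 3 * p = p ^ 4 := by ring
        _ ≤ p ^ n := h3
        _ = Nat.card C * C.index := h1.symm
        _ ≤ _ := h2
    exact Nat.le_of_mul_le_mul_right h4 hppos
  obtain ⟨x, hxC, hxA⟩ : ∃ x ∈ C, x ∉ A := by
    by_contra hall
    push Not at hall
    have hle : C ≤ A := hall
    have h1 := Subgroup.card_le_of_le hle
    rw [hAc] at h1
    have h2 : p ^ 2 < p ^ 3 := Nat.pow_lt_pow_right hp.one_lt (by norm_num)
    omega
  let B : Subgroup R := A ⊔ Subgroup.zpowers x
  have hcomm' : ∀ u ∈ A, Commute x u := fun u hu => hCA x hxC u hu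
  have hBform : ∀ b ∈ B, ∃ u ∈ A, ∃ i : ℤ, b = u * x ^ i := by
    intro b hb
    obtain ⟨u, hu, _, ⟨i, rfl⟩, rfl⟩ := Subgroup.mem_sup_of_normal_left.mp hb
    exact ⟨u, hu, i, rfl⟩
  have hBcomm : IsMulCommutative B := by
    refine ⟨⟨fun s t => ?_⟩⟩
    apply Subtype.ext
    obtain ⟨u, hu, i, hs⟩ := hBform s.1 s.2
    obtain ⟨v, hv, j, ht⟩ := hBform t.1 t.2
    change s.1 * t.1 = t.1 * s.1
    rw [hs, ht]
    have h1 : Commute u v := hAcomm u hu v hv
    have h2 : Commute u (x ^ j) := ((hcomm' u hu).zpow_left j).symm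
    have h3 : Commute (x ^ i) v := (hcomm' v hv).zpow_left i
    have h4 : Commute (x ^ i) (x ^ j) := (Commute.refl x).zpow_zpow i j
    exact ((h1.mul_right h2).mul_left (h3.mul_right h4)).eq
  have hBle := hrank B hBcomm (fun b _ => hexp b)
  have hAB : A < B := by
    refine lt_of_le_of_ne le_sup_left (fun h => hxA ?_)
    rw [h]
    exact (le_sup_right : Subgroup.zpowers x ≤ B) (Subgroup.mem_zpowers x)
  have h1 : Nat.card A < Nat.card B := lt_of_not_ge (fun h => hAB.ne (Subgroup.eq_of_le_of_card_ge hAB.le h))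
  rw [hAc] at h1
  omega

end Cfsg.Agent.S3771
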