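import Cfsg.Statements.S3772
import Cfsg.Agent.Lib.H6PGroup
import Cfsg.Agent.Lib.CoprimeAct
-- import your own Cfsg.Agent.* helpers here

set_option autoImplicit false
set_option linter.all false
open Cfsg

namespace Cfsg.Agent.S3772

open scoped commutatorElement

open Classical in
/-- sign of an element -/
noncomputable def sg {G : Type*} [Group G] (a : G) : ℤ := if a = 1 then 1 else -1

/-- sign of the square -/
noncomputable def eps {G : Type*} [Group G] (x : G) : ℤ := sg (x ^ 2)

/-- sign of the commutator -/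
noncomputable def bet {G : Type*} [Group G] (x y : G) : ℤ := sg ⁅x, y⁆

/-- data of a group whose squares and commutators lie in a central subgroup of order two -/
structure Z2 {G : Type*} [Group G] (z : G) : Prop where
  one : z ≠ 1
  sq : z * z = 1
  cen : ∀ g : G, g * z = z * g
  hsq : ∀ x : G, x ^ 2 = 1 ∨ x ^ 2 = z
  hcm : ∀ x y : G, ⁅x, y⁆ = 1 ∨ ⁅x, y⁆ = z

theorem sg_one {G : Type*} [Group G] : sg (1 : G) = 1 := if_pos rfl
theorem sg_ne {G : Type*} [Group G] {a : G} (h : a ≠ 1) : sg a = -1 := if_neg h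
theorem sg_inv {G : Type*} [Group G] (a : G) : sg a⁻¹ = sg a := by
  by_cases h : a = 1
  · subst h; simp
  · rw [sg_ne h, sg_ne (by simpa using h)]

theorem sg_mul {G : Type*} [Group G] {z : G} (h : Z2 z) {a b : G} (ha : a = 1 ∨ a = z)
    (hb : b = 1 ∨ b = z) : sg (a * b) = sg a * sg b := by
  rcases ha with rfl | rfl <;> rcases hb with rfl | rfl
  · simp [sg_one]
  · simp [sg_one]
  · simp [sg_one]
  · rw [h.sq, sg_one, sg_ne h.one]; norm_num

theorem el_mul {G : Type*} [Group G] {z : G} (h : Z2 z) {a b : G} (ha : a = 1 ∨ a = z)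
    (hb : b = 1 ∨ b = z) : a * b = 1 ∨ a * b = z := by
  rcases ha with rfl | rfl <;> rcases hb with rfl | rfl
  · simp
  · simp
  · simp
  · left; exact h.sq

theorem comm_cen {G : Type*} [Group G] {z : G} (h : Z2 z) (x y g : G) : g * ⁅x, y⁆ = ⁅x, y⁆ * g := by
  rcases h.hcm x y with h1 | h1
  · simp [h1]
  · rw [h1]; exact h.cen g

theorem bet_symm {G : Type*} [Group G] (x y : G) : bet x y = bet y x := by
  unfold bet
  rw [← commutatorElement_inv y x, sg_inv]

theorem eps_mul {G : Type*} [Group G] {z : G} (h : Z2 z) (x y : G) :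
    eps (x * y) = eps x * eps y * bet x y := by
  have hc : ⁅y, x⁆ * (x * y) = y * x := by
    simp [commutatorElement_def, mul_assoc]
  have key : (x * y) ^ 2 = ⁅y, x⁆ * (x ^ 2 * y ^ 2) := by
    calc (x * y) ^ 2 = x * (y * x) * y := by simp [pow_two, mul_assoc]
      _ = x * (⁅y, x⁆ * (x * y)) * y := by rw [hc]
      _ = (x * ⁅y, x⁆) * x * y * y := by simp only [mul_assoc]
      _ = (⁅y, x⁆ * x) * x * y * y := by rw [comm_cen h]
      _ = ⁅y, x⁆ * (x ^ 2 * y ^ 2) := by simp [pow_two, mul_assoc]
  unfold eps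
  rw [key, sg_mul h (h.hcm y x) (el_mul h (h.hsq x) (h.hsq y)), sg_mul h (h.hsq x) (h.hsq y), bet_symm]
  unfold bet
  ring

theorem bet_sq {G : Type*} [Group G] (x y : G) : bet x y * bet x y = 1 := by
  unfold bet sg
  split_ifs <;> norm_num

theorem bet_mul_right {G : Type*} [Group G] {z : G} (h : Z2 z) (x y w : G) :
    bet x (y * w) = bet x y * bet x w := by
  have h1 : ⁅x, y * w⁆ = ⁅x, y⁆ * (y * ⁅x, w⁆ * y⁻¹) := by
    simp [commutatorElement_def, mul_assoc]
  have h2 : y * ⁅x, w⁆ * y⁻¹ = ⁅x, w⁆ := by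
    rw [comm_cen h]; simp
  unfold bet
  rw [h1, h2, sg_mul h (h.hcm x y) (h.hcm x w)]

theorem bet_mul_left {G : Type*} [Group G] {z : G} (h : Z2 z) (x y w : G) :
    bet (x * y) w = bet x w * bet y w := by
  rw [bet_symm, bet_mul_right h, bet_symm w x, bet_symm w y]

theorem sum_bet {G : Type*} [Group G] {z : G} (h : Z2 z) [Fintype G] [DecidablePred (· ∈ Subgroup.center G)]
    (w : G) : ∑ x : G, bet x w = if w ∈ Subgroup.center G then (Fintype.card G : ℤ) else 0 := by
  split_ifs with hw
  · have : ∀ x : G, bet x w = 1 := by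
      intro x
      have h1 : ⁅x, w⁆ = 1 := by
        rw [commutatorElement_eq_one_iff_commute]
        exact (Subgroup.mem_center_iff.mp hw x)
      unfold bet; rw [h1, sg_one]
    simp [this]
  · rw [Subgroup.mem_center_iff] at hw
    push Not at hw
    obtain ⟨x₀, hx₀⟩ := hw
    have hb : bet x₀ w = -1 := by
      apply sg_ne
      intro h1
      rw [commutatorElement_eq_one_iff_commute] at h1
      exact hx₀ h1
    have h2 : ∑ x : G, bet x w = ∑ x : G, bet (x₀ * x) w :=
      (Equiv.sum_comp (Equiv.mulLeft x₀) (fun x => bet x w)).symm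
    have h3 : ∑ x : G, bet (x₀ * x) w = - ∑ x : G, bet x w := by
      rw [← Finset.sum_neg_distrib]
      refine Finset.sum_congr rfl fun x _ => ?_
      rw [bet_mul_left h, hb]; ring
    omega

theorem eps_mul_inv {G : Type*} [Group G] {z : G} (h : Z2 z) (x w : G) :
    eps x * eps (x⁻¹ * w) = eps w * bet x w := by
  have h1 := eps_mul h x (x⁻¹ * w)
  rw [mul_inv_cancel_left] at h1
  have h2 : bet x (x⁻¹ * w) = bet x w := by
    rw [bet_mul_right h]
    have h3 : ⁅x, x⁻¹⁆ = 1 := by
      rw [commutatorElement_eq_one_iff_commute]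
      exact (Commute.refl x).inv_right
    have h4 : bet x x⁻¹ = 1 := by unfold bet; rw [h3, sg_one]
    rw [h4, one_mul]
  rw [h2] at h1
  rw [h1, mul_assoc _ (bet x w), bet_sq, mul_one]

theorem sq_sum {G : Type*} [Group G] {z : G} (h : Z2 z) [Fintype G]
    [DecidablePred (· ∈ Subgroup.center G)] :
    (∑ x : G, eps x) ^ 2 = (Fintype.card G : ℤ) * ∑ w : G, if w ∈ Subgroup.center G then eps w else 0 := by
  calc (∑ x : G, eps x) ^ 2 = ∑ x : G, ∑ y : G, eps x * eps y := by
        rw [pow_two, Finset.sum_mul_sum]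
    _ = ∑ x : G, ∑ w : G, eps x * eps (x⁻¹ * w) := by
        refine Finset.sum_congr rfl fun x _ => ?_
        exact (Equiv.sum_comp (Equiv.mulLeft x⁻¹) (fun y => eps x * eps y)).symm
    _ = ∑ x : G, ∑ w : G, eps w * bet x w := by
        refine Finset.sum_congr rfl fun x _ => Finset.sum_congr rfl fun w _ => eps_mul_inv h x w
    _ = ∑ w : G, ∑ x : G, eps w * bet x w := Finset.sum_comm
    _ = ∑ w : G, eps w * (if w ∈ Subgroup.center G then (Fintype.card G : ℤ) else 0) := by
        refine Finset.sum_congr rfl fun w _ => ?_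
        rw [← Finset.mul_sum, sum_bet h]
    _ = (Fintype.card G : ℤ) * ∑ w : G, if w ∈ Subgroup.center G then eps w else 0 := by
        rw [Finset.mul_sum]
        refine Finset.sum_congr rfl fun w _ => ?_
        split_ifs <;> ring

theorem center_sum {G : Type*} [Group G] {z : G} (h : Z2 z) [Fintype G]
    [DecidablePred (· ∈ Subgroup.center G)] :
    ((∑ w : G, if w ∈ Subgroup.center G then eps w else 0) = (Nat.card (Subgroup.center G) : ℤ) ∧
      ∀ w ∈ Subgroup.center G, w ^ 2 = 1) ∨ (∑ w : G, if w ∈ Subgroup.center G then eps w else 0) = 0 := by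
  by_cases hall : ∀ w ∈ Subgroup.center G, w ^ 2 = 1
  · left
    refine ⟨?_, hall⟩
    have h1 : ∀ w : G, (if w ∈ Subgroup.center G then eps w else 0) =
        if w ∈ Subgroup.center G then (1 : ℤ) else 0 := by
      intro w
      split_ifs with hw
      · unfold eps; rw [hall w hw, sg_one]
      · rfl
    simp only [h1]
    rw [Finset.sum_boole, Nat.card_eq_fintype_card, Fintype.card_subtype]
  · right
    push Not at hall
    obtain ⟨w₀, hw₀, hw₀s⟩ := hall
    have he : eps w₀ = -1 := sg_ne hw₀s
    set f : G → ℤ := fun w => if w ∈ Subgroup.center G then eps w else 0 with hf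
    have h2 : ∑ w : G, f w = ∑ w : G, f (w₀ * w) :=
      (Equiv.sum_comp (Equiv.mulLeft w₀) f).symm
    have h3 : ∑ w : G, f (w₀ * w) = - ∑ w : G, f w := by
      rw [← Finset.sum_neg_distrib]
      refine Finset.sum_congr rfl fun w _ => ?_
      simp only [hf]
      by_cases hw : w ∈ Subgroup.center G
      · rw [if_pos hw, if_pos ((Subgroup.center G).mul_mem hw₀ hw), eps_mul h, he]
        have h4 : ⁅w₀, w⁆ = 1 := by
          rw [commutatorElement_eq_one_iff_commute]
          exact (Subgroup.mem_center_iff.mp hw₀ w).symm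
        have h5 : bet w₀ w = 1 := by unfold bet; rw [h4, sg_one]
        rw [h5]; ring
      · have h4 : w₀ * w ∉ Subgroup.center G := fun h6 =>
          hw ((Subgroup.mul_mem_cancel_left _ hw₀).mp h6)
        rw [if_neg hw, if_neg h4]; ring
    show ∑ w : G, f w = 0
    omega

theorem count_eq {G : Type*} [Group G] [Fintype G] :
    ∑ x : G, eps x = 2 * (Nat.card {x : G // x ^ 2 = 1} : ℤ) - Fintype.card G := by
  classical
  have h1 : ∀ x : G, eps x = 2 * (if x ^ 2 = 1 then (1 : ℤ) else 0) - 1 := by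
    intro x
    unfold eps sg
    split_ifs <;> norm_num
  simp only [h1]
  rw [Finset.sum_sub_distrib, ← Finset.mul_sum, Finset.sum_boole, Nat.card_eq_fintype_card,
    Fintype.card_subtype]
  simp

theorem sq_pow_two (T : ℤ) (n : ℕ) (h : T ^ 2 = 2 ^ n) :
    ∃ t, n = 2 * t ∧ (T = 2 ^ t ∨ T = -2 ^ t) := by
  have h1 : T.natAbs ^ 2 = 2 ^ n := by
    have := congrArg Int.natAbs h
    simpa [Int.natAbs_pow] using this
  have h2 : T.natAbs ∣ 2 ^ n := ⟨T.natAbs, by rw [← h1, pow_two]⟩
  obtain ⟨t, -, ht⟩ := (Nat.dvd_prime_pow Nat.prime_two).mp h2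
  refine ⟨t, ?_, ?_⟩
  · rw [ht, ← pow_mul] at h1
    have := Nat.pow_right_injective (le_refl 2) h1
    omega
  · rcases Int.natAbs_eq T with h3 | h3
    · left; rw [h3, ht]; simp
    · right; rw [h3, ht]; simp


/-- Let G be a finite 2-group whose Frattini subgroup Φ(G) has order 2, with |G : Φ(G)| = 2^d, and let j be the number of elements x of G with x² = 1. Then j = 2^d, or j = 2^d + 2^(d−r) or j = 2^d − 2^(d−r) for some positive integer r with 2r ≤ d. Moreover if d = 2r and j is 2^d + 2^r or 2^d − 2^r, then G is extraspecial. -/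
theorem result {G : Type*} [Group G] [Finite G] (hG : IsPGroup 2 G) (hΦ : Nat.card (frattini G) = 2) (d : ℕ) (hd : (frattini G).index = 2 ^ d) : (Nat.card {x : G // x ^ 2 = 1} = 2 ^ d ∨ ∃ r : ℕ, 1 ≤ r ∧ 2 * r ≤ d ∧ (Nat.card {x : G // x ^ 2 = 1} = 2 ^ d + 2 ^ (d - r) ∨ Nat.card {x : G // x ^ 2 = 1} + 2 ^ (d - r) = 2 ^ d)) ∧ (∀ r : ℕ, d = 2 * r → (Nat.card {x : G // x ^ 2 = 1} = 2 ^ d + 2 ^ r ∨ Nat.card {x : G // x ^ 2 = 1} + 2 ^ r = 2 ^ d) → Cfsg.IsExtraspecial 2 G) := by
  classical
  haveI : Fintype G := Fintype.ofFinite G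
  haveI : Fact (Nat.Prime 2) := ⟨Nat.prime_two⟩
  set Φ := frattini G with hΦdef
  haveI hΦn : Φ.Normal := inferInstance
  obtain ⟨z0, hz0, huniq⟩ := (Nat.card_eq_two_iff' (1 : Φ)).mp hΦ
  set z : G := (z0 : G) with hzdef
  have hzΦ : z ∈ Φ := z0.2
  have hz1 : z ≠ 1 := fun h => hz0 (Subtype.ext h)
  have hΦel : ∀ a ∈ Φ, a = 1 ∨ a = z := by
    intro a ha
    by_cases h : a = 1
    · exact Or.inl h
    · right
      have := huniq ⟨a, ha⟩ (fun h' => h (congrArg Subtype.val h'))
      exact congrArg Subtype.val this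
  have hzz : z * z = 1 := by
    rcases hΦel (z * z) (Φ.mul_mem hzΦ hzΦ) with h | h
    · exact h
    · exact absurd (by simpa using h) hz1
  have hzc : ∀ g : G, g * z = z * g := by
    intro g
    have h1 : g * z * g⁻¹ ∈ Φ := hΦn.conj_mem z hzΦ g
    rcases hΦel _ h1 with h | h
    · exfalso
      apply hz1
      have h2 : z = g⁻¹ * (g * z * g⁻¹) * g := by group
      rw [h2, h]; group
    · calc g * z = g * z * g⁻¹ * g := by group
        _ = z * g := by rw [h]
  have hZ2 : Z2 z := ⟨hz1, hzz, hzc, fun x => hΦel _ (Cfsg.Agent.Lib.H6PGroup.pow_mem_frattini hG x),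
    fun x y => hΦel _ (by
      rw [commutatorElement_def]; exact Cfsg.Agent.Lib.H6PGroup.comm_mem_frattini hG x y)⟩
  set T : ℤ := ∑ x : G, eps x with hT
  set A : ℤ := ∑ w : G, if w ∈ Subgroup.center G then eps w else 0 with hA
  have hsq : T ^ 2 = (Fintype.card G : ℤ) * A := sq_sum hZ2
  have hcenter := center_sum hZ2
  rw [← hA] at hcenter
  set j := Nat.card {x : G // x ^ 2 = 1} with hj
  have hTj : T = 2 * (j : ℤ) - Fintype.card G := count_eq
  have hcardG : Nat.card G = 2 ^ (d + 1) := by
    have := Φ.card_mul_index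
    rw [hΦ, hd] at this
    rw [← this, pow_succ]; ring
  have hcardG' : (Fintype.card G : ℤ) = 2 ^ (d + 1) := by
    rw [← Nat.card_eq_fintype_card, hcardG]; norm_num
  rw [hcardG'] at hsq hTj
  have hd0 : d ≠ 0 := by
    rintro rfl
    have h1 : Φ.index = 1 := by simpa using hd
    have h2 : Φ = ⊤ := Subgroup.index_eq_one.mp h1
    have h3 : (⊥ : Subgroup G) = ⊤ := frattini_nongenerating (K := ⊥) (by
      rw [← hΦdef, h2]; simp)
    have h4 : z ∈ (⊥ : Subgroup G) := by rw [h3]; trivial
    exact hz1 h4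
  have hzZ : z ∈ Subgroup.center G := Subgroup.mem_center_iff.mpr hzc
  obtain ⟨e, he⟩ : ∃ e, Nat.card (Subgroup.center G) = 2 ^ e := by
    have h1 : Nat.card (Subgroup.center G) ∣ 2 ^ (d + 1) := hcardG ▸ Subgroup.card_subgroup_dvd_card _
    obtain ⟨e, -, he⟩ := (Nat.dvd_prime_pow Nat.prime_two).mp h1
    exact ⟨e, he⟩
  have he1 : 1 ≤ e := by
    by_contra h
    have h0 : e = 0 := by omega
    rw [h0, pow_zero] at he
    have h1 : (Subgroup.center G) = ⊥ := Subgroup.eq_bot_of_card_eq _ he
    rw [h1] at hzZ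
    exact hz1 hzZ
  have heG : e ≤ d + 1 := by
    have h1 : Nat.card (Subgroup.center G) ∣ 2 ^ (d + 1) := hcardG ▸ Subgroup.card_subgroup_dvd_card _
    rw [he] at h1
    exact (Nat.pow_dvd_pow_iff_le_right (by norm_num)).mp h1
  have hT0 : T = 0 → j = 2 ^ d := by
    intro h0
    rw [h0] at hTj
    have : (2 : ℤ) * j = 2 * 2 ^ d := by rw [pow_succ] at hTj; linarith
    have h2 : (j : ℤ) = 2 ^ d := by linarith
    exact_mod_cast h2
  constructor
  · rcases hcenter with ⟨hAc, hall⟩ | hA0
    · rw [hAc, he] at hsq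
      have h1 : T ^ 2 = 2 ^ (d + 1 + e) := by rw [hsq, pow_add _ (d + 1) e]; norm_num
      obtain ⟨t, ht, hTv⟩ := sq_pow_two T _ h1
      have htd : t ≤ d := by
        by_contra hgt
        have hede : e = d + 1 := by omega
        have hZtop : Subgroup.center G = ⊤ := by
          apply Subgroup.eq_top_of_card_eq
          rw [he, hcardG, hede]
        have hcm : ∀ a b : G, a * b * a⁻¹ * b⁻¹ = 1 := by
          intro a b
          have h2 : b ∈ Subgroup.center G := by rw [hZtop]; trivial
          have h3 := Subgroup.mem_center_iff.mp h2 a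
          rw [h3]; group
        have hs : ∀ a : G, a ^ 2 = 1 := fun a => hall a (by rw [hZtop]; trivial)
        have hle : frattini G ≤ (⊥ : Subgroup G) :=
          Cfsg.Agent.Lib.CoprimeAct.frattini_le_of_elementary (p := 2)
            (fun a b => by rw [hcm]; exact Subgroup.one_mem _)
            (fun a => by rw [hs]; exact Subgroup.one_mem _)
        exact hz1 (hle hzΦ)
      obtain ⟨t', rfl⟩ : ∃ t', t = t' + 1 := ⟨t - 1, by omega⟩
      right
      refine ⟨d - t', by omega, by omega, ?_⟩
      have hdr : d - (d - t') = t' := by omega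
      rw [hdr]
      rcases hTv with hv | hv
      · left
        rw [hv] at hTj
        have h2 : (j : ℤ) = 2 ^ d + 2 ^ t' := by
          rw [pow_succ, pow_succ] at hTj; linarith
        exact_mod_cast h2
      · right
        rw [hv] at hTj
        have h2 : (j : ℤ) + 2 ^ t' = 2 ^ d := by
          rw [pow_succ, pow_succ] at hTj; linarith
        exact_mod_cast h2
    · have hT00 : T = 0 := by
        rw [hA0, mul_zero] at hsq
        exact pow_eq_zero_iff (two_ne_zero) |>.mp hsq
      exact Or.inl (hT0 hT00)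
  · intro r hdr hjv
    have hTsq : T ^ 2 = 4 * 2 ^ d := by
      have h2 : T = 2 * 2 ^ r ∨ T = -(2 * 2 ^ r) := by
        rcases hjv with h3 | h3
        · left
          have h4 : (j : ℤ) = 2 ^ d + 2 ^ r := by exact_mod_cast h3
          rw [hTj, h4, pow_succ]; ring
        · right
          have h4 : (j : ℤ) + 2 ^ r = 2 ^ d := by exact_mod_cast h3
          rw [hTj, pow_succ, ← h4]; ring
      rw [hdr, two_mul r, pow_add]
      rcases h2 with h2 | h2 <;> rw [h2] <;> ring
    rcases hcenter with ⟨hAc, hall⟩ | hA0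
    · have hA2 : A = 2 := by
        rw [hsq, pow_succ] at hTsq
        have h2 : (2 : ℤ) ^ d ≠ 0 := by positivity
        have h3 : (2 : ℤ) ^ d * (2 * A) = 2 ^ d * 4 := by linarith
        have h4 := mul_left_cancel₀ h2 h3
        linarith
      have hZ2card : Nat.card (Subgroup.center G) = 2 := by
        rw [hAc] at hA2
        exact_mod_cast hA2
      have hΦZ : Φ = Subgroup.center G := by
        apply Subgroup.eq_of_le_of_card_ge
        · intro a ha
          rcases hΦel a ha with rfl | rfl
          · exact Subgroup.one_mem _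
          · exact hzZ
        · rw [hΦ, hZ2card]
      have hcmΦ : commutator G ≤ Φ := by
        rw [commutator_def, Subgroup.commutator_le]
        intro x _ y _
        rw [commutatorElement_def]
        exact Cfsg.Agent.Lib.H6PGroup.comm_mem_frattini hG x y
      have hex : ∃ x y : G, ⁅x, y⁆ ≠ 1 := by
        by_contra hno
        push Not at hno
        have hZtop : Subgroup.center G = ⊤ := by
          rw [eq_top_iff]
          intro a _
          rw [Subgroup.mem_center_iff]
          intro b
          have := hno b a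
          rwa [commutatorElement_eq_one_iff_commute] at this
        have h2 : Nat.card G = 2 := by
          rw [← hZ2card, hZtop]
          exact (Nat.card_congr (Subgroup.topEquiv).toEquiv).symm
        rw [hcardG] at h2
        have h3 : d + 1 = 1 := Nat.pow_right_injective (le_refl 2) (by simpa using h2)
        omega
      obtain ⟨x, y, hxy⟩ := hex
      have hzc' : z ∈ commutator G := by
        rcases hZ2.hcm x y with h2 | h2
        · exact absurd h2 hxy
        · rw [← h2, commutator_def]
          exact Subgroup.commutator_mem_commutator (Subgroup.mem_top x) (Subgroup.mem_top y)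
      have hcm' : commutator G = Φ := by
        apply le_antisymm hcmΦ
        intro a ha
        rcases hΦel a ha with rfl | rfl
        · exact Subgroup.one_mem _
        · exact hzc'
      exact ⟨⟨hG, hΦZ, by rw [hcm', hΦZ]⟩, hZ2card⟩
    · exfalso
      rw [hA0, mul_zero] at hsq
      rw [hsq] at hTsq
      have h2 : (2 : ℤ) ^ d ≠ 0 := by positivity
      have h3 : (4 : ℤ) * 2 ^ d ≠ 0 := mul_ne_zero (by norm_num) h2
      exact h3 hTsq.symm

end Cfsg.Agent.S3772
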