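import Cfsg.Statements.S3774
import Cfsg.Agent.Lib.SylowCount
-- import your own Cfsg.Agent.* helpers here

set_option autoImplicit false
open Cfsg

namespace Cfsg.Agent.S3774

theorem card_ne_add_one {α : Type*} [Finite α] (a : α) : Nat.card {x // x ≠ a} + 1 = Nat.card α := by
  classical
  haveI := Fintype.ofFinite α
  have h := Fintype.card_subtype_compl (fun x : α => x = a)
  rw [Nat.card_eq_fintype_card, Nat.card_eq_fintype_card, h]
  have h1 : Fintype.card {x // x = a} = 1 := Fintype.card_subtype_eq a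
  rw [h1]
  have : 0 < Fintype.card α := Fintype.card_pos_iff.mpr ⟨a⟩
  omega

/-- Let G be a nontrivial finite 2-group whose automorphism group permutes the involutions of G transitively. Then every involution of G is central, so that the involutions together with 1 form the subgroup Ω₁(Z(G)), and if this subgroup has order q then |G| is a power of q. -/
theorem result {G : Type*} [Group G] [Finite G] [Nontrivial G] (hG : IsPGroup 2 G) (htrans : ∀ x y : G, x ≠ 1 → x ^ 2 = 1 → y ≠ 1 → y ^ 2 = 1 → ∃ a : MulAut G, a x = y) : (∀ x : G, x ^ 2 = 1 → x ∈ Subgroup.center G) ∧ ∃ m : ℕ, Nat.card G = Nat.card {z : G // z ^ 2 = 1} ^ m := by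
  classical
  -- a central involution
  haveI : Fact (Nat.Prime 2) := ⟨Nat.prime_two⟩
  haveI := hG.center_nontrivial
  have h2 : 2 ∣ Nat.card (Subgroup.center G) := by
    have h1 : IsPGroup 2 (Subgroup.center G) := hG.to_subgroup _
    obtain ⟨k, hk⟩ := IsPGroup.iff_card.mp h1
    have hne : 1 < Nat.card (Subgroup.center G) := Finite.one_lt_card
    rw [hk] at hne ⊢
    refine dvd_pow_self 2 ?_
    rintro rfl
    simp at hne
  obtain ⟨z, hz⟩ := exists_prime_orderOf_dvd_card' 2 h2
  have hz' : orderOf (z : G) = 2 := by rw [Subgroup.orderOf_coe]; exact hz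
  have hz1 : (z : G) ≠ 1 := by
    intro h
    rw [h, orderOf_one] at hz'
    omega
  have hz2 : (z : G) ^ 2 = 1 := by rw [← hz']; exact pow_orderOf_eq_one _
  have hcentral : ∀ x : G, x ^ 2 = 1 → x ∈ Subgroup.center G := by
    intro x hx
    by_cases hx1 : x = 1
    · rw [hx1]; exact one_mem _
    obtain ⟨a, ha⟩ := htrans z x hz1 hz2 hx1 hx
    rw [Subgroup.mem_center_iff]
    intro g
    rw [← ha]
    have h3 := Subgroup.mem_center_iff.mp z.2 (a⁻¹ g)
    have h4 := congrArg a h3
    simpa using h4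
  refine ⟨hcentral, ?_⟩
  -- the subgroup of elements of order at most 2
  let E : Subgroup G :=
    { carrier := {x | x ^ 2 = 1}
      one_mem' := by simp
      mul_mem' := fun {x y} hx hy => by
        have h1 := (Subgroup.mem_center_iff.mp (hcentral x hx) y).symm
        simp only [Set.mem_ofPred_eq] at hx hy ⊢
        rw [(show Commute x y from h1).mul_pow, hx, hy, one_mul]
      inv_mem' := fun {x} hx => by
        simp only [Set.mem_ofPred_eq] at hx ⊢
        rw [inv_pow, hx, inv_one] }
  have hEcard : Nat.card {z : G // z ^ 2 = 1} = Nat.card E := rfl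
  rw [hEcard]
  obtain ⟨n, hn⟩ := IsPGroup.iff_card.mp hG
  obtain ⟨e, -, he⟩ := (Nat.dvd_prime_pow Nat.prime_two).mp (hn ▸ Subgroup.card_subgroup_dvd_card E)
  -- the power map onto involutions
  let I := {x : G // x ^ 2 = 1 ∧ x ≠ 1}
  let Y := {y : G // y ≠ 1}
  have hord : ∀ y : G, y ≠ 1 → ∃ k, orderOf y = 2 ^ (k + 1) := by
    intro y hy
    obtain ⟨k, -, hk⟩ := (Nat.dvd_prime_pow Nat.prime_two).mp (hn ▸ orderOf_dvd_natCard y)
    rcases k with _ | k
    · simp at hk
      exact absurd hk hy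
    · exact ⟨k, hk⟩
  have hpi1 : ∀ y : Y, (y.1 ^ (orderOf y.1 / 2)) ^ 2 = 1 ∧ y.1 ^ (orderOf y.1 / 2) ≠ 1 := by
    intro y
    obtain ⟨k, hk⟩ := hord y.1 y.2
    have h1 : orderOf y.1 / 2 = 2 ^ k := by
      rw [hk, pow_succ]; simp
    rw [h1]
    constructor
    · rw [← pow_mul, ← pow_succ, ← hk]; exact pow_orderOf_eq_one _
    · apply pow_ne_one_of_lt_orderOf (by positivity)
      rw [hk, pow_succ]
      have : 0 < 2 ^ k := by positivity
      omega
  let π : Y → I := fun y => ⟨y.1 ^ (orderOf y.1 / 2), hpi1 y⟩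
  let i₀ : I := ⟨z, hz2, hz1⟩
  have hfib : ∀ i : I, Nat.card {y // π y = i} = Nat.card {y // π y = i₀} := by
    intro i
    obtain ⟨a, ha⟩ := htrans i₀.1 i.1 i₀.2.2 i₀.2.1 i.2.2 i.2.1
    have hπa : ∀ (b : MulAut G) (y : Y) (hy : b y.1 ≠ 1),
        (π ⟨b y.1, hy⟩).1 = b (π y).1 := by
      intro b y hy
      change (b y.1) ^ (orderOf (b y.1) / 2) = b (y.1 ^ (orderOf y.1 / 2))
      rw [MulEquiv.orderOf_eq, map_pow]
    have hne : ∀ (b : MulAut G) (y : Y), b y.1 ≠ 1 := by
      intro b y h
      exact y.2 ((map_eq_one_iff b b.injective).mp h)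
    have e : {y // π y = i₀} ≃ {y // π y = i} :=
      { toFun := fun y => ⟨⟨a y.1.1, hne a y.1⟩, by
          apply Subtype.ext
          rw [hπa a y.1 (hne a y.1), y.2]
          exact ha⟩
        invFun := fun y => ⟨⟨a⁻¹ y.1.1, hne a⁻¹ y.1⟩, by
          apply Subtype.ext
          rw [hπa a⁻¹ y.1 (hne a⁻¹ y.1), y.2]
          change a⁻¹ i.1 = z
          rw [← ha]
          simp only [MulAut.inv_apply_self]
          rfl⟩
        left_inv := fun y => by
          apply Subtype.ext
          apply Subtype.ext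
          simp
        right_inv := fun y => by
          apply Subtype.ext
          apply Subtype.ext
          simp }
    exact (Nat.card_congr e).symm
  have hcount := Cfsg.Agent.Lib.SylowCount.card_eq_mul_of_fibers π _ hfib
  have hY : Nat.card Y + 1 = Nat.card G := card_ne_add_one (1 : G)
  have hI : Nat.card I + 1 = Nat.card E := by
    have e : I ≃ {x : E // x ≠ 1} :=
      { toFun := fun x => ⟨⟨x.1, x.2.1⟩, fun h => x.2.2 (congrArg Subtype.val h)⟩
        invFun := fun x => ⟨x.1.1, x.1.2, fun h => x.2 (Subtype.ext h)⟩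
        left_inv := fun x => rfl
        right_inv := fun x => rfl }
    rw [Nat.card_congr e]
    exact card_ne_add_one (1 : E)
  have hdvd : 2 ^ e - 1 ∣ 2 ^ n - 1 := by
    have h1 : 2 ^ n - 1 = Nat.card Y := by omega
    have h2 : 2 ^ e - 1 = Nat.card I := by omega
    rw [h1, h2, hcount]
    exact dvd_mul_right _ _
  have hgcd := Nat.pow_sub_one_gcd_pow_sub_one 2 e n
  rw [Nat.gcd_eq_left hdvd] at hgcd
  have hpos1 : 0 < 2 ^ e := by positivity
  have hpos2 : 0 < 2 ^ Nat.gcd e n := by positivity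
  have heq : 2 ^ e = 2 ^ Nat.gcd e n := by omega
  have hee : e = Nat.gcd e n := Nat.pow_right_injective (le_refl 2) heq
  have hen : e ∣ n := Nat.gcd_eq_left_iff_dvd.mp hee.symm
  obtain ⟨m, rfl⟩ := hen
  exact ⟨m, by rw [hn, he, pow_mul]⟩

end Cfsg.Agent.S3774
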