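import Mathlib
import Cfsg.Statements.S3775
-- import your own Cfsg.Agent.* helpers here

set_option autoImplicit false
open Cfsg

namespace Cfsg.Agent.S3775


section
open Subgroup

variable {A : Type*} [CommGroup A] [Finite A] {p : ℕ} [hp : Fact p.Prime]

/-- invariance under `X`. -/
def Inv (X : Subgroup (MulAut A)) (B : Subgroup A) : Prop := ∀ x ∈ X, ∀ b ∈ B, x b ∈ B

/-- plain complement containing all `p`-th powers -/
theorem plain_compl (S D : Subgroup A) (hDS : D ≤ S)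
    (hDpow : ∀ a ∈ S, a ^ p ∈ D → a ^ p = 1) :
    ∃ M : Subgroup A, M ≤ S ∧ D ⊓ M = ⊥ ∧ D ⊔ M = S := by
  classical
  let s : Set (Subgroup A) := {M | (∀ a ∈ S, a ^ p ∈ M) ∧ M ≤ S ∧ D ⊓ M = ⊥}
  have h0 : S.map (powMonoidHom p : A →* A) ∈ s := by
    refine ⟨fun a ha => ⟨a, ha, rfl⟩, ?_, ?_⟩
    · rintro _ ⟨a, ha, rfl⟩
      exact S.pow_mem ha p
    · rw [eq_bot_iff]
      rintro d ⟨hd, a, ha, rfl⟩
      exact hDpow a ha hd
  obtain ⟨M, -, hM⟩ := (Set.toFinite s).exists_le_maximal h0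
  refine ⟨M, hM.prop.2.1, hM.prop.2.2, le_antisymm (sup_le hDS hM.prop.2.1) ?_⟩
  intro a ha
  by_contra hna
  have hsub : M ⊔ zpowers a ∈ s := by
    refine ⟨fun b hb => (le_sup_left : M ≤ _) (hM.prop.1 b hb), sup_le hM.prop.2.1 ?_, ?_⟩
    · rwa [zpowers_le]
    · rw [eq_bot_iff]
      rintro d ⟨hd, hd2⟩
      obtain ⟨m, hm, y, hy, rfl⟩ := Subgroup.mem_sup.mp hd2
      obtain ⟨k, rfl⟩ := mem_zpowers_iff.mp hy
      by_cases hk : (p : ℤ) ∣ k
      · obtain ⟨k', rfl⟩ := hk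
        have : a ^ ((p : ℤ) * k') ∈ M := by
          rw [zpow_mul, zpow_natCast]
          exact M.zpow_mem (hM.prop.1 a ha) k'
        have h2 : m * a ^ ((p : ℤ) * k') ∈ M := M.mul_mem hm this
        have : m * a ^ ((p : ℤ) * k') ∈ D ⊓ M := ⟨hd, h2⟩
        rwa [hM.prop.2.2] at this
      · exfalso
        apply hna
        have hpr : Prime (p : ℤ) := Nat.prime_iff_prime_int.mp hp.out
        have hco : IsCoprime (p : ℤ) k := (hpr.irreducible.coprime_iff_not_dvd).mpr hk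
        obtain ⟨u, v, huv⟩ := hco
        have e : a = (a ^ p) ^ u * (a ^ k) ^ v := by
          rw [← zpow_natCast a p, ← zpow_mul, ← zpow_mul, ← zpow_add]
          conv_lhs => rw [← zpow_one a]
          congr 1
          linarith
        rw [e]
        refine mul_mem (zpow_mem ((le_sup_right : M ≤ D ⊔ M) (hM.prop.1 a ha)) _) (zpow_mem ?_ _)
        have e2 : a ^ k = (m * a ^ k) * m⁻¹ := by
          rw [mul_comm m, mul_assoc, mul_inv_cancel, mul_one]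
        rw [e2]
        exact mul_mem ((le_sup_left : D ≤ D ⊔ M) hd) ((le_sup_right : M ≤ D ⊔ M) (M.inv_mem hm))
  have : M ⊔ zpowers a ≤ M := hM.le_of_ge hsub le_sup_left
  exact hna ((le_sup_right : M ≤ D ⊔ M) (this ((le_sup_right : zpowers a ≤ _) (mem_zpowers a))))

/-- Averaging: invariant complement. -/
theorem compl_lemma (X : Subgroup (MulAut A)) (hX : (Nat.card X).Coprime p) (S D : Subgroup A)
    (hS : Inv X S) (hD : Inv X D) (hDS : D ≤ S) (hDp : ∀ d ∈ D, d ^ p = 1)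
    (hDpow : ∀ a ∈ S, a ^ p ∈ D → a ^ p = 1) :
    ∃ M : Subgroup A, M ≤ S ∧ Inv X M ∧ D ⊓ M = ⊥ ∧ D ⊔ M = S := by
  classical
  obtain ⟨M₀, hM₀S, hinf, hsup⟩ := plain_compl (p := p) S D hDS hDpow
  have hex : ∀ a : A, ∃ d : A, a ∈ S → d ∈ D ∧ d⁻¹ * a ∈ M₀ := by
    intro a
    by_cases ha : a ∈ S
    · rw [← hsup] at ha
      obtain ⟨d, hd, m, hm, rfl⟩ := Subgroup.mem_sup.mp ha
      refine ⟨d, fun _ => ⟨hd, ?_⟩⟩
      rwa [inv_mul_cancel_left]
    · exact ⟨1, fun h => absurd h ha⟩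
  choose π hπ using hex
  have huniq : ∀ d d' : A, d ∈ D → d' ∈ D → ∀ a : A, d⁻¹ * a ∈ M₀ → d'⁻¹ * a ∈ M₀ → d = d' := by
    intro d d' hd hd' a h1 h2
    have h3 : d' * d⁻¹ ∈ M₀ := by
      have := M₀.mul_mem h1 (M₀.inv_mem h2)
      have e : d⁻¹ * a * (d'⁻¹ * a)⁻¹ = d' * d⁻¹ := by
        rw [mul_inv_rev, inv_inv, mul_comm d' , mul_assoc, mul_inv_cancel_left]
      rwa [e] at this
    have h4 : d' * d⁻¹ ∈ D ⊓ M₀ := ⟨D.mul_mem hd' (D.inv_mem hd), h3⟩
    rw [hinf] at h4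
    have h5 : d' * d⁻¹ = 1 := h4
    exact (mul_inv_eq_one.mp h5).symm
  have hπmul : ∀ a ∈ S, ∀ b ∈ S, π (a * b) = π a * π b := by
    intro a ha b hb
    obtain ⟨h1, h2⟩ := hπ (a * b) (S.mul_mem ha hb)
    obtain ⟨h3, h4⟩ := hπ a ha
    obtain ⟨h5, h6⟩ := hπ b hb
    refine huniq _ _ h1 (D.mul_mem h3 h5) (a * b) h2 ?_
    have := M₀.mul_mem h4 h6
    have e : (π a)⁻¹ * a * ((π b)⁻¹ * b) = (π a * π b)⁻¹ * (a * b) := by
      rw [mul_inv_rev]; ac_rfl
    rwa [e] at this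
  have hπD : ∀ d ∈ D, π d = d := by
    intro d hd
    obtain ⟨h1, h2⟩ := hπ d (hDS hd)
    refine huniq _ _ h1 hd d h2 ?_
    rw [inv_mul_cancel]; exact M₀.one_mem
  haveI : Fintype X := Fintype.ofFinite _
  let f : A → A := fun a => ∏ x : X, (x : MulAut A) (π ((x : MulAut A)⁻¹ a))
  have hinvS : ∀ x : X, ∀ a ∈ S, ((x : MulAut A)⁻¹) a ∈ S := fun x a ha =>
    hS _ (X.inv_mem x.2) a ha
  have hfD : ∀ a ∈ S, f a ∈ D := by
    intro a ha
    refine D.prod_mem fun x _ => ?_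
    exact hD _ x.2 _ (hπ _ (hinvS x a ha)).1
  have hfmul : ∀ a ∈ S, ∀ b ∈ S, f (a * b) = f a * f b := by
    intro a ha b hb
    simp only [f]
    rw [← Finset.prod_mul_distrib]
    refine Finset.prod_congr rfl fun x _ => ?_
    rw [map_mul, hπmul _ (hinvS x a ha) _ (hinvS x b hb), map_mul]
  have hfd : ∀ d ∈ D, f d = d ^ Nat.card X := by
    intro d hd
    simp only [f]
    have : ∀ x : X, (x : MulAut A) (π ((x : MulAut A)⁻¹ d)) = d := by
      intro x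
      rw [hπD _ (hD _ (X.inv_mem x.2) d hd), MulAut.apply_inv_self]
    simp only [this, Finset.prod_const, Finset.card_univ, Nat.card_eq_fintype_card]
  have hfequiv : ∀ y ∈ X, ∀ a : A, f (y a) = y (f a) := by
    intro y hy a
    simp only [f]
    rw [map_prod]
    refine Fintype.prod_equiv (Equiv.mulLeft (⟨y, hy⟩ : X)).symm _ _ fun x => ?_
    simp only [Equiv.coe_mulLeft, Equiv.mulLeft_symm, Equiv.coe_mulLeft, Subgroup.coe_mul,
      InvMemClass.coe_inv, mul_inv_rev, inv_inv]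
    rw [← MulAut.mul_apply, ← MulAut.mul_apply, mul_inv_cancel_left]
  obtain ⟨u, -, hu⟩ := Nat.exists_mul_mod_eq_one_of_coprime hX hp.out.one_lt
  have hpowu : ∀ d ∈ D, (f d) ^ u = d := by
    intro d hd
    rw [hfd d hd, ← pow_mul, pow_eq_pow_mod _ (hDp d hd), hu, pow_one]
  have hf1 : f 1 = 1 := by
    have := hfd 1 D.one_mem
    rwa [one_pow] at this
  have hfinv : ∀ a ∈ S, f a⁻¹ = (f a)⁻¹ := by
    intro a ha
    have := hfmul a⁻¹ (S.inv_mem ha) a ha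
    rw [inv_mul_cancel, hf1] at this
    exact (eq_inv_of_mul_eq_one_left this.symm)
  let M : Subgroup A :=
    { carrier := {a | a ∈ S ∧ (f a) ^ u = 1}
      mul_mem' := by
        rintro a b ⟨ha, ha2⟩ ⟨hb, hb2⟩
        refine ⟨S.mul_mem ha hb, ?_⟩
        rw [hfmul a ha b hb, mul_pow, ha2, hb2, one_mul]
      one_mem' := ⟨S.one_mem, by rw [hf1, one_pow]⟩
      inv_mem' := by
        rintro a ⟨ha, ha2⟩
        refine ⟨S.inv_mem ha, ?_⟩
        rw [hfinv a ha, inv_pow, ha2, inv_one] }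
  refine ⟨M, fun a ha => ha.1, ?_, ?_, ?_⟩
  · rintro y hy a ⟨ha, ha2⟩
    refine ⟨hS y hy a ha, ?_⟩
    rw [hfequiv y hy, ← map_pow, ha2, map_one]
  · rw [eq_bot_iff]
    rintro d ⟨hd, -, hd2⟩
    have := hpowu d hd
    rw [hd2] at this
    exact this.symm
  · refine le_antisymm (sup_le hDS fun a ha => ha.1) ?_
    intro a ha
    rw [Subgroup.mem_sup]
    refine ⟨(f a) ^ u, D.pow_mem (hfD a ha) u, ((f a) ^ u)⁻¹ * a, ?_, by rw [mul_inv_cancel_left]⟩
    have hdS : (f a) ^ u ∈ D := D.pow_mem (hfD a ha) u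
    have hS' : ((f a) ^ u)⁻¹ ∈ S := S.inv_mem (hDS hdS)
    refine ⟨S.mul_mem hS' ha, ?_⟩
    rw [hfmul _ hS' a ha, mul_pow, hfinv _ (hDS hdS), inv_pow, hpowu _ hdS, inv_mul_cancel]

theorem inv_inf {X : Subgroup (MulAut A)} {B C : Subgroup A} (hB : Inv X B) (hC : Inv X C) :
    Inv X (B ⊓ C) := fun x hx b hb => ⟨hB x hx b hb.1, hC x hx b hb.2⟩

/-- `p`-th powers -/
def pw (p : ℕ) (S : Subgroup A) : Subgroup A := S.map (powMonoidHom p : A →* A)

/-- elements with trivial `p`-th power -/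
def om (p : ℕ) (S : Subgroup A) : Subgroup A := S ⊓ (powMonoidHom p : A →* A).ker

/-- elements of `S` with `p`-th power in `T` -/
def up (p : ℕ) (S T : Subgroup A) : Subgroup A := S ⊓ T.comap (powMonoidHom p : A →* A)

theorem mem_om {S : Subgroup A} {a : A} : a ∈ om p S ↔ a ∈ S ∧ a ^ p = 1 := by
  simp [om, MonoidHom.mem_ker]

theorem mem_pw {S : Subgroup A} {a : A} : a ∈ pw p S ↔ ∃ b ∈ S, b ^ p = a := by
  simp [pw, Subgroup.mem_map]

theorem mem_up {S T : Subgroup A} {a : A} : a ∈ up p S T ↔ a ∈ S ∧ a ^ p ∈ T := by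
  simp [up, Subgroup.mem_comap]

theorem inv_om {X : Subgroup (MulAut A)} {S : Subgroup A} (hS : Inv X S) : Inv X (om p S) := by
  intro x hx b hb
  rw [mem_om] at hb ⊢
  exact ⟨hS x hx b hb.1, by rw [← map_pow, hb.2, map_one]⟩

theorem inv_pw {X : Subgroup (MulAut A)} {S : Subgroup A} (hS : Inv X S) : Inv X (pw p S) := by
  intro x hx b hb
  rw [mem_pw] at hb ⊢
  obtain ⟨c, hc, rfl⟩ := hb
  exact ⟨x c, hS x hx c hc, by rw [map_pow]⟩

theorem inv_up {X : Subgroup (MulAut A)} {S T : Subgroup A} (hS : Inv X S) (hT : Inv X T) :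
    Inv X (up p S T) := by
  intro x hx b hb
  rw [mem_up] at hb ⊢
  exact ⟨hS x hx b hb.1, by rw [← map_pow]; exact hT x hx _ hb.2⟩

theorem pw_le (S : Subgroup A) : pw p S ≤ S := by
  intro a ha
  obtain ⟨b, hb, rfl⟩ := mem_pw.mp ha
  exact S.pow_mem hb p

theorem card_pw_lt {S : Subgroup A} {b : A} (hb : b ∈ S) (hb1 : b ≠ 1) (hbp : b ^ p = 1) :
    Nat.card (pw p S) < Nat.card S := by
  by_contra hlt
  have heq : pw p S = S := Subgroup.eq_of_le_of_card_ge (pw_le S) (not_lt.mp hlt)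
  let g : S → S := fun a => ⟨a.1 ^ p, S.pow_mem a.2 p⟩
  have hsurj : Function.Surjective g := by
    rintro ⟨a, ha⟩
    rw [← heq] at ha
    obtain ⟨c, hc, rfl⟩ := mem_pw.mp ha
    exact ⟨⟨c, hc⟩, rfl⟩
  have hinj := Finite.injective_iff_surjective.mpr hsurj
  have : (⟨b, hb⟩ : S) = 1 := hinj (by
    apply Subtype.ext
    show b ^ p = (1 : A) ^ p
    rw [hbp, one_pow])
  exact hb1 (congrArg Subtype.val this)

theorem lift_part (X : Subgroup (MulAut A)) (hX : (Nat.card X).Coprime p) (S B C : Subgroup A)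
    (hS : Inv X S) (hB : Inv X B) (hC : Inv X C) (hBS : B ≤ pw p S) (hCS : C ≤ S)
    (hBC : B ⊓ C = ⊥) :
    ∃ B' : Subgroup A, B' ≤ S ∧ Inv X B' ∧ (∀ b ∈ B, ∃ z ∈ B', z ^ p = b) ∧ (∀ z ∈ B', z ^ p ∈ B) ∧
      (∀ c ∈ C, c ^ p = 1 → c ∈ B' → c = 1) := by
  obtain ⟨M, hMS, hMI, hinf, hsup⟩ := compl_lemma X hX (up p S B) (om p C) (inv_up hS hB)
    (inv_om hC) (by
      intro c hc
      obtain ⟨h1, h2⟩ := mem_om.mp hc
      refine mem_up.mpr ⟨hCS h1, ?_⟩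
      rw [h2]; exact B.one_mem) (fun d hd => (mem_om.mp hd).2) (by
      intro a ha h
      obtain ⟨h1, h2⟩ := mem_up.mp ha
      have : a ^ p ∈ B ⊓ C := ⟨h2, (mem_om.mp h).1⟩
      rw [hBC] at this
      exact this)
  refine ⟨M, fun a ha => (mem_up.mp (hMS ha)).1, hMI, ?_, fun z hz => (mem_up.mp (hMS hz)).2, ?_⟩
  · intro b hb
    obtain ⟨a, ha, rfl⟩ := mem_pw.mp (hBS hb)
    have : a ∈ up p S B := mem_up.mpr ⟨ha, hb⟩
    rw [← hsup] at this
    obtain ⟨d, hd, z, hz, rfl⟩ := Subgroup.mem_sup.mp this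
    refine ⟨z, hz, ?_⟩
    rw [mul_pow, (mem_om.mp hd).2, one_mul]
  · intro c hc hcp hcM
    have : c ∈ om p C ⊓ M := ⟨mem_om.mpr ⟨hc, hcp⟩, hcM⟩
    rw [hinf] at this
    exact this

/-- Main induction for `(i) ⟹ (iii)`. -/
theorem decomp (X : Subgroup (MulAut A)) (hX : (Nat.card X).Coprime p) (S : Subgroup A)
    (hS : Inv X S) (B₀ : Subgroup A) (hB₀ : Inv X B₀) (h0 : B₀ ≤ om p S) (h1 : B₀ ≠ ⊥)
    (h2 : B₀ ≠ om p S) :
    ∃ B C : Subgroup A, Inv X B ∧ Inv X C ∧ B ≠ ⊥ ∧ C ≠ ⊥ ∧ B ⊓ C = ⊥ ∧ B ⊔ C = S := by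
  induction' hn : Nat.card S using Nat.strong_induction_on with n ih generalizing S
  have hB₀S : B₀ ≤ S := fun a ha => (mem_om.mp (h0 ha)).1
  by_cases hcase : om p S ≤ pw p S
  · -- case B
    obtain ⟨b, hb, hb1⟩ := (Subgroup.ne_bot_iff_exists_ne_one.mp h1 : ∃ b : B₀, b ≠ 1).imp
      (fun b hb => hb) |>.elim (fun b hb => (⟨b.1, b.2, fun h => hb (Subtype.ext h)⟩ :
        ∃ b ∈ B₀, b ≠ (1 : A)))
    have hbom := mem_om.mp (h0 hb)
    have hlt : Nat.card (pw p S) < n := hn ▸ card_pw_lt hbom.1 hb1 hbom.2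
    have homeq : om p (pw p S) = om p S := by
      apply le_antisymm
      · intro a ha
        obtain ⟨h1, h2⟩ := mem_om.mp ha
        exact mem_om.mpr ⟨pw_le S h1, h2⟩
      · intro a ha
        exact mem_om.mpr ⟨hcase ha, (mem_om.mp ha).2⟩
    obtain ⟨B, C, hBi, hCi, hB1, hC1, hinf, hsup⟩ :=
      ih _ hlt (pw p S) (inv_pw hS) (homeq ▸ h0) (homeq ▸ h2) rfl
    have hBle : B ≤ pw p S := hsup ▸ le_sup_left
    have hCle : C ≤ pw p S := hsup ▸ le_sup_right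
    obtain ⟨B', hB'S, hB'I, hB'1, hB'2, hB'3⟩ := lift_part X hX S B C hS hBi hCi hBle
      (hCle.trans (pw_le S)) hinf
    obtain ⟨C', hC'S, hC'I, hC'1, hC'2, hC'3⟩ := lift_part X hX S C B hS hCi hBi hCle
      (hBle.trans (pw_le S)) (by rw [inf_comm]; exact hinf)
    have hBB' : B ≤ B' := by
      intro b hb
      obtain ⟨z, hz, rfl⟩ := hB'1 b hb
      exact B'.pow_mem hz p
    have hCC' : C ≤ C' := by
      intro b hb
      obtain ⟨z, hz, rfl⟩ := hC'1 b hb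
      exact C'.pow_mem hz p
    refine ⟨B', C', hB'I, hC'I, ?_, ?_, ?_, ?_⟩
    · intro h; apply hB1; rw [eq_bot_iff, ← h]; exact hBB'
    · intro h; apply hC1; rw [eq_bot_iff, ← h]; exact hCC'
    · rw [eq_bot_iff]
      rintro z ⟨hz1, hz2⟩
      have hzp : z ^ p ∈ B ⊓ C := ⟨hB'2 z hz1, hC'2 z hz2⟩
      rw [hinf] at hzp
      have hzp' : z ^ p = 1 := hzp
      have hzpw : z ∈ pw p S := hcase (mem_om.mpr ⟨hB'S hz1, hzp'⟩)
      rw [← hsup] at hzpw
      obtain ⟨b, hb, c, hc, rfl⟩ := Subgroup.mem_sup.mp hzpw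
      have hbc : b ^ p = 1 ∧ c ^ p = 1 := by
        have e : b ^ p * c ^ p = 1 := by rw [← mul_pow]; exact hzp'
        have : b ^ p ∈ B ⊓ C := ⟨B.pow_mem hb p, by
          rw [eq_inv_of_mul_eq_one_left e]; exact C.inv_mem (C.pow_mem hc p)⟩
        rw [hinf] at this
        have h3 : b ^ p = 1 := this
        rw [h3, one_mul] at e
        exact ⟨h3, e⟩
      have hc1 : c = 1 := hB'3 c hc hbc.2 (by
        have := B'.mul_mem (B'.inv_mem (hBB' hb)) hz1
        rwa [inv_mul_cancel_left] at this)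
      have hb1 : b = 1 := hC'3 b hb hbc.1 (by
        have := C'.mul_mem hz2 (C'.inv_mem (hCC' hc))
        rwa [mul_inv_cancel_right] at this)
      rw [hc1, hb1, one_mul]; exact Subgroup.one_mem _
    · refine le_antisymm (sup_le hB'S hC'S) ?_
      intro a ha
      have hap : a ^ p ∈ pw p S := mem_pw.mpr ⟨a, ha, rfl⟩
      rw [← hsup] at hap
      obtain ⟨b, hb, c, hc, hbc⟩ := Subgroup.mem_sup.mp hap
      obtain ⟨z, hz, rfl⟩ := hB'1 b hb
      obtain ⟨y, hy, rfl⟩ := hC'1 c hc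
      have hw : a * (z * y)⁻¹ ∈ om p S := by
        refine mem_om.mpr ⟨S.mul_mem ha (S.inv_mem (S.mul_mem (hB'S hz) (hC'S hy))), ?_⟩
        rw [mul_pow, inv_pow, mul_pow, hbc, mul_inv_cancel]
      have hw2 : a * (z * y)⁻¹ ∈ B' ⊔ C' := by
        have : a * (z * y)⁻¹ ∈ B ⊔ C := by rw [hsup]; exact hcase hw
        exact (sup_le_sup hBB' hCC') this
      have e : a = a * (z * y)⁻¹ * (z * y) := by rw [inv_mul_cancel_right]
      rw [e]
      exact (B' ⊔ C').mul_mem hw2 ((B' ⊔ C').mul_mem ((le_sup_left : B' ≤ _) hz)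
        ((le_sup_right : C' ≤ _) hy))
  · -- case A
    have hdec : ∀ D : Subgroup A, Inv X D → D ≤ om p S → D ≠ ⊥ → D ≠ S →
        (∀ a ∈ S, a ^ p ∈ D → a ^ p = 1) →
        ∃ B C : Subgroup A, Inv X B ∧ Inv X C ∧ B ≠ ⊥ ∧ C ≠ ⊥ ∧ B ⊓ C = ⊥ ∧ B ⊔ C = S := by
      intro D hDI hDle hD1 hD2 hDpow
      obtain ⟨M, -, hMI, hinf, hsup⟩ := compl_lemma X hX S D hS hDI
        (fun a ha => (mem_om.mp (hDle ha)).1) (fun d hd => (mem_om.mp (hDle hd)).2) hDpow
      refine ⟨D, M, hDI, hMI, hD1, ?_, hinf, hsup⟩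
      rintro rfl
      rw [sup_bot_eq] at hsup
      exact hD2 hsup
    obtain ⟨C₀, hC₀le, hC₀I, hinf, hsup⟩ := compl_lemma X hX (om p S) (om p S ⊓ pw p S)
      (inv_om hS) (inv_inf (inv_om hS) (inv_pw hS)) inf_le_left
      (fun d hd => (mem_om.mp hd.1).2) (fun a ha _ => (mem_om.mp ha).2)
    have hC₀1 : C₀ ≠ ⊥ := by
      rintro rfl
      rw [sup_bot_eq] at hsup
      exact hcase (by rw [← hsup]; exact inf_le_right)
    have hpow : ∀ a ∈ S, a ^ p ∈ C₀ → a ^ p = 1 := by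
      intro a ha h
      have : a ^ p ∈ (om p S ⊓ pw p S) ⊓ C₀ :=
        ⟨⟨hC₀le h, mem_pw.mpr ⟨a, ha, rfl⟩⟩, h⟩
      rw [hinf] at this
      exact this
    by_cases hC₀S : C₀ = S
    · -- elementary
      have hele : ∀ a ∈ S, a ^ p = 1 := by
        intro a ha
        rw [← hC₀S] at ha
        exact (mem_om.mp (hC₀le ha)).2
      have hom : om p S = S := le_antisymm (fun a ha => (mem_om.mp ha).1)
        (fun a ha => mem_om.mpr ⟨ha, hele a ha⟩)
      exact hdec B₀ hB₀ h0 h1 (hom ▸ h2) (fun a ha _ => hele a ha)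
    · exact hdec C₀ hC₀I hC₀le hC₀1 hC₀S hpow

/-- In a `p`-group, a nontrivial invariant subgroup has a nontrivial element with trivial
`p`-th power. -/
theorem exists_om {B : Subgroup A} (hA : IsPGroup p A) (h : B ≠ ⊥) :
    ∃ c ∈ B, c ≠ 1 ∧ c ^ p = 1 := by
  obtain ⟨b, hb⟩ := Subgroup.ne_bot_iff_exists_ne_one.mp h
  obtain ⟨k, hk⟩ := hA (b : A)
  have hb1 : (b : A) ≠ 1 := fun h => hb (Subtype.ext h)
  have : ∀ k : ℕ, (b : A) ^ p ^ k = 1 → ∃ c ∈ B, c ≠ 1 ∧ c ^ p = 1 := by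
    intro k
    induction k with
    | zero =>
      intro h
      rw [pow_zero, pow_one] at h
      exact absurd h hb1
    | succ k ih =>
      intro h
      by_cases h2 : (b : A) ^ p ^ k = 1
      · exact ih h2
      · exact ⟨(b : A) ^ p ^ k, B.pow_mem b.2 _, h2, by rw [← pow_mul, ← pow_succ]; exact h⟩
  exact this k hk

/-- Main induction for `(iii) ⟹ (ii)`. -/
theorem layers (hA : IsPGroup p A) (X : Subgroup (MulAut A)) (S : Subgroup A) (hS : Inv X S)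
    (hirr : ∀ T : Subgroup A, Inv X T → T ≤ om p S → T = ⊥ ∨ T = om p S)
    (B : Subgroup A) (hB : Inv X B) (hBS : B ≤ S) :
    ∃ i : ℕ, ∀ a ∈ S, a ∈ B ↔ a ^ p ^ i = 1 := by
  induction' hn : Nat.card S using Nat.strong_induction_on with n ih generalizing S B
  by_cases hB1 : B = ⊥
  · refine ⟨0, fun a _ => ?_⟩
    rw [hB1, pow_zero, pow_one]; exact Subgroup.mem_bot
  have hker : Inv X ((powMonoidHom p : A →* A).ker) := by
    intro x _ b hb
    rw [MonoidHom.mem_ker] at hb ⊢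
    show (x b) ^ p = 1
    rw [← map_pow]
    have : b ^ p = 1 := hb
    rw [this, map_one]
  have hle : ∀ D : Subgroup A, D ≤ S → Inv X D → D ≠ ⊥ → om p S ≤ D := by
    intro D hD hDI hD1
    have h1 : D ⊓ (powMonoidHom p : A →* A).ker ≤ om p S := by
      rintro a ⟨h1, h2⟩
      exact mem_om.mpr ⟨hD h1, h2⟩
    obtain ⟨c, hc, hc1, hcp⟩ := exists_om (p := p) hA hD1
    rcases hirr _ (inv_inf hDI hker) h1 with h | h
    · exfalso
      have : c ∈ D ⊓ (powMonoidHom p : A →* A).ker := ⟨hc, hcp⟩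
      rw [h] at this
      exact hc1 this
    · rw [← h]; exact inf_le_left
  have hOB := hle B hBS hB hB1
  by_cases hpw : pw p S = ⊥
  · refine ⟨1, fun a ha => ?_⟩
    rw [pow_one]
    have h1 : a ^ p = 1 := by
      have : a ^ p ∈ pw p S := mem_pw.mpr ⟨a, ha, rfl⟩
      rw [hpw] at this
      exact this
    exact ⟨fun _ => h1, fun _ => hOB (mem_om.mpr ⟨ha, h1⟩)⟩
  · have hOP := hle (pw p S) (pw_le S) (inv_pw hS) hpw
    obtain ⟨c, hc, hc1, hcp⟩ := exists_om (p := p) hA hpw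
    have hlt : Nat.card (pw p S) < n := hn ▸ card_pw_lt (pw_le S hc) hc1 hcp
    have homeq : om p (pw p S) = om p S := by
      apply le_antisymm
      · intro a ha
        obtain ⟨h1, h2⟩ := mem_om.mp ha
        exact mem_om.mpr ⟨pw_le S h1, h2⟩
      · intro a ha
        exact mem_om.mpr ⟨hOP ha, (mem_om.mp ha).2⟩
    obtain ⟨i, hi⟩ := ih _ hlt (pw p S) (inv_pw hS) (by rw [homeq]; exact hirr) (pw p B) (inv_pw hB)
      (by
        intro a ha
        obtain ⟨b, hb, rfl⟩ := mem_pw.mp ha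
        exact mem_pw.mpr ⟨b, hBS hb, rfl⟩) rfl
    refine ⟨i + 1, fun a ha => ?_⟩
    have hap : a ^ p ∈ pw p S := mem_pw.mpr ⟨a, ha, rfl⟩
    have e : a ^ p ^ (i + 1) = (a ^ p) ^ p ^ i := by rw [pow_succ', pow_mul]
    rw [e, ← hi _ hap]
    constructor
    · intro h
      exact mem_pw.mpr ⟨a, h, rfl⟩
    · intro h
      obtain ⟨b, hb, hb2⟩ := mem_pw.mp h
      have : a * b⁻¹ ∈ om p S := mem_om.mpr ⟨S.mul_mem ha (S.inv_mem (hBS hb)), by
        rw [mul_pow, inv_pow, hb2, mul_inv_cancel]⟩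
      have h3 := B.mul_mem (hOB this) hb
      rwa [inv_mul_cancel_right] at h3

end

/-- Let A be a finite abelian p-group and X a group of automorphisms of A of order prime to p. Call a subgroup of A invariant when every element of X maps it onto itself. Then the following are equivalent: (i) A is not the direct product of two nontrivial invariant subgroups; (ii) every invariant subgroup of A is one of the subgroups Ω_i(A) = {a : a^(p^i) = 1}; (iii) the subgroup Ω₁(A) of elements of order dividing p has no invariant subgroups other than 1 and itself. -/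
theorem result {A : Type*} [CommGroup A] [Finite A] {p : ℕ} [Fact p.Prime] (hA : IsPGroup p A) (X : Subgroup (MulAut A)) (hX : (Nat.card X).Coprime p) : ((¬ ∃ B C : Subgroup A, B ≠ ⊥ ∧ C ≠ ⊥ ∧ (∀ x ∈ X, B.map x.toMonoidHom = B) ∧ (∀ x ∈ X, C.map x.toMonoidHom = C) ∧ B ⊓ C = ⊥ ∧ B ⊔ C = ⊤) ↔ (∀ B : Subgroup A, (∀ x ∈ X, B.map x.toMonoidHom = B) → ∃ i : ℕ, ∀ a : A, a ∈ B ↔ a ^ p ^ i = 1)) ∧ ((∀ B : Subgroup A, (∀ x ∈ X, B.map x.toMonoidHom = B) → ∃ i : ℕ, ∀ a : A, a ∈ B ↔ a ^ p ^ i = 1) ↔ (∀ B : Subgroup A, (∀ x ∈ X, B.map x.toMonoidHom = B) → (∀ b ∈ B, b ^ p = 1) → B = ⊥ ∨ ∀ a : A, a ∈ B ↔ a ^ p = 1)) := by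
  classical
  have toInv : ∀ B : Subgroup A, (∀ x ∈ X, B.map x.toMonoidHom = B) → Inv X B := by
    intro B hB x hx b hb
    rw [← hB x hx]
    exact ⟨b, hb, rfl⟩
  have ofInv : ∀ B : Subgroup A, Inv X B → ∀ x ∈ X, B.map x.toMonoidHom = B := by
    intro B hB x hx
    apply le_antisymm
    · rintro _ ⟨b, hb, rfl⟩
      exact hB x hx b hb
    · intro b hb
      refine ⟨x⁻¹ b, hB _ (X.inv_mem hx) b hb, ?_⟩
      show x (x⁻¹ b) = b
      exact MulAut.apply_inv_self _ x b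
  have h23 : (∀ B : Subgroup A, (∀ x ∈ X, B.map x.toMonoidHom = B) → ∃ i : ℕ, ∀ a : A, a ∈ B ↔ a ^ p ^ i = 1) → (∀ B : Subgroup A, (∀ x ∈ X, B.map x.toMonoidHom = B) → (∀ b ∈ B, b ^ p = 1) → B = ⊥ ∨ ∀ a : A, a ∈ B ↔ a ^ p = 1) := by
    intro h B hB hBp
    obtain ⟨i, hi⟩ := h B hB
    cases i with
    | zero =>
      left
      rw [eq_bot_iff]
      intro a ha
      have := (hi a).mp ha
      rwa [pow_zero, pow_one] at this
    | succ i =>
      right
      intro a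
      refine ⟨hBp a, fun ha => (hi a).mpr ?_⟩
      rw [pow_succ', pow_mul, ha, one_pow]
  have h32 : (∀ B : Subgroup A, (∀ x ∈ X, B.map x.toMonoidHom = B) → (∀ b ∈ B, b ^ p = 1) → B = ⊥ ∨ ∀ a : A, a ∈ B ↔ a ^ p = 1) → (∀ B : Subgroup A, (∀ x ∈ X, B.map x.toMonoidHom = B) → ∃ i : ℕ, ∀ a : A, a ∈ B ↔ a ^ p ^ i = 1) := by
    intro h B hB
    obtain ⟨i, hi⟩ := layers hA X ⊤ (fun _ _ _ _ => Subgroup.mem_top _) (by
      intro T hT hT2
      rcases h T (ofInv T hT) (fun b hb => (mem_om.mp (hT2 hb)).2) with h1 | h1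
      · exact Or.inl h1
      · right
        apply le_antisymm hT2
        intro a ha
        exact (h1 a).mpr (mem_om.mp ha).2) B (toInv B hB) le_top
    exact ⟨i, fun a => hi a (Subgroup.mem_top a)⟩
  refine ⟨⟨?_, ?_⟩, ⟨h23, h32⟩⟩
  · intro hi
    apply h32
    intro B hB hBp
    by_contra hcon
    push_neg at hcon
    obtain ⟨hB1, a, ha⟩ := hcon
    have hB2 : B ≠ om p (⊤ : Subgroup A) := by
      intro h
      rcases ha with ⟨ha1, ha2⟩ | ⟨ha1, ha2⟩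
      · exact ha2 (hBp a ha1)
      · apply ha1
        rw [h]
        exact mem_om.mpr ⟨Subgroup.mem_top a, ha2⟩
    obtain ⟨C, D, hC, hD, hC1, hD1, hinf, hsup⟩ := decomp X hX ⊤ (fun _ _ _ _ => Subgroup.mem_top _)
      B (toInv B hB) (fun b hb => mem_om.mpr ⟨Subgroup.mem_top b, hBp b hb⟩) hB1 hB2
    exact hi ⟨C, D, hC1, hD1, ofInv C hC, ofInv D hD, hinf, hsup⟩
  · rintro h ⟨B, C, hB1, hC1, hB, hC, hinf, -⟩
    obtain ⟨i, hi⟩ := h B hB
    obtain ⟨j, hj⟩ := h C hC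
    rcases le_total i j with hij | hij
    · apply hB1
      rw [eq_bot_iff, ← hinf]
      intro a ha
      refine ⟨ha, (hj a).mpr ?_⟩
      obtain ⟨k, rfl⟩ := Nat.exists_eq_add_of_le hij
      rw [pow_add, pow_mul, (hi a).mp ha, one_pow]
    · apply hC1
      rw [eq_bot_iff, ← hinf]
      intro a ha
      refine ⟨(hi a).mpr ?_, ha⟩
      obtain ⟨k, rfl⟩ := Nat.exists_eq_add_of_le hij
      rw [pow_add, pow_mul, (hj a).mp ha, one_pow]

end Cfsg.Agent.S3775
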