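import Mathlib
import Cfsg.Statements.S3780
-- import your own Cfsg.Agent.* helpers here

set_option autoImplicit false
open Cfsg

namespace Cfsg.Agent.S3780

private lemma card_le_of_map {A : Type*} [AddCommGroup A] [Finite A] (f : A →+ A) (X Y : AddSubgroup A)
    (h : ∀ x ∈ X, f x ∈ Y) : Nat.card X ≤ Nat.card (X ⊓ f.ker : AddSubgroup A) * Nat.card Y := by
  let g : X →+ A := f.comp X.subtype
  have h1 : Nat.card g.ker * g.ker.index = Nat.card X := AddSubgroup.card_mul_index g.ker
  have h2 : g.ker.index = Nat.card g.range := AddSubgroup.index_ker g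
  have h3 : Nat.card g.range ≤ Nat.card Y := by
    apply AddSubgroup.card_le_of_le
    rintro _ ⟨x, rfl⟩
    exact h x x.2
  have h4 : Nat.card g.ker ≤ Nat.card (X ⊓ f.ker : AddSubgroup A) := by
    apply Nat.card_le_card_of_injective (fun x : g.ker => (⟨x.1.1, x.1.2, x.2⟩ : (X ⊓ f.ker : AddSubgroup A)))
    intro x y hxy
    have := congrArg Subtype.val hxy
    exact Subtype.ext (Subtype.ext this)
  rw [← h1, h2]
  exact Nat.mul_le_mul h4 h3

private theorem card_omega_le {A : Type*} [AddCommGroup A] [Finite A] {p : ℕ} (hp : p.Prime) (a : AddMonoid.End A) (ha : a ^ p = 1) :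
    Nat.card (AddMonoidHom.ker (p • AddMonoidHom.id A)) ≤ Nat.card (AddMonoidHom.ker (a - 1)) ^ p := by
  classical
  set T : AddMonoid.End A := a - 1 with hT
  set Ω : AddSubgroup A := AddMonoidHom.ker (p • AddMonoidHom.id A) with hΩ
  have hΩmem : ∀ x, x ∈ Ω ↔ p • x = 0 := fun x => by
    simp [hΩ, AddMonoidHom.mem_ker]
  let kr : ℕ → AddSubgroup A := fun k => AddMonoidHom.ker (T ^ k)
  have hkr : ∀ k x, x ∈ kr k ↔ (T ^ k) x = 0 := fun k x => Iff.rfl
  let K : ℕ → AddSubgroup A := fun k => Ω ⊓ kr k
  have hmemK : ∀ k x, x ∈ K k ↔ x ∈ Ω ∧ (T ^ k) x = 0 := fun k x => Iff.rfl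
  set K1 : AddSubgroup A := AddMonoidHom.ker T with hK1
  have hbound : ∀ k, Nat.card (K k) ≤ Nat.card K1 ^ k := by
    intro k
    induction k with
    | zero =>
      have : K 0 = ⊥ := by
        rw [eq_bot_iff]
        intro x hx
        have := ((hmemK 0 x).mp hx).2
        simpa using this
      rw [this, pow_zero]
      simp
    | succ k ih =>
      have h1 := card_le_of_map (T ^ k) (K (k + 1)) K1 (by
        intro x hx
        have h2 := ((hmemK _ x).mp hx).2
        rw [pow_succ'] at h2
        exact h2)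
      have h3 : ((K (k + 1)) ⊓ AddMonoidHom.ker (T ^ k) : AddSubgroup A) ≤ K k := by
        intro x hx
        exact ⟨hx.1.1, hx.2⟩
      have h4 := AddSubgroup.card_le_of_le h3
      calc Nat.card (K (k + 1)) ≤ _ := h1
        _ ≤ Nat.card (K k) * Nat.card K1 := Nat.mul_le_mul_right _ h4
        _ ≤ Nat.card K1 ^ k * Nat.card K1 := Nat.mul_le_mul_right _ ih
        _ = Nat.card K1 ^ (k + 1) := (pow_succ _ _).symm
  have hall : Ω ≤ K p := by
    intro x hx
    refine (hmemK p x).mpr ⟨hx, ?_⟩
    have hpx : p • x = 0 := (hΩmem x).mp hx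
    have hc : Commute a (-1 : AddMonoid.End A) := (Commute.one_right a).neg_right
    obtain ⟨r, hr⟩ := hc.exists_add_pow_prime_eq hp
    have hTeq : T = a + (-1 : AddMonoid.End A) := by rw [hT, sub_eq_add_neg]
    rw [hTeq, hr, ha]
    have hry : p • (a (-(r x))) = 0 := by
      rw [← map_nsmul, smul_neg, ← map_nsmul, hpx, map_zero, neg_zero, map_zero]
    have h5 : (((p : AddMonoid.End A) * a * (-1) * r)) x = p • (a (-(r x))) := by
      rfl
    have h6 : ((1 : AddMonoid.End A) + (-1) ^ p) x = 0 := by
      rcases hp.eq_two_or_odd' with h2 | hodd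
      · subst h2
        rw [neg_one_sq]
        change x + x = 0
        rw [← two_nsmul]
        exact hpx
      · rw [hodd.neg_one_pow]
        simp
    change ((1 : AddMonoid.End A) + (-1) ^ p) x + ((p : AddMonoid.End A) * a * (-1) * r) x = 0
    rw [h5, h6, hry, add_zero]
  have h7 : Ω = K p := le_antisymm hall inf_le_left
  rw [h7]
  exact hbound p

private lemma gen_exists {V : Type*} [CommGroup V] [Finite V] {p : ℕ} (hp : p.Prime) :
    ∀ (d : ℕ) (H : Subgroup V), (∀ v : V, v ^ p ∈ H) → H.index ≤ p ^ d →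
      ∃ S : Finset V, S.card ≤ d ∧ Subgroup.closure (S : Set V) ⊔ H = ⊤ := by
  classical
  haveI : Fact p.Prime := ⟨hp⟩
  intro d
  induction d with
  | zero =>
    intro H _ hH
    refine ⟨∅, by simp, ?_⟩
    have h1 : H.index = 1 := by
      have h2 : H.index ≠ 0 := Subgroup.index_ne_zero_of_finite
      have h3 : H.index ≤ 1 := by simpa using hH
      omega
    rw [Subgroup.index_eq_one.mp h1]
    simp
  | succ d ih =>
    intro H hH hind
    by_cases hT : H = ⊤
    · refine ⟨∅, by simp, ?_⟩
      rw [hT]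
      simp
    obtain ⟨v, hv⟩ : ∃ v, v ∉ H := by
      by_contra hcon
      push_neg at hcon
      exact hT (eq_top_iff.mpr fun x _ => hcon x)
    set H' := H ⊔ Subgroup.zpowers v with hH'
    have hle : H ≤ H' := le_sup_left
    have hvH' : v ∈ H' := Subgroup.mem_sup_right (Subgroup.mem_zpowers v)
    have hrel := Subgroup.relIndex_mul_index hle
    have hd : p ∣ H.relIndex H' := by
      haveI : (H.subgroupOf H').Normal := inferInstance
      let x : H' ⧸ H.subgroupOf H' := ((⟨v, hvH'⟩ : H') : H' ⧸ H.subgroupOf H')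
      have hx1 : x ≠ 1 := by
        intro h
        have := (QuotientGroup.eq_one_iff _).mp h
        exact hv this
      have hxp : x ^ p = 1 := by
        rw [← QuotientGroup.mk_pow, QuotientGroup.eq_one_iff]
        exact hH v
      have ho := orderOf_eq_prime hxp hx1
      have := orderOf_dvd_natCard x
      rwa [ho] at this
    have hpos : 0 < H.relIndex H' := Nat.pos_of_ne_zero (by
      intro h0
      rw [h0, zero_mul] at hrel
      exact Subgroup.index_ne_zero_of_finite hrel.symm)
    have hge : p ≤ H.relIndex H' := Nat.le_of_dvd hpos hd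
    have hind' : H'.index ≤ p ^ d := by
      have h1 : p * H'.index ≤ p ^ (d + 1) := by
        calc p * H'.index ≤ H.relIndex H' * H'.index := Nat.mul_le_mul_right _ hge
          _ = H.index := hrel
          _ ≤ p ^ (d + 1) := hind
      rw [pow_succ'] at h1
      exact Nat.le_of_mul_le_mul_left h1 hp.pos
    obtain ⟨S, hS, hSt⟩ := ih H' (fun w => hle (hH w)) hind'
    refine ⟨insert v S, (Finset.card_insert_le _ _).trans (by omega), ?_⟩
    rw [eq_top_iff, ← hSt, sup_le_iff]
    constructor
    · apply (Subgroup.closure_mono (by simp)).trans le_sup_left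
    · rw [hH', sup_le_iff]
      refine ⟨le_sup_right, ?_⟩
      rw [Subgroup.zpowers_le]
      apply Subgroup.mem_sup_left
      apply Subgroup.subset_closure
      simp

private lemma top_of_frattini {V : Type*} [CommGroup V] [Finite V] {p : ℕ} (hp : p.Prime) (hV : IsPGroup p V)
    (K : Subgroup V) (h : K ⊔ (powMonoidHom p : V →* V).range = ⊤) : K = ⊤ := by
  classical
  haveI : Fact p.Prime := ⟨hp⟩
  have hdec : ∀ v : V, ∃ k ∈ K, ∃ w : V, v = k * w ^ p := by
    intro v
    have hv : v ∈ K ⊔ (powMonoidHom p : V →* V).range := h ▸ Subgroup.mem_top v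
    rw [Subgroup.mem_sup] at hv
    obtain ⟨k, hk, y, ⟨w, rfl⟩, rfl⟩ := hv
    exact ⟨k, hk, w, rfl⟩
  have hall : ∀ (e : ℕ) (v : V), ∃ k ∈ K, ∃ w : V, v = k * w ^ (p ^ e) := by
    intro e
    induction e with
    | zero =>
      intro v
      exact ⟨1, K.one_mem, v, by simp⟩
    | succ e ih =>
      intro v
      obtain ⟨k, hk, w, hw⟩ := ih v
      obtain ⟨k', hk', z, hz⟩ := hdec w
      refine ⟨k * k' ^ (p ^ e), K.mul_mem hk (K.pow_mem hk' _), z, ?_⟩
      rw [hw, hz, mul_pow, ← pow_mul, mul_assoc, pow_succ' p e]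
  obtain ⟨e, he⟩ := IsPGroup.iff_card.mp hV
  rw [eq_top_iff]
  intro v _
  obtain ⟨k, hk, w, hw⟩ := hall e v
  have : w ^ (p ^ e) = 1 := by
    rw [← he]
    exact pow_card_eq_one'
  rw [hw, this, mul_one]
  exact hk

/-- Let V be a finite abelian p-group and α an automorphism of V of order p whose fixed-point subgroup has order p^n. Then V can be generated by pn elements: some subset of V with at most pn elements generates V. -/
theorem result {V : Type*} [CommGroup V] [Finite V] {p : ℕ} [Fact p.Prime] (hV : IsPGroup p V) (α : MulAut V) (hα : orderOf α = p) (n : ℕ) (hfix : Nat.card {v : V // α v = v} = p ^ n) : ∃ S : Finset V, S.card ≤ p * n ∧ Subgroup.closure (S : Set V) = ⊤ := by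
  classical
  have hp : p.Prime := Fact.out
  let a : AddMonoid.End (Additive V) := MonoidHom.toAdditive (α : V →* V)
  have hak : ∀ (k : ℕ) (x : V), (a ^ k) (Additive.ofMul x) = Additive.ofMul ((α ^ k) x) := by
    intro k
    induction k with
    | zero => intro x; rfl
    | succ k ih =>
      intro x
      rw [pow_succ, pow_succ]
      change (a ^ k) (a (Additive.ofMul x)) = _
      have : a (Additive.ofMul x) = Additive.ofMul (α x) := rfl
      rw [this, ih]
      rfl
  have ha : a ^ p = 1 := by
    ext x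
    have h1 := hak p (Additive.toMul x)
    rw [← hα, pow_orderOf_eq_one] at h1
    rw [hα] at h1
    exact h1
  have hle := card_omega_le hp a ha
  have hcardfix : Nat.card (AddMonoidHom.ker (a - 1)) = p ^ n := by
    rw [← hfix]
    apply Nat.card_congr
    refine ⟨fun x => ⟨Additive.toMul x.1, ?_⟩, fun v => ⟨Additive.ofMul v.1, ?_⟩, fun x => rfl, fun v => rfl⟩
    · have h1 : (a - 1) x.1 = 0 := x.2
      have h2 : a x.1 = x.1 := by
        have h3 : a x.1 - x.1 = 0 := h1
        exact sub_eq_zero.mp h3
      exact congrArg Additive.toMul h2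
    · have h2 : a (Additive.ofMul v.1) = Additive.ofMul v.1 := congrArg Additive.ofMul v.2
      change a (Additive.ofMul v.1) - Additive.ofMul v.1 = 0
      rw [h2, sub_self]
  set H : Subgroup V := (powMonoidHom p : V →* V).range with hH
  have hindex : H.index = Nat.card (AddMonoidHom.ker (p • AddMonoidHom.id (Additive V))) := by
    have h1 := Subgroup.card_mul_index H
    have h2 := Subgroup.card_mul_index (powMonoidHom p : V →* V).ker
    rw [Subgroup.index_ker] at h2
    have h3 : H.index = Nat.card (powMonoidHom p : V →* V).ker := by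
      have h4 : Nat.card H * H.index = Nat.card H * Nat.card (powMonoidHom p : V →* V).ker := by
        rw [h1, ← h2, mul_comm]
      exact Nat.eq_of_mul_eq_mul_left Nat.card_pos h4
    rw [h3]
    apply Nat.card_congr
    refine ⟨fun x => ⟨Additive.ofMul x.1, ?_⟩, fun v => ⟨Additive.toMul v.1, ?_⟩, fun x => rfl, fun v => rfl⟩
    · have h5 : x.1 ^ p = 1 := x.2
      change p • Additive.ofMul x.1 = 0
      rw [← ofMul_pow, h5]
      rfl
    · have h5 : p • v.1 = 0 := v.2
      change (Additive.toMul v.1) ^ p = 1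
      rw [← toMul_nsmul, h5]
      rfl
  have hle2 : H.index ≤ p ^ (p * n) := by
    rw [hindex]
    refine hle.trans ?_
    rw [hcardfix, ← pow_mul, mul_comm]
  obtain ⟨S, hS, hSt⟩ := gen_exists hp (p * n) H (fun v => ⟨v, rfl⟩) hle2
  exact ⟨S, hS, top_of_frattini hp hV _ hSt⟩

end Cfsg.Agent.S3780
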