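import Cfsg.Statements.S3781
-- import your own Cfsg.Agent.* helpers here

set_option autoImplicit false
set_option linter.all false
open Cfsg

namespace Cfsg.Agent.S3781

/-- iterated commutators with the whole group -/
def itc {G : Type*} [Group G] (A : Subgroup G) : ℕ → Subgroup G
  | 0 => A
  | m + 1 => ⁅itc A m, ⊤⁆

theorem itc_normal {G : Type*} [Group G] (A : Subgroup G) [A.Normal] (m : ℕ) : (itc A m).Normal := by
  induction m with
  | zero => exact ‹A.Normal›
  | succ m ih =>
    haveI := ih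
    show (⁅itc A m, ⊤⁆ : Subgroup G).Normal
    exact Subgroup.commutator_normal _ _

theorem itc_succ' {G : Type*} [Group G] (A : Subgroup G) (m : ℕ) :
    itc A (m + 1) = itc ⁅A, (⊤ : Subgroup G)⁆ m := by
  induction m with
  | zero => rfl
  | succ m ih =>
    show ⁅itc A (m + 1), ⊤⁆ = ⁅itc ⁅A, (⊤ : Subgroup G)⁆ m, ⊤⁆
    rw [ih]

theorem itc_mono {G : Type*} [Group G] {A B : Subgroup G} (h : A ≤ B) (m : ℕ) :
    itc A m ≤ itc B m := by
  induction m with
  | zero => exact h
  | succ m ih => exact Subgroup.commutator_mono ih le_rfl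

theorem comm_rot {G : Type*} [Group G] (A B C W : Subgroup G) [W.Normal]
    (h1 : ⁅⁅A, B⁆, C⁆ ≤ W) (h2 : ⁅⁅B, C⁆, A⁆ ≤ W) : ⁅⁅C, A⁆, B⁆ ≤ W := by
  set π := QuotientGroup.mk' W
  have hk : π.ker = W := QuotientGroup.ker_mk' W
  have key : ∀ X : Subgroup G, X ≤ W ↔ X.map π = ⊥ := fun X => by
    rw [Subgroup.map_eq_bot_iff, hk]
  rw [key] at h1 h2 ⊢
  simp only [Subgroup.map_commutator] at h1 h2 ⊢
  exact Subgroup.commutator_commutator_eq_bot_of_rotate h1 h2

theorem comm_lcs {G : Type*} [Group G] (m : ℕ) : ∀ (A : Subgroup G) [A.Normal],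
    ⁅A, (⊤ : Subgroup G).lowerCentralSeries m⁆ ≤ itc A (m + 1) := by
  induction m with
  | zero => intro A _; exact le_rfl
  | succ m ih =>
    intro A _
    set T := (⊤ : Subgroup G).lowerCentralSeries m with hT
    haveI : (itc A (m + 2)).Normal := itc_normal A _
    have hs : (⊤ : Subgroup G).lowerCentralSeries (m + 1) = ⁅T, ⊤⁆ := rfl
    rw [hs, Subgroup.commutator_comm]
    refine comm_rot ⊤ A T (itc A (m + 2)) ?_ ?_
    · rw [Subgroup.commutator_comm ⊤ A]
      haveI : (⁅A, (⊤ : Subgroup G)⁆ : Subgroup G).Normal := Subgroup.commutator_normal _ _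
      have := ih (⁅A, (⊤ : Subgroup G)⁆ : Subgroup G)
      rwa [← itc_succ'] at this
    · exact Subgroup.commutator_mono (ih A) le_rfl

theorem le_of_le_comm_sup {G : Type*} [Group G] [Group.IsNilpotent G] (A K : Subgroup G) [K.Normal]
    (h : A ≤ ⁅A, (⊤ : Subgroup G)⁆ ⊔ K) : A ≤ K := by
  set π := QuotientGroup.mk' K
  have hk : π.ker = K := QuotientGroup.ker_mk' K
  have hsurj : Function.Surjective π := QuotientGroup.mk'_surjective K
  set B := A.map π
  have hB : B ≤ ⁅B, (⊤ : Subgroup (G ⧸ K))⁆ := by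
    have h1 := Subgroup.map_mono (f := π) h
    rw [Subgroup.map_sup, Subgroup.map_commutator, Subgroup.map_top_of_surjective π hsurj] at h1
    have h2 : K.map π = ⊥ := by rw [Subgroup.map_eq_bot_iff, hk]
    rwa [h2, sup_bot_eq] at h1
  have hm : ∀ m, B ≤ (⊤ : Subgroup (G ⧸ K)).lowerCentralSeries m := by
    intro m
    induction m with
    | zero => exact le_top
    | succ m ih => exact hB.trans (Subgroup.commutator_mono ih le_rfl)
  haveI : Group.IsNilpotent (G ⧸ K) := inferInstance
  obtain ⟨c, hc⟩ := nilpotent_iff_lowerCentralSeries.mp (inferInstance : Group.IsNilpotent (G ⧸ K))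
  have hBb : B = ⊥ := le_bot_iff.mp (hc ▸ hm c)
  rw [← hk, ← Subgroup.map_eq_bot_iff]
  exact hBb

theorem chain {G : Type*} [Group G] [Finite G] {p : ℕ} [hp : Fact p.Prime] (hG : IsPGroup p G)
    (K : Subgroup G) [K.Normal] (m : ℕ) : ∀ (A : Subgroup G) [A.Normal], K ≤ A →
    K.relIndex A ≤ p ^ m → itc A m ≤ K := by
  haveI : Group.IsNilpotent G := hG.isNilpotent
  induction m with
  | zero =>
    intro A _ hKA h
    have hpos : 0 < K.relIndex A := Nat.pos_of_dvd_of_pos (Subgroup.relIndex_dvd_card K A) Nat.card_pos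
    have h1 : K.relIndex A = 1 := by
      simp at h; omega
    exact Subgroup.relIndex_eq_one.mp h1
  | succ m ih =>
    intro A _ hKA h
    by_cases hAK : A ≤ K
    · -- then all iterates lie in K
      have : ∀ k, itc A k ≤ K := by
        intro k
        induction k with
        | zero => exact hAK
        | succ k ihk =>
          exact (Subgroup.commutator_mono ihk le_rfl).trans (Subgroup.commutator_le_left K ⊤)
      exact this _
    · set A' : Subgroup G := ⁅A, (⊤ : Subgroup G)⁆ ⊔ K with hA'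
      haveI : (⁅A, (⊤ : Subgroup G)⁆ : Subgroup G).Normal := Subgroup.commutator_normal _ _
      haveI : A'.Normal := Subgroup.sup_normal _ _
      have hA'A : A' ≤ A := sup_le (Subgroup.commutator_le_left A ⊤) hKA
      have hKA' : K ≤ A' := le_sup_right
      have hmul : K.relIndex A' * A'.relIndex A = K.relIndex A :=
        Subgroup.relIndex_mul_relIndex K A' A hKA' hA'A
      have hne1 : A'.relIndex A ≠ 1 := by
        intro h1
        exact hAK (le_of_le_comm_sup A K (Subgroup.relIndex_eq_one.mp h1))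
      obtain ⟨k, hdvd⟩ : ∃ k, A'.relIndex A ∣ p ^ k := by
        obtain ⟨k, hk⟩ := IsPGroup.iff_card.mp hG
        have h2 : A'.relIndex A ∣ Nat.card G :=
          (Subgroup.relIndex_dvd_card A' A).trans (Subgroup.card_subgroup_dvd_card A)
        rw [hk] at h2
        exact ⟨k, h2⟩
      obtain ⟨j, -, hj⟩ := (Nat.dvd_prime_pow hp.out).mp hdvd
      have hj0 : j ≠ 0 := by
        rintro rfl
        exact hne1 (by simpa using hj)
      have hple : p ≤ A'.relIndex A := by
        rw [hj]
        exact Nat.le_self_pow hj0 p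
      have hle : K.relIndex A' ≤ p ^ m := by
        have h3 : K.relIndex A' * p ≤ p ^ m * p := by
          calc K.relIndex A' * p ≤ K.relIndex A' * A'.relIndex A := Nat.mul_le_mul_left _ hple
            _ = K.relIndex A := hmul
            _ ≤ p ^ (m + 1) := h
            _ = p ^ m * p := pow_succ _ _
        exact Nat.le_of_mul_le_mul_right h3 hp.out.pos
      have h4 := ih A' hKA' hle
      rw [itc_succ']
      exact (itc_mono le_sup_left m).trans h4

theorem lcs_normal {G : Type*} [Group G] (N : Subgroup G) [N.Normal] (m : ℕ) :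
    (N.lowerCentralSeries m).Normal := by
  induction m with
  | zero => exact ‹N.Normal›
  | succ m ih =>
    haveI := ih
    show (⁅N.lowerCentralSeries m, N⁆ : Subgroup G).Normal
    exact Subgroup.commutator_normal _ _


/-- Let G be a finite p-group and n ≥ 1, and write γ_1(G) = G, γ_{k+1}(G) = [γ_k(G), G], and likewise γ_k(N) for a subgroup N. Let N be a normal subgroup of G contained in γ_n(G). If i > 1 and γ_{i+1}(N) ≠ 1, then |γ_i(N) : γ_{i+1}(N)| ≥ p^n. -/
theorem result {G : Type*} [Group G] [Finite G] {p : ℕ} [Fact p.Prime] (hG : IsPGroup p G) (n : ℕ) (hn : 1 ≤ n) (N : Subgroup G) [N.Normal] (hN : N ≤ (⊤ : Subgroup G).lowerCentralSeries (n - 1)) (i : ℕ) (hi : 1 < i) (hne : N.lowerCentralSeries i ≠ ⊥) : p ^ n ≤ (N.lowerCentralSeries i).relIndex (N.lowerCentralSeries (i - 1)) := by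
  classical
  haveI : Group.IsNilpotent G := hG.isNilpotent
  obtain ⟨i', rfl⟩ : ∃ i', i = i' + 1 := ⟨i - 1, by omega⟩
  simp only [Nat.add_sub_cancel] at *
  set Y := N.lowerCentralSeries i' with hY
  set K := N.lowerCentralSeries (i' + 1) with hK
  have hKY : K ≤ Y := Subgroup.lowerCentralSeries_antitone N (Nat.le_succ i')
  have hKc : K = ⁅Y, N⁆ := rfl
  haveI : Y.Normal := lcs_normal N i'
  haveI : K.Normal := lcs_normal N (i' + 1)
  by_contra hlt
  push Not at hlt
  obtain ⟨n', rfl⟩ : ∃ n', n = n' + 1 := ⟨n - 1, by omega⟩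
  simp only [Nat.add_sub_cancel] at hN
  obtain ⟨k, hdvd⟩ : ∃ k, K.relIndex Y ∣ p ^ k := by
    obtain ⟨k, hk⟩ := IsPGroup.iff_card.mp hG
    have h2 : K.relIndex Y ∣ Nat.card G :=
      (Subgroup.relIndex_dvd_card K Y).trans (Subgroup.card_subgroup_dvd_card Y)
    rw [hk] at h2
    exact ⟨k, h2⟩
  obtain ⟨j, -, hj⟩ := (Nat.dvd_prime_pow Fact.out).mp hdvd
  have hle : K.relIndex Y ≤ p ^ n' := by
    rw [hj] at hlt ⊢
    have hjlt : j < n' + 1 := (Nat.pow_lt_pow_iff_right (Fact.out : p.Prime).one_lt).mp hlt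
    exact Nat.pow_le_pow_right (Fact.out : p.Prime).pos (by omega)
  have h1 : itc Y n' ≤ K := chain hG K n' Y hKY hle
  have h2 : itc Y (n' + 1) ≤ ⁅K, ⊤⁆ := Subgroup.commutator_mono h1 le_rfl
  have h3 : K ≤ itc Y (n' + 1) :=
    (Subgroup.commutator_mono le_rfl hN).trans (comm_lcs n' Y)
  have h4 : K ≤ ⁅K, (⊤ : Subgroup G)⁆ ⊔ ⊥ := by
    rw [sup_bot_eq]
    exact h3.trans h2
  exact hne (le_bot_iff.mp (le_of_le_comm_sup K ⊥ h4))

end Cfsg.Agent.S3781
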