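import Mathlib
import Cfsg.Statements.S3783
import Cfsg.Agent.Lib.H6PExp
import Cfsg.Agent.Lib.UpperP
import Cfsg.Agent.Lib.CharBlockPSolv
import Cfsg.Agent.Lib.StrongFusion
-- import your own Cfsg.Agent.* helpers here

set_option autoImplicit false
open Cfsg

namespace Cfsg.Agent.S3783

open Cfsg.Agent.Lib.H6PLen Cfsg.Agent.Lib.H6PExp

/-- Finding an `x`-invariant abelian `q`-subgroup on which `x` acts semiregularly. -/
theorem exists_A {Q : Type*} [Group Q] [Finite Q] {p : ℕ} [hp : Fact p.Prime] (hs : IsPSolvable p Q)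
    (hcore : pCore p Q = ⊥)
    (hab : ∀ (q : ℕ) [Fact q.Prime], q ≠ p → ∀ S : Sylow q Q, ∀ a ∈ (S : Subgroup Q), ∀ b ∈ (S : Subgroup Q),
      a * b = b * a)
    (x : Q) (n : ℕ) (hx : x ^ (p ^ (n + 1)) = 1) (hy : x ^ (p ^ n) ≠ 1) :
    ∃ q : ℕ, q.Prime ∧ q ≠ p ∧ ∃ A : Subgroup Q, IsPGroup q A ∧ (∀ a ∈ A, ∀ b ∈ A, a * b = b * a) ∧
      (∀ a ∈ A, x * a * x⁻¹ ∈ A) ∧ A ≠ ⊥ ∧
      (∀ a ∈ A, x ^ (p ^ n) * a * (x ^ (p ^ n))⁻¹ = a → a = 1) := by
  classical
  set y := x ^ (p ^ n) with hyd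
  have hyp : y ^ p = 1 := by
    rw [hyd, ← pow_mul, ← pow_succ]; exact hx
  set K := pPrimeCore p Q with hK
  haveI hKn : K.Normal := inferInstance
  have hKp : ¬ p ∣ Nat.card K := Cfsg.Agent.Lib.FitCore.not_dvd_card_pPrimeCore p hp.out
  -- `y` does not centralize `K`
  have hyK : ¬ y ∈ Subgroup.centralizer (K : Set Q) := by
    intro hc
    have h1 := centralizer_pPrimeCore_le hs hcore hc
    obtain ⟨m, hm, hym⟩ := exists_pow_of_mem_pPrimeCore (p := p) h1
    have h2 : orderOf y ∣ Nat.gcd m p := Nat.dvd_gcd (orderOf_dvd_of_pow_eq_one hym) (orderOf_dvd_of_pow_eq_one hyp)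
    rw [hm, Nat.dvd_one, orderOf_eq_one_iff] at h2
    exact hy h2
  let X : Subgroup Q := Subgroup.zpowers x
  have hXp : IsPGroup p X := by
    intro b
    obtain ⟨b, j, rfl⟩ := b
    refine ⟨n + 1, Subtype.ext ?_⟩
    show (x ^ j) ^ (p ^ (n + 1)) = 1
    rw [← zpow_natCast, ← zpow_mul, mul_comm, zpow_mul, zpow_natCast, hx, one_zpow]
  have hXK : ∀ a ∈ X, ∀ l ∈ K, a * l * a⁻¹ ∈ K := fun a _ l hl => hKn.conj_mem l hl a
  -- some invariant Sylow subgroup is not centralized by `y`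
  have hex : ∃ q : ℕ, q.Prime ∧ ∃ R : Subgroup Q, R ≤ K ∧ IsPGroup q R ∧ (∀ a ∈ X, ∀ r ∈ R, a * r * a⁻¹ ∈ R) ∧
      ¬ R ≤ Subgroup.centralizer ({y} : Set Q) := by
    by_contra hno
    push_neg at hno
    let D : Subgroup Q := Subgroup.centralizer ({y} : Set Q) ⊓ K
    have hdvd : Nat.card K ∣ Nat.card D := by
      have h0 : Nat.card K ≠ 0 := Nat.card_pos.ne'
      have h0' : Nat.card D ≠ 0 := Nat.card_pos.ne'
      rw [← Nat.factorization_prime_le_iff_dvd h0 h0']
      intro q hq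
      haveI : Fact q.Prime := ⟨hq⟩
      obtain ⟨R, -, hRK, hRp, hRc, hRinv⟩ := Cfsg.Agent.Lib.CoprimeSylow.exists_invariant_sylow_ge (r := q) X K ⊥ hXp hKp hXK
        bot_le IsPGroup.of_bot (fun a _ r hr => by
          rw [Subgroup.mem_bot] at hr
          rw [hr]; simp)
      have h1 := hno q hq R hRK hRp hRinv
      have hRD : R ≤ D := le_inf h1 hRK
      have h2 : Nat.card R ∣ Nat.card D := Subgroup.card_dvd_of_le hRD
      rw [hRc] at h2
      exact (Nat.Prime.pow_dvd_iff_le_factorization hq h0').1 h2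
    have hDK : D = K := Subgroup.eq_of_le_of_card_ge inf_le_right (Nat.le_of_dvd Nat.card_pos hdvd)
    apply hyK
    rw [Subgroup.mem_centralizer_iff]
    intro k hk
    have h1 : k ∈ D := by rw [hDK]; exact hk
    have h2 := Subgroup.mem_centralizer_singleton_iff.1 h1.1
    exact h2
  obtain ⟨q, hq, R, hRK, hRp, hRinv, hRy⟩ := hex
  haveI : Fact q.Prime := ⟨hq⟩
  have hqp : q ≠ p := by
    rintro rfl
    apply hRy
    have hRbot : R = ⊥ := by
      rw [eq_bot_iff]
      intro r hr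
      obtain ⟨k, hk⟩ := hRp ⟨r, hr⟩
      have h1 : r ^ (q ^ k) = 1 := by simpa using congrArg Subtype.val hk
      obtain ⟨m, hm, hrm⟩ := exists_pow_of_mem_pPrimeCore (p := q) (hRK hr)
      have h2 : orderOf r ∣ Nat.gcd m (q ^ k) :=
        Nat.dvd_gcd (orderOf_dvd_of_pow_eq_one hrm) (orderOf_dvd_of_pow_eq_one h1)
      rw [Nat.Coprime.pow_right _ hm, Nat.dvd_one, orderOf_eq_one_iff] at h2
      exact h2
    rw [hRbot]; exact bot_le
  obtain ⟨S, hS⟩ := hRp.exists_le_sylow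
  have hRc : ∀ a ∈ R, ∀ b ∈ R, a * b = b * a := fun a ha b hb => hab q hqp S a (hS ha) b (hS hb)
  have hyX : y ∈ X := Subgroup.pow_mem _ (Subgroup.mem_zpowers x) _
  have hyR : ∀ r ∈ R, y * r * y⁻¹ ∈ R := hRinv y hyX
  let A : Subgroup Q :=
    { carrier := {b | ∃ a ∈ R, b = a * (y * a * y⁻¹)⁻¹}
      one_mem' := ⟨1, R.one_mem, by simp⟩
      mul_mem' := by
        rintro _ _ ⟨a, ha, rfl⟩ ⟨b, hb, rfl⟩
        refine ⟨a * b, R.mul_mem ha hb, ?_⟩
        have e : y * (a * b) * y⁻¹ = (y * a * y⁻¹) * (y * b * y⁻¹) := by group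
        rw [e]
        have ha' := hyR a ha
        have hb' := hyR b hb
        generalize y * a * y⁻¹ = a' at *
        generalize y * b * y⁻¹ = b' at *
        have h1 : a'⁻¹ * b = b * a'⁻¹ := hRc _ (R.inv_mem ha') _ hb
        have h2 : a'⁻¹ * b'⁻¹ = b'⁻¹ * a'⁻¹ := hRc _ (R.inv_mem ha') _ (R.inv_mem hb')
        calc a * a'⁻¹ * (b * b'⁻¹) = a * (a'⁻¹ * b) * b'⁻¹ := by group
          _ = a * (b * a'⁻¹) * b'⁻¹ := by rw [h1]
          _ = a * b * (a'⁻¹ * b'⁻¹) := by group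
          _ = a * b * (b'⁻¹ * a'⁻¹) := by rw [h2]
          _ = a * b * (a' * b')⁻¹ := by group
      inv_mem' := by
        rintro _ ⟨a, ha, rfl⟩
        refine ⟨a⁻¹, R.inv_mem ha, ?_⟩
        have e : y * a⁻¹ * y⁻¹ = (y * a * y⁻¹)⁻¹ := by group
        rw [e]
        have ha' := hyR a ha
        generalize y * a * y⁻¹ = a' at *
        have h1 : a' * a⁻¹ = a⁻¹ * a' := hRc _ ha' _ (R.inv_mem ha)
        calc (a * a'⁻¹)⁻¹ = a' * a⁻¹ := by group
          _ = a⁻¹ * a' := h1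
          _ = a⁻¹ * (a'⁻¹)⁻¹ := by group }
  have hAR : A ≤ R := by
    rintro _ ⟨a, ha, rfl⟩
    exact R.mul_mem ha (R.inv_mem (hyR a ha))
  refine ⟨q, hq, hqp, A, hRp.to_le hAR, fun a ha b hb => hRc a (hAR ha) b (hAR hb), ?_, ?_, ?_⟩
  · rintro _ ⟨a, ha, rfl⟩
    refine ⟨x * a * x⁻¹, hRinv x (Subgroup.mem_zpowers x) a ha, ?_⟩
    have hc : x * y = y * x := by
      rw [hyd]; exact ((Commute.refl x).pow_right _).eq
    have hc' : y * x = x * y := hc.symm
    have hc2 : x⁻¹ * y = y * x⁻¹ := by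
      rw [inv_mul_eq_iff_eq_mul, ← mul_assoc, hc, mul_assoc]; simp
    have e1 : y * (x * a * x⁻¹) * y⁻¹ = x * (y * a * y⁻¹) * x⁻¹ := by
      calc y * (x * a * x⁻¹) * y⁻¹ = (y * x) * a * (y * x)⁻¹ := by group
        _ = (x * y) * a * (x * y)⁻¹ := by rw [hc']
        _ = x * (y * a * y⁻¹) * x⁻¹ := by group
    rw [e1]
    group
  · -- the subgroup is non-trivial
    intro hbot
    apply hRy
    intro r hr
    have h1 : r * (y * r * y⁻¹)⁻¹ ∈ A := ⟨r, hr, rfl⟩
    rw [hbot, Subgroup.mem_bot] at h1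
    rw [Subgroup.mem_centralizer_singleton_iff]
    have h2 := mul_inv_eq_one.1 h1
    exact eq_mul_inv_iff_mul_eq.1 h2
  · rintro _ ⟨a, ha, rfl⟩ hfix
    set b := a * (y * a * y⁻¹)⁻¹ with hb
    -- `b ^ m = a * τ^m(a)⁻¹`
    have hpow : ∀ m : ℕ, b ^ m = a * (y ^ m * a * (y ^ m)⁻¹)⁻¹ := by
      intro m
      induction m with
      | zero => simp
      | succ m ih =>
        have h1 : y ^ m * b * (y ^ m)⁻¹ = b := by
          clear ih
          induction m with
          | zero => simp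
          | succ m ih2 =>
            have e : y ^ (m + 1) * b * (y ^ (m + 1))⁻¹ = y * (y ^ m * b * (y ^ m)⁻¹) * y⁻¹ := by
              rw [pow_succ']; group
            rw [e, ih2, hfix]
        rw [pow_succ, ih]
        rw [← h1, hb]
        have e : (y ^ (m + 1) * a * (y ^ (m + 1))⁻¹) = y ^ m * (y * a * y⁻¹) * (y ^ m)⁻¹ := by
          rw [pow_succ']
          have : y * y ^ m = y ^ m * y := (Commute.refl y).pow_right m |>.eq
          rw [this]
          group
        rw [e]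
        group
    have hbp : b ^ p = 1 := by
      rw [hpow p, hyp]; simp
    have hbR : b ∈ R := hAR ⟨a, ha, rfl⟩
    obtain ⟨k, hk⟩ := hRp ⟨b, hbR⟩
    have h1 : b ^ (q ^ k) = 1 := by simpa using congrArg Subtype.val hk
    have h2 : orderOf b ∣ Nat.gcd p (q ^ k) :=
      Nat.dvd_gcd (orderOf_dvd_of_pow_eq_one hbp) (orderOf_dvd_of_pow_eq_one h1)
    have hco : Nat.Coprime p (q ^ k) := Nat.Coprime.pow_right _ ((Nat.coprime_primes hp.out hq).2 hqp.symm)
    rw [hco, Nat.dvd_one, orderOf_eq_one_iff] at h2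
    exact h2

theorem pow_gcd_mem {G : Type*} [Group G] (S : Subgroup G) (x : G) {m n : ℕ} (h1 : x ^ m ∈ S) (h2 : x ^ n ∈ S) :
    x ^ (Nat.gcd m n) ∈ S := by
  have e := Nat.gcd_eq_gcd_ab m n
  have h3 : x ^ (Nat.gcd m n) = (x ^ m) ^ (Nat.gcdA m n) * (x ^ n) ^ (Nat.gcdB m n) := by
    rw [← zpow_natCast, e, zpow_add, zpow_mul, zpow_mul, zpow_natCast, zpow_natCast]
  rw [h3]
  exact S.mul_mem (S.zpow_mem h1 _) (S.zpow_mem h2 _)

theorem ab_quot {G H : Type*} [Group G] [Group H] [Finite G] [Finite H] {p : ℕ} {f : G →* H}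
    (hf : Function.Surjective f)
    (hab : ∀ (q : ℕ) [Fact q.Prime], q ≠ p → ∀ S : Sylow q G, ∀ a ∈ (S : Subgroup G), ∀ b ∈ (S : Subgroup G),
      a * b = b * a) :
    ∀ (q : ℕ) [Fact q.Prime], q ≠ p → ∀ S : Sylow q H, ∀ a ∈ (S : Subgroup H), ∀ b ∈ (S : Subgroup H),
      a * b = b * a := by
  intro q _ hne S' a ha b hb
  obtain ⟨S, rfl⟩ := Sylow.mapSurjective_surjective hf q S'
  rw [Sylow.coe_mapSurjective] at ha hb
  obtain ⟨a', ha', rfl⟩ := ha
  obtain ⟨b', hb', rfl⟩ := hb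
  rw [← map_mul, ← map_mul, hab q hne S a' ha' b' hb']

theorem exp_quot {G H : Type*} [Group G] [Group H] [Finite G] [Finite H] {p : ℕ} [Fact p.Prime] {f : G →* H}
    (hf : Function.Surjective f) {n : ℕ}
    (hexp : ∀ P : Sylow p G, ∀ x ∈ (P : Subgroup G), x ^ p ^ n = 1) :
    ∀ P : Sylow p H, ∀ x ∈ (P : Subgroup H), x ^ p ^ n = 1 := by
  intro S' a ha
  obtain ⟨S, rfl⟩ := Sylow.mapSurjective_surjective hf p S'
  rw [Sylow.coe_mapSurjective] at ha
  obtain ⟨a', ha', rfl⟩ := ha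
  rw [← map_pow, hexp S a' ha', map_one]

theorem card_quot_lt {G : Type*} [Group G] [Finite G] (K : Subgroup G) [K.Normal] (hK : K ≠ ⊥) :
    Nat.card (G ⧸ K) < Nat.card G := by
  have h1 := Subgroup.card_mul_index K
  have h2 := (Subgroup.one_lt_card_iff_ne_bot K).2 hK
  have h3 : 0 < K.index := Nat.pos_of_ne_zero Subgroup.index_ne_zero_of_finite
  have h4 : Nat.card (G ⧸ K) = K.index := rfl
  rw [h4]
  nlinarith

/-- The contradiction in the main argument. -/
theorem no_long_element {G : Type*} [Group G] [Finite G] {p : ℕ} [hp : Fact p.Prime] (hs : IsPSolvable p G)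
    (hK : pPrimeCore p G = ⊥)
    (hab : ∀ (q : ℕ) [Fact q.Prime], q ≠ p → ∀ S : Sylow q G, ∀ a ∈ (S : Subgroup G), ∀ b ∈ (S : Subgroup G),
      a * b = b * a)
    (n : ℕ) (hexp : ∀ P : Sylow p G, ∀ x ∈ (P : Subgroup G), x ^ p ^ (n + 1) = 1)
    (P : Sylow p G) (x : G) (hx : x ∈ (P : Subgroup G))
    (hy : (QuotientGroup.mk x : G ⧸ pCore p G) ^ (p ^ n) ≠ 1) : False := by
  classical
  set T := pCore p G with hT
  haveI hTn : T.Normal := inferInstance
  have hTp : IsPGroup p T := Cfsg.Agent.Lib.FitCore.pCore_isPGroup p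
  have hTP : T ≤ (P : Subgroup G) := Cfsg.Agent.Lib.FitCore.pCore_le_sylow p P
  have hs' : IsPSolvable p (G ⧸ T) := Cfsg.Agent.Lib.UpperP.isPSolvable_quotient hs T
  have hcore : pCore p (G ⧸ T) = ⊥ := Cfsg.Agent.Lib.StrongFusion.pCore_quotient_eq_bot
  have hxk : x ^ (p ^ (n + 1)) = 1 := hexp P x hx
  set xb : G ⧸ T := QuotientGroup.mk x with hxb
  have hxbk : xb ^ (p ^ (n + 1)) = 1 := by
    rw [hxb, ← QuotientGroup.mk_pow, hxk]; rfl
  obtain ⟨q, hq, hqp, A, hAq, hAc, hAx, hAne, hAfix⟩ :=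
    exists_A hs' hcore (ab_quot (QuotientGroup.mk'_surjective T) hab) xb n hxbk hy
  haveI : Fact q.Prime := ⟨hq⟩
  haveI : Fintype A := Fintype.ofFinite A
  let rb : (G ⧸ T) →* AddMonoid.End (W T) := QuotientGroup.lift T (rho T) (fun t ht => rho_of_mem T ht)
  have hrb : ∀ g : G, rb (QuotientGroup.mk g) = rho T g := fun g => rfl
  obtain ⟨k, hk⟩ : ∃ k, p ^ (n + 1) = k + 1 := Nat.exists_eq_succ_of_ne_zero (pow_ne_zero _ hp.out.ne_zero)
  have hN : ∑ i ∈ Finset.range (k + 1), rb xb ^ i = 0 := by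
    rw [hxb, hrb, ← hk]
    refine norm_eq_zero T x _ hxk (fun v hv => hexp P _ (Subgroup.mul_mem _ (hTP hv) hx))
  have hsemi : ∀ i, 0 < i → i < k + 1 → ∀ a ∈ A, xb ^ i * a * (xb ^ i)⁻¹ = a → a = 1 := by
    intro i hi hik a ha hfix
    let C : Subgroup (G ⧸ T) := Subgroup.centralizer ({a} : Set (G ⧸ T))
    have h1 : xb ^ i ∈ C := by
      rw [Subgroup.mem_centralizer_singleton_iff]
      exact mul_inv_eq_iff_eq_mul.1 hfix
    have h2 : xb ^ (p ^ (n + 1)) ∈ C := by
      rw [hxbk]; exact C.one_mem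
    have h3 := pow_gcd_mem C xb h1 h2
    have h4 : Nat.gcd i (p ^ (n + 1)) ∣ p ^ (n + 1) := Nat.gcd_dvd_right _ _
    obtain ⟨v, hv, hve⟩ := (Nat.dvd_prime_pow hp.out).1 h4
    have hvn : v ≠ n + 1 := by
      intro hv1
      rw [hv1] at hve
      have h5 : p ^ (n + 1) ∣ i := by
        rw [← hve]; exact Nat.gcd_dvd_left _ _
      have := Nat.le_of_dvd hi h5
      omega
    have hvle : v ≤ n := by omega
    rw [hve] at h3
    have h6 : xb ^ (p ^ n) ∈ C := by
      have e : p ^ n = p ^ v * p ^ (n - v) := by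
        rw [← pow_add]; congr 1; omega
      rw [e, pow_mul]
      exact C.pow_mem h3 _
    apply hAfix a ha
    rw [mul_inv_eq_iff_eq_mul]
    exact (Subgroup.mem_centralizer_singleton_iff.1 h6)
  have hπ := key_sum rb A hAc xb hAx k hsemi hN
  -- every element of `A` acts trivially
  have hcop : (Fintype.card A).Coprime p := by
    rw [← Nat.card_eq_fintype_card]
    obtain ⟨j, hj⟩ := IsPGroup.iff_card.1 hAq
    rw [hj]
    exact Nat.Coprime.pow_left _ ((Nat.coprime_primes hq hp.out).2 hqp)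
  have htriv : ∀ b ∈ A, rb b = 1 := by
    intro b hb
    have h1 : rb b * ∑ a : A, rb (a : G ⧸ T) = ∑ a : A, rb (a : G ⧸ T) := by
      rw [Finset.mul_sum]
      have h2 : ∀ a : A, rb b * rb (a : G ⧸ T) = rb (((Equiv.mulLeft (⟨b, hb⟩ : A)) a : A) : G ⧸ T) := by
        intro a
        rw [← map_mul]
        rfl
      rw [Finset.sum_congr rfl (fun a _ => h2 a)]
      exact Equiv.sum_comp (Equiv.mulLeft (⟨b, hb⟩ : A)) (fun a : A => rb (a : G ⧸ T))
    rw [hπ] at h1
    apply AddMonoidHom.ext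
    intro w
    have h3 := congrArg (fun f : AddMonoid.End (W T) => f w) h1
    have h4 : (rb b * ((Fintype.card A : ℕ) : AddMonoid.End (W T))) w = (Fintype.card A) • (rb b w) := by
      show rb b (((Fintype.card A : ℕ) : AddMonoid.End (W T)) w) = _
      rw [AddMonoid.End.natCast_apply, map_nsmul]
    have h5 : (((Fintype.card A : ℕ) : AddMonoid.End (W T))) w = (Fintype.card A) • w :=
      AddMonoid.End.natCast_apply _ _
    simp only [h4, h5] at h3
    have h6 : (Fintype.card A) • (rb b w - w) = 0 := by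
      rw [smul_sub, h3, sub_self]
    have h7 := smul_injective T hTp hcop _ h6
    exact sub_eq_zero.1 h7
  -- lifting to `q`-elements
  have hAbot : A ≤ ⊥ := by
    intro b hb
    rw [Subgroup.mem_bot]
    obtain ⟨i, hi⟩ := hAq ⟨b, hb⟩
    have hbi : b ^ (q ^ i) = 1 := by simpa using congrArg Subtype.val hi
    obtain ⟨g₀, rfl⟩ := QuotientGroup.mk_surjective b
    have h1 : g₀ ^ (q ^ i) ∈ T := by
      rw [← QuotientGroup.eq_one_iff, QuotientGroup.mk_pow]; exact hbi
    obtain ⟨j, hj⟩ := hTp ⟨_, h1⟩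
    have h2 : (g₀ ^ (q ^ i)) ^ (p ^ j) = 1 := by simpa using congrArg Subtype.val hj
    have h3 : (p ^ j).Coprime (orderOf (QuotientGroup.mk g₀ : G ⧸ T)) := by
      have h4 : orderOf (QuotientGroup.mk g₀ : G ⧸ T) ∣ q ^ i := orderOf_dvd_of_pow_eq_one hbi
      refine Nat.Coprime.coprime_dvd_right h4 ?_
      exact Nat.Coprime.pow _ _ ((Nat.coprime_primes hp.out hq).2 hqp.symm)
    obtain ⟨m, hm⟩ := exists_pow_eq_self_of_coprime h3
    set g : G := g₀ ^ (p ^ j * m) with hg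
    have hgb : (QuotientGroup.mk g : G ⧸ T) = QuotientGroup.mk g₀ := by
      rw [hg, QuotientGroup.mk_pow, pow_mul]; exact hm
    have hgq : g ^ (q ^ i) = 1 := by
      rw [hg, ← pow_mul]
      have e : p ^ j * m * q ^ i = (q ^ i * p ^ j) * m := by ring
      rw [e, pow_mul, pow_mul, h2, one_pow]
    have hrg : rho T g = 1 := by
      rw [← hrb, hgb]; exact htriv _ hb
    have hcen := burnside_of T hqp hTp g hgq hrg
    have hgc : g ∈ Subgroup.centralizer (T : Set G) := by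
      rw [Subgroup.mem_centralizer_iff]
      intro t ht
      exact (hcen t ht).symm
    have hgT := Cfsg.Agent.Lib.CharBlockPSolv.centralizer_pCore_le_of_pSolvable hs hK hgc
    rw [← hgb]
    exact (QuotientGroup.eq_one_iff _).2 hgT
  exact hAne (le_bot_iff.1 hAbot)

theorem main.{u} {p : ℕ} [hp : Fact p.Prime] : ∀ N : ℕ, ∀ (G : Type u) [Group G] [Finite G], Nat.card G = N →
    IsPSolvable p G →
    (∀ (q : ℕ) [Fact q.Prime], q ≠ p → ∀ S : Sylow q G, ∀ a ∈ (S : Subgroup G), ∀ b ∈ (S : Subgroup G),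
      a * b = b * a) →
    ∀ n : ℕ, (∀ P : Sylow p G, ∀ x ∈ (P : Subgroup G), x ^ p ^ n = 1) → Cfsg.PLengthLE p n G := by
  intro N
  induction N using Nat.strong_induction_on with
  | _ N ih =>
  intro G _ _ hN hs hab n hexp
  by_cases hK : pPrimeCore p G = ⊥
  · set T := pCore p G with hT
    haveI hTn : T.Normal := inferInstance
    by_cases hTb : T = ⊥
    · -- the group is trivial
      have h1 := Cfsg.Agent.Lib.CharBlockPSolv.centralizer_pCore_le_of_pSolvable hs hK
      rw [← hT, hTb] at h1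
      haveI : Subsingleton G := by
        constructor
        intro a b
        have ha : a ∈ (⊥ : Subgroup G) := h1 (by simp [Subgroup.mem_centralizer_iff])
        have hb : b ∈ (⊥ : Subgroup G) := h1 (by simp [Subgroup.mem_centralizer_iff])
        rw [Subgroup.mem_bot] at ha hb
        rw [ha, hb]
      exact Subsingleton.elim _ _
    · have hlt : Nat.card (G ⧸ T) < N := hN ▸ card_quot_lt T hTb
      have hs' : IsPSolvable p (G ⧸ T) := Cfsg.Agent.Lib.UpperP.isPSolvable_quotient hs T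
      have hab' := ab_quot (QuotientGroup.mk'_surjective T) hab
      have hTp : IsPGroup p T := Cfsg.Agent.Lib.FitCore.pCore_isPGroup p
      cases n with
      | zero =>
        exfalso
        apply hTb
        obtain ⟨P⟩ : Nonempty (Sylow p G) := inferInstance
        rw [eq_bot_iff]
        intro t ht
        have := hexp P t (Cfsg.Agent.Lib.FitCore.pCore_le_sylow p P ht)
        simpa using this
      | succ n =>
        by_cases hall : ∀ P' : Sylow p (G ⧸ T), ∀ y ∈ (P' : Subgroup (G ⧸ T)), y ^ p ^ n = 1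
        · have h1 := ih _ hlt (G ⧸ T) rfl hs' hab' n hall
          have h2 := (rel_of_plength h1).comap (QuotientGroup.mk' T)
          rw [MonoidHom.comap_bot, QuotientGroup.ker_mk', Subgroup.comap_top] at h2
          have h3 : Rel p 1 (⊥ : Subgroup G) T := rel_one_of_pstep inferInstance hTn (by
            intro t ht
            obtain ⟨k, hk⟩ := hTp ⟨t, ht⟩
            exact ⟨k, by simpa using congrArg Subtype.val hk⟩)
          have h4 := h3.trans h2
          rw [Nat.add_comm] at h4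
          exact plength_of_rel h4
        · push_neg at hall
          obtain ⟨P', y, hy, hyn⟩ := hall
          obtain ⟨P, rfl⟩ := Sylow.mapSurjective_surjective (QuotientGroup.mk'_surjective T) p P'
          rw [Sylow.coe_mapSurjective] at hy
          obtain ⟨x, hx, rfl⟩ := hy
          exact (no_long_element hs hK hab n hexp P x hx hyn).elim
  · set K := pPrimeCore p G with hKd
    haveI hKn : K.Normal := inferInstance
    have hlt : Nat.card (G ⧸ K) < N := hN ▸ card_quot_lt K hK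
    have hs' : IsPSolvable p (G ⧸ K) := Cfsg.Agent.Lib.UpperP.isPSolvable_quotient hs K
    have hab' := ab_quot (QuotientGroup.mk'_surjective K) hab
    have h1 := ih _ hlt (G ⧸ K) rfl hs' hab' n (exp_quot (QuotientGroup.mk'_surjective K) hexp)
    have h2 := (rel_of_plength h1).comap (QuotientGroup.mk' K)
    rw [MonoidHom.comap_bot, QuotientGroup.ker_mk', Subgroup.comap_top] at h2
    have h3 : Rel p 0 (⊥ : Subgroup G) K := ⟨hKn, by
      intro t ht
      obtain ⟨m, hm, htm⟩ := exists_pow_of_mem_pPrimeCore (p := p) ht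
      exact ⟨m, hm, by simpa using htm⟩⟩
    have h4 := h3.trans h2
    rw [Nat.zero_add] at h4
    exact plength_of_rel h4

/-- Let G be a finite p-soluble group in which, for every prime q ≠ p, the Sylow q-subgroups are abelian. If the Sylow p-subgroups of G have exponent dividing p^n, then G has p-length at most n. -/
theorem result {G : Type*} [Group G] [Finite G] {p : ℕ} [Fact p.Prime] (hG : Cfsg.IsPSolvable p G) (hab : ∀ (q : ℕ) [Fact q.Prime], q ≠ p → ∀ Q : Sylow q G, IsMulCommutative (Q : Subgroup G)) (n : ℕ) (hexp : ∀ (P : Sylow p G), ∀ x ∈ (P : Subgroup G), x ^ p ^ n = 1) : Cfsg.PLengthLE p n G := by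
  exact main _ G rfl hG (fun q _ hne S a ha b hb => by
    have h1 := (hab q hne S).is_comm.comm ⟨a, ha⟩ ⟨b, hb⟩
    exact congrArg Subtype.val h1) n hexp

end Cfsg.Agent.S3783
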