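import Mathlib
import Cfsg.Statements.S3784
-- import your own Cfsg.Agent.* helpers here

set_option autoImplicit false
open Cfsg

namespace Cfsg.Agent.S3784

theorem geom_odd (x n : ℕ) (hx : Odd x) (hn : Odd n) : Odd (∑ i ∈ Finset.range n, x ^ i) := by
  have key : ∀ m : ℕ, Even (∑ i ∈ Finset.range m, x ^ i) ↔ Even m := by
    intro m
    induction m with
    | zero => simp
    | succ m ih =>
      rw [Finset.sum_range_succ, Nat.even_add, ih, Nat.even_add_one]
      have h1 : ¬ Even (x ^ m) := by
        rw [Nat.not_even_iff_odd]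
        exact hx.pow
      tauto
  rw [← Nat.not_even_iff_odd, key, Nat.not_even_iff_odd]
  exact hn

theorem odd_dvd_two_pow {c n : ℕ} (hc : Odd c) (hd : c ∣ 2 ^ n) : c = 1 := by
  obtain ⟨s, -, rfl⟩ := (Nat.dvd_prime_pow Nat.prime_two).mp hd
  rcases Nat.eq_zero_or_pos s with rfl | hs
  · simp
  · exfalso
    rw [← Nat.not_even_iff_odd] at hc
    exact hc (Nat.even_pow.mpr ⟨even_two, hs.ne'⟩)


/-- Let p, q be primes and a, b positive integers with p^a = q^b + 1. Then either p = 2, b = 1, a is prime and q = 2^a − 1; or q = 2, a = 1, b is a power of 2 and p = 2^b + 1; or p^a = 9 and q^b = 8. -/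
theorem result (p q a b : ℕ) (hp : p.Prime) (hq : q.Prime) (ha : 1 ≤ a) (hb : 1 ≤ b) (h : p ^ a = q ^ b + 1) : (p = 2 ∧ b = 1 ∧ a.Prime ∧ q + 1 = 2 ^ a) ∨ (q = 2 ∧ a = 1 ∧ (∃ m : ℕ, b = 2 ^ m) ∧ p = 2 ^ b + 1) ∨ (p ^ a = 9 ∧ q ^ b = 8) := by
  classical
  have hpa : 2 ≤ p := hp.two_le
  have hqa : 2 ≤ q := hq.two_le
  have hb0 : b ≠ 0 := by omega
  have ha0 : a ≠ 0 := by omega
  rcases hp.eq_two_or_odd' with rfl | hpodd
  · -- `p = 2`
    left
    have hqodd : Odd q := by
      rcases hq.eq_two_or_odd' with rfl | h'
      · exfalso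
        have h1 : 2 ∣ 2 ^ a := dvd_pow_self _ ha0
        have h2 : 2 ∣ 2 ^ b := dvd_pow_self _ hb0
        omega
      · exact h'
    have hbodd : Odd b := by
      by_contra hb2
      rw [Nat.not_odd_iff_even] at hb2
      obtain ⟨c, rfl⟩ := hb2
      have h3 : q ^ 2 % 4 = 1 := by
        obtain ⟨k, rfl⟩ := hqodd
        have : (2 * k + 1) ^ 2 = 4 * (k * k + k) + 1 := by ring
        rw [this]
        omega
      have h1 : q ^ (c + c) % 4 = 1 := by
        rw [← two_mul, pow_mul, Nat.pow_mod, h3]
        simp
      have ha2 : a = 1 := by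
        by_contra hne
        obtain ⟨d, rfl⟩ : ∃ d, a = d + 2 := ⟨a - 2, by omega⟩
        have : 4 ∣ 2 ^ (d + 2) := ⟨2 ^ d, by ring⟩
        omega
      subst ha2
      have h5 : 1 < q ^ (c + c) := Nat.one_lt_pow (by omega) (by omega)
      omega
    -- alternating sum
    obtain ⟨c, hcodd, hc⟩ : ∃ c : ℕ, Odd c ∧ (q + 1) * c = q ^ b + 1 := by
      obtain ⟨c, hc⟩ := hbodd.nat_add_dvd_pow_add_pow q 1
      rw [one_pow] at hc
      refine ⟨c, ?_, hc.symm⟩
      have hev : Even (q ^ b + 1) := by
        rw [← h]
        exact Nat.even_pow.mpr ⟨even_two, ha0⟩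
      -- parity by the explicit formula over the integers
      have hZ : ((q : ℤ) + 1) * (∑ i ∈ Finset.range b, (-(q : ℤ)) ^ i) = (q : ℤ) ^ b + 1 := by
        have h1 := geom_sum_mul (-(q : ℤ)) b
        have h2 : (-(q : ℤ)) ^ b = -(q : ℤ) ^ b := hbodd.neg_pow _
        rw [h2] at h1
        linear_combination -h1
      have hZ2 : ((q : ℤ) + 1) * (c : ℤ) = (q : ℤ) ^ b + 1 := by exact_mod_cast hc.symm
      have hne : (q : ℤ) + 1 ≠ 0 := by positivity
      have hcZ : (c : ℤ) = ∑ i ∈ Finset.range b, (-(q : ℤ)) ^ i :=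
        mul_left_cancel₀ hne (hZ2.trans hZ.symm)
      have hodd : Odd (c : ℤ) := by
        rw [hcZ, ← Int.not_even_iff_odd]
        have key : ∀ m : ℕ, Even (∑ i ∈ Finset.range m, (-(q : ℤ)) ^ i) ↔ Even m := by
          intro m
          induction m with
          | zero => simp
          | succ m ih =>
            rw [Finset.sum_range_succ, Int.even_add, ih, Nat.even_add_one]
            have h1 : ¬ Even ((-(q : ℤ)) ^ m) := by
              rw [Int.not_even_iff_odd]
              apply Odd.pow
              exact (by exact_mod_cast hqodd : Odd (q : ℤ)).neg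
            tauto
        rw [key, Nat.not_even_iff_odd]
        exact hbodd
      exact_mod_cast hodd
    have hc1 : c = 1 := by
      apply odd_dvd_two_pow hcodd (n := a)
      rw [h, ← hc]
      exact dvd_mul_left _ _
    rw [hc1, mul_one] at hc
    have hb1 : b = 1 := by
      have h1 : q ^ b = q ^ 1 := by rw [pow_one]; omega
      exact Nat.pow_right_injective hqa h1
    subst hb1
    rw [pow_one] at h
    refine ⟨rfl, rfl, ?_, h.symm⟩
    have ha1 : a ≠ 1 := by
      rintro rfl
      omega
    have hq' : (2 ^ a - 1).Prime := by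
      have : 2 ^ a - 1 = q := by omega
      rwa [this]
    exact (Nat.prime_of_pow_sub_one_prime ha1 hq').2
  · -- `p` odd
    right
    have hpa' : Odd (p ^ a) := hpodd.pow
    have hq2 : q = 2 := by
      rcases hq.eq_two_or_odd' with h' | h'
      · exact h'
      · exfalso
        rw [h] at hpa'
        have : Odd (q ^ b) := h'.pow
        rw [← Nat.not_even_iff_odd] at hpa'
        exact hpa' (this.add_one)
    subst hq2
    rcases Nat.even_or_odd a with hae | hao
    · -- `a` even: the exceptional case
      right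
      obtain ⟨c, rfl⟩ := hae
      set u := p ^ c with hu
      have huodd : Odd u := hpodd.pow
      have hc0 : c ≠ 0 := by omega
      have hu3 : 3 ≤ u := by
        have h1 : p ≤ p ^ c := Nat.le_self_pow hc0 p
        have h2 : 3 ≤ p := by
          rcases Nat.lt_or_ge p 3 with h3 | h3
          · have : p = 2 := by omega
            subst this
            exact absurd hpodd (by decide)
          · exact h3
        omega
      have hfac : (u - 1) * (u + 1) = 2 ^ b := by
        have h1 : p ^ (c + c) = u * u := pow_add _ _ _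
        rw [h1] at h
        obtain ⟨v, hv⟩ : ∃ v, u = v + 1 := ⟨u - 1, by omega⟩
        rw [hv] at h ⊢
        simp only [Nat.add_sub_cancel]
        have : v * (v + 1 + 1) + 1 = (v + 1) * (v + 1) := by ring
        omega
      obtain ⟨s, -, hs⟩ := (Nat.dvd_prime_pow Nat.prime_two).mp (hfac ▸ dvd_mul_right (u - 1) (u + 1))
      obtain ⟨t, -, ht⟩ := (Nat.dvd_prime_pow Nat.prime_two).mp (hfac ▸ dvd_mul_left (u + 1) (u - 1))
      have hu3' : u = 3 := by
        by_contra hne
        have hs2 : 2 ≤ s := by
          by_contra hs2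
          have : s = 0 ∨ s = 1 := by omega
          rcases this with rfl | rfl <;> simp at hs <;> omega
        have hts : 2 ≤ t := by
          by_contra ht2
          have : t = 0 ∨ t = 1 := by omega
          rcases this with rfl | rfl <;> simp at ht <;> omega
        have h4s : 4 ∣ u - 1 := by
          rw [hs]
          exact pow_dvd_pow 2 hs2
        have h4t : 4 ∣ u + 1 := by
          rw [ht]
          exact pow_dvd_pow 2 hts
        omega
      have h9 : p ^ (c + c) = 9 := by
        rw [pow_add, ← hu, hu3']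
        norm_num
      refine ⟨h9, ?_⟩
      omega
    · -- `a` odd
      left
      have ha1 : a = 1 := by
        set c := ∑ i ∈ Finset.range a, p ^ i with hc
        have hcodd : Odd c := geom_odd p a hpodd hao
        have hgeo : ∀ m : ℕ, (∑ i ∈ Finset.range m, p ^ i) * (p - 1) + 1 = p ^ m := by
          intro m
          obtain ⟨r, rfl⟩ : ∃ r, p = r + 1 := ⟨p - 1, by omega⟩
          induction m with
          | zero => simp
          | succ m ih =>
            rw [Finset.sum_range_succ, add_mul, pow_succ]
            simp only [Nat.add_sub_cancel] at ih ⊢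
            nlinarith [ih]
        have hmul : c * (p - 1) + 1 = p ^ a := hgeo a
        have hd : c ∣ 2 ^ b := by
          refine ⟨p - 1, ?_⟩
          omega
        have hc1 := odd_dvd_two_pow hcodd hd
        rw [hc1, one_mul] at hmul
        have h1 : p ^ a = p ^ 1 := by
          rw [pow_one]
          omega
        exact Nat.pow_right_injective hpa h1
      subst ha1
      rw [pow_one] at h
      refine ⟨rfl, rfl, ?_, h⟩
      exact Nat.pow_of_pow_add_prime (by norm_num) hb0 (h ▸ hp)

end Cfsg.Agent.S3784
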