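import Mathlib
import Cfsg.Statements.S3785
import Cfsg.Agent.Lib.CoprimeAB
import Cfsg.Agent.Lib.FitCore
import Cfsg.Agent.Lib.FitSolv
import Cfsg.Agent.Lib.H6PiPart
-- import your own Cfsg.Agent.* helpers here

set_option autoImplicit false
open Cfsg

namespace Cfsg.Agent.S3785

set_option linter.unusedSectionVars false
set_option linter.style.haveILetI false

open Cfsg.Agent.Lib.H6PiPart

/-- Decomposing an element into prime power parts. -/
theorem parts_induction {G : Type*} [Group G] [Finite G] (P : G → Prop) (hmul : ∀ a b, P a → P b → P (a * b)) :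
    ∀ (n : ℕ) (y : G), orderOf y = n → (∀ q : ℕ, q.Prime → ∀ z ∈ Subgroup.zpowers y, (∃ k : ℕ, orderOf z = q ^ k) → P z) → P y := by
  classical
  intro n
  induction n using Nat.strong_induction_on with
  | _ n ih =>
    intro y hy h
    by_cases hn1 : n = 1
    · apply h 2 Nat.prime_two y (Subgroup.mem_zpowers y)
      exact ⟨0, by rw [hy, hn1, pow_zero]⟩
    · have hypos : 0 < orderOf y := orderOf_pos y
      have hq : (n.minFac).Prime := Nat.minFac_prime hn1
      set q := n.minFac with hqdef
      obtain ⟨a, ha, t, ht, hat, haE, htP⟩ := exists_decomp ({q} : Set ℕ) y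
      have hazp : Subgroup.zpowers a ≤ Subgroup.zpowers y := by
        rw [Subgroup.zpowers_le]
        exact ha
      have htzp : Subgroup.zpowers t ≤ Subgroup.zpowers y := by
        rw [Subgroup.zpowers_le]
        exact ht
      have hao : ∃ k : ℕ, orderOf a = q ^ k := by
        exact ⟨_, Nat.eq_prime_pow_of_unique_prime_dvd (orderOf_pos a).ne' (fun {r} hr hd => haE r hr hd)⟩
      have htd : orderOf t ∣ n := by
        rw [← hy]
        exact orderOf_dvd_of_mem_zpowers ht
      have htlt : orderOf t < n := by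
        have hnpos : 0 < n := hy ▸ hypos
        refine lt_of_le_of_ne (Nat.le_of_dvd hnpos htd) ?_
        intro he
        have hqd : q ∣ orderOf t := by
          rw [he]
          exact Nat.minFac_dvd n
        exact htP q hq hqd rfl
      have h1 : P a := h q hq a ha hao
      have h2 : P t := ih _ htlt t rfl (fun r hr z hz hzo => h r hr z (htzp hz) hzo)
      rw [hat]
      exact hmul a t h1 h2

theorem card_map_mk_mul {X : Type*} [Group X] [Finite X] {K M : Subgroup X} [M.Normal] (h : M ≤ K) :
    Nat.card (K.map (QuotientGroup.mk' M)) * Nat.card M = Nat.card K := by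
  let ψ : K →* X ⧸ M := (QuotientGroup.mk' M).comp K.subtype
  have h1 : ψ.range = K.map (QuotientGroup.mk' M) := by
    rw [MonoidHom.range_comp, Subgroup.range_subtype]
  have h2 : Nat.card ψ.ker = Nat.card M := by
    apply Nat.card_congr
    refine ⟨fun k => ⟨(k.1 : X), ?_⟩, fun x => ⟨⟨x.1, h x.2⟩, ?_⟩, ?_, ?_⟩
    · have := k.2
      rw [MonoidHom.mem_ker] at this
      exact (QuotientGroup.eq_one_iff _).mp this
    · rw [MonoidHom.mem_ker]
      exact (QuotientGroup.eq_one_iff _).mpr x.2
    · intro k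
      rfl
    · intro x
      rfl
  rw [← h1, ← h2]
  have h3 := Subgroup.card_mul_index ψ.ker
  rw [Subgroup.index_ker] at h3
  rw [mul_comm]
  exact h3

/-- A `q`-element of the Fitting subgroup lies in `O_q(G)`. -/
theorem mem_pCore_of_mem_fitting {G : Type*} [Group G] [Finite G] (q : ℕ) [hq : Fact q.Prime] (y : G)
    (hy : y ∈ Cfsg.fittingSubgroup G) (k : ℕ) (hk : orderOf y = q ^ k) : y ∈ Cfsg.pCore q G := by
  haveI hQn : (Cfsg.pCore q G).Normal := Cfsg.Agent.Lib.FitCore.pCore_normal q
  have hle : Cfsg.pCore q G ≤ Cfsg.fittingSubgroup G := Cfsg.Agent.Lib.FitCore.pCore_le_fitting q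
  have hind := Cfsg.Agent.Lib.FitCore.relIndex_pCore_not_dvd_fitting (G := G) q
  let f : G →* G ⧸ Cfsg.pCore q G := QuotientGroup.mk' _
  have h1 : orderOf (f y) ∣ q ^ k := by
    rw [← hk]
    exact orderOf_map_dvd f y
  have h2 : Nat.card ((Cfsg.fittingSubgroup G).map f) = (Cfsg.pCore q G).relIndex (Cfsg.fittingSubgroup G) := by
    have e1 : Nat.card ((Cfsg.fittingSubgroup G).map f) * Nat.card (Cfsg.pCore q G) = Nat.card (Cfsg.fittingSubgroup G) :=
      card_map_mk_mul hle
    have e2 := Subgroup.relIndex_mul_relIndex (⊥ : Subgroup G) (Cfsg.pCore q G) (Cfsg.fittingSubgroup G) bot_le hle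
    simp only [Subgroup.relIndex_bot_left] at e2
    rw [← e2, mul_comm (Nat.card (Cfsg.pCore q G))] at e1
    exact Nat.eq_of_mul_eq_mul_right Nat.card_pos e1
  have h3 : orderOf (f y) ∣ Nat.card ((Cfsg.fittingSubgroup G).map f) := by
    have h4 : f y ∈ (Cfsg.fittingSubgroup G).map f := ⟨y, hy, rfl⟩
    have := orderOf_dvd_natCard (⟨f y, h4⟩ : (Cfsg.fittingSubgroup G).map f)
    simpa using this
  rw [h2] at h3
  have h5 : orderOf (f y) = 1 := by
    obtain ⟨t, -, ht⟩ := (Nat.dvd_prime_pow hq.out).mp h1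
    rw [ht] at h3 ⊢
    rcases Nat.eq_zero_or_pos t with h | h
    · rw [h, pow_zero]
    · exact absurd ((dvd_pow_self q h.ne').trans h3) hind
  have h6 : f y = 1 := orderOf_eq_one_iff.mp h5
  exact (QuotientGroup.eq_one_iff y).mp h6

/-- The case of `p`-elements. -/
theorem main_pelement {G : Type*} [Group G] [Finite G] (hG : Group.IsSolvable G)
    (hodd : Odd (Nat.card (Cfsg.fittingSubgroup G))) (p : ℕ) [hp : Fact p.Prime] (g : G) (k : ℕ) (hk : orderOf g = p ^ k)
    (hg : ∀ x ∈ Cfsg.fittingSubgroup G, (orderOf x).Prime → g * x = x * g) : g ∈ Cfsg.fittingSubgroup G := by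
  classical
  haveI := hG
  set F := Cfsg.fittingSubgroup G with hF
  haveI hFn : F.Normal := Cfsg.Agent.Lib.FitCore.fitting_normal
  -- omega lemma for a prime `q` when `q` occurs
  have homega : ∀ (q : ℕ) (_ : Fact q.Prime) (h : G), (orderOf h).Coprime q →
      (∀ x ∈ F, (orderOf x).Prime → h * x = x * h) → ∀ z ∈ Cfsg.pCore q G, h * z = z * h := by
    intro q _ h hco hX z hz
    haveI hQn : (Cfsg.pCore q G).Normal := Cfsg.Agent.Lib.FitCore.pCore_normal q
    have hle : Cfsg.pCore q G ≤ F := Cfsg.Agent.Lib.FitCore.pCore_le_fitting q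
    by_cases hz1 : z = 1
    · rw [hz1, mul_one, one_mul]
    have hq2 : q ≠ 2 := by
      rintro rfl
      obtain ⟨m, hm⟩ := (Cfsg.Agent.Lib.FitCore.pCore_isPGroup (G := G) 2) ⟨z, hz⟩
      have hm' : z ^ 2 ^ m = 1 := congrArg Subtype.val hm
      have h5 : orderOf z ∣ 2 ^ m := orderOf_dvd_of_pow_eq_one hm'
      obtain ⟨t, -, ht⟩ := (Nat.dvd_prime_pow Nat.prime_two).mp h5
      have ht0 : t ≠ 0 := by
        rintro rfl
        rw [pow_zero] at ht
        exact hz1 (orderOf_eq_one_iff.mp ht)
      have h6 : 2 ∣ orderOf z := ht ▸ dvd_pow_self 2 ht0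
      have h7 : orderOf z ∣ Nat.card F := by
        have h8 := orderOf_dvd_natCard (⟨z, hle hz⟩ : F)
        rwa [Subgroup.orderOf_mk] at h8
      exact hodd.not_two_dvd_nat (h6.trans h7)
    refine Cfsg.Agent.Lib.CoprimeAB.omega_lemma hq2 (Cfsg.Agent.Lib.FitCore.pCore_isPGroup q) ?_ hco ?_ z hz
    · rw [Subgroup.normalizer_eq_top_iff.mpr hQn]
      trivial
    · intro x hx hxq
      by_cases hx1 : x = 1
      · rw [hx1, mul_one, one_mul]
      · apply hX x (hle hx)
        rw [orderOf_eq_prime hxq hx1]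
        exact Fact.out
  -- the centraliser
  let S : Set G := {y | y ∈ F ∧ ((orderOf y).Prime ∨ (orderOf y).Coprime p)}
  let H₁ : Subgroup G := Subgroup.centralizer S
  have hSconj : ∀ y ∈ S, ∀ x : G, x * y * x⁻¹ ∈ S := by
    rintro y ⟨hy, hy2⟩ x
    refine ⟨hFn.conj_mem y hy x, ?_⟩
    have h1 : orderOf (x * y * x⁻¹) = orderOf y := by
      have := (MulAut.conj x).orderOf_eq y
      simpa using this
    rwa [h1]
  haveI hH₁n : H₁.Normal := by
    constructor
    intro h hh x
    refine Subgroup.mem_centralizer_iff.mpr ?_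
    intro y hy
    have h1 := hSconj y hy x⁻¹
    have h2 := Subgroup.mem_centralizer_iff.mp hh _ h1
    calc y * (x * h * x⁻¹) = x * ((x⁻¹ * y * x⁻¹⁻¹) * h) * x⁻¹ := by group
      _ = x * (h * (x⁻¹ * y * x⁻¹⁻¹)) * x⁻¹ := by rw [h2]
      _ = (x * h * x⁻¹) * y := by group
  have hcomm_mul : ∀ h : G, ∀ a b : G, h * a = a * h → h * b = b * h → h * (a * b) = (a * b) * h := by
    intro h a b ha hb
    exact (Commute.mul_right ha hb).eq
  have hgH : g ∈ H₁ := by
    refine Subgroup.mem_centralizer_iff.mpr ?_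
    rintro y ⟨hy, hy2 | hy2⟩
    · exact (hg y hy hy2).symm
    · refine (parts_induction (fun y => g * y = y * g) (hcomm_mul g) _ y rfl ?_).symm
      intro q hq z hz ⟨m, hm⟩
      haveI : Fact q.Prime := ⟨hq⟩
      by_cases hz1 : z = 1
      · simp only [hz1, mul_one, one_mul]
      have hzy : orderOf z ∣ orderOf y := orderOf_dvd_of_mem_zpowers hz
      have hm0 : m ≠ 0 := by
        rintro rfl
        rw [pow_zero] at hm
        exact hz1 (orderOf_eq_one_iff.mp hm)
      have hqz : q ∣ orderOf z := hm ▸ dvd_pow_self q hm0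
      have hqp : q ≠ p := by
        rintro rfl
        have h5 := hqz.trans hzy
        have h6 := Nat.dvd_gcd h5 (dvd_refl q)
        rw [hy2] at h6
        exact hq.ne_one (Nat.dvd_one.mp h6)
      have hzF : z ∈ F := by
        have : Subgroup.zpowers y ≤ F := by
          rw [Subgroup.zpowers_le]
          exact hy
        exact this hz
      have hzO := mem_pCore_of_mem_fitting q z hzF m hm
      refine homega q inferInstance g ?_ hg z hzO
      rw [hk]
      exact Nat.Coprime.pow_left k ((Nat.coprime_primes hp.out hq).mpr hqp.symm)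
  have hZ : ∀ y ∈ H₁, (orderOf y).Coprime p → ∀ h ∈ H₁, h * y = y * h := by
    intro y hy hco
    have hyX : ∀ x ∈ F, (orderOf x).Prime → y * x = x * y := by
      intro x hx hxp
      exact (Subgroup.mem_centralizer_iff.mp hy x ⟨hx, Or.inl hxp⟩).symm
    have hCF : ∀ w ∈ F, y * w = w * y := by
      intro w hw
      refine parts_induction (fun w => y * w = w * y) (hcomm_mul y) _ w rfl ?_
      intro q hq z hz ⟨m, hm⟩
      haveI : Fact q.Prime := ⟨hq⟩
      have hzF : z ∈ F := by
        have : Subgroup.zpowers w ≤ F := by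
          rw [Subgroup.zpowers_le]
          exact hw
        exact this hz
      by_cases hqp : q = p
      · subst hqp
        exact homega q inferInstance y hco hyX z (mem_pCore_of_mem_fitting q z hzF m hm)
      · refine (Subgroup.mem_centralizer_iff.mp hy z ⟨hzF, Or.inr ?_⟩).symm
        rw [hm]
        exact Nat.Coprime.pow_left m ((Nat.coprime_primes hq hp.out).mpr hqp)
    have hyF : y ∈ F := Cfsg.Agent.Lib.FitSolv.centralizer_fitting_le
      (Subgroup.mem_centralizer_iff.mpr (fun w hw => (hCF w hw).symm))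
    intro h hh
    exact (Subgroup.mem_centralizer_iff.mp hh y ⟨hyF, Or.inr hco⟩).symm
  have hpq : IsPGroup p (H₁ ⧸ Subgroup.center H₁) := by
    intro xb
    obtain ⟨x, rfl⟩ := QuotientGroup.mk_surjective xb
    obtain ⟨a, ha, t, ht, hat, haE, htP⟩ := exists_decomp ({p} : Set ℕ) (x : G)
    have hxH : (x : G) ∈ H₁ := x.2
    have hzle : Subgroup.zpowers (x : G) ≤ H₁ := by
      rw [Subgroup.zpowers_le]
      exact hxH
    have haH := hzle ha
    have htH := hzle ht
    have hao : orderOf a = p ^ (orderOf a).primeFactorsList.length :=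
      Nat.eq_prime_pow_of_unique_prime_dvd (orderOf_pos a).ne' (fun {r} hr hd => haE r hr hd)
    have htco : (orderOf t).Coprime p :=
      Nat.Coprime.symm ((Nat.Prime.coprime_iff_not_dvd hp.out).mpr (fun hd => htP p hp.out hd rfl))
    have hat' : Commute a t := by
      obtain ⟨i, rfl⟩ := ha
      obtain ⟨j, rfl⟩ := ht
      exact (Commute.refl (x : G)).zpow_zpow i j
    refine ⟨(orderOf a).primeFactorsList.length, ?_⟩
    rw [← QuotientGroup.mk_pow, QuotientGroup.eq_one_iff, Subgroup.mem_center_iff]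
    intro h
    apply Subtype.ext
    simp only [Subgroup.coe_mul, Subgroup.coe_pow]
    rw [hat, hat'.mul_pow, ← hao, pow_orderOf_eq_one, one_mul]
    have h1 : Commute (h : G) t := hZ t htH htco h h.2
    exact (h1.pow_right _).eq
  have hnil : Group.IsNilpotent H₁ := by
    haveI := hpq.isNilpotent
    exact Group.of_quotient_center_nilpotent inferInstance
  exact Cfsg.Agent.Lib.FitCore.le_fitting H₁ hH₁n hnil hgH

/-- Let G be a finite solvable group whose Fitting subgroup F(G) has odd order. If an element g of G commutes with every element of prime order of F(G), then g ∈ F(G). -/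
theorem result {G : Type*} [Group G] [Finite G] (hG : Group.IsSolvable G) (hodd : Odd (Nat.card (Cfsg.fittingSubgroup G))) (g : G) (hg : ∀ x ∈ Cfsg.fittingSubgroup G, (orderOf x).Prime → g * x = x * g) : g ∈ Cfsg.fittingSubgroup G := by
  have h1 := parts_induction (fun y => y ∈ Cfsg.fittingSubgroup G) (fun a b ha hb => mul_mem ha hb) _ g rfl ?_
  · exact h1
  · intro q hq z hz ⟨k, hk⟩
    haveI : Fact q.Prime := ⟨hq⟩
    refine main_pelement hG hodd q z k hk ?_
    intro x hx hxp
    obtain ⟨i, rfl⟩ := hz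
    have h2 : Commute g x := hg x hx hxp
    exact (h2.zpow_left i).eq

end Cfsg.Agent.S3785
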