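import Mathlib
import Cfsg.Statements.S3790
import Cfsg.Agent.Lib.H6PLen
-- import your own Cfsg.Agent.* helpers here

set_option autoImplicit false
open Cfsg

namespace Cfsg.Agent.S3790

open Cfsg.Agent.Lib.H6PLen

theorem sup_step {G : Type*} [Group G] {A V : Subgroup G} [hA : A.Normal] {u a : G} (ha : a ∈ A) {n : ℕ}
    (hu : u ^ n ∈ V) : (u * a) ^ n ∈ V ⊔ A := by
  have h1 : ((QuotientGroup.mk ((u * a) ^ n) : G ⧸ A)) = QuotientGroup.mk (u ^ n) := by
    have h2 : (QuotientGroup.mk a : G ⧸ A) = 1 := (QuotientGroup.eq_one_iff a).2 ha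
    simp [QuotientGroup.mk_pow, QuotientGroup.mk_mul, h2]
  have h3 : (u ^ n)⁻¹ * (u * a) ^ n ∈ A := QuotientGroup.eq.1 h1.symm
  have h4 : (u * a) ^ n = u ^ n * ((u ^ n)⁻¹ * (u * a) ^ n) := by group
  rw [h4]
  exact Subgroup.mul_mem _ (Subgroup.mem_sup_left hu) (Subgroup.mem_sup_right h3)

/-- The step from `(V ⊓ B) ⊔ A` to `(W ⊓ B) ⊔ A`. -/
theorem sup_costep {G : Type*} [Group G] {A V W B : Subgroup G} [hA : A.Normal] {q : ℕ} (h : CoStep q V W) :
    CoStep q ((V ⊓ B) ⊔ A) ((W ⊓ B) ⊔ A) := by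
  intro x hx
  obtain ⟨u, hu, a, ha, rfl⟩ := Subgroup.mem_sup_of_normal_right.1 hx
  obtain ⟨n, hn, hun⟩ := h u hu.1
  exact ⟨n, hn, sup_step ha ⟨hun, Subgroup.pow_mem _ hu.2 n⟩⟩

theorem sup_pstep {G : Type*} [Group G] {A V W B : Subgroup G} [hA : A.Normal] {q : ℕ} (h : PStep q V W) :
    PStep q ((V ⊓ B) ⊔ A) ((W ⊓ B) ⊔ A) := by
  intro x hx
  obtain ⟨u, hu, a, ha, rfl⟩ := Subgroup.mem_sup_of_normal_right.1 hx
  obtain ⟨n, hun⟩ := h u hu.1
  exact ⟨n, sup_step ha ⟨hun, Subgroup.pow_mem _ hu.2 _⟩⟩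

/-- Only primes from `S` are involved in `B` modulo `A`. -/
def Only {G : Type*} [Group G] (S : Finset ℕ) (A B : Subgroup G) : Prop :=
  ∀ x ∈ B, ∃ n : ℕ, n ≠ 0 ∧ (∀ s : ℕ, s.Prime → s ∣ n → s ∈ S) ∧ x ^ n ∈ A

theorem only_step {G : Type*} [Group G] {S : Finset ℕ} {q : ℕ} (hq : q.Prime) {A A' B' B : Subgroup G}
    (hA : A ≤ A') [hA' : A'.Normal] (hB : B' ≤ B) (h1 : Only (insert q S) A B) (h2 : CoStep q A' B') :
    Only S A' B' := by
  intro x hx
  obtain ⟨n, hn0, hnS, hxn⟩ := h1 x (hB hx)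
  obtain ⟨m, hm, hxm⟩ := h2 x hx
  refine ⟨Nat.gcd n m, Nat.gcd_ne_zero_left hn0, ?_, ?_⟩
  · intro s hs hsd
    have h3 := hnS s hs (hsd.trans (Nat.gcd_dvd_left n m))
    rcases Finset.mem_insert.1 h3 with rfl | h4
    · exact absurd (hsd.trans (Nat.gcd_dvd_right n m)) ((Nat.Prime.coprime_iff_not_dvd hq).1 hm.symm)
    · exact h4
  · have h5 : (QuotientGroup.mk x : G ⧸ A') ^ n = 1 := by
      rw [← QuotientGroup.mk_pow]; exact (QuotientGroup.eq_one_iff _).2 (hA hxn)
    have h6 : (QuotientGroup.mk x : G ⧸ A') ^ m = 1 := by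
      rw [← QuotientGroup.mk_pow]; exact (QuotientGroup.eq_one_iff _).2 hxm
    have h7 : (QuotientGroup.mk x : G ⧸ A') ^ (Nat.gcd n m) = 1 := by
      apply orderOf_dvd_iff_pow_eq_one.1
      exact Nat.dvd_gcd (orderOf_dvd_of_pow_eq_one h5) (orderOf_dvd_of_pow_eq_one h6)
    rw [← QuotientGroup.mk_pow] at h7
    exact (QuotientGroup.eq_one_iff _).1 h7

theorem main_induct {G : Type*} [Group G] [Finite G] (p : ℕ) [hp : Fact p.Prime] {r : ℕ} (q : Fin r → ℕ)
    (hq : ∀ i, (q i).Prime ∧ q i ≠ p) (l : Fin r → ℕ) (hl : ∀ i, Cfsg.PLengthLE (q i) (l i) G)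
    (T : Finset (Fin r)) : ∀ A B : Subgroup G, A.Normal → B.Normal → A ≤ B →
      Only (insert p (T.image q)) A B → Rel p (T.prod fun i => 1 + l i) A B := by
  induction T using Finset.induction_on with
  | empty =>
    intro A B hA hB hAB h
    simp only [Finset.prod_empty]
    apply rel_one_of_pstep hA hB
    intro x hx
    obtain ⟨n, hn0, hnS, hxn⟩ := h x hx
    have h1 : ∃ k, n = p ^ k := by
      refine ⟨_, Nat.eq_prime_pow_of_unique_prime_dvd hn0 ?_⟩
      intro s hs hsd
      simpa using hnS s hs hsd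
    obtain ⟨k, rfl⟩ := h1
    exact ⟨k, hxn⟩
  | @insert i T hi ih =>
    intro A B hA hB hAB h
    rw [Finset.prod_insert hi]
    haveI : Fact (q i).Prime := ⟨(hq i).1⟩
    haveI := hA
    set U : ℕ → Subgroup G := fun j => (upperPSeries (q i) G j).1 with hU
    haveI hUn : ∀ j, (U j).Normal := fun j => inferInstance
    set X : ℕ → Subgroup G := fun j => (U j ⊓ B) ⊔ A with hX
    have hXn : ∀ j, (X j).Normal := fun j => by
      haveI := hUn j
      haveI := hB
      exact Subgroup.sup_normal _ _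
    have hXB : ∀ j, X j ≤ B := fun j => sup_le inf_le_right hAB
    have hAX : ∀ j, A ≤ X j := fun j => le_sup_right
    have hX0 : X 0 = A := by
      simp only [hX, hU]
      rw [upper_zero]
      simp
    have hXl : X (2 * l i + 1) = B := by
      simp only [hX, hU]
      have : (upperPSeries (q i) G (2 * l i + 1)).1 = ⊤ := hl i
      rw [this]
      simp [hAB]
    have hS : Only (insert (q i) (insert p (T.image q))) A B := by
      have e : insert (q i) (insert p (T.image q)) = insert p ((insert i T).image q) := by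
        rw [Finset.image_insert, Finset.insert_comm]
      rw [e]; exact h
    have hodd : ∀ j, Even j → Rel p (T.prod fun i => 1 + l i) (X j) (X (j + 1)) := by
      intro j hj
      apply ih _ _ (hXn j) (hXn _)
      · exact sup_le_sup_right (inf_le_inf_right _ (upper_le_succ (q i) j)) _
      · exact only_step (hq i).1 (hAX j) (hXB _) hS (sup_costep (costep_upper hj))
    have hchain : ∀ t, Rel p ((t + 1) * (T.prod fun i => 1 + l i)) A (X (2 * t + 1)) := by
      intro t
      induction t with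
      | zero =>
        have := hodd 0 (by simp)
        rw [hX0] at this
        simpa using this
      | succ t ih2 =>
        have hne : ¬ Even (2 * t + 1) := by simp [Nat.even_add_one]
        have h1 : Rel p 0 (X (2 * t + 1)) (X (2 * t + 1 + 1)) :=
          ⟨hXn _, (sup_pstep (pstep_upper hne)).costep (hq i).1 hp.out (hq i).2⟩
        have he : Even (2 * t + 1 + 1) := by simp [Nat.even_add_one]
        have h2 := hodd _ he
        have h3 := (ih2.trans h1).trans h2
        have e : (t + 1) * (T.prod fun i => 1 + l i) + 0 + (T.prod fun i => 1 + l i) =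
            (t + 1 + 1) * (T.prod fun i => 1 + l i) := by ring
        rw [e] at h3
        have e2 : 2 * (t + 1) + 1 = 2 * t + 1 + 1 + 1 := by ring
        rw [e2]
        exact h3
    have := hchain (l i)
    rw [hXl, Nat.add_comm (l i) 1] at this
    exact this

/-- Let G be a finite solvable group and p a prime. Suppose p₁, …, p_r are distinct primes, all different from p, that include every prime dividing the order of G other than p, and that G has p_i-length at most l_i for each i. Then G has p-length at most the product of the numbers 1 + l_i. -/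
theorem result {G : Type*} [Group G] [Finite G] (hG : Group.IsSolvable G) (p : ℕ) [Fact p.Prime] (r : ℕ) (q : Fin r → ℕ) (hq : ∀ i, (q i).Prime ∧ q i ≠ p) (hinj : Function.Injective q) (hcover : ∀ s : ℕ, s.Prime → s ∣ Nat.card G → s ≠ p → ∃ i, q i = s) (l : Fin r → ℕ) (hl : ∀ i, Cfsg.PLengthLE (q i) (l i) G) : Cfsg.PLengthLE p (Finset.univ.prod fun i => 1 + l i) G := by
  have h1 := main_induct p q hq l hl Finset.univ ⊥ ⊤ inferInstance inferInstance bot_le ?_
  · exact plength_of_rel h1
  · intro x _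
    refine ⟨Nat.card G, Nat.card_pos.ne', ?_, ?_⟩
    · intro s hs hsd
      by_cases hsp : s = p
      · simp [hsp]
      · obtain ⟨i, hi⟩ := hcover s hs hsd hsp
        rw [Finset.mem_insert]
        right
        exact Finset.mem_image.2 ⟨i, Finset.mem_univ _, hi⟩
    · rw [pow_card_eq_one']; exact Subgroup.one_mem _

end Cfsg.Agent.S3790
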