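import Mathlib
import Cfsg.Statements.S3791
import Cfsg.Agent.Lib.H6PLen
-- import your own Cfsg.Agent.* helpers here

set_option autoImplicit false
open Cfsg

namespace Cfsg.Agent.S3791

open Cfsg.Agent.Lib.H6PLen

theorem derived_top_quot {G H : Type*} [Group G] [Group H] {f : G →* H} (hf : Function.Surjective f) {n : ℕ}
    (h : derivedSeries H n = ⊥) : derivedSeries G n ≤ f.ker := by
  have h1 := map_derivedSeries_eq (f := f) hf n
  rw [h] at h1
  exact (Subgroup.map_eq_bot_iff _).1 h1

theorem derived_add_le {G : Type*} [Group G] (N : Subgroup G) {m : ℕ} (h : derivedSeries G m ≤ N) (n : ℕ) :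
    derivedSeries G (m + n) ≤ (derivedSeries N n).map N.subtype := by
  induction n with
  | zero =>
    simp only [Nat.add_zero, derivedSeries_zero, ← MonoidHom.range_eq_map, Subgroup.range_subtype]
    exact h
  | succ n ih =>
    rw [← Nat.add_assoc, derivedSeries_succ, derivedSeries_succ, Subgroup.map_commutator]
    exact Subgroup.commutator_mono ih ih

theorem derived_subgroup_bot {G : Type*} [Group G] {N S : Subgroup G} (hNS : N ≤ S) {n : ℕ}
    (h : derivedSeries S n = ⊥) : derivedSeries N n = ⊥ := by
  have h1 := map_derivedSeries_le_derivedSeries (Subgroup.inclusion hNS) n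
  rw [h] at h1
  have h2 := (Subgroup.map_eq_bot_iff _).1 (le_bot_iff.1 h1)
  rwa [(MonoidHom.ker_eq_bot_iff _).2 (Subgroup.inclusion_injective hNS), le_bot_iff] at h2

/-- The derived length hypothesis passes to quotients. -/
theorem sylow_quot {G H : Type*} [Group G] [Group H] [Finite G] [Finite H] {f : G →* H}
    (hf : Function.Surjective f) (q : ℕ) [Fact q.Prime] {d : ℕ}
    (h : ∀ S : Sylow q G, derivedSeries (S : Subgroup G) d = ⊥) (S' : Sylow q H) :
    derivedSeries (S' : Subgroup H) d = ⊥ := by
  obtain ⟨S, rfl⟩ := Sylow.mapSurjective_surjective hf q S'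
  rw [Sylow.coe_mapSurjective]
  have hs : Function.Surjective (f.subgroupMap (S : Subgroup G)) := MonoidHom.subgroupMap_surjective f _
  have h1 := map_derivedSeries_eq (f := f.subgroupMap (S : Subgroup G)) hs d
  rw [h S, Subgroup.map_bot] at h1
  exact h1.symm

theorem card_quot_lt {G : Type*} [Group G] [Finite G] (K : Subgroup G) [K.Normal] (hK : K ≠ ⊥) :
    Nat.card (G ⧸ K) < Nat.card G := by
  have h1 := Subgroup.card_mul_index K
  have h2 := (Subgroup.one_lt_card_iff_ne_bot K).2 hK
  have h3 : 0 < K.index := Nat.pos_of_ne_zero Subgroup.index_ne_zero_of_finite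
  have h4 : Nat.card (G ⧸ K) = K.index := rfl
  rw [h4]
  nlinarith

theorem main.{u} {r : ℕ} (q : Fin r → ℕ) (hq : ∀ i, (q i).Prime) (d : Fin r → ℕ) :
    ∀ n : ℕ, ∀ (G : Type u) [Group G] [Finite G], Nat.card G = n →
    (∀ s : ℕ, s.Prime → s ∣ Nat.card G → ∃ i, q i = s) →
    (∀ i, haveI := Fact.mk (hq i); ∀ S : Sylow (q i) G, derivedSeries (S : Subgroup G) (d i) = ⊥) →
    ∀ l : Fin r → ℕ, (∀ i, Cfsg.PLengthLE (q i) (l i) G) →
      derivedSeries G (Finset.univ.sum fun i => d i * l i) = ⊥ := by
  intro n
  induction n using Nat.strong_induction_on with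
  | _ n ih =>
  intro G _ _ hn hcov hd l hl
  by_cases hB : ∃ i, q i ∣ Nat.card G ∧ pPrimeCore (q i) G = ⊥
  · obtain ⟨i₀, hdvd, hcore⟩ := hB
    haveI : Fact (q i₀).Prime := ⟨hq i₀⟩
    set p := q i₀ with hp
    -- the length at `p` is positive
    have hl0 : l i₀ ≠ 0 := by
      intro h0
      have h1 := hl i₀
      rw [h0] at h1
      have h2 := rel_of_plength h1
      obtain ⟨x, hx⟩ := exists_prime_orderOf_dvd_card' (G := G) p hdvd
      obtain ⟨n', hn', hxn⟩ := h2.2 x (Subgroup.mem_top x)
      have h3 : orderOf x ∣ n' := orderOf_dvd_of_pow_eq_one (by simpa using hxn)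
      rw [hx] at h3
      exact (Nat.Prime.coprime_iff_not_dvd (hq i₀)).1 hn'.symm h3
    obtain ⟨k, hk⟩ := Nat.exists_eq_succ_of_ne_zero hl0
    -- the first term vanishes
    have hU1 : (upperPSeries p G 1).1 = ⊥ := by
      rw [le_bot_iff.symm, ← hcore]
      apply le_pPrimeCore_of inferInstance
      intro x hx
      obtain ⟨m, hm, hxm⟩ := costep_upper (p := p) (G := G) (i := 0) (by simp) x hx
      exact ⟨m, hm, by simpa [upper_zero] using hxm⟩
    set N := (upperPSeries p G 2).1 with hN
    haveI : N.Normal := inferInstance
    have hNp : IsPGroup p N := by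
      intro x
      obtain ⟨m, hm⟩ := pstep_upper (p := p) (G := G) (i := 1) (by simp) x.1 x.2
      rw [hU1] at hm
      exact ⟨m, Subtype.ext (by simpa using hm)⟩
    obtain ⟨S, hS⟩ := hNp.exists_le_sylow
    have hNd : derivedSeries N (d i₀) = ⊥ := derived_subgroup_bot hS (hd i₀ S)
    -- the subgroup is non-trivial
    have hNne : N ≠ ⊥ := by
      intro hbot
      have hall : ∀ j, (upperPSeries p G j).1 = ⊥ := by
        intro j
        induction j with
        | zero => rfl
        | succ j ihj =>
          by_cases hj : Even j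
          · rw [le_bot_iff.symm, ← hU1]
            have := le_upper_of_costep (p := p) (G := G) (i := 0) (A := ⊥) (by simp) bot_le
              (B := (upperPSeries p G (j + 1)).1) inferInstance (by
                have := costep_upper (p := p) (G := G) hj
                rwa [ihj] at this)
            exact this
          · rw [le_bot_iff.symm, ← hbot]
            have := le_upper_of_pstep (p := p) (G := G) (i := 1) (A := ⊥) (by simp) bot_le
              (B := (upperPSeries p G (j + 1)).1) inferInstance (by
                have := pstep_upper (p := p) (G := G) hj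
                rwa [ihj] at this)
            exact this
      have h1 : (upperPSeries p G (2 * l i₀ + 1)).1 = ⊤ := hl i₀
      rw [hall] at h1
      have h2 : Nat.card G = 1 := by
        have : Subsingleton G := Subgroup.subsingleton_iff.1 (subsingleton_of_bot_eq_top h1) |> fun _ => by
          constructor
          intro a b
          have ha : a ∈ (⊥ : Subgroup G) := h1 ▸ Subgroup.mem_top a
          have hb : b ∈ (⊥ : Subgroup G) := h1 ▸ Subgroup.mem_top b
          rw [Subgroup.mem_bot] at ha hb
          rw [ha, hb]
        exact Nat.card_unique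
      rw [h2] at hdvd
      exact (hq i₀).one_lt.ne' (Nat.dvd_one.1 hdvd)
    -- apply induction to the quotient
    let l' : Fin r → ℕ := Function.update l i₀ k
    have hlt : Nat.card (G ⧸ N) < n := hn ▸ card_quot_lt N hNne
    have h5 := ih _ hlt (G ⧸ N) rfl
      (fun s hs hsd => hcov s hs (hsd.trans (Subgroup.card_quotient_dvd_card N)))
      (fun i => by
        haveI := Fact.mk (hq i)
        exact fun S' => sylow_quot (QuotientGroup.mk'_surjective N) (q i) (hd i) S')
      l' (fun i => by
        by_cases hi : i = i₀
        · subst hi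
          simp only [l', Function.update_self]
          have h6 := hl i
          rw [hk] at h6
          exact plength_succ_quot h6
        · simp only [l', Function.update_of_ne hi]
          haveI := Fact.mk (hq i)
          exact PLengthLE.map (hl i) (QuotientGroup.mk'_surjective N))
    have h6 := derived_top_quot (QuotientGroup.mk'_surjective N) h5
    rw [QuotientGroup.ker_mk'] at h6
    have h7 := derived_add_le N h6 (d i₀)
    rw [hNd, Subgroup.map_bot, le_bot_iff] at h7
    have e : (Finset.univ.sum fun i => d i * l i) =
        (Finset.univ.sum fun i => d i * l' i) + d i₀ := by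
      have h8 : ∀ i, d i * l i = d i * l' i + if i = i₀ then d i₀ else 0 := by
        intro i
        by_cases hi : i = i₀
        · subst hi
          simp only [l', Function.update_self, if_true, hk]
          rw [Nat.succ_eq_add_one]
          ring
        · simp [l', Function.update_of_ne hi, hi]
      rw [Finset.sum_congr rfl (fun i _ => h8 i), Finset.sum_add_distrib]
      simp
    rw [e]
    exact h7
  · push_neg at hB
    rw [eq_bot_iff]
    intro x hx
    rw [Subgroup.mem_bot]
    by_contra hx1
    have hord : orderOf x ≠ 1 := fun h => hx1 (orderOf_eq_one_iff.1 h)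
    obtain ⟨s, hs, hsd⟩ := Nat.exists_prime_and_dvd hord
    obtain ⟨i, rfl⟩ := hcov s hs (hsd.trans (orderOf_dvd_natCard x))
    have hne := hB i (hsd.trans (orderOf_dvd_natCard x))
    haveI : Fact (q i).Prime := ⟨hq i⟩
    set K := pPrimeCore (q i) G with hK
    have hlt : Nat.card (G ⧸ K) < n := hn ▸ card_quot_lt K hne
    have h5 := ih _ hlt (G ⧸ K) rfl
      (fun s hs hsd => hcov s hs (hsd.trans (Subgroup.card_quotient_dvd_card K)))
      (fun i => by
        haveI := Fact.mk (hq i)
        exact fun S' => sylow_quot (QuotientGroup.mk'_surjective K) (q i) (hd i) S')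
      l (fun i => by
        haveI := Fact.mk (hq i)
        exact PLengthLE.map (hl i) (QuotientGroup.mk'_surjective K))
    have h6 := derived_top_quot (QuotientGroup.mk'_surjective K) h5
    rw [QuotientGroup.ker_mk'] at h6
    obtain ⟨m, hm, hxm⟩ := exists_pow_of_mem_pPrimeCore (h6 hx)
    have h7 := orderOf_dvd_of_pow_eq_one hxm
    exact (Nat.Prime.coprime_iff_not_dvd (hq i)).1 hm.symm (hsd.trans h7)

/-- The Hall–Higman bound on derived length: let G be a finite solvable group, let p₁, …, p_r be distinct primes that include every prime dividing the order of G, and suppose that for each i the Sylow p_i-subgroups of G have derived length at most d_i and G has p_i-length at most l_i. Then G has derived length at most Σ d_i l_i. -/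
theorem result {G : Type*} [Group G] [Finite G] (hG : Group.IsSolvable G) (r : ℕ) (q : Fin r → ℕ) (hq : ∀ i, (q i).Prime) (hinj : Function.Injective q) (hcover : ∀ s : ℕ, s.Prime → s ∣ Nat.card G → ∃ i, q i = s) (d l : Fin r → ℕ) (hd : ∀ i, ∀ P : Subgroup G, (haveI := Fact.mk (hq i); ∃ S : Sylow (q i) G, (S : Subgroup G) = P) → derivedSeries ↥P (d i) = ⊥) (hl : ∀ i, Cfsg.PLengthLE (q i) (l i) G) : derivedSeries G (Finset.univ.sum fun i => d i * l i) = ⊥ := by
  exact main q hq d _ G rfl hcover (fun i => by
    haveI := Fact.mk (hq i)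
    exact fun S => hd i S ⟨S, rfl⟩) l hl

end Cfsg.Agent.S3791
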