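import Mathlib
import Cfsg.Statements.S3799
import Cfsg.Agent.Lib.CoprimeAct
import Cfsg.Agent.Lib.H6Regular
-- import your own Cfsg.Agent.* helpers here

set_option autoImplicit false
open Cfsg

namespace Cfsg.Agent.S3799

open Matrix in
/-- The Heisenberg group as a set of triples. -/
@[ext] structure Heis (p n : ℕ) where
  a : Fin n → ZMod p
  b : Fin n → ZMod p
  c : ZMod p

open Matrix in
instance (p n : ℕ) : Group (Heis p n) where
  mul x y := ⟨x.a + y.a, x.b + y.b, x.c + y.c + x.a ⬝ᵥ y.b⟩
  one := ⟨0, 0, 0⟩
  inv x := ⟨-x.a, -x.b, -x.c + x.a ⬝ᵥ x.b⟩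
  mul_assoc x y z := by
    apply Heis.ext
    · exact add_assoc _ _ _
    · exact add_assoc _ _ _
    · change x.c + y.c + x.a ⬝ᵥ y.b + z.c + (x.a + y.a) ⬝ᵥ z.b =
        x.c + (y.c + z.c + y.a ⬝ᵥ z.b) + x.a ⬝ᵥ (y.b + z.b)
      rw [add_dotProduct, dotProduct_add]; ring
  one_mul x := by
    apply Heis.ext
    · exact zero_add _
    · exact zero_add _
    · change 0 + x.c + (0 : Fin n → ZMod p) ⬝ᵥ x.b = x.c
      simp
  mul_one x := by
    apply Heis.ext
    · exact add_zero _
    · exact add_zero _
    · change x.c + 0 + x.a ⬝ᵥ (0 : Fin n → ZMod p) = x.c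
      simp
  inv_mul_cancel x := by
    apply Heis.ext
    · exact neg_add_cancel _
    · exact neg_add_cancel _
    · change -x.c + x.a ⬝ᵥ x.b + x.c + (-x.a) ⬝ᵥ x.b = 0
      rw [neg_dotProduct]; ring

section
variable {p n : ℕ}
open Matrix
open scoped commutatorElement

@[simp] theorem mul_a (x y : Heis p n) : (x * y).a = x.a + y.a := rfl
@[simp] theorem mul_b (x y : Heis p n) : (x * y).b = x.b + y.b := rfl
@[simp] theorem mul_c (x y : Heis p n) : (x * y).c = x.c + y.c + x.a ⬝ᵥ y.b := rfl
@[simp] theorem one_a : (1 : Heis p n).a = 0 := rfl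
@[simp] theorem one_b : (1 : Heis p n).b = 0 := rfl
@[simp] theorem one_c : (1 : Heis p n).c = 0 := rfl
@[simp] theorem inv_a (x : Heis p n) : (x⁻¹).a = -x.a := rfl
@[simp] theorem inv_b (x : Heis p n) : (x⁻¹).b = -x.b := rfl
@[simp] theorem inv_c (x : Heis p n) : (x⁻¹).c = -x.c + x.a ⬝ᵥ x.b := rfl

theorem pow_formula (x : Heis p n) (k : ℕ) :
    x ^ k = ⟨(k : ZMod p) • x.a, (k : ZMod p) • x.b,
      (k : ZMod p) * x.c + ((k.choose 2 : ℕ) : ZMod p) * (x.a ⬝ᵥ x.b)⟩ := by
  induction k with
  | zero => apply Heis.ext <;> simp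
  | succ k ih =>
    rw [pow_succ, ih]
    apply Heis.ext
    · simp [add_smul]
    · simp [add_smul]
    · simp only [mul_c, smul_dotProduct, smul_eq_mul, Nat.cast_succ]
      have : ((k + 1).choose 2 : ℕ) = k.choose 2 + k := by
        rw [Nat.choose_succ_succ' k 1]; simp; ring
      rw [this]; push_cast; ring

theorem mem_center (x : Heis p n) : x ∈ Subgroup.center (Heis p n) ↔ x.a = 0 ∧ x.b = 0 := by
  classical
  rw [Subgroup.mem_center_iff]
  constructor
  · intro h
    constructor
    · funext i
      have h1 := congrArg Heis.c (h ⟨0, Pi.single i 1, 0⟩)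
      simpa [dotProduct_single] using h1.symm
    · funext i
      have h1 := congrArg Heis.c (h ⟨Pi.single i 1, 0, 0⟩)
      simpa [single_dotProduct] using h1
  · rintro ⟨h1, h2⟩ g
    apply Heis.ext
    · simp [h1, add_comm]
    · simp [h2, add_comm]
    · simp [h1, h2, add_comm]

theorem comm_eq_center (hn : 1 ≤ n) : commutator (Heis p n) = Subgroup.center (Heis p n) := by
  classical
  apply le_antisymm
  · rw [commutator_def, Subgroup.commutator_le]
    intro x _ y _
    rw [mem_center, commutatorElement_def]
    constructor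
    · simp [add_comm]
    · simp [add_comm]
  · intro x hx
    rw [mem_center] at hx
    let i : Fin n := ⟨0, hn⟩
    let u : Heis p n := ⟨Pi.single i 1, 0, 0⟩
    let v : Heis p n := ⟨0, x.c • Pi.single i 1, 0⟩
    have huv : ⁅u, v⁆ = x := by
      apply Heis.ext
      · rw [hx.1, commutatorElement_def]; simp [u, v]
      · rw [hx.2, commutatorElement_def]; simp [u, v]
      · rw [commutatorElement_def]
        simp [u, v, dotProduct_smul, dotProduct_single]
    rw [← huv, commutator_def]
    exact Subgroup.commutator_mem_commutator (Subgroup.mem_top _) (Subgroup.mem_top _)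

def equivTriple : Heis p n ≃ (Fin n → ZMod p) × (Fin n → ZMod p) × ZMod p where
  toFun x := (x.a, x.b, x.c)
  invFun y := ⟨y.1, y.2.1, y.2.2⟩
  left_inv _ := rfl
  right_inv _ := rfl

def equivCenter : Subgroup.center (Heis p n) ≃ ZMod p where
  toFun x := x.1.c
  invFun c := ⟨⟨0, 0, c⟩, (mem_center _).2 ⟨rfl, rfl⟩⟩
  left_inv x := by
    have h := (mem_center x.1).1 x.2
    apply Subtype.ext
    apply Heis.ext
    · exact h.1.symm
    · exact h.2.symm
    · rfl
  right_inv _ := rfl

theorem card_heis [NeZero p] : Nat.card (Heis p n) = p ^ (1 + 2 * n) := by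
  rw [Nat.card_congr equivTriple, Nat.card_prod, Nat.card_prod]
  simp only [Nat.card_eq_fintype_card, Fintype.card_fun, ZMod.card, Fintype.card_fin]
  ring

theorem card_center [NeZero p] : Nat.card (Subgroup.center (Heis p n)) = p := by
  rw [Nat.card_congr equivCenter]
  simp

/-- The relevant identities pass along a multiplicative equivalence. -/
theorem transfer {H K : Type*} [Group H] [Group K] (q : ℕ) (e : H ≃* K)
    (h : Cfsg.IsExtraspecial q H) : Cfsg.IsExtraspecial q K := by
  obtain ⟨⟨hp, hf, hc⟩, hz⟩ := h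
  have hcenter : (Subgroup.center H).map e.toMonoidHom = Subgroup.center K := by
    ext z
    rw [Subgroup.mem_map, Subgroup.mem_center_iff]
    constructor
    · rintro ⟨x, hx, rfl⟩ g
      obtain ⟨g, rfl⟩ := e.surjective g
      have := (Subgroup.mem_center_iff.1 hx) g
      change e g * e x = e x * e g
      rw [← e.map_mul, ← e.map_mul, this]
    · intro hz
      refine ⟨e.symm z, ?_, by simp⟩
      rw [Subgroup.mem_center_iff]
      intro g
      apply e.injective
      rw [e.map_mul, e.map_mul, e.apply_symm_apply, hz]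
  have hcomm : (commutator H).map e.toMonoidHom = commutator K := by
    rw [commutator_def, commutator_def, Subgroup.map_commutator]
    have : (⊤ : Subgroup H).map e.toMonoidHom = ⊤ := by
      rw [Subgroup.map_top_of_surjective]
      exact e.surjective
    rw [this]
  have hfrat : (frattini H).map e.toMonoidHom = frattini K := by
    apply le_antisymm
    · have h1 := frattini_le_comap_frattini_of_surjective (φ := e.toMonoidHom) e.surjective
      exact Subgroup.map_le_iff_le_comap.2 h1
    · have h1 := frattini_le_comap_frattini_of_surjective (φ := e.symm.toMonoidHom) e.symm.surjective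
      intro x hx
      exact ⟨e.symm x, h1 hx, by simp⟩
  refine ⟨⟨hp.of_surjective e.toMonoidHom e.surjective, ?_, ?_⟩, ?_⟩
  · rw [← hfrat, ← hcenter, hf]
  · rw [← hcomm, ← hcenter, hc]
  · rw [← hcenter, Subgroup.card_map_of_injective (K := Subgroup.center H) e.injective, hz]

/-- The matrix of a triple. -/
def mat (x : Heis p n) : Matrix (Unit ⊕ (Fin n ⊕ Unit)) (Unit ⊕ (Fin n ⊕ Unit)) (ZMod p) :=
  Matrix.of fun i j => match i, j with
    | .inl _, .inl _ => 1
    | .inl _, .inr (.inl j) => x.a j
    | .inl _, .inr (.inr _) => x.c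
    | .inr (.inl _), .inl _ => 0
    | .inr (.inl i), .inr (.inl j) => if i = j then 1 else 0
    | .inr (.inl i), .inr (.inr _) => x.b i
    | .inr (.inr _), .inl _ => 0
    | .inr (.inr _), .inr (.inl _) => 0
    | .inr (.inr _), .inr (.inr _) => 1

theorem mat_one : mat (1 : Heis p n) = 1 := by
  ext i j
  rcases i with _ | i | _ <;> rcases j with _ | j | _ <;> simp [mat, Matrix.one_apply]

theorem mat_mul (x y : Heis p n) : mat (x * y) = mat x * mat y := by
  ext i j
  rcases i with _ | i | _ <;> rcases j with _ | j | _ <;>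
    simp [mat, Matrix.mul_apply, Fintype.sum_sum_type, dotProduct, add_comm, add_left_comm, add_assoc]

theorem mat_inj : Function.Injective (mat : Heis p n → _) := by
  intro x y h
  apply Heis.ext
  · funext j
    have := congrFun (congrFun h (.inl ())) (.inr (.inl j))
    simpa [mat] using this
  · funext j
    have := congrFun (congrFun h (.inr (.inl j))) (.inr (.inr ()))
    simpa [mat] using this
  · have := congrFun (congrFun h (.inl ())) (.inr (.inr ()))
    simpa [mat] using this

end


/-- For every odd prime p and every n ≥ 1 there is an extraspecial p-group of order p^(1+2n) and exponent p; concretely, the general linear group of degree n + 2 over the field with p elements contains such a subgroup. -/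
theorem result (p : ℕ) [Fact p.Prime] (hp : p ≠ 2) (n : ℕ) (hn : 1 ≤ n) : ∃ E : Subgroup (Matrix.GeneralLinearGroup (Fin (n + 2)) (ZMod p)), Cfsg.IsExtraspecial p ↥E ∧ Nat.card E = p ^ (1 + 2 * n) ∧ ∀ x ∈ E, x ^ p = 1 := by
  classical
  have hpp : p.Prime := Fact.out
  haveI : NeZero p := ⟨hpp.ne_zero⟩
  have hH : Cfsg.IsExtraspecial p (Heis p n) := by
    have hcard := card_heis (p := p) (n := n)
    have hpg : IsPGroup p (Heis p n) := IsPGroup.of_card hcard
    haveI : Finite (Heis p n) := Nat.finite_of_card_ne_zero (by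
      rw [hcard]; exact pow_ne_zero _ hpp.ne_zero)
    have hcomm := comm_eq_center (p := p) hn
    refine ⟨⟨hpg, ?_, hcomm⟩, card_center⟩
    apply le_antisymm
    · apply Cfsg.Agent.Lib.CoprimeAct.frattini_le_of_elementary (p := p)
      · intro a b
        rw [← hcomm, commutator_def]
        exact Subgroup.commutator_mem_commutator (Subgroup.mem_top a) (Subgroup.mem_top b)
      · intro a
        rw [pow_formula, mem_center]
        constructor
        · simp
        · simp
    · rw [← hcomm]
      exact Cfsg.Agent.Lib.H6Regular.commutator_le_frattini hpg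
  have hexp : ∀ x : Heis p n, x ^ p = 1 := by
    intro x
    rw [pow_formula]
    have h2 : p ∣ p.choose 2 := hpp.dvd_choose_self (by omega) (by
      have := hpp.two_le
      omega)
    apply Heis.ext
    · simp
    · simp
    · simp [(ZMod.natCast_eq_zero_iff _ _).2 h2]
  let e0 : (Unit ⊕ (Fin n ⊕ Unit)) ≃ Fin (n + 2) :=
    Fintype.equivFinOfCardEq (by simp; omega)
  let R := Matrix.reindexAlgEquiv (ZMod p) (ZMod p) e0
  let f : Heis p n →* Matrix (Fin (n + 2)) (Fin (n + 2)) (ZMod p) :=
    { toFun := fun x => R (mat x)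
      map_one' := by rw [mat_one, map_one]
      map_mul' := fun x y => by rw [mat_mul, map_mul] }
  let φ : Heis p n →* Matrix.GeneralLinearGroup (Fin (n + 2)) (ZMod p) := MonoidHom.toHomUnits f
  have hφ : Function.Injective φ := by
    intro x y hxy
    have h1 : f x = f y := congrArg Units.val hxy
    exact mat_inj (R.injective h1)
  refine ⟨φ.range, ?_, ?_, ?_⟩
  · exact transfer p (MonoidHom.ofInjective hφ) hH
  · rw [← Nat.card_congr (MonoidHom.ofInjective hφ).toEquiv]
    exact card_heis
  · rintro _ ⟨x, rfl⟩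
    rw [← map_pow, hexp, map_one]

end Cfsg.Agent.S3799
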