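import Mathlib
import Cfsg.Statements.S3800
import Cfsg.Agent.Lib.AmalgamChar
-- import your own Cfsg.Agent.* helpers here

set_option autoImplicit false
open Cfsg

namespace Cfsg.Agent.S3800

/-- Let G be a finite group, N a normal subgroup of G whose order is prime to p, and P a p-subgroup of G. Then in G/N the normalizer of the image of P is the image of N_G(P), and the centralizer of the image of P is the image of C_G(P). -/
theorem result {G : Type*} [Group G] [Finite G] {p : ℕ} [Fact p.Prime] (N : Subgroup G) [N.Normal] (hN : (Nat.card N).Coprime p) (P : Subgroup G) (hP : IsPGroup p P) : Subgroup.normalizer ((P.map (QuotientGroup.mk' N)) : Set (G ⧸ N)) = (Subgroup.normalizer (P : Set G)).map (QuotientGroup.mk' N) ∧ Subgroup.centralizer ((P.map (QuotientGroup.mk' N)) : Set (G ⧸ N)) = (Subgroup.centralizer (P : Set G)).map (QuotientGroup.mk' N) := by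
  classical
  have hp : p.Prime := Fact.out
  let q : G →* G ⧸ N := QuotientGroup.mk' N
  have hq : Function.Surjective q := QuotientGroup.mk'_surjective N
  obtain ⟨k, hk⟩ := IsPGroup.iff_card.mp hP
  have hndvd : ¬ p ∣ Nat.card N := by
    intro h
    have := Nat.dvd_gcd h (dvd_refl p)
    rw [hN] at this
    exact hp.one_lt.ne' (Nat.dvd_one.mp this)
  have hPN : ∀ x ∈ P, x ∈ N → x = 1 := by
    intro x hxP hxN
    have h1 : orderOf x ∣ p ^ k := by
      rw [← hk, ← Subgroup.orderOf_mk x hxP]
      exact orderOf_dvd_natCard _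
    have h2 : orderOf x ∣ Nat.card N := by
      rw [← Subgroup.orderOf_mk x hxN]
      exact orderOf_dvd_natCard _
    have h3 : (p ^ k).Coprime (Nat.card N) := Nat.Coprime.pow_left _ hN.symm
    have h4 : orderOf x ∣ 1 := by
      rw [← h3.gcd_eq_one]
      exact Nat.dvd_gcd h1 h2
    exact orderOf_eq_one_iff.mp (Nat.dvd_one.mp h4)
  have hqmem : ∀ x y : G, q x = q y → x⁻¹ * y ∈ N := fun x y h => QuotientGroup.eq.mp h
  let L : Subgroup G := (P.map q).comap q
  have hPL : P ≤ L := fun x hx => ⟨x, hx, rfl⟩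
  have hinj : Function.Injective (q.comp P.subtype) := by
    intro x y hxy
    have h1 : x.1⁻¹ * y.1 ∈ N := hqmem _ _ hxy
    have h2 := hPN _ (P.mul_mem (P.inv_mem x.2) y.2) h1
    have h3 : x.1 = y.1 := by
      rw [inv_mul_eq_one] at h2
      exact h2
    exact Subtype.ext h3
  have hPbar : Nat.card (P.map q) = Nat.card P := by
    have h1 : (q.comp P.subtype).range = P.map q := by
      rw [MonoidHom.range_comp, Subgroup.range_subtype]
    rw [← h1]
    exact Nat.card_congr (MonoidHom.ofInjective hinj).toEquiv.symm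
  have hLcard : Nat.card L = Nat.card N * p ^ k := by
    have h1 : L.index = (P.map q).index := Subgroup.index_comap_of_surjective _ hq
    have h2 := L.card_mul_index
    have h3 := (P.map q).card_mul_index
    have h4 : Nat.card N * Nat.card (G ⧸ N) = Nat.card G := N.card_mul_index
    rw [hPbar, hk] at h3
    have hipos : 0 < L.index := Nat.pos_of_ne_zero Subgroup.index_ne_zero_of_finite
    apply Nat.eq_of_mul_eq_mul_right hipos
    rw [h2, ← h4, ← h3, h1]
    ring
  have hfac : (Nat.card L).factorization p = k := by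
    rw [hLcard, Nat.factorization_mul Nat.card_pos.ne' (pow_pos hp.pos _).ne', Finsupp.add_apply,
      Nat.factorization_eq_zero_of_not_dvd hndvd, zero_add, hp.factorization_pow]
    simp
  have hnormsub : Subgroup.normalizer ((P.map q : Subgroup (G ⧸ N)) : Set (G ⧸ N)) ≤
      (Subgroup.normalizer (P : Set G)).map q := by
    intro z hz
    obtain ⟨g, rfl⟩ := hq z
    have hg := Subgroup.mem_normalizer_iff.mp hz
    -- conjugate of `P` lies in `L`
    let P' : Subgroup G := P.map (MulAut.conj g).toMonoidHom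
    have hP'L : P' ≤ L := by
      rintro _ ⟨x, hx, rfl⟩
      change q (g * x * g⁻¹) ∈ P.map q
      rw [map_mul, map_mul, map_inv]
      exact (hg (q x)).mp ⟨x, hx, rfl⟩
    have hP'card : Nat.card P' = Nat.card P :=
      Subgroup.card_map_of_injective (MulAut.conj g).injective
    have hs1 : Cfsg.Agent.Lib.AmalgamChar.IsSylowIn p P L := ⟨hPL, by rw [hk, hfac]⟩
    have hs2 : Cfsg.Agent.Lib.AmalgamChar.IsSylowIn p P' L := ⟨hP'L, by rw [hP'card, hk, hfac]⟩
    obtain ⟨h, hh, hP'⟩ := hs1.exists_conj hs2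
    obtain ⟨u, huP, hu⟩ := hh
    -- `h⁻¹ * g` normalizes `P`
    have hn : h⁻¹ * g ∈ Subgroup.normalizer (P : Set G) := by
      rw [Subgroup.mem_normalizer_iff_map_conj_eq]
      have h5 : (P.map (MulAut.conj g).toMonoidHom).map (MulAut.conj h⁻¹).toMonoidHom
          = (P.map (MulAut.conj h).toMonoidHom).map (MulAut.conj h⁻¹).toMonoidHom := by
        rw [← hP']
      rw [Subgroup.map_map, Subgroup.map_map] at h5
      have h6 : ((MulAut.conj h⁻¹).toMonoidHom.comp (MulAut.conj h).toMonoidHom) = MonoidHom.id G := by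
        ext y
        simp [MulAut.conj_apply, mul_assoc]
      rw [h6, Subgroup.map_id] at h5
      convert h5 using 2
      ext y
      simp [MulAut.conj_apply, mul_assoc]
    refine ⟨u * (h⁻¹ * g), Subgroup.mul_mem _ (Subgroup.le_normalizer huP) hn, ?_⟩
    change q (u * (h⁻¹ * g)) = q g
    rw [map_mul, map_mul, map_inv]
    have hu' : q u = q h := hu
    rw [hu']
    group
  constructor
  · apply le_antisymm hnormsub
    rintro _ ⟨x, hx, rfl⟩
    rw [Subgroup.mem_normalizer_iff]
    intro z
    obtain ⟨w, rfl⟩ := hq z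
    have hx' := Subgroup.mem_normalizer_iff.mp hx
    have h1 : ∀ y : G, q y ∈ P.map q ↔ ∃ n ∈ N, y * n ∈ P := by
      intro y
      constructor
      · rintro ⟨u, hu, hue⟩
        refine ⟨y⁻¹ * u, hqmem _ _ hue.symm, ?_⟩
        simpa using hu
      · rintro ⟨n, hn, hyn⟩
        refine ⟨y * n, hyn, ?_⟩
        have : q n = 1 := (QuotientGroup.eq_one_iff n).mpr hn
        rw [map_mul, this, mul_one]
    have h2 : q x * q w * (q x)⁻¹ = q (x * w * x⁻¹) := by
      rw [map_mul, map_mul, map_inv]
    rw [h2, h1, h1]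
    constructor
    · rintro ⟨n, hn, hwn⟩
      refine ⟨x * n * x⁻¹, Subgroup.Normal.conj_mem inferInstance n hn x, ?_⟩
      have h3 : x * w * x⁻¹ * (x * n * x⁻¹) = x * (w * n) * x⁻¹ := by group
      rw [h3]
      exact (hx' _).mp hwn
    · rintro ⟨n, hn, hwn⟩
      refine ⟨x⁻¹ * n * x⁻¹⁻¹, Subgroup.Normal.conj_mem inferInstance n hn x⁻¹, ?_⟩
      have h3 : x * (w * (x⁻¹ * n * x⁻¹⁻¹)) * x⁻¹ = x * w * x⁻¹ * n := by group
      rw [hx', h3]
      exact hwn
  · apply le_antisymm
    · intro z hz
      have hzn : z ∈ Subgroup.normalizer ((P.map q : Subgroup (G ⧸ N)) : Set (G ⧸ N)) :=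
        Subgroup.centralizer_le_normalizer _ hz
      obtain ⟨g, hg, rfl⟩ := hnormsub hzn
      refine ⟨g, ?_, rfl⟩
      change g ∈ Subgroup.centralizer (P : Set G)
      rw [Subgroup.mem_centralizer_iff]
      intro u hu
      have h1 : g * u * g⁻¹ ∈ P := (Subgroup.mem_normalizer_iff.mp hg u).mp hu
      have h2 : u⁻¹ * (g * u * g⁻¹) ∈ P := P.mul_mem (P.inv_mem hu) h1
      have hc := (Subgroup.mem_centralizer_iff.mp hz) (q u) ⟨u, hu, rfl⟩
      have h3 : u⁻¹ * (g * u * g⁻¹) ∈ N := by
        apply hqmem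
        rw [map_mul, map_mul, map_inv]
        have hc' : q u * q g = q g * q u := by simpa using hc
        rw [← hc']
        group
      have h4 := hPN _ h2 h3
      have h5 : g * u * g⁻¹ = u := by
        rw [inv_mul_eq_one] at h4
        exact h4.symm
      calc u * g = (g * u * g⁻¹) * g := by rw [h5]
        _ = g * u := by group
    · rintro _ ⟨x, hx, rfl⟩
      rw [Subgroup.mem_centralizer_iff]
      rintro _ ⟨u, hu, rfl⟩
      have := (Subgroup.mem_centralizer_iff.mp hx) u hu
      simp only [SetLike.mem_coe] at *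
      change q u * q x = q x * q u
      rw [← map_mul, ← map_mul, this]

end Cfsg.Agent.S3800
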