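import Cfsg.Statements.S3958
import Cfsg.Agent.Lib.HopfRep
-- import your own Cfsg.Agent.* helpers here

set_option autoImplicit false
set_option linter.all false
universe u v
open Cfsg

namespace Cfsg.Agent.S3958

/-- Let `σ : Γ →* Q` be a finite stem extension of the finite group `Q` with `Γ` of trivial Schur multiplier. Then `σ` is a Schur covering group of `Q`: for every finite stem extension `τ : Δ →* Q` with `Δ` in the same universe as `Q`, the kernel of `τ` is a homomorphic image of the kernel of `σ`. -/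
theorem result {Q : Type u} [Group Q] [Finite Q] {Γ : Type v} [Group Γ] [Finite Γ] (σ : Γ →* Q) (hσ : Cfsg.IsStemExtension σ) (hΓ : Cfsg.HasCyclicSchurMultiplier Γ 1) (Δ : Type u) [Group Δ] [Finite Δ] (τ : Δ →* Q) (hτ : Cfsg.IsStemExtension τ) : ∃ π : σ.ker →* τ.ker, Function.Surjective π := by
  have hkk : Nonempty ((MonoidHom.id Γ).ker ≃* Multiplicative (ZMod 1)) := by
    have hid : (MonoidHom.id Γ).ker = ⊥ := by ext; simp
    refine ⟨{ toFun := fun _ => 1, invFun := fun _ => 1, left_inv := ?_, right_inv := fun x => Subsingleton.elim _ _, map_mul' := fun _ _ => Subsingleton.elim _ _ }⟩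
    rintro ⟨x, hx⟩
    apply Subtype.ext
    rw [hid, Subgroup.mem_bot] at hx
    exact hx.symm
  have hstem : Cfsg.IsStemExtension (MonoidHom.id Γ) := by
    have hid : (MonoidHom.id Γ).ker = ⊥ := by ext; simp
    refine ⟨Function.surjective_id, ?_, ?_⟩
    · rw [hid]; exact bot_le
    · rw [hid]; exact bot_le
  refine Cfsg.Agent.Lib.HopfRep.surj_of_lift σ hσ ?_ τ hτ
  intro n γ
  obtain ⟨ρ, hρ⟩ := Cfsg.Agent.Lib.HopfRep.lift_projective hΓ (MonoidHom.id Γ) hstem hkk n (γ.comp σ)
  exact ⟨ρ, hρ⟩

end Cfsg.Agent.S3958
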