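import Cfsg.Statements.S3962
-- import your own Cfsg.Agent.* helpers here

set_option autoImplicit false
open Cfsg

namespace Cfsg.Agent.S3962

/-- Let `G` be a perfect group and `π : G →* Q` a surjective homomorphism whose kernel is central. Then `π` maps the centre of `G` onto the centre of `Q`. Taking `π` to be the map to `G ⧸ Z(G)` shows that the central quotient of a perfect group has trivial centre. -/
theorem result {G Q : Type*} [Group G] [Group Q] (hG : Group.IsPerfect G) (π : G →* Q) (hπ : Function.Surjective π) (hker : π.ker ≤ Subgroup.center G) : (Subgroup.center G).map π = Subgroup.center Q := by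
  classical
  apply le_antisymm
  · rintro _ ⟨z, hz, rfl⟩
    rw [Subgroup.mem_center_iff]
    intro q
    obtain ⟨x, rfl⟩ := hπ q
    rw [← map_mul, ← map_mul, (Subgroup.mem_center_iff.mp hz) x]
  · intro z hz
    obtain ⟨g, rfl⟩ := hπ z
    refine ⟨g, ?_, rfl⟩
    have hcen : ∀ x : G, g * x * g⁻¹ * x⁻¹ ∈ Subgroup.center G := by
      intro x
      apply hker
      rw [MonoidHom.mem_ker, map_mul, map_mul, map_mul, map_inv, map_inv,
        ← (Subgroup.mem_center_iff.mp hz) (π x)]
      group
    let φ : G →* Subgroup.center G :=
      { toFun := fun x => ⟨g * x * g⁻¹ * x⁻¹, hcen x⟩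
        map_one' := by
          apply Subtype.ext
          simp
        map_mul' := by
          intro x y
          apply Subtype.ext
          have hy := (Subgroup.mem_center_iff.mp (hcen y)) x⁻¹
          simp only [Subgroup.coe_mul]
          calc g * (x * y) * g⁻¹ * (x * y)⁻¹
              = (g * x * g⁻¹) * ((g * y * g⁻¹ * y⁻¹) * x⁻¹) := by group
            _ = (g * x * g⁻¹) * (x⁻¹ * (g * y * g⁻¹ * y⁻¹)) := by rw [hy]
            _ = _ := by group }
    have hker' : commutator G ≤ φ.ker := by
      rw [commutator_def, Subgroup.commutator_le]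
      intro a _ b _
      rw [MonoidHom.mem_ker, map_commutatorElement, commutatorElement_eq_one_iff_mul_comm]
      exact (Subgroup.mem_center_iff.mp (φ b).2 (φ a).1 |> Subtype.ext)
    change g ∈ Subgroup.center G
    rw [Subgroup.mem_center_iff]
    intro x
    have hx : x ∈ φ.ker := by
      apply hker'
      rw [hG.commutator_eq_top]
      trivial
    rw [MonoidHom.mem_ker] at hx
    have h1 : g * x * g⁻¹ * x⁻¹ = 1 := congrArg Subtype.val hx
    have h2 : g * x = x * g := by
      have h3 : g * x * g⁻¹ = x := by
        rw [mul_inv_eq_one] at h1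
        exact h1
      calc g * x = (g * x * g⁻¹) * g := by group
        _ = x * g := by rw [h3]
    exact h2.symm

end Cfsg.Agent.S3962
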