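import Mathlib
import Cfsg.Statements.S3963
import Cfsg.Agent.Lib.H6Schur
-- import your own Cfsg.Agent.* helpers here

set_option autoImplicit false
open Cfsg

namespace Cfsg.Agent.S3963

/-- For every `n ≥ 1` the dicyclic (generalized quaternion) group of order `4 n` has trivial Schur multiplier. -/
theorem result (n : ℕ) [NeZero n] : Cfsg.HasCyclicSchurMultiplier (QuaternionGroup n) 1 := by
  exact Cfsg.Agent.Lib.H6Schur.dicyclic n

end Cfsg.Agent.S3963
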