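import Mathlib
import Cfsg.Statements.S3966
-- import your own Cfsg.Agent.* helpers here

set_option autoImplicit false
open Cfsg

namespace Cfsg.Agent.S3966

/-- For even `n ≥ 2` the dicyclic group of order `4 n` is a stem extension of the dihedral group of order `2 n` with kernel of order `2`: there is a surjective homomorphism `QuaternionGroup n →* DihedralGroup n` whose kernel is central, lies in the commutator subgroup and has two elements. Together with the order of the multiplier this exhibits the dicyclic group as a Schur covering group of the dihedral group. -/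
theorem result (n : ℕ) [NeZero n] (hn : Even n) : ∃ σ : QuaternionGroup n →* DihedralGroup n, Cfsg.IsStemExtension σ ∧ Nat.card σ.ker = 2 := by
  classical
  have hdvd : n ∣ 2 * n := dvd_mul_left n 2
  let c : ZMod (2 * n) →+* ZMod n := ZMod.castHom hdvd (ZMod n)
  have hcn : c (n : ZMod (2 * n)) = 0 := by
    rw [map_natCast]
    exact ZMod.natCast_self n
  have hc1 : ∀ k : ℕ, c (k : ZMod (2 * n)) = (k : ZMod n) := fun k => map_natCast c k
  let σ : QuaternionGroup n →* DihedralGroup n :=
    { toFun := fun x => match x with
        | QuaternionGroup.a i => DihedralGroup.r (c i)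
        | QuaternionGroup.xa i => DihedralGroup.sr (c i)
      map_one' := by
        change DihedralGroup.r (c 0) = 1
        rw [map_zero]
        rfl
      map_mul' := by
        rintro (i | i) (j | j)
        · simp [QuaternionGroup.a_mul_a, DihedralGroup.r_mul_r, map_add]
        · simp [QuaternionGroup.a_mul_xa, DihedralGroup.r_mul_sr, map_sub]
        · simp [QuaternionGroup.xa_mul_a, DihedralGroup.sr_mul_r, map_add]
        · simp [QuaternionGroup.xa_mul_xa, DihedralGroup.sr_mul_sr, map_add, map_sub, hcn] }
  have hσa : ∀ i, σ (QuaternionGroup.a i) = DihedralGroup.r (c i) := fun _ => rfl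
  have hσxa : ∀ i, σ (QuaternionGroup.xa i) = DihedralGroup.sr (c i) := fun _ => rfl
  have hcsurj : Function.Surjective c := ZMod.castHom_surjective hdvd
  have hker : ∀ x, x ∈ σ.ker ↔ x = QuaternionGroup.a 0 ∨ x = QuaternionGroup.a (n : ZMod (2 * n)) := by
    intro x
    rw [MonoidHom.mem_ker]
    rcases x with i | i
    · rw [hσa]
      change DihedralGroup.r (c i) = DihedralGroup.r 0 ↔ _
      rw [DihedralGroup.r.injEq, QuaternionGroup.a.injEq, QuaternionGroup.a.injEq]
      constructor
      · intro h
        -- `i` as a natural number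
        obtain ⟨k, rfl⟩ : ∃ k : ℕ, i = (k : ZMod (2 * n)) := ⟨i.val, (ZMod.natCast_zmod_val i).symm⟩
        rw [hc1, ZMod.natCast_eq_zero_iff] at h
        obtain ⟨m, rfl⟩ := h
        rcases Nat.even_or_odd m with ⟨t, rfl⟩ | ⟨t, rfl⟩
        · left
          rw [ZMod.natCast_eq_zero_iff]
          exact ⟨t, by ring⟩
        · right
          rw [ZMod.natCast_eq_natCast_iff']
          have : n * (2 * t + 1) = n + (2 * n) * t := by ring
          rw [this]
          simp
      · rintro (rfl | rfl)
        · exact map_zero c
        · exact hcn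
    · rw [hσxa]
      constructor
      · intro h
        change DihedralGroup.sr (c i) = DihedralGroup.r 0 at h
        cases h
      · rintro (h | h) <;> cases h
  have hn0 : (n : ZMod (2 * n)) ≠ 0 := by
    rw [Ne, ZMod.natCast_eq_zero_iff]
    intro h
    have hnpos : 0 < n := Nat.pos_of_ne_zero (NeZero.ne n)
    have := Nat.le_of_dvd hnpos h
    omega
  have hnn : (n : ZMod (2 * n)) + n = 0 := by
    have : ((2 * n : ℕ) : ZMod (2 * n)) = 0 := ZMod.natCast_self _
    rw [Nat.cast_mul] at this
    push_cast at this
    rw [← two_mul]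
    exact this
  refine ⟨σ, ⟨?_, ?_, ?_⟩, ?_⟩
  · rintro (i | i)
    · obtain ⟨j, rfl⟩ := hcsurj i
      exact ⟨QuaternionGroup.a j, rfl⟩
    · obtain ⟨j, rfl⟩ := hcsurj i
      exact ⟨QuaternionGroup.xa j, rfl⟩
  · intro x hx
    rw [Subgroup.mem_center_iff]
    rcases (hker x).mp hx with rfl | rfl
    · intro g
      rw [show (QuaternionGroup.a 0 : QuaternionGroup n) = 1 from rfl]
      group
    · rintro (i | i)
      · simp [QuaternionGroup.a_mul_a, add_comm]
      · simp only [QuaternionGroup.xa_mul_a, QuaternionGroup.a_mul_xa, QuaternionGroup.xa.injEq]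
        have : (n : ZMod (2 * n)) = -n := eq_neg_of_add_eq_zero_left hnn
        rw [sub_eq_add_neg]
        rw [← this]
  · intro x hx
    obtain ⟨k, hk⟩ := hn
    have hcomm : (QuaternionGroup.a 2 : QuaternionGroup n) ∈ commutator (QuaternionGroup n) := by
      rw [commutator_def]
      have h1 := Subgroup.commutator_mem_commutator (Subgroup.mem_top (QuaternionGroup.a (1 : ZMod (2 * n)) : QuaternionGroup n))
        (Subgroup.mem_top (QuaternionGroup.xa (0 : ZMod (2 * n)) : QuaternionGroup n))
      have h3 : (QuaternionGroup.a (1 : ZMod (2 * n)) : QuaternionGroup n) * QuaternionGroup.xa 0 * (QuaternionGroup.a 1)⁻¹ * (QuaternionGroup.xa 0)⁻¹ = QuaternionGroup.a 2 := by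
        have e1 : ((QuaternionGroup.a (1 : ZMod (2 * n)) : QuaternionGroup n))⁻¹ = QuaternionGroup.a (-1) := rfl
        have e2 : ((QuaternionGroup.xa (0 : ZMod (2 * n)) : QuaternionGroup n))⁻¹ = QuaternionGroup.xa ((n : ZMod (2 * n)) + 0) := rfl
        rw [e1, e2, QuaternionGroup.a_mul_xa, QuaternionGroup.xa_mul_a, QuaternionGroup.xa_mul_xa]
        congr 1
        linear_combination hnn
      rw [commutatorElement_def, h3] at h1
      exact h1
    rcases (hker x).mp hx with rfl | rfl
    · exact Subgroup.one_mem _
    · have hpowa : ∀ t : ℕ, (QuaternionGroup.a 2 : QuaternionGroup n) ^ t = QuaternionGroup.a ((t : ZMod (2 * n)) * 2) := by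
        intro t
        induction t with
        | zero => rw [pow_zero]; simp only [Nat.cast_zero, zero_mul]; rfl
        | succ t ih =>
          rw [pow_succ, ih, QuaternionGroup.a_mul_a]
          congr 1
          push_cast
          ring
      have h2 : (QuaternionGroup.a (n : ZMod (2 * n)) : QuaternionGroup n) = (QuaternionGroup.a 2) ^ k := by
        rw [hpowa]
        congr 1
        have h4 : ((n : ℕ) : ZMod (2 * n)) = ((k + k : ℕ) : ZMod (2 * n)) := congrArg (Nat.cast : ℕ → ZMod (2 * n)) hk
        rw [h4]
        push_cast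
        ring
      rw [h2]
      exact Subgroup.pow_mem _ hcomm k
  · rw [Nat.card_eq_two_iff]
    refine ⟨⟨QuaternionGroup.a 0, (hker _).mpr (Or.inl rfl)⟩, ⟨QuaternionGroup.a (n : ZMod (2 * n)), (hker _).mpr (Or.inr rfl)⟩, ?_, ?_⟩
    · intro h
      have h1 : (QuaternionGroup.a 0 : QuaternionGroup n) = QuaternionGroup.a (n : ZMod (2 * n)) :=
        congrArg Subtype.val h
      rw [QuaternionGroup.a.injEq] at h1
      exact hn0 h1.symm
    · ext ⟨x, hx⟩
      simp only [Set.mem_insert_iff, Set.mem_singleton_iff, Set.mem_univ, iff_true]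
      rcases (hker x).mp hx with rfl | rfl
      · exact Or.inl rfl
      · exact Or.inr rfl

end Cfsg.Agent.S3966
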