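import Cfsg.Statements.S3968
import Cfsg.Agent.Lib.CoherenceFrob
import Cfsg.Agent.Lib.CharInt
import Cfsg.Agent.Lib.H7Char
-- import your own Cfsg.Agent.* helpers here

set_option autoImplicit false
set_option linter.all false
open Cfsg

namespace Cfsg.Agent.S3968

open Cfsg.Agent.Lib.CharOps Cfsg.Agent.Lib.CharIrr



/-- Let `p` be a prime and `G` a finite group with a faithful irreducible complex character of degree `p` (so `G` is an irreducible linear group in `p` variables). If `p ^ 2` divides the order of `G`, then the centre of `G` is nontrivial. -/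
theorem result {G : Type*} [Group G] [Finite G] (p : ℕ) (hp : p.Prime) (χ : Cfsg.IrrCharacter G) (hdeg : χ.1 1 = p) (hfaith : ∀ g : G, χ.1 g = χ.1 1 → g = 1) (hdiv : p ^ 2 ∣ Nat.card G) : Subgroup.center G ≠ ⊥ := by
  classical
  letI : Fintype G := Fintype.ofFinite G
  haveI hpf : Fact p.Prime := ⟨hp⟩
  obtain ⟨n, ρ, hρ, hχ⟩ := χ.2
  have hfr : (Module.finrank ℂ (Fin n → ℂ) : ℂ) = p := by
    rw [← Representation.char_one ρ, hχ, hdeg]
  have hfr' : Module.finrank ℂ (Fin n → ℂ) = p := by exact_mod_cast hfr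
  -- scalars are central
  have hcentral : ∀ g : G, ‖χ.1 g‖ = p → g ≠ 1 → Subgroup.center G ≠ ⊥ := by
    intro g hg hg1 hbot
    rw [← hχ] at hg
    obtain ⟨ω, hω⟩ := (Cfsg.Agent.Lib.CharCore.norm_character_eq_iff ρ g).1 (by rw [hg, hfr'])
    apply hg1
    have hmem : g ∈ Subgroup.center G := by
      rw [Subgroup.mem_center_iff]
      intro h
      have h1 : ρ (h * g) = ρ (g * h) := by
        rw [map_mul, map_mul, hω]
        ext v
        simp
      have h2 : ρ ((h * g) * (g * h)⁻¹) = LinearMap.id := by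
        rw [map_mul, h1, ← map_mul, mul_inv_cancel, map_one]
        rfl
      have h3 := (Cfsg.Agent.Lib.CharCore.character_eq_finrank_iff ρ _).2 h2
      rw [hfr, hχ, ← hdeg] at h3
      have h4 := hfaith _ h3
      exact mul_inv_eq_one.1 h4
    rw [hbot] at hmem
    simpa using hmem
  obtain ⟨P⟩ : Nonempty (Sylow p G) := inferInstance
  have hPcard : p ^ 2 ∣ Nat.card (P : Subgroup G) := Sylow.pow_dvd_card_of_pow_dvd_card P hdiv
  have hPpos : 0 < Nat.card (P : Subgroup G) := Nat.card_pos
  letI : Fintype (P : Subgroup G) := Fintype.ofFinite _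
  have hchar := Cfsg.Agent.Lib.CharOps.isCharacter_restrict (P : Subgroup G)
    (Cfsg.Agent.Lib.CharOps.IsIrrCharacter.isCharacter' χ.2)
  by_cases hab : ∀ a ∈ (P : Subgroup G), ∀ b ∈ (P : Subgroup G), a * b = b * a
  · -- abelian Sylow
    obtain ⟨x, hx, hx1, hx0⟩ : ∃ x ∈ (P : Subgroup G), x ≠ 1 ∧ χ.1 x ≠ 0 := by
      by_contra hcon
      push Not at hcon
      obtain ⟨m, hm⟩ := Cfsg.Agent.Lib.CharOps.exists_nat_classInner hchar
        (Cfsg.Agent.Lib.CharOps.IsIrrCharacter.isCharacter' (Cfsg.Agent.Lib.CoherenceFrob.oneIrr (P : Subgroup G)).2)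
      rw [classInner] at hm
      have h1 : ∑ a : (P : Subgroup G), χ.1 a * (starRingEnd ℂ) ((Cfsg.Agent.Lib.CoherenceFrob.oneIrr (P : Subgroup G)).1 a) = p := by
        rw [Finset.sum_eq_single (1 : (P : Subgroup G))]
        · show χ.1 ((1 : (P : Subgroup G)) : G) * (starRingEnd ℂ) 1 = p
          simp [hdeg]
        · intro b _ hb
          rw [hcon b b.2 (fun h => hb (Subtype.ext h)), zero_mul]
        · intro h
          exact absurd (Finset.mem_univ _) h
      rw [h1] at hm
      have hPne : (Nat.card (P : Subgroup G) : ℂ) ≠ 0 := by exact_mod_cast hPpos.ne'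
      have h2 : (p : ℂ) = (m : ℂ) * (Nat.card (P : Subgroup G) : ℂ) := by
        field_simp at hm
        linear_combination hm
      have h3 : p = m * Nat.card (P : Subgroup G) := by exact_mod_cast h2
      have h4 : p ^ 2 ≤ Nat.card (P : Subgroup G) := Nat.le_of_dvd hPpos hPcard
      have hp2 := hp.two_le
      rcases Nat.eq_zero_or_pos m with hm0 | hm0
      · rw [hm0, zero_mul] at h3
        omega
      · have h5 : Nat.card (P : Subgroup G) ≤ p :=
          le_of_le_of_eq (Nat.le_mul_of_pos_left _ hm0) h3.symm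
        nlinarith
    have hle : (P : Subgroup G) ≤ Subgroup.centralizer ({x} : Set G) := by
      intro a ha
      rw [Subgroup.mem_centralizer_singleton_iff]
      exact hab a ha x hx
    have hcop : Nat.Coprime (Module.finrank ℂ (Fin n → ℂ)) (Subgroup.centralizer ({x} : Set G)).index := by
      rw [hfr', Nat.Prime.coprime_iff_not_dvd hp]
      intro h
      exact P.not_dvd_index (h.trans (Subgroup.index_dvd_of_le hle))
    rcases Cfsg.Agent.Lib.CharInt.character_zero_or_norm ρ hρ x hcop with h | h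
    · rw [hχ] at h
      exact absurd h hx0
    · rw [hχ, hfr'] at h
      exact hcentral x h hx1
  · -- non-abelian Sylow
    have hex : ∃ θ : IrrCharacter (P : Subgroup G), classInner (fun h : (P : Subgroup G) => χ.1 h) θ.1 ≠ 0 ∧ θ.1 1 ≠ 1 := by
      by_contra hcon
      push Not at hcon
      apply hab
      intro a ha b hb
      let a' : (P : Subgroup G) := ⟨a, ha⟩
      let b' : (P : Subgroup G) := ⟨b, hb⟩
      let y : (P : Subgroup G) := a' * b' * a'⁻¹ * b'⁻¹
      have hexp := Cfsg.Agent.Lib.CharIrr.classFunction_expand (IsCharacter.isClassFunction' hchar)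
      have h1 := congrFun hexp y
      have h2 := congrFun hexp 1
      simp only [Finset.sum_apply, Pi.smul_apply, smul_eq_mul] at h1 h2
      have h3 : ∀ θ : IrrCharacter (P : Subgroup G), classInner (fun h : (P : Subgroup G) => χ.1 h) θ.1 * θ.1 y =
          classInner (fun h : (P : Subgroup G) => χ.1 h) θ.1 * θ.1 1 := by
        intro θ
        by_cases h0 : classInner (fun h : (P : Subgroup G) => χ.1 h) θ.1 = 0
        · rw [h0, zero_mul, zero_mul]
        · have h5 := hcon θ h0
          have hmul := Cfsg.Agent.Lib.CharAb.degree_one_mul (IsIrrCharacter.isCharacter' θ.2) h5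
          have h6 : θ.1 y = θ.1 1 := by
            have e1 : θ.1 y = θ.1 a' * θ.1 b' * θ.1 a'⁻¹ * θ.1 b'⁻¹ := by
              simp only [y, hmul]
            have e2 : θ.1 a' * θ.1 a'⁻¹ = 1 := by
              rw [← hmul, mul_inv_cancel, h5]
            have e3 : θ.1 b' * θ.1 b'⁻¹ = 1 := by
              rw [← hmul, mul_inv_cancel, h5]
            rw [e1, h5]
            linear_combination (θ.1 b' * θ.1 b'⁻¹) * e2 + e3
          rw [h6]
      simp only [h3] at h1
      rw [← h2] at h1
      have h4 : χ.1 (y : G) = χ.1 1 := by simpa using h1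
      have h5 := hfaith _ h4
      have h6 : a * b * a⁻¹ * b⁻¹ = 1 := h5
      have h7 : a * b * a⁻¹ = b := by
        rw [mul_inv_eq_one] at h6
        exact h6
      rw [mul_inv_eq_iff_eq_mul] at h7
      exact h7
    obtain ⟨θ, hθ, hθ1⟩ := hex
    obtain ⟨t, ht0, ht⟩ := Cfsg.Agent.Lib.CharOps.exists_degree_pos θ.2
    have hdegP : (fun h : (P : Subgroup G) => χ.1 h) 1 = (p : ℂ) := by simpa using hdeg
    have htle := Cfsg.Agent.Lib.CharAb.degree_le_of_inner hchar θ.2 hθ p t hdegP ht
    have htd : t ∣ Nat.card (P : Subgroup G) := by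
      have h1 := Cfsg.Agent.Lib.H7Char.deg_dvd_card θ
      have h2 : (Cfsg.Agent.Lib.CharAb.deg θ : ℂ) = t := by
        rw [← Cfsg.Agent.Lib.CharAb.apply_one_eq_deg, ht]
      have h3 : Cfsg.Agent.Lib.CharAb.deg θ = t := by exact_mod_cast h2
      rwa [h3] at h1
    obtain ⟨k, hk⟩ := IsPGroup.iff_card.1 P.isPGroup'
    rw [hk] at htd
    obtain ⟨j, hj, rfl⟩ := (Nat.dvd_prime_pow hp).1 htd
    have hjne : j ≠ 0 := by
      rintro rfl
      apply hθ1
      rw [ht]
      simp
    have htp : p ^ j = p := by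
      have h1 : p ^ 1 ≤ p ^ j := Nat.pow_le_pow_right hp.pos (Nat.one_le_iff_ne_zero.2 hjne)
      rw [pow_one] at h1
      omega
    rw [htp] at ht
    obtain ⟨m, hm⟩ := Cfsg.Agent.Lib.CharOps.exists_nat_classInner hchar (IsIrrCharacter.isCharacter' θ.2)
    have hsub := Cfsg.Agent.Lib.CharAb.sub_isCharacter hchar θ.2 m hm
    obtain ⟨r, hr⟩ := Cfsg.Agent.Lib.CharOps.exists_degree hsub
    have hr' : (p : ℂ) - (m : ℂ) * p = r := by
      have := hr
      simp only [Pi.sub_apply, Pi.smul_apply, smul_eq_mul, ht] at this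
      simpa [hdeg] using this
    have hm0 : m ≠ 0 := by
      rintro rfl
      apply hθ
      rw [hm]
      simp
    have hr1 : (p : ℤ) - m * p = r := by
      exact_mod_cast hr'
    have hm1 : m = 1 := by
      have hrnn : (0 : ℤ) ≤ r := by positivity
      have hmpos : 1 ≤ m := Nat.one_le_iff_ne_zero.2 hm0
      by_contra hmne
      have : 2 ≤ m := by omega
      have hp0 : (0 : ℤ) < p := by exact_mod_cast hp.pos
      have hm2 : (2 : ℤ) ≤ m := by exact_mod_cast this
      nlinarith
    subst hm1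
    have hr2 : r = 0 := by
      have : (r : ℤ) = 0 := by
        rw [← hr1]
        ring
      exact_mod_cast this
    subst hr2
    have hzero : ((fun h : (P : Subgroup G) => χ.1 h) - ((1 : ℕ) : ℂ) • θ.1) = 0 := by
      obtain ⟨n', ρ', hρ'⟩ := hsub
      funext h
      have h1 := Cfsg.Agent.Lib.CharCore.norm_character_le ρ' h
      have h2 : (Module.finrank ℂ (Fin n' → ℂ) : ℂ) = 0 := by
        have h3 := Representation.char_one ρ'
        rw [hρ'] at h3
        rw [← h3]
        exact_mod_cast hr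
      have h4 : Module.finrank ℂ (Fin n' → ℂ) = 0 := by exact_mod_cast h2
      rw [h4] at h1
      simp only [Nat.cast_zero, hρ'] at h1
      exact norm_le_zero_iff.1 h1
    have heq : ∀ h : (P : Subgroup G), χ.1 h = θ.1 h := by
      intro h
      have := congrFun hzero h
      simp only [Pi.sub_apply, Pi.smul_apply, Nat.cast_one, one_smul, Pi.zero_apply] at this
      exact sub_eq_zero.1 this
    -- a central element of `P`
    obtain ⟨x, hx⟩ : ∃ x : (P : Subgroup G), x ∈ Subgroup.center (P : Subgroup G) ∧ x ≠ 1 := by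
      haveI : Nontrivial (P : Subgroup G) := by
        apply Finite.one_lt_card_iff_nontrivial.1
        have h1 : p ^ 2 ≤ Nat.card (P : Subgroup G) := Nat.le_of_dvd hPpos hPcard
        have hp2 := hp.two_le
        nlinarith
      haveI := P.isPGroup'.center_nontrivial
      obtain ⟨z, hz⟩ := exists_ne (1 : Subgroup.center (P : Subgroup G))
      exact ⟨z, z.2, fun h => hz (Subtype.ext h)⟩
    obtain ⟨ω, hω⟩ := Cfsg.Agent.Lib.CoherenceCent.exists_central_hom (Subgroup.center (P : Subgroup G))
      (fun z hz k => (Subgroup.mem_center_iff.1 hz k).symm) θ.2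
    have h1 := hω ⟨x, hx.1⟩
    have hnorm : ‖((ω ⟨x, hx.1⟩ : ℂˣ) : ℂ)‖ = 1 := by
      have h2 : ((ω ⟨x, hx.1⟩ : ℂˣ) : ℂ) ^ (Nat.card (Subgroup.center (P : Subgroup G))) = 1 := by
        rw [← Units.val_pow_eq_pow_val, ← map_pow, pow_card_eq_one']
        simp
      exact Complex.norm_eq_one_of_pow_eq_one h2 Nat.card_pos.ne'
    apply hcentral (x : G) _ (fun h => hx.2 (Subtype.ext h))
    rw [heq x, show θ.1 x = ((ω ⟨x, hx.1⟩ : ℂˣ) : ℂ) * θ.1 1 from h1, norm_mul, hnorm, one_mul, ht]
    simp

end Cfsg.Agent.S3968
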