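import Cfsg.Statements.S3970
import Cfsg.Agent.Lib.SylowCount
import Cfsg.Agent.Lib.PNilpB
import Cfsg.Agent.Lib.H6PGroup
import Cfsg.Agent.S0988
-- import your own Cfsg.Agent.* helpers here

set_option autoImplicit false
set_option linter.all false
open Cfsg

namespace Cfsg.Agent.S3970

universe u

/-- A coprime automorphism of a finite abelian `p`-group which is trivial on the Frattini quotient is trivial. -/
theorem aut_trivial_of_frattini {P : Type*} [Group P] [Finite P] {p r : ℕ} [hpf : Fact p.Prime]
    (hP : IsPGroup p P) (hc : ∀ a b : P, a * b = b * a) (hr : r.Coprime p)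
    (φ : MulAut P) (hφ : φ ^ r = 1) (hF : ∀ x : P, φ x * x⁻¹ ∈ frattini P) (x : P) : φ x = x := by
  classical
  let C : Subgroup P := (φ : P →* P).eqLocus (MonoidHom.id P)
  have hall : ∀ x : P, x ∈ C ⊔ frattini P := by
    intro x
    let T : ℕ → P := fun n => Nat.rec 1 (fun k v => v * (φ ^ k) x) n
    have hT0 : T 0 = 1 := rfl
    have hTs : ∀ k, T (k + 1) = T k * (φ ^ k) x := fun k => rfl
    have hfr : ∀ (k : ℕ) (z : P), (φ ^ k) z * z⁻¹ ∈ frattini P := by
      intro k z
      induction k with
      | zero => simp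
      | succ k ih =>
        have h1 := hF ((φ ^ k) z)
        have h2 : (φ ^ (k + 1)) z = φ ((φ ^ k) z) := by
          rw [pow_succ']
          rfl
        rw [h2]
        have h3 := Subgroup.mul_mem _ h1 ih
        have h4 : φ ((φ ^ k) z) * ((φ ^ k) z)⁻¹ * ((φ ^ k) z * z⁻¹) = φ ((φ ^ k) z) * z⁻¹ := by group
        rwa [h4] at h3
    have hTF : ∀ k, ∃ t ∈ frattini P, T k = x ^ k * t := by
      intro k
      induction k with
      | zero => exact ⟨1, Subgroup.one_mem _, by simp [hT0]⟩
      | succ k ih =>
        obtain ⟨t, ht, hTk⟩ := ih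
        refine ⟨t * ((φ ^ k) x * x⁻¹), Subgroup.mul_mem _ ht (hfr k x), ?_⟩
        rw [hTs, hTk, pow_succ]
        have h5 : (φ ^ k) x = x * ((φ ^ k) x * x⁻¹) := by
          rw [hc x]
          group
        generalize (φ ^ k) x * x⁻¹ = w at h5 ⊢
        rw [h5, hc x w]
        have h6 : t * w = w * t := hc t w
        calc x ^ k * t * (w * x) = x ^ k * (t * w) * x := by group
          _ = x ^ k * (w * t) * x := by rw [h6]
          _ = x ^ k * w * (t * x) := by group
          _ = x ^ k * w * (x * t) := by rw [hc t x]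
          _ = x ^ k * (w * x) * t := by group
          _ = x ^ k * (x * w) * t := by rw [hc w x]
          _ = x ^ k * x * (t * w) * t⁻¹ * t := by
              rw [h6]
              group
          _ = x ^ k * x * (t * w) := by group
    have hφT : ∀ k, φ (T k) * x = T (k + 1) := by
      intro k
      induction k with
      | zero => simp [hTs, hT0]
      | succ k ih =>
        rw [hTs k] at ih ⊢
        rw [hTs (k + 1), hTs k, map_mul]
        have h7 : φ ((φ ^ k) x) = (φ ^ (k + 1)) x := by
          rw [pow_succ']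
          rfl
        rw [h7]
        generalize (φ ^ (k + 1)) x = y
        calc φ (T k) * y * x = φ (T k) * (y * x) := mul_assoc _ _ _
          _ = φ (T k) * (x * y) := by rw [hc y x]
          _ = φ (T k) * x * y := (mul_assoc _ _ _).symm
          _ = T k * (φ ^ k) x * y := by rw [ih]
    have hTC : T r ∈ C := by
      have h8 := hφT r
      rw [hTs, hφ] at h8
      have h9 : φ (T r) = T r := mul_right_cancel h8
      exact h9
    obtain ⟨t, ht, hTr⟩ := hTF r
    have hxr : x ^ r ∈ C ⊔ frattini P := by
      have h10 : x ^ r = T r * t⁻¹ := by rw [hTr]; group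
      rw [h10]
      exact Subgroup.mul_mem _ (Subgroup.mem_sup_left hTC) (Subgroup.mem_sup_right (Subgroup.inv_mem _ ht))
    obtain ⟨j, hj⟩ := IsPGroup.iff_orderOf.1 hP x
    have hcop : r.Coprime (orderOf x) := by
      rw [hj]
      exact Nat.Coprime.pow_right j hr
    obtain ⟨s, hs⟩ := exists_pow_eq_self_of_coprime hcop
    rw [← hs]
    exact Subgroup.pow_mem _ hxr s
  have htop : C = ⊤ := frattini_nongenerating (eq_top_iff.2 fun z _ => hall z)
  have : x ∈ C := by
    rw [htop]
    trivial
  exact this

/-- An automorphism of prime order `r > p` of a finite abelian `p`-group with at most two generators forces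
`p = 2`, `r = 3` and `4` dividing the order. -/
theorem aut_abelian_rank_two {P : Type*} [Group P] [Finite P] {p r : ℕ} [hpf : Fact p.Prime] [hrf : Fact r.Prime]
    (hP : IsPGroup p P) (hc : ∀ a b : P, a * b = b * a) (hrank : Group.rank P ≤ 2) (hpr : p < r)
    (φ : MulAut P) (hφ : orderOf φ = r) : p = 2 ∧ r = 3 ∧ 4 ∣ Nat.card P := by
  classical
  have hp : p.Prime := hpf.out
  have hr : r.Prime := hrf.out
  have hcop : r.Coprime p := (Nat.coprime_primes hr hp).2 hpr.ne'
  let F : Subgroup P := frattini P
  haveI hFn : F.Normal := inferInstanceAs (frattini P).Normal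
  have hmap : F.map φ.toMonoidHom = F := (Subgroup.characteristic_iff_map_eq.1 (frattini_characteristic (G := P))) φ
  let σ : (P ⧸ F) ≃* (P ⧸ F) := QuotientGroup.congr F F φ hmap
  have hσa : ∀ e : P, σ (e : P ⧸ F) = ((φ e : P) : P ⧸ F) := fun e => rfl
  have hσk : ∀ (k : ℕ) (e : P), (σ ^ k) (e : P ⧸ F) = (((φ ^ k) e : P) : P ⧸ F) := by
    intro k e
    induction k with
    | zero => rfl
    | succ k ih =>
      rw [pow_succ', MulAut.mul_apply, ih, pow_succ', MulAut.mul_apply]
      rfl
  have hφr : φ ^ r = 1 := by rw [← hφ]; exact pow_orderOf_eq_one φ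
  have hσr : σ ^ r = 1 := by
    ext e
    induction e using QuotientGroup.induction_on with
    | H e =>
      rw [hσk, hφr]
      rfl
  -- the order of the Frattini quotient
  have hcard : Nat.card (P ⧸ F) ∣ p ^ 2 := by
    letI := Cfsg.Agent.Lib.H6PGroup.frattiniCommGroup hP
    have h1 : ∀ g : P ⧸ F, g ^ p = 1 := by
      intro g
      induction g using QuotientGroup.induction_on with
      | H g =>
        rw [← QuotientGroup.mk_pow, QuotientGroup.eq_one_iff]
        exact Cfsg.Agent.Lib.H6PGroup.pow_mem_frattini hP g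
    have h2 := card_dvd_exponent_pow_rank' (G := P ⧸ F) h1
    have h3 : Group.rank (P ⧸ F) ≤ Group.rank P :=
      Group.rank_le_of_surjective (QuotientGroup.mk' F) (QuotientGroup.mk'_surjective F)
    exact h2.trans (pow_dvd_pow p (h3.trans hrank))
  have hdvdP : Nat.card (P ⧸ F) ∣ Nat.card P := Subgroup.card_quotient_dvd_card F
  by_cases hσ1 : σ = 1
  · exfalso
    have hF : ∀ x : P, φ x * x⁻¹ ∈ frattini P := by
      intro x
      have h1 : σ (x : P ⧸ F) = (x : P ⧸ F) := by
        rw [hσ1]
        rfl
      rw [hσa] at h1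
      rw [← QuotientGroup.eq_one_iff (N := F), QuotientGroup.mk_mul, QuotientGroup.mk_inv, h1]
      simp
    have h2 : φ = 1 := by
      ext x
      exact aut_trivial_of_frattini hP hc hcop φ hφr hF x
    rw [h2, orderOf_one] at hφ
    exact hr.one_lt.ne hφ
  · have hσord : orderOf σ = r := orderOf_eq_prime hσr hσ1
    obtain ⟨k, hk, hQ⟩ := (Nat.dvd_prime_pow hp).1 hcard
    have hk2 : k = 0 ∨ k = 1 ∨ k = 2 := by omega
    rcases hk2 with rfl | rfl | rfl
    · exfalso
      rw [pow_zero] at hQ
      haveI : Subsingleton (P ⧸ F) := (Nat.card_eq_one_iff_unique.1 hQ).1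
      apply hσ1
      ext e
      exact Subsingleton.elim _ _
    · exfalso
      rw [pow_one] at hQ
      have h1 : orderOf σ.toEquiv = r := by
        have h2 : orderOf σ.toEquiv = orderOf σ := by
          have h3 : Function.Injective (MulAut.toPerm (P ⧸ F)) := fun a b h => by
            ext e
            exact congrArg (fun f : Equiv.Perm (P ⧸ F) => f e) h
          exact orderOf_injective (MulAut.toPerm (P ⧸ F)) h3 σ
        rw [h2, hσord]
      have h2 : orderOf σ.toEquiv ∣ Nat.card (Equiv.Perm (P ⧸ F)) := orderOf_dvd_natCard _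
      rw [Nat.card_perm, hQ, h1] at h2
      have h3 := (Nat.Prime.dvd_factorial hr).1 h2
      omega
    · have h1 := Cfsg.Agent.S0988.aut_order hp hQ hpr σ hσord
      have hp2 : p = 2 := by
        rcases hp.eq_two_or_odd' with h | h
        · exact h
        · have h3 : Even r := by
            rw [h1]
            exact h.add_one
          have := (hr.even_iff).1 h3
          have h4 := hp.two_le
          omega
      refine ⟨hp2, by omega, ?_⟩
      rw [hQ, hp2] at hdvdP
      simpa using hdvdP

theorem main_aux : ∀ (k : ℕ) (G : Type u) [Group G] [Finite G], Nat.card G = k →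
    (∀ p : ℕ, p.Prime → p ∣ Nat.card G → (∃ q : ℕ, q.Prime ∧ q ∣ Nat.card G ∧ p < q) →
      ∀ P : Sylow p G, IsMulCommutative (P : Subgroup G) ∧ Group.rank (P : Subgroup G) ≤ 2) →
    ¬ 12 ∣ Nat.card G → Group.IsSolvable G := by
  intro k
  induction k using Nat.strong_induction_on with
  | _ k IH =>
  intro G _ _ hk h h12
  classical
  by_cases hk1 : Nat.card G = 1
  · haveI : Subsingleton G := (Nat.card_eq_one_iff_unique.1 hk1).1
    infer_instance
  obtain ⟨p, hp, hpd, hmin⟩ : ∃ p : ℕ, p.Prime ∧ p ∣ Nat.card G ∧ ∀ r : ℕ, r.Prime → r ∣ Nat.card G → p ≤ r :=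
    ⟨_, Nat.minFac_prime hk1, Nat.minFac_dvd _, fun r hr hd => Nat.minFac_le_of_dvd hr.two_le hd⟩
  haveI hpf : Fact p.Prime := ⟨hp⟩
  by_cases hq : ∃ q : ℕ, q.Prime ∧ q ∣ Nat.card G ∧ p < q
  swap
  · have hGp : IsPGroup p G := by
      refine IsPGroup.of_card (n := (Nat.card G).primeFactorsList.length) ?_
      refine Nat.eq_prime_pow_of_unique_prime_dvd Nat.card_pos.ne' fun {d} hd hdd => ?_
      by_contra hne
      exact hq ⟨d, hd, hdd, lt_of_le_of_ne (hmin d hd hdd) (Ne.symm hne)⟩
    haveI := hGp.isNilpotent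
    infer_instance
  obtain ⟨P⟩ : Nonempty (Sylow p G) := inferInstance
  obtain ⟨hcP, hrP⟩ := h p hp hpd hq P
  have hcomm : ∀ a b : (P : Subgroup G), a * b = b * a := fun a b => hcP.is_comm.comm a b
  have hnc : Subgroup.normalizer ((P : Subgroup G) : Set G) ≤ Subgroup.centralizer ((P : Subgroup G) : Set G) := by
    by_contra hnot
    let f := (P : Subgroup G).normalizerMonoidHom
    have hker := Subgroup.normalizerMonoidHom_ker (P : Subgroup G)
    have hrange : Nat.card f.range ≠ 1 := by
      intro h1
      apply hnot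
      intro y hy
      haveI hsub : Subsingleton f.range := (Nat.card_eq_one_iff_unique.1 h1).1
      have h2 : f ⟨y, hy⟩ = 1 := congrArg Subtype.val (Subsingleton.elim (⟨f ⟨y, hy⟩, ⟨_, rfl⟩⟩ : f.range) 1)
      have h3 : (⟨y, hy⟩ : Subgroup.normalizer ((P : Subgroup G) : Set G)) ∈ f.ker := h2
      rw [hker] at h3
      exact h3
    obtain ⟨r, hr, hrd⟩ := Nat.exists_prime_and_dvd hrange
    haveI hrf : Fact r.Prime := ⟨hr⟩
    have hidx : Nat.card f.range = f.ker.index := (Subgroup.index_ker f).symm
    have hN : Nat.card f.ker * f.ker.index = Nat.card (Subgroup.normalizer ((P : Subgroup G) : Set G)) :=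
      f.ker.card_mul_index
    have hNG : Nat.card (Subgroup.normalizer ((P : Subgroup G) : Set G)) ∣ Nat.card G :=
      Subgroup.card_subgroup_dvd_card _
    have hrG : r ∣ Nat.card G := by
      refine (hrd.trans ?_).trans hNG
      rw [hidx, ← hN]
      exact Dvd.intro_left _ rfl
    have hPker : Nat.card (P : Subgroup G) ∣ Nat.card f.ker := by
      have hle : (P : Subgroup G).subgroupOf (Subgroup.normalizer ((P : Subgroup G) : Set G)) ≤ f.ker := by
        rw [hker]
        intro z hz
        have hz' : (z : G) ∈ (P : Subgroup G) := hz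
        show (z : G) ∈ Subgroup.centralizer ((P : Subgroup G) : Set G)
        rw [Subgroup.mem_centralizer_iff]
        intro a ha
        exact congrArg Subtype.val (hcomm ⟨a, ha⟩ ⟨z, hz'⟩)
      have h3 := Subgroup.card_dvd_of_le hle
      rwa [Nat.card_congr (Subgroup.subgroupOfEquivOfLe (Subgroup.le_normalizer)).toEquiv] at h3
    have hpr : p ≠ r := by
      intro heq
      subst heq
      have h4 : p * Nat.card (P : Subgroup G) ∣ Nat.card G := by
        refine Dvd.dvd.trans ?_ hNG
        rw [← hN, mul_comm]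
        exact mul_dvd_mul hPker (hidx ▸ hrd)
      have h5 := (P : Subgroup G).card_mul_index
      rw [← h5, mul_comm] at h4
      exact P.not_dvd_index (Nat.dvd_of_mul_dvd_mul_left Nat.card_pos h4)
    have hplt : p < r := lt_of_le_of_ne (hmin r hr hrG) hpr
    obtain ⟨φ, hφ⟩ := exists_prime_orderOf_dvd_card' r hrd
    have hφ' : orderOf (φ : MulAut (P : Subgroup G)) = r := by
      rw [Subgroup.orderOf_coe]
      exact hφ
    obtain ⟨h2, h3, h4⟩ := aut_abelian_rank_two P.isPGroup' hcomm hrP hplt φ.1 hφ'
    apply h12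
    have h5 : 4 ∣ Nat.card G := h4.trans (Subgroup.card_subgroup_dvd_card _)
    have h6 : 3 ∣ Nat.card G := h3 ▸ hrG
    have : (12 : ℕ) = 4 * 3 := by norm_num
    rw [this]
    exact Nat.Coprime.mul_dvd_of_dvd_of_dvd (by norm_num) h5 h6
  obtain ⟨P', N, hNn, hc⟩ := Cfsg.Agent.Lib.PNilpB.npc_of_normalizer_le P hnc
  have hNcard : Nat.card N = (P' : Subgroup G).index := hc.index_eq_card.symm
  have hNidx : N.index = Nat.card (P' : Subgroup G) := hc.symm.index_eq_card
  have hpN : ¬ p ∣ Nat.card N := by
    rw [hNcard]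
    exact P'.not_dvd_index
  have hNdvd : Nat.card N ∣ Nat.card G := Subgroup.card_subgroup_dvd_card N
  have hNlt : Nat.card N < k := by
    rw [← hk]
    refine lt_of_le_of_ne (Nat.le_of_dvd Nat.card_pos hNdvd) fun heq => ?_
    rw [heq] at hpN
    exact hpN hpd
  have hsolvN : Group.IsSolvable N := by
    refine IH _ hNlt N rfl ?_ (fun h' => h12 (h'.trans hNdvd))
    intro t ht htd hu S
    obtain ⟨u, hu1, hu2, hu3⟩ := hu
    have htG := htd.trans hNdvd
    have htp : t ≠ p := by
      rintro rfl
      exact hpN htd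
    haveI htf : Fact t.Prime := ⟨ht⟩
    let S' : Subgroup G := (S : Subgroup N).map N.subtype
    have hS'p : IsPGroup t S' := S.isPGroup'.map _
    have hS'idx : ¬ t ∣ S'.index := by
      have h1 : S'.index = (S : Subgroup N).index * N.index := Subgroup.index_map_subtype _
      rw [h1, hNidx]
      intro h2
      rcases (Nat.Prime.dvd_mul ht).1 h2 with h3 | h3
      · exact S.not_dvd_index h3
      · obtain ⟨j, hj⟩ := IsPGroup.iff_card.1 P'.isPGroup'
        rw [hj] at h3
        exact htp ((Nat.prime_dvd_prime_iff_eq ht hp).1 (ht.dvd_of_dvd_pow h3))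
    let T : Sylow t G := hS'p.toSylow hS'idx
    obtain ⟨hT1, hT2⟩ := h t ht htG ⟨u, hu1, hu2.trans hNdvd, hu3⟩ T
    have hTe : (T : Subgroup G) = S' := rfl
    let e : (S : Subgroup N) ≃* S' := (S : Subgroup N).equivMapOfInjective N.subtype N.subtype_injective
    constructor
    · refine ⟨⟨fun a b => ?_⟩⟩
      have h1 : e a * e b = e b * e a := hT1.is_comm.comm (e a) (e b)
      apply e.injective
      rw [map_mul, map_mul, h1]
    · have h1 : Group.rank (S : Subgroup N) = Group.rank S' := Group.rank_congr e
      rw [h1]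
      exact hT2
  have hsolvQ : Group.IsSolvable (G ⧸ N) := by
    haveI : Group.IsSolvable (P' : Subgroup G) := by
      haveI := P'.isPGroup'.isNilpotent
      infer_instance
    refine solvable_of_surjective (f := (QuotientGroup.mk' N).comp (P' : Subgroup G).subtype) ?_
    intro q
    induction q using QuotientGroup.induction_on with
    | H g =>
      obtain ⟨⟨b, a⟩, hab, -⟩ := hc.existsUnique g
      refine ⟨a, ?_⟩
      show ((a : G) : G ⧸ N) = (g : G ⧸ N)
      have hab' : (b : G) * (a : G) = g := hab
      rw [← hab', QuotientGroup.mk_mul, (QuotientGroup.eq_one_iff (b : G)).2 b.2, one_mul]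
  haveI := hsolvN
  exact solvable_of_ker_le_range N.subtype (QuotientGroup.mk' N) (by
    rw [QuotientGroup.ker_mk', Subgroup.range_subtype])


/-- Let `G` be a finite group such that for every prime `p` dividing its order, other than the largest such prime, the Sylow `p`-subgroups are abelian and generated by at most two elements, and suppose `12` does not divide the order of `G`. Then `G` is solvable. In particular a group of cube-free order not divisible by `12` is solvable. -/
theorem result {G : Type*} [Group G] [Finite G] (h : ∀ p : ℕ, p.Prime → p ∣ Nat.card G → (∃ q : ℕ, q.Prime ∧ q ∣ Nat.card G ∧ p < q) → ∀ P : Sylow p G, IsMulCommutative (P : Subgroup G) ∧ Group.rank (P : Subgroup G) ≤ 2) (h12 : ¬ 12 ∣ Nat.card G) : Group.IsSolvable G := by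
  exact main_aux _ G rfl h h12

end Cfsg.Agent.S3970
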