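import Cfsg.Statements.S3971
import Cfsg.Agent.Lib.SylowCount
import Cfsg.Agent.Lib.PNilpB
import Cfsg.Agent.Lib.H6PGroup
-- import your own Cfsg.Agent.* helpers here

set_option autoImplicit false
set_option linter.all false
open Cfsg

namespace Cfsg.Agent.S3971

/-- The subgroup generated by the squares. -/
def sq (Q : Type*) [Group Q] : Subgroup Q := Subgroup.closure {z | ∃ e : Q, z = e * e}

theorem sq_invariant {Q : Type*} [Group Q] (ψ : MulAut Q) {x : Q} (hx : x ∈ sq Q) : ψ x ∈ sq Q := by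
  induction hx using Subgroup.closure_induction with
  | mem x hx =>
    obtain ⟨e, rfl⟩ := hx
    exact Subgroup.subset_closure ⟨ψ e, map_mul ψ e e⟩
  | one => rw [map_one]; exact Subgroup.one_mem _
  | mul a b _ _ ha hb => rw [map_mul]; exact Subgroup.mul_mem _ ha hb
  | inv a _ ha => rw [map_inv]; exact Subgroup.inv_mem _ ha

theorem sq_normal (Q : Type*) [Group Q] : (sq Q).Normal :=
  ⟨fun x hx g => sq_invariant (MulAut.conj g) hx⟩

theorem mk_sq_mul_self {Q : Type*} [Group Q] [hn : (sq Q).Normal] (e : Q ⧸ sq Q) : e * e = 1 := by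
  induction e using QuotientGroup.induction_on with
  | H e =>
    rw [← QuotientGroup.mk_mul, QuotientGroup.eq_one_iff]
    exact Subgroup.subset_closure ⟨e, rfl⟩

theorem sq_ne_top {Q : Type*} [Group Q] [Finite Q] (hQ : IsPGroup 2 Q) [Nontrivial Q] : sq Q ≠ ⊤ := by
  haveI : Fact (Nat.Prime 2) := ⟨Nat.prime_two⟩
  intro h
  have hle : sq Q ≤ frattini Q := by
    refine (Subgroup.closure_le _).2 ?_
    rintro _ ⟨e, rfl⟩
    have := Cfsg.Agent.Lib.H6PGroup.pow_mem_frattini hQ e
    rwa [pow_two] at this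
  rw [h, top_le_iff] at hle
  have h1 : (⊥ : Subgroup Q) ⊔ frattini Q = ⊤ := by rw [bot_sup_eq, hle]
  have h2 := frattini_nongenerating h1
  exact bot_ne_top h2

theorem perm_trivial {X : Type*} [Finite X] (hX : Nat.card X ≤ 4) (σ : Equiv.Perm X) {m : ℕ}
    (hm : σ ^ m = 1) (hcop : Nat.Coprime m 6) : σ = 1 := by
  have h1 : orderOf σ ∣ m := orderOf_dvd_of_pow_eq_one hm
  have h2 : orderOf σ ∣ (Nat.card X).factorial := by
    have := orderOf_dvd_natCard σ
    rwa [Nat.card_perm] at this
  have h3 : orderOf σ ∣ 24 := h2.trans (by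
    have := Nat.factorial_dvd_factorial hX
    simpa [Nat.factorial] using this)
  have h4 : Nat.Coprime m 24 := by
    have h5 : (24 : ℕ) = 6 * 4 := by norm_num
    have h6 : Nat.Coprime m 2 := Nat.Coprime.coprime_dvd_right (by norm_num) hcop
    rw [h5]
    exact Nat.Coprime.mul_right hcop (by
      have : (4 : ℕ) = 2 ^ 2 := by norm_num
      rw [this]
      exact Nat.Coprime.pow_right 2 h6)
  have h5 : orderOf σ = 1 := Nat.eq_one_of_dvd_coprimes h4 h1 h3
  exact orderOf_eq_one_iff.1 h5

/-- An automorphism of order prime to `6` of a `2`-group covered by two cosets of a cyclic subgroup is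
trivial modulo the squares. -/
theorem aut_mod_sq {Q : Type*} [Group Q] [Finite Q] (c d : Q)
    (hcov : ∀ e : Q, (∃ i : ℤ, e = c ^ i) ∨ ∃ i : ℤ, e = c ^ i * d) (φ : MulAut Q) {m : ℕ}
    (hm : φ ^ m = 1) (hcop : Nat.Coprime m 6) (x : Q) : φ x * x⁻¹ ∈ sq Q := by
  classical
  haveI hn : (sq Q).Normal := sq_normal Q
  have hmap : (sq Q).map φ.toMonoidHom = sq Q := by
    apply le_antisymm
    · rintro _ ⟨a, ha, rfl⟩
      exact sq_invariant φ ha
    · intro a ha
      refine ⟨φ⁻¹ a, sq_invariant φ⁻¹ ha, ?_⟩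
      simp
  let σ : (Q ⧸ sq Q) ≃* (Q ⧸ sq Q) := QuotientGroup.congr (sq Q) (sq Q) φ hmap
  have hσ : ∀ (k : ℕ) (e : Q), (σ.toEquiv ^ k) (e : Q ⧸ sq Q) = (((φ ^ k) e : Q) : Q ⧸ sq Q) := by
    intro k e
    induction k with
    | zero => rfl
    | succ k ih =>
      rw [pow_succ', Equiv.Perm.mul_apply, ih, pow_succ', MulAut.mul_apply]
      rfl
  have hcard : Nat.card (Q ⧸ sq Q) ≤ 4 := by
    letI : Fintype (Q ⧸ sq Q) := Fintype.ofFinite _
    rw [Nat.card_eq_fintype_card]
    let c' : Q ⧸ sq Q := c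
    let d' : Q ⧸ sq Q := d
    have hc2 : ∀ i : ℤ, c' ^ i = 1 ∨ c' ^ i = c' := by
      intro i
      obtain ⟨k, hk | hk⟩ := Int.even_or_odd' i
      · left
        rw [hk, zpow_mul, zpow_ofNat, pow_two, mk_sq_mul_self, one_zpow]
      · right
        rw [hk, zpow_add, zpow_mul, zpow_ofNat, pow_two, mk_sq_mul_self, one_zpow, one_mul, zpow_one]
    have hall : ∀ e : Q ⧸ sq Q, e ∈ ({1, c', d', c' * d'} : Finset (Q ⧸ sq Q)) := by
      intro e
      induction e using QuotientGroup.induction_on with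
      | H e =>
        simp only [Finset.mem_insert, Finset.mem_singleton]
        rcases hcov e with ⟨i, rfl⟩ | ⟨i, rfl⟩
        · rw [QuotientGroup.mk_zpow]
          rcases hc2 i with h | h
          · exact Or.inl h
          · exact Or.inr (Or.inl h)
        · rw [QuotientGroup.mk_mul, QuotientGroup.mk_zpow]
          rcases hc2 i with h | h
          · right; right; left
            show c' ^ i * d' = d'
            rw [h, one_mul]
          · right; right; right
            show c' ^ i * d' = c' * d'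
            rw [h]
    calc Fintype.card (Q ⧸ sq Q) = (Finset.univ : Finset (Q ⧸ sq Q)).card := rfl
      _ ≤ ({1, c', d', c' * d'} : Finset (Q ⧸ sq Q)).card := Finset.card_le_card fun e _ => hall e
      _ ≤ 4 := Finset.card_le_four
  have hone : σ.toEquiv ^ m = 1 := by
    ext e
    induction e using QuotientGroup.induction_on with
    | H e =>
      rw [hσ, hm]
      rfl
  have h1 := perm_trivial hcard σ.toEquiv hone hcop
  have h2 := hσ 1 x
  simp only [pow_one] at h2
  rw [h1, Equiv.Perm.one_apply] at h2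
  have h3 : ((φ x * x⁻¹ : Q) : Q ⧸ sq Q) = 1 := by
    rw [QuotientGroup.mk_mul, QuotientGroup.mk_inv, ← h2]
    simp
  exact (QuotientGroup.eq_one_iff _).1 h3

/-- Elements of order prime to `6` centralize `2`-subgroups which are covered by two cosets of a cyclic group. -/
theorem fix_all {G : Type*} [Group G] [Finite G] (y : G) (hy6 : Nat.Coprime (orderOf y) 6)
    (hcov : ∀ Q : Subgroup G, IsPGroup 2 Q → ∃ c ∈ Q, ∃ d ∈ Q, ∀ e ∈ Q,
      (∃ i : ℤ, e = c ^ i) ∨ ∃ i : ℤ, e = c ^ i * d) :
    ∀ (k : ℕ) (Q : Subgroup G), Nat.card Q = k → IsPGroup 2 Q → y ∈ Subgroup.normalizer (Q : Set G) →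
      y ∈ Subgroup.centralizer (Q : Set G) := by
  intro k
  induction k using Nat.strong_induction_on with
  | _ k IH =>
    intro Q hk hQ hy
    by_cases htriv : Q = ⊥
    · subst htriv
      rw [Subgroup.mem_centralizer_iff]
      intro h hh
      have : h = 1 := by simpa using hh
      simp [this]
    haveI : Nontrivial Q := (Subgroup.nontrivial_iff_ne_bot Q).2 htriv
    obtain ⟨c, hc, d, hd, hcv⟩ := hcov Q hQ
    let f := Q.normalizerMonoidHom
    let y' : Subgroup.normalizer (Q : Set G) := ⟨y, hy⟩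
    let φ : MulAut Q := f y'
    have hφ : ∀ x : Q, ((φ x : Q) : G) = y * x * y⁻¹ := fun x => rfl
    have hφinv : ∀ x : Q, (((φ⁻¹) x : Q) : G) = y⁻¹ * x * y := by
      intro x
      have : φ⁻¹ = f y'⁻¹ := (map_inv f y').symm
      rw [this]
      show y⁻¹ * (x : G) * y⁻¹⁻¹ = _
      rw [inv_inv]
    have hm : φ ^ orderOf y = 1 := by
      show (f y') ^ orderOf y = 1
      rw [← map_pow]
      have : y' ^ orderOf y = 1 := Subtype.ext (pow_orderOf_eq_one y)
      rw [this, map_one]
    have hmod := aut_mod_sq (Q := Q) ⟨c, hc⟩ ⟨d, hd⟩ (fun e => by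
      rcases hcv e e.2 with ⟨i, hi⟩ | ⟨i, hi⟩
      · exact Or.inl ⟨i, Subtype.ext (by simpa using hi)⟩
      · exact Or.inr ⟨i, Subtype.ext (by simpa using hi)⟩) φ hm hy6
    let F : Subgroup G := (sq Q).map Q.subtype
    have hFQ : F ≤ Q := by
      rintro _ ⟨a, -, rfl⟩
      exact a.2
    have hFcard : Nat.card F = Nat.card (sq Q) :=
      (Nat.card_congr ((sq Q).equivMapOfInjective Q.subtype Q.subtype_injective).toEquiv).symm
    have hlt : Nat.card F < k := by
      rw [hFcard, ← hk]
      refine lt_of_le_of_ne (Subgroup.card_le_card_group _) fun h => ?_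
      exact sq_ne_top hQ (Subgroup.eq_top_of_card_eq _ h)
    have hFp : IsPGroup 2 F := hQ.to_le hFQ
    have hFn : y ∈ Subgroup.normalizer (F : Set G) := by
      rw [Subgroup.mem_normalizer_iff]
      intro z
      constructor
      · rintro ⟨a, ha, rfl⟩
        exact ⟨φ a, sq_invariant φ ha, hφ a⟩
      · rintro ⟨a, ha, hz⟩
        have hzQ : z = (((φ⁻¹) a : Q) : G) := by
          rw [hφinv]
          have hz' : (a : G) = y * z * y⁻¹ := hz
          rw [hz']
          group
        rw [hzQ]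
        exact ⟨φ⁻¹ a, sq_invariant φ⁻¹ ha, rfl⟩
    have hFc := IH _ hlt F rfl hFp hFn
    rw [Subgroup.mem_centralizer_iff]
    intro x hx
    have h1 := hmod ⟨x, hx⟩
    have h2 : y * x * y⁻¹ * x⁻¹ ∈ F := ⟨_, h1, rfl⟩
    set t := y * x * y⁻¹ * x⁻¹ with ht
    have hty : y * t = t * y := (Subgroup.mem_centralizer_iff.1 hFc t h2).symm
    have hyx : y * x * y⁻¹ = t * x := by rw [ht]; group
    have hpow : ∀ n : ℕ, y ^ n * x * (y ^ n)⁻¹ = t ^ n * x := by
      intro n
      induction n with
      | zero => simp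
      | succ n ih =>
        have hc : Commute y t := hty
        calc y ^ (n + 1) * x * (y ^ (n + 1))⁻¹ = y * (y ^ n * x * (y ^ n)⁻¹) * y⁻¹ := by
              rw [pow_succ']
              group
          _ = y * (t ^ n * x) * y⁻¹ := by rw [ih]
          _ = t ^ n * (y * x * y⁻¹) := by
              have h3 : y * t ^ n = t ^ n * y := (hc.pow_right n).eq
              calc y * (t ^ n * x) * y⁻¹ = (y * t ^ n) * x * y⁻¹ := by group
                _ = t ^ n * y * x * y⁻¹ := by rw [h3]
                _ = t ^ n * (y * x * y⁻¹) := by group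
          _ = t ^ (n + 1) * x := by rw [hyx, pow_succ]; group
    have h3 := hpow (orderOf y)
    rw [pow_orderOf_eq_one, one_mul, inv_one, mul_one] at h3
    have h4 : t ^ orderOf y = 1 := by
      have : t ^ orderOf y * x = 1 * x := by rw [← h3, one_mul]
      exact mul_right_cancel this
    have h5 : orderOf t ∣ orderOf y := orderOf_dvd_of_pow_eq_one h4
    have htQ : t ∈ Q := hFQ h2
    obtain ⟨j, hj⟩ := (IsPGroup.iff_orderOf.1 hQ) ⟨t, htQ⟩
    have hj' : orderOf t = 2 ^ j := by
      rw [← hj]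
      exact (Subgroup.orderOf_mk t htQ).symm
    have h6 : Nat.Coprime (orderOf y) 2 := Nat.Coprime.coprime_dvd_right (by norm_num) hy6
    have h7 : orderOf t = 1 := by
      have h8 : Nat.Coprime (orderOf t) (orderOf y) := by
        rw [hj']
        exact Nat.Coprime.pow_left j h6.symm
      exact Nat.eq_one_of_dvd_coprimes h8 dvd_rfl h5
    have h9 : t = 1 := orderOf_eq_one_iff.1 h7
    rw [ht] at h9
    have h10 : y * x * y⁻¹ = x := by
      rw [mul_inv_eq_one] at h9
      exact h9
    rw [mul_inv_eq_iff_eq_mul] at h10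
    exact h10.symm



/-- Let `G` be a finite group of order `2 ^ a * n` with `n` odd and not divisible by `3`, and suppose `G` has an element of order `2 ^ (a - 1)` (so a Sylow `2`-subgroup has a cyclic subgroup of index at most `2`). Then `G` has a normal subgroup of order `n`. -/
theorem result {G : Type*} [Group G] [Finite G] (a n : ℕ) (hG : Nat.card G = 2 ^ a * n) (hn : Odd n) (h3 : ¬ 3 ∣ n) (hx : ∃ x : G, orderOf x = 2 ^ (a - 1)) : ∃ N : Subgroup G, N.Normal ∧ Nat.card N = n := by
  classical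
  haveI hf2 : Fact (Nat.Prime 2) := ⟨Nat.prime_two⟩
  have hn2 : ¬ 2 ∣ n := by
    rw [← even_iff_two_dvd, Nat.not_even_iff_odd]
    exact hn
  obtain ⟨x, hx⟩ := hx
  have hcardS : ∀ S : Sylow 2 G, Nat.card (S : Subgroup G) = 2 ^ a := fun S =>
    Cfsg.Agent.Lib.SylowCount.card_sylow_of_factor S a n hG hn2
  have hxp : IsPGroup 2 (Subgroup.zpowers x) :=
    IsPGroup.iff_card.2 ⟨a - 1, by rw [Nat.card_zpowers, hx]⟩
  obtain ⟨T, hT⟩ := hxp.exists_le_sylow
  have hcov : ∀ Q : Subgroup G, IsPGroup 2 Q → ∃ c ∈ Q, ∃ d ∈ Q, ∀ e ∈ Q,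
      (∃ i : ℤ, e = c ^ i) ∨ ∃ i : ℤ, e = c ^ i * d := by
    intro Q hQ
    obtain ⟨S, hS⟩ := hQ.exists_le_sylow
    obtain ⟨g, hg⟩ := MulAction.exists_smul_eq G T S
    let x' : G := g * x * g⁻¹
    have hx'S : x' ∈ (S : Subgroup G) := by
      have h9 : x' ∈ g • T := by
        rw [Cfsg.Agent.Lib.SylowCount.mem_smul_sylow]
        have : g⁻¹ * x' * g = x := by
          show g⁻¹ * (g * x * g⁻¹) * g = x
          group
        rw [this]
        exact hT (Subgroup.mem_zpowers x)
      rw [hg] at h9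
      exact h9
    have hx'o : orderOf x' = 2 ^ (a - 1) := by
      have : x' = MulAut.conj g x := rfl
      rw [this, MulEquiv.orderOf_eq, hx]
    have hzS : Subgroup.zpowers x' ≤ (S : Subgroup G) := Subgroup.zpowers_le.2 hx'S
    have hr : (Subgroup.zpowers x').relIndex (S : Subgroup G) * 2 ^ (a - 1) = 2 ^ a := by
      have h10 := ((Subgroup.zpowers x').subgroupOf (S : Subgroup G)).card_mul_index
      have h11 : Nat.card ((Subgroup.zpowers x').subgroupOf (S : Subgroup G)) = 2 ^ (a - 1) := by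
        rw [Nat.card_congr (Subgroup.subgroupOfEquivOfLe hzS).toEquiv, Nat.card_zpowers, hx'o]
      rw [h11, hcardS S, mul_comm] at h10
      exact h10
    have hr2 : (Subgroup.zpowers x').relIndex (S : Subgroup G) ≤ 2 := by
      rcases Nat.eq_zero_or_pos a with ha | ha
      · subst ha
        have h12 : (Subgroup.zpowers x').relIndex (S : Subgroup G) = 1 := by simpa using hr
        rw [h12]
        norm_num
      · have h2a : 2 ^ a = 2 * 2 ^ (a - 1) := by
          rw [← pow_succ']
          congr 1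
          omega
        rw [h2a] at hr
        have h3 : (Subgroup.zpowers x').relIndex (S : Subgroup G) = 2 :=
          Nat.eq_of_mul_eq_mul_right (pow_pos (by norm_num) _) hr
        exact h3.le
    have hrQ : (Subgroup.zpowers x').relIndex Q ≤ 2 := by
      refine le_trans (Subgroup.relIndex_le_of_le_right hS ?_) hr2
      intro h0
      rw [h0] at hr
      have h13 : 0 < 2 ^ a := pow_pos (by norm_num) _
      omega
    let C : Subgroup G := Subgroup.zpowers x' ⊓ Q
    have hCr : C.relIndex Q ≤ 2 := by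
      rw [Subgroup.inf_relIndex_right]
      exact hrQ
    haveI hCc : IsCyclic C := by
      haveI : IsCyclic (Subgroup.zpowers x') := inferInstance
      exact isCyclic_of_injective (Subgroup.inclusion (inf_le_left : C ≤ Subgroup.zpowers x'))
        (Subgroup.inclusion_injective _)
    obtain ⟨c₀, hc₀⟩ := IsCyclic.exists_generator (α := C)
    have hcpow : ∀ e ∈ C, ∃ i : ℤ, e = (c₀ : G) ^ i := by
      intro e he
      obtain ⟨i, hi⟩ := Subgroup.mem_zpowers_iff.1 (hc₀ ⟨e, he⟩)
      refine ⟨i, ?_⟩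
      have := congrArg Subtype.val hi
      simpa using this.symm
    have hc₀Q : (c₀ : G) ∈ Q := c₀.2.2
    have hrel : C.relIndex Q = 1 ∨ C.relIndex Q = 2 := by
      have hne : C.relIndex Q ≠ 0 := by
        intro h0
        exact (Subgroup.index_ne_zero_of_finite (H := C.subgroupOf Q)) h0
      omega
    rcases hrel with h1 | h2
    · refine ⟨c₀, hc₀Q, 1, Q.one_mem, fun e he => Or.inl ?_⟩
      exact hcpow e (Subgroup.relIndex_eq_one.1 h1 he)
    · have h3 : (C.subgroupOf Q).index = 2 := h2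
      obtain ⟨d, hd⟩ := Subgroup.index_eq_two_iff.1 h3
      refine ⟨c₀, hc₀Q, (d : G)⁻¹, Q.inv_mem d.2, fun e he => ?_⟩
      rcases hd ⟨e, he⟩ with ⟨h4, -⟩ | ⟨h4, -⟩
      · right
        obtain ⟨i, hi⟩ := hcpow _ h4
        refine ⟨i, ?_⟩
        rw [← hi]
        simp
      · left
        exact hcpow e h4
  have hfrob := Cfsg.Agent.Lib.PNilpB.frob2 (p := 2) (G := G) (fun Q hQ y hy hy2 => by
    have h3 : Nat.Coprime (orderOf y) 3 := by
      have h4 : orderOf y ∣ 2 ^ a * n := hG ▸ orderOf_dvd_natCard y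
      refine ((Nat.Prime.coprime_iff_not_dvd Nat.prime_three).2 fun h => ?_).symm
      have h5 : 3 ∣ 2 ^ a * n := h.trans h4
      rcases (Nat.Prime.dvd_mul Nat.prime_three).1 h5 with h6 | h6
      · have := Nat.Prime.dvd_of_dvd_pow Nat.prime_three h6
        omega
      · exact h3 h6
    have h6 : Nat.Coprime (orderOf y) 6 := by
      have : (6 : ℕ) = 2 * 3 := by norm_num
      rw [this]
      exact Nat.Coprime.mul_right hy2 h3
    exact fix_all y h6 hcov _ Q rfl hQ hy)
  obtain ⟨P, N, hNn, hc⟩ := hfrob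
  refine ⟨N, hNn, ?_⟩
  rw [← hc.index_eq_card]
  have h1 := (P : Subgroup G).card_mul_index
  rw [hcardS P, hG] at h1
  exact Nat.eq_of_mul_eq_mul_left (pow_pos (by norm_num) _) h1

end Cfsg.Agent.S3971
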