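import Cfsg.Statements.S3976
import Cfsg.Agent.Lib.H6Frobenius
-- import your own Cfsg.Agent.* helpers here

set_option autoImplicit false
open Cfsg

namespace Cfsg.Agent.S3976

/-- Let `p` be a prime and `G` a group of order `p ^ m`. For every `s ≤ m` the number of normal subgroups of `G` of order `p ^ s` is congruent to `1` modulo `p`. -/
theorem result {G : Type*} [Group G] [Finite G] (p m s : ℕ) (hp : p.Prime) (hG : Nat.card G = p ^ m) (hs : s ≤ m) : Nat.card {H : Subgroup G // H.Normal ∧ Nat.card H = p ^ s} ≡ 1 [MOD p] := by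
  haveI : Fact p.Prime := ⟨hp⟩
  exact Cfsg.Agent.Lib.H6Frobenius.card_normal_subgroups_modEq_one p m s hG hs

end Cfsg.Agent.S3976
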