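import Mathlib
import Cfsg.Statements.S3977
-- import your own Cfsg.Agent.* helpers here

set_option autoImplicit false
open Cfsg

namespace Cfsg.Agent.S3977

universe u

private lemma pow_comm_aux {G : Type*} [Group G] (x y z : G) (h : y * x = x * y * z) (hzx : z * x = x * z)
    (hzy : z * y = y * z) (n : ℕ) : y ^ n * x = x * y ^ n * z ^ n := by
  have hzyn : ∀ k : ℕ, z ^ k * y = y * z ^ k := by
    intro k
    exact (Commute.pow_left hzy k).eq
  induction n with
  | zero => simp
  | succ n ih =>
    calc y ^ (n + 1) * x = y ^ n * (y * x) := by rw [pow_succ]; group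
      _ = y ^ n * (x * y * z) := by rw [h]
      _ = (y ^ n * x) * y * z := by group
      _ = (x * y ^ n * z ^ n) * y * z := by rw [ih]
      _ = x * y ^ n * (z ^ n * y) * z := by group
      _ = x * y ^ n * (y * z ^ n) * z := by rw [hzyn]
      _ = x * y ^ (n + 1) * z ^ (n + 1) := by
        rw [pow_succ y n, pow_succ z n]
        group

private lemma pow_central_aux {G : Type*} [Group G] (x y z : G) (h : y * x = x * y * z) (hzx : z * x = x * z)
    (hzy : z * y = y * z) (n : ℕ) : (x * y) ^ n = x ^ n * y ^ n * z ^ (n.choose 2) := by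
  have hzxk : ∀ k : ℕ, z ^ k * x = x * z ^ k := fun k => (Commute.pow_left hzx k).eq
  have hzyk : ∀ k : ℕ, z ^ k * y = y * z ^ k := fun k => (Commute.pow_left hzy k).eq
  induction n with
  | zero => simp
  | succ n ih =>
    have hch : (n + 1).choose 2 = n + n.choose 2 := by
      rw [Nat.choose_succ_succ' n 1, Nat.choose_one_right]
    rw [pow_succ, ih, hch, pow_add z n]
    calc x ^ n * y ^ n * z ^ n.choose 2 * (x * y) = x ^ n * y ^ n * (z ^ n.choose 2 * x) * y := by group
      _ = x ^ n * y ^ n * (x * z ^ n.choose 2) * y := by rw [hzxk]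
      _ = x ^ n * (y ^ n * x) * (z ^ n.choose 2 * y) := by group
      _ = x ^ n * (x * y ^ n * z ^ n) * (y * z ^ n.choose 2) := by
        rw [pow_comm_aux x y z h hzx hzy n, hzyk]
      _ = x ^ (n + 1) * y ^ n * (z ^ n * y) * z ^ n.choose 2 := by
        rw [pow_succ x n]
        group
      _ = x ^ (n + 1) * y ^ n * (y * z ^ n) * z ^ n.choose 2 := by rw [hzyk]
      _ = x ^ (n + 1) * y ^ (n + 1) * (z ^ n * z ^ n.choose 2) := by
        rw [pow_succ y n]
        group

private theorem main_aux : ∀ (m : ℕ) (G : Type u) [Group G] [Finite G] (p s : ℕ), p.Prime → Nat.card G = p ^ m →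
    1 ≤ s → s < m → (p ≠ 2 ∨ 2 ≤ s) → (∀ H K : Subgroup G, Nat.card H = p ^ s → Nat.card K = p ^ s → H = K) →
    IsCyclic G := by
  intro m
  induction m with
  | zero =>
    intro G _ _ p s hp hG hs hsm
    omega
  | succ m IH =>
    intro G _ _ p s hp hG hs hsm h2 huniq
    haveI hpf : Fact p.Prime := ⟨hp⟩
    have hdvd : ∀ i, i ≤ m + 1 → p ^ i ∣ Nat.card G := fun i hi => by
      rw [hG]
      exact pow_dvd_pow p hi
    obtain ⟨H, hH⟩ := Sylow.exists_subgroup_card_pow_prime p (hdvd s (by omega))
    have hcardsub : ∀ X : Subgroup G, ∃ i, i ≤ m + 1 ∧ Nat.card X = p ^ i := by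
      intro X
      have h1 : Nat.card X ∣ p ^ (m + 1) := by
        rw [← hG]
        exact Subgroup.card_subgroup_dvd_card X
      obtain ⟨i, hi, hi2⟩ := (Nat.dvd_prime_pow hp).mp h1
      exact ⟨i, hi, hi2⟩
    have hA : ∀ (X : Subgroup G) (i : ℕ), i ≤ s → Nat.card X = p ^ i → X ≤ H := by
      intro X i hi hX
      obtain ⟨K, hK, hXK⟩ := Sylow.exists_subgroup_card_pow_prime_le p (hdvd s (by omega)) X hX hi
      rw [huniq K H hK hH] at hXK
      exact hXK
    have hB : ∀ M : Subgroup G, Nat.card M = p ^ m → H ≤ M := by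
      intro M hM
      have h1 : p ^ s ∣ Nat.card M := by
        rw [hM]
        exact pow_dvd_pow p (by omega)
      obtain ⟨K, hK⟩ := Sylow.exists_subgroup_card_pow_prime p h1
      have h2 : Nat.card (K.map M.subtype) = p ^ s := by
        rw [Subgroup.card_map_of_injective M.subtype_injective, hK]
      rw [huniq H _ hH h2]
      exact Subgroup.map_subtype_le K
    by_cases hsm' : s = m
    · -- the subgroup `H` is the unique maximal subgroup
      subst hsm'
      have hne : H ≠ ⊤ := by
        intro h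
        have h3 : Nat.card H = Nat.card G := by rw [h]; exact Nat.card_congr Subgroup.topEquiv.toEquiv
        rw [hH, hG] at h3
        have := Nat.pow_right_injective hp.two_le h3
        omega
      obtain ⟨x, hx⟩ : ∃ x, x ∉ H := by
        by_contra h
        push_neg at h
        exact hne (eq_top_iff.mpr (fun g _ => h g))
      refine isCyclic_iff_exists_zpowers_eq_top.mpr ⟨x, ?_⟩
      obtain ⟨i, hi, hi2⟩ := hcardsub (Subgroup.zpowers x)
      by_cases him : i = s + 1
      · subst him
        apply Subgroup.eq_top_of_card_eq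
        rw [hi2, hG]
      · exfalso
        apply hx
        exact hA _ i (by omega) hi2 (Subgroup.mem_zpowers x)
    -- all maximal subgroups are cyclic
    have hcyc : ∀ M : Subgroup G, Nat.card M = p ^ m → IsCyclic M := by
      intro M hM
      apply IH M p s hp hM hs (by omega) h2
      intro H' K' hH' hK'
      have h3 : Nat.card (H'.map M.subtype) = p ^ s := by
        rw [Subgroup.card_map_of_injective M.subtype_injective, hH']
      have h4 : Nat.card (K'.map M.subtype) = p ^ s := by
        rw [Subgroup.card_map_of_injective M.subtype_injective, hK']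
      exact Subgroup.map_injective M.subtype_injective (huniq _ _ h3 h4)
    by_contra hnc
    obtain ⟨M₁, hM₁⟩ := Sylow.exists_subgroup_card_pow_prime p (hdvd m (by omega))
    obtain ⟨a, ha⟩ := (Subgroup.isCyclic_iff_exists_zpowers_eq_top M₁).mp (hcyc M₁ hM₁)
    have hM₁ne : M₁ ≠ ⊤ := by
      intro h
      have h3 : Nat.card M₁ = Nat.card G := by rw [h]; exact Nat.card_congr Subgroup.topEquiv.toEquiv
      rw [hM₁, hG] at h3
      have := Nat.pow_right_injective hp.two_le h3
      omega
    obtain ⟨b₀, hb₀⟩ : ∃ x, x ∉ M₁ := by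
      by_contra h
      push_neg at h
      exact hM₁ne (eq_top_iff.mpr (fun g _ => h g))
    obtain ⟨i, hi, hi2⟩ := hcardsub (Subgroup.zpowers b₀)
    have him : i ≤ m := by
      by_contra h
      have hi3 : i = m + 1 := by omega
      apply hnc
      refine isCyclic_iff_exists_zpowers_eq_top.mpr ⟨b₀, ?_⟩
      apply Subgroup.eq_top_of_card_eq
      rw [hi2, hG, hi3]
    obtain ⟨M₂, hM₂, hb₀M⟩ := Sylow.exists_subgroup_card_pow_prime_le p (hdvd m (by omega)) _ hi2 him
    obtain ⟨b, hb⟩ := (Subgroup.isCyclic_iff_exists_zpowers_eq_top M₂).mp (hcyc M₂ hM₂)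
    have hb₀M₂ : b₀ ∈ M₂ := hb₀M (Subgroup.mem_zpowers b₀)
    have hm0 : m + 1 ≠ 0 := by omega
    have hindex : ∀ M : Subgroup G, Nat.card M = p ^ m → M.index = p := by
      intro M hM
      have h3 := M.card_mul_index
      rw [hM, hG, pow_succ] at h3
      exact Nat.eq_of_mul_eq_mul_left (pow_pos hp.pos m) h3
    have hminFac : (Nat.card G).minFac = p := by
      rw [hG]
      exact Nat.Prime.pow_minFac hp hm0
    have hnorm : ∀ M : Subgroup G, Nat.card M = p ^ m → M.Normal := by
      intro M hM
      apply Subgroup.normal_of_index_eq_minFac_card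
      rw [hindex M hM, hminFac]
    haveI hn₁ := hnorm M₁ hM₁
    haveI hn₂ := hnorm M₂ hM₂
    have hsup : M₁ ⊔ M₂ = ⊤ := by
      obtain ⟨j, hj, hj2⟩ := hcardsub (M₁ ⊔ M₂)
      have hj3 : m < j := by
        have hlt : M₁ < M₁ ⊔ M₂ := by
          refine lt_of_le_of_ne le_sup_left ?_
          intro h
          apply hb₀
          rw [h]
          exact (le_sup_right : M₂ ≤ M₁ ⊔ M₂) hb₀M₂
        have h5 := Subgroup.card_dvd_of_le hlt.le
        rw [hM₁, hj2] at h5
        have h6 := (Nat.pow_dvd_pow_iff_le_right hp.one_lt).mp h5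
        by_contra h7
        have h8 : j = m := by omega
        apply hlt.ne
        apply Subgroup.eq_of_le_of_card_ge hlt.le
        rw [hj2, hM₁, h8]
      apply Subgroup.eq_top_of_card_eq
      have : j = m + 1 := by omega
      rw [hj2, hG, this]
    have hcomm : ∀ (M : Subgroup G) (c : G), M = Subgroup.zpowers c → ∀ x ∈ M, ∀ y ∈ M, x * y = y * x := by
      rintro M c rfl x hx y hy
      obtain ⟨i, rfl⟩ := Subgroup.mem_zpowers_iff.mp hx
      obtain ⟨j, rfl⟩ := Subgroup.mem_zpowers_iff.mp hy
      rw [← zpow_add, ← zpow_add, add_comm]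
    have hcm₁ := hcomm M₁ a ha.symm
    have hcm₂ := hcomm M₂ b hb.symm
    -- central elements
    have hcentral : ∀ w, w ∈ M₁ → w ∈ M₂ → ∀ g : G, g * w = w * g := by
      intro w hw1 hw2 g
      have hg : g ∈ M₁ ⊔ M₂ := by rw [hsup]; trivial
      obtain ⟨u, hu, v, hv, rfl⟩ := Subgroup.mem_sup_of_normal_left.mp hg
      calc u * v * w = u * (v * w) := by group
        _ = u * (w * v) := by rw [hcm₂ v hv w hw2]
        _ = (u * w) * v := by group
        _ = (w * u) * v := by rw [hcm₁ u hu w hw1]
        _ = w * (u * v) := by group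
    have haM₁ : a ∈ M₁ := by rw [← ha]; exact Subgroup.mem_zpowers a
    have hbM₂ : b ∈ M₂ := by rw [← hb]; exact Subgroup.mem_zpowers b
    have hapM₂ : a ^ p ∈ M₂ := by
      have := Subgroup.pow_index_mem M₂ a
      rwa [hindex M₂ hM₂] at this
    have hbpM₁ : b ^ p ∈ M₁ := by
      have := Subgroup.pow_index_mem M₁ b
      rwa [hindex M₁ hM₁] at this
    have hbM₁ : b ∉ M₁ := by
      intro h
      apply hb₀
      have : M₂ ≤ M₁ := by
        rw [← hb]
        exact Subgroup.zpowers_le.mpr h
      exact this hb₀M₂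
    -- `b ^ p` is a power of `a ^ p`
    obtain ⟨t, ht⟩ : ∃ t : ℕ, a ^ t = b ^ p := by
      have h3 : b ^ p ∈ Subgroup.zpowers a := by rw [ha]; exact hbpM₁
      rw [← mem_powers_iff_mem_zpowers] at h3
      obtain ⟨t, ht⟩ := h3
      exact ⟨t, ht⟩
    have hordera : orderOf a = p ^ m := by
      rw [← Nat.card_zpowers, ha, hM₁]
    have hpt : p ∣ t := by
      by_contra hnt
      have hcop : Nat.Coprime t (orderOf a) := by
        rw [hordera]
        exact Nat.Coprime.pow_right m ((Nat.coprime_comm.mp ((Nat.Prime.coprime_iff_not_dvd hp).mpr hnt)))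
      obtain ⟨r, hr⟩ := exists_pow_eq_self_of_coprime hcop
      have haM₂ : a ∈ M₂ := by
        rw [← hr, ht]
        exact Subgroup.pow_mem _ (Subgroup.pow_mem _ hbM₂ p) r
      have hle : M₁ ≤ M₂ := by
        rw [← ha]
        exact Subgroup.zpowers_le.mpr haM₂
      have heq : M₁ = M₂ := Subgroup.eq_of_le_of_card_ge hle (by rw [hM₁, hM₂])
      rw [← heq] at hbM₂
      exact hbM₁ hbM₂
    obtain ⟨t', rfl⟩ := hpt
    -- the commutator
    set Y := (a ^ t')⁻¹ with hY
    have hYM₁ : Y ∈ M₁ := Subgroup.inv_mem _ (Subgroup.pow_mem _ haM₁ t')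
    set z := (b * Y)⁻¹ * (Y * b) with hz
    have hzM₁ : z ∈ M₁ := by
      have : z = Y⁻¹ * (b⁻¹ * Y * b) := by rw [hz]; group
      rw [this]
      apply Subgroup.mul_mem _ (Subgroup.inv_mem _ hYM₁)
      have := hn₁.conj_mem Y hYM₁ b⁻¹
      simpa using this
    have hzM₂ : z ∈ M₂ := by
      have : z = (Y⁻¹ * b⁻¹ * Y) * b := by rw [hz]; group
      rw [this]
      apply Subgroup.mul_mem _ _ hbM₂
      have := hn₂.conj_mem b⁻¹ (Subgroup.inv_mem _ hbM₂) Y⁻¹
      simpa using this
    have hzc := hcentral z hzM₁ hzM₂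
    have hrel : Y * b = b * Y * z := by rw [hz]; group
    have hpowY : Y ^ p = (a ^ p) ^ (-(t' : ℤ)) := by
      rw [hY, inv_pow, ← pow_mul, ← zpow_natCast, ← zpow_natCast, ← zpow_mul, ← zpow_neg]
      congr 1
      push_cast
      ring
    have hYpc : ∀ g : G, g * Y ^ p = Y ^ p * g := by
      intro g
      rw [hpowY]
      exact hcentral _ (Subgroup.zpow_mem _ (Subgroup.pow_mem _ haM₁ p) _) (Subgroup.zpow_mem _ hapM₂ _) g
    have hzp : z ^ p = 1 := by
      have h3 := pow_comm_aux b Y z hrel (hzc b).symm (hzc Y).symm p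
      rw [(hYpc b).symm] at h3
      exact mul_eq_left.mp h3.symm
    have hwp : (b * Y) ^ p = z ^ (p.choose 2) := by
      rw [pow_central_aux b Y z hrel (hzc b).symm (hzc Y).symm p, ← ht, hY, inv_pow, ← pow_mul, mul_comm t' p,
        mul_inv_cancel, one_mul]
    have hexists : ∃ e, e ≤ s ∧ (b * Y) ^ (p ^ e) = 1 := by
      by_cases hp2 : p = 2
      · subst hp2
        have hs2 : 2 ≤ s := by
          rcases h2 with h | h
          · exact absurd rfl h
          · exact h
        refine ⟨2, hs2, ?_⟩
        have h3 : (b * Y) ^ 2 = z := by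
          rw [hwp]
          simp
        rw [show 2 ^ 2 = 2 * 2 by norm_num, pow_mul, h3]
        exact hzp
      · refine ⟨1, hs, ?_⟩
        rw [pow_one, hwp]
        have hodd : Odd p := hp.odd_of_ne_two hp2
        obtain ⟨k, hk⟩ := hodd
        have hch : p.choose 2 = p * k := by
          rw [Nat.choose_two_right, hk]
          have : (2 * k + 1) * (2 * k + 1 - 1) = 2 * ((2 * k + 1) * k) := by
            simp only [Nat.add_sub_cancel]
            ring
          rw [this]
          simp
        rw [hch, pow_mul, hzp, one_pow]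
    obtain ⟨e, hes, he⟩ := hexists
    obtain ⟨j, hje, hj⟩ := (Nat.dvd_prime_pow hp).mp (orderOf_dvd_of_pow_eq_one he)
    have hwH : b * Y ∈ H := hA _ j (by omega) (by rw [Nat.card_zpowers, hj]) (Subgroup.mem_zpowers _)
    have hwM₁ : b * Y ∈ M₁ := hB M₁ hM₁ hwH
    apply hbM₁
    have := Subgroup.mul_mem _ hwM₁ (Subgroup.inv_mem _ hYM₁)
    simpa using this


/-- Let `p` be a prime and `G` a group of order `p ^ m` which has exactly one subgroup of order `p ^ s`, where `1 ≤ s < m`, and where `s ≥ 2` if `p = 2`. Then `G` is cyclic. (For `p = 2` and `s = 1` the generalized quaternion groups also occur; that case is the classical criterion for a unique involution.) -/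
theorem result {G : Type*} [Group G] [Finite G] (p m s : ℕ) (hp : p.Prime) (hG : Nat.card G = p ^ m) (hs : 1 ≤ s) (hsm : s < m) (h2 : p ≠ 2 ∨ 2 ≤ s) (huniq : ∀ H K : Subgroup G, Nat.card H = p ^ s → Nat.card K = p ^ s → H = K) : IsCyclic G := by
  exact main_aux m G p s hp hG hs hsm h2 huniq

end Cfsg.Agent.S3977
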