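import Cfsg.Statements.S3978
import Cfsg.Agent.Lib.HopfRep
-- import your own Cfsg.Agent.* helpers here

set_option autoImplicit false
set_option linter.all false
open Cfsg

namespace Cfsg.Agent.S3978

/-- A finite group `Q` has trivial Schur multiplier if and only if, for every `n`, every homomorphism from `Q` to the projective general linear group (the quotient of `GL n ℂ` by its centre) lifts to a homomorphism into `GL n ℂ`. -/
theorem result {Q : Type*} [Group Q] [Finite Q] : Cfsg.HasCyclicSchurMultiplier Q 1 ↔ ∀ (n : ℕ) (γ : Q →* (GL (Fin n) ℂ ⧸ Subgroup.center (GL (Fin n) ℂ))), ∃ ρ : Q →* GL (Fin n) ℂ, (QuotientGroup.mk' (Subgroup.center (GL (Fin n) ℂ))).comp ρ = γ := by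
  have hid : (MonoidHom.id Q).ker = ⊥ := by ext; simp
  have hstem : Cfsg.IsStemExtension (MonoidHom.id Q) := by
    refine ⟨Function.surjective_id, ?_, ?_⟩
    · rw [hid]; exact bot_le
    · rw [hid]; exact bot_le
  constructor
  · intro h n γ
    have hkk : Nonempty ((MonoidHom.id Q).ker ≃* Multiplicative (ZMod 1)) := by
      refine ⟨{ toFun := fun _ => 1, invFun := fun _ => 1, left_inv := ?_, right_inv := fun x => Subsingleton.elim _ _, map_mul' := fun _ _ => Subsingleton.elim _ _ }⟩
      rintro ⟨x, hx⟩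
      apply Subtype.ext
      rw [hid, Subgroup.mem_bot] at hx
      exact hx.symm
    obtain ⟨ρ, hρ⟩ := Cfsg.Agent.Lib.HopfRep.lift_projective h (MonoidHom.id Q) hstem hkk n γ
    exact ⟨ρ, hρ⟩
  · intro h
    rw [Cfsg.Agent.Lib.H6Schur.hasCyclic_one_iff]
    intro Γ _ _ σ hσ
    obtain ⟨π, hπ⟩ := Cfsg.Agent.Lib.HopfRep.surj_of_lift (MonoidHom.id Q) hstem (fun n γ => by
      obtain ⟨ρ, hρ⟩ := h n γ
      exact ⟨ρ, hρ⟩) σ hσ
    rw [eq_bot_iff]
    intro k hk
    obtain ⟨x, hx⟩ := hπ ⟨k, hk⟩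
    have hx1 : x = 1 := by
      obtain ⟨y, hy⟩ := x
      apply Subtype.ext
      rw [hid, Subgroup.mem_bot] at hy
      exact hy
    rw [hx1, map_one] at hx
    have := congrArg Subtype.val hx
    rw [Subgroup.mem_bot]
    exact this.symm

end Cfsg.Agent.S3978
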