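import Mathlib
import Cfsg.Statements.S3992
import Cfsg.Agent.S0041
import Cfsg.Agent.Lib.NilCyc
import Cfsg.Agent.Lib.FitSolv
import Cfsg.Agent.Lib.SchurZ2
import Cfsg.Agent.Lib.FitCore
import Cfsg.Agent.Lib.PCore
-- import your own Cfsg.Agent.* helpers here

set_option autoImplicit false
open Cfsg

namespace Cfsg.Agent.S3992


set_option autoImplicit false
set_option linter.all false

section H6Main

open Subgroup Cfsg Cfsg.Agent.Lib.FitCore

/-- Every non-identity element has prime-power order. -/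
def EPPO (X : Type*) [Group X] : Prop := ∀ g : X, g ≠ 1 → IsPrimePow (orderOf g)

theorem not_pp_mul {m n : ℕ} (hc : Nat.Coprime m n) (hm : m ≠ 1) (hn : n ≠ 1) : ¬ IsPrimePow (m * n) := by
  intro h
  rcases (Nat.Coprime.isPrimePow_dvd_mul hc h).1 dvd_rfl with h1 | h1
  · have hm0 : m ≠ 0 := by
      intro h0
      rw [h0] at h
      exact not_isPrimePow_zero (by simpa using h)
    have h2 : m * n ∣ m * 1 := by simpa using h1
    exact hn (Nat.dvd_one.1 (Nat.dvd_of_mul_dvd_mul_left (Nat.pos_of_ne_zero hm0) h2))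
  · have hn0 : n ≠ 0 := by
      intro h0
      rw [h0] at h
      exact not_isPrimePow_zero (by simpa using h)
    have h2 : n * m ∣ n * 1 := by simpa [mul_comm] using h1
    exact hm (Nat.dvd_one.1 (Nat.dvd_of_mul_dvd_mul_left (Nat.pos_of_ne_zero hn0) h2))

section basics
variable {X : Type*} [Group X] [Finite X]

theorem not_coprime (hE : EPPO X) {a b : X} (hab : a * b = b * a) (ha : a ≠ 1) (hb : b ≠ 1) :
    ¬ Nat.Coprime (orderOf a) (orderOf b) := by
  intro hc
  have h1 : orderOf (a * b) = orderOf a * orderOf b :=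
    Commute.orderOf_mul_eq_mul_orderOf_of_coprime hab hc
  have ha1 : orderOf a ≠ 1 := fun h => ha (orderOf_eq_one_iff.1 h)
  have hb1 : orderOf b ≠ 1 := fun h => hb (orderOf_eq_one_iff.1 h)
  have hab1 : a * b ≠ 1 := by
    intro h
    rw [h, orderOf_one] at h1
    exact ha1 (Nat.eq_one_of_mul_eq_one_right h1.symm)
  have h2 := hE _ hab1
  rw [h1] at h2
  exact not_pp_mul hc ha1 hb1 h2

theorem eppo_quot (hE : EPPO X) {Y : Type*} [Group Y] (f : X →* Y) (hf : Function.Surjective f) : EPPO Y := by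
  intro y hy
  obtain ⟨x, rfl⟩ := hf y
  have hx : x ≠ 1 := by
    rintro rfl
    exact hy (map_one f)
  exact IsPrimePow.dvd (hE x hx) (orderOf_map_dvd f x) (fun h => hy (orderOf_eq_one_iff.1 h))

theorem eppo_sub (hE : EPPO X) (H : Subgroup X) : EPPO H := by
  intro y hy
  rw [Subgroup.orderOf_coe y |>.symm]
  exact hE _ (fun h => hy (Subtype.ext h))

theorem pCore_char' (p : ℕ) (Y : Type*) [Group Y] : (pCore p Y).Characteristic := by
  rw [Subgroup.characteristic_iff_map_eq]
  intro e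
  exact Cfsg.Agent.Lib.PCore.pCore_map_equiv e

theorem coprime_order_of_pgroup {p : ℕ} [hp : Fact p.Prime] {Q : Subgroup X} (hQ : IsPGroup p Q) {v : X} (hv : v ∈ Q)
    {n : ℕ} (hn : Nat.Coprime n p) : Nat.Coprime n (orderOf v) := by
  obtain ⟨k, hk⟩ := hQ ⟨v, hv⟩
  have h1 : v ^ p ^ k = 1 := congrArg Subtype.val hk
  exact Nat.Coprime.coprime_dvd_right (orderOf_dvd_of_pow_eq_one h1) (Nat.Coprime.pow_right k hn)

/-- Lemma D: subgroups of order a product of two primes in `X / P`, prime to `p`, are cyclic. -/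
theorem lemmaD (hE : EPPO X) {p : ℕ} [hp : Fact p.Prime] (P : Subgroup X) [hPn : P.Normal] (hP : IsPGroup p P)
    (V : Subgroup X) [hVn : V.Normal] [hVc : IsMulCommutative V] (hV : V ≠ ⊥) (hVp : IsPGroup p V)
    (B : Subgroup (X ⧸ P)) (hcop : Nat.Coprime (Nat.card B) p) {r s : ℕ} (hr : r.Prime) (hs : s.Prime)
    (hc : Nat.card B = r * s) : IsCyclic B := by
  let W : Subgroup X := B.comap (QuotientGroup.mk' P)
  have hmemW : ∀ x, x ∈ W ↔ ((x : X ⧸ P)) ∈ B := fun x => Iff.rfl
  have hPW : P ≤ W := by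
    intro x hx
    rw [hmemW, (QuotientGroup.eq_one_iff x).2 hx]
    exact B.one_mem
  let f : W →* B := ((QuotientGroup.mk' P).comp W.subtype).codRestrict B (fun x => x.2)
  have hf : Function.Surjective f := by
    rintro ⟨b, hb⟩
    obtain ⟨x, rfl⟩ := QuotientGroup.mk_surjective b
    exact ⟨⟨x, hb⟩, rfl⟩
  have hkerf : f.ker = P.subgroupOf W := by
    ext x
    rw [MonoidHom.mem_ker, Subgroup.mem_subgroupOf]
    constructor
    · intro h
      have h1 := congrArg Subtype.val h
      exact (QuotientGroup.eq_one_iff _).1 h1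
    · intro h
      apply Subtype.ext
      exact (QuotientGroup.eq_one_iff _).2 h
  have hidx : (f.ker).index = Nat.card B := by
    rw [Subgroup.index_ker, MonoidHom.range_eq_top.2 hf]
    exact Nat.card_congr Subgroup.topEquiv.toEquiv
  have hnorm : (f.ker).Normal := inferInstance
  have hkerp : IsPGroup p f.ker := by
    rw [hkerf]
    exact hP.of_equiv (Subgroup.subgroupOfEquivOfLe hPW).symm
  obtain ⟨a, ha⟩ := IsPGroup.iff_card.1 hkerp
  have hcop' : Nat.Coprime (Nat.card f.ker) (f.ker).index := by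
    rw [ha, hidx]
    exact Nat.Coprime.pow_left a hcop.symm
  obtain ⟨T, hT⟩ := Subgroup.exists_right_complement'_of_coprime hcop'
  have hTc : Nat.card T = Nat.card B := by
    have h1 := hT.card_mul
    have h2 := (f.ker).card_mul_index
    rw [hidx] at h2
    exact Nat.eq_of_mul_eq_mul_left Nat.card_pos (h1.trans h2.symm)
  have hsurj : Function.Surjective (f.comp T.subtype) := by
    intro b
    obtain ⟨w, rfl⟩ := hf b
    obtain ⟨⟨n, t⟩, hnt⟩ := hT.2 w
    refine ⟨t, ?_⟩
    rw [← hnt]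
    show f t = f (n * t)
    rw [map_mul, MonoidHom.mem_ker.1 n.2, one_mul]
  let T' : Subgroup X := T.map W.subtype
  have hT'c : Nat.card T' = Nat.card B := by
    rw [← hTc]
    exact Nat.card_congr (T.equivMapOfInjective _ W.subtype_injective).symm.toEquiv
  have hcyc : IsCyclic T' := by
    refine Cfsg.Agent.S0041.result T' V hV ?_ ?_ (Or.inr ⟨r, s, hr, hs, by rw [hT'c, hc]⟩)
    · intro x _
      exact Subgroup.le_normalizer_of_normal (H := V) (K := ⊤) (Subgroup.mem_top x)
    · intro a' ha' ha'1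
      rw [eq_bot_iff]
      rintro v ⟨hv, hvc⟩
      rw [Subgroup.mem_bot]
      by_contra hv1
      have hvc' := Subgroup.mem_centralizer_singleton_iff.1 hvc
      refine not_coprime hE hvc'.symm ha'1 hv1 ?_
      refine coprime_order_of_pgroup hVp hv ?_
      refine Nat.Coprime.coprime_dvd_left ?_ hcop
      rw [← hT'c]
      exact Subgroup.orderOf_dvd_natCard T' ha'
  have hTcyc : IsCyclic T :=
    isCyclic_of_injective (T.equivMapOfInjective _ W.subtype_injective).toMonoidHom
      (T.equivMapOfInjective _ W.subtype_injective).injective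
  exact isCyclic_of_surjective _ hsurj

theorem exists_pCore_ne_bot (hX : Group.IsSolvable X) (h1 : Nontrivial X) : ∃ p : ℕ, p.Prime ∧ pCore p X ≠ ⊥ := by
  let S : Set (Subgroup X) := {N | N.Normal ∧ N ≠ ⊥}
  have hS : S.Nonempty := ⟨⊤, inferInstance, top_ne_bot⟩
  obtain ⟨N, hN⟩ := Set.Finite.exists_minimal (Set.toFinite S) hS
  have hNn : N.Normal := hN.prop.1
  have hmin : ∀ M : Subgroup X, M.Normal → M ≤ N → M = ⊥ ∨ M = N := by
    intro M hM hMN
    by_cases h : M = ⊥
    · left; exact h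
    · right
      exact le_antisymm hMN (hN.le_of_le ⟨hM, h⟩ hMN)
  obtain ⟨-, p, hp, hpow⟩ := Cfsg.Agent.Lib.FitSolv.minimal_normal_elementary N hN.prop.2 hmin
  refine ⟨p, hp, ?_⟩
  haveI : Fact p.Prime := ⟨hp⟩
  have hle : N ≤ pCore p X := by
    refine le_pCore p N hNn ?_
    rintro ⟨x, hx⟩
    exact ⟨1, Subtype.ext (by simpa using hpow x hx)⟩
  intro h
  rw [h] at hle
  exact hN.prop.2 (le_bot_iff.1 hle)

/-- Lemma C: the structure of a normal solvable subgroup. -/
theorem lemmaC (hE : EPPO X) (R : Subgroup X) [hRn : R.Normal] (hRs : Group.IsSolvable R) (hR1 : R ≠ ⊥) :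
    ∃ p : ℕ, p.Prime ∧ ∃ (P : Subgroup X) (_ : P.Normal), IsPGroup p P ∧ P ≤ R ∧
      ∃ V : Subgroup X, V.Normal ∧ IsMulCommutative V ∧ V ≠ ⊥ ∧ IsPGroup p V ∧
        (R = P ∨ ∃ q : ℕ, q.Prime ∧ q ≠ p ∧ ∃ z : X ⧸ P, orderOf z = q ∧ (zpowers z).Normal) := by
  have hRnt : Nontrivial R := (Subgroup.nontrivial_iff_ne_bot R).2 hR1
  obtain ⟨p, hp, hpR⟩ := exists_pCore_ne_bot hRs hRnt
  haveI : Fact p.Prime := ⟨hp⟩
  haveI hchar : (pCore p R).Characteristic := pCore_char' p R
  let P : Subgroup X := (pCore p R).map R.subtype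
  have hPn : P.Normal := map_subtype_normal_of_char R (pCore p R)
  have hPp : IsPGroup p P := (pCore_isPGroup p).map _
  have hPR : P ≤ R := Subgroup.map_subtype_le _
  have hP1 : P ≠ ⊥ := by
    intro h
    apply hpR
    exact (Subgroup.map_eq_bot_iff_of_injective _ R.subtype_injective).1 h
  refine ⟨p, hp, P, hPn, hPp, hPR, ?_⟩
  haveI hPnt : Nontrivial P := (Subgroup.nontrivial_iff_ne_bot P).2 hP1
  let V : Subgroup X := (center P).map P.subtype
  have hVn : V.Normal := map_subtype_normal_of_char P (center P)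
  have hVc : IsMulCommutative V := by
    refine ⟨⟨?_⟩⟩
    rintro ⟨_, u, hu, rfl⟩ ⟨_, v, hv, rfl⟩
    apply Subtype.ext
    show (u : X) * v = v * u
    exact congrArg Subtype.val ((Subgroup.mem_center_iff.1 hu) v).symm
  have hV1 : V ≠ ⊥ := by
    intro h
    have h2 : center P = ⊥ := (Subgroup.map_eq_bot_iff_of_injective _ P.subtype_injective).1 h
    haveI := hPp.center_nontrivial
    obtain ⟨x, hx⟩ := exists_ne (1 : center P)
    apply hx
    have h3 : (x : P) ∈ (⊥ : Subgroup P) := h2 ▸ x.2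
    exact Subtype.ext (Subgroup.mem_bot.1 h3)
  have hVp : IsPGroup p V := hPp.to_le (Subgroup.map_subtype_le _)
  refine ⟨V, hVn, hVc, hV1, hVp, ?_⟩
  by_cases hRP : R = P
  · left; exact hRP
  right
  let Rb : Subgroup (X ⧸ P) := R.map (QuotientGroup.mk' P)
  have hRbn : Rb.Normal := hRn.map _ (QuotientGroup.mk'_surjective P)
  have hRbs : Group.IsSolvable Rb := by
    have hsurj : Function.Surjective ((QuotientGroup.mk' P).comp R.subtype |>.rangeRestrict) :=
      MonoidHom.rangeRestrict_surjective _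
    have heq : ((QuotientGroup.mk' P).comp R.subtype).range = Rb := by
      rw [MonoidHom.range_comp, Subgroup.range_subtype]
    have : Group.IsSolvable ((QuotientGroup.mk' P).comp R.subtype).range :=
      solvable_of_surjective hsurj
    rw [heq] at this
    exact this
  have hRb1 : Rb ≠ ⊥ := by
    intro h
    apply hRP
    refine le_antisymm ?_ hPR
    intro x hx
    have h1 : ((x : X ⧸ P)) ∈ Rb := ⟨x, hx, rfl⟩
    rw [h] at h1
    exact (QuotientGroup.eq_one_iff x).1 (Subgroup.mem_bot.1 h1)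
  have hRbnt : Nontrivial Rb := (Subgroup.nontrivial_iff_ne_bot Rb).2 hRb1
  obtain ⟨q, hq, hqR⟩ := exists_pCore_ne_bot hRbs hRbnt
  haveI : Fact q.Prime := ⟨hq⟩
  haveI hchar2 : (pCore q Rb).Characteristic := pCore_char' q Rb
  let K : Subgroup (X ⧸ P) := (pCore q Rb).map Rb.subtype
  have hKn : K.Normal := map_subtype_normal_of_char Rb (pCore q Rb)
  have hKp : IsPGroup q K := (pCore_isPGroup q).map _
  have hKRb : K ≤ Rb := Subgroup.map_subtype_le _
  have hK1 : K ≠ ⊥ := by
    intro h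
    apply hqR
    exact (Subgroup.map_eq_bot_iff_of_injective _ Rb.subtype_injective).1 h
  have hEb : EPPO (X ⧸ P) := eppo_quot hE (QuotientGroup.mk' P) (QuotientGroup.mk'_surjective P)
  have hqp : q ≠ p := by
    rintro rfl
    apply hK1
    let K' : Subgroup X := K.comap (QuotientGroup.mk' P)
    have hK'n : K'.Normal := hKn.comap _
    have hK'p : IsPGroup q K' := by
      rintro ⟨x, hx⟩
      obtain ⟨a, ha⟩ := hKp ⟨(x : X ⧸ P), hx⟩
      have h1 : ((x ^ q ^ a : X) : X ⧸ P) = 1 := congrArg Subtype.val ha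
      have h2 : x ^ q ^ a ∈ P := (QuotientGroup.eq_one_iff _).1 h1
      obtain ⟨b, hb⟩ := hPp ⟨_, h2⟩
      refine ⟨a + b, Subtype.ext ?_⟩
      have h3 : (x ^ q ^ a) ^ q ^ b = 1 := congrArg Subtype.val hb
      show x ^ q ^ (a + b) = 1
      rw [pow_add, pow_mul, h3]
    have hK'R : K' ≤ R := by
      intro x hx
      obtain ⟨r, hr, hrx⟩ := hKRb hx
      have h3 : r⁻¹ * x ∈ P := QuotientGroup.eq.1 hrx
      have h4 := R.mul_mem hr (hPR h3)
      simpa using h4
    have hle : K'.subgroupOf R ≤ pCore q R := by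
      refine le_pCore q _ (Subgroup.Normal.subgroupOf hK'n R) ?_
      exact hK'p.of_equiv (Subgroup.subgroupOfEquivOfLe hK'R).symm
    rw [eq_bot_iff]
    intro y hy
    obtain ⟨x, rfl⟩ := QuotientGroup.mk_surjective y
    have hx : x ∈ K' := hy
    have h5 : x ∈ P := ⟨⟨x, hK'R hx⟩, hle hx, rfl⟩
    exact Subgroup.mem_bot.2 ((QuotientGroup.eq_one_iff x).2 h5)
  refine ⟨q, hq, hqp, ?_⟩
  · -- an element of order `q` in the centre of `K`
    haveI hKnt : Nontrivial K := (Subgroup.nontrivial_iff_ne_bot K).2 hK1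
    have hcen := hKp.center_nontrivial
    have hdvd : q ∣ Nat.card (center K) := by
      have h1 : IsPGroup q (center K) := hKp.to_subgroup _
      obtain ⟨m, hm⟩ := IsPGroup.iff_card.1 h1
      rw [hm]
      have : m ≠ 0 := by
        rintro rfl
        have h2 : Nat.card (center K) = 1 := by rw [hm, pow_zero]
        have h3 := Finite.one_lt_card_iff_nontrivial.2 hcen
        omega
      exact dvd_pow_self q this
    obtain ⟨z₀, hz₀⟩ := exists_prime_orderOf_dvd_card' q hdvd
    let z : X ⧸ P := ((z₀ : K) : X ⧸ P)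
    have hzK : z ∈ K := (z₀ : K).2
    have hzord : orderOf z = q := by
      rw [← hz₀]
      show orderOf (((z₀ : K) : X ⧸ P)) = _
      rw [Subgroup.orderOf_coe, Subgroup.orderOf_coe]
    have hzc : ∀ x ∈ K, x * z = z * x := by
      intro x hx
      exact congrArg Subtype.val ((Subgroup.mem_center_iff.1 z₀.2) ⟨x, hx⟩)
    have hΩ : ∀ x ∈ K, x ^ q = 1 → x ∈ zpowers z := by
      intro x hx hxq
      by_contra hxz
      have hx1 : x ≠ 1 := by
        rintro rfl
        exact hxz (Subgroup.one_mem _)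
      have hxord : orderOf x = q := orderOf_eq_prime hxq hx1
      have hnorm : zpowers x ≤ normalizer ((zpowers z : Subgroup (X ⧸ P)) : Set (X ⧸ P)) := by
        rw [zpowers_le, Subgroup.mem_normalizer_iff]
        intro h
        have hh : x * h * x⁻¹ = h ∨ True := Or.inr trivial
        constructor
        · rintro ⟨i, rfl⟩
          refine ⟨i, ?_⟩
          show z ^ i = x * z ^ i * x⁻¹
          have h2 : Commute x (z ^ i) := (show Commute x z from hzc x hx).zpow_right i
          rw [h2.eq]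
          group
        · rintro ⟨i, hi⟩
          have hi' : z ^ i = x * h * x⁻¹ := hi
          refine ⟨i, ?_⟩
          show z ^ i = h
          have h2 : Commute x (z ^ i) := (show Commute x z from hzc x hx).zpow_right i
          have h3 : x * z ^ i * x⁻¹ = z ^ i := by
            rw [h2.eq]
            group
          have h4 : x * (z ^ i) * x⁻¹ = x * h * x⁻¹ := by rw [h3, hi']
          exact mul_left_cancel (mul_right_cancel h4)
      have hcard := Cfsg.Agent.Lib.SchurZ2.card_sup_mul_card_inf (zpowers z) (zpowers x) hnorm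
      have hinf : Nat.card (zpowers z ⊓ zpowers x : Subgroup (X ⧸ P)) = 1 := by
        have h1 : Nat.card (zpowers z ⊓ zpowers x : Subgroup (X ⧸ P)) ∣ q := by
          have h2 := Subgroup.card_dvd_of_le (inf_le_right : zpowers z ⊓ zpowers x ≤ zpowers x)
          rwa [Nat.card_zpowers, hxord] at h2
        rcases (Nat.dvd_prime hq).1 h1 with h2 | h2
        · exact h2
        · exfalso
          apply hxz
          have h3 : zpowers z ⊓ zpowers x = zpowers x := by
            refine Subgroup.eq_of_le_of_card_ge inf_le_right ?_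
            rw [h2, Nat.card_zpowers, hxord]
          have h4 : x ∈ zpowers z ⊓ zpowers x := by
            rw [h3]
            exact mem_zpowers x
          exact h4.1
      rw [hinf, mul_one, Nat.card_zpowers, Nat.card_zpowers, hzord, hxord] at hcard
      have hcop : Nat.Coprime (Nat.card (zpowers z ⊔ zpowers x : Subgroup (X ⧸ P))) p := by
        rw [hcard]
        have : Nat.Coprime q p := (Nat.coprime_primes hq hp).2 hqp
        exact Nat.Coprime.mul_left this this
      haveI := hVc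
      haveI := hVn
      have hcy : IsCyclic (zpowers z ⊔ zpowers x : Subgroup (X ⧸ P)) :=
        lemmaD hE P hPp V hV1 hVp _ hcop hq hq hcard
      exact hxz (Cfsg.Agent.Lib.NilCyc.mem_zpowers_of_cyclic (C := zpowers z ⊔ zpowers x) hq
        ((le_sup_left : zpowers z ≤ zpowers z ⊔ zpowers x) (mem_zpowers z))
        ((le_sup_right : zpowers x ≤ zpowers z ⊔ zpowers x) (mem_zpowers x)) hzord hxord)
    refine ⟨z, hzord, ?_⟩
    constructor
    rintro _ ⟨i, rfl⟩ g
    have h1 : g * z * g⁻¹ ∈ zpowers z := by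
      refine hΩ _ (hKn.conj_mem z hzK g) ?_
      rw [conj_pow, ← hzord, pow_orderOf_eq_one]
      group
    obtain ⟨j, hj⟩ := h1
    refine ⟨j * i, ?_⟩
    show z ^ (j * i) = g * z ^ i * g⁻¹
    rw [zpow_mul]
    have hj' : z ^ j = g * z * g⁻¹ := hj
    rw [hj', conj_zpow]

theorem part3 (hE : EPPO X) (hs : Group.IsSolvable X) : (Nat.card X).primeFactors.card ≤ 2 := by
  classical
  by_cases hX : Nontrivial X
  swap
  · have : Subsingleton X := not_nontrivial_iff_subsingleton.1 hX
    rw [Nat.card_of_subsingleton (1 : X)]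
    simp
  have hs' : Group.IsSolvable (⊤ : Subgroup X) := solvable_of_solvable_injective (Subgroup.subtype_injective _)
  obtain ⟨p, hp, P, hPn, hPp, -, V, hVn, hVc, hV1, hVp, h⟩ := lemmaC hE ⊤ hs' top_ne_bot
  haveI : Fact p.Prime := ⟨hp⟩
  obtain ⟨k, hk⟩ := IsPGroup.iff_card.1 hPp
  have hcardX : Nat.card X = Nat.card (X ⧸ P) * Nat.card P := Subgroup.card_eq_card_quotient_mul_card_subgroup P
  rcases h with h | ⟨q, hq, hqp, z, hzord, hzn⟩
  · have h2 : Nat.card X = p ^ k := by
      rw [← hk, ← h]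
      exact (Nat.card_congr Subgroup.topEquiv.toEquiv).symm
    have h3 : (Nat.card X).primeFactors ⊆ {p} := by
      intro r hr
      have hr1 := Nat.prime_of_mem_primeFactors hr
      have hr2 := Nat.dvd_of_mem_primeFactors hr
      rw [h2] at hr2
      rw [Finset.mem_singleton]
      exact (Nat.prime_dvd_prime_iff_eq hr1 hp).1 (hr1.dvd_of_dvd_pow hr2)
    have := Finset.card_le_card h3
    simp at this
    omega
  · have h3 : (Nat.card X).primeFactors ⊆ {p, q} := by
      intro r hr
      have hr1 := Nat.prime_of_mem_primeFactors hr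
      have hr2 := Nat.dvd_of_mem_primeFactors hr
      rw [Finset.mem_insert, Finset.mem_singleton]
      by_contra hne
      push Not at hne
      obtain ⟨hrp, hrq⟩ := hne
      haveI : Fact r.Prime := ⟨hr1⟩
      haveI : Fact q.Prime := ⟨hq⟩
      have hrb : r ∣ Nat.card (X ⧸ P) := by
        rw [hcardX, hk] at hr2
        rcases (hr1.dvd_mul).1 hr2 with h4 | h4
        · exact h4
        · exact absurd ((Nat.prime_dvd_prime_iff_eq hr1 hp).1 (hr1.dvd_of_dvd_pow h4)) hrp
      obtain ⟨y, hy⟩ := exists_prime_orderOf_dvd_card' r hrb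
      have hEb : EPPO (X ⧸ P) := eppo_quot hE (QuotientGroup.mk' P) (QuotientGroup.mk'_surjective P)
      have hnorm : zpowers y ≤ normalizer ((zpowers z : Subgroup (X ⧸ P)) : Set (X ⧸ P)) :=
        fun u _ => Subgroup.le_normalizer_of_normal (H := zpowers z) (K := ⊤) (Subgroup.mem_top u)
      have hcard := Cfsg.Agent.Lib.SchurZ2.card_sup_mul_card_inf (zpowers z) (zpowers y) hnorm
      have hinf : Nat.card (zpowers z ⊓ zpowers y : Subgroup (X ⧸ P)) = 1 := by
        have h1 : Nat.card (zpowers z ⊓ zpowers y : Subgroup (X ⧸ P)) ∣ r := by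
          have h2 := Subgroup.card_dvd_of_le (inf_le_right : zpowers z ⊓ zpowers y ≤ zpowers y)
          rwa [Nat.card_zpowers, hy] at h2
        have h1' : Nat.card (zpowers z ⊓ zpowers y : Subgroup (X ⧸ P)) ∣ q := by
          have h2 := Subgroup.card_dvd_of_le (inf_le_left : zpowers z ⊓ zpowers y ≤ zpowers z)
          rwa [Nat.card_zpowers, hzord] at h2
        have h5 : Nat.Coprime q r := (Nat.coprime_primes hq hr1).2 (Ne.symm hrq)
        exact Nat.eq_one_of_dvd_coprimes h5 h1' h1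
      rw [hinf, mul_one, Nat.card_zpowers, Nat.card_zpowers, hzord, hy] at hcard
      have hcop : Nat.Coprime (Nat.card (zpowers z ⊔ zpowers y : Subgroup (X ⧸ P))) p := by
        rw [hcard]
        exact Nat.Coprime.mul_left ((Nat.coprime_primes hq hp).2 hqp) ((Nat.coprime_primes hr1 hp).2 hrp)
      haveI := hVc
      haveI := hVn
      have hcy : IsCyclic (zpowers z ⊔ zpowers y : Subgroup (X ⧸ P)) :=
        lemmaD hE P hPp V hV1 hVp _ hcop hq hr1 hcard
      obtain ⟨⟨g, hgB⟩, hg⟩ := hcy.exists_generator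
      have hordg : orderOf g = q * r := by
        have h6 : orderOf (⟨g, hgB⟩ : (zpowers z ⊔ zpowers y : Subgroup (X ⧸ P))) = _ :=
          orderOf_eq_card_of_forall_mem_zpowers hg
        rw [Subgroup.orderOf_mk, hcard] at h6
        exact h6
      have hg1 : g ≠ 1 := by
        rintro rfl
        rw [orderOf_one] at hordg
        have := hq.one_lt
        have h7 := Nat.eq_one_of_mul_eq_one_right hordg.symm
        omega
      have h8 := hEb g hg1
      rw [hordg] at h8
      exact not_pp_mul ((Nat.coprime_primes hq hr1).2 (Ne.symm hrq)) hq.ne_one hr1.ne_one h8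
    have := Finset.card_le_card h3
    have h9 : ({p, q} : Finset ℕ).card ≤ 2 := Finset.card_le_two
    omega

theorem part1 (hns : ¬ Group.IsSolvable X) (hpp : EPPO X) (R : Subgroup X) [hRn : R.Normal] (hRs : Group.IsSolvable R) :
    ∃ p : ℕ, p.Prime ∧ IsPGroup p R := by
  by_cases hR1 : R = ⊥
  · subst hR1
    exact ⟨2, Nat.prime_two, IsPGroup.of_bot⟩
  obtain ⟨p, hp, P, hPn, hPp, hPR, V, hVn, hVc, hV1, hVp, h⟩ := lemmaC hpp R hRs hR1
  haveI : Fact p.Prime := ⟨hp⟩
  rcases h with h | ⟨q, hq, hqp, z, hzord, hzn⟩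
  · exact ⟨p, hp, by rw [h]; exact hPp⟩
  exfalso
  apply hns
  haveI : Fact q.Prime := ⟨hq⟩
  have hEb : EPPO (X ⧸ P) := eppo_quot hpp (QuotientGroup.mk' P) (QuotientGroup.mk'_surjective P)
  let φ : (X ⧸ P) →* MulAut (zpowers z) := MulAut.conjNormal
  have hcomm : ∀ a b : MulAut (zpowers z), a * b = b * a := by
    intro a b
    apply (IsCyclic.mulAutMulEquiv (zpowers z)).injective
    rw [map_mul, map_mul, mul_comm]
  have hz1 : z ≠ 1 := by
    rintro rfl
    rw [orderOf_one] at hzord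
    exact hq.ne_one hzord.symm
  have hker : IsPGroup q φ.ker := by
    rw [IsPGroup.iff_orderOf]
    rintro ⟨c, hc⟩
    rw [Subgroup.orderOf_mk]
    have hc2 : c * z * c⁻¹ = z := by
      have h1 := congrArg (fun f : MulAut (zpowers z) => ((f ⟨z, mem_zpowers z⟩ : zpowers z) : X ⧸ P)) (MonoidHom.mem_ker.1 hc)
      simpa [φ, MulAut.conjNormal_apply] using h1
    have hc3 : c * z = z * c := by
      calc c * z = (c * z * c⁻¹) * c := by group
        _ = z * c := by rw [hc2]
    by_cases hc1 : c = 1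
    · exact ⟨0, by rw [hc1, orderOf_one, pow_zero]⟩
    have hnc := not_coprime hEb hc3 hc1 hz1
    obtain ⟨r, k, hr, hk, hrk⟩ := (isPrimePow_nat_iff _).1 (hEb c hc1)
    have hrq : r = q := by
      by_contra hne
      apply hnc
      rw [← hrk, hzord]
      exact Nat.Coprime.pow_left k ((Nat.coprime_primes hr hq).2 hne)
    exact ⟨k, by rw [← hrk, hrq]⟩
  haveI h1 : Group.IsNilpotent φ.ker := hker.isNilpotent
  haveI h2 : Group.IsSolvable φ.ker := inferInstance
  haveI h3 : Group.IsSolvable (MulAut (zpowers z)) := isSolvable_of_comm hcomm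
  haveI h4 : Group.IsSolvable (X ⧸ P) :=
    solvable_of_ker_le_range φ.ker.subtype φ (by rw [Subgroup.range_subtype])
  haveI h5 : Group.IsNilpotent P := hPp.isNilpotent
  haveI h6 : Group.IsSolvable P := inferInstance
  exact solvable_of_ker_le_range P.subtype (QuotientGroup.mk' P)
    (by rw [QuotientGroup.ker_mk', Subgroup.range_subtype])

theorem mem_norm_of_conj_mem {T : Subgroup X} (m : X) (h : ∀ t ∈ T, m * t * m⁻¹ ∈ T) :
    m ∈ normalizer (T : Set X) := by
  have hmap : T.map (MulAut.conj m).toMonoidHom = T := by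
    refine Subgroup.eq_of_le_of_card_ge ?_ ?_
    · rintro _ ⟨t, ht, rfl⟩
      exact h t ht
    · exact (Nat.card_congr (T.equivMapOfInjective _ (MulAut.conj m).injective).toEquiv).le
  rw [Subgroup.mem_normalizer_iff]
  intro u
  refine ⟨h u, fun hu => ?_⟩
  rw [← hmap] at hu
  obtain ⟨t, ht, htu⟩ := hu
  have h2 : t = u := (MulAut.conj m).injective htu
  rwa [← h2]

theorem part2 (hns : ¬ Group.IsSolvable X) (hpp : EPPO X) (R : Subgroup X) [hRn : R.Normal] (hRs : Group.IsSolvable R)
    (hRmax : ∀ N : Subgroup X, N.Normal → Group.IsSolvable ↥N → N ≤ R) :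
    ∃ M : Subgroup (X ⧸ R), M.Normal ∧ IsSimpleGroup ↥M ∧ ¬ IsMulCommutative ↥M ∧
        ∀ N : Subgroup (X ⧸ R), N.Normal → N ≠ ⊥ → M ≤ N := by
  classical
  have hEb : EPPO (X ⧸ R) := eppo_quot hpp (QuotientGroup.mk' R) (QuotientGroup.mk'_surjective R)
  have hnosol : ∀ N : Subgroup (X ⧸ R), N.Normal → Group.IsSolvable N → N = ⊥ := by
    intro N hN hs
    let N' : Subgroup X := N.comap (QuotientGroup.mk' R)
    have hN'n : N'.Normal := hN.comap _
    have hRN' : R ≤ N' := by
      intro x hx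
      show ((x : X ⧸ R)) ∈ N
      rw [(QuotientGroup.eq_one_iff x).2 hx]
      exact N.one_mem
    have hN's : Group.IsSolvable N' := by
      let g : N' →* N := ((QuotientGroup.mk' R).comp N'.subtype).codRestrict N (fun x => x.2)
      let f : R →* N' := Subgroup.inclusion hRN'
      refine solvable_of_ker_le_range f g ?_
      rintro ⟨x, hx⟩ hk
      have h1 : ((x : X ⧸ R)) = 1 := congrArg Subtype.val (MonoidHom.mem_ker.1 hk)
      exact ⟨⟨x, (QuotientGroup.eq_one_iff x).1 h1⟩, rfl⟩
    have hle := hRmax N' hN'n hN's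
    rw [eq_bot_iff]
    intro y hy
    obtain ⟨x, rfl⟩ := QuotientGroup.mk_surjective y
    exact Subgroup.mem_bot.2 ((QuotientGroup.eq_one_iff x).2 (hle hy))
  have hnop : ∀ N : Subgroup (X ⧸ R), N.Normal → N ≠ ⊥ → ∀ p : ℕ, p.Prime → ∃ r : ℕ, r.Prime ∧ r ≠ p ∧ r ∣ Nat.card N := by
    intro N hN hN1 p hp
    by_contra hno
    push Not at hno
    apply hN1
    refine hnosol N hN ?_
    have hcard : ∃ k, Nat.card N = p ^ k := by
      have hne : Nat.card N ≠ 0 := Nat.card_pos.ne'
      refine ⟨_, Nat.eq_prime_pow_of_unique_prime_dvd hne ?_⟩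
      intro d hd hdvd
      by_contra hdp
      exact hno d hd hdp hdvd
    obtain ⟨k, hk⟩ := hcard
    haveI : Fact p.Prime := ⟨hp⟩
    haveI h2 : Group.IsNilpotent N := (IsPGroup.of_card hk).isNilpotent
    infer_instance
  -- minimal normal subgroup
  let S : Set (Subgroup (X ⧸ R)) := {N | N.Normal ∧ N ≠ ⊥}
  have hS : S.Nonempty := by
    refine ⟨⊤, inferInstance, ?_⟩
    intro h
    apply hns
    have h3 : Subsingleton (X ⧸ R) := ⟨fun a b => by
      have ha : a ∈ (⊥ : Subgroup (X ⧸ R)) := h ▸ Subgroup.mem_top a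
      have hb : b ∈ (⊥ : Subgroup (X ⧸ R)) := h ▸ Subgroup.mem_top b
      rw [Subgroup.mem_bot.1 ha, Subgroup.mem_bot.1 hb]⟩
    have h4 : Group.IsSolvable (X ⧸ R) := inferInstance
    exact solvable_of_ker_le_range R.subtype (QuotientGroup.mk' R)
      (by rw [QuotientGroup.ker_mk', Subgroup.range_subtype])
  obtain ⟨M, hM⟩ := Set.Finite.exists_minimal (Set.toFinite S) hS
  have hMn : M.Normal := hM.prop.1
  have hM1 : M ≠ ⊥ := hM.prop.2
  have hmin : ∀ N : Subgroup (X ⧸ R), N.Normal → N ≤ M → N = ⊥ ∨ N = M := by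
    intro N hN hNM
    by_cases h : N = ⊥
    · left; exact h
    · right
      exact le_antisymm hNM (hM.le_of_le ⟨hN, h⟩ hNM)
  let S₂ : Set (Subgroup (X ⧸ R)) := {T | T ≤ M ∧ T ≠ ⊥ ∧ M ≤ normalizer (T : Set (X ⧸ R))}
  -- members of `S₂` are not `p`-groups
  have hS₂p : ∀ T ∈ S₂, ∀ p : ℕ, p.Prime → ∃ r : ℕ, r.Prime ∧ r ≠ p ∧ r ∣ Nat.card T := by
    intro T hT p hp
    by_contra hno
    push Not at hno
    obtain ⟨hTM, hT1, hTN⟩ := hT
    have hcard : ∃ k, Nat.card T = p ^ k := by
      have hne : Nat.card T ≠ 0 := Nat.card_pos.ne'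
      refine ⟨_, Nat.eq_prime_pow_of_unique_prime_dvd hne ?_⟩
      intro d hd hdvd
      by_contra hdp
      exact hno d hd hdp hdvd
    obtain ⟨k, hk⟩ := hcard
    haveI : Fact p.Prime := ⟨hp⟩
    have hTp : IsPGroup p T := IsPGroup.of_card hk
    haveI hchar : (pCore p M).Characteristic := pCore_char' p M
    have hOn : ((pCore p M).map M.subtype).Normal := map_subtype_normal_of_char M (pCore p M)
    have hOp : IsPGroup p ((pCore p M).map M.subtype) := (pCore_isPGroup p).map _
    have hOs : Group.IsSolvable ((pCore p M).map M.subtype) := by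
      haveI h2 : Group.IsNilpotent ((pCore p M).map M.subtype) := hOp.isNilpotent
      infer_instance
    have hO1 := hnosol _ hOn hOs
    have hle : T.subgroupOf M ≤ pCore p M := by
      refine le_pCore p _ ?_ (hTp.of_equiv (Subgroup.subgroupOfEquivOfLe hTM).symm)
      rw [Subgroup.normal_subgroupOf_iff_le_normalizer hTM]
      exact hTN
    apply hT1
    rw [eq_bot_iff]
    intro t ht
    have h5 : t ∈ (pCore p M).map M.subtype := ⟨⟨t, hTM ht⟩, hle ht, rfl⟩
    rw [hO1] at h5
    exact h5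
  -- minimal members equal `M`
  have hkey : ∀ T, Minimal (· ∈ S₂) T → T = M := by
    intro T hT
    by_contra hne
    obtain ⟨hTM, hT1, hTN⟩ := hT.prop
    -- a conjugate different from `T`
    obtain ⟨g, hg⟩ : ∃ g : X ⧸ R, T.map (MulAut.conj g).toMonoidHom ≠ T := by
      by_contra hno
      push Not at hno
      have hTn : T.Normal := by
        constructor
        intro t ht g
        have h1 := hno g
        rw [← h1]
        exact ⟨t, ht, rfl⟩
      rcases hmin T hTn hTM with h | h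
      · exact hT1 h
      · exact hne h
    let T' : Subgroup (X ⧸ R) := T.map (MulAut.conj g).toMonoidHom
    have hT'M : T' ≤ M := by
      rintro _ ⟨t, ht, rfl⟩
      exact hMn.conj_mem t (hTM ht) g
    have hT'N : M ≤ normalizer (T' : Set (X ⧸ R)) := by
      intro m hm
      refine mem_norm_of_conj_mem m ?_
      rintro _ ⟨t, ht, rfl⟩
      have hm' : g⁻¹ * m * g ∈ M := by
        have := hMn.conj_mem m hm g⁻¹
        simpa using this
      have h2 := (Subgroup.mem_normalizer_iff.1 (hTN hm') t).1 ht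
      refine ⟨_, h2, ?_⟩
      show g * ((g⁻¹ * m * g) * t * (g⁻¹ * m * g)⁻¹) * g⁻¹ = m * (g * t * g⁻¹) * m⁻¹
      group
    have hinf : T ⊓ T' = ⊥ := by
      by_contra hne2
      have hmem : T ⊓ T' ∈ S₂ := by
        refine ⟨inf_le_left.trans hTM, hne2, ?_⟩
        intro m hm
        refine mem_norm_of_conj_mem m ?_
        rintro t ⟨ht1, ht2⟩
        exact ⟨(Subgroup.mem_normalizer_iff.1 (hTN hm) t).1 ht1, (Subgroup.mem_normalizer_iff.1 (hT'N hm) t).1 ht2⟩
      have hle := hT.le_of_le hmem inf_le_left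
      have hle2 : T ≤ T' := hle.trans inf_le_right
      apply hg
      symm
      refine Subgroup.eq_of_le_of_card_ge hle2 ?_
      exact (Nat.card_congr (T.equivMapOfInjective _ (MulAut.conj g).injective).symm.toEquiv).le
    have hcomm : ∀ a ∈ T, ∀ b ∈ T', a * b = b * a := by
      intro a ha b hb
      have h1 : a * b * a⁻¹ * b⁻¹ ∈ T' :=
        T'.mul_mem ((Subgroup.mem_normalizer_iff.1 (hT'N (hTM ha)) b).1 hb) (T'.inv_mem hb)
      have h2 : a * b * a⁻¹ * b⁻¹ ∈ T := by
        have h3 := (Subgroup.mem_normalizer_iff.1 (hTN (hT'M hb)) a⁻¹).1 (T.inv_mem ha)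
        have h4 := T.mul_mem ha h3
        have h5 : a * (b * a⁻¹ * b⁻¹) = a * b * a⁻¹ * b⁻¹ := by group
        rwa [h5] at h4
      have h6 : a * b * a⁻¹ * b⁻¹ ∈ T ⊓ T' := ⟨h2, h1⟩
      rw [hinf] at h6
      have h7 : a * b * a⁻¹ * b⁻¹ = 1 := Subgroup.mem_bot.1 h6
      calc a * b = (a * b * a⁻¹ * b⁻¹) * (b * a) := by group
        _ = b * a := by rw [h7, one_mul]
    -- two primes
    have hTnt : Nontrivial T := (Subgroup.nontrivial_iff_ne_bot T).2 hT1
    obtain ⟨p, hp, hpT⟩ : ∃ p : ℕ, p.Prime ∧ p ∣ Nat.card T :=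
      ⟨_, Nat.minFac_prime (Finite.one_lt_card_iff_nontrivial.2 hTnt).ne', Nat.minFac_dvd _⟩
    obtain ⟨r, hr, hrp, hrT⟩ := hS₂p T hT.prop p hp
    haveI : Fact p.Prime := ⟨hp⟩
    haveI : Fact r.Prime := ⟨hr⟩
    obtain ⟨a, ha⟩ := exists_prime_orderOf_dvd_card' p hpT
    obtain ⟨c, hc⟩ := exists_prime_orderOf_dvd_card' r hrT
    have ha' : orderOf (a : X ⧸ R) = p := by rw [Subgroup.orderOf_coe]; exact ha
    have hc' : orderOf (c : X ⧸ R) = r := by rw [Subgroup.orderOf_coe]; exact hc
    have hb : orderOf (MulAut.conj g (c : X ⧸ R)) = r := by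
      rw [← hc']
      exact orderOf_injective (MulAut.conj g).toMonoidHom (MulAut.conj g).injective _
    have hne1 : ∀ (u : X ⧸ R) (s : ℕ), s.Prime → orderOf u = s → u ≠ 1 := by
      rintro u s hs hu rfl
      rw [orderOf_one] at hu
      exact hs.ne_one hu.symm
    have hcop : Nat.Coprime (orderOf (a : X ⧸ R)) (orderOf (MulAut.conj g (c : X ⧸ R))) := by
      rw [ha', hb]
      exact (Nat.coprime_primes hp hr).2 (Ne.symm hrp)
    exact not_coprime hEb (hcomm _ a.2 _ ⟨c, c.2, rfl⟩) (hne1 _ p hp ha') (hne1 _ r hr hb) hcop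
  have hMS₂ : ∀ T ∈ S₂, T = M := by
    intro T hT
    obtain ⟨T₀, hT₀le, hT₀⟩ := (Set.toFinite S₂).exists_le_minimal hT
    have h1 := hkey T₀ hT₀
    exact le_antisymm hT.1 (h1 ▸ hT₀le)
  refine ⟨M, hMn, ?_, ?_, ?_⟩
  · haveI hMnt : Nontrivial M := (Subgroup.nontrivial_iff_ne_bot M).2 hM1
    refine ⟨?_⟩
    intro H hH
    by_cases hH1 : H = ⊥
    · left; exact hH1
    right
    have h1 : H.map M.subtype ∈ S₂ := by
      refine ⟨Subgroup.map_subtype_le _, ?_, ?_⟩
      · intro h
        exact hH1 ((Subgroup.map_eq_bot_iff_of_injective _ M.subtype_injective).1 h)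
      · intro m hm
        refine mem_norm_of_conj_mem m ?_
        rintro _ ⟨h, hh, rfl⟩
        exact ⟨⟨m, hm⟩ * h * ⟨m, hm⟩⁻¹, hH.conj_mem h hh _, rfl⟩
    have h2 := hMS₂ _ h1
    rw [eq_top_iff]
    intro x _
    have h3 : (x : X ⧸ R) ∈ H.map M.subtype := by
      rw [h2]
      exact x.2
    obtain ⟨y, hy, hyx⟩ := h3
    have : y = x := Subtype.ext hyx
    rwa [← this]
  · intro hc
    apply hM1
    refine hnosol M hMn ?_
    exact isSolvable_of_comm (fun a b => hc.1.1 a b)
  · intro N hN hN1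
    have hinf : (M ⊓ N).Normal := by
      haveI := hMn
      haveI := hN
      infer_instance
    rcases hmin (M ⊓ N) hinf inf_le_left with h | h
    · exfalso
      have hMnt : Nontrivial M := (Subgroup.nontrivial_iff_ne_bot M).2 hM1
      obtain ⟨p, hp, hpT⟩ : ∃ p : ℕ, p.Prime ∧ p ∣ Nat.card M :=
        ⟨_, Nat.minFac_prime (Finite.one_lt_card_iff_nontrivial.2 hMnt).ne', Nat.minFac_dvd _⟩
      obtain ⟨r, hr, hrp, hrT⟩ := hnop N hN hN1 p hp
      haveI : Fact p.Prime := ⟨hp⟩
      haveI : Fact r.Prime := ⟨hr⟩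
      obtain ⟨a, ha⟩ := exists_prime_orderOf_dvd_card' p hpT
      obtain ⟨b, hb⟩ := exists_prime_orderOf_dvd_card' r hrT
      have ha' : orderOf (a : X ⧸ R) = p := by rw [Subgroup.orderOf_coe]; exact ha
      have hb' : orderOf (b : X ⧸ R) = r := by rw [Subgroup.orderOf_coe]; exact hb
      have hne1 : ∀ (u : X ⧸ R) (s : ℕ), s.Prime → orderOf u = s → u ≠ 1 := by
        rintro u s hs hu rfl
        rw [orderOf_one] at hu
        exact hs.ne_one hu.symm
      have hcomm : (a : X ⧸ R) * b = b * a := by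
        have h1 : (a : X ⧸ R) * b * (a : X ⧸ R)⁻¹ * (b : X ⧸ R)⁻¹ ∈ N :=
          N.mul_mem (hN.conj_mem _ b.2 _) (N.inv_mem b.2)
        have h2 : (a : X ⧸ R) * b * (a : X ⧸ R)⁻¹ * (b : X ⧸ R)⁻¹ ∈ M := by
          have h3 := M.mul_mem a.2 (hMn.conj_mem _ (M.inv_mem a.2) b)
          have h5 : (a : X ⧸ R) * (b * (a : X ⧸ R)⁻¹ * (b : X ⧸ R)⁻¹) = a * b * (a : X ⧸ R)⁻¹ * (b : X ⧸ R)⁻¹ := by group
          rwa [h5] at h3
        have h6 : (a : X ⧸ R) * b * (a : X ⧸ R)⁻¹ * (b : X ⧸ R)⁻¹ ∈ M ⊓ N := ⟨h2, h1⟩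
        rw [h] at h6
        have h7 : (a : X ⧸ R) * b * (a : X ⧸ R)⁻¹ * (b : X ⧸ R)⁻¹ = 1 := Subgroup.mem_bot.1 h6
        calc (a : X ⧸ R) * b = ((a : X ⧸ R) * b * (a : X ⧸ R)⁻¹ * (b : X ⧸ R)⁻¹) * (b * a) := by group
          _ = b * a := by rw [h7, one_mul]
      refine not_coprime hEb hcomm (hne1 _ p hp ha') (hne1 _ r hr hb') ?_
      rw [ha', hb']
      exact (Nat.coprime_primes hp hr).2 (Ne.symm hrp)
    · rw [← h]
      exact inf_le_right

end basics

end H6Main

/-- Let G be a finite non-solvable group in which every element has prime-power order, and let R be its largest solvable normal subgroup. Then R is a p-group for some prime p; G/R has a non-abelian simple normal subgroup contained in every nontrivial normal subgroup of G/R (its unique minimal normal subgroup); and the order of every solvable subgroup of G has at most two prime divisors. -/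
theorem result {G : Type*} [Group G] [Finite G] (hns : ¬ Group.IsSolvable G) (hpp : ∀ g : G, g ≠ 1 → IsPrimePow (orderOf g))
    (R : Subgroup G) [R.Normal] (hRs : Group.IsSolvable ↥R) (hRmax : ∀ N : Subgroup G, N.Normal → Group.IsSolvable ↥N → N ≤ R) :
    (∃ p : ℕ, p.Prime ∧ IsPGroup p ↥R) ∧
      (∃ M : Subgroup (G ⧸ R), M.Normal ∧ IsSimpleGroup ↥M ∧ ¬ IsMulCommutative ↥M ∧
        ∀ N : Subgroup (G ⧸ R), N.Normal → N ≠ ⊥ → M ≤ N) ∧
      ∀ H : Subgroup G, Group.IsSolvable ↥H → (Nat.card ↥H).primeFactors.card ≤ 2 := by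
  refine ⟨part1 hns hpp R hRs, part2 hns hpp R hRs hRmax, ?_⟩
  intro H hH
  exact part3 (eppo_sub hpp H) hH

end Cfsg.Agent.S3992
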