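import Mathlib
import Cfsg.Statements.S3994
import Cfsg.Agent.Lib.H6Frob
import Cfsg.Agent.Lib.CharIrr
-- import your own Cfsg.Agent.* helpers here

set_option autoImplicit false
open Cfsg

namespace Cfsg.Agent.S3994

open Cfsg

universe u

section

variable {G : Type u} [Group G] [Fintype G] [DecidableEq G]

/-- Sums of class functions over conjugation invariant sets. -/
theorem dvd_sum_class (U : Finset G) (hU : ∀ u ∈ U, ∀ x, IsConj x u → x ∈ U) (f : G → ℕ)
    (hf : ∀ u x, IsConj x u → f x = f u) (m : ℕ)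
    (h : ∀ u ∈ U, m ∣ Nat.card {x : G // IsConj x u} * f u) : m ∣ ∑ u ∈ U, f u := by
  classical
  rw [← Finset.sum_fiberwise U (ConjClasses.mk) f]
  apply Finset.dvd_sum
  intro c _
  by_cases hne : (U.filter (fun u => ConjClasses.mk u = c)).Nonempty
  · obtain ⟨u₀, hu₀⟩ := hne
    rw [Finset.mem_filter] at hu₀
    obtain ⟨hu₀U, rfl⟩ := hu₀
    have h1 : ∑ u ∈ U.filter (fun u => ConjClasses.mk u = ConjClasses.mk u₀), f u
        = ∑ u ∈ U.filter (fun u => ConjClasses.mk u = ConjClasses.mk u₀), f u₀ := by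
      apply Finset.sum_congr rfl
      intro u hu
      rw [Finset.mem_filter] at hu
      exact hf u₀ u (ConjClasses.mk_eq_mk_iff_isConj.1 hu.2)
    rw [h1, Finset.sum_const, smul_eq_mul]
    have h2 : (U.filter (fun u => ConjClasses.mk u = ConjClasses.mk u₀)).card = Nat.card {x : G // IsConj x u₀} := by
      rw [Nat.card_eq_fintype_card, Fintype.card_subtype]
      congr 1
      ext x
      simp only [Finset.mem_filter, Finset.mem_univ, true_and]
      constructor
      · rintro ⟨_, hx⟩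
        exact ConjClasses.mk_eq_mk_iff_isConj.1 hx
      · intro hx
        exact ⟨hU u₀ hu₀U x hx, ConjClasses.mk_eq_mk_iff_isConj.2 hx⟩
    rw [h2]
    exact h u₀ hu₀U
  · rw [Finset.not_nonempty_iff_eq_empty] at hne
    rw [hne, Finset.sum_empty]
    exact dvd_zero m

end

section

variable {G : Type u} [Group G] [Finite G]

/-- The count inside a centralizer. -/
theorem dvd_count (u : G) (m : ℕ) :
    Nat.gcd (Nat.card (Subgroup.centralizer ({u} : Set G))) m ∣
      Nat.card {v : G // v * u = u * v ∧ v ^ m = 1} := by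
  classical
  set C := Subgroup.centralizer ({u} : Set G) with hC
  set d := Nat.gcd (Nat.card C) m with hd
  have h1 := Cfsg.Agent.Lib.H6Frob.frobenius C d (Nat.gcd_dvd_left _ _)
  have hmem : ∀ v : G, v ∈ C ↔ v * u = u * v := by
    intro v
    rw [hC, Subgroup.mem_centralizer_singleton_iff]
  have h2 : Nat.card {g : C // g ^ d = 1} = Nat.card {v : G // v * u = u * v ∧ v ^ m = 1} := by
    apply Nat.card_congr
    refine ⟨fun x => ⟨(x.1 : G), (hmem _).1 x.1.2, ?_⟩,
      fun y => ⟨⟨y.1, (hmem _).2 y.2.1⟩, ?_⟩, ?_, ?_⟩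
    · obtain ⟨⟨x, hx⟩, hxd⟩ := x
      have h3 : (x : G) ^ d = 1 := congrArg Subtype.val hxd
      show x ^ m = 1
      obtain ⟨c, hc⟩ := (Nat.gcd_dvd_right (Nat.card C) m)
      rw [hc, pow_mul, ← hd, h3, one_pow]
    · apply Subtype.ext
      show y.1 ^ d = 1
      have h3 : orderOf (⟨y.1, (hmem _).2 y.2.1⟩ : C) ∣ Nat.card C := orderOf_dvd_natCard _
      rw [Subgroup.orderOf_mk] at h3
      have h4 : orderOf y.1 ∣ m := orderOf_dvd_of_pow_eq_one y.2.2
      exact orderOf_dvd_iff_pow_eq_one.1 (Nat.dvd_gcd h3 h4)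
    · intro x
      rfl
    · intro y
      rfl
  rw [← h2]
  exact h1

theorem count_conj {x u : G} (h : IsConj x u) (m : ℕ) :
    Nat.card {v : G // v * u = u * v ∧ v ^ m = 1} = Nat.card {v : G // v * x = x * v ∧ v ^ m = 1} := by
  obtain ⟨c, hc⟩ := isConj_iff.1 h
  apply Nat.card_congr
  refine ⟨fun v => ⟨c⁻¹ * v.1 * c, ?_, ?_⟩, fun v => ⟨c * v.1 * c⁻¹, ?_, ?_⟩, ?_, ?_⟩
  · have h1 := v.2.1
    subst hc
    have h2 : c⁻¹ * v.1 * c * x = c⁻¹ * (v.1 * (c * x * c⁻¹)) * c := by group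
    have h3 : x * (c⁻¹ * v.1 * c) = c⁻¹ * ((c * x * c⁻¹) * v.1) * c := by group
    rw [h2, h3, h1]
  · have : (c⁻¹ * v.1 * c) = c⁻¹ * v.1 * c⁻¹⁻¹ := by simp
    rw [this, conj_pow, v.2.2]
    simp
  · have h1 := v.2.1
    subst hc
    have h2 : c * v.1 * c⁻¹ * (c * x * c⁻¹) = c * (v.1 * x) * c⁻¹ := by group
    have h3 : (c * x * c⁻¹) * (c * v.1 * c⁻¹) = c * (x * v.1) * c⁻¹ := by group
    rw [h2, h3, h1]
  · rw [conj_pow, v.2.2]
    simp
  · intro v
    apply Subtype.ext
    show c * (c⁻¹ * v.1 * c) * c⁻¹ = v.1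
    group
  · intro v
    apply Subtype.ext
    show c⁻¹ * (c * v.1 * c⁻¹) * c = v.1
    group

end

/-- The decomposition. -/
theorem decomp {G : Type u} [Group G] [Finite G] (n k m : ℕ) (hkm : Nat.Coprime k m) (hN : Nat.card G = k * m)
    (hnm : Nat.Coprime n m) :
    Nat.card {g : G // n ∣ orderOf g} =
      Nat.card (Σ u : {u : G // u ^ k = 1 ∧ n ∣ orderOf u}, {v : G // v * u.1 = u.1 * v ∧ v ^ m = 1}) := by
  classical
  have hb : (1 : ℤ) = k * Nat.gcdA k m + m * Nat.gcdB k m := by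
    have := Nat.gcd_eq_gcd_ab k m
    rw [hkm] at this
    exact_mod_cast this
  set x := Nat.gcdA k m with hx
  set y := Nat.gcdB k m with hy
  have hg1 : ∀ g : G, g ^ (k * m) = 1 := fun g => by rw [← hN]; exact pow_card_eq_one'
  have hco : ∀ u v : G, u ^ k = 1 → v ^ m = 1 → Nat.Coprime (orderOf u) (orderOf v) := by
    intro u v hu hv
    exact Nat.Coprime.coprime_dvd_left (orderOf_dvd_of_pow_eq_one hu)
      (Nat.Coprime.coprime_dvd_right (orderOf_dvd_of_pow_eq_one hv) hkm)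
  symm
  apply Nat.card_congr
  refine Equiv.ofBijective (fun w => ⟨(w.1.1 : G) * w.2.1, ?_⟩) ⟨?_, ?_⟩
  · obtain ⟨⟨u, hu, hun⟩, ⟨v, hvc, hv⟩⟩ := w
    have hc : Commute u v := hvc.symm
    show n ∣ orderOf (u * v)
    rw [hc.orderOf_mul_eq_mul_orderOf_of_coprime (hco u v hu hv)]
    exact hun.mul_right _
  · have key : ∀ (u v : G), u ^ k = 1 → v ^ m = 1 → v * u = u * v → (u * v) ^ ((m : ℤ) * y) = u := by
      intro u v hu hv hc
      have hc' : Commute u v := hc.symm
      rw [hc'.mul_zpow]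
      have h1 : v ^ ((m : ℤ) * y) = 1 := by
        rw [zpow_mul, zpow_natCast, hv, one_zpow]
      have h2 : u ^ ((m : ℤ) * y) = u := by
        have h3 : (m : ℤ) * y = 1 - k * x := by linarith
        rw [h3, zpow_sub, zpow_one, zpow_mul, zpow_natCast, hu, one_zpow, inv_one, mul_one]
      rw [h1, h2, mul_one]
    rintro ⟨⟨u, hu, hun⟩, ⟨v, hvc, hv⟩⟩ ⟨⟨u', hu', hun'⟩, ⟨v', hvc', hv'⟩⟩ heq
    have heq' : u * v = u' * v' := congrArg Subtype.val heq
    have h1 := key u v hu hv hvc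
    have h2 := key u' v' hu' hv' hvc'
    have huu : u = u' := by rw [← h1, ← h2, heq']
    subst huu
    have hvv : v = v' := mul_left_cancel heq'
    subst hvv
    rfl
  · rintro ⟨g, hg⟩
    have hcomm : Commute (g ^ ((m : ℤ) * y)) (g ^ ((k : ℤ) * x)) := (Commute.refl g).zpow_zpow _ _
    have h1 : (g ^ ((m : ℤ) * y)) ^ k = 1 := by
      rw [← zpow_natCast, ← zpow_mul]
      have : (m : ℤ) * y * k = ((k * m : ℕ) : ℤ) * y := by push_cast; ring
      rw [this, zpow_mul, zpow_natCast, hg1, one_zpow]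
    have h2 : (g ^ ((k : ℤ) * x)) ^ m = 1 := by
      rw [← zpow_natCast, ← zpow_mul]
      have : (k : ℤ) * x * m = ((k * m : ℕ) : ℤ) * x := by push_cast; ring
      rw [this, zpow_mul, zpow_natCast, hg1, one_zpow]
    have h3 : g ^ ((m : ℤ) * y) * g ^ ((k : ℤ) * x) = g := by
      rw [← zpow_add, add_comm, ← hb, zpow_one]
    have h4 : n ∣ orderOf (g ^ ((m : ℤ) * y)) := by
      have h5 := hcomm.orderOf_mul_eq_mul_orderOf_of_coprime (hco _ _ h1 h2)
      rw [h3] at h5
      rw [h5] at hg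
      refine Nat.Coprime.dvd_of_dvd_mul_right ?_ hg
      exact Nat.Coprime.coprime_dvd_right (orderOf_dvd_of_pow_eq_one h2) hnm
    refine ⟨⟨⟨g ^ ((m : ℤ) * y), h1, h4⟩, ⟨g ^ ((k : ℤ) * x), hcomm.eq.symm.symm ▸ hcomm.symm.eq, h2⟩⟩, ?_⟩
    exact Subtype.ext h3


/-- Let G be a finite group and n a positive integer. The number of elements of G whose order is divisible by n is either 0 or divisible by the largest divisor of the order of G that is coprime to n. -/
theorem result {G : Type*} [Group G] [Finite G] (n : ℕ) (hn : 0 < n) :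
    Nat.card {g : G // n ∣ orderOf g} = 0 ∨
      (Nat.card G / Nat.gcd (Nat.card G) (n ^ Nat.card G)) ∣ Nat.card {g : G // n ∣ orderOf g} := by
  classical
  right
  haveI := Fintype.ofFinite G
  set N := Nat.card G with hN
  have hNpos : 0 < N := Nat.card_pos
  set k := Nat.gcd N (n ^ N) with hk
  have hkd : k ∣ N := Nat.gcd_dvd_left _ _
  have hk0 : 0 < k := Nat.gcd_pos_of_pos_left _ hNpos
  set m := N / k with hm
  have hkm : k * m = N := Nat.mul_div_cancel' hkd
  have hnm : Nat.Coprime n m := by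
    apply Nat.coprime_of_dvd
    intro q hq hqn hqm
    -- `q` divides `n` and `N / gcd`
    have h1 : q ^ (Nat.factorization N q) ∣ n ^ N := by
      have h2 : Nat.factorization N q ≤ N := (Nat.factorization_lt q hNpos.ne').le
      exact (pow_dvd_pow q h2).trans (pow_dvd_pow_of_dvd hqn N)
    have h3 : q ^ (Nat.factorization N q) ∣ N := Nat.ordProj_dvd N q
    have h4 : q ^ (Nat.factorization N q) ∣ k := Nat.dvd_gcd h3 h1
    have h5 : q ^ (Nat.factorization N q) * q ∣ k * m := Nat.mul_dvd_mul h4 hqm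
    rw [hkm, ← pow_succ] at h5
    exact (Nat.pow_succ_factorization_not_dvd hNpos.ne' hq) h5
  have hkm' : Nat.Coprime k m := by
    apply Nat.coprime_of_dvd
    intro q hq hqk hqm
    have h1 : q ∣ n ^ N := hqk.trans (Nat.gcd_dvd_right _ _)
    have h2 : q ∣ n := hq.dvd_of_dvd_pow h1
    exact (Nat.Prime.not_coprime_iff_dvd.2 ⟨q, hq, h2, hqm⟩) hnm
  show m ∣ _
  rw [decomp n k m hkm' hkm.symm hnm]
  -- the sum
  let U : Finset G := Finset.univ.filter (fun u => u ^ k = 1 ∧ n ∣ orderOf u)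
  let f : G → ℕ := fun u => Nat.card {v : G // v * u = u * v ∧ v ^ m = 1}
  have hcard : Nat.card (Σ u : {u : G // u ^ k = 1 ∧ n ∣ orderOf u}, {v : G // v * u.1 = u.1 * v ∧ v ^ m = 1})
      = ∑ u ∈ U, f u := by
    rw [Nat.card_sigma]
    rw [Finset.sum_subtype U (p := fun u => u ^ k = 1 ∧ n ∣ orderOf u) (f := f) (by simp [U])]
  rw [hcard]
  apply dvd_sum_class U ?_ f ?_ m ?_
  · intro u hu x hx
    simp only [U, Finset.mem_filter, Finset.mem_univ, true_and] at hu ⊢
    obtain ⟨c, hc⟩ := isConj_iff.1 hx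
    have h1 : orderOf x = orderOf u := by
      rw [← hc]
      simpa using ((MulAut.conj c).orderOf_eq x).symm
    refine ⟨?_, h1 ▸ hu.2⟩
    have h2 : x = c⁻¹ * u * c := by rw [← hc]; group
    rw [h2]
    have h3 : (c⁻¹ * u * c) = c⁻¹ * u * c⁻¹⁻¹ := by simp
    rw [h3, conj_pow, hu.1]
    simp
  · intro u x hx
    exact (count_conj hx m).symm
  · intro u _
    have h1 := dvd_count u m
    have h2 := Cfsg.Agent.Lib.CharIrr.card_class_mul_card_centralizer u
    have h3 : m ∣ Nat.card {x : G // IsConj x u} * Nat.card (Subgroup.centralizer ({u} : Set G)) := by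
      rw [h2, ← hN, ← hkm]
      exact Dvd.intro_left _ rfl
    have h4 : Nat.gcd m (Nat.card {x : G // IsConj x u} * Nat.card (Subgroup.centralizer ({u} : Set G))) ∣
        Nat.gcd m (Nat.card {x : G // IsConj x u}) * Nat.gcd m (Nat.card (Subgroup.centralizer ({u} : Set G))) :=
      gcd_mul_dvd_mul_gcd m (Nat.card {x : G // IsConj x u}) (Nat.card (Subgroup.centralizer ({u} : Set G)))
    rw [Nat.gcd_eq_left h3] at h4
    refine h4.trans ?_
    refine Nat.mul_dvd_mul (Nat.gcd_dvd_right _ _) ?_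
    rw [Nat.gcd_comm]
    exact h1

end Cfsg.Agent.S3994
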