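import Mathlib
import Cfsg.Statements.S3995
import Cfsg.Agent.Lib.H6Frob
import Cfsg.Agent.Lib.UniqueSub
-- import your own Cfsg.Agent.* helpers here

set_option autoImplicit false
open Cfsg

namespace Cfsg.Agent.S3995

/-- a carrier in the smallest universe -/
def FinModel (k : ℕ) : Type := Fin k

instance (k : ℕ) : Finite (FinModel k) := inferInstanceAs (Finite (Fin k))

section
variable {G : Type*} [Group G] [Finite G]

theorem card_pow_eq_sum (d : ℕ) (s : Finset ℕ) (h1 : ∀ g : G, g ^ d = 1 → orderOf g ∈ s)
    (h2 : ∀ e ∈ s, e ∣ d) :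
    Nat.card {g : G // g ^ d = 1} = ∑ e ∈ s, Nat.card {g : G // orderOf g = e} := by
  classical
  haveI := Fintype.ofFinite G
  simp only [Nat.card_eq_fintype_card, Fintype.card_subtype]
  rw [Finset.card_eq_sum_card_fiberwise (f := orderOf) (t := s)
    (fun g hg => h1 g (Finset.mem_filter.1 hg).2)]
  refine Finset.sum_congr rfl fun e he => ?_
  congr 1
  ext g
  simp only [Finset.mem_filter, Finset.mem_univ, true_and]
  constructor
  · rintro ⟨_, h⟩
    exact h
  · intro h
    refine ⟨orderOf_dvd_iff_pow_eq_one.1 ?_, h⟩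
    rw [h]
    exact h2 e he

theorem card_order_one : Nat.card {g : G // orderOf g = 1} = 1 := by
  rw [Nat.card_eq_one_iff_unique]
  refine ⟨⟨?_⟩, ⟨⟨1, orderOf_one⟩⟩⟩
  rintro ⟨a, ha⟩ ⟨b, hb⟩
  rw [orderOf_eq_one_iff] at ha hb
  exact Subtype.ext (ha.trans hb.symm)

theorem card_order_zero {m : ℕ} (h : ∀ g : G, orderOf g ≠ m) : Nat.card {g : G // orderOf g = m} = 0 := by
  haveI : IsEmpty {g : G // orderOf g = m} := ⟨fun x => h x.1 x.2⟩
  exact Nat.card_of_isEmpty

theorem card_order_pos {g : G} : 0 < Nat.card {x : G // orderOf x = orderOf g} := by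
  haveI : Nonempty {x : G // orderOf x = orderOf g} := ⟨⟨g, rfl⟩⟩
  exact Nat.card_pos

theorem card_order_ne_one {g : G} (h : 3 ≤ orderOf g) : Nat.card {x : G // orderOf x = orderOf g} ≠ 1 := by
  intro h1
  rw [Nat.card_eq_one_iff_unique] at h1
  have h2 := h1.1.elim (⟨g, rfl⟩ : {x : G // orderOf x = orderOf g}) ⟨g⁻¹, orderOf_inv g⟩
  have h3 : g = g⁻¹ := congrArg Subtype.val h2
  have h4 : g ^ 2 = 1 := by
    rw [pow_two]
    nth_rw 1 [h3]
    simp
  have h5 := Nat.le_of_dvd (by norm_num) (orderOf_dvd_of_pow_eq_one h4)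
  omega

theorem exists_order_of_pow {g : G} {p k j : ℕ} (hp : p.Prime) (hg : orderOf g = p ^ k) (hj : j ≤ k) :
    ∃ x : G, orderOf x = p ^ j := by
  refine ⟨g ^ (p ^ (k - j)), ?_⟩
  rw [orderOf_pow_of_dvd (pow_pos hp.pos _).ne' (by rw [hg]; exact pow_dvd_pow p (Nat.sub_le k j)), hg]
  rw [Nat.pow_div (Nat.sub_le k j) hp.pos]
  congr 1
  omega

end

/-- Let G be a finite group such that the numbers of elements of each order that occurs in G (the numbers #{g : o(g) = m}, m ranging over the element orders of G) take exactly two values, 1 and some n ≠ 1. Then either G is a p-group of exponent p and order at least 3 for some prime p, or G is the quaternion group of order 8, or G is cyclic of order 4, or G ≅ Z₂ × P for a p-group P of exponent p with p an odd prime. -/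
theorem result {G : Type*} [Group G] [Finite G] (n : ℕ) (hn : n ≠ 1) (h : ((fun m : ℕ => Nat.card {g : G // orderOf g = m}) '' Set.range (orderOf : G → ℕ)) = {1, n}) :
    (∃ p : ℕ, p.Prime ∧ IsPGroup p G ∧ 3 ≤ Nat.card G ∧ Monoid.exponent G = p) ∨
      Nonempty (G ≃* QuaternionGroup 2) ∨ (IsCyclic G ∧ Nat.card G = 4) ∨
      (∃ (p : ℕ) (P : Type) (_ : Group P) (_ : Finite P), p.Prime ∧ p ≠ 2 ∧ IsPGroup p P ∧ Monoid.exponent P = p ∧
        Nonempty (G ≃* Multiplicative (ZMod 2) × P)) := by
  classical
  set c : ℕ → ℕ := fun m => Nat.card {g : G // orderOf g = m} with hc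
  have hc1 : c 1 = 1 := card_order_one
  have himg : ∀ g : G, c (orderOf g) = 1 ∨ c (orderOf g) = n := by
    intro g
    have h1 : c (orderOf g) ∈ ((fun m : ℕ => Nat.card {g : G // orderOf g = m}) '' Set.range (orderOf : G → ℕ)) :=
      ⟨orderOf g, ⟨g, rfl⟩, rfl⟩
    rw [h] at h1
    simpa using h1
  obtain ⟨g₀, hg₀⟩ : ∃ g : G, c (orderOf g) = n := by
    have h1 : n ∈ ((fun m : ℕ => Nat.card {g : G // orderOf g = m}) '' Set.range (orderOf : G → ℕ)) := by
      rw [h]; simp
    obtain ⟨m, ⟨g, rfl⟩, hm⟩ := h1
    exact ⟨g, hm⟩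
  have hnpos : 0 < n := by
    rw [← hg₀]
    exact card_order_pos
  have hge3 : ∀ g : G, 3 ≤ orderOf g → c (orderOf g) = n := fun g hg =>
    (himg g).resolve_left (card_order_ne_one hg)
  have hge3' : ∀ m, 3 ≤ m → (∃ g : G, orderOf g = m) → c m = n := by
    rintro m hm ⟨g, rfl⟩
    exact hge3 g hm
  have hzero : ∀ m, (¬ ∃ g : G, orderOf g = m) → c m = 0 := fun m h1 =>
    card_order_zero (fun g hg => h1 ⟨g, hg⟩)
  have hor : ∀ m, 3 ≤ m → c m = 0 ∨ c m = n := by
    intro m hm
    by_cases h1 : ∃ g : G, orderOf g = m
    · exact Or.inr (hge3' m hm h1)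
    · exact Or.inl (hzero m h1)
  have hfrob : ∀ d, d ∣ Nat.card G → d ∣ Nat.card {g : G // g ^ d = 1} :=
    fun d hd => Cfsg.Agent.Lib.H6Frob.frobenius G d hd
  -- order divides the group order
  have hdvdG : ∀ g : G, orderOf g ∣ Nat.card G := fun g => orderOf_dvd_natCard g
  -- odd primes
  have hodd1 : ∀ p : ℕ, p.Prime → p ≠ 2 → p ∣ Nat.card G → c p = n ∧ p ∣ n + 1 := by
    intro p hp hp2 hpG
    haveI : Fact p.Prime := ⟨hp⟩
    obtain ⟨x, hx⟩ := exists_prime_orderOf_dvd_card' p hpG
    have hp3 : 3 ≤ p := by
      have := hp.two_le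
      omega
    have h1 : c p = n := hge3' p hp3 ⟨x, hx⟩
    refine ⟨h1, ?_⟩
    have h2 := hfrob p hpG
    have h3 := card_pow_eq_sum (G := G) p {1, p} (by
      intro g hg
      have h4 := orderOf_dvd_of_pow_eq_one hg
      rcases (Nat.dvd_prime hp).1 h4 with h5 | h5 <;> simp [h5]) (by
      intro e he
      simp only [Finset.mem_insert, Finset.mem_singleton] at he
      rcases he with rfl | rfl
      · exact one_dvd _
      · exact dvd_rfl)
    rw [Finset.sum_pair hp.one_lt.ne] at h3
    rw [h3] at h2
    change p ∣ c 1 + c p at h2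
    rw [hc1, h1] at h2
    rwa [add_comm] at h2
  have hodd2 : ∀ p : ℕ, p.Prime → p ≠ 2 → ∀ g : G, orderOf g ≠ p ^ 2 := by
    intro p hp hp2 g hg
    have hpG : p ∣ Nat.card G := (dvd_pow_self p (by norm_num)).trans (hg ▸ hdvdG g)
    obtain ⟨h1, h2⟩ := hodd1 p hp hp2 hpG
    have hp3 : 3 ≤ p := by
      have := hp.two_le
      omega
    have h3 : c (p ^ 2) = n := by
      rw [← hg]
      refine hge3 g ?_
      rw [hg]
      calc 3 ≤ p := hp3
        _ ≤ p ^ 2 := by nlinarith
    have h4 := hfrob (p ^ 2) (hg ▸ hdvdG g)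
    have h5 := card_pow_eq_sum (G := G) (p ^ 2) {1, p, p ^ 2} (by
      intro g hg
      obtain ⟨k, hk, hk2⟩ := (Nat.dvd_prime_pow hp).1 (orderOf_dvd_of_pow_eq_one hg)
      interval_cases k <;> simp [hk2]) (by
      intro e he
      simp only [Finset.mem_insert, Finset.mem_singleton] at he
      rcases he with rfl | h7 | rfl
      · exact one_dvd _
      · rw [h7]; exact dvd_pow_self p (by norm_num)
      · exact dvd_rfl)
    have hne1 : p ≠ p ^ 2 := by
      intro h6
      nlinarith
    rw [Finset.sum_insert (by simp [hp.one_lt.ne, (one_lt_pow₀ hp.one_lt (by norm_num : 2 ≠ 0)).ne]),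
      Finset.sum_pair hne1] at h5
    rw [h5] at h4
    change p ^ 2 ∣ c 1 + (c p + c (p ^ 2)) at h4
    rw [hc1, h1, h3] at h4
    have h6 : p ∣ 1 + (n + n) := (dvd_pow_self p (by norm_num)).trans h4
    have h7 : p ∣ (1 + (n + n)) + 1 := by
      have : (1 + (n + n)) + 1 = 2 * (n + 1) := by ring
      rw [this]
      exact Dvd.dvd.mul_left h2 2
    have h8 := (Nat.dvd_add_right h6).1 h7
    exact hp.one_lt.ne' (Nat.dvd_one.1 h8)
  have hodd3 : ∀ p : ℕ, p.Prime → p ≠ 2 → ∀ g : G, ∀ k, orderOf g = p ^ k → k ≤ 1 := by
    intro p hp hp2 g k hg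
    by_contra hk
    push_neg at hk
    obtain ⟨x, hx⟩ := exists_order_of_pow hp hg (by omega : 2 ≤ k)
    exact hodd2 p hp hp2 x hx
  -- at most one odd prime
  have huniq : ∀ p q : ℕ, p.Prime → q.Prime → p ≠ 2 → q ≠ 2 → p ∣ Nat.card G → q ∣ Nat.card G → p = q := by
    intro p q hp hq hp2 hq2 hpG hqG
    by_contra hne
    obtain ⟨h1, h2⟩ := hodd1 p hp hp2 hpG
    obtain ⟨h3, h4⟩ := hodd1 q hq hq2 hqG
    have hcop : Nat.Coprime p q := (Nat.coprime_primes hp hq).2 hne
    have hpq : p * q ∣ Nat.card G := hcop.mul_dvd_of_dvd_of_dvd hpG hqG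
    have h5 := hfrob (p * q) hpq
    have hp3 : 3 ≤ p := by
      have := hp.two_le
      omega
    have hq3 : 3 ≤ q := by
      have := hq.two_le
      omega
    have hpqge : 3 ≤ p * q := by nlinarith
    have h6 := card_pow_eq_sum (G := G) (p * q) {1, p, q, p * q} (by
      intro g hg
      have h7 := orderOf_dvd_of_pow_eq_one hg
      obtain ⟨a, b, ha, hb, hab⟩ := (Nat.dvd_mul).1 h7
      rcases (Nat.dvd_prime hp).1 ha with rfl | rfl <;> rcases (Nat.dvd_prime hq).1 hb with rfl | rfl <;>
        simp [← hab]) (by
      intro e he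
      simp only [Finset.mem_insert, Finset.mem_singleton] at he
      rcases he with rfl | rfl | rfl | rfl
      · exact one_dvd _
      · exact Dvd.intro _ rfl
      · exact Dvd.intro_left _ rfl
      · exact dvd_rfl)
    rw [Finset.sum_insert (by
        simp only [Finset.mem_insert, Finset.mem_singleton, not_or]
        refine ⟨by omega, by omega, by nlinarith⟩),
      Finset.sum_insert (by
        simp only [Finset.mem_insert, Finset.mem_singleton, not_or]
        refine ⟨hne, ?_⟩
        intro h7
        have : p * 1 = p * q := by rw [mul_one]; exact h7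
        have := Nat.eq_of_mul_eq_mul_left hp.pos this
        omega),
      Finset.sum_pair (by
        intro h7
        have : 1 * q = p * q := by rw [one_mul]; exact h7
        have := Nat.eq_of_mul_eq_mul_right hq.pos this
        omega)] at h6
    rw [h6] at h5
    change p * q ∣ c 1 + (c p + (c q + c (p * q))) at h5
    rw [hc1, h1, h3] at h5
    have h7 : p ∣ 1 + (n + (n + c (p * q))) := (Dvd.intro _ rfl).trans h5
    rcases hor (p * q) hpqge with h8 | h8 <;> rw [h8] at h7
    · have h9 : p ∣ (1 + (n + (n + 0))) + 1 := by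
        have : (1 + (n + (n + 0))) + 1 = 2 * (n + 1) := by ring
        rw [this]
        exact Dvd.dvd.mul_left h2 2
      have h10 := (Nat.dvd_add_right h7).1 h9
      exact hp.one_lt.ne' (Nat.dvd_one.1 h10)
    · have h9 : p ∣ (1 + (n + (n + n))) + 2 := by
        have : (1 + (n + (n + n))) + 2 = 3 * (n + 1) := by ring
        rw [this]
        exact Dvd.dvd.mul_left h2 3
      have h10 := (Nat.dvd_add_right h7).1 h9
      have h11 := (Nat.prime_dvd_prime_iff_eq hp Nat.prime_two).1 h10
      exact hp2 h11
  -- the prime two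
  have h2fac : ∀ (x : G), (∃ k, orderOf x = 2 ^ k) → orderOf x = 1 ∨ orderOf x = 2 ∨ orderOf x = 4 ∨ orderOf x = 2 ^ 3 ∨ ∃ k, 4 ≤ k ∧ orderOf x = 2 ^ k := by
    rintro x ⟨k, hk⟩
    rcases Nat.lt_or_ge k 4 with h1 | h1
    · interval_cases k
      · left; simpa using hk
      · right; left; simpa using hk
      · right; right; left; simpa using hk
      · right; right; right; left; exact hk
    · right; right; right; right; exact ⟨k, h1, hk⟩
  have hfour : (∃ g : G, orderOf g = 4) → c 2 = 1 ∧ c 4 = n ∧ (n + 2) % 4 = 0 ∧ ∀ g : G, ∀ k, orderOf g = 2 ^ k → k ≤ 2 := by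
    rintro ⟨g, hg⟩
    have h4G : 4 ∣ Nat.card G := hg ▸ hdvdG g
    have h4 : c 4 = n := hge3' 4 (by norm_num) ⟨g, hg⟩
    have h2 : c 2 = 1 ∨ c 2 = n := by
      have hz : orderOf (g ^ 2) = 2 := by
        rw [orderOf_pow_of_dvd (by norm_num) (by rw [hg]; norm_num), hg]
      have := himg (g ^ 2)
      rwa [hz] at this
    have h5 := hfrob 4 h4G
    have h6 := card_pow_eq_sum (G := G) 4 {1, 2, 4} (by
      intro x hx
      obtain ⟨k, hk, hk2⟩ := (Nat.dvd_prime_pow Nat.prime_two (m := 2)).1 (by
        have := orderOf_dvd_of_pow_eq_one hx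
        simpa using this)
      interval_cases k <;> simp [hk2]) (by
      intro e he
      simp only [Finset.mem_insert, Finset.mem_singleton] at he
      rcases he with rfl | rfl | rfl <;> norm_num)
    rw [Finset.sum_insert (by simp), Finset.sum_pair (by norm_num)] at h6
    rw [h6] at h5
    change 4 ∣ c 1 + (c 2 + c 4) at h5
    rw [hc1, h4] at h5
    have h7 : 2 ∣ 1 + c 2 := by
      have h8 := hfrob 2 ((by norm_num : 2 ∣ 4).trans h4G)
      have h9 := card_pow_eq_sum (G := G) 2 {1, 2} (by
        intro x hx
        rcases (Nat.dvd_prime Nat.prime_two).1 (orderOf_dvd_of_pow_eq_one hx) with h | h <;> simp [h]) (by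
        intro e he
        simp only [Finset.mem_insert, Finset.mem_singleton] at he
        rcases he with rfl | rfl <;> norm_num)
      rw [Finset.sum_pair (by norm_num)] at h9
      rw [h9] at h8
      change 2 ∣ c 1 + c 2 at h8
      rwa [hc1] at h8
    have h21 : c 2 = 1 := by
      rcases h2 with h | h
      · exact h
      · exfalso
        rw [h] at h5 h7
        omega
    rw [h21] at h5
    refine ⟨h21, h4, by omega, ?_⟩
    intro x k hk
    by_contra hk2
    push_neg at hk2
    obtain ⟨y, hy⟩ := exists_order_of_pow Nat.prime_two hk (by omega : 3 ≤ k)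
    have h8G : 8 ∣ Nat.card G := by
      have := hy ▸ hdvdG y
      simpa using this
    have h9 := hfrob 8 h8G
    have h10 := card_pow_eq_sum (G := G) 8 {1, 2, 4, 8} (by
      intro x hx
      obtain ⟨k, hk, hk2⟩ := (Nat.dvd_prime_pow Nat.prime_two (m := 3)).1 (by
        have := orderOf_dvd_of_pow_eq_one hx
        simpa using this)
      interval_cases k <;> simp [hk2]) (by
      intro e he
      simp only [Finset.mem_insert, Finset.mem_singleton] at he
      rcases he with rfl | rfl | rfl | rfl <;> norm_num)
    rw [Finset.sum_insert (by simp), Finset.sum_insert (by simp), Finset.sum_pair (by norm_num)] at h10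
    rw [h10] at h9
    change 8 ∣ c 1 + (c 2 + (c 4 + c 8)) at h9
    have h8 : c 8 = n := hge3' 8 (by norm_num) ⟨y, by simpa using hy⟩
    rw [hc1, h21, h4, h8] at h9
    omega
  have hinv2 : ∀ d, 2 ∣ d → (∀ g : G, g ^ d = 1 → orderOf g = 1 ∨ orderOf g = 2) →
      Nat.card {g : G // g ^ d = 1} = 1 + c 2 := by
    intro d hd h1
    have h6 := card_pow_eq_sum (G := G) d {1, 2} (by
      intro x hx
      rcases h1 x hx with h | h <;> simp [h]) (by
      intro e he
      simp only [Finset.mem_insert, Finset.mem_singleton] at he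
      rcases he with rfl | rfl
      · exact one_dvd _
      · exact hd)
    rw [Finset.sum_pair (by norm_num)] at h6
    rw [h6]
    change c 1 + c 2 = 1 + c 2
    rw [hc1]
  have hcardle : ∀ d, Nat.card {g : G // g ^ d = 1} ≤ Nat.card G := fun d => Finite.card_subtype_le _
  by_cases hoddex : ∃ p : ℕ, p.Prime ∧ p ≠ 2 ∧ p ∣ Nat.card G
  · obtain ⟨p, hp, hp2, hpG⟩ := hoddex
    haveI hpf : Fact p.Prime := ⟨hp⟩
    have hp3 : 3 ≤ p := by
      have := hp.two_le
      omega
    obtain ⟨hcp, hpn⟩ := hodd1 p hp hp2 hpG
    have hprimes : ∀ q : ℕ, q.Prime → q ∣ Nat.card G → q = 2 ∨ q = p := by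
      intro q hq hqG
      by_cases hq2 : q = 2
      · exact Or.inl hq2
      · exact Or.inr (huniq q p hq hp hq2 hp2 hqG hpG)
    have hGne : Nat.card G ≠ 0 := Nat.card_pos.ne'
    by_cases h2G : 2 ∣ Nat.card G
    · -- mixed case
      have hno4 : ¬ ∃ g : G, orderOf g = 4 := by
        intro h4ex
        obtain ⟨h21, h4n, hmod, hexp⟩ := hfour h4ex
        obtain ⟨g4, hg4⟩ := h4ex
        have hz : orderOf (g4 ^ 2) = 2 := by
          rw [orderOf_pow_of_dvd (by norm_num) (by rw [hg4]; norm_num), hg4]
        set z := g4 ^ 2 with hzdef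
        have hzuniq : ∀ y : G, orderOf y = 2 → y = z := by
          intro y hy
          have h1 : Nat.card {g : G // orderOf g = 2} = 1 := h21
          rw [Nat.card_eq_one_iff_unique] at h1
          exact congrArg Subtype.val (h1.1.elim ⟨y, hy⟩ ⟨z, hz⟩)
        have hzcen : ∀ x : G, x * z = z * x := by
          intro x
          have h1 : orderOf (x * z * x⁻¹) = 2 := by
            have := (MulAut.conj x).orderOf_eq z
            simp only [MulAut.conj_apply] at this
            rw [this, hz]
          have h2 := hzuniq _ h1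
          exact mul_inv_eq_iff_eq_mul.1 h2
        obtain ⟨x, hx⟩ := exists_prime_orderOf_dvd_card' p hpG
        have hcop2 : Nat.Coprime 2 p := (Nat.coprime_primes Nat.prime_two hp).2 (Ne.symm hp2)
        have h2p : orderOf (z * x) = 2 * p := by
          have hc' : Commute z x := (hzcen x).symm
          rw [hc'.orderOf_mul_eq_mul_orderOf_of_coprime (by rw [hz, hx]; exact hcop2), hz, hx]
        have hc2p : c (2 * p) = n := hge3' (2 * p) (by omega) ⟨_, h2p⟩
        have h4G : 4 ∣ Nat.card G := hg4 ▸ hdvdG g4
        have hcop4 : Nat.Coprime 4 p := by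
          have : (4 : ℕ) = 2 ^ 2 := by norm_num
          rw [this]
          exact Nat.Coprime.pow_left 2 hcop2
        have h4pG : 4 * p ∣ Nat.card G := hcop4.mul_dvd_of_dvd_of_dvd h4G hpG
        have h5 := hfrob (4 * p) h4pG
        have hp4 : p ≠ 4 := by
          rintro rfl
          exact absurd hp (by norm_num)
        have h6 := card_pow_eq_sum (G := G) (4 * p) {1, 2, 4, p, 2 * p, 4 * p} (by
          intro y hy
          have h7 := orderOf_dvd_of_pow_eq_one hy
          obtain ⟨a, b, ha, hb, hab⟩ := (Nat.dvd_mul).1 h7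
          have ha' : a ∣ 2 ^ 2 := by simpa using ha
          obtain ⟨k, hk, rfl⟩ := (Nat.dvd_prime_pow Nat.prime_two).1 ha'
          interval_cases k <;> rcases (Nat.dvd_prime hp).1 hb with rfl | rfl <;> simp [← hab]) (by
          intro e he
          simp only [Finset.mem_insert, Finset.mem_singleton] at he
          rcases he with rfl | rfl | rfl | h7 | h7 | h7
          · exact one_dvd _
          · exact Dvd.dvd.mul_right (by norm_num) _
          · exact Dvd.intro _ rfl
          · rw [h7]; exact Dvd.intro_left _ rfl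
          · rw [h7]; exact mul_dvd_mul (by norm_num) dvd_rfl
          · rw [h7])
        rw [Finset.sum_insert (by simp only [Finset.mem_insert, Finset.mem_singleton]; omega),
          Finset.sum_insert (by simp only [Finset.mem_insert, Finset.mem_singleton]; omega),
          Finset.sum_insert (by simp only [Finset.mem_insert, Finset.mem_singleton]; omega),
          Finset.sum_insert (by simp only [Finset.mem_insert, Finset.mem_singleton]; omega),
          Finset.sum_pair (by omega)] at h6
        rw [h6] at h5
        change 4 * p ∣ c 1 + (c 2 + (c 4 + (c p + (c (2 * p) + c (4 * p))))) at h5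
        rw [hc1, h21, h4n, hcp, hc2p] at h5
        have h7 : p ∣ 1 + (1 + (n + (n + (n + c (4 * p))))) := (Dvd.intro_left _ rfl).trans h5
        rcases hor (4 * p) (by omega) with h8 | h8 <;> rw [h8] at h7
        · have h9 : p ∣ (1 + (1 + (n + (n + (n + 0))))) + 1 := by
            have : (1 + (1 + (n + (n + (n + 0))))) + 1 = 3 * (n + 1) := by ring
            rw [this]
            exact Dvd.dvd.mul_left hpn 3
          have h10 := (Nat.dvd_add_right h7).1 h9
          exact hp.one_lt.ne' (Nat.dvd_one.1 h10)
        · have h9 : p ∣ (1 + (1 + (n + (n + (n + n))))) + 2 := by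
            have : (1 + (1 + (n + (n + (n + n))))) + 2 = 4 * (n + 1) := by ring
            rw [this]
            exact Dvd.dvd.mul_left hpn 4
          have h10 := (Nat.dvd_add_right h7).1 h9
          exact hp2 ((Nat.prime_dvd_prime_iff_eq hp Nat.prime_two).1 h10)
      -- the shape of the order
      obtain ⟨a, m, hm, hNm⟩ := Nat.exists_eq_pow_mul_and_not_dvd hGne 2 (by norm_num)
      have hmne : m ≠ 0 := by
        rintro rfl
        simp at hm
      have ha1 : a ≠ 0 := by
        rintro rfl
        rw [pow_zero, one_mul] at hNm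
        exact hm (hNm ▸ h2G)
      obtain ⟨b, hb⟩ : ∃ b, m = p ^ b :=
        ⟨_, Nat.eq_prime_pow_of_unique_prime_dvd hmne (by
          intro d hd hdm
          rcases hprimes d hd (by rw [hNm]; exact Dvd.dvd.mul_left hdm _) with h1 | h1
          · exact absurd (h1 ▸ hdm) hm
          · exact h1)⟩
      subst hb
      have hb1 : b ≠ 0 := by
        rintro rfl
        rw [pow_zero, mul_one] at hNm
        rw [hNm] at hpG
        have := hp.dvd_of_dvd_pow hpG
        exact hp2 ((Nat.prime_dvd_prime_iff_eq hp Nat.prime_two).1 this)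
      have h2el : ∀ g : G, ∀ k, orderOf g = 2 ^ k → k ≤ 1 := by
        intro g k hg
        by_contra hk
        push_neg at hk
        obtain ⟨x, hx⟩ := exists_order_of_pow Nat.prime_two hg (by omega : 2 ≤ k)
        exact hno4 ⟨x, by simpa using hx⟩
      have hF2 : 2 ^ a ∣ 1 + c 2 := by
        have h1 := hfrob (2 ^ a) (by rw [hNm]; exact Dvd.intro _ rfl)
        rw [hinv2 (2 ^ a) (dvd_pow_self 2 ha1) (by
          intro g hg
          obtain ⟨k, hk, hk2⟩ := (Nat.dvd_prime_pow Nat.prime_two).1 (orderOf_dvd_of_pow_eq_one hg)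
          have := h2el g k hk2
          interval_cases k
          · left; simpa using hk2
          · right; simpa using hk2)] at h1
        exact h1
      have hFp : p ^ b ∣ 1 + n := by
        have h1 := hfrob (p ^ b) (by rw [hNm]; exact Dvd.intro_left _ rfl)
        have h6 := card_pow_eq_sum (G := G) (p ^ b) {1, p} (by
          intro g hg
          obtain ⟨k, hk, hk2⟩ := (Nat.dvd_prime_pow hp).1 (orderOf_dvd_of_pow_eq_one hg)
          have := hodd3 p hp hp2 g k hk2
          interval_cases k
          · simp [hk2]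
          · simp [hk2]) (by
          intro e he
          simp only [Finset.mem_insert, Finset.mem_singleton] at he
          rcases he with rfl | h7
          · exact one_dvd _
          · rw [h7]; exact dvd_pow_self p hb1)
        rw [Finset.sum_pair hp.one_lt.ne] at h6
        rw [h6] at h1
        change p ^ b ∣ c 1 + c p at h1
        rwa [hc1, hcp] at h1
      obtain ⟨z, hz⟩ := exists_prime_orderOf_dvd_card' (G := G) 2 h2G
      have hc2or : c 2 = 1 ∨ c 2 = n := by
        have := himg z
        rwa [hz] at this
      rcases hc2or with hc21 | hc2n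
      · -- the direct product
        right; right; right
        have ha' : a = 1 := by
          rw [hc21] at hF2
          have h1 : 2 ^ a ∣ 2 ^ 1 := by simpa using hF2
          have h2 := (Nat.pow_dvd_pow_iff_le_right (by norm_num)).1 h1
          omega
        subst ha'
        rw [pow_one] at hNm
        have hzuniq : ∀ y : G, orderOf y = 2 → y = z := by
          intro y hy
          have h1 : Nat.card {g : G // orderOf g = 2} = 1 := hc21
          rw [Nat.card_eq_one_iff_unique] at h1
          exact congrArg Subtype.val (h1.1.elim ⟨y, hy⟩ ⟨z, hz⟩)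
        have hzcen : ∀ x : G, x * z = z * x := by
          intro x
          have h1 : orderOf (x * z * x⁻¹) = 2 := by
            have := (MulAut.conj x).orderOf_eq z
            simp only [MulAut.conj_apply] at this
            rw [this, hz]
          have h2 := hzuniq _ h1
          exact mul_inv_eq_iff_eq_mul.1 h2
        obtain ⟨K, hK⟩ := Sylow.exists_subgroup_card_pow_prime (G := G) p (n := b) (by rw [hNm]; exact Dvd.intro_left _ rfl)
        have hKp : IsPGroup p K := IsPGroup.of_card hK
        let H : Subgroup G := Subgroup.zpowers z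
        have hHcard : Nat.card H = 2 := by
          rw [Nat.card_zpowers, hz]
        have hdisj : K ⊓ H = ⊥ := by
          rw [eq_bot_iff]
          rintro y ⟨hy1, hy2⟩
          have h1 : orderOf y ∣ 2 := by
            have := Subgroup.orderOf_dvd_natCard H hy2
            rwa [hHcard] at this
          have h2 : orderOf y ∣ p ^ b := by
            have := Subgroup.orderOf_dvd_natCard K hy1
            rwa [hK] at this
          have h3 : Nat.Coprime 2 (p ^ b) :=
            Nat.Coprime.pow_right b ((Nat.coprime_primes Nat.prime_two hp).2 (Ne.symm hp2))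
          have h4 := Nat.eq_one_of_dvd_coprimes h3 h1 h2
          rw [Subgroup.mem_bot]
          exact orderOf_eq_one_iff.1 h4
        let φ : K × H →* G := MonoidHom.noncommCoprod K.subtype H.subtype (by
          rintro ⟨a', ha'⟩ ⟨b', hb'⟩
          obtain ⟨k, rfl⟩ := Subgroup.mem_zpowers_iff.1 hb'
          exact ((Commute.zpow_right (hzcen a') k)))
        have hφ : ∀ q : K × H, φ q = (q.1 : G) * (q.2 : G) := fun q => rfl
        have hinj : Function.Injective φ := by
          rw [injective_iff_map_eq_one]
          rintro ⟨u, v⟩ huv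
          rw [hφ] at huv
          have h1 : (u : G) = (v : G)⁻¹ := eq_inv_of_mul_eq_one_left huv
          have h2 : (u : G) ∈ K ⊓ H := Subgroup.mem_inf.2 ⟨u.2, by rw [h1]; exact H.inv_mem v.2⟩
          rw [hdisj, Subgroup.mem_bot] at h2
          have h3 : (v : G) = 1 := by
            rw [h2] at huv
            simpa using huv
          ext <;> simp [h2, h3]
        have hbij : Function.Bijective φ := by
          rw [Nat.bijective_iff_injective_and_card]
          refine ⟨hinj, ?_⟩
          rw [Nat.card_prod, hK, hHcard, hNm, mul_comm]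
        let e₁ : K × H ≃* G := MulEquiv.ofBijective φ hbij
        haveI : Fact (Nat.Prime 2) := ⟨Nat.prime_two⟩
        have hZ2 : Nat.card (Multiplicative (ZMod 2)) = 2 := by
          rw [Nat.card_eq_fintype_card]
          simp
        let e₂ : Multiplicative (ZMod 2) ≃* H := mulEquivOfPrimeCardEq hZ2 hHcard
        let eq : K ≃ FinModel (Nat.card K) := Finite.equivFinOfCardEq rfl
        letI grp : Group (FinModel (Nat.card K)) := eq.symm.group
        let e₃ : FinModel (Nat.card K) ≃* K := eq.symm.mulEquiv
        refine ⟨p, FinModel (Nat.card K), grp, inferInstance, hp, hp2, hKp.of_equiv e₃.symm, ?_, ?_⟩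
        · haveI : Nontrivial K := by
            rw [← Finite.one_lt_card_iff_nontrivial, hK]
            exact one_lt_pow₀ hp.one_lt hb1
          haveI : Nontrivial (FinModel (Nat.card K)) := e₃.toEquiv.nontrivial
          rw [Monoid.exponent_eq_prime_iff hp]
          intro g hg
          rw [← MulEquiv.orderOf_eq e₃, ← Subgroup.orderOf_coe]
          have h1 : ((e₃ g : K) : G) ≠ 1 := by
            intro h2
            apply hg
            have h3 : e₃ g = 1 := Subtype.ext h2
            exact (map_eq_one_iff e₃ e₃.injective).1 h3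
          obtain ⟨k, hk⟩ := (IsPGroup.iff_orderOf.1 hKp) (e₃ g)
          rw [← Subgroup.orderOf_coe] at hk
          have h2 := hodd3 p hp hp2 _ k hk
          rw [hk]
          interval_cases k
          · exfalso
            rw [pow_zero, orderOf_eq_one_iff] at hk
            exact h1 hk
          · rw [pow_one]
        · exact ⟨(e₁.symm.trans MulEquiv.prodComm).trans (MulEquiv.prodCongr e₂.symm e₃.symm)⟩
      · -- contradiction by counting
        exfalso
        rw [hc2n] at hF2
        have hcop : Nat.Coprime (2 ^ a) (p ^ b) :=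
          Nat.Coprime.pow _ _ ((Nat.coprime_primes Nat.prime_two hp).2 (Ne.symm hp2))
        have h1 : Nat.card G ∣ 1 + n := by
          rw [hNm]
          exact hcop.mul_dvd_of_dvd_of_dvd hF2 hFp
        have h2 := Nat.le_of_dvd (by omega) h1
        have hcop2 : Nat.Coprime 2 p := (Nat.coprime_primes Nat.prime_two hp).2 (Ne.symm hp2)
        have h2pG : 2 * p ∣ Nat.card G := hcop2.mul_dvd_of_dvd_of_dvd h2G hpG
        have h6 := card_pow_eq_sum (G := G) (2 * p) {1, 2, p, 2 * p} (by
          intro y hy
          have h7 := orderOf_dvd_of_pow_eq_one hy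
          obtain ⟨a', b', ha', hb', hab⟩ := (Nat.dvd_mul).1 h7
          rcases (Nat.dvd_prime Nat.prime_two).1 ha' with rfl | rfl <;>
            rcases (Nat.dvd_prime hp).1 hb' with rfl | rfl <;> simp [← hab]) (by
          intro e he
          simp only [Finset.mem_insert, Finset.mem_singleton] at he
          rcases he with rfl | rfl | h7 | h7
          · exact one_dvd _
          · exact Dvd.intro _ rfl
          · rw [h7]; exact Dvd.intro_left _ rfl
          · rw [h7])
        rw [Finset.sum_insert (by simp only [Finset.mem_insert, Finset.mem_singleton]; omega),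
          Finset.sum_insert (by simp only [Finset.mem_insert, Finset.mem_singleton]; omega),
          Finset.sum_pair (by omega)] at h6
        have h7 := hcardle (2 * p)
        rw [h6] at h7
        change c 1 + (c 2 + (c p + c (2 * p))) ≤ _ at h7
        rw [hc1, hc2n, hcp] at h7
        omega
    · -- a p-group
      left
      have hcard : Nat.card G = p ^ (Nat.card G).primeFactorsList.length :=
        Nat.eq_prime_pow_of_unique_prime_dvd hGne (by
          intro d hd hdG
          rcases hprimes d hd hdG with h1 | h1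
          · exact absurd (h1 ▸ hdG) h2G
          · exact h1)
      have hP : IsPGroup p G := IsPGroup.of_card hcard
      have h3le : 3 ≤ Nat.card G := hp3.trans (Nat.le_of_dvd Nat.card_pos hpG)
      haveI : Nontrivial G := by
        rw [← Finite.one_lt_card_iff_nontrivial]
        omega
      refine ⟨p, hp, hP, h3le, ?_⟩
      rw [Monoid.exponent_eq_prime_iff hp]
      intro g hg
      obtain ⟨k, hk⟩ := (IsPGroup.iff_orderOf.1 hP) g
      have h2 := hodd3 p hp hp2 g k hk
      interval_cases k
      · exfalso
        rw [pow_zero, orderOf_eq_one_iff] at hk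
        exact hg hk
      · rw [hk, pow_one]
  · -- a 2-group
    push_neg at hoddex
    have hGne : Nat.card G ≠ 0 := Nat.card_pos.ne'
    have hcard : Nat.card G = 2 ^ (Nat.card G).primeFactorsList.length :=
      Nat.eq_prime_pow_of_unique_prime_dvd hGne (by
        intro d hd hdG
        by_contra hne
        exact hoddex d hd hne hdG)
    have hP : IsPGroup 2 G := IsPGroup.of_card hcard
    by_cases h4 : ∃ g : G, orderOf g = 4
    · obtain ⟨h21, h4n, hmod, hexp⟩ := hfour h4
      obtain ⟨g4, hg4⟩ := h4
      have hU : Cfsg.Agent.Lib.UniqueSub.UniqueP 2 G := by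
        intro x y hx hy
        have h1 : Nat.card {g : G // orderOf g = 2} = 1 := h21
        rw [Nat.card_eq_one_iff_unique] at h1
        have h2 : y = x := congrArg Subtype.val (h1.1.elim ⟨y, hy⟩ ⟨x, hx⟩)
        rw [h2]
        exact Subgroup.mem_zpowers x
      haveI : Fact (Nat.Prime 2) := ⟨Nat.prime_two⟩
      rcases Cfsg.Agent.Lib.UniqueSub.cyclic_or_quaternion hP hU with hcyc | ⟨-, k, hk, ⟨e⟩⟩
      · right; right; left
        refine ⟨hcyc, ?_⟩
        obtain ⟨g, hg⟩ := IsCyclic.exists_ofOrder_eq_natCard (α := G)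
        have h1 : orderOf g = 2 ^ (Nat.card G).primeFactorsList.length := by rw [hg]; exact hcard
        have h2 := hexp g _ h1
        have h3 : 4 ∣ Nat.card G := hg4 ▸ hdvdG g4
        rw [hcard] at h3 ⊢
        have h5 : (2 : ℕ) ^ 2 ∣ 2 ^ (Nat.card G).primeFactorsList.length := by simpa using h3
        have h6 := (Nat.pow_dvd_pow_iff_le_right (by norm_num)).1 h5
        have h7 : (Nat.card G).primeFactorsList.length = 2 := le_antisymm h2 h6
        rw [h7]
        norm_num
      · right; left
        haveI : NeZero (2 ^ k) := ⟨by positivity⟩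
        have h1 : orderOf (e.symm (QuaternionGroup.a 1)) = 2 ^ (k + 1) := by
          rw [MulEquiv.orderOf_eq, QuaternionGroup.orderOf_a_one, pow_succ, mul_comm]
        have h2 := hexp _ _ h1
        have h3 : k = 1 := by omega
        subst h3
        exact ⟨e⟩
    · left
      have hall : ∀ g : G, g ≠ 1 → orderOf g = 2 := by
        intro g hg
        obtain ⟨k, hk⟩ := (IsPGroup.iff_orderOf.1 hP) g
        have h1 : k ≤ 1 := by
          by_contra hk2
          push_neg at hk2
          obtain ⟨x, hx⟩ := exists_order_of_pow Nat.prime_two hk (by omega : 2 ≤ k)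
          exact h4 ⟨x, by simpa using hx⟩
        interval_cases k
        · exfalso
          rw [pow_zero, orderOf_eq_one_iff] at hk
          exact hg hk
        · rw [hk, pow_one]
      have hg₀1 : g₀ ≠ 1 := by
        rintro rfl
        rw [orderOf_one, hc1] at hg₀
        exact hn hg₀.symm
      have hc2 : c 2 = n := by
        rw [hall g₀ hg₀1] at hg₀
        exact hg₀
      have h1 := hinv2 2 dvd_rfl (by
        intro g hg
        rcases (Nat.dvd_prime Nat.prime_two).1 (orderOf_dvd_of_pow_eq_one hg) with h | h
        · exact Or.inl h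
        · exact Or.inr h)
      have h2 := hcardle 2
      rw [h1, hc2] at h2
      have h3le : 3 ≤ Nat.card G := by omega
      haveI : Nontrivial G := by
        rw [← Finite.one_lt_card_iff_nontrivial]
        omega
      refine ⟨2, Nat.prime_two, hP, h3le, ?_⟩
      rw [Monoid.exponent_eq_prime_iff Nat.prime_two]
      exact hall

end Cfsg.Agent.S3995
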