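import Mathlib
import Cfsg.Statements.S3997
import Cfsg.Agent.Lib.SylowCount
-- import your own Cfsg.Agent.* helpers here

set_option autoImplicit false
open Cfsg

namespace Cfsg.Agent.S3997

/-- Let G and H be finite groups with the same order type: for every m they have the same number of elements of order m. If G is nilpotent then so is H. -/
theorem result {G H : Type*} [Group G] [Finite G] [Group H] [Finite H] (hT : (∀ m : ℕ, Nat.card {g : G // orderOf g = m} = Nat.card {h : H // orderOf h = m})) (hG : Group.IsNilpotent G) :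
    Group.IsNilpotent H := by
  classical
  -- an order preserving bijection
  have hE : ∀ m : ℕ, Nonempty ({g : G // orderOf g = m} ≃ {h : H // orderOf h = m}) := fun m => by
    classical
    haveI := Fintype.ofFinite {g : G // orderOf g = m}
    haveI := Fintype.ofFinite {h : H // orderOf h = m}
    have h1 := hT m
    rw [Nat.card_eq_fintype_card, Nat.card_eq_fintype_card] at h1
    exact ⟨Fintype.equivOfCardEq h1⟩
  let E : ∀ m : ℕ, {g : G // orderOf g = m} ≃ {h : H // orderOf h = m} := fun m => (hE m).some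
  let e : G ≃ H :=
    (Equiv.sigmaFiberEquiv (orderOf : G → ℕ)).symm.trans
      ((Equiv.sigmaCongrRight E).trans (Equiv.sigmaFiberEquiv (orderOf : H → ℕ)))
  have he : ∀ g : G, orderOf (e g) = orderOf g := by
    intro g
    exact (E (orderOf g) ⟨g, rfl⟩).2
  have hcard : Nat.card G = Nat.card H := Nat.card_congr e
  have hGn := (Group.isNilpotent_of_finite_tfae (G := G)).out 0 3 rfl rfl |>.mp hG
  refine (Group.isNilpotent_of_finite_tfae (G := H)).out 0 3 rfl rfl |>.mpr ?_
  intro p hp Q
  haveI := hp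
  have hpp : p.Prime := hp.out
  obtain ⟨P⟩ : Nonempty (Sylow p G) := inferInstance
  have hPn : (P : Subgroup G).Normal := hGn p hp P
  -- the `p`-elements of `G` are those of `P`
  have hAG : Nat.card {g : G // ∃ k : ℕ, orderOf g = p ^ k} = Nat.card (P : Subgroup G) := by
    refine Nat.card_congr (Equiv.subtypeEquivRight ?_)
    intro g
    constructor
    · rintro ⟨k, hk⟩
      have hzp : IsPGroup p (Subgroup.zpowers g) := by
        apply IsPGroup.of_card (n := k)
        rw [Nat.card_zpowers, hk]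
      obtain ⟨T, hT⟩ := hzp.exists_le_sylow
      obtain ⟨x, rfl⟩ := MulAction.exists_smul_eq G P T
      have h1 : g ∈ ((x • P : Sylow p G) : Subgroup G) := hT (Subgroup.mem_zpowers g)
      have h2 : g ∈ ((x • P : Sylow p G) : Subgroup G) ↔ x⁻¹ * g * x ∈ (P : Subgroup G) :=
        Cfsg.Agent.Lib.SylowCount.mem_smul_sylow x g P
      have h3 := h2.mp h1
      have h4 := hPn.conj_mem _ h3 x
      have h5 : x * (x⁻¹ * g * x) * x⁻¹ = g := by group
      rwa [h5] at h4
    · intro hg
      obtain ⟨j, hj⟩ := (IsPGroup.iff_orderOf.mp P.isPGroup') ⟨g, hg⟩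
      refine ⟨j, ?_⟩
      rw [← hj]
      exact (Subgroup.orderOf_mk _ _).symm
  have hAH : Nat.card {h : H // ∃ k : ℕ, orderOf h = p ^ k} = Nat.card (Q : Subgroup H) := by
    have h1 : Nat.card {h : H // ∃ k : ℕ, orderOf h = p ^ k} = Nat.card {g : G // ∃ k : ℕ, orderOf g = p ^ k} := by
      refine Nat.card_congr (e.subtypeEquiv ?_).symm
      intro g
      rw [he]
    rw [h1, hAG, P.card_eq_multiplicity, Q.card_eq_multiplicity, hcard]
  have hQel : ∀ h : H, h ∈ (Q : Subgroup H) → ∃ k : ℕ, orderOf h = p ^ k := by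
    intro h hh
    obtain ⟨j, hj⟩ := (IsPGroup.iff_orderOf.mp Q.isPGroup') ⟨h, hh⟩
    refine ⟨j, ?_⟩
    rw [← hj]
    exact (Subgroup.orderOf_mk _ _).symm
  let f : ↥(Q : Subgroup H) → {h : H // ∃ k : ℕ, orderOf h = p ^ k} := fun x => ⟨x.1, hQel x.1 x.2⟩
  have hf : Function.Injective f := by
    intro x y hxy
    have h1 : (f x).1 = (f y).1 := by rw [hxy]
    exact Subtype.ext h1
  have hbij := hf.bijective_of_nat_card_le hAH.le
  refine ⟨fun x hx g => ?_⟩
  obtain ⟨k, hk⟩ := hQel x hx
  have h1 : orderOf (g * x * g⁻¹) = p ^ k := by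
    have := (MulAut.conj g).orderOf_eq x
    rw [MulAut.conj_apply] at this
    rw [this, hk]
  obtain ⟨y, hy⟩ := hbij.2 ⟨g * x * g⁻¹, k, h1⟩
  have h2 : (y : H) = g * x * g⁻¹ := congrArg Subtype.val hy
  rw [← h2]
  exact y.2

end Cfsg.Agent.S3997
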