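import Mathlib
import Cfsg.Statements.S4001
import Cfsg.Agent.S0041
import Cfsg.Agent.S0035
import Cfsg.Agent.S0042
import Cfsg.Agent.Lib.NilCyc
import Cfsg.Agent.Lib.FrobC
import Cfsg.Agent.Lib.FitCore
import Cfsg.Agent.Lib.PCore
import Cfsg.Agent.Lib.SchurZ2
import Cfsg.Agent.Lib.UniqueSub
import Cfsg.Agent.Lib.TypeP
import Cfsg.Agent.Lib.CoprimeSylow
import Cfsg.Agent.Lib.PReduced
-- import your own Cfsg.Agent.* helpers here

set_option autoImplicit false
open Cfsg

namespace Cfsg.Agent.S4001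


set_option autoImplicit false
set_option linter.all false

section H6Main

open Subgroup Cfsg Cfsg.Agent.Lib.FitCore
open scoped Pointwise

/-- Kernel elements commuting with a non-kernel element are trivial. -/
theorem frob_comm {Γ : Type*} [Group Γ] (C : Subgroup Γ) (hC : IsFrobeniusComplement C) (N : Subgroup Γ)
    (hN : frobeniusKernel C = (N : Set Γ)) {x n : Γ} (hx : x ∉ N) (hn : n ∈ N) (hc : n * x = x * n) : n = 1 := by
  by_contra hn1
  have hxk : x ∉ frobeniusKernel C := by rw [hN]; exact hx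
  have hnk : n ∈ frobeniusKernel C := by rw [hN]; exact hn
  simp only [frobeniusKernel, Set.mem_ofPred_eq, not_or, not_forall, not_not] at hxk
  obtain ⟨hx1, g, hg⟩ := hxk
  rcases hnk with h | h
  · exact hn1 h
  have hcC : g⁻¹ * x * g ∈ C := by
    rw [Subgroup.mem_pointwise_smul_iff_inv_smul_mem] at hg
    simpa [MulAut.smul_def, MulAut.inv_def, MulAut.conj_symm_apply] using hg
  let m := g⁻¹ * n * g
  have hm : m ∉ C := by
    intro hmC
    apply h g
    rw [Subgroup.mem_pointwise_smul_iff_inv_smul_mem]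
    simpa [MulAut.smul_def, MulAut.inv_def, MulAut.conj_symm_apply] using hmC
  have h3 := hC.2.2 m hm
  have h4 : g⁻¹ * x * g ∈ C ⊓ (MulAut.conj m • C) := by
    refine Subgroup.mem_inf.2 ⟨hcC, ?_⟩
    rw [Subgroup.mem_pointwise_smul_iff_inv_smul_mem]
    have h5 : (MulAut.conj m)⁻¹ • (g⁻¹ * x * g) = g⁻¹ * x * g := by
      rw [MulAut.smul_def, MulAut.inv_def, MulAut.conj_symm_apply]
      have h6 : m * (g⁻¹ * x * g) = (g⁻¹ * x * g) * m := by
        show g⁻¹ * n * g * (g⁻¹ * x * g) = g⁻¹ * x * g * (g⁻¹ * n * g)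
        calc g⁻¹ * n * g * (g⁻¹ * x * g) = g⁻¹ * (n * x) * g := by group
          _ = g⁻¹ * (x * n) * g := by rw [hc]
          _ = _ := by group
      calc m⁻¹ * (g⁻¹ * x * g) * m = m⁻¹ * (m * (g⁻¹ * x * g)) := by rw [h6, mul_assoc]
        _ = _ := by group
    rw [h5]
    exact hcC
  rw [h3] at h4
  have h7 : g⁻¹ * x * g = 1 := Subgroup.mem_bot.1 h4
  apply hx1
  have h8 : g * (g⁻¹ * x * g) * g⁻¹ = x := by group
  rw [← h8, h7]
  group

theorem frob_data {Γ : Type*} [Group Γ] [Finite Γ] (C N : Subgroup Γ) (hC : IsFrobeniusComplement C)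
    (hN : frobeniusKernel C = (N : Set Γ)) :
    N.Normal ∧ Group.IsNilpotent N ∧ IsComplement' N C ∧ N ≠ ⊥ ∧ Nat.Coprime (Nat.card C) (Nat.card N) := by
  obtain ⟨N₁, hN₁, hN₁n, hN₁c⟩ := Cfsg.Agent.S0035.result C hC
  have e1 : N₁ = N := SetLike.coe_injective (hN₁.trans hN)
  subst e1
  obtain ⟨N₂, hN₂, -, hN₂n⟩ := Cfsg.Agent.S0042.result C hC
  have e2 : N₂ = N₁ := SetLike.coe_injective (hN₂.trans hN)
  subst e2
  have hbot : N₂ ≠ ⊥ := by
    intro h
    apply hC.2.1
    have h1 := hN₁c.card_mul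
    rw [h, Subgroup.card_bot, one_mul] at h1
    exact Subgroup.eq_top_of_card_eq _ h1
  refine ⟨hN₁n, hN₂n, hN₁c, hbot, ?_⟩
  refine Cfsg.Agent.Lib.FrobC.coprime_of_fpf C N₂ ?_ ?_
  · intro c _
    exact Subgroup.le_normalizer_of_normal (H := N₂) (K := ⊤) (Subgroup.mem_top c)
  · intro c hc hc1
    rw [eq_bot_iff]
    rintro n ⟨hn, hnc⟩
    have hnc' := Subgroup.mem_centralizer_singleton_iff.1 hnc
    have hcN : c ∉ N₂ := by
      intro hcN
      have h1 : c ∈ N₂ ⊓ C := ⟨hcN, hc⟩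
      rw [hN₁c.disjoint.eq_bot] at h1
      exact hc1 (Subgroup.mem_bot.1 h1)
    exact Subgroup.mem_bot.2 (frob_comm C hC N₂ hN hcN hn hnc')

variable {G : Type*} [Group G] [Finite G]

/-- The data of a 2-Frobenius group, in elements. -/
structure TF (H K C' : Subgroup G) [H.Normal] [K.Normal] (Cb : Subgroup (G ⧸ H)) : Prop where
  hlt : H < K
  hnil : Group.IsNilpotent H
  h1 : H ≠ ⊥
  fH : ∀ x ∈ K, x ∉ H → ∀ n ∈ H, n * x = x * n → n = 1
  cK : C' ≤ K
  cH : C' ⊓ H = ⊥
  c1 : C' ≠ ⊥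
  cGen : ∀ k ∈ K, ∃ n ∈ H, ∃ c ∈ C', k = n * c
  cCard : Nat.card H * Nat.card C' = Nat.card K
  cCop : Nat.Coprime (Nat.card C') (Nat.card H)
  nilQ : Group.IsNilpotent (K.map (QuotientGroup.mk' H))
  fQ : ∀ x, x ∉ K.map (QuotientGroup.mk' H) → ∀ n ∈ K.map (QuotientGroup.mk' H), n * x = x * n → n = 1
  b1 : Cb ≠ ⊥
  bCompl : IsComplement' (K.map (QuotientGroup.mk' H)) Cb
  bCop : Nat.Coprime (Nat.card Cb) (Nat.card (K.map (QuotientGroup.mk' H)))

theorem tf_of {H K : Subgroup G} [hHn : H.Normal] [hKn : K.Normal] (hlt : H < K)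
    (hK : ∃ C : Subgroup ↥K, Cfsg.IsFrobeniusComplement C ∧ Cfsg.frobeniusKernel C = (H.subgroupOf K : Set ↥K))
    (hGH : ∃ C : Subgroup (G ⧸ H), Cfsg.IsFrobeniusComplement C ∧ Cfsg.frobeniusKernel C = (K.map (QuotientGroup.mk' H) : Set (G ⧸ H))) :
    ∃ (C' : Subgroup G) (Cb : Subgroup (G ⧸ H)), TF H K C' Cb := by
  obtain ⟨C₀, hC₀, hker₀⟩ := hK
  obtain ⟨Cb, hCb, hkerb⟩ := hGH
  obtain ⟨-, h2, h3, h4, h5⟩ := frob_data C₀ _ hC₀ hker₀
  obtain ⟨-, k2, k3, k4, k5⟩ := frob_data Cb _ hCb hkerb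
  have hHK : H ≤ K := hlt.le
  have hequiv := Subgroup.subgroupOfEquivOfLe hHK
  refine ⟨C₀.map K.subtype, Cb, ?_⟩
  refine ⟨hlt, ?_, ?_, ?_, Subgroup.map_subtype_le _, ?_, ?_, ?_, ?_, ?_, k2, ?_, hCb.1, k3, k5⟩
  · exact (Group.isNilpotent_congr hequiv).1 h2
  · intro h
    apply h4
    rw [eq_bot_iff]
    intro x hx
    have h1 : (x : G) ∈ H := hx
    rw [h] at h1
    exact Subgroup.mem_bot.2 (Subtype.ext (Subgroup.mem_bot.1 h1))
  · intro x hx hxH n hn hc
    have := frob_comm C₀ hC₀ (H.subgroupOf K) hker₀ (x := ⟨x, hx⟩) (n := ⟨n, hHK hn⟩) hxH hn (Subtype.ext hc)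
    exact congrArg Subtype.val this
  · rw [eq_bot_iff]
    rintro x ⟨⟨c, hc, rfl⟩, hxH⟩
    have h1 : c ∈ H.subgroupOf K ⊓ C₀ := ⟨hxH, hc⟩
    rw [h3.disjoint.eq_bot] at h1
    have h2 := Subgroup.mem_bot.1 h1
    rw [h2]
    exact Subgroup.one_mem _
  · intro h
    apply hC₀.1
    exact (Subgroup.map_eq_bot_iff_of_injective _ K.subtype_injective).1 h
  · intro k hk
    obtain ⟨⟨n, c⟩, hnc⟩ := h3.2 ⟨k, hk⟩
    refine ⟨n.1.1, n.2, c.1.1, ⟨c.1, c.2, rfl⟩, ?_⟩
    exact (congrArg Subtype.val hnc).symm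
  · have h6 := h3.card_mul
    have h7 : Nat.card (C₀.map K.subtype) = Nat.card C₀ :=
      Nat.card_congr (C₀.equivMapOfInjective _ K.subtype_injective).symm.toEquiv
    rw [h7, ← h6]
    congr 1
    exact Nat.card_congr hequiv.symm.toEquiv
  · have h7 : Nat.card (C₀.map K.subtype) = Nat.card C₀ :=
      Nat.card_congr (C₀.equivMapOfInjective _ K.subtype_injective).symm.toEquiv
    rw [h7, show Nat.card H = Nat.card (H.subgroupOf K) from Nat.card_congr hequiv.symm.toEquiv]
    exact h5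
  · intro x hx n hn hc
    exact frob_comm Cb hCb _ hkerb hx hn hc

theorem cyclic_comm {T : Type*} [Group T] (h : IsCyclic T) (a b : T) : a * b = b * a := by
  obtain ⟨g, hg⟩ := h
  obtain ⟨i, rfl⟩ := hg a
  obtain ⟨j, rfl⟩ := hg b
  show g ^ i * g ^ j = g ^ j * g ^ i
  rw [← zpow_add, ← zpow_add, add_comm]

theorem comm_of_sylow_cyclic {X : Type*} [Group X] [Finite X] [hX : Group.IsNilpotent X]
    (h : ∀ (r : ℕ) [Fact r.Prime] (P : Sylow r X), IsCyclic P) (a b : X) : a * b = b * a := by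
  let e := Sylow.directProductOfNormal (G := X) (fun P => inferInstance)
  obtain ⟨a', rfl⟩ := e.surjective a
  obtain ⟨b', rfl⟩ := e.surjective b
  rw [← map_mul, ← map_mul]
  congr 1
  funext r P
  haveI : Fact (r : ℕ).Prime := ⟨Nat.prime_of_mem_primeFactors r.2⟩
  exact cyclic_comm (h r P) _ _

theorem exists_order_cyclic {T : Type*} [Group T] [Finite T] (h : IsCyclic T) {n : ℕ} (hn : n ∣ Nat.card T) :
    ∃ g : T, orderOf g = n := by
  obtain ⟨g, hg⟩ := h.exists_generator
  have hord : orderOf g = Nat.card T := orderOf_eq_card_of_forall_mem_zpowers hg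
  obtain ⟨m, hm⟩ := hn
  have hm0 : m ≠ 0 := by
    rintro rfl
    rw [mul_zero] at hm
    exact Nat.card_pos.ne' hm
  have hn0 : 0 < n := by
    rcases Nat.eq_zero_or_pos n with rfl | h'
    · rw [zero_mul] at hm
      exact absurd hm Nat.card_pos.ne'
    · exact h'
  refine ⟨g ^ m, ?_⟩
  rw [orderOf_pow_of_dvd hm0 (by rw [hord, hm]; exact dvd_mul_left _ _), hord, hm]
  exact Nat.mul_div_cancel _ (Nat.pos_of_ne_zero hm0)

section TFs

variable {H K C' : Subgroup G} [hHn : H.Normal] [hKn : K.Normal] {Cb : Subgroup (G ⧸ H)}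

theorem mem_kbar (D : TF H K C' Cb) {x : G} : (x : G ⧸ H) ∈ K.map (QuotientGroup.mk' H) ↔ x ∈ K := by
  constructor
  · rintro ⟨k, hk, hkx⟩
    have h1 : k⁻¹ * x ∈ H := QuotientGroup.eq.1 hkx
    have h2 := K.mul_mem hk (D.hlt.le h1)
    simpa using h2
  · intro h
    exact ⟨x, h, rfl⟩

theorem exists_theta (D : TF H K C' Cb) :
    ∃ θ : C' ≃* K.map (QuotientGroup.mk' H), ∀ c : C', (θ c : G ⧸ H) = ((c : G) : G ⧸ H) := by
  let f : C' →* K.map (QuotientGroup.mk' H) :=
    ((QuotientGroup.mk' H).comp C'.subtype).codRestrict _ (fun c => ⟨c, D.cK c.2, rfl⟩)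
  have hf : Function.Bijective f := by
    constructor
    · rw [injective_iff_map_eq_one]
      rintro ⟨c, hc⟩ hk
      have h1 : ((c : G) : G ⧸ H) = 1 := congrArg Subtype.val hk
      have h2 : c ∈ C' ⊓ H := ⟨hc, (QuotientGroup.eq_one_iff c).1 h1⟩
      rw [D.cH] at h2
      exact Subtype.ext (Subgroup.mem_bot.1 h2)
    · rintro ⟨_, k, hk, rfl⟩
      obtain ⟨n, hn, c, hc, rfl⟩ := D.cGen k hk
      refine ⟨⟨c, hc⟩, Subtype.ext ?_⟩
      show ((c : G) : G ⧸ H) = ((n * c : G) : G ⧸ H)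
      rw [QuotientGroup.mk_mul, (QuotientGroup.eq_one_iff n).2 hn, one_mul]
  exact ⟨MulEquiv.ofBijective f hf, fun c => rfl⟩

theorem card_kbar (D : TF H K C' Cb) : Nat.card (K.map (QuotientGroup.mk' H)) = Nat.card C' := by
  obtain ⟨θ, -⟩ := exists_theta D
  exact (Nat.card_congr θ.toEquiv).symm

theorem nil_c (D : TF H K C' Cb) : Group.IsNilpotent C' := by
  obtain ⟨θ, -⟩ := exists_theta D
  haveI := D.nilQ
  exact nilpotent_of_mulEquiv θ.symm

theorem exists_V (D : TF H K C' Cb) : ∃ V : Subgroup G, V.Normal ∧ IsMulCommutative V ∧ V ≠ ⊥ ∧ V ≤ H := by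
  refine ⟨(center H).map H.subtype, map_subtype_normal_of_char H (center H), ?_, ?_, Subgroup.map_subtype_le _⟩
  · refine ⟨⟨?_⟩⟩
    rintro ⟨_, u, hu, rfl⟩ ⟨_, v, hv, rfl⟩
    apply Subtype.ext
    show (u : G) * v = v * u
    exact congrArg Subtype.val ((Subgroup.mem_center_iff.1 hu) v).symm
  · intro h
    have h2 : center H = ⊥ := (Subgroup.map_eq_bot_iff_of_injective _ H.subtype_injective).1 h
    haveI hnt : Nontrivial H := (Subgroup.nontrivial_iff_ne_bot H).2 D.h1
    haveI := D.hnil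
    exact Group.IsNilpotent.center_ne_bot H h2

theorem sub_cyclic (D : TF H K C' Cb) (A : Subgroup G) (hA : A ≤ C')
    (hA' : IsMulCommutative A ∨ ∃ p q : ℕ, p.Prime ∧ q.Prime ∧ Nat.card A = p * q) : IsCyclic A := by
  obtain ⟨V, hVn, hVc, hV1, hVH⟩ := exists_V D
  refine Cfsg.Agent.S0041.result A V hV1 ?_ ?_ hA'
  · intro x _
    exact Subgroup.le_normalizer_of_normal (H := V) (K := ⊤) (Subgroup.mem_top x)
  · intro a ha ha1
    rw [eq_bot_iff]
    rintro v ⟨hv, hvc⟩
    have hvc' := Subgroup.mem_centralizer_singleton_iff.1 hvc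
    have haH : a ∉ H := by
      intro haH
      have h1 : a ∈ C' ⊓ H := ⟨hA ha, haH⟩
      rw [D.cH] at h1
      exact ha1 (Subgroup.mem_bot.1 h1)
    exact Subgroup.mem_bot.2 (D.fH a (D.cK (hA ha)) haH v (hVH hv) hvc')

theorem omega_unique (D : TF H K C' Cb) (P : Subgroup G) (hPC : P ≤ C') {r : ℕ} [hr : Fact r.Prime]
    (hP : IsPGroup r P) {x y : G} (hx : x ∈ P) (hy : y ∈ P) (hxo : orderOf x = r) (hyo : orderOf y = r) :
    y ∈ zpowers x := by
  have hq := hr.out
  have hx1 : x ≠ 1 := by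
    rintro rfl
    rw [orderOf_one] at hxo
    exact hq.ne_one hxo.symm
  haveI hPnt : Nontrivial P := ⟨⟨⟨x, hx⟩, 1, fun h => hx1 (congrArg Subtype.val h)⟩⟩
  have hcen := hP.center_nontrivial
  have hdvd : r ∣ Nat.card (center P) := by
    have h1 : IsPGroup r (center P) := hP.to_subgroup _
    obtain ⟨m, hm⟩ := IsPGroup.iff_card.1 h1
    rw [hm]
    have : m ≠ 0 := by
      rintro rfl
      have h2 : Nat.card (center P) = 1 := by rw [hm, pow_zero]
      have h3 := Finite.one_lt_card_iff_nontrivial.2 hcen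
      omega
    exact dvd_pow_self r this
  obtain ⟨z₀, hz₀⟩ := exists_prime_orderOf_dvd_card' r hdvd
  let z : G := ((z₀ : P) : G)
  have hzP : z ∈ P := (z₀ : P).2
  have hzord : orderOf z = r := by
    rw [← hz₀]
    show orderOf (((z₀ : P) : G)) = _
    rw [Subgroup.orderOf_coe, Subgroup.orderOf_coe]
  have hzc : ∀ u ∈ P, u * z = z * u := by
    intro u hu
    exact congrArg Subtype.val ((Subgroup.mem_center_iff.1 z₀.2) ⟨u, hu⟩)
  have key : ∀ u ∈ P, orderOf u = r → u ∈ zpowers z := by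
    intro u hu huo
    by_contra huz
    have hnorm : zpowers u ≤ normalizer ((zpowers z : Subgroup G) : Set G) := by
      rw [zpowers_le, Subgroup.mem_normalizer_iff]
      intro h
      constructor
      · rintro ⟨i, rfl⟩
        refine ⟨i, ?_⟩
        show z ^ i = u * z ^ i * u⁻¹
        have h2 : Commute u (z ^ i) := (show Commute u z from hzc u hu).zpow_right i
        rw [h2.eq]
        group
      · rintro ⟨i, hi⟩
        have hi' : z ^ i = u * h * u⁻¹ := hi
        refine ⟨i, ?_⟩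
        show z ^ i = h
        have h2 : Commute u (z ^ i) := (show Commute u z from hzc u hu).zpow_right i
        have h3 : u * z ^ i * u⁻¹ = z ^ i := by
          rw [h2.eq]
          group
        have h4 : u * (z ^ i) * u⁻¹ = u * h * u⁻¹ := by rw [h3, hi']
        exact mul_left_cancel (mul_right_cancel h4)
    have hcard := Cfsg.Agent.Lib.SchurZ2.card_sup_mul_card_inf (zpowers z) (zpowers u) hnorm
    have hinf : Nat.card (zpowers z ⊓ zpowers u : Subgroup G) = 1 := by
      have h1 : Nat.card (zpowers z ⊓ zpowers u : Subgroup G) ∣ r := by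
        have h2 := Subgroup.card_dvd_of_le (inf_le_right : zpowers z ⊓ zpowers u ≤ zpowers u)
        rwa [Nat.card_zpowers, huo] at h2
      rcases (Nat.dvd_prime hq).1 h1 with h2 | h2
      · exact h2
      · exfalso
        apply huz
        have h3 : zpowers z ⊓ zpowers u = zpowers u := by
          refine Subgroup.eq_of_le_of_card_ge inf_le_right ?_
          rw [h2, Nat.card_zpowers, huo]
        have h4 : u ∈ zpowers z ⊓ zpowers u := by
          rw [h3]
          exact mem_zpowers u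
        exact h4.1
    rw [hinf, mul_one, Nat.card_zpowers, Nat.card_zpowers, hzord, huo] at hcard
    have hle : zpowers z ⊔ zpowers u ≤ C' := by
      refine sup_le ?_ ?_
      · rw [zpowers_le]; exact hPC hzP
      · rw [zpowers_le]; exact hPC hu
    have hcy : IsCyclic (zpowers z ⊔ zpowers u : Subgroup G) :=
      sub_cyclic D _ hle (Or.inr ⟨r, r, hq, hq, hcard⟩)
    exact huz (Cfsg.Agent.Lib.NilCyc.mem_zpowers_of_cyclic (C := zpowers z ⊔ zpowers u) hq
      ((le_sup_left : zpowers z ≤ zpowers z ⊔ zpowers u) (mem_zpowers z))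
      ((le_sup_right : zpowers u ≤ zpowers z ⊔ zpowers u) (mem_zpowers u)) hzord huo)
  have h1 := key x hx hxo
  have h2 := key y hy hyo
  have h3 : zpowers x = zpowers z := by
    refine Subgroup.eq_of_le_of_card_ge ((zpowers_le).2 h1) ?_
    rw [Nat.card_zpowers, Nat.card_zpowers, hzord, hxo]
  rw [h3]
  exact h2

theorem odd_card (D : TF H K C' Cb) : Odd (Nat.card C') := by
  by_contra hodd
  have h2 : 2 ∣ Nat.card C' := by
    rw [Nat.not_odd_iff_even] at hodd
    exact hodd.two_dvd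
  haveI := nil_c D
  obtain ⟨t₀, ht₀⟩ := exists_prime_orderOf_dvd_card' 2 h2
  obtain ⟨θ, hθ⟩ := exists_theta D
  obtain ⟨Q⟩ : Nonempty (Sylow 2 C') := inferInstance
  have hQn : (Q : Subgroup C').Normal := inferInstance
  have hmemQ : ∀ u : C', orderOf u = 2 → u ∈ (Q : Subgroup C') := by
    intro u hu
    have h1 : IsPGroup 2 (zpowers u) := IsPGroup.of_card (n := 1) (by rw [Nat.card_zpowers, hu, pow_one])
    obtain ⟨Q', hQ'⟩ := h1.exists_le_sylow
    haveI := Sylow.unique_of_normal Q hQn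
    have h3 : Q' = Q := Subsingleton.elim _ _
    rw [← h3]
    exact hQ' (mem_zpowers u)
  let P : Subgroup G := (Q : Subgroup C').map C'.subtype
  have hPC : P ≤ C' := Subgroup.map_subtype_le _
  have hPp : IsPGroup 2 P := Q.isPGroup'.map _
  obtain ⟨c, hc⟩ := Subgroup.ne_bot_iff_exists_ne_one.1 D.b1
  have hc1 : (c : G ⧸ H) ≠ 1 := fun e => hc (Subtype.ext e)
  have hcK : (c : G ⧸ H) ∉ K.map (QuotientGroup.mk' H) := by
    intro h
    have h1 : (c : G ⧸ H) ∈ K.map (QuotientGroup.mk' H) ⊓ Cb := ⟨h, c.2⟩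
    rw [D.bCompl.disjoint.eq_bot] at h1
    exact hc1 (Subgroup.mem_bot.1 h1)
  let tb : K.map (QuotientGroup.mk' H) := θ t₀
  have htb : orderOf tb = 2 := by
    rw [← ht₀]
    exact orderOf_injective θ.toMonoidHom θ.injective t₀
  have htbK : (tb : G ⧸ H) ∈ K.map (QuotientGroup.mk' H) := tb.2
  have hnorm : (K.map (QuotientGroup.mk' H)).Normal := hKn.map _ (QuotientGroup.mk'_surjective H)
  let ub : K.map (QuotientGroup.mk' H) :=
    ⟨(c : G ⧸ H) * tb * (c : G ⧸ H)⁻¹, hnorm.conj_mem _ htbK _⟩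
  have hub : orderOf ub = 2 := by
    rw [← htb, ← Subgroup.orderOf_coe ub, ← Subgroup.orderOf_coe tb]
    show orderOf ((MulAut.conj (c : G ⧸ H)) ((tb : K.map (QuotientGroup.mk' H)) : G ⧸ H)) = _
    exact orderOf_injective (MulAut.conj (c : G ⧸ H)).toMonoidHom (MulAut.conj (c : G ⧸ H)).injective _
  let t₁ : C' := θ.symm ub
  have ht₁ : orderOf t₁ = 2 := by
    rw [← hub]
    exact orderOf_injective θ.symm.toMonoidHom θ.symm.injective ub
  have hQ₀ := hmemQ t₀ ht₀
  have hQ₁ := hmemQ t₁ ht₁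
  have hz : (t₁ : G) ∈ zpowers (t₀ : G) := by
    refine omega_unique D P hPC hPp ⟨t₀, hQ₀, rfl⟩ ⟨t₁, hQ₁, rfl⟩ ?_ ?_
    · rw [Subgroup.orderOf_coe]; exact ht₀
    · rw [Subgroup.orderOf_coe]; exact ht₁
  obtain ⟨i, hi⟩ := hz
  have ht₀o : orderOf (t₀ : G) = 2 := by rw [Subgroup.orderOf_coe]; exact ht₀
  have hi' : (t₀ : G) ^ i = t₁ := hi
  rw [← zpow_mod_orderOf, ht₀o] at hi'
  have ht₁1 : (t₁ : G) ≠ 1 := by
    intro h
    have h3 : t₁ = 1 := Subtype.ext h
    rw [h3, orderOf_one] at ht₁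
    omega
  have heq : t₁ = t₀ := by
    apply Subtype.ext
    rcases Int.emod_two_eq_zero_or_one i with h4 | h4
    · exfalso
      rw [Nat.cast_ofNat, h4, zpow_zero] at hi'
      exact ht₁1 hi'.symm
    · rw [Nat.cast_ofNat, h4, zpow_one] at hi'
      exact hi'.symm
  have hub2 : ub = tb := by
    have h5 : θ t₁ = ub := by simp [t₁]
    rw [← h5, heq]
  have h6 : (c : G ⧸ H) * tb * (c : G ⧸ H)⁻¹ = tb := congrArg Subtype.val hub2
  have h7 : (tb : G ⧸ H) * c = c * tb := by
    calc (tb : G ⧸ H) * c = ((c : G ⧸ H) * tb * (c : G ⧸ H)⁻¹) * c := by rw [h6]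
      _ = c * tb := by group
  have h8 := D.fQ _ hcK _ htbK h7
  have h9 : tb = 1 := Subtype.ext h8
  rw [h9, orderOf_one] at htb
  omega

theorem c_cyclic (D : TF H K C' Cb) : IsCyclic C' := by
  haveI := nil_c D
  have hodd := odd_card D
  have hcomm : ∀ a b : C', a * b = b * a := by
    refine comm_of_sylow_cyclic ?_
    intro r hr P
    by_cases hr2 : r = 2
    · subst hr2
      obtain ⟨m, hm⟩ := IsPGroup.iff_card.1 P.isPGroup'
      have h1 : Nat.card (P : Subgroup C') ∣ Nat.card C' := Subgroup.card_subgroup_dvd_card _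
      have h2 : m = 0 := by
        by_contra h0
        have h3 : 2 ∣ Nat.card C' := (dvd_pow_self 2 h0).trans (hm ▸ h1)
        obtain ⟨k, hk⟩ := hodd
        omega
      rw [h2, pow_zero] at hm
      have : Subsingleton (P : Subgroup C') := (Nat.card_eq_one_iff_unique.1 hm).1
      exact isCyclic_of_subsingleton
    · have hU : Cfsg.Agent.Lib.UniqueSub.UniqueP r (P : Subgroup C') := by
        intro x y hx hy
        let P' : Subgroup G := (P : Subgroup C').map C'.subtype
        have h1 : ((y : C') : G) ∈ zpowers ((x : C') : G) := by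
          refine omega_unique D P' (Subgroup.map_subtype_le _) (P.isPGroup'.map _)
            ⟨x, x.2, rfl⟩ ⟨y, y.2, rfl⟩ ?_ ?_
          · rw [Subgroup.orderOf_coe, Subgroup.orderOf_coe]; exact hx
          · rw [Subgroup.orderOf_coe, Subgroup.orderOf_coe]; exact hy
        obtain ⟨i, hi⟩ := h1
        refine ⟨i, Subtype.ext (Subtype.ext ?_)⟩
        exact hi
      rcases Cfsg.Agent.Lib.UniqueSub.cyclic_or_quaternion P.isPGroup' hU with h | ⟨h, -⟩
      · exact h
      · exact absurd h hr2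
  exact sub_cyclic D C' le_rfl (Or.inl ⟨⟨hcomm⟩⟩)

theorem kbar_cyclic (D : TF H K C' Cb) : IsCyclic (K.map (QuotientGroup.mk' H)) := by
  obtain ⟨θ, -⟩ := exists_theta D
  haveI := c_cyclic D
  exact isCyclic_of_surjective θ.toMonoidHom θ.surjective

theorem kbar_ne_bot (D : TF H K C' Cb) : K.map (QuotientGroup.mk' H) ≠ ⊥ := by
  intro h
  obtain ⟨k, hk, hkH⟩ := SetLike.exists_of_lt D.hlt
  have h1 : ((k : G) : G ⧸ H) ∈ K.map (QuotientGroup.mk' H) := ⟨k, hk, rfl⟩
  rw [h] at h1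
  exact hkH ((QuotientGroup.eq_one_iff k).1 (Subgroup.mem_bot.1 h1))

theorem cb_cyclic (D : TF H K C' Cb) : IsCyclic Cb := by
  haveI hKc := kbar_cyclic D
  have hnorm : (K.map (QuotientGroup.mk' H)).Normal := hKn.map _ (QuotientGroup.mk'_surjective H)
  have hcK : ∀ c ∈ Cb, c ≠ 1 → c ∉ K.map (QuotientGroup.mk' H) := by
    intro c hc hc1 h
    have h1 : c ∈ K.map (QuotientGroup.mk' H) ⊓ Cb := ⟨h, hc⟩
    rw [D.bCompl.disjoint.eq_bot] at h1
    exact hc1 (Subgroup.mem_bot.1 h1)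
  have hAcomm : ∀ a b : MulAut (K.map (QuotientGroup.mk' H)), a * b = b * a := by
    intro a b
    apply (IsCyclic.mulAutMulEquiv (K.map (QuotientGroup.mk' H))).injective
    rw [map_mul, map_mul, mul_comm]
  have hcomm : ∀ a b : Cb, a * b = b * a := by
    intro a b
    let x : G ⧸ H := (a : G ⧸ H) * b * (a : G ⧸ H)⁻¹ * (b : G ⧸ H)⁻¹
    have hx : x ∈ Cb := Cb.mul_mem (Cb.mul_mem (Cb.mul_mem a.2 b.2) (Cb.inv_mem a.2)) (Cb.inv_mem b.2)
    have hφ : (MulAut.conjNormal x : MulAut (K.map (QuotientGroup.mk' H))) = 1 := by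
      simp only [x, map_mul, map_inv]
      rw [hAcomm (MulAut.conjNormal (a : G ⧸ H)) (MulAut.conjNormal (b : G ⧸ H))]
      group
    have hx1 : x = 1 := by
      by_contra hx1
      apply kbar_ne_bot D
      rw [eq_bot_iff]
      intro n hn
      have h1 := congrArg (fun f : MulAut (K.map (QuotientGroup.mk' H)) => ((f ⟨n, hn⟩ : K.map (QuotientGroup.mk' H)) : G ⧸ H)) hφ
      simp only [MulAut.conjNormal_apply, MulAut.one_apply] at h1
      have h2 : n * x = x * n := by
        calc n * x = (x * n * x⁻¹) * x := by rw [h1]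
          _ = x * n := by group
      exact Subgroup.mem_bot.2 (D.fQ x (hcK x hx hx1) n hn h2)
    apply Subtype.ext
    show (a : G ⧸ H) * b = b * a
    calc (a : G ⧸ H) * b = x * (b * a) := by
          show _ = (a : G ⧸ H) * b * (a : G ⧸ H)⁻¹ * (b : G ⧸ H)⁻¹ * (b * a)
          group
      _ = b * a := by rw [hx1, one_mul]
  haveI : IsMulCommutative (K.map (QuotientGroup.mk' H)) := ⟨⟨cyclic_comm hKc⟩⟩
  refine Cfsg.Agent.S0041.result Cb (K.map (QuotientGroup.mk' H)) (kbar_ne_bot D) ?_ ?_ (Or.inl ⟨⟨hcomm⟩⟩)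
  · intro x _
    exact Subgroup.le_normalizer_of_normal (H := K.map (QuotientGroup.mk' H)) (K := ⊤) (Subgroup.mem_top x)
  · intro c hc hc1
    rw [eq_bot_iff]
    rintro n ⟨hn, hnc⟩
    have hnc' := Subgroup.mem_centralizer_singleton_iff.1 hnc
    exact Subgroup.mem_bot.2 (D.fQ c (hcK c hc hc1) n hn hnc')

theorem quot_map_surj (D : TF H K C' Cb) :
    Function.Surjective ((QuotientGroup.map H K (MonoidHom.id G) D.hlt.le).comp Cb.subtype) := by
  intro y
  obtain ⟨g, rfl⟩ := QuotientGroup.mk_surjective y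
  obtain ⟨⟨n, c⟩, hnc⟩ := D.bCompl.2 (g : G ⧸ H)
  refine ⟨c, ?_⟩
  obtain ⟨k, hk, hkn⟩ := n.2
  have hg : ((k : G) : G ⧸ H) * c = (g : G ⧸ H) := by
    rw [← hnc]
    show ((k : G) : G ⧸ H) * (c : G ⧸ H) = (n : G ⧸ H) * (c : G ⧸ H)
    rw [show ((k : G) : G ⧸ H) = n from hkn]
  have h1 : QuotientGroup.map H K (MonoidHom.id G) D.hlt.le (g : G ⧸ H) = ((g : G) : G ⧸ K) := rfl
  show QuotientGroup.map H K (MonoidHom.id G) D.hlt.le (c : G ⧸ H) = ((g : G) : G ⧸ K)
  rw [← h1, ← hg, map_mul]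
  have h2 : QuotientGroup.map H K (MonoidHom.id G) D.hlt.le ((k : G) : G ⧸ H) = 1 :=
    (QuotientGroup.eq_one_iff _).2 hk
  rw [h2, one_mul]

theorem quot_cyclic (D : TF H K C' Cb) : IsCyclic (G ⧸ K) := by
  haveI := cb_cyclic D
  exact isCyclic_of_surjective _ (quot_map_surj D)

theorem card_quot (D : TF H K C' Cb) : Nat.card (↥K ⧸ H.subgroupOf K) = Nat.card C' := by
  have h1 := Subgroup.card_eq_card_quotient_mul_card_subgroup (H.subgroupOf K)
  have h2 : Nat.card (H.subgroupOf K) = Nat.card H :=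
    Nat.card_congr (Subgroup.subgroupOfEquivOfLe D.hlt.le).toEquiv
  have h3 := D.cCard
  rw [h2] at h1
  rw [h1, mul_comm] at h3
  exact (Nat.eq_of_mul_eq_mul_right Nat.card_pos h3).symm

theorem card_quot2 (D : TF H K C' Cb) : Nat.card (G ⧸ K) = Nat.card Cb := by
  have h1 := Subgroup.card_eq_card_quotient_mul_card_subgroup K
  have h2 := Subgroup.card_eq_card_quotient_mul_card_subgroup H
  have h3 := D.bCompl.card_mul
  rw [card_kbar D] at h3
  have h4 := D.cCard
  rw [← h3] at h2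
  rw [← h4] at h1
  have h5 : Nat.card (G ⧸ K) * (Nat.card H * Nat.card C') = Nat.card Cb * (Nat.card H * Nat.card C') := by
    rw [← h1, h2]
    ring
  exact Nat.eq_of_mul_eq_mul_right (Nat.mul_pos Nat.card_pos Nat.card_pos) h5

theorem solvable_G (D : TF H K C' Cb) : Group.IsSolvable G := by
  haveI := quot_cyclic D
  haveI h0 : Group.IsSolvable (G ⧸ K) := isSolvable_of_comm (cyclic_comm (quot_cyclic D))
  haveI := D.nilQ
  haveI h1 : Group.IsSolvable (K.map (QuotientGroup.mk' H)) := inferInstance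
  haveI := D.hnil
  haveI h2 : Group.IsSolvable H := inferInstance
  have h3 : Group.IsSolvable (G ⧸ H) := by
    refine solvable_of_ker_le_range (K.map (QuotientGroup.mk' H)).subtype (QuotientGroup.map H K (MonoidHom.id G) D.hlt.le) ?_
    rw [Subgroup.range_subtype]
    intro y hy
    obtain ⟨g, rfl⟩ := QuotientGroup.mk_surjective y
    have h4 : ((g : G) : G ⧸ K) = 1 := hy
    exact ⟨g, (QuotientGroup.eq_one_iff g).1 h4, rfl⟩
  exact solvable_of_ker_le_range H.subtype (QuotientGroup.mk' H)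
    (by rw [QuotientGroup.ker_mk', Subgroup.range_subtype])

theorem no_mixed (D : TF H K C' Cb) {p q : ℕ} (hp : p.Prime) (hq : q.Prime) (hpq : p ≠ q)
    (hpa : p ∣ Nat.card C') {g : G} (hg : orderOf g = p * q) : q ∣ Nat.card C' := by
  have hpq0 : orderOf g ≠ 0 := by rw [hg]; exact Nat.mul_ne_zero hp.ne_zero hq.ne_zero
  have hu : orderOf (g ^ q) = p := by
    rw [orderOf_pow_of_dvd hq.ne_zero (by rw [hg]; exact dvd_mul_left _ _), hg]
    exact Nat.mul_div_cancel _ hq.pos
  have hw : orderOf (g ^ p) = q := by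
    rw [orderOf_pow_of_dvd hp.ne_zero (by rw [hg]; exact dvd_mul_right _ _), hg]
    exact Nat.mul_div_cancel_left _ hp.pos
  have hcomm : g ^ p * g ^ q = g ^ q * g ^ p := ((Commute.refl g).pow_pow p q).eq
  have hcb : Nat.Coprime (Nat.card C') (Nat.card Cb) := by
    have := D.bCop
    rw [card_kbar D] at this
    exact this.symm
  have hne1 : ∀ (T : Type _) [Group T] (u : T) (s : ℕ), s.Prime → orderOf u = s → u ≠ 1 := by
    rintro T _ u s hs hu rfl
    rw [orderOf_one] at hu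
    exact hs.ne_one hu.symm
  have huK : g ^ q ∈ K := by
    have h1 : ((g ^ q : G) : G ⧸ K) = 1 := by
      have h2 : orderOf ((g ^ q : G) : G ⧸ K) ∣ p := by
        rw [← hu]
        exact orderOf_map_dvd (QuotientGroup.mk' K) _
      have h3 : orderOf ((g ^ q : G) : G ⧸ K) ∣ Nat.card Cb := by
        rw [← card_quot2 D]
        exact orderOf_dvd_natCard _
      have h4 : Nat.Coprime p (Nat.card Cb) := Nat.Coprime.coprime_dvd_left hpa hcb
      have h5 := Nat.dvd_gcd h2 h3
      rw [h4] at h5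
      exact orderOf_eq_one_iff.1 (Nat.dvd_one.1 h5)
    exact (QuotientGroup.eq_one_iff _).1 h1
  have huH : g ^ q ∉ H := by
    intro h
    have h1 : p ∣ Nat.card H := by
      rw [← hu]
      exact Subgroup.orderOf_dvd_natCard H h
    have h2 := Nat.dvd_gcd hpa h1
    rw [D.cCop] at h2
    exact hp.one_lt.ne' (Nat.dvd_one.1 h2)
  have hwH : g ^ p ∉ H := by
    intro h
    have h1 := D.fH _ huK huH _ h hcomm
    exact hne1 G _ q hq hw h1
  by_contra hqa
  have hwK : ((g ^ p : G) : G ⧸ H) ∉ K.map (QuotientGroup.mk' H) := by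
    intro h
    have h1 : ((g ^ p : G) : G ⧸ H) ≠ 1 := fun e => hwH ((QuotientGroup.eq_one_iff _).1 e)
    have h2 : orderOf ((g ^ p : G) : G ⧸ H) ∣ q := by
      rw [← hw]
      exact orderOf_map_dvd (QuotientGroup.mk' H) _
    have h3 : orderOf ((g ^ p : G) : G ⧸ H) = q := by
      rcases (Nat.dvd_prime hq).1 h2 with h4 | h4
      · exact absurd (orderOf_eq_one_iff.1 h4) h1
      · exact h4
    have h5 := Subgroup.orderOf_dvd_natCard _ h
    rw [h3, card_kbar D] at h5
    exact hqa h5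
  have h6 := D.fQ _ hwK ((g ^ q : G) : G ⧸ H) ⟨_, huK, rfl⟩ (by
    show ((g ^ q * g ^ p : G) : G ⧸ H) = ((g ^ p * g ^ q : G) : G ⧸ H)
    rw [hcomm])
  exact huH ((QuotientGroup.eq_one_iff _).1 h6)

theorem mem_norm_of_conj_mem {T : Subgroup G} (m : G) (h : ∀ t ∈ T, m * t * m⁻¹ ∈ T) :
    m ∈ normalizer (T : Set G) := by
  have hmap : T.map (MulAut.conj m).toMonoidHom = T := by
    refine Subgroup.eq_of_le_of_card_ge ?_ ?_
    · rintro _ ⟨t, ht, rfl⟩
      exact h t ht
    · exact (Nat.card_congr (T.equivMapOfInjective _ (MulAut.conj m).injective).toEquiv).le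
  rw [Subgroup.mem_normalizer_iff]
  intro u
  refine ⟨h u, fun hu => ?_⟩
  rw [← hmap] at hu
  obtain ⟨t, ht, htu⟩ := hu
  have h2 : t = u := (MulAut.conj m).injective htu
  rwa [← h2]

theorem pCore_char' (p : ℕ) (Y : Type*) [Group Y] : (pCore p Y).Characteristic := by
  rw [Subgroup.characteristic_iff_map_eq]
  intro e
  exact Cfsg.Agent.Lib.PCore.pCore_map_equiv e

theorem mixed (D : TF H K C' Cb) {p q : ℕ} (hp : p.Prime) (hq : q.Prime) (hpq : p ≠ q)
    (hph : p ∣ Nat.card H) (hqb : q ∣ Nat.card Cb) (hqh : ¬ q ∣ Nat.card H) (hqa : ¬ q ∣ Nat.card C')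
    (hpa : ¬ p ∣ Nat.card C') : ∃ g : G, orderOf g = p * q := by
  classical
  haveI : Fact p.Prime := ⟨hp⟩
  haveI : Fact q.Prime := ⟨hq⟩
  have hqK : ¬ q ∣ Nat.card K := by
    rw [← D.cCard]
    intro h
    rcases (hq.dvd_mul).1 h with h | h
    · exact hqh h
    · exact hqa h
  have hqG : q ∣ Nat.card G := by
    rw [Subgroup.card_eq_card_quotient_mul_card_subgroup K, card_quot2 D]
    exact Dvd.dvd.mul_right hqb _
  obtain ⟨y, hy⟩ := exists_prime_orderOf_dvd_card' q hqG
  have hy1 : y ≠ 1 := by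
    rintro rfl
    rw [orderOf_one] at hy
    exact hq.ne_one hy.symm
  have hyK : y ∉ K := by
    intro h
    apply hqK
    rw [← hy]
    exact Subgroup.orderOf_dvd_natCard K h
  have hzq : IsPGroup q (zpowers y) := IsPGroup.of_card (n := 1) (by rw [Nat.card_zpowers, hy, pow_one])
  -- a prime divisor of `|C'|`
  have hC1 : Nat.card C' ≠ 1 := by
    intro h
    apply D.c1
    exact (Subgroup.card_eq_one).1 h
  obtain ⟨r, hr, hra⟩ := Nat.exists_prime_and_dvd hC1
  haveI : Fact r.Prime := ⟨hr⟩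
  have hrp : r ≠ p := fun e => hpa (e ▸ hra)
  have hrh : ¬ r ∣ Nat.card H := by
    intro h
    have h2 := Nat.dvd_gcd hra h
    rw [D.cCop] at h2
    exact hr.one_lt.ne' (Nat.dvd_one.1 h2)
  have hrK : r ∣ Nat.card K := by
    rw [← D.cCard]
    exact Dvd.dvd.mul_left hra _
  obtain ⟨R, -, hRK, hRr, hRc, hRinv⟩ := Cfsg.Agent.Lib.CoprimeSylow.exists_invariant_sylow_ge (p := q) (r := r)
    (zpowers y) K ⊥ hzq hqK (fun a _ l hl => hKn.conj_mem l hl a) bot_le IsPGroup.of_bot
    (by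
      intro a _ x hx
      rw [Subgroup.mem_bot] at hx ⊢
      rw [hx]
      group)
  have hR1 : R ≠ ⊥ := by
    intro h
    rw [h, Subgroup.card_bot] at hRc
    have h2 : (Nat.card K).factorization r ≠ 0 :=
      (hr.factorization_pos_of_dvd Nat.card_pos.ne' hrK).ne'
    have h3 := (Nat.pow_eq_one.1 hRc.symm)
    rcases h3 with h3 | h3
    · exact hr.one_lt.ne' h3
    · exact h2 h3
  have hRH : ∀ x ∈ R, x ∈ H → x = 1 := by
    intro x hx hxH
    obtain ⟨k, hk⟩ := hRr ⟨x, hx⟩
    have h1 : x ^ r ^ k = 1 := congrArg Subtype.val hk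
    have h2 := orderOf_dvd_of_pow_eq_one h1
    have h3 := Subgroup.orderOf_dvd_natCard H hxH
    have h4 : Nat.Coprime (r ^ k) (Nat.card H) :=
      Nat.Coprime.pow_left k ((Nat.Prime.coprime_iff_not_dvd hr).2 hrh)
    have h5 := Nat.dvd_gcd h2 h3
    rw [h4] at h5
    exact orderOf_eq_one_iff.1 (Nat.dvd_one.1 h5)
  have hmy : ((y : G) : G ⧸ H) ∉ K.map (QuotientGroup.mk' H) := fun h => hyK ((mem_kbar D).1 h)
  have hRy : ∀ x ∈ R, x * y = y * x → x = 1 := by
    intro x hx hc
    have h1 := D.fQ _ hmy ((x : G) : G ⧸ H) ⟨x, hRK hx, rfl⟩ (by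
      show ((x * y : G) : G ⧸ H) = ((y * x : G) : G ⧸ H)
      rw [hc])
    exact hRH x hx ((QuotientGroup.eq_one_iff _).1 h1)
  -- the `p`-part of the centre
  haveI hchar : (pCore p H).Characteristic := pCore_char' p H
  let O : Subgroup G := (pCore p H).map H.subtype
  have hOn : O.Normal := map_subtype_normal_of_char H (pCore p H)
  have hOp : IsPGroup p O := (pCore_isPGroup p).map _
  have hOH : O ≤ H := Subgroup.map_subtype_le _
  have hO1 : O ≠ ⊥ := by
    intro h
    have h2 : pCore p H = ⊥ := (Subgroup.map_eq_bot_iff_of_injective _ H.subtype_injective).1 h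
    obtain ⟨x, hx⟩ := exists_prime_orderOf_dvd_card' p hph
    haveI := D.hnil
    obtain ⟨Q, hQ⟩ := (IsPGroup.of_card (p := p) (n := 1) (G := zpowers x)
      (by rw [Nat.card_zpowers, hx, pow_one])).exists_le_sylow
    have hQle : (Q : Subgroup H) ≤ pCore p H := le_pCore p _ inferInstance Q.isPGroup'
    have hxm : x ∈ pCore p H := hQle (hQ (mem_zpowers x))
    rw [h2] at hxm
    have h3 : x = 1 := Subgroup.mem_bot.1 hxm
    rw [h3, orderOf_one] at hx
    exact hp.ne_one hx.symm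
  haveI hOnt : Nontrivial O := (Subgroup.nontrivial_iff_ne_bot O).2 hO1
  let V : Subgroup G := (center O).map O.subtype
  have hVn : V.Normal := map_subtype_normal_of_char O (center O)
  have hVp : IsPGroup p V := hOp.to_le (Subgroup.map_subtype_le _)
  have hVH : V ≤ H := (Subgroup.map_subtype_le _).trans hOH
  have hVc : IsMulCommutative V := by
    refine ⟨⟨?_⟩⟩
    rintro ⟨_, u, hu, rfl⟩ ⟨_, v, hv, rfl⟩
    apply Subtype.ext
    show (u : G) * v = v * u
    exact congrArg Subtype.val ((Subgroup.mem_center_iff.1 hu) v).symm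
  have hV1 : V ≠ ⊥ := by
    intro h
    have h2 : center O = ⊥ := (Subgroup.map_eq_bot_iff_of_injective _ O.subtype_injective).1 h
    haveI := hOp.center_nontrivial
    obtain ⟨x, hx⟩ := exists_ne (1 : center O)
    apply hx
    have h3 : (x : O) ∈ (⊥ : Subgroup O) := h2 ▸ x.2
    exact Subtype.ext (Subgroup.mem_bot.1 h3)
  -- a fixed point of `y`
  have hfix : ∃ v ∈ V, v ≠ 1 ∧ v * y = y * v := by
    by_contra hno
    push Not at hno
    have hfixy : ∀ v ∈ V, v * y = y * v → v = 1 := by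
      intro v hv hc
      by_contra hv1
      exact hno v hv hv1 hc
    have hAN : zpowers y ≤ normalizer (R : Set G) := by
      intro a ha
      exact mem_norm_of_conj_mem a (fun t ht => hRinv a ha t ht)
    let A' : Subgroup G := R ⊔ zpowers y
    have hmemA : ∀ a ∈ A', ∃ r₀ ∈ R, ∃ w ∈ zpowers y, a = r₀ * w := by
      intro a ha
      have h1 : a ∈ ((R ⊔ zpowers y : Subgroup G) : Set G) := ha
      rw [Subgroup.coe_mul_of_right_le_normalizer_left R (zpowers y) hAN] at h1
      obtain ⟨r₀, hr₀, w, hw, rfl⟩ := Set.mem_mul.1 h1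
      exact ⟨r₀, hr₀, w, hw, rfl⟩
    have hgen : ∀ w ∈ zpowers y, w ≠ 1 → y ∈ zpowers w := by
      intro w hw hw1
      have h1 : zpowers w = zpowers y := by
        refine Subgroup.eq_of_le_of_card_ge ((zpowers_le).2 hw) ?_
        rw [Nat.card_zpowers, Nat.card_zpowers, hy]
        have h2 : orderOf w ∣ q := by
          rw [← hy]
          exact orderOf_dvd_of_mem_zpowers hw
        rcases (Nat.dvd_prime hq).1 h2 with h3 | h3
        · exact absurd (orderOf_eq_one_iff.1 h3) hw1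
        · rw [h3]
      rw [h1]
      exact mem_zpowers y
    have hconj : ∀ w ∈ zpowers y, w ≠ 1 → ∀ r₀ ∈ R, ∃ s ∈ R, r₀ * w = s * w * s⁻¹ := by
      intro w hw hw1 r₀ hr₀
      have hwR : ∀ t ∈ R, w * t * w⁻¹ ∈ R := fun t ht => hRinv w hw t ht
      let f : R → R := fun s => ⟨s * (w * (s : G)⁻¹ * w⁻¹), R.mul_mem s.2 (hwR _ (R.inv_mem s.2))⟩
      have hfinj : Function.Injective f := by
        intro a b hab
        have h1 : (a : G) * (w * (a : G)⁻¹ * w⁻¹) = b * (w * (b : G)⁻¹ * w⁻¹) := congrArg Subtype.val hab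
        have h2 : (b : G)⁻¹ * a * w = w * ((b : G)⁻¹ * a) := by
          have h3 : (a : G) * w * (a : G)⁻¹ = b * w * (b : G)⁻¹ := by
            have h4 : (a : G) * w * (a : G)⁻¹ * w⁻¹ = b * w * (b : G)⁻¹ * w⁻¹ := by
              calc (a : G) * w * (a : G)⁻¹ * w⁻¹ = (a : G) * (w * (a : G)⁻¹ * w⁻¹) := by group
                _ = b * (w * (b : G)⁻¹ * w⁻¹) := h1
                _ = _ := by group
            exact mul_right_cancel h4
          calc (b : G)⁻¹ * a * w = (b : G)⁻¹ * ((a : G) * w * (a : G)⁻¹) * a := by group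
            _ = (b : G)⁻¹ * (b * w * (b : G)⁻¹) * a := by rw [h3]
            _ = _ := by group
        have h5 : (b : G)⁻¹ * a ∈ R := R.mul_mem (R.inv_mem b.2) a.2
        have h6 : (b : G)⁻¹ * a = 1 := by
          refine hRy _ h5 ?_
          obtain ⟨j, hj⟩ := hgen w hw hw1
          have h7 : Commute ((b : G)⁻¹ * a) w := h2
          have h8 := h7.zpow_right j
          have hj' : w ^ j = y := hj
          rw [hj'] at h8
          exact h8
        apply Subtype.ext
        have h9 : (a : G) = b * ((b : G)⁻¹ * a) := by group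
        rw [h9, h6, mul_one]
      obtain ⟨s, hs⟩ := (Finite.injective_iff_surjective.1 hfinj) ⟨r₀, hr₀⟩
      refine ⟨s, s.2, ?_⟩
      have h1 : (s : G) * (w * (s : G)⁻¹ * w⁻¹) = r₀ := congrArg Subtype.val hs
      rw [← h1]
      group
    have hfpfA : ∀ a ∈ A', a ≠ 1 → V ⊓ Subgroup.centralizer {a} = ⊥ := by
      intro a ha ha1
      obtain ⟨r₀, hr₀, w, hw, rfl⟩ := hmemA a ha
      rw [eq_bot_iff]
      rintro v ⟨hv, hvc⟩
      have hvc' := Subgroup.mem_centralizer_singleton_iff.1 hvc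
      rw [Subgroup.mem_bot]
      by_cases hw1 : w = 1
      · subst hw1
        rw [mul_one] at ha1 hvc'
        have hr₀H : r₀ ∉ H := fun h => ha1 (hRH r₀ hr₀ h)
        exact D.fH r₀ (hRK hr₀) hr₀H v (hVH hv) hvc'
      · obtain ⟨s, hs, hsw⟩ := hconj w hw hw1 r₀ hr₀
        rw [hsw] at hvc'
        have hv' : (s : G)⁻¹ * v * s ∈ V := by
          have := hVn.conj_mem v hv s⁻¹
          simpa using this
        have hc : ((s : G)⁻¹ * v * s) * w = w * ((s : G)⁻¹ * v * s) := by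
          calc ((s : G)⁻¹ * v * s) * w = s⁻¹ * (v * (s * w * s⁻¹)) * s := by group
            _ = s⁻¹ * ((s * w * s⁻¹) * v) * s := by rw [hvc']
            _ = _ := by group
        obtain ⟨j, hj⟩ := hgen w hw hw1
        have h8 := (show Commute ((s : G)⁻¹ * v * s) w from hc).zpow_right j
        have hj' : w ^ j = y := hj
        rw [hj'] at h8
        have h9 := hfixy _ hv' h8
        calc v = s * ((s : G)⁻¹ * v * s) * s⁻¹ := by group
          _ = 1 := by rw [h9]; group
    have hAV : A' ≤ normalizer (V : Set G) := by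
      intro x _
      exact Subgroup.le_normalizer_of_normal (H := V) (K := ⊤) (Subgroup.mem_top x)
    have hord : ∀ u ∈ R, (y * u) ^ q = 1 := by
      intro u hu
      have h1 : y * u * y⁻¹ ∈ R := hRinv y (mem_zpowers y) u hu
      obtain ⟨s, hs, hsw⟩ := hconj y (mem_zpowers y) hy1 _ h1
      have h2 : y * u = s * y * (s : G)⁻¹ := by
        rw [← hsw]
        group
      rw [h2, conj_pow, ← hy, pow_orderOf_eq_one]
      group
    letI : CommGroup V := { (inferInstance : Group V) with mul_comm := fun a b => hVc.is_comm.comm a b }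
    have hle : A' ≤ normalizer (R : Set G) := sup_le Subgroup.le_normalizer hAN
    haveI hQn : (R.subgroupOf A').Normal := by
      rw [Subgroup.normal_subgroupOf_iff_le_normalizer le_sup_left]
      exact hle
    have hQ1 : R.subgroupOf A' ≠ ⊥ := by
      obtain ⟨x, hx⟩ := Subgroup.ne_bot_iff_exists_ne_one.1 hR1
      have hx' : (x : G) ≠ 1 := fun e => hx (Subtype.ext e)
      intro h
      have h1 : (⟨x, (le_sup_left : R ≤ A') x.2⟩ : A') ∈ R.subgroupOf A' := x.2
      rw [h] at h1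
      exact hx' (congrArg Subtype.val (Subgroup.mem_bot.1 h1))
    let z : A' := ⟨y, (le_sup_right : zpowers y ≤ A') (mem_zpowers y)⟩
    have hz : z ∉ R.subgroupOf A' := fun h => hyK (hRK h)
    have hord' : ∀ u ∈ R.subgroupOf A', (z * u) ^ q = 1 := by
      intro u hu
      exact Subtype.ext (hord u.1 hu)
    have hallv : ∀ v : V, v ^ Nat.card (R.subgroupOf A') = 1 := fun v =>
      Cfsg.Agent.Lib.FrobC.pq_key (Cfsg.Agent.Lib.PReduced.actHom V hAV)
        (Cfsg.Agent.Lib.FrobC.act_fixed hAV hfpfA) (R.subgroupOf A') hQ1 hq z hz hord' v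
    have hcardQ : Nat.card (R.subgroupOf A') = r ^ (Nat.card K).factorization r := by
      rw [← hRc]
      exact Nat.card_congr (Subgroup.subgroupOfEquivOfLe (le_sup_left : R ≤ A')).toEquiv
    apply hV1
    rw [eq_bot_iff]
    intro v hv
    have h1 := hallv ⟨v, hv⟩
    rw [hcardQ] at h1
    have h2 : v ^ r ^ (Nat.card K).factorization r = 1 := congrArg Subtype.val h1
    obtain ⟨k, hk⟩ := hVp ⟨v, hv⟩
    have h3 : v ^ p ^ k = 1 := congrArg Subtype.val hk
    have h4 : Nat.Coprime (r ^ (Nat.card K).factorization r) (p ^ k) :=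
      Nat.Coprime.pow _ _ ((Nat.coprime_primes hr hp).2 hrp)
    have h5 := Nat.dvd_gcd (orderOf_dvd_of_pow_eq_one h2) (orderOf_dvd_of_pow_eq_one h3)
    rw [h4] at h5
    exact Subgroup.mem_bot.2 (orderOf_eq_one_iff.1 (Nat.dvd_one.1 h5))
  obtain ⟨v, hv, hv1, hvy⟩ := hfix
  -- an element of order `p`
  obtain ⟨k, hk⟩ := hVp ⟨v, hv⟩
  have h1 : v ^ p ^ k = 1 := congrArg Subtype.val hk
  obtain ⟨j, -, hj⟩ := (Nat.dvd_prime_pow hp).1 (orderOf_dvd_of_pow_eq_one h1)
  have hj0 : j ≠ 0 := by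
    rintro rfl
    rw [pow_zero] at hj
    exact hv1 (orderOf_eq_one_iff.1 hj)
  have hv₁ : orderOf (v ^ p ^ (j - 1)) = p := by
    obtain ⟨i, rfl⟩ : ∃ i, j = i + 1 := ⟨j - 1, by omega⟩
    simp only [Nat.add_sub_cancel]
    rw [orderOf_pow_of_dvd (pow_ne_zero _ hp.ne_zero) (by rw [hj]; exact pow_dvd_pow _ (by omega)), hj, pow_succ]
    exact Nat.mul_div_cancel_left _ (pow_pos hp.pos _)
  have hcv : Commute (v ^ p ^ (j - 1)) y := (show Commute v y from hvy).pow_left _
  refine ⟨v ^ p ^ (j - 1) * y, ?_⟩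
  rw [hcv.orderOf_mul_eq_mul_orderOf_of_coprime (by rw [hv₁, hy]; exact (Nat.coprime_primes hp hq).2 hpq), hv₁, hy]

theorem exists_pq (D : TF H K C' Cb) {p q : ℕ} (hp : p.Prime) (hq : q.Prime) (hpq : p ≠ q)
    (hpG : p ∣ Nat.card G) (hqG : q ∣ Nat.card G) (hiff : p ∣ Nat.card C' ↔ q ∣ Nat.card C') :
    ∃ g : G, orderOf g = p * q := by
  haveI : Fact p.Prime := ⟨hp⟩
  haveI : Fact q.Prime := ⟨hq⟩
  have hcopn : Nat.Coprime p q := (Nat.coprime_primes hp hq).2 hpq
  by_cases hpa : p ∣ Nat.card C'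
  · have hqa := hiff.1 hpa
    obtain ⟨g, hg⟩ := exists_order_cyclic (c_cyclic D) (Nat.Coprime.mul_dvd_of_dvd_of_dvd hcopn hpa hqa)
    exact ⟨g, by rw [← hg]; exact Subgroup.orderOf_coe g⟩
  · have hqa : ¬ q ∣ Nat.card C' := fun h => hpa (hiff.2 h)
    have hcardG : Nat.card G = Nat.card Cb * (Nat.card H * Nat.card C') := by
      rw [Subgroup.card_eq_card_quotient_mul_card_subgroup K, card_quot2 D, D.cCard]
    have hsplit : ∀ s : ℕ, s.Prime → s ∣ Nat.card G → ¬ s ∣ Nat.card C' → s ∣ Nat.card H ∨ s ∣ Nat.card Cb := by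
      intro s hs hsG hsa
      rw [hcardG] at hsG
      rcases (hs.dvd_mul).1 hsG with h | h
      · right; exact h
      · rcases (hs.dvd_mul).1 h with h | h
        · left; exact h
        · exact absurd h hsa
    have case1 : p ∣ Nat.card H → q ∣ Nat.card H → ∃ g : G, orderOf g = p * q := by
      intro h1 h2
      haveI := D.hnil
      obtain ⟨x, hx⟩ := exists_prime_orderOf_dvd_card' p h1
      obtain ⟨y, hy⟩ := exists_prime_orderOf_dvd_card' q h2
      have hcomm : x * y = y * x :=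
        Cfsg.Agent.Lib.TypeP.nilp_comm_coprime (N := H) _ x rfl y (by rw [hx, hy]; exact hcopn)
      refine ⟨(x * y : H), ?_⟩
      rw [Subgroup.orderOf_coe]
      rw [Commute.orderOf_mul_eq_mul_orderOf_of_coprime hcomm (by rw [hx, hy]; exact hcopn), hx, hy]
    have case2 : p ∣ Nat.card Cb → q ∣ Nat.card Cb → ∃ g : G, orderOf g = p * q := by
      intro h1 h2
      have h3 : p * q ∣ Nat.card (G ⧸ K) := by
        rw [card_quot2 D]
        exact Nat.Coprime.mul_dvd_of_dvd_of_dvd hcopn h1 h2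
      obtain ⟨yb, hyb⟩ := exists_order_cyclic (quot_cyclic D) h3
      obtain ⟨g, rfl⟩ := QuotientGroup.mk_surjective yb
      have h4 : p * q ∣ orderOf g := by
        rw [← hyb]
        exact orderOf_map_dvd (QuotientGroup.mk' K) g
      obtain ⟨m, hm⟩ := h4
      have hm0 : m ≠ 0 := by
        rintro rfl
        rw [mul_zero] at hm
        exact (orderOf_pos g).ne' hm
      refine ⟨g ^ m, ?_⟩
      rw [orderOf_pow_of_dvd hm0 (by rw [hm]; exact dvd_mul_left _ _), hm]
      exact Nat.mul_div_cancel _ (Nat.pos_of_ne_zero hm0)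
    rcases hsplit p hp hpG hpa with h1 | h1 <;> rcases hsplit q hq hqG hqa with h2 | h2
    · exact case1 h1 h2
    · by_cases h3 : q ∣ Nat.card H
      · exact case1 h1 h3
      · by_cases h4 : p ∣ Nat.card Cb
        · exact case2 h4 h2
        · exact mixed D hp hq hpq h1 h2 h3 hqa hpa
    · by_cases h3 : p ∣ Nat.card H
      · exact case1 h3 h2
      · by_cases h4 : q ∣ Nat.card Cb
        · exact case2 h1 h4
        · obtain ⟨g, hg⟩ := mixed D hq hp (Ne.symm hpq) h2 h1 h3 hpa hqa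
          exact ⟨g, by rw [hg, mul_comm]⟩
    · exact case2 h1 h2

end TFs

end H6Main

/-- Let G be a 2-Frobenius group: it has normal subgroups H < K with K a Frobenius group with kernel H and G/H a Frobenius group with kernel K/H. Then G is solvable; K/H has odd order coprime to the order of H and to the order of G/K (it is the image of an odd-order Hall subgroup); G/K is cyclic; and the prime graph of G has exactly two connected components, both complete: for distinct primes p, q dividing the order of G, G has an element of order pq exactly when p and q either both divide the order of K/H or both do not. -/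
theorem result {G : Type*} [Group G] [Finite G] (H K : Subgroup G) [H.Normal] [K.Normal] (hlt : H < K)
    (hK : ∃ C : Subgroup ↥K, Cfsg.IsFrobeniusComplement C ∧ Cfsg.frobeniusKernel C = (H.subgroupOf K : Set ↥K))
    (hGH : ∃ C : Subgroup (G ⧸ H), Cfsg.IsFrobeniusComplement C ∧ Cfsg.frobeniusKernel C = (K.map (QuotientGroup.mk' H) : Set (G ⧸ H))) :
    Group.IsSolvable G ∧ Odd (Nat.card (↥K ⧸ H.subgroupOf K)) ∧
      Nat.Coprime (Nat.card (↥K ⧸ H.subgroupOf K)) (Nat.card ↥H * Nat.card (G ⧸ K)) ∧ IsCyclic (G ⧸ K) ∧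
      ∀ p q : ℕ, p.Prime → q.Prime → p ≠ q → p ∣ Nat.card G → q ∣ Nat.card G →
        ((∃ g : G, orderOf g = p * q) ↔ (p ∣ Nat.card (↥K ⧸ H.subgroupOf K) ↔ q ∣ Nat.card (↥K ⧸ H.subgroupOf K))) := by
  obtain ⟨C', Cb, D⟩ := tf_of hlt hK hGH
  refine ⟨solvable_G D, ?_, ?_, quot_cyclic D, ?_⟩
  · rw [card_quot D]
    exact odd_card D
  · rw [card_quot D, card_quot2 D]
    refine Nat.Coprime.mul_right D.cCop ?_
    have := D.bCop
    rw [card_kbar D] at this
    exact this.symm
  · intro p q hp hq hpq hpG hqG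
    rw [card_quot D]
    constructor
    · rintro ⟨g, hg⟩
      exact ⟨fun h => no_mixed D hp hq hpq h hg,
        fun h => no_mixed D hq hp (Ne.symm hpq) h (g := g) (by rw [hg, mul_comm])⟩
    · exact exists_pq D hp hq hpq hpG hqG

end Cfsg.Agent.S4001
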