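import Mathlib
import Cfsg.Statements.S4005
import Cfsg.Agent.Lib.PCore
import Cfsg.Agent.Lib.H6Orb4
import Cfsg.Agent.Lib.CoprimeGen4
import Cfsg.Agent.Lib.BenderMax
import Cfsg.Agent.Lib.FitSolv
-- import your own Cfsg.Agent.* helpers here

set_option autoImplicit false
open Cfsg

namespace Cfsg.Agent.S4005

open Cfsg.Agent.Lib.PCore

private lemma fpf_inv {G : Type*} [Group G] [Finite G] (R : Subgroup G) (t : G) (ht : t * t = 1)
    (hn : ∀ r ∈ R, t * r * t⁻¹ ∈ R) (hfix : ∀ r ∈ R, t * r = r * t → r = 1) :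
    ∀ r ∈ R, t * r * t⁻¹ = r⁻¹ := by
  classical
  have htinv : t⁻¹ = t := inv_eq_of_mul_eq_one_left ht
  let f : R → R := fun v => ⟨v.1⁻¹ * (t * v.1 * t⁻¹), R.mul_mem (R.inv_mem v.2) (hn _ v.2)⟩
  have hinj : Function.Injective f := by
    intro v w hvw
    have h1 : v.1⁻¹ * (t * v.1 * t⁻¹) = w.1⁻¹ * (t * w.1 * t⁻¹) := congrArg Subtype.val hvw
    have h2 : t * (w.1 * v.1⁻¹) = (w.1 * v.1⁻¹) * t := by
      have h3 : t * v.1 * t⁻¹ = v.1 * (w.1⁻¹ * (t * w.1 * t⁻¹)) := by
        rw [← h1]; group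
      have h4 : t * (w.1 * v.1⁻¹) * t⁻¹ = (t * w.1 * t⁻¹) * (t * v.1 * t⁻¹)⁻¹ := by group
      rw [← mul_inv_eq_iff_eq_mul, h4, h3]
      group
    have h5 := hfix _ (R.mul_mem w.2 (R.inv_mem v.2)) h2
    apply Subtype.ext
    exact (mul_inv_eq_one.mp h5).symm
  have hsurj : Function.Surjective f := Finite.injective_iff_surjective.mp hinj
  intro r hr
  obtain ⟨w, hw⟩ := hsurj ⟨r, hr⟩
  have h1 : r = w.1⁻¹ * (t * w.1 * t⁻¹) := (congrArg Subtype.val hw).symm
  rw [h1]
  have h2 : t * (w.1⁻¹ * (t * w.1 * t⁻¹)) * t⁻¹ = (t * w.1 * t⁻¹)⁻¹ * ((t * t) * w.1 * (t * t)⁻¹) := by group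
  rw [h2, ht]
  group

private lemma sylow_card_mul {G : Type*} [Group G] [Finite G] (hprime : ∀ l : ℕ, l.Prime → l ∣ Nat.card G → l = 2 ∨ l = 3)
    [Fact (Nat.Prime 2)] [Fact (Nat.Prime 3)] (T : Sylow 2 G) (Y : Sylow 3 G) : Nat.card T * Nat.card Y = Nat.card G := by
  classical
  obtain ⟨a, ha⟩ := IsPGroup.iff_card.mp T.isPGroup'
  obtain ⟨b, hb⟩ := IsPGroup.iff_card.mp Y.isPGroup'
  have h1 := Subgroup.card_mul_index (T : Subgroup G)
  have h2 := Subgroup.card_mul_index (Y : Subgroup G)
  have hT2 := T.not_dvd_index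
  have hY3 := Y.not_dvd_index
  have hcop : Nat.Coprime (2 ^ a) (3 ^ b) := Nat.Coprime.pow _ _ (by decide)
  have hdvd : Nat.card Y ∣ (T : Subgroup G).index := by
    have h3 : Nat.card Y ∣ Nat.card T * (T : Subgroup G).index := by
      rw [h1]; exact Subgroup.card_subgroup_dvd_card _
    rw [ha, hb] at *
    exact (hcop.symm).dvd_of_dvd_mul_left h3
  obtain ⟨m, hm⟩ := hdvd
  have hm1 : m = 1 := by
    by_contra hne
    obtain ⟨l, hl, hlm⟩ := Nat.exists_prime_and_dvd hne
    have hl1 : l ∣ (T : Subgroup G).index := hm ▸ Dvd.dvd.mul_left hlm _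
    have hl2 : l ∣ Nat.card G := h1 ▸ Dvd.dvd.mul_left hl1 _
    rcases hprime l hl hl2 with rfl | rfl
    · exact hT2 hl1
    · apply hY3
      have h4 : Nat.card Y * 3 ∣ Nat.card Y * (Y : Subgroup G).index := by
        rw [h2, ← h1, hm]
        exact Dvd.dvd.mul_left (mul_dvd_mul_left _ hlm) _
      exact Nat.dvd_of_mul_dvd_mul_left Nat.card_pos h4
  rw [hm1, mul_one] at hm
  rw [← hm, h1]

/-- A finite group whose set of element orders is exactly {1, 2, 3} has either a normal elementary abelian 3-subgroup of index 2 or a normal elementary abelian 2-subgroup of index 3. -/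
theorem result {G : Type*} [Group G] [Finite G] (h : Set.range (orderOf : G → ℕ) = {k : ℕ | 1 ≤ k ∧ k ≤ 3}) :
    (∃ N : Subgroup G, N.Normal ∧ Cfsg.IsElementaryAbelian 3 N ∧ N.index = 2) ∨
      (∃ N : Subgroup G, N.Normal ∧ Cfsg.IsElementaryAbelian 2 N ∧ N.index = 3) := by
  classical
  haveI f2 : Fact (Nat.Prime 2) := ⟨Nat.prime_two⟩
  haveI f3 : Fact (Nat.Prime 3) := ⟨Nat.prime_three⟩
  have hord : ∀ g : G, orderOf g = 1 ∨ orderOf g = 2 ∨ orderOf g = 3 := by
    intro g
    have : orderOf g ∈ Set.range (orderOf : G → ℕ) := ⟨g, rfl⟩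
    rw [h] at this
    obtain ⟨h1, h2⟩ := this
    omega
  have hex : ∀ k : ℕ, 1 ≤ k → k ≤ 3 → ∃ g : G, orderOf g = k := by
    intro k h1 h2
    have : k ∈ Set.range (orderOf : G → ℕ) := by
      rw [h]
      exact ⟨h1, h2⟩
    exact this
  have hprime : ∀ l : ℕ, l.Prime → l ∣ Nat.card G → l = 2 ∨ l = 3 := by
    intro l hl hd
    haveI : Fact l.Prime := ⟨hl⟩
    obtain ⟨x, hx⟩ := exists_prime_orderOf_dvd_card' (G := G) l hd
    have h2 := hl.two_le
    rcases hord x with h1 | h1 | h1 <;> omega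
  have no6 : ∀ a b : G, orderOf a = 2 → orderOf b = 3 → a * b ≠ b * a := by
    intro a b ha hb hc
    have hcomm : Commute a b := hc
    have h1 := hcomm.orderOf_mul_eq_mul_orderOf_of_coprime (by rw [ha, hb]; decide)
    rw [ha, hb] at h1
    rcases hord (a * b) with h2 | h2 | h2 <;> omega
  have h2el : ∀ x : G, (∃ k, x ^ (2 ^ k) = 1) → x * x = 1 := by
    rintro x ⟨k, hk⟩
    have h1 := orderOf_dvd_of_pow_eq_one hk
    rcases hord x with h2 | h2 | h2
    · rw [orderOf_eq_one_iff.mp h2]; simp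
    · rw [← pow_two, ← h2, pow_orderOf_eq_one]
    · rw [h2] at h1
      have := Nat.Prime.dvd_of_dvd_pow Nat.prime_three h1
      omega
  have h3el : ∀ x : G, (∃ k, x ^ (3 ^ k) = 1) → x ^ 3 = 1 := by
    rintro x ⟨k, hk⟩
    have h1 := orderOf_dvd_of_pow_eq_one hk
    rcases hord x with h2 | h2 | h2
    · rw [orderOf_eq_one_iff.mp h2]; simp
    · rw [h2] at h1
      have := Nat.Prime.dvd_of_dvd_pow Nat.prime_two h1
      omega
    · rw [← h2, pow_orderOf_eq_one]
  have hcomm2 : ∀ a b : G, a * a = 1 → b * b = 1 → (a * b) * (a * b) = 1 → a * b = b * a := by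
    intro a b ha hb hab
    have ha' : a⁻¹ = a := inv_eq_of_mul_eq_one_left ha
    have hb' : b⁻¹ = b := inv_eq_of_mul_eq_one_left hb
    have h1 : a * b = (a * b)⁻¹ := (inv_eq_of_mul_eq_one_left hab).symm
    rw [mul_inv_rev, ha', hb'] at h1
    exact h1
  by_cases hU0 : pCore 2 G = ⊥
  · -- first alternative
    left
    have hsolv : Group.IsSolvable G := Cfsg.Agent.Lib.H6Orb4.solvable_of_two 2 3 Nat.prime_two Nat.prime_three hprime
    have hV0 : pCore 3 G ≠ ⊥ := by
      intro hV0
      have hF : Cfsg.fittingSubgroup G = ⊥ := by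
        rw [eq_bot_iff]
        refine (Cfsg.Agent.Lib.BenderMax.fitting_le_iSup (H := G)).trans ?_
        rw [iSup_le_iff]
        rintro ⟨l, hl⟩
        by_cases hl2 : l = 2
        · subst hl2; rw [hU0]
        by_cases hl3 : l = 3
        · subst hl3; rw [hV0]
        haveI : Fact l.Prime := ⟨hl⟩
        have hnd : ¬ l ∣ Nat.card G := fun hd => (hprime l hl hd).elim hl2 hl3
        intro x hx
        obtain ⟨k, hk⟩ := isPGroup_pCore l G ⟨x, hx⟩
        have h1 : x ^ (l ^ k) = 1 := congrArg Subtype.val hk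
        have h2 : orderOf x ∣ l ^ k := orderOf_dvd_of_pow_eq_one h1
        have h3 : orderOf x ∣ Nat.card G := orderOf_dvd_natCard x
        have hcop : Nat.Coprime (l ^ k) (Nat.card G) := Nat.Coprime.pow_left k ((Nat.Prime.coprime_iff_not_dvd hl).mpr hnd)
        exact orderOf_eq_one_iff.mp (Nat.eq_one_of_dvd_coprimes hcop h2 h3)
      have hC := Cfsg.Agent.Lib.FitSolv.centralizer_fitting_le (G := G)
      rw [hF] at hC
      obtain ⟨x, hx⟩ := hex 2 (by omega) (by omega)
      have hxm : x ∈ (⊥ : Subgroup G) := hC (by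
        rw [Subgroup.mem_centralizer_iff]
        intro y hy
        have : y = 1 := hy
        simp [this])
      rw [Subgroup.mem_bot] at hxm
      rw [hxm, orderOf_one] at hx
      omega
    set V := pCore 3 G with hV
    haveI hVn : V.Normal := pCore_normal 3 G
    have hV3 : ∀ v ∈ V, v ^ 3 = 1 := by
      intro v hv
      obtain ⟨k, hk⟩ := isPGroup_pCore 3 G ⟨v, hv⟩
      exact h3el v ⟨k, congrArg Subtype.val hk⟩
    have hfixg : ∀ (R : Subgroup G), (∀ r ∈ R, r ^ 3 = 1) → ∀ t : G, orderOf t = 2 → ∀ r ∈ R, t * r = r * t → r = 1 := by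
      intro R hR t ht r hr hc
      by_contra hne
      exact no6 t r ht (orderOf_eq_prime (hR r hr) hne) hc
    have hinvV : ∀ t : G, orderOf t = 2 → ∀ v ∈ V, t * v * t⁻¹ = v⁻¹ := by
      intro t ht
      apply fpf_inv V t (by rw [← pow_two, ← ht, pow_orderOf_eq_one]) (fun r hr => hVn.conj_mem _ hr t)
      exact hfixg V hV3 t ht
    -- Sylow 2-subgroup has order 2
    obtain ⟨t₀, ht₀⟩ := hex 2 (by omega) (by omega)
    obtain ⟨T⟩ : Nonempty (Sylow 2 G) := inferInstance
    have hTexp : ∀ x ∈ (T : Subgroup G), x * x = 1 := by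
      intro x hx
      obtain ⟨k, hk⟩ := T.isPGroup' ⟨x, hx⟩
      exact h2el x ⟨k, congrArg Subtype.val hk⟩
    have h2G : 2 ∣ Nat.card G := ht₀ ▸ orderOf_dvd_natCard t₀
    obtain ⟨t, htT, ht⟩ : ∃ t ∈ (T : Subgroup G), orderOf t = 2 := by
      have h1 := T.ne_bot_of_dvd_card h2G
      obtain ⟨x, hx⟩ := Subgroup.ne_bot_iff_exists_ne_one.mp h1
      refine ⟨x.1, x.2, orderOf_eq_prime ?_ (fun h => hx (Subtype.ext h))⟩
      rw [pow_two]
      exact hTexp _ x.2
    have hTt : (T : Subgroup G) = Subgroup.zpowers t := by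
      apply le_antisymm
      · intro s hs
        by_cases hs1 : s = 1
        · rw [hs1]; exact Subgroup.one_mem _
        by_cases hst : s = t
        · rw [hst]; exact Subgroup.mem_zpowers t
        exfalso
        have hs2 : s * s = 1 := hTexp s hs
        have ht2 : t * t = 1 := hTexp t htT
        have hts : t * s ∈ (T : Subgroup G) := Subgroup.mul_mem _ htT hs
        have hts2 := hTexp _ hts
        have hts1 : t * s ≠ 1 := by
          intro h1
          apply hst
          have : s = t⁻¹ := eq_inv_of_mul_eq_one_right h1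
          rw [this]
          exact inv_eq_of_mul_eq_one_left ht2
        have hto : orderOf (t * s) = 2 := orderOf_eq_prime (by rw [pow_two]; exact hts2) hts1
        have hso : orderOf s = 2 := orderOf_eq_prime (by rw [pow_two]; exact hs2) hs1
        apply hV0
        rw [eq_bot_iff]
        intro v hv
        have h1 := hinvV t ht v hv
        have h2 := hinvV s hso v hv
        have h3 : t * s * v = v * (t * s) := by
          have h4 : s * v = v⁻¹ * s := by
            rw [mul_inv_eq_iff_eq_mul] at h2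
            exact h2
          have h5 : t * v⁻¹ = v * t := by
            have h6 : t * v⁻¹ * t⁻¹ = (t * v * t⁻¹)⁻¹ := by group
            rw [h1, inv_inv, mul_inv_eq_iff_eq_mul] at h6
            exact h6
          rw [mul_assoc, h4, ← mul_assoc, h5, mul_assoc]
        exact hfixg V hV3 (t * s) hto v hv h3
      · rw [Subgroup.zpowers_le]
        exact htT
    have hcT : Nat.card T = 2 := by
      have : Nat.card (T : Subgroup G) = 2 := by
        rw [hTt, Nat.card_zpowers, ht]
      exact this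
    obtain ⟨Y⟩ : Nonempty (Sylow 3 G) := inferInstance
    have hcard := sylow_card_mul hprime T Y
    rw [hcT] at hcard
    have h1 := Subgroup.card_mul_index (Y : Subgroup G)
    have hidx : (Y : Subgroup G).index = 2 := by
      have h2 : Nat.card (Y : Subgroup G) * (Y : Subgroup G).index = Nat.card (Y : Subgroup G) * 2 := by
        rw [h1, ← hcard]
        exact mul_comm _ _
      exact Nat.eq_of_mul_eq_mul_left Nat.card_pos h2
    haveI hYn : (Y : Subgroup G).Normal := Subgroup.normal_of_index_eq_two hidx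
    have hY3 : ∀ v ∈ (Y : Subgroup G), v ^ 3 = 1 := by
      intro v hv
      obtain ⟨k, hk⟩ := Y.isPGroup' ⟨v, hv⟩
      exact h3el v ⟨k, congrArg Subtype.val hk⟩
    have hinvY := fpf_inv (Y : Subgroup G) t (by rw [← pow_two, ← ht, pow_orderOf_eq_one]) (fun r hr => hYn.conj_mem _ hr t)
      (hfixg _ hY3 t ht)
    refine ⟨Y, hYn, ⟨⟨⟨fun a b => ?_⟩⟩, hY3⟩, hidx⟩
    apply Subtype.ext
    have h3 := hinvY a.1 a.2
    have h4 := hinvY b.1 b.2
    have h5 := hinvY (a.1 * b.1) (Subgroup.mul_mem _ a.2 b.2)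
    have h6 : t * (a.1 * b.1) * t⁻¹ = (t * a.1 * t⁻¹) * (t * b.1 * t⁻¹) := by group
    rw [h6, h3, h4, mul_inv_rev] at h5
    have h7 : a.1 * b.1 = (b.1⁻¹ * a.1⁻¹)⁻¹ := by group
    have h8 : b.1 * a.1 = (a.1⁻¹ * b.1⁻¹)⁻¹ := by group
    rw [Subgroup.coe_mul, Subgroup.coe_mul, h7, h8, h5]
  · -- second alternative
    right
    set U := pCore 2 G with hU
    haveI hUn : U.Normal := pCore_normal 2 G
    have hU2 : ∀ u ∈ U, u * u = 1 := by
      intro u hu
      obtain ⟨k, hk⟩ := isPGroup_pCore 2 G ⟨u, hu⟩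
      exact h2el u ⟨k, congrArg Subtype.val hk⟩
    have hUcomm : ∀ u ∈ U, ∀ v ∈ U, u * v = v * u := fun u hu v hv =>
      hcomm2 u v (hU2 u hu) (hU2 v hv) (hU2 _ (U.mul_mem hu hv))
    obtain ⟨u₀, hu₀⟩ := Subgroup.ne_bot_iff_exists_ne_one.mp hU0
    have hinvC : ∀ t : G, t * t = 1 → ∀ u ∈ U, t * u = u * t := by
      intro t ht u hu
      have hZ : IsPGroup 2 (Subgroup.zpowers t) := by
        intro x
        obtain ⟨i, hi⟩ := Subgroup.mem_zpowers_iff.mp x.2
        refine ⟨1, Subtype.ext ?_⟩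
        rw [pow_one]
        show (x : G) ^ 2 = 1
        rw [← hi, ← zpow_natCast, ← zpow_mul, mul_comm, zpow_mul, zpow_natCast, pow_two, ht, one_zpow]
      obtain ⟨P, hP⟩ := hZ.exists_le_sylow
      have htP : t ∈ (P : Subgroup G) := hP (Subgroup.mem_zpowers t)
      have huP : u ∈ (P : Subgroup G) := pCore_le_sylow P hu
      have hPe : ∀ x ∈ (P : Subgroup G), x * x = 1 := by
        intro x hx
        obtain ⟨k, hk⟩ := P.isPGroup' ⟨x, hx⟩
        exact h2el x ⟨k, congrArg Subtype.val hk⟩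
      exact hcomm2 t u ht (hU2 u hu) (hPe _ (Subgroup.mul_mem _ htP huP))
    have huo : orderOf (u₀ : G) = 2 := orderOf_eq_prime (by rw [pow_two]; exact hU2 _ u₀.2)
      (fun h => hu₀ (Subtype.ext h))
    have hUall : ∀ t : G, t * t = 1 → t ∈ U := by
      intro t ht
      let C : Subgroup G := Subgroup.centralizer (U : Set G)
      haveI hCn : C.Normal := Cfsg.Agent.Lib.FitSolv.normal_centralizer_of_normal U
      have hC2 : IsPGroup 2 C := by
        intro c
        refine ⟨1, Subtype.ext ?_⟩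
        rw [pow_one]
        show (c : G) ^ 2 = 1
        rcases hord (c : G) with h1 | h1 | h1
        · rw [orderOf_eq_one_iff.mp h1]; simp
        · rw [← h1, pow_orderOf_eq_one]
        · exfalso
          have := (Subgroup.mem_centralizer_iff.mp c.2) u₀.1 u₀.2
          exact no6 u₀.1 c.1 huo h1 this
      have hCU : C ≤ U := le_pCore hCn hC2
      exact hCU (Subgroup.mem_centralizer_iff.mpr fun u hu => (hinvC t ht u hu).symm ▸ rfl)
    obtain ⟨T⟩ : Nonempty (Sylow 2 G) := inferInstance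
    have hTU : (T : Subgroup G) = U := by
      apply le_antisymm _ (pCore_le_sylow T)
      intro x hx
      obtain ⟨k, hk⟩ := T.isPGroup' ⟨x, hx⟩
      exact hUall x (h2el x ⟨k, congrArg Subtype.val hk⟩)
    obtain ⟨Y⟩ : Nonempty (Sylow 3 G) := inferInstance
    have hcard := sylow_card_mul hprime T Y
    have h3G : 3 ∣ Nat.card G := by
      obtain ⟨y, hy⟩ := hex 3 (by omega) (by omega)
      exact hy ▸ orderOf_dvd_natCard y
    have hY0 := Y.ne_bot_of_dvd_card h3G
    -- `Y` has order 3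
    have hcY : Nat.card Y = 3 := by
      have hYe : ∀ x ∈ (Y : Subgroup G), x ^ 3 = 1 := by
        intro x hx
        obtain ⟨k, hk⟩ := Y.isPGroup' ⟨x, hx⟩
        exact h3el x ⟨k, congrArg Subtype.val hk⟩
      haveI : Nontrivial (Y : Subgroup G) := (Subgroup.nontrivial_iff_ne_bot _).mpr hY0
      haveI := Y.isPGroup'.center_nontrivial
      obtain ⟨c, hc⟩ := exists_ne (1 : Subgroup.center (Y : Subgroup G))
      set z : G := ((c : (Y : Subgroup G)) : G) with hz
      have hzY : z ∈ (Y : Subgroup G) := (c : (Y : Subgroup G)).2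
      have hzc : ∀ w ∈ (Y : Subgroup G), w * z = z * w := by
        intro w hw
        exact congrArg Subtype.val ((Subgroup.mem_center_iff.mp c.2) ⟨w, hw⟩)
      have hz1 : z ≠ 1 := by
        intro h1
        exact hc (Subtype.ext (Subtype.ext h1))
      have hzo : orderOf z = 3 := orderOf_eq_prime (hYe z hzY) hz1
      have hYz : (Y : Subgroup G) = Subgroup.zpowers z := by
        apply le_antisymm _ ((Subgroup.zpowers_le).mpr hzY)
        intro y hy
        by_contra hnot
        letI cg : CommGroup U := { (inferInstance : Group U) with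
          mul_comm := fun a b => Subtype.ext (hUcomm _ a.2 _ b.2) }
        let ρ : G →* MulAut U := MulAut.conjNormal
        have hρ : ∀ (a : G) (v : U), ((ρ a v : U) : G) = a * v * a⁻¹ := fun a v => by
          simp [ρ]
        have key := Cfsg.Agent.Lib.CoprimeGen4.abelian_key (V := U) (E := G)
          (fun a => ((ρ a : U ≃* U) : U →* U)) (by
            intro a b w; simp [map_mul]) (by intro w; simp) Nat.prime_three y z (hzc y hy) (hYe y hy) (hYe z hzY) hz1 hnot ⊥
          (fun a ha ha1 w hw => by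
            rw [Subgroup.mem_bot]
            by_contra hne
            have hao : orderOf a = 3 := orderOf_eq_prime ha ha1
            have hwo : orderOf (w : G) = 2 := orderOf_eq_prime (by rw [pow_two]; exact hU2 _ w.2)
              (fun h => hne (Subtype.ext h))
            have h1 : a * (w : G) * a⁻¹ = w := by
              rw [← hρ]
              exact congrArg Subtype.val hw
            rw [mul_inv_eq_iff_eq_mul] at h1
            exact no6 (w : G) a hwo hao h1.symm)
        have h5 := key u₀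
        rw [Subgroup.mem_bot] at h5
        have h6 : ((u₀ : G)) ^ 3 = 1 := congrArg Subtype.val h5
        have h7 : (u₀ : G) * (u₀ : G) = 1 := hU2 _ u₀.2
        apply hu₀
        apply Subtype.ext
        have h8 : (u₀ : G) ^ 3 = (u₀ : G) := by
          rw [pow_succ, pow_two, h7, one_mul]
        rw [← h8, h6]
        rfl
      have : Nat.card (Y : Subgroup G) = 3 := by
        rw [hYz, Nat.card_zpowers, hzo]
      exact this
    refine ⟨U, hUn, ⟨⟨⟨fun a b => Subtype.ext (hUcomm _ a.2 _ b.2)⟩⟩, fun a ha => ?_⟩, ?_⟩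
    · rw [pow_two]; exact hU2 a ha
    · have h1 := Subgroup.card_mul_index U
      have h2 : Nat.card U = Nat.card T := by rw [← hTU]
      rw [h2, ← hcard, hcY] at h1
      exact Nat.eq_of_mul_eq_mul_left Nat.card_pos h1

end Cfsg.Agent.S4005
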