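import Mathlib
import Cfsg.Statements.S4198
-- import your own Cfsg.Agent.* helpers here

set_option autoImplicit false
open Cfsg

namespace Cfsg.Agent.S4198

open Equiv.Perm

/-! ### Counting partitions -/

theorem sum_eq_counts (s : Multiset ℕ) (h : ∀ x ∈ s, 1 ≤ x ∧ x ≤ 5) :
    s.sum = s.count 1 + 2 * s.count 2 + 3 * s.count 3 + 4 * s.count 4 + 5 * s.count 5 := by
  induction s using Multiset.induction_on with
  | empty => simp
  | cons a s ih =>
    have h1 := h a (Multiset.mem_cons_self a s)
    have h2 := ih (fun x hx => h x (Multiset.mem_cons_of_mem hx))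
    obtain ⟨h3, h4⟩ := h1
    rw [Multiset.sum_cons, h2]
    interval_cases a <;> simp [Multiset.count_cons] <;> omega

def S5 : Finset (ℕ × ℕ × ℕ × ℕ × ℕ) :=
  {(5, 0, 0, 0, 0), (3, 1, 0, 0, 0), (1, 2, 0, 0, 0), (2, 0, 1, 0, 0), (0, 1, 1, 0, 0),
    (1, 0, 0, 1, 0), (0, 0, 0, 0, 1)}

theorem tuple_mem (a b c d e : ℕ) (h : 5 = a + 2 * b + 3 * c + 4 * d + 5 * e) :
    (a, b, c, d, e) ∈ S5 := by
  have he : e ≤ 1 := by omega
  have hd : d ≤ 1 := by omega
  have hc : c ≤ 1 := by omega
  have hb : b ≤ 2 := by omega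
  have ha : a ≤ 5 := by omega
  interval_cases e <;> interval_cases d <;> interval_cases c <;> interval_cases b <;>
    interval_cases a <;> first | (exfalso; omega) | decide

theorem card_part5 : Nat.card (Nat.Partition 5) ≤ 8 := by
  classical
  let S : Finset (ℕ × ℕ × ℕ × ℕ × ℕ) := S5
  have hS : S.card = 7 := by decide
  have hbound : ∀ p : Nat.Partition 5, ∀ x ∈ p.parts, 1 ≤ x ∧ x ≤ 5 := by
    intro p x hx
    exact ⟨p.parts_pos hx, Nat.Partition.le_of_mem_parts hx⟩
  let g : Nat.Partition 5 → S := fun p =>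
    ⟨(p.parts.count 1, p.parts.count 2, p.parts.count 3, p.parts.count 4, p.parts.count 5), by
      have h1 := sum_eq_counts p.parts (hbound p)
      rw [p.parts_sum] at h1
      exact tuple_mem _ _ _ _ _ h1⟩
  have hg : Function.Injective g := by
    intro p q hpq
    have h0 := congrArg Subtype.val hpq
    simp only [g, Prod.mk.injEq] at h0
    obtain ⟨h1, h2, h3, h4, h5⟩ := h0
    apply Nat.Partition.ext
    ext a
    by_cases ha : a = 1 ∨ a = 2 ∨ a = 3 ∨ a = 4 ∨ a = 5
    · rcases ha with rfl | rfl | rfl | rfl | rfl <;> assumption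
    · have hp : a ∉ p.parts := fun h => by
        have := hbound p a h
        omega
      have hq : a ∉ q.parts := fun h => by
        have := hbound q a h
        omega
      rw [Multiset.count_eq_zero_of_notMem hp, Multiset.count_eq_zero_of_notMem hq]
  have := Nat.card_le_card_of_injective g hg
  rw [Nat.card_eq_fintype_card (α := S), Fintype.card_coe, hS] at this
  omega

/-- the smallest part of a partition of a positive integer -/
noncomputable def minPart {m : ℕ} (p : Nat.Partition (m + 1)) : ℕ :=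
  p.parts.toFinset.min' (by
    classical
    rw [Multiset.toFinset_nonempty]
    intro h
    have := p.parts_sum
    rw [h] at this
    simp at this)

theorem minPart_mem {m : ℕ} (p : Nat.Partition (m + 1)) : minPart p ∈ p.parts := by
  unfold minPart
  exact Multiset.mem_toFinset.mp (Finset.min'_mem _ _)

theorem minPart_le {m : ℕ} (p : Nat.Partition (m + 1)) {x : ℕ} (hx : x ∈ p.parts) : minPart p ≤ x :=
  Finset.min'_le _ _ (Multiset.mem_toFinset.mpr hx)

theorem minPart_ne_one {m : ℕ} (p : Nat.Partition (m + 1)) (h : 1 ∉ p.parts) : minPart p ≠ 1 := by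
  intro h1
  have h2 := minPart_mem p
  rw [h1] at h2
  exact h h2

noncomputable def redPart {m : ℕ} (p : Nat.Partition (m + 1)) : Nat.Partition m × Bool :=
  if h : 1 ∈ p.parts then
    (⟨p.parts.erase 1, fun hi => p.parts_pos (Multiset.mem_of_mem_erase hi), by
      have := Multiset.sum_erase h
      rw [p.parts_sum] at this
      omega⟩, true)
  else
    (⟨(minPart p - 1) ::ₘ p.parts.erase (minPart p), fun {i} hi => by
        rcases Multiset.mem_cons.mp hi with rfl | hi
        · have h1 := p.parts_pos (minPart_mem p)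
          have h2 : minPart p ≠ 1 := minPart_ne_one p h
          omega
        · exact p.parts_pos (Multiset.mem_of_mem_erase hi), by
        have h3 := Multiset.sum_erase (minPart_mem p)
        rw [p.parts_sum] at h3
        have h1 := p.parts_pos (minPart_mem p)
        rw [Multiset.sum_cons]
        omega⟩, false)

theorem redPart_inj {m : ℕ} : Function.Injective (redPart (m := m)) := by
  intro p q hpq
  unfold redPart at hpq
  by_cases hp : 1 ∈ p.parts <;> by_cases hq : 1 ∈ q.parts
  · simp only [dif_pos hp, dif_pos hq, Prod.mk.injEq, and_true] at hpq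
    have h1 := congrArg Nat.Partition.parts hpq
    simp only at h1
    apply Nat.Partition.ext
    rw [← Multiset.cons_erase hp, ← Multiset.cons_erase hq, h1]
  · simp [dif_pos hp, dif_neg hq] at hpq
  · simp [dif_neg hp, dif_pos hq] at hpq
  · simp only [dif_neg hp, dif_neg hq, Prod.mk.injEq, and_true] at hpq
    have h1 := congrArg Nat.Partition.parts hpq
    simp only at h1
    set b := minPart p with hb
    set c := minPart q with hc
    have hbp := p.parts_pos (minPart_mem p)
    have hcq := q.parts_pos (minPart_mem q)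
    have hb1 : b ≠ 1 := minPart_ne_one p hp
    have hc1 : c ≠ 1 := minPart_ne_one q hq
    have h2 : b - 1 ∈ (c - 1) ::ₘ q.parts.erase c := by
      rw [← h1]; exact Multiset.mem_cons_self _ _
    have h3 : c - 1 ∈ (b - 1) ::ₘ p.parts.erase b := by
      rw [h1]; exact Multiset.mem_cons_self _ _
    have hbc : b = c := by
      rcases Multiset.mem_cons.mp h2 with h4 | h4
      · omega
      · rcases Multiset.mem_cons.mp h3 with h5 | h5
        · omega
        · have h6 := minPart_le q (Multiset.mem_of_mem_erase h4)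
          have h7 := minPart_le p (Multiset.mem_of_mem_erase h5)
          omega
    rw [← hbc] at h1
    have h8 := (Multiset.cons_inj_right _).mp h1
    apply Nat.Partition.ext
    rw [← Multiset.cons_erase (minPart_mem p), ← Multiset.cons_erase (minPart_mem q), ← hb, ← hc,
      ← hbc, h8]

theorem card_part_succ (m : ℕ) :
    Nat.card (Nat.Partition (m + 1)) ≤ 2 * Nat.card (Nat.Partition m) := by
  have h := Nat.card_le_card_of_injective _ (redPart_inj (m := m))
  rw [Nat.card_prod] at h
  simpa [mul_comm] using h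

theorem card_part_le (n : ℕ) (hn : 5 ≤ n) : Nat.card (Nat.Partition n) ≤ 2 ^ (n - 2) := by
  induction n, hn using Nat.le_induction with
  | base => simpa using card_part5
  | succ n hn ih =>
    have h1 := card_part_succ n
    have e : 2 ^ (n + 1 - 2) = 2 * 2 ^ (n - 2) := by
      rw [← pow_succ']
      congr 1
      omega
    rw [e]
    omega

/-! ### Conjugacy classes of the alternating group -/

section alt
variable {n : ℕ}

theorem sgn_eq (σ : Equiv.Perm (Fin n)) :
    Equiv.Perm.sign σ = (σ.cycleType.map fun k => -(-1 : ℤˣ) ^ k).prod := sign_of_cycleType' σ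

/-- choice of an element of a multiset -/
noncomputable def pick (m : Multiset ℕ) : ℕ := by
  classical
  exact if h : ∃ a, a ∈ m then h.choose else 0

theorem pick_mem {m : Multiset ℕ} (h : m ≠ 0) : pick m ∈ m := by
  classical
  have h1 : ∃ a, a ∈ m := Multiset.exists_mem_of_ne_zero h
  unfold pick
  rw [dif_pos h1]
  exact h1.choose_spec

noncomputable def jj (m : Multiset ℕ) : Multiset ℕ := (pick m - 1) ::ₘ m.erase (pick m)

/-- The multisets of the cycle lengths that split in the alternating group. -/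
def Spl (m : Multiset ℕ) : Prop := m ≠ 0 ∧ (∀ a ∈ m, Odd a) ∧ (∀ a ∈ m, 2 ≤ a)

theorem jj_two_le {m : Multiset ℕ} (h : Spl m) : ∀ a ∈ jj m, 2 ≤ a := by
  intro a ha
  rcases Multiset.mem_cons.mp ha with rfl | ha
  · have h1 := h.2.1 _ (pick_mem h.1)
    have h2 := h.2.2 _ (pick_mem h.1)
    obtain ⟨k, hk⟩ := h1
    omega
  · exact h.2.2 a (Multiset.mem_of_mem_erase ha)

theorem jj_sum {m : Multiset ℕ} (h : Spl m) : (jj m).sum + 1 = m.sum := by
  have h1 := Multiset.sum_erase (pick_mem h.1)
  have h2 := h.2.2 _ (pick_mem h.1)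
  unfold jj
  rw [Multiset.sum_cons]
  omega

theorem jj_sgn {m : Multiset ℕ} (h : Spl m) :
    ((jj m).map fun k => -(-1 : ℤˣ) ^ k).prod = -1 := by
  unfold jj
  rw [Multiset.map_cons, Multiset.prod_cons]
  have h1 : ((m.erase (pick m)).map fun k => -(-1 : ℤˣ) ^ k).prod = 1 := by
    have h2 : ∀ k ∈ m.erase (pick m), -(-1 : ℤˣ) ^ k = 1 := by
      intro k hk
      have := h.2.1 k (Multiset.mem_of_mem_erase hk)
      rw [this.neg_one_pow]
      simp
    rw [Multiset.map_congr rfl h2]
    simp
  rw [h1, mul_one]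
  have h3 := h.2.1 _ (pick_mem h.1)
  have h4 := h.2.2 _ (pick_mem h.1)
  have h5 : Even (pick m - 1) := by
    obtain ⟨k, hk⟩ := h3
    exact ⟨k, by omega⟩
  rw [h5.neg_one_pow]

theorem jj_inj {m m' : Multiset ℕ} (h : Spl m) (h' : Spl m') (he : jj m = jj m') : m = m' := by
  unfold jj at he
  have h1 : pick m - 1 ∈ (pick m' - 1) ::ₘ m'.erase (pick m') := by
    rw [← he]; exact Multiset.mem_cons_self _ _
  have a1 := h.2.1 _ (pick_mem h.1)
  have a2 := h.2.2 _ (pick_mem h.1)
  have b2 := h'.2.2 _ (pick_mem h'.1)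
  have hpp : pick m = pick m' := by
    rcases Multiset.mem_cons.mp h1 with h2 | h2
    · omega
    · exfalso
      have h3 := h'.2.1 _ (Multiset.mem_of_mem_erase h2)
      obtain ⟨k, hk⟩ := a1
      obtain ⟨l, hl⟩ := h3
      omega
  rw [← hpp] at he
  have h4 := (Multiset.cons_inj_right _).mp he
  rw [← Multiset.cons_erase (pick_mem h.1), ← Multiset.cons_erase (pick_mem h'.1), ← hpp, h4]

theorem jj_ne {m : Multiset ℕ} (h : Spl m) (hs : 5 ≤ m.sum + 1) : jj m ≠ {2} := by
  intro he
  have h1 := jj_sum h
  rw [he] at h1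
  simp at h1
  omega

abbrev AA (n : ℕ) := alternatingGroup (Fin n)

theorem conj_of_mem {x y : AA n} (g : Equiv.Perm (Fin n)) (hg : g ∈ AA n)
    (h : g * (x : Equiv.Perm (Fin n)) * g⁻¹ = y) : IsConj x y := by
  rw [isConj_iff]
  refine ⟨⟨g, hg⟩, Subtype.ext ?_⟩
  exact h

theorem exists_conj_of_type {x y : AA n} (h : (x : Equiv.Perm (Fin n)).cycleType = (y : Equiv.Perm (Fin n)).cycleType) :
    ∃ g : Equiv.Perm (Fin n), g * (x : Equiv.Perm (Fin n)) * g⁻¹ = y := by
  have := isConj_iff_cycleType_eq.mpr h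
  exact isConj_iff.mp this

theorem sign_ne_one_of_not_mem {g : Equiv.Perm (Fin n)} (hg : g ∉ AA n) : Equiv.Perm.sign g = -1 := by
  rcases Int.units_eq_one_or (Equiv.Perm.sign g) with h | h
  · exact absurd (Equiv.Perm.mem_alternatingGroup.mpr h) hg
  · exact h

/-- Three elements of the alternating group with the same cycle type: two are conjugate in it. -/
theorem two_of_three {x y z : AA n}
    (h1 : (x : Equiv.Perm (Fin n)).cycleType = (y : Equiv.Perm (Fin n)).cycleType)
    (h2 : (x : Equiv.Perm (Fin n)).cycleType = (z : Equiv.Perm (Fin n)).cycleType) :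
    IsConj x y ∨ IsConj x z ∨ IsConj y z := by
  obtain ⟨g, hg⟩ := exists_conj_of_type h1
  obtain ⟨k, hk⟩ := exists_conj_of_type h2
  by_cases hg1 : g ∈ AA n
  · exact Or.inl (conj_of_mem g hg1 hg)
  by_cases hk1 : k ∈ AA n
  · exact Or.inr (Or.inl (conj_of_mem k hk1 hk))
  refine Or.inr (Or.inr (conj_of_mem (k * g⁻¹) ?_ ?_))
  · rw [Equiv.Perm.mem_alternatingGroup, map_mul, map_inv, sign_ne_one_of_not_mem hg1,
      sign_ne_one_of_not_mem hk1]
    decide
  · rw [← hg, ← hk]
    group

/-- Two nonconjugate elements of the same cycle type have a centralizer inside the alternating group. -/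
theorem split_of_ne {x y : AA n}
    (h1 : (x : Equiv.Perm (Fin n)).cycleType = (y : Equiv.Perm (Fin n)).cycleType)
    (hne : ¬ IsConj x y) :
    Subgroup.centralizer {(x : Equiv.Perm (Fin n))} ≤ alternatingGroup (Fin n) := by
  obtain ⟨g, hg⟩ := exists_conj_of_type h1
  have hg1 : g ∉ AA n := fun h => hne (conj_of_mem g h hg)
  intro u hu
  by_contra hu1
  apply hne
  refine conj_of_mem (g * u) ?_ ?_
  · rw [Equiv.Perm.mem_alternatingGroup, map_mul, sign_ne_one_of_not_mem hg1,
      sign_ne_one_of_not_mem hu1]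
    decide
  · have h2 := Subgroup.mem_centralizer_iff.mp hu (x : Equiv.Perm (Fin n)) rfl
    rw [← hg]
    calc g * u * (x : Equiv.Perm (Fin n)) * (g * u)⁻¹
        = g * (u * x) * u⁻¹ * g⁻¹ := by group
      _ = g * (x * u) * u⁻¹ * g⁻¹ := by rw [h2]
      _ = _ := by group

theorem spl_of_centralizer {x : Equiv.Perm (Fin n)} (hn : 5 ≤ n)
    (h : Subgroup.centralizer {x} ≤ alternatingGroup (Fin n)) :
    Spl x.cycleType ∧ 5 ≤ x.cycleType.sum + 1 := by
  have h1 := (Equiv.Perm.centralizer_le_alternating_iff (g := x)).mp h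
  obtain ⟨h2, h3, -⟩ := h1
  rw [Fintype.card_fin] at h3
  have h4 : 5 ≤ x.cycleType.sum + 1 := by omega
  refine ⟨⟨?_, h2, fun a ha => two_le_of_mem_cycleType ha⟩, h4⟩
  intro h0
  rw [h0] at h4
  simp at h4

/-- cycle type of a class of the alternating group -/
def tp (n : ℕ) : ConjClasses (AA n) → Multiset ℕ :=
  Quotient.lift (fun x : AA n => (x : Equiv.Perm (Fin n)).cycleType) (by
    intro a b hab
    have hab' : IsConj a b := hab
    obtain ⟨c, rfl⟩ := isConj_iff.mp hab'
    show _ = ((c * a * c⁻¹ : AA n) : Equiv.Perm (Fin n)).cycleType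
    have : ((c * a * c⁻¹ : AA n) : Equiv.Perm (Fin n)) =
      (c : Equiv.Perm (Fin n)) * a * (c : Equiv.Perm (Fin n))⁻¹ := rfl
    rw [this, cycleType_conj])

theorem tp_mk (x : AA n) : tp n (ConjClasses.mk x) = (x : Equiv.Perm (Fin n)).cycleType := rfl

theorem tp_sign (C : ConjClasses (AA n)) : ((tp n C).map fun k => -(-1 : ℤˣ) ^ k).prod = 1 := by
  obtain ⟨x, rfl⟩ := ConjClasses.mk_surjective C
  rw [tp_mk, ← sgn_eq]
  exact Equiv.Perm.mem_alternatingGroup.mp x.2

/-- a chosen class of a given type -/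
noncomputable def rep (n : ℕ) (m : Multiset ℕ) : ConjClasses (AA n) := by
  classical
  exact if h : ∃ C, tp n C = m then h.choose else ConjClasses.mk 1

theorem tp_rep (C : ConjClasses (AA n)) : tp n (rep n (tp n C)) = tp n C := by
  classical
  have h : ∃ D, tp n D = tp n C := ⟨C, rfl⟩
  unfold rep
  rw [dif_pos h]
  exact h.choose_spec

/-- The injection from the classes of the alternating group to cycle types. -/
noncomputable def psi (n : ℕ) (C : ConjClasses (AA n)) : Multiset ℕ := by
  classical
  exact if C = rep n (tp n C) then tp n C else jj (tp n C)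

theorem second_spl (hn : 5 ≤ n) {C : ConjClasses (AA n)} (h : C ≠ rep n (tp n C)) :
    Spl (tp n C) ∧ 5 ≤ (tp n C).sum + 1 := by
  obtain ⟨x, rfl⟩ := ConjClasses.mk_surjective C
  obtain ⟨y, hy⟩ := ConjClasses.mk_surjective (rep n (tp n (ConjClasses.mk x)))
  have h1 : tp n (ConjClasses.mk y) = tp n (ConjClasses.mk x) := by
    rw [hy, tp_rep]
  rw [← hy] at h
  have hne : ¬ IsConj x y := fun hc => h (ConjClasses.mk_eq_mk_iff_isConj.mpr hc)
  rw [tp_mk, tp_mk] at h1
  have := split_of_ne h1.symm hne
  exact spl_of_centralizer hn this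

theorem psi_inj (hn : 5 ≤ n) : Function.Injective (psi n) := by
  classical
  intro C D hCD
  unfold psi at hCD
  by_cases hC : C = rep n (tp n C) <;> by_cases hD : D = rep n (tp n D)
  · rw [if_pos hC, if_pos hD] at hCD
    rw [hC, hD, hCD]
  · rw [if_pos hC, if_neg hD] at hCD
    exfalso
    have h1 := tp_sign C
    rw [hCD, jj_sgn (second_spl hn hD).1] at h1
    exact absurd h1 (by decide)
  · rw [if_neg hC, if_pos hD] at hCD
    exfalso
    have h1 := tp_sign D
    rw [← hCD, jj_sgn (second_spl hn hC).1] at h1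
    exact absurd h1 (by decide)
  · rw [if_neg hC, if_neg hD] at hCD
    have h1 := jj_inj (second_spl hn hC).1 (second_spl hn hD).1 hCD
    -- three classes with the same type
    obtain ⟨x, rfl⟩ := ConjClasses.mk_surjective C
    obtain ⟨y, rfl⟩ := ConjClasses.mk_surjective D
    obtain ⟨z, hz⟩ := ConjClasses.mk_surjective (rep n (tp n (ConjClasses.mk x)))
    have hzt : tp n (ConjClasses.mk z) = tp n (ConjClasses.mk x) := by
      rw [hz, tp_rep]
    rw [← h1, ← hz] at hD
    rw [← hz] at hC
    rw [tp_mk, tp_mk] at h1 hzt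
    rcases two_of_three h1 hzt.symm with h | h | h
    · exact ConjClasses.mk_eq_mk_iff_isConj.mpr h
    · exact absurd (ConjClasses.mk_eq_mk_iff_isConj.mpr h) hC
    · exact absurd (ConjClasses.mk_eq_mk_iff_isConj.mpr h) hD

/-- the set of cycle types -/
def TT (n : ℕ) : Set (Multiset ℕ) := {m | ∃ σ : Equiv.Perm (Fin n), σ.cycleType = m}

theorem psi_mem (hn : 5 ≤ n) (C : ConjClasses (AA n)) : psi n C ∈ TT n := by
  classical
  unfold psi
  by_cases hC : C = rep n (tp n C)
  · rw [if_pos hC]
    obtain ⟨x, rfl⟩ := ConjClasses.mk_surjective C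
    exact ⟨x, rfl⟩
  · rw [if_neg hC]
    obtain ⟨h1, -⟩ := second_spl hn hC
    have h2 := jj_two_le h1
    have h3 := jj_sum h1
    have h4 : (tp n C).sum ≤ n := by
      obtain ⟨x, rfl⟩ := ConjClasses.mk_surjective C
      rw [tp_mk]
      have := sum_cycleType_le (x : Equiv.Perm (Fin n))
      simpa using this
    obtain ⟨σ, hσ⟩ := (Equiv.Perm.exists_with_cycleType_iff (α := Fin n)).mpr
      ⟨by rw [Fintype.card_fin]; omega, h2⟩
    exact ⟨σ, hσ⟩

theorem psi_ne (hn : 5 ≤ n) (C : ConjClasses (AA n)) : psi n C ≠ {2} := by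
  classical
  unfold psi
  by_cases hC : C = rep n (tp n C)
  · rw [if_pos hC]
    intro he
    have h1 := tp_sign C
    rw [he] at h1
    simp at h1
  · rw [if_neg hC]
    obtain ⟨h1, h2⟩ := second_spl hn hC
    exact jj_ne h1 h2

theorem card_classes_eq : Nat.card (ConjClasses (Equiv.Perm (Fin n))) = Nat.card (TT n) := by
  let f : ConjClasses (Equiv.Perm (Fin n)) → TT n :=
    Quotient.lift (fun x : Equiv.Perm (Fin n) => (⟨x.cycleType, x, rfl⟩ : TT n)) (by
      intro a b hab
      have hab' : IsConj a b := hab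
      exact Subtype.ext (isConj_iff_cycleType_eq.mp hab'))
  refine Nat.card_congr (Equiv.ofBijective f ⟨?_, ?_⟩)
  · intro C D hCD
    obtain ⟨x, rfl⟩ := ConjClasses.mk_surjective C
    obtain ⟨y, rfl⟩ := ConjClasses.mk_surjective D
    have h1 : x.cycleType = y.cycleType := congrArg Subtype.val hCD
    exact ConjClasses.mk_eq_mk_iff_isConj.mpr (isConj_iff_cycleType_eq.mpr h1)
  · rintro ⟨m, x, rfl⟩
    exact ⟨ConjClasses.mk x, rfl⟩

theorem card_classes_le_part :
    Nat.card (ConjClasses (Equiv.Perm (Fin n))) ≤ Nat.card (Nat.Partition n) := by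
  let f : ConjClasses (Equiv.Perm (Fin n)) → Nat.Partition (Fintype.card (Fin n)) :=
    Quotient.lift (fun x : Equiv.Perm (Fin n) => x.partition) (by
      intro a b hab
      exact partition_eq_of_isConj.mp hab)
  have hf : Function.Injective f := by
    intro C D hCD
    obtain ⟨x, rfl⟩ := ConjClasses.mk_surjective C
    obtain ⟨y, rfl⟩ := ConjClasses.mk_surjective D
    exact ConjClasses.mk_eq_mk_iff_isConj.mpr (partition_eq_of_isConj.mpr hCD)
  have := Nat.card_le_card_of_injective f hf
  rwa [Fintype.card_fin] at this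

end alt


/-- For n ≥ 5 the alternating group of degree n has strictly fewer conjugacy classes than the symmetric group of degree n, and the symmetric group of degree n (whose classes correspond to the partitions of n) has at most 2^(n−2) conjugacy classes. -/
theorem result (n : ℕ) (hn : 5 ≤ n) : Nat.card (ConjClasses (alternatingGroup (Fin n))) < Nat.card (ConjClasses (Equiv.Perm (Fin n))) ∧ Nat.card (ConjClasses (Equiv.Perm (Fin n))) ≤ 2 ^ (n - 2) := by
  classical
  constructor
  · rw [card_classes_eq]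
    haveI : Finite (TT n) := by
      have : Nat.card (TT n) = Nat.card (ConjClasses (Equiv.Perm (Fin n))) := card_classes_eq.symm
      let g : Equiv.Perm (Fin n) → TT n := fun x => ⟨x.cycleType, x, rfl⟩
      refine Finite.of_surjective g ?_
      rintro ⟨m, x, rfl⟩
      exact ⟨x, rfl⟩
    let f : ConjClasses (AA n) → TT n := fun C => ⟨psi n C, psi_mem hn C⟩
    have hf : Function.Injective f := by
      intro C D h
      exact psi_inj hn (congrArg Subtype.val h)
    have hτ : ({2} : Multiset ℕ) ∈ TT n := by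
      obtain ⟨σ, hσ⟩ := (Equiv.Perm.exists_with_cycleType_iff (α := Fin n) (m := {2})).mpr
        ⟨by rw [Fintype.card_fin]; simp; omega, by simp⟩
      exact ⟨σ, hσ⟩
    haveI := Fintype.ofFinite (ConjClasses (AA n))
    haveI := Fintype.ofFinite (TT n)
    rw [Nat.card_eq_fintype_card, Nat.card_eq_fintype_card]
    refine Fintype.card_lt_of_injective_not_surjective f hf ?_
    intro hs
    obtain ⟨C, hC⟩ := hs ⟨{2}, hτ⟩
    exact psi_ne hn C (congrArg Subtype.val hC)
  · exact card_classes_le_part.trans (card_part_le n hn)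

end Cfsg.Agent.S4198
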