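import Cfsg.Statements.S4200
import Cfsg.Agent.Lib.H6Conj
-- import your own Cfsg.Agent.* helpers here

set_option autoImplicit false
open Cfsg

namespace Cfsg.Agent.S4200

/-- Let Y be a subgroup of the finite group X, of index m. Then the numbers of conjugacy classes satisfy k(Y) ≤ m·k(X) and k(X) ≤ m·k(Y), and the second inequality is strict unless Y is normal in X. -/
theorem result {X : Type*} [Group X] [Finite X] (Y : Subgroup X) : Nat.card (ConjClasses Y) ≤ Y.index * Nat.card (ConjClasses X) ∧ Nat.card (ConjClasses X) ≤ Y.index * Nat.card (ConjClasses Y) ∧ (¬ Y.Normal → Nat.card (ConjClasses X) < Y.index * Nat.card (ConjClasses Y)) := by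
  classical
  haveI := Fintype.ofFinite X
  let m := Y.index
  let a : X → ℕ := fun x => Nat.card {z : X // Commute x z}
  let b : X → ℕ := fun x => Nat.card {y : Y // Commute x (y : X)}
  let R : X → ℕ := fun x => Y.relIndex (Subgroup.centralizer ({x} : Set X))
  have hab : ∀ x, a x = b x * R x := Cfsg.Agent.Lib.H6Conj.card_commute_eq Y
  have hR : ∀ x, R x ≤ m := fun x => Cfsg.Agent.Lib.H6Conj.relIndex_le Y _
  have hbpos : ∀ x, 0 < b x := fun x => Nat.card_pos_iff.mpr ⟨⟨⟨1, one_mem _⟩, by simp⟩, inferInstance⟩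
  have hapos : ∀ x, 0 < a x := fun x => Nat.card_pos_iff.mpr ⟨⟨1, by simp⟩, inferInstance⟩
  have hRpos : ∀ x, 0 < R x := by
    intro x
    by_contra h
    have h0 : R x = 0 := by omega
    have := hab x
    rw [h0, mul_zero] at this
    exact (hapos x).ne' this
  have s1 : ∑ x : X, a x = Nat.card (ConjClasses X) * Nat.card X :=
    Cfsg.Agent.Lib.H6Conj.sum_card_commute X
  have s2 : ∑ y : Y, b y = Nat.card (ConjClasses Y) * Nat.card Y := by
    rw [← Cfsg.Agent.Lib.H6Conj.sum_card_commute Y]
    refine Finset.sum_congr rfl (fun y _ => ?_)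
    refine Nat.card_congr (Equiv.subtypeEquivRight (fun z => ?_))
    constructor
    · intro h
      exact Subtype.ext h
    · intro h
      exact congrArg Subtype.val h
  have s3 : ∑ x : X, b x = ∑ y : Y, a y := by
    have := Cfsg.Agent.Lib.H6Conj.sum_card_swap (fun (x : X) (y : Y) => Commute x (y : X))
    change ∑ x : X, Nat.card {y : Y // Commute x (y : X)} = _
    rw [this]
    refine Finset.sum_congr rfl (fun y _ => ?_)
    exact Nat.card_congr (Equiv.subtypeEquivRight (fun z => ⟨fun h => h.symm, fun h => h.symm⟩))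
  have hX : Nat.card X = m * Nat.card Y := by
    have := Y.card_mul_index
    rw [← this, mul_comm]
  have hmpos : 0 < m := Nat.pos_of_ne_zero Subgroup.index_ne_zero_of_finite
  have hYpos : 0 < Nat.card Y := Nat.card_pos
  have hba : ∀ x, b x ≤ a x := by
    intro x
    rw [hab x]
    exact Nat.le_mul_of_pos_right _ (hRpos x)
  have ham : ∀ x, a x ≤ m * b x := by
    intro x
    rw [hab x, mul_comm]
    exact Nat.mul_le_mul_right _ (hR x)
  have h1 : Nat.card (ConjClasses Y) ≤ m * Nat.card (ConjClasses X) := by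
    have c1 : ∑ y : Y, b y ≤ ∑ y : Y, a y := Finset.sum_le_sum (fun y _ => hba y)
    have c2 : ∑ x : X, b x ≤ ∑ x : X, a x := Finset.sum_le_sum (fun x _ => hba x)
    rw [s2, ← s3] at c1
    have c3 := c1.trans c2
    rw [s1, hX] at c3
    have c4 : Nat.card (ConjClasses Y) * Nat.card Y ≤ (m * Nat.card (ConjClasses X)) * Nat.card Y := by
      calc _ ≤ _ := c3
        _ = _ := by ring
    exact Nat.le_of_mul_le_mul_right c4 hYpos
  have c5 : ∑ x : X, a x ≤ m * ∑ x : X, b x := by
    rw [Finset.mul_sum]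
    exact Finset.sum_le_sum (fun x _ => ham x)
  have c6 : ∑ y : Y, a y ≤ m * ∑ y : Y, b y := by
    rw [Finset.mul_sum]
    exact Finset.sum_le_sum (fun x _ => ham x)
  have hcancel : ∀ u v : ℕ, u * (m * Nat.card Y) ≤ m * (m * (v * Nat.card Y)) → u ≤ m * v := by
    intro u v h
    have h' : u * (m * Nat.card Y) ≤ (m * v) * (m * Nat.card Y) := by
      calc _ ≤ _ := h
        _ = _ := by ring
    exact Nat.le_of_mul_le_mul_right h' (Nat.mul_pos hmpos hYpos)
  have hcancel' : ∀ u v : ℕ, u * (m * Nat.card Y) < m * (m * (v * Nat.card Y)) → u < m * v := by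
    intro u v h
    have h' : u * (m * Nat.card Y) < (m * v) * (m * Nat.card Y) := by
      calc _ < _ := h
        _ = _ := by ring
    exact Nat.lt_of_mul_lt_mul_right h'
  refine ⟨h1, ?_, ?_⟩
  · apply hcancel
    rw [← hX, ← s1, ← s2]
    refine c5.trans ?_
    rw [s3]
    exact Nat.mul_le_mul_left _ c6
  · intro hN
    apply hcancel'
    rw [← hX, ← s1, ← s2]
    refine lt_of_le_of_lt c5 ?_
    rw [s3]
    refine Nat.mul_lt_mul_of_pos_left ?_ hmpos
    -- a strict inequality at one element
    have hex : ∃ y : Y, R y < m := by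
      by_contra hcon
      push Not at hcon
      apply hN
      refine ⟨fun n hn g => ?_⟩
      obtain ⟨s, hs, ht⟩ := Cfsg.Agent.Lib.H6Conj.exists_mul_of_relIndex Y
        (Subgroup.centralizer ({n} : Set X)) (hcon ⟨n, hn⟩) g⁻¹
      have hcomm : s * n = n * s := by
        rw [Subgroup.mem_centralizer_singleton_iff] at hs
        exact hs
      have : g * n * g⁻¹ = (s⁻¹ * g⁻¹)⁻¹ * n * (s⁻¹ * g⁻¹) := by
        have h2 : s * n * s⁻¹ = n := by
          rw [hcomm, mul_assoc, mul_inv_cancel, mul_one]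
        calc g * n * g⁻¹ = g * (s * n * s⁻¹) * g⁻¹ := by rw [h2]
          _ = _ := by group
      rw [this]
      exact Y.mul_mem (Y.mul_mem (Y.inv_mem ht) hn) ht
    obtain ⟨y₀, hy₀⟩ := hex
    rw [Finset.mul_sum]
    refine Finset.sum_lt_sum (fun x _ => ham x) ⟨y₀, Finset.mem_univ _, ?_⟩
    rw [hab y₀, mul_comm]
    exact Nat.mul_lt_mul_of_pos_right hy₀ (hbpos y₀)

end Cfsg.Agent.S4200
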