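import Cfsg.Statements.S4201
import Cfsg.Agent.Lib.H6Conj
-- import your own Cfsg.Agent.* helpers here

set_option autoImplicit false
open Cfsg

namespace Cfsg.Agent.S4201

theorem card_le_fib {A B : Type*} [Finite A] [Finite B] (f : A → B) (n : ℕ)
    (h : ∀ b, Nat.card {a // f a = b} ≤ n) : Nat.card A ≤ Nat.card B * n := by
  classical
  haveI := Fintype.ofFinite A
  haveI := Fintype.ofFinite B
  have h1 : Nat.card A = ∑ b : B, Nat.card {a // f a = b} := by
    rw [Nat.card_congr (Equiv.sigmaFiberEquiv f).symm, Nat.card_sigma]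
  rw [h1, Nat.card_eq_fintype_card, ← smul_eq_mul, ← Finset.card_univ, ← Finset.sum_const]
  exact Finset.sum_le_sum (fun b _ => h b)


/-- If N is a normal subgroup of the finite group X then k(X) ≤ k(N)·k(X ⧸ N), where k denotes the number of conjugacy classes. -/
theorem result {X : Type*} [Group X] [Finite X] (N : Subgroup X) [N.Normal] : Nat.card (ConjClasses X) ≤ Nat.card (ConjClasses N) * Nat.card (ConjClasses (X ⧸ N)) := by
  classical
  haveI := Fintype.ofFinite X
  haveI := Fintype.ofFinite (X ⧸ N)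
  let q : X →* X ⧸ N := QuotientGroup.mk' N
  let a : X → ℕ := fun x => Nat.card {z : X // Commute x z}
  let c : X → ℕ := fun x => Nat.card {n : N // Commute x (n : X)}
  let aQ : X ⧸ N → ℕ := fun w => Nat.card {w' : X ⧸ N // Commute w w'}
  let aN : N → ℕ := fun n => Nat.card {n' : N // Commute n n'}
  have hmemN : ∀ u v : X, q u = q v → u⁻¹ * v ∈ N := fun u v h => QuotientGroup.eq.mp h
  have L1 : ∀ x, a x ≤ aQ (q x) * c x := by
    intro x
    refine card_le_fib (fun z : {z : X // Commute x z} =>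
      (⟨q z.1, (z.2.map q)⟩ : {w' : X ⧸ N // Commute (q x) w'})) _ ?_
    rintro ⟨w, hw⟩
    by_cases hne : Nonempty {a_1 : {z : X // Commute x z} // (⟨q a_1.1, (a_1.2.map q)⟩ : {w' : X ⧸ N // Commute (q x) w'}) = ⟨w, hw⟩}
    · obtain ⟨⟨z₀, hz₀⟩⟩ := hne
      have hz₀' : q z₀.1 = w := congrArg Subtype.val hz₀
      refine Nat.card_le_card_of_injective
        (fun z => (⟨⟨z₀.1⁻¹ * z.1.1, ?_⟩, ?_⟩ : {n : N // Commute x (n : X)})) ?_
      · apply hmemN
        rw [hz₀']
        exact (congrArg Subtype.val z.2).symm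
      · exact (z₀.2.inv_right).mul_right z.1.2
      · intro z z' hzz
        have h1 : z₀.1⁻¹ * z.1.1 = z₀.1⁻¹ * z'.1.1 := congrArg (fun t => ((t.1 : N) : X)) hzz
        exact Subtype.ext (Subtype.ext (mul_left_cancel h1))
    · rw [not_nonempty_iff] at hne
      rw [Nat.card_of_isEmpty]
      exact Nat.zero_le _
  have L2 : ∀ w : X ⧸ N, ∑ x ∈ Finset.univ.filter (fun x => q x = w), c x ≤ ∑ n : N, aN n := by
    intro w
    rw [Finset.sum_subtype (p := fun x => q x = w) _ (by simp)]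
    change ∑ x : {x // q x = w}, Nat.card {n : N // Commute x.1 (n : X)} ≤ _
    rw [Cfsg.Agent.Lib.H6Conj.sum_card_swap (fun (x : {x // q x = w}) (n : N) => Commute x.1 (n : X))]
    refine Finset.sum_le_sum (fun n _ => ?_)
    by_cases hne : Nonempty {x : {x // q x = w} // Commute x.1 (n : X)}
    · obtain ⟨⟨x₀, hx₀⟩⟩ := hne
      refine Nat.card_le_card_of_injective
        (fun x => (⟨⟨x₀.1⁻¹ * x.1.1, ?_⟩, ?_⟩ : {n' : N // Commute n n'})) ?_
      · apply hmemN
        rw [x₀.2, x.1.2]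
      · have h1 : Commute (n : X) (x₀.1⁻¹ * x.1.1) := (hx₀.symm.inv_right).mul_right x.2.symm
        exact Subtype.ext h1
      · intro z z' hzz
        have h1 : x₀.1⁻¹ * z.1.1 = x₀.1⁻¹ * z'.1.1 := congrArg (fun t => ((t.1 : N) : X)) hzz
        exact Subtype.ext (Subtype.ext (mul_left_cancel h1))
    · rw [not_nonempty_iff] at hne
      rw [Nat.card_of_isEmpty]
      exact Nat.zero_le _
  have s1 : ∑ x : X, a x = Nat.card (ConjClasses X) * Nat.card X :=
    Cfsg.Agent.Lib.H6Conj.sum_card_commute X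
  have s2 : ∑ n : N, aN n = Nat.card (ConjClasses N) * Nat.card N :=
    Cfsg.Agent.Lib.H6Conj.sum_card_commute N
  have s3 : ∑ w : X ⧸ N, aQ w = Nat.card (ConjClasses (X ⧸ N)) * Nat.card (X ⧸ N) :=
    Cfsg.Agent.Lib.H6Conj.sum_card_commute (X ⧸ N)
  have hX : Nat.card X = Nat.card N * Nat.card (X ⧸ N) := N.card_mul_index.symm
  have main : ∑ x : X, a x ≤ (∑ w : X ⧸ N, aQ w) * ∑ n : N, aN n := by
    calc ∑ x : X, a x ≤ ∑ x : X, c x * aQ (q x) :=
          Finset.sum_le_sum (fun x _ => by rw [mul_comm]; exact L1 x)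
      _ = ∑ w : X ⧸ N, ∑ x ∈ Finset.univ.filter (fun x => q x = w), c x * aQ (q x) :=
          (Finset.sum_fiberwise _ _ _).symm
      _ = ∑ w : X ⧸ N, aQ w * ∑ x ∈ Finset.univ.filter (fun x => q x = w), c x := by
          refine Finset.sum_congr rfl (fun w _ => ?_)
          rw [Finset.mul_sum]
          refine Finset.sum_congr rfl (fun x hx => ?_)
          rw [(Finset.mem_filter.mp hx).2, mul_comm]
      _ ≤ ∑ w : X ⧸ N, aQ w * ∑ n : N, aN n :=
          Finset.sum_le_sum (fun w _ => Nat.mul_le_mul_left _ (L2 w))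
      _ = _ := by rw [Finset.sum_mul]
  rw [s1, s2, s3, hX] at main
  have hpos : 0 < Nat.card N * Nat.card (X ⧸ N) := Nat.mul_pos Nat.card_pos Nat.card_pos
  have : Nat.card (ConjClasses X) * (Nat.card N * Nat.card (X ⧸ N))
      ≤ (Nat.card (ConjClasses N) * Nat.card (ConjClasses (X ⧸ N))) * (Nat.card N * Nat.card (X ⧸ N)) := by
    calc _ ≤ _ := main
      _ = _ := by ring
  exact Nat.le_of_mul_le_mul_right this hpos

end Cfsg.Agent.S4201
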