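import Mathlib
import Cfsg.Statements.S4203
import Cfsg.Agent.Lib.CharBurnside
open Cfsg.Agent.Lib
-- import your own Cfsg.Agent.* helpers here

set_option autoImplicit false
open Cfsg

namespace Cfsg.Agent.S4203

open Subgroup in
theorem index_modEq {G : Type*} [Group G] [Finite G] {p : ℕ} [Fact p.Prime] (P : Sylow p G) (M : Subgroup G)
    (hM : normalizer (P : Set G) ≤ M) : M.index ≡ 1 [MOD p] := by
  have hPM : (P : Subgroup G) ≤ M := le_trans le_normalizer hM
  have h1 : (normalizer (P : Set G)).index ≡ 1 [MOD p] := by
    rw [← P.card_eq_index_normalizer]; exact card_sylow_modEq_one p G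
  let Q : Sylow p M := P.subtype hPM
  have h2 : (normalizer (Q : Set M)).index ≡ 1 [MOD p] := by
    rw [← Sylow.card_eq_index_normalizer]; exact card_sylow_modEq_one p M
  have h3 : normalizer (Q : Set M) = (normalizer (P : Set G)).subgroupOf M := by
    have h30 : ((Q : Subgroup M) : Set M) = (((P : Subgroup G).subgroupOf M : Subgroup M) : Set M) := by
      rw [Sylow.coe_subtype]
    change normalizer ((Q : Subgroup M) : Set M) = _
    rw [h30]
    exact (subgroupOf_normalizer_eq hPM).symm
  rw [h3] at h2
  have h4 : (normalizer (P : Set G)).relIndex M * M.index = (normalizer (P : Set G)).index := relIndex_mul_index hM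
  have h5 : (normalizer (P : Set G)).relIndex M ≡ 1 [MOD p] := h2
  have h6 : 1 * M.index ≡ 1 [MOD p] := by
    calc 1 * M.index ≡ (normalizer (P : Set G)).relIndex M * M.index [MOD p] := Nat.ModEq.mul_right _ h5.symm
      _ = (normalizer (P : Set G)).index := h4
      _ ≡ 1 [MOD p] := h1
  simpa using h6

open Subgroup in
theorem comap_coatom {G H : Type*} [Group G] [Group H] (f : G →* H) (hf : Function.Surjective f) (M : Subgroup H)
    (hM : IsCoatom M) : IsCoatom (M.comap f) := by
  constructor
  · intro h
    apply hM.1
    have := Subgroup.map_comap_eq_self_of_surjective hf M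
    rw [h, Subgroup.map_top_of_surjective f hf] at this
    exact this.symm
  · intro K hK
    have hker : f.ker ≤ K := le_trans (Subgroup.ker_le_comap f M) hK.le
    have h1 : M < K.map f := by
      have h2 : M ≤ K.map f := by
        intro x hx
        obtain ⟨y, rfl⟩ := hf x
        exact ⟨y, hK.le hx, rfl⟩
      refine lt_of_le_of_ne h2 ?_
      intro h3
      apply hK.not_ge
      intro x hx
      have : f x ∈ K.map f := ⟨x, hx, rfl⟩
      rw [← h3] at this
      exact this
    have h4 := hM.2 _ h1
    rw [← Subgroup.comap_map_eq_self hker, h4]; simp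

universe u

theorem aux : ∀ (n : ℕ) (G : Type u) [Group G] [Finite G], Nat.card G = n →
    (∀ M : Subgroup G, IsCoatom M → ∃ p : ℕ, p.Prime ∧ (M.index = p ∨ M.index = p ^ 2)) → Group.IsSolvable G := by
  intro n
  induction n using Nat.strong_induction_on with
  | _ n ih =>
    intro G _ _ hn h
    by_cases h1 : Nat.card G = 1
    · haveI : Subsingleton G := (Nat.card_eq_one_iff_unique.mp h1).1
      infer_instance
    have hpos : 0 < Nat.card G := Nat.card_pos
    have hne : (Nat.card G).primeFactors.Nonempty := by
      rw [Nat.nonempty_primeFactors]; omega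
    set p := (Nat.card G).primeFactors.max' hne with hp_def
    have hpm : p ∈ (Nat.card G).primeFactors := Finset.max'_mem _ _
    have hpp : p.Prime := Nat.prime_of_mem_primeFactors hpm
    have hpd : p ∣ Nat.card G := Nat.dvd_of_mem_primeFactors hpm
    haveI : Fact p.Prime := ⟨hpp⟩
    have hmax : ∀ q : ℕ, q.Prime → q ∣ Nat.card G → q ≤ p := by
      intro q hq hqd
      exact Finset.le_max' _ _ (Nat.mem_primeFactors.mpr ⟨hq, hqd, by omega⟩)
    let P : Sylow p G := default
    by_cases hnorm : (P : Subgroup G).Normal
    · -- quotient
      have hPne : (P : Subgroup G) ≠ ⊥ := P.ne_bot_of_dvd_card hpd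
      have hcardlt : Nat.card (G ⧸ (P : Subgroup G)) < n := by
        have h2 := Subgroup.card_eq_card_quotient_mul_card_subgroup (P : Subgroup G)
        have h3 : 1 < Nat.card (P : Subgroup G) := by
          have : Nontrivial (P : Subgroup G) := (Subgroup.nontrivial_iff_ne_bot _).mpr hPne
          exact Finite.one_lt_card
        have h4 : 0 < Nat.card (G ⧸ (P : Subgroup G)) := Nat.card_pos
        rw [← hn, h2]
        nlinarith
      have hQ : Group.IsSolvable (G ⧸ (P : Subgroup G)) := by
        apply ih _ hcardlt _ rfl
        intro M hM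
        obtain ⟨q, hq, hi⟩ := h _ (comap_coatom (QuotientGroup.mk' (P : Subgroup G)) (QuotientGroup.mk'_surjective _) M hM)
        rw [Subgroup.index_comap_of_surjective _ (QuotientGroup.mk'_surjective _)] at hi
        exact ⟨q, hq, hi⟩
      have hPs : Group.IsSolvable (P : Subgroup G) := by
        haveI : Group.IsNilpotent (P : Subgroup G) := P.isPGroup'.isNilpotent
        exact inferInstance
      exact Group.isSolvable_of_ker_le_range (P : Subgroup G).subtype (QuotientGroup.mk' (P : Subgroup G))
        (by rw [QuotientGroup.ker_mk', Subgroup.range_subtype])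
    · have hN : Subgroup.normalizer ((P : Subgroup G) : Set G) ≠ ⊤ := by
        intro ht
        exact hnorm (Subgroup.normalizer_eq_top_iff.mp ht)
      obtain ⟨M, hM, hNM⟩ := (eq_top_or_exists_le_coatom _).resolve_left hN
      have hmod := index_modEq P M hNM
      obtain ⟨q, hq, hi⟩ := h M hM
      have hqd : q ∣ Nat.card G := by
        have h3 : M.index ∣ Nat.card G := Subgroup.index_dvd_card M
        rcases hi with hi | hi
        · rwa [hi] at h3
        · rw [hi] at h3; exact (dvd_pow_self q (by norm_num)).trans h3
      have hqle := hmax q hq hqd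
      have hone : 1 < p := hpp.one_lt
      have hpq : q ≠ p := by
        intro hqp
        have h0 : M.index ≡ 0 [MOD p] := by
          rcases hi with hi | hi
          · rw [hi, hqp]; exact (Nat.modEq_zero_iff_dvd).mpr dvd_rfl
          · rw [hi, hqp]; exact (Nat.modEq_zero_iff_dvd).mpr (dvd_pow_self p (by norm_num))
        have h00 := h0.symm.trans hmod
        have := (Nat.modEq_iff_dvd' (by omega)).mp h00
        have h4 : p ∣ 1 := by simpa using this
        exact hpp.one_lt.ne' (Nat.dvd_one.mp h4)
      have hqlt : q < p := lt_of_le_of_ne hqle hpq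
      rcases hi with hi | hi
      · exfalso
        rw [hi] at hmod
        have h2 : q % p = 1 % p := hmod
        rw [Nat.mod_eq_of_lt hqlt, Nat.mod_eq_of_lt hone] at h2
        exact hq.one_lt.ne' h2
      · rw [hi] at hmod
        have h2 : p ∣ q ^ 2 - 1 := (Nat.modEq_iff_dvd' (Nat.one_le_pow _ _ hq.pos)).mp hmod.symm
        have h3 : q ^ 2 - 1 = (q - 1) * (q + 1) := by
          obtain ⟨r, hr⟩ : ∃ r, q = r + 1 := ⟨q - 1, by have := hq.pos; omega⟩
          rw [hr, show (r + 1) ^ 2 = r * (r + 2) + 1 by ring]; simp
        rw [h3] at h2
        have hq2 := hq.two_le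
        have h4 : p ∣ q + 1 := by
          rcases (Nat.Prime.dvd_mul hpp).mp h2 with h5 | h5
          · exfalso
            have := Nat.le_of_dvd (by omega) h5
            omega
          · exact h5
        have h5 : p = q + 1 := by
          have := Nat.le_of_dvd (by omega) h4
          omega
        have h6 : q = 2 := by
          rcases Nat.even_or_odd q with he | ho
          · exact (hq.even_iff.mp he)
          · have : Even p := by rw [h5]; exact ho.add_one
            have := hpp.even_iff.mp this
            omega
        have h7 : p = 3 := by omega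
        -- G is a {2,3}-group
        obtain ⟨a, m, hm2, hm⟩ := Nat.exists_eq_pow_mul_and_not_dvd (n := Nat.card G) (by omega) 2 (by norm_num)
        obtain ⟨b, m', hm3, hm'⟩ := Nat.exists_eq_pow_mul_and_not_dvd (n := m) (by rintro rfl; simp at hm2) 3 (by norm_num)
        have hm1 : m' = 1 := by
          by_contra hne1
          obtain ⟨r, hr, hrd⟩ := Nat.exists_prime_and_dvd hne1
          have h8 : r ∣ Nat.card G := by
            rw [hm, hm']
            exact Dvd.dvd.mul_left (Dvd.dvd.mul_left hrd _) _
          have h9 := hmax r hr h8
          have h10 : r = 2 ∨ r = 3 := by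
            have := hr.two_le
            omega
          rcases h10 with h11 | h11
          · apply hm2; rw [hm', ← h11]; exact Dvd.dvd.mul_left hrd _
          · rw [h11] at hrd; exact hm3 hrd
        rw [hm1, mul_one] at hm'
        exact CharBurnside.solvable_two_prime 2 3 (by norm_num) (by norm_num) _ G a b rfl (by rw [hm, hm'])


/-- A finite group in which every maximal subgroup has index a prime or the square of a prime is solvable. -/
theorem result {G : Type*} [Group G] [Finite G] (h : ∀ M : Subgroup G, IsCoatom M → ∃ p : ℕ, p.Prime ∧ (M.index = p ∨ M.index = p ^ 2)) : Group.IsSolvable G := by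
  exact aux _ G rfl h

end Cfsg.Agent.S4203
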