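import Cfsg.Statements.S4204
-- import your own Cfsg.Agent.* helpers here

set_option autoImplicit false
open Cfsg

namespace Cfsg.Agent.S4204

open scoped commutatorElement

theorem lcs_normal {G : Type*} [Group G] (S : Subgroup G) [S.Normal] (n : ℕ) :
    (S.lowerCentralSeries n).Normal := by
  induction n with
  | zero => simpa using ‹S.Normal›
  | succ n ih =>
    rw [Subgroup.lowerCentralSeries_succ]
    exact Subgroup.commutator_normal _ _

theorem comm_sup_left {G : Type*} [Group G] (A B C : Subgroup G) [A.Normal] [B.Normal] [C.Normal] :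
    ⁅A ⊔ B, C⁆ ≤ ⁅A, C⁆ ⊔ ⁅B, C⁆ := by
  rw [Subgroup.commutator_le]
  intro x hx y hy
  have hx' : x ∈ ((A ⊔ B : Subgroup G) : Set G) := hx
  rw [Subgroup.mul_normal] at hx'
  obtain ⟨a, ha, b, hb, rfl⟩ := hx'
  have h : ⁅(fun x1 x2 => x1 * x2) a b, y⁆ = (a * ⁅b, y⁆ * a⁻¹) * ⁅a, y⁆ := by
    simp only [commutatorElement_def]; group
  rw [h]
  refine Subgroup.mul_mem _ ?_ ?_
  · have : ⁅b, y⁆ ∈ ⁅A, C⁆ ⊔ ⁅B, C⁆ :=
      Subgroup.mem_sup_right (Subgroup.commutator_mem_commutator hb hy)
    exact (Subgroup.sup_normal _ _).conj_mem _ this a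
  · exact Subgroup.mem_sup_left (Subgroup.commutator_mem_commutator ha hy)

theorem comm_sup_right {G : Type*} [Group G] (A B C : Subgroup G) [A.Normal] [B.Normal] [C.Normal] :
    ⁅A, B ⊔ C⁆ ≤ ⁅A, B⁆ ⊔ ⁅A, C⁆ := by
  rw [Subgroup.commutator_comm, Subgroup.commutator_comm A B, Subgroup.commutator_comm A C]
  exact comm_sup_left _ _ _

theorem key {G : Type*} [Group G] (H K : Subgroup G) [H.Normal] [K.Normal] (n : ℕ) :
    ∀ a b : ℕ, a + b = n → (H ⊔ K).lowerCentralSeries n ≤
      H.lowerCentralSeries a ⊔ K.lowerCentralSeries b := by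
  induction n with
  | zero =>
    intro a b hab
    obtain rfl : a = 0 := by omega
    obtain rfl : b = 0 := by omega
    simp
  | succ n ih =>
    intro a b hab
    haveI := lcs_normal H a
    haveI := lcs_normal K b
    rw [Subgroup.lowerCentralSeries_succ]
    haveI := lcs_normal (H ⊔ K) n
    refine (comm_sup_right _ _ _).trans (sup_le ?_ ?_)
    · -- bracket with H
      rcases a with _ | a
      · -- a = 0
        have h1 : ⁅(H ⊔ K).lowerCentralSeries n, H⁆ ≤ H := Subgroup.commutator_le_right _ _
        exact h1.trans (by simp)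
      · have hab' : a + b = n := by omega
        have h := ih a b hab'
        haveI := lcs_normal H a
        refine (Subgroup.commutator_mono h le_rfl).trans ?_
        refine (comm_sup_left _ _ _).trans (sup_le ?_ ?_)
        · exact le_sup_of_le_left le_rfl
        · exact le_sup_of_le_right (Subgroup.commutator_le_left _ _)
    · -- bracket with K
      rcases b with _ | b
      · have h1 : ⁅(H ⊔ K).lowerCentralSeries n, K⁆ ≤ K := Subgroup.commutator_le_right _ _
        exact h1.trans (by simp)
      · have hab' : a + b = n := by omega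
        have h := ih a b hab'
        haveI := lcs_normal K b
        refine (Subgroup.commutator_mono h le_rfl).trans ?_
        refine (comm_sup_left _ _ _).trans (sup_le ?_ ?_)
        · exact le_sup_of_le_left (Subgroup.commutator_le_left _ _)
        · exact le_sup_of_le_right le_rfl


/-- If `H` and `K` are normal subgroups of a finite group with `H` nilpotent of class at most `c` and `K` nilpotent of class at most `d` (the terms with index `c`, respectively `d`, of their lower central series are trivial, indices starting at `0`), then `HK` is nilpotent of class at most `c + d`. -/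
theorem result {G : Type*} [Group G] [Finite G] (H K : Subgroup G) [H.Normal] [K.Normal] (c d : ℕ) (hH : H.lowerCentralSeries c = ⊥) (hK : K.lowerCentralSeries d = ⊥) : (H ⊔ K).lowerCentralSeries (c + d) = ⊥ := by
  have h := key H K (c + d) c d rfl
  rw [hH, hK] at h
  simpa using h

end Cfsg.Agent.S4204
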