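import Cfsg.Statements.S4205
-- import your own Cfsg.Agent.* helpers here

set_option autoImplicit false
open Cfsg

namespace Cfsg.Agent.S4205

open scoped commutatorElement

/-- In a finite group whose upper central series reaches the whole group at step `c` (nilpotent of class at most `c`), starting from any subgroup and taking normalizers `c` times reaches the whole group. -/
theorem result {G : Type*} [Group G] [Finite G] (c : ℕ) (hG : Subgroup.upperCentralSeries G c = ⊤) (H : Subgroup G) : (fun K : Subgroup G => Subgroup.normalizer (K : Set G))^[c] H = ⊤ := by
  have key : ∀ n : ℕ, Subgroup.upperCentralSeries G n ≤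
      (fun K : Subgroup G => Subgroup.normalizer (K : Set G))^[n] H := by
    intro n
    induction n with
    | zero => simp
    | succ n ih =>
      rw [Function.iterate_succ_apply']
      intro x hx
      rw [Subgroup.mem_normalizer_iff]
      rw [Subgroup.mem_upperCentralSeries_succ_iff] at hx
      set K := (fun K : Subgroup G => Subgroup.normalizer (K : Set G))^[n] H with hK
      intro h
      have h1 : x * h * x⁻¹ = ⁅x, h⁆ * h := by
        simp [commutatorElement_def]
      constructor
      · intro hh
        rw [h1]
        exact K.mul_mem (ih (hx h)) hh
      · intro hh
        rw [h1] at hh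
        have h2 : h = ⁅x, h⁆⁻¹ * (⁅x, h⁆ * h) := by group
        rw [h2]
        exact K.mul_mem (K.inv_mem (ih (hx h))) hh
  have := key c
  rw [hG] at this
  exact top_le_iff.mp this

end Cfsg.Agent.S4205
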