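import Cfsg.Statements.S4206
-- import your own Cfsg.Agent.* helpers here

set_option autoImplicit false
open Cfsg

namespace Cfsg.Agent.S4206

open scoped commutatorElement in
theorem three_subgroups {G : Type*} [Group G] (A B C N : Subgroup G) [N.Normal]
    (h1 : ⁅⁅A, B⁆, C⁆ ≤ N) (h2 : ⁅⁅B, C⁆, A⁆ ≤ N) : ⁅⁅C, A⁆, B⁆ ≤ N := by
  have key : ∀ X Y Z : Subgroup G, ⁅⁅X, Y⁆, Z⁆ ≤ N ↔
      ⁅⁅X.map (QuotientGroup.mk' N), Y.map (QuotientGroup.mk' N)⁆, Z.map (QuotientGroup.mk' N)⁆ = ⊥ := by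
    intro X Y Z
    rw [← Subgroup.map_commutator, ← Subgroup.map_commutator, Subgroup.map_eq_bot_iff]
    simp
  rw [key] at h1 h2 ⊢
  exact Subgroup.commutator_commutator_eq_bot_of_rotate h1 h2


/-- Let `H 0 ≥ H 1 ≥ H 2 ≥ ⋯` be normal subgroups of a finite group and `L` a subgroup with `⁅H i, L⁆ ≤ H (i+1)` for all `i`. Then `⁅H i, γ⁆ ≤ H (i + j + 1)` where `γ` is the `j`-th term of the lower central series of `L` (indexed from `0`, so the term with index `j` is the `(j+1)`-fold commutator). -/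
theorem result {G : Type*} [Group G] [Finite G] (H : ℕ → Subgroup G) (hN : ∀ i, (H i).Normal) (hdesc : ∀ i, H (i + 1) ≤ H i) (L : Subgroup G) (hL : ∀ i, ⁅H i, L⁆ ≤ H (i + 1)) (i j : ℕ) : ⁅H i, L.lowerCentralSeries j⁆ ≤ H (i + j + 1) := by
  induction j generalizing i with
  | zero => simpa using hL i
  | succ j ih =>
    rw [Subgroup.lowerCentralSeries_succ]
    haveI := hN (i + (j + 1) + 1)
    have h1 : ⁅⁅L, H i⁆, L.lowerCentralSeries j⁆ ≤ H (i + (j + 1) + 1) := by
      rw [Subgroup.commutator_comm L]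
      refine (Subgroup.commutator_mono (hL i) le_rfl).trans ?_
      have := ih (i + 1)
      have e : i + 1 + j + 1 = i + (j + 1) + 1 := by omega
      rwa [e] at this
    have h2 : ⁅⁅H i, L.lowerCentralSeries j⁆, L⁆ ≤ H (i + (j + 1) + 1) := by
      refine (Subgroup.commutator_mono (ih i) le_rfl).trans ?_
      exact hL (i + j + 1)
    have h3 := three_subgroups L (H i) (L.lowerCentralSeries j) _ h1 h2
    rw [Subgroup.commutator_comm]
    exact h3

end Cfsg.Agent.S4206
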