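import Mathlib
import Cfsg.Statements.S4211
import Cfsg.Agent.Lib.Quaternion
import Cfsg.Agent.Lib.H6PiPart
-- import your own Cfsg.Agent.* helpers here

set_option autoImplicit false
open Cfsg

namespace Cfsg.Agent.S4211

open Subgroup Cfsg.Agent.Lib.H6PiPart

section Step

variable {G : Type*} [Group G] [Finite G]

/-- Class two power formula. -/
theorem mul_pow_class2 {u v z : G} (hz : v * u = z * u * v) (hzu : Commute z u) (hzv : Commute z v) (r : ℕ) :
    (u * v) ^ r = u ^ r * v ^ r * z ^ (r.choose 2) := by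
  have h1 : ∀ n : ℕ, v ^ n * u = z ^ n * u * v ^ n := by
    intro n
    induction n with
    | zero => simp
    | succ n ih =>
      calc v ^ (n + 1) * u = v ^ n * (v * u) := by rw [pow_succ]; group
        _ = v ^ n * (z * u * v) := by rw [hz]
        _ = (v ^ n * z) * u * v := by group
        _ = (z * v ^ n) * u * v := by rw [(hzv.pow_right n).symm.eq]
        _ = z * (v ^ n * u) * v := by group
        _ = z * (z ^ n * u * v ^ n) * v := by rw [ih]
        _ = z ^ (n + 1) * u * v ^ (n + 1) := by rw [pow_succ', pow_succ]; group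
  induction r with
  | zero => simp
  | succ r ih =>
    have hzr : Commute (z ^ (r.choose 2)) u := hzu.pow_left _
    have hzv2 : Commute (z ^ (r.choose 2)) v := hzv.pow_left _
    have hc : (r + 1).choose 2 = r + r.choose 2 := by
      rw [Nat.choose_succ_succ' r 1, Nat.choose_one_right]
    calc (u * v) ^ (r + 1) = (u * v) ^ r * (u * v) := pow_succ _ _
      _ = u ^ r * v ^ r * z ^ (r.choose 2) * (u * v) := by rw [ih]
      _ = u ^ r * (v ^ r * (z ^ (r.choose 2) * u) * v) := by group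
      _ = u ^ r * (v ^ r * (u * z ^ (r.choose 2)) * v) := by rw [hzr.eq]
      _ = u ^ r * ((v ^ r * u) * (z ^ (r.choose 2) * v)) := by group
      _ = u ^ r * ((z ^ r * u * v ^ r) * (v * z ^ (r.choose 2))) := by rw [h1, hzv2.eq]
      _ = (u ^ r * z ^ r * u) * (v ^ r * v) * z ^ (r.choose 2) := by group
      _ = (u ^ r * u * z ^ r) * (v ^ r * v) * z ^ (r.choose 2) := by
          rw [mul_assoc (u ^ r) (z ^ r) u, (hzu.pow_left r).eq, mul_assoc (u ^ r) u (z ^ r)]
      _ = u ^ (r + 1) * z ^ r * v ^ (r + 1) * z ^ (r.choose 2) := by rw [pow_succ, pow_succ]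
      _ = u ^ (r + 1) * v ^ (r + 1) * (z ^ r * z ^ (r.choose 2)) := by
          rw [mul_assoc (u ^ (r + 1)) (z ^ r) (v ^ (r + 1)), ((hzv.pow_pow r (r + 1))).eq]
          simp only [mul_assoc]
      _ = u ^ (r + 1) * v ^ (r + 1) * z ^ ((r + 1).choose 2) := by rw [hc, pow_add z]

/-- The quaternion relations from the hypothesis that all subgroups are normal. -/
theorem exists_q8 (hn : ∀ H : Subgroup G, H.Normal) (hna : ∃ a b : G, a * b ≠ b * a) :
    ∃ a b : G, orderOf a = 4 ∧ b * b = a ^ 2 ∧ b * a * b⁻¹ = a⁻¹ ∧ b ∉ zpowers a := by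
  classical
  -- a minimal pair
  obtain ⟨a, b, hab, hmin⟩ : ∃ a b : G, a * b ≠ b * a ∧ ∀ a' b' : G, a' * b' ≠ b' * a' →
      orderOf a + orderOf b ≤ orderOf a' + orderOf b' := by
    let S := {p : G × G // p.1 * p.2 ≠ p.2 * p.1}
    obtain ⟨a₀, b₀, h₀⟩ := hna
    haveI : Nonempty S := ⟨⟨(a₀, b₀), h₀⟩⟩
    obtain ⟨p, hp⟩ := Finite.exists_min (fun p : S => orderOf p.1.1 + orderOf p.1.2)
    exact ⟨p.1.1, p.1.2, p.2, fun a' b' h => hp ⟨(a', b'), h⟩⟩
  -- arrange the orders
  obtain ⟨a, b, hab, hmin, hle⟩ : ∃ a b : G, a * b ≠ b * a ∧ (∀ a' b' : G, a' * b' ≠ b' * a' →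
      orderOf a + orderOf b ≤ orderOf a' + orderOf b') ∧ orderOf b ≤ orderOf a := by
    by_cases h : orderOf b ≤ orderOf a
    · exact ⟨a, b, hab, hmin, h⟩
    · refine ⟨b, a, fun h2 => hab h2.symm, ?_, by omega⟩
      intro a' b' h'
      have := hmin a' b' h'
      omega
  set c := a * b * a⁻¹ * b⁻¹ with hc
  have hc1 : c ≠ 1 := by
    intro h
    apply hab
    have : a * b * a⁻¹ * b⁻¹ * (b * a) = b * a := by rw [← hc, h, one_mul]
    simpa [mul_assoc] using this
  have hca : c ∈ zpowers a := by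
    have h1 : b * a⁻¹ * b⁻¹ ∈ zpowers a := (hn (zpowers a)).conj_mem _ (inv_mem (mem_zpowers a)) b
    have : c = a * (b * a⁻¹ * b⁻¹) := by rw [hc]; group
    rw [this]
    exact mul_mem (mem_zpowers a) h1
  have hcb : c ∈ zpowers b := by
    have h1 : a * b * a⁻¹ ∈ zpowers b := (hn (zpowers b)).conj_mem _ (mem_zpowers b) a
    exact mul_mem h1 (inv_mem (mem_zpowers b))
  have hcomm_of : ∀ {x y : G}, x ∈ zpowers y → Commute x y := by
    rintro x y ⟨i, rfl⟩
    exact (Commute.refl y).zpow_left i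
  have hcA : Commute c a := hcomm_of hca
  have hcB : Commute c b := hcomm_of hcb
  have habc : a * b = c * b * a := by rw [hc]; group
  have hapow : ∀ n : ℕ, a ^ n * b = c ^ n * b * a ^ n := by
    intro n
    induction n with
    | zero => simp
    | succ n ih =>
      calc a ^ (n + 1) * b = a ^ n * (a * b) := by rw [pow_succ]; group
        _ = a ^ n * (c * b * a) := by rw [habc]
        _ = (a ^ n * c) * b * a := by group
        _ = (c * a ^ n) * b * a := by rw [(hcA.pow_right n).symm.eq]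
        _ = c * (a ^ n * b) * a := by group
        _ = c * (c ^ n * b * a ^ n) * a := by rw [ih]
        _ = c ^ (n + 1) * b * a ^ (n + 1) := by rw [pow_succ', pow_succ]; group
  have hbpow : ∀ n : ℕ, a * b ^ n = c ^ n * b ^ n * a := by
    intro n
    induction n with
    | zero => simp
    | succ n ih =>
      calc a * b ^ (n + 1) = (a * b ^ n) * b := by rw [pow_succ]; group
        _ = c ^ n * b ^ n * a * b := by rw [ih]
        _ = c ^ n * b ^ n * (a * b) := by group
        _ = c ^ n * b ^ n * (c * b * a) := by rw [habc]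
        _ = c ^ n * (b ^ n * c) * b * a := by group
        _ = c ^ n * (c * b ^ n) * b * a := by rw [(hcB.pow_right n).symm.eq]
        _ = c ^ (n + 1) * b ^ (n + 1) * a := by rw [pow_succ, pow_succ]; group
  have hoa : 0 < orderOf a := orderOf_pos a
  have hob : 0 < orderOf b := orderOf_pos b
  -- elements of smaller order commute
  have hsmall_a : ∀ a' : G, orderOf a' < orderOf a → a' * b = b * a' := by
    intro a' h
    by_contra hne
    have := hmin a' b hne
    omega
  have hsmall_b : ∀ b' : G, orderOf b' < orderOf b → a * b' = b' * a := by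
    intro b' h
    by_contra hne
    have := hmin a b' hne
    omega
  have hprime_a : ∀ q : ℕ, q.Prime → q ∣ orderOf a → orderOf c = q := by
    intro q hq hd
    have h1 : orderOf (a ^ q) < orderOf a := by
      rw [orderOf_pow' _ hq.ne_zero, Nat.gcd_eq_right hd]
      exact Nat.div_lt_self hoa hq.one_lt
    have h2 := hsmall_a _ h1
    rw [hapow] at h2
    have h3 : c ^ q = 1 := by
      have h4 : c ^ q * b * a ^ q = 1 * b * a ^ q := by rw [one_mul]; exact h2
      exact mul_right_cancel (mul_right_cancel h4)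
    have h5 := orderOf_dvd_of_pow_eq_one h3
    rcases (Nat.dvd_prime hq).mp h5 with h6 | h6
    · exact absurd (orderOf_eq_one_iff.mp h6) hc1
    · exact h6
  have hprime_b : ∀ q : ℕ, q.Prime → q ∣ orderOf b → orderOf c = q := by
    intro q hq hd
    have h1 : orderOf (b ^ q) < orderOf b := by
      rw [orderOf_pow' _ hq.ne_zero, Nat.gcd_eq_right hd]
      exact Nat.div_lt_self hob hq.one_lt
    have h2 := hsmall_b _ h1
    rw [hbpow] at h2
    have h3 : c ^ q = 1 := by
      have h4 : c ^ q * (b ^ q * a) = 1 * (b ^ q * a) := by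
        rw [one_mul, ← mul_assoc]; exact h2.symm.symm ▸ rfl
      exact mul_right_cancel h4
    have h5 := orderOf_dvd_of_pow_eq_one h3
    rcases (Nat.dvd_prime hq).mp h5 with h6 | h6
    · exact absurd (orderOf_eq_one_iff.mp h6) hc1
    · exact h6
  have hbnot : b ∉ zpowers a := by
    intro h
    exact hab (hcomm_of h).symm.eq
  have ha1 : orderOf a ≠ 1 := by
    intro h
    apply hab
    rw [orderOf_eq_one_iff.mp h]
    simp
  have hb1 : b ≠ 1 := by
    intro h
    apply hab
    rw [h]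
    simp
  set p := orderOf c with hp_def
  have hp : p.Prime := by
    rw [hprime_a _ (Nat.minFac_prime ha1) (Nat.minFac_dvd _)]
    exact Nat.minFac_prime ha1
  haveI : Fact p.Prime := ⟨hp⟩
  obtain ⟨m, hm⟩ : ∃ m, orderOf a = p ^ m :=
    ⟨_, Nat.eq_prime_pow_of_unique_prime_dvd hoa.ne' (fun {d} hd hdv => (hprime_a d hd hdv).symm)⟩
  obtain ⟨n, hn'⟩ : ∃ n, orderOf b = p ^ n :=
    ⟨_, Nat.eq_prime_pow_of_unique_prime_dvd hob.ne' (fun {d} hd hdv => (hprime_b d hd hdv).symm)⟩
  have hnm : n ≤ m := by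
    rw [hm, hn'] at hle
    exact (Nat.pow_le_pow_iff_right hp.one_lt).mp hle
  have hn0 : n ≠ 0 := by
    rintro rfl
    rw [pow_zero] at hn'
    exact hb1 (orderOf_eq_one_iff.mp hn')
  obtain ⟨n', rfl⟩ := Nat.exists_eq_succ_of_ne_zero hn0
  rw [Nat.succ_eq_add_one] at hn' hnm
  set r := p ^ n' with hr
  set l := p ^ (m - (n' + 1)) with hl
  have hrpos : 0 < r := pow_pos hp.pos _
  have hlpos : 0 < l := pow_pos hp.pos _
  have hbr : orderOf b = p * r := by rw [hn', hr, pow_succ, mul_comm]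
  have har : orderOf a = p * r * l := by
    rw [hm, ← hbr, hn', hl, ← pow_add]
    congr 1
    omega
  set w := b ^ r with hw
  have hwp : w ^ p = 1 := by
    rw [hw, ← pow_mul, mul_comm r p, ← hbr]
    exact pow_orderOf_eq_one b
  have hcp : c ^ p = 1 := pow_orderOf_eq_one c
  -- `w` lies in the cyclic group of `c`
  have hwc : w ∈ zpowers c := by
    obtain ⟨j, hj⟩ := (mem_powers_iff_mem_zpowers).mpr hcb
    have hj' : b ^ j = c := hj
    have h1 : orderOf b ∣ j * p := by
      apply orderOf_dvd_of_pow_eq_one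
      rw [pow_mul, hj', hcp]
    rw [hbr, mul_comm j p] at h1
    obtain ⟨j', hj'e⟩ : r ∣ j := Nat.dvd_of_mul_dvd_mul_left hp.pos h1
    have h2 : c = w ^ j' := by
      rw [hw, ← pow_mul, ← hj'e, hj']
    have h3 : ¬ p ∣ j' := by
      rintro ⟨k, rfl⟩
      apply hc1
      rw [h2, pow_mul, hwp, one_pow]
    have hcop : Nat.Coprime j' p := ((Nat.Prime.coprime_iff_not_dvd hp).mpr h3).symm
    obtain ⟨u, _, hu⟩ := Nat.exists_mul_mod_eq_one_of_coprime hcop hp.one_lt
    have h4 : w = c ^ u := by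
      rw [h2, ← pow_mul, pow_eq_pow_mod (j' * u) hwp, hu, pow_one]
    rw [h4]
    exact pow_mem (mem_zpowers c) u
  have hwa : w ∈ zpowers a := (zpowers_le.mpr hca) hwc
  obtain ⟨e, he⟩ := (mem_powers_iff_mem_zpowers).mpr hwa
  have he' : a ^ e = w := he
  have h1 : orderOf a ∣ e * p := by
    apply orderOf_dvd_of_pow_eq_one
    rw [pow_mul, he', hwp]
  rw [har, mul_comm e p, mul_assoc] at h1
  obtain ⟨s', hs'⟩ : r * l ∣ e := Nat.dvd_of_mul_dvd_mul_left hp.pos h1
  set f := l * s' with hf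
  set y := a ^ f with hy
  have hyr : y ^ r = w := by
    rw [hy, ← pow_mul, ← he', hs', hf]
    congr 1
    ring
  have hyb : y * b = c ^ f * b * y := hapow f
  have hcy : Commute c y := hcA.pow_right f
  have hzv : Commute ((c ^ f)⁻¹) (y⁻¹) := ((hcy.pow_left f).inv_left).inv_right
  have hzu : Commute ((c ^ f)⁻¹) b := (hcB.pow_left f).inv_left
  have hz : y⁻¹ * b = (c ^ f)⁻¹ * b * y⁻¹ := by
    have h2 : b = y⁻¹ * (c ^ f * b * y) := by rw [← hyb]; group
    have h3 : (c ^ f)⁻¹ * b * y⁻¹ = (c ^ f)⁻¹ * (y⁻¹ * (c ^ f * b * y)) * y⁻¹ := by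
      rw [← h2]
    rw [h3]
    have h4 : y⁻¹ * c ^ f = c ^ f * y⁻¹ := ((hcy.pow_left f).inv_right).symm.eq
    calc y⁻¹ * b = (c ^ f)⁻¹ * (c ^ f * y⁻¹) * b := by group
      _ = (c ^ f)⁻¹ * (y⁻¹ * c ^ f) * b := by rw [h4]
      _ = _ := by group
  have hpow := mul_pow_class2 hz hzu hzv r
  have hyinv : y⁻¹ ^ r = w⁻¹ := by rw [inv_pow, hyr]
  rw [hyinv, ← hw, mul_inv_cancel, one_mul] at hpow
  -- the modified generator does not commute with `a`
  have hnoncomm : a * (b * y⁻¹) ≠ (b * y⁻¹) * a := by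
    intro h
    apply hab
    have hay : Commute a y⁻¹ := ((Commute.refl a).pow_right f).inv_right
    have h2 : a * b * y⁻¹ = b * a * y⁻¹ := by
      calc a * b * y⁻¹ = a * (b * y⁻¹) := by group
        _ = b * y⁻¹ * a := h
        _ = b * (y⁻¹ * a) := by group
        _ = b * (a * y⁻¹) := by rw [hay.symm.eq]
        _ = _ := by group
    exact mul_right_cancel h2
  have hge : orderOf b ≤ orderOf (b * y⁻¹) := by
    have := hmin a _ hnoncomm
    omega
  have hnz : ¬ p ∣ f * r.choose 2 := by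
    rintro ⟨k, hk⟩
    have h2 : (b * y⁻¹) ^ r = 1 := by
      rw [hpow, inv_pow, ← pow_mul, hk, pow_mul, hcp, one_pow, inv_one]
    have h3 : orderOf (b * y⁻¹) ≤ r := Nat.le_of_dvd hrpos (orderOf_dvd_of_pow_eq_one h2)
    have h4 : r < p * r := by
      have := hp.two_le
      nlinarith
    rw [hbr] at hge
    omega
  have hpf : ¬ p ∣ f := fun h => hnz (h.trans (Dvd.intro _ rfl))
  have hpC : ¬ p ∣ r.choose 2 := fun h => hnz (h.trans (Dvd.intro_left _ rfl))
  have hn'0 : n' ≠ 0 := by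
    rintro rfl
    apply hbnot
    have : w = b := by
      rw [hw, hr, pow_zero, pow_one]
    rw [← this]
    exact hwa
  have hpr : p ∣ r := dvd_pow_self p hn'0
  have hp2 : p = 2 := by
    by_contra hne
    have hodd : Odd p := hp.odd_of_ne_two hne
    have hrodd : Odd r := hodd.pow
    obtain ⟨t, ht⟩ := hrodd
    apply hpC
    have h2 : r.choose 2 = r * t := by
      rw [Nat.choose_two_right, ht]
      have : (2 * t + 1) * (2 * t + 1 - 1) = 2 * ((2 * t + 1) * t) := by
        simp only [Nat.add_sub_cancel]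
        ring
      rw [this, Nat.mul_div_cancel_left _ (by norm_num)]
    rw [h2]
    exact hpr.mul_right t
  have hr2 : r = 2 := by
    by_contra hne
    apply hpC
    rw [hp2]
    have hn2 : 2 ≤ n' := by
      by_contra hlt
      have : n' = 1 := by omega
      apply hne
      rw [hr, this, pow_one, hp2]
    obtain ⟨t, ht⟩ : ∃ t, r = 4 * t := by
      refine ⟨p ^ (n' - 2), ?_⟩
      rw [hr, hp2]
      have : n' = 2 + (n' - 2) := by omega
      conv_lhs => rw [this, pow_add]
      norm_num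
    have h2 : r.choose 2 = 2 * (t * (4 * t - 1)) := by
      rw [Nat.choose_two_right, ht]
      have : 4 * t * (4 * t - 1) = 2 * (2 * (t * (4 * t - 1))) := by ring
      rw [this, Nat.mul_div_cancel_left _ (by norm_num)]
    rw [h2]
    exact Dvd.intro _ rfl
  have hl1 : l = 1 := by
    by_contra hne
    apply hpf
    have : m - (n' + 1) ≠ 0 := by
      intro h0
      apply hne
      rw [hl, h0, pow_zero]
    exact (dvd_pow_self p this).mul_right s'
  have ho4a : orderOf a = 4 := by rw [har, hl1, hr2, hp2]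
  have ho4b : orderOf b = 4 := by rw [hbr, hr2, hp2]
  have hc2 : c ^ 2 = 1 := by
    rw [← hp2]
    exact hcp
  have hsq : ∀ x : G, orderOf x = 4 → c ∈ zpowers x → c = x ^ 2 := by
    intro x hx hcx
    obtain ⟨i, hi⟩ := (mem_powers_iff_mem_zpowers).mpr hcx
    have hi' : x ^ i = c := hi
    have h2 : orderOf x ∣ i * 2 := by
      apply orderOf_dvd_of_pow_eq_one
      rw [pow_mul, hi', hc2]
    rw [hx] at h2
    obtain ⟨k, hk⟩ : 2 ∣ i := by omega
    rcases Nat.even_or_odd' k with ⟨t, ht | ht⟩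
    · exfalso
      apply hc1
      rw [← hi', hk, ht, show 2 * (2 * t) = 4 * t by ring, pow_mul, ← hx, pow_orderOf_eq_one, one_pow]
    · rw [← hi', hk, ht, show 2 * (2 * t + 1) = 4 * t + 2 by ring, pow_add, pow_mul, ← hx, pow_orderOf_eq_one,
        one_pow, one_mul]
  have hca2 := hsq a ho4a hca
  have hcb2 := hsq b ho4b hcb
  refine ⟨a, b, ho4a, ?_, ?_, hbnot⟩
  · rw [← hca2, hcb2, pow_two]
  · have h2 : a * b * a⁻¹ * b⁻¹ = a ^ 2 := hc.symm.trans hca2
    have h3 : b * a⁻¹ * b⁻¹ = a := by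
      calc b * a⁻¹ * b⁻¹ = a⁻¹ * (a * b * a⁻¹ * b⁻¹) := by group
        _ = a⁻¹ * a ^ 2 := by rw [h2]
        _ = a := by rw [pow_two]; group
    calc b * a * b⁻¹ = (b * a⁻¹ * b⁻¹)⁻¹ := by group
      _ = a⁻¹ := by rw [h3]

end Step
theorem zpow_of_sq_one {G : Type*} [Group G] {y : G} (hy : y ^ 2 = 1) (t : ℤ) :
    (Even t → y ^ t = 1) ∧ (Odd t → y ^ t = y) := by
  constructor
  · rintro ⟨s, rfl⟩
    rw [← two_mul, zpow_mul]
    have : y ^ (2 : ℤ) = 1 := by
      have h := hy
      exact_mod_cast h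
    rw [this, one_zpow]
  · rintro ⟨s, rfl⟩
    rw [zpow_add, zpow_mul, zpow_one]
    have : y ^ (2 : ℤ) = 1 := by
      have h := hy
      exact_mod_cast h
    rw [this, one_zpow, one_mul]

theorem conj_of_order_four {G : Type*} [Group G] [Finite G] (hn : ∀ H : Subgroup G, H.Normal) (x : G)
    (hx : orderOf x = 4) (g : G) : g * x * g⁻¹ = x ∨ g * x * g⁻¹ = x⁻¹ := by
  have h1 : g * x * g⁻¹ ∈ zpowers x := (hn (zpowers x)).conj_mem _ (mem_zpowers x) g
  obtain ⟨i, hi⟩ := (mem_powers_iff_mem_zpowers).mpr h1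
  have hi' : x ^ i = g * x * g⁻¹ := hi
  have ho : orderOf (g * x * g⁻¹) = 4 := by
    rw [← hx]
    exact (MulAut.conj g).orderOf_eq x
  have hx4 : x ^ 4 = 1 := by rw [← hx]; exact pow_orderOf_eq_one x
  rw [← hi'] at ho ⊢
  rw [pow_eq_pow_mod i hx4] at ho ⊢
  have hlt : i % 4 < 4 := Nat.mod_lt _ (by norm_num)
  generalize i % 4 = j at ho hlt ⊢
  interval_cases j
  · simp at ho
  · left; simp
  · exfalso
    have h2 : (x ^ 2) ^ 2 = 1 := by rw [← pow_mul]; exact hx4
    have h3 := orderOf_dvd_of_pow_eq_one h2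
    rw [ho] at h3
    omega
  · right
    have : x ^ 3 * x = 1 := by rw [← pow_succ]; exact hx4
    exact eq_inv_of_mul_eq_one_left this

theorem main {G : Type*} [Group G] [Finite G] (hna : ¬ IsMulCommutative G) (hn : ∀ H : Subgroup G, H.Normal) :
    ∃ Q E A : Subgroup G, Nonempty (Q ≃* QuaternionGroup 2) ∧ Cfsg.IsElementaryAbelian 2 E ∧ IsMulCommutative A ∧
      Odd (Nat.card A) ∧ E ⊓ A = ⊥ ∧ Q ⊓ (E ⊔ A) = ⊥ ∧ Q ⊔ (E ⊔ A) = ⊤ := by
  classical
  have hnc : ∃ a b : G, a * b ≠ b * a := by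
    by_contra hall
    push Not at hall
    exact hna ⟨⟨fun a b => hall a b⟩⟩
  obtain ⟨a, b, hoa, hbb, hbab, hbn⟩ := exists_q8 hn hnc
  have ha4 : a ^ 4 = 1 := by rw [← hoa]; exact pow_orderOf_eq_one a
  have ha22 : a ^ (2 * 2) = 1 := ha4
  set c := a ^ 2 with hc
  have hc2 : c ^ 2 = 1 := by rw [hc, ← pow_mul]; exact ha4
  have hc1 : c ≠ 1 := by
    intro h
    have h2 := orderOf_dvd_of_pow_eq_one h
    rw [hoa] at h2
    omega
  have hb2 : b ^ 2 = c := by rw [pow_two]; exact hbb
  have hb4 : b ^ 4 = 1 := by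
    have : b ^ 4 = (b ^ 2) ^ 2 := by rw [← pow_mul]
    rw [this, hb2, hc2]
  have hob : orderOf b = 4 := by
    have h1 : ¬ b ^ 2 ^ 1 = 1 := by
      rw [pow_one, hb2]
      exact hc1
    have h2 : b ^ 2 ^ (1 + 1) = 1 := hb4
    have := orderOf_eq_prime_pow (p := 2) h1 h2
    simpa using this
  have hainv : a⁻¹ = a * c := by
    have : a * c * a = 1 := by
      rw [hc, pow_two]
      calc a * (a * a) * a = a ^ 4 := by simp only [pow_succ, pow_zero, one_mul, mul_assoc]
        _ = 1 := ha4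
    exact inv_eq_of_mul_eq_one_left this
  have hbinv : b⁻¹ = b * c := by
    have : b * c * b = 1 := by
      rw [← hb2, pow_two]
      calc b * (b * b) * b = b ^ 4 := by simp only [pow_succ, pow_zero, one_mul, mul_assoc]
        _ = 1 := hb4
    exact inv_eq_of_mul_eq_one_left this
  have hca : Commute c a := (Commute.refl a).pow_left 2
  have hcb : Commute c b := by
    rw [← hb2]
    exact (Commute.refl b).pow_left 2
  have haba : a * b * a⁻¹ = b⁻¹ := by
    have h1 : b * a = a⁻¹ * b := by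
      calc b * a = (b * a * b⁻¹) * b := by group
        _ = a⁻¹ * b := by rw [hbab]
    have h2 : a * b = b * a⁻¹ := by
      calc a * b = a * (b * a) * a⁻¹ := by group
        _ = a * (a⁻¹ * b) * a⁻¹ := by rw [h1]
        _ = b * a⁻¹ := by group
    have hcinv : c⁻¹ = c := inv_eq_of_mul_eq_one_left (by rw [← pow_two]; exact hc2)
    calc a * b * a⁻¹ = b * a⁻¹ * a⁻¹ := by rw [h2]
      _ = b * (a * a)⁻¹ := by group
      _ = b * c⁻¹ := by rw [hc, pow_two]
      _ = b * c := by rw [hcinv]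
      _ = b⁻¹ := hbinv.symm
  -- the quaternion subgroup
  let f : QuaternionGroup 2 →* G := Cfsg.Agent.Lib.Quaternion.quatHom 2 a b ha22 hbb hbab
  have hfa : ∀ i, f (QuaternionGroup.a i) = a ^ i.val := fun i => rfl
  have hfx : ∀ i, f (QuaternionGroup.xa i) = b * a ^ i.val := fun i => rfl
  have hinj : Function.Injective f := by
    rw [← MonoidHom.ker_eq_bot_iff, eq_bot_iff]
    rintro (i | i) hi
    · have h1 : a ^ i.val = 1 := hi
      have h2 := orderOf_dvd_of_pow_eq_one h1
      rw [hoa] at h2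
      have h3 : i.val < 4 := ZMod.val_lt i
      have h4 : i.val = 0 := Nat.eq_zero_of_dvd_of_lt h2 h3
      have h5 : i = 0 := by
        apply ZMod.val_injective (2 * 2)
        rw [h4]
        rfl
      rw [h5]
      exact Subgroup.mem_bot.2 rfl
    · exfalso
      have h1 : b * a ^ i.val = 1 := hi
      apply hbn
      rw [eq_inv_of_mul_eq_one_left h1]
      exact Subgroup.inv_mem _ (Subgroup.pow_mem _ (Subgroup.mem_zpowers a) _)
  set Q : Subgroup G := f.range with hQ
  have hQiso : Nonempty (Q ≃* QuaternionGroup 2) := ⟨(MonoidHom.ofInjective hinj).symm⟩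
  have haQ : a ∈ Q := ⟨QuaternionGroup.a 1, by
    rw [hfa]
    have : (1 : ZMod (2 * 2)).val = 1 := rfl
    rw [this, pow_one]⟩
  have hbQ : b ∈ Q := ⟨QuaternionGroup.xa 0, by
    rw [hfx]
    have : (0 : ZMod (2 * 2)).val = 0 := rfl
    rw [this, pow_zero, mul_one]⟩
  have hcQ : c ∈ Q := pow_mem haQ 2
  -- the centralizer
  set C : Subgroup G := centralizer ({a} : Set G) ⊓ centralizer ({b} : Set G) with hC
  have hCmem : ∀ x, x ∈ C ↔ x * a = a * x ∧ x * b = b * x := by
    intro x
    rw [hC, Subgroup.mem_inf, Subgroup.mem_centralizer_singleton_iff, Subgroup.mem_centralizer_singleton_iff]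
  have hCn : C.Normal := hn C
  -- no elements of order four
  have hno4 : ∀ x ∈ C, x ^ 4 = 1 → x ^ 2 = 1 := by
    intro x hx hx4
    by_contra hx2
    obtain ⟨hxa, hxb⟩ := (hCmem x).mp hx
    have hcx : Commute a x := Commute.symm hxa
    set d := a * x with hd
    have h1 : b * d * b⁻¹ ∈ zpowers d := (hn (zpowers d)).conj_mem _ (mem_zpowers d) b
    obtain ⟨k, hk⟩ := h1
    have hk' : d ^ k = b * d * b⁻¹ := hk
    have hb : b * d * b⁻¹ = a⁻¹ * x := by
      rw [hd]
      calc b * (a * x) * b⁻¹ = (b * a * b⁻¹) * (b * x * b⁻¹) := by group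
        _ = a⁻¹ * (x * b * b⁻¹) := by rw [hbab, hxb]
        _ = a⁻¹ * x := by group
    rw [hb, hd, hcx.mul_zpow] at hk'
    have h2 : a ^ (k + 1) = x ^ (1 - k) := by
      rw [zpow_add, zpow_one, zpow_sub, zpow_one]
      have h3 : a ^ k = a⁻¹ * x * (x ^ k)⁻¹ := by
        rw [← hk']
        group
      rw [h3]
      have hcomm2 : Commute a (x * (x ^ k)⁻¹) := (hcx.mul_right (hcx.zpow_right k).inv_right)
      calc a⁻¹ * x * (x ^ k)⁻¹ * a = a⁻¹ * ((x * (x ^ k)⁻¹) * a) := by group
        _ = a⁻¹ * (a * (x * (x ^ k)⁻¹)) := by rw [hcomm2.eq]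
        _ = _ := by group
    have h3 : Commute (x ^ (1 - k)) b := Commute.zpow_left hxb _
    have h4 : b * a ^ (k + 1) * b⁻¹ = (a⁻¹) ^ (k + 1) := by
      rw [← conj_zpow, hbab]
    rw [h2, (h3.symm.eq), mul_assoc, mul_inv_cancel, mul_one, ← h2, inv_zpow] at h4
    have h5 : a ^ (2 * (k + 1)) = 1 := by
      rw [two_mul, zpow_add]
      nth_rewrite 1 [h4]
      simp
    have h6 : ((orderOf a : ℕ) : ℤ) ∣ 2 * (k + 1) := orderOf_dvd_iff_zpow_eq_one.mpr h5
    rw [hoa] at h6
    obtain ⟨t, ht⟩ : ∃ t, k + 1 = 2 * t := by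
      obtain ⟨s, hs⟩ := h6
      refine ⟨s, ?_⟩
      push_cast at hs
      linarith
    have hk2 : 1 - k = 2 * (1 - t) := by linarith
    rw [ht, hk2, zpow_mul, zpow_mul] at h2
    have hca' : a ^ (2 : ℤ) = c := by rw [hc]; norm_cast
    have hxsq : (x ^ 2) ^ 2 = 1 := by rw [← pow_mul]; exact hx4
    have hxa' : x ^ (2 : ℤ) = x ^ 2 := by norm_cast
    rw [hca', hxa'] at h2
    rcases Int.even_or_odd t with ht' | ht'
    · have h7 := (zpow_of_sq_one hc2 t).1 ht'
      have h8 : Odd (1 - t) := by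
        rw [Int.odd_sub']
        simp [ht', Int.even_iff]
      have h9 := (zpow_of_sq_one hxsq (1 - t)).2 h8
      rw [h7, h9] at h2
      exact hx2 h2.symm
    · have h7 := (zpow_of_sq_one hc2 t).2 ht'
      have h8 : Even (1 - t) := by
        rcases ht' with ⟨s, rfl⟩
        exact ⟨-s, by ring⟩
      have h9 := (zpow_of_sq_one hxsq (1 - t)).1 h8
      rw [h7, h9] at h2
      exact hc1 h2
  -- `C` is abelian
  have hCcomm : ∀ x ∈ C, ∀ y ∈ C, x * y = y * x := by
    by_contra hcon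
    push Not at hcon
    obtain ⟨x, hx, y, hy, hxy⟩ := hcon
    have hnC : ∀ H : Subgroup C, H.Normal := by
      intro H
      constructor
      intro h hh g
      have h1 := (hn (H.map C.subtype)).conj_mem _ (⟨h, hh, rfl⟩ : (h : G) ∈ H.map C.subtype) (g : G)
      obtain ⟨z, hz, hze⟩ := h1
      have h2 : z = g * h * g⁻¹ := Subtype.ext hze
      rw [← h2]
      exact hz
    have hncC : ∃ u v : C, u * v ≠ v * u :=
      ⟨⟨x, hx⟩, ⟨y, hy⟩, fun h => hxy (congrArg Subtype.val h)⟩
    obtain ⟨u, v, hou, _, _, _⟩ := exists_q8 hnC hncC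
    have h1 : (u : G) ^ 4 = 1 := by
      have h2 : u ^ 4 = 1 := by rw [← hou]; exact pow_orderOf_eq_one u
      simpa using congrArg Subtype.val h2
    have h3 := hno4 u u.2 h1
    have h4 : u ^ 2 = 1 := Subtype.ext (by simpa using h3)
    have h5 := orderOf_dvd_of_pow_eq_one h4
    rw [hou] at h5
    omega
  -- the decomposition inside `C`
  have hdec : ∀ x ∈ C, ∃ u t, x = u * t ∧ u ∈ C ∧ t ∈ C ∧ u ^ 2 = 1 ∧ Odd (orderOf t) := by
    intro x hx
    obtain ⟨u, hu, t, ht, hxe, huP, htP⟩ := exists_decomp ({2} : Set ℕ) x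
    have huC : u ∈ C := (zpowers_le.mpr hx) hu
    have htC : t ∈ C := (zpowers_le.mpr hx) ht
    refine ⟨u, t, hxe, huC, htC, ?_, ?_⟩
    · obtain ⟨k, hk⟩ : ∃ k, orderOf u = 2 ^ k :=
        ⟨_, Nat.eq_prime_pow_of_unique_prime_dvd (orderOf_pos u).ne' (fun {d} hd hdv => huP d hd hdv)⟩
      have hu1 : u ^ 2 ^ k = 1 := by rw [← hk]; exact pow_orderOf_eq_one u
      by_cases hk2 : 2 ≤ k
      · exfalso
        obtain ⟨j, rfl⟩ : ∃ j, k = j + 2 := ⟨k - 2, by omega⟩
        have h2 : (u ^ 2 ^ j) ^ 4 = 1 := by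
          rw [← pow_mul, show 2 ^ j * 4 = 2 ^ (j + 2) by ring]
          exact hu1
        have h3 := hno4 _ (pow_mem huC _) h2
        rw [← pow_mul] at h3
        have h4 := orderOf_dvd_of_pow_eq_one h3
        rw [hk, show 2 ^ (j + 2) = 2 * (2 ^ j * 2) by ring, show 2 ^ j * 2 = 1 * (2 ^ j * 2) by ring] at h4
        have h5 : 2 * (1 * (2 ^ j * 2)) ≤ 1 * (2 ^ j * 2) := Nat.le_of_dvd (by positivity) h4
        have h6 : 0 < 2 ^ j * 2 := by positivity
        omega
      · have hk1 : k ≤ 1 := by omega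
        interval_cases k
        · rw [pow_zero, pow_one] at hu1
          rw [hu1, one_pow]
        · simpa using hu1
    · rw [← Nat.not_even_iff_odd, even_iff_two_dvd]
      intro h2
      exact htP 2 Nat.prime_two h2 rfl
  -- the subgroup `E`
  let 𝒮 : Set (Subgroup G) := {E | E ≤ C ∧ (∀ e ∈ E, e ^ 2 = 1) ∧ c ∉ E}
  have h𝒮 : 𝒮.Nonempty := ⟨⊥, bot_le, by
    intro e he
    rw [Subgroup.mem_bot] at he
    rw [he, one_pow], by
    rw [Subgroup.mem_bot]
    exact hc1⟩
  obtain ⟨E, hE⟩ := 𝒮.toFinite.exists_maximal h𝒮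
  obtain ⟨hEC, hEsq, hcE⟩ := hE.prop
  have hEn : E.Normal := hn E
  have hsq_mem : ∀ u ∈ C, u ^ 2 = 1 → u ∈ E ⊔ zpowers c := by
    intro u huC hu2
    by_cases huE : u ∈ E
    · exact (le_sup_left : E ≤ _) huE
    have hEu : E ≤ E ⊔ zpowers u := le_sup_left
    have hzu : zpowers u ≤ C := zpowers_le.mpr huC
    have hzu2 : ∀ w ∈ zpowers u, w ^ 2 = 1 ∧ (w = 1 ∨ w = u) := by
      rintro _ ⟨i, rfl⟩
      show (u ^ i) ^ 2 = 1 ∧ (u ^ i = 1 ∨ u ^ i = u)
      constructor
      · rw [← zpow_natCast, ← zpow_mul, mul_comm, zpow_mul]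
        have : u ^ ((2 : ℕ) : ℤ) = 1 := by
          rw [zpow_natCast]; exact hu2
        rw [this, one_zpow]
      · rcases Int.even_or_odd i with h | h
        · exact Or.inl ((zpow_of_sq_one hu2 i).1 h)
        · exact Or.inr ((zpow_of_sq_one hu2 i).2 h)
    have hmemsup : ∀ z ∈ E ⊔ zpowers u, ∃ e ∈ E, ∃ w ∈ zpowers u, z = e * w := by
      intro z hz
      obtain ⟨e, he, w, hw, hew⟩ := Subgroup.mem_sup_of_normal_left.mp hz
      exact ⟨e, he, w, hw, hew.symm⟩
    have hcmem : c ∈ E ⊔ zpowers u := by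
      by_contra hcn
      have hmem : E ⊔ zpowers u ∈ 𝒮 := by
        refine ⟨sup_le hEC hzu, ?_, hcn⟩
        intro z hz
        obtain ⟨e, he, w, hw, rfl⟩ := hmemsup z hz
        have hcm := hCcomm e (hEC he) w (hzu hw)
        have hcm' : Commute e w := hcm
        rw [hcm'.mul_pow, hEsq e he, (hzu2 w hw).1, one_mul]
      have hle := hE.le_of_ge hmem hEu
      exact huE (hle ((le_sup_right : zpowers u ≤ _) (mem_zpowers u)))
    obtain ⟨e, he, w, hw, hce⟩ := hmemsup c hcmem
    rcases (hzu2 w hw).2 with h | h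
    · exfalso
      apply hcE
      rw [hce, h, mul_one]
      exact he
    · have h2 : u = e⁻¹ * c := by
        rw [hce, h]
        group
      rw [h2]
      exact mul_mem ((le_sup_left : E ≤ _) (inv_mem he)) ((le_sup_right : zpowers c ≤ _) (mem_zpowers c))
  -- the subgroup `A`
  let A : Subgroup G :=
    { carrier := {x | x ∈ C ∧ Odd (orderOf x)}
      mul_mem' := by
        rintro x y ⟨hx, hxo⟩ ⟨hy, hyo⟩
        refine ⟨mul_mem hx hy, ?_⟩
        have hcm : Commute x y := hCcomm x hx y hy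
        exact Odd.of_dvd_nat (hxo.mul hyo) hcm.orderOf_mul_dvd_mul_orderOf
      one_mem' := ⟨one_mem _, by rw [orderOf_one]; exact odd_one⟩
      inv_mem' := by
        rintro x ⟨hx, hxo⟩
        exact ⟨inv_mem hx, by rw [orderOf_inv]; exact hxo⟩ }
  have hAC : A ≤ C := fun x hx => hx.1
  have hAn : A.Normal := hn A
  refine ⟨Q, E, A, hQiso, ⟨⟨⟨fun x y => Subtype.ext (hCcomm x (hEC x.2) y (hEC y.2))⟩⟩, hEsq⟩,
    ⟨⟨fun x y => Subtype.ext (hCcomm x (hAC x.2) y (hAC y.2))⟩⟩, ?_, ?_, ?_, ?_⟩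
  · rw [← Nat.not_even_iff_odd, even_iff_two_dvd]
    intro h2
    haveI : Fact (Nat.Prime 2) := ⟨Nat.prime_two⟩
    obtain ⟨x, hx⟩ := exists_prime_orderOf_dvd_card' 2 h2
    have h3 : Odd (orderOf (x : G)) := x.2.2
    rw [Subgroup.orderOf_coe, hx] at h3
    exact absurd h3 (by decide)
  · rw [eq_bot_iff]
    rintro x ⟨hxE, hxA⟩
    have h1 := hEsq x hxE
    have h2 : Odd (orderOf x) := hxA.2
    have h3 := orderOf_dvd_of_pow_eq_one h1
    have h4 : orderOf x = 1 := by
      rcases (Nat.dvd_prime Nat.prime_two).mp h3 with h5 | h5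
      · exact h5
      · rw [h5] at h2
        exact absurd h2 (by decide)
    rw [Subgroup.mem_bot]
    exact orderOf_eq_one_iff.mp h4
  · rw [eq_bot_iff]
    rintro y ⟨hyQ, hyEA⟩
    have hyC : y ∈ C := (sup_le hEC hAC) hyEA
    obtain ⟨hya, hyb⟩ := (hCmem y).mp hyC
    obtain ⟨e, he, t, ht, rfl⟩ := Subgroup.mem_sup_of_normal_right.mp hyEA
    have hyc : (e * t = 1) ∨ (e * t = c) := by
      obtain ⟨g, hg⟩ := hyQ
      rcases g with i | i
      · rw [hfa] at hg
        rw [← hg] at hyb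
        have h1 : b * a ^ i.val * b⁻¹ = (a⁻¹) ^ i.val := by rw [← conj_pow, hbab]
        rw [← hyb, mul_assoc, mul_inv_cancel, mul_one, inv_pow] at h1
        have h2 : a ^ (i.val * 2) = 1 := by
          rw [mul_two, pow_add]
          nth_rewrite 1 [h1]
          simp
        have h3 := orderOf_dvd_of_pow_eq_one h2
        rw [hoa] at h3
        obtain ⟨s, hs⟩ : 2 ∣ i.val := by omega
        rcases Nat.even_or_odd' s with ⟨r, hr | hr⟩
        · left
          rw [← hg, hs, hr, show 2 * (2 * r) = 4 * r by ring, pow_mul, ha4, one_pow]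
        · right
          rw [← hg, hs, hr, show 2 * (2 * r + 1) = 4 * r + 2 by ring, pow_add, pow_mul, ha4, one_pow, one_mul]
      · exfalso
        rw [hfx] at hg
        rw [← hg] at hya
        have h1 : b * a ^ i.val * a = a * (b * a ^ i.val) := hya
        have h2 : b * a = a * b := by
          have h3 : Commute (a ^ i.val) a := (Commute.refl a).pow_left _
          have h4 : b * a * a ^ i.val = a * b * a ^ i.val := by
            calc b * a * a ^ i.val = b * (a * a ^ i.val) := by group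
              _ = b * (a ^ i.val * a) := by rw [h3.symm.eq]
              _ = b * a ^ i.val * a := by group
              _ = a * (b * a ^ i.val) := h1
              _ = _ := by group
          exact mul_right_cancel h4
        have h5 : b * a * b⁻¹ = a := by rw [h2]; group
        rw [hbab] at h5
        have h6 : a * a = 1 := by
          nth_rewrite 1 [← h5]
          simp
        apply hc1
        rw [hc, pow_two]
        exact h6
    have hetcm : Commute e t := hCcomm e (hEC he) t (hAC ht)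
    have hsq : (e * t) ^ 2 = 1 := by
      rcases hyc with h | h
      · rw [h, one_pow]
      · rw [h]
        exact hc2
    rw [hetcm.mul_pow, hEsq e he, one_mul] at hsq
    have ht1 : t = 1 := by
      have h2 : Odd (orderOf t) := ht.2
      have h3 := orderOf_dvd_of_pow_eq_one hsq
      have h4 : orderOf t = 1 := by
        rcases (Nat.dvd_prime Nat.prime_two).mp h3 with h5 | h5
        · exact h5
        · rw [h5] at h2
          exact absurd h2 (by decide)
      exact orderOf_eq_one_iff.mp h4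
    rw [ht1, mul_one] at hyc ⊢
    rcases hyc with h | h
    · rw [Subgroup.mem_bot]
      exact h
    · exact absurd (h ▸ he) hcE
  · rw [eq_top_iff]
    intro g _
    -- write `g = q * x`
    have hcase : ∃ q ∈ Q, q⁻¹ * g ∈ C := by
      have key : ∀ (q y : G), g * y * g⁻¹ = q * y * q⁻¹ → (q⁻¹ * g) * y = y * (q⁻¹ * g) := by
        intro q y h
        have h1 : g * y = q * y * q⁻¹ * g := by
          rw [← h]
          group
        calc q⁻¹ * g * y = q⁻¹ * (g * y) := by group
          _ = q⁻¹ * (q * y * q⁻¹ * g) := by rw [h1]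
          _ = _ := by group
      rcases conj_of_order_four hn a hoa g with h1 | h1 <;> rcases conj_of_order_four hn b hob g with h2 | h2
      · refine ⟨1, one_mem _, (hCmem _).mpr ⟨key _ _ ?_, key _ _ ?_⟩⟩
        · rw [h1]; group
        · rw [h2]; group
      · refine ⟨a, haQ, (hCmem _).mpr ⟨key _ _ ?_, key _ _ ?_⟩⟩
        · rw [h1]; group
        · rw [h2, haba]
      · refine ⟨b, hbQ, (hCmem _).mpr ⟨key _ _ ?_, key _ _ ?_⟩⟩
        · rw [h1, hbab]
        · rw [h2]; group
      · refine ⟨a * b, mul_mem haQ hbQ, (hCmem _).mpr ⟨key _ _ ?_, key _ _ ?_⟩⟩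
        · rw [h1]
          calc a⁻¹ = a * (b * a * b⁻¹) * a⁻¹ := by rw [hbab]; group
            _ = _ := by group
        · rw [h2]
          calc b⁻¹ = a * b * a⁻¹ := haba.symm
            _ = _ := by group
    obtain ⟨q, hq, hx⟩ := hcase
    obtain ⟨u, t, hxe, huC, _, hu2, hto⟩ := hdec _ hx
    have htA : t ∈ A := ⟨by
      have h1 : t = u⁻¹ * (q⁻¹ * g) := by rw [hxe]; group
      rw [h1]
      exact mul_mem (inv_mem huC) hx, hto⟩
    have hu : u ∈ Q ⊔ (E ⊔ A) := by
      have h1 := hsq_mem u huC hu2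
      have h2 : E ⊔ zpowers c ≤ Q ⊔ (E ⊔ A) :=
        sup_le (le_sup_left.trans le_sup_right) ((zpowers_le.mpr hcQ).trans le_sup_left)
      exact h2 h1
    have hgq : g = q * (u * t) := by
      rw [← hxe]
      group
    rw [hgq]
    exact mul_mem ((le_sup_left : Q ≤ _) hq) (mul_mem hu ((le_sup_right.trans le_sup_right : A ≤ _) htA))

/-- A finite non-abelian group in which every subgroup is normal is the internal direct product of a subgroup isomorphic to the quaternion group of order `8`, an elementary abelian `2`-subgroup and an abelian subgroup of odd order. -/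
theorem result {G : Type*} [Group G] [Finite G] (hna : ¬ IsMulCommutative G) (hn : ∀ H : Subgroup G, H.Normal) : ∃ Q E A : Subgroup G, Nonempty (Q ≃* QuaternionGroup 2) ∧ Cfsg.IsElementaryAbelian 2 E ∧ IsMulCommutative A ∧ Odd (Nat.card A) ∧ E ⊓ A = ⊥ ∧ Q ⊓ (E ⊔ A) = ⊥ ∧ Q ⊔ (E ⊔ A) = ⊤ := by
  exact main hna hn

end Cfsg.Agent.S4211
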