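import Mathlib
import Cfsg.Statements.S4213
import Cfsg.Agent.Lib.H6Frob
import Cfsg.Agent.Lib.H6Inv2
import Cfsg.Agent.Lib.H6Orb4b
import Cfsg.Agent.Lib.SchurZ2
-- import your own Cfsg.Agent.* helpers here

set_option autoImplicit false
open Cfsg

namespace Cfsg.Agent.S4213

universe u

open Subgroup

/-- Frobenius on a coset of a homomorphism's fibre. -/
theorem coset_dvd {G : Type u} [Group G] [Finite G] {A : Type*} [Group A] (φ : G →* A)
    (hab : ∀ a b, φ (a * b) = φ (b * a)) (k m : ℕ) (hcop : Nat.Coprime k m) (hm : m ∣ Nat.card G)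
    (hv : ∀ v : G, v ^ m = 1 → φ v = 1) (c : A) :
    m ∣ Nat.card {x : G // x ^ (k * m) = 1 ∧ φ x = c} := by
  classical
  letI : Fintype G := Fintype.ofFinite G
  have hb : (1 : ℤ) = k * Nat.gcdA k m + m * Nat.gcdB k m := by
    have := Nat.gcd_eq_gcd_ab k m
    rw [hcop] at this
    exact_mod_cast this
  set x := Nat.gcdA k m with hx
  set y := Nat.gcdB k m with hy
  set U := {u : G // u ^ k = 1 ∧ φ u = c} with hU
  letI : Fintype U := Fintype.ofFinite U
  let f : U → ℕ := fun u => Nat.card {v : G // v * u = u * v ∧ v ^ m = 1}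
  have hE : Nat.card {x : G // x ^ (k * m) = 1 ∧ φ x = c} = ∑ u, f u := by
    rw [← Nat.card_sigma]
    symm
    apply Nat.card_congr
    refine Equiv.ofBijective (fun w => ⟨(w.1 : G) * w.2, ?_, ?_⟩) ⟨?_, ?_⟩
    · obtain ⟨⟨u, hu, _⟩, ⟨v, hvc, hvm⟩⟩ := w
      have hc : Commute u v := hvc.symm
      show (u * v) ^ (k * m) = 1
      rw [hc.mul_pow, pow_mul u k m, hu, one_pow, one_mul, mul_comm k m, pow_mul v m k, hvm, one_pow]
    · obtain ⟨⟨u, _, hu⟩, ⟨v, _, hvm⟩⟩ := w
      show φ (u * v) = c
      rw [map_mul, hu, hv v hvm, mul_one]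
    · have key : ∀ (u v : G), u ^ k = 1 → v ^ m = 1 → v * u = u * v → (u * v) ^ ((m : ℤ) * y) = u := by
        intro u v hu hvm hc
        have hc' : Commute u v := hc.symm
        rw [hc'.mul_zpow]
        have h1 : v ^ ((m : ℤ) * y) = 1 := by
          rw [zpow_mul, zpow_natCast, hvm, one_zpow]
        have h2 : u ^ ((m : ℤ) * y) = u := by
          have h3 : (m : ℤ) * y = 1 - k * x := by linarith
          rw [h3, zpow_sub, zpow_one, zpow_mul, zpow_natCast, hu, one_zpow, inv_one, mul_one]
        rw [h1, h2, mul_one]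
      rintro ⟨⟨u, hu, hu2⟩, ⟨v, hvc, hvm⟩⟩ ⟨⟨u', hu', hu2'⟩, ⟨v', hvc', hvm'⟩⟩ heq
      have heq' : u * v = u' * v' := congrArg Subtype.val heq
      have h1 := key u v hu hvm hvc
      have h2 := key u' v' hu' hvm' hvc'
      have huu : u = u' := by rw [← h1, ← h2, heq']
      subst huu
      have hvv : v = v' := mul_left_cancel heq'
      subst hvv
      rfl
    · rintro ⟨g, hg, hgc⟩
      have hcomm : Commute (g ^ ((m : ℤ) * y)) (g ^ ((k : ℤ) * x)) := (Commute.refl g).zpow_zpow _ _
      have hvm : (g ^ ((k : ℤ) * x)) ^ m = 1 := by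
        rw [← zpow_natCast, ← zpow_mul]
        have : (k : ℤ) * x * m = ((k * m : ℕ) : ℤ) * x := by push_cast; ring
        rw [this, zpow_mul, zpow_natCast, hg, one_zpow]
      have hmul : g ^ ((m : ℤ) * y) * g ^ ((k : ℤ) * x) = g := by
        rw [← zpow_add, show (m : ℤ) * y + k * x = 1 by linarith, zpow_one]
      have hu : φ (g ^ ((m : ℤ) * y)) = c := by
        have h1 := congrArg φ hmul
        rw [map_mul, hv _ hvm, mul_one, hgc] at h1
        exact h1
      refine ⟨⟨⟨g ^ ((m : ℤ) * y), ?_, hu⟩, ⟨g ^ ((k : ℤ) * x), hcomm.symm.eq, hvm⟩⟩, ?_⟩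
      · rw [← zpow_natCast, ← zpow_mul]
        have : (m : ℤ) * y * k = ((k * m : ℕ) : ℤ) * y := by push_cast; ring
        rw [this, zpow_mul, zpow_natCast, hg, one_zpow]
      · apply Subtype.ext
        exact hmul
  rw [hE]
  letI act : MulAction G U :=
    { smul := fun g u => ⟨g * u * g⁻¹, by
        have := conj_pow (a := g) (b := (u : G)) (i := k)
        rw [this, u.2.1]
        group, by
        rw [hab, ← mul_assoc, inv_mul_cancel, one_mul]
        exact u.2.2⟩
      one_smul := fun v => Subtype.ext (by change (1 : G) * v * (1 : G)⁻¹ = v; group)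
      mul_smul := fun a b v => Subtype.ext (by
        change a * b * v * (a * b)⁻¹ = a * (b * v * b⁻¹) * a⁻¹
        group) }
  have hfc : ∀ (g : G) u, f (g • u) = f u := by
    intro g u
    apply Nat.card_congr
    refine ⟨fun v => ⟨g⁻¹ * v * g, ?_, ?_⟩, fun v => ⟨g * v * g⁻¹, ?_, ?_⟩, ?_, ?_⟩
    · have h1 : (v : G) * (g * u * g⁻¹) = g * u * g⁻¹ * v := v.2.1
      calc g⁻¹ * v * g * u = g⁻¹ * ((v : G) * (g * u * g⁻¹)) * g := by group
        _ = g⁻¹ * (g * u * g⁻¹ * v) * g := by rw [h1]
        _ = u * (g⁻¹ * v * g) := by group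
    · have := conj_pow (a := g⁻¹) (b := (v : G)) (i := m)
      rw [inv_inv] at this
      rw [this, v.2.2]
      group
    · change g * v * g⁻¹ * (g * u * g⁻¹) = g * u * g⁻¹ * (g * v * g⁻¹)
      have h1 := v.2.1
      calc g * v * g⁻¹ * (g * u * g⁻¹) = g * ((v : G) * u) * g⁻¹ := by group
        _ = g * (u * (v : G)) * g⁻¹ := by rw [h1]
        _ = g * u * g⁻¹ * (g * v * g⁻¹) := by group
    · have := conj_pow (a := g) (b := (v : G)) (i := m)
      rw [this, v.2.2]
      group
    · intro v
      apply Subtype.ext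
      show g * (g⁻¹ * v * g) * g⁻¹ = v
      group
    · intro v
      apply Subtype.ext
      show g⁻¹ * (g * v * g⁻¹) * g = v
      group
  let f' : U → ℤ := fun u => ((f u : ℕ) : ℤ)
  have hsum := Cfsg.Agent.Lib.H6Inv2.dvd_sum_of_orbits (Λ := G) f' (fun g v => by
    simp only [f', hfc g v]) (m : ℤ) (fun u => by
    simp only [f']
    have hst : MulAction.stabilizer G u = Subgroup.centralizer ({(u : G)} : Set G) := by
      ext g
      rw [MulAction.mem_stabilizer_iff, Subgroup.mem_centralizer_singleton_iff]
      constructor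
      · intro h
        have h1 : g * u * g⁻¹ = u := congrArg Subtype.val h
        calc g * u = g * u * g⁻¹ * g := by group
          _ = u * g := by rw [h1]
      · intro h
        apply Subtype.ext
        change g * u * g⁻¹ = u
        rw [h]
        group
    have hcard : Nat.card (MulAction.orbit G u) = (Subgroup.centralizer ({(u : G)} : Set G)).index := by
      rw [Nat.card_coe_set_eq, ← MulAction.index_stabilizer, hst]
    rw [hcard]
    set C := Subgroup.centralizer ({(u : G)} : Set G) with hC
    have hD := Cfsg.Agent.Lib.H6Frob.frobenius C (Nat.gcd m (Nat.card C)) (Nat.gcd_dvd_right _ _)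
    have hD2 : Nat.card {v : C // v ^ (Nat.gcd m (Nat.card C)) = 1} = f u := by
      apply Nat.card_congr
      refine ⟨fun v => ⟨v.1, Subgroup.mem_centralizer_singleton_iff.mp v.1.2, ?_⟩,
        fun v => ⟨⟨v.1, Subgroup.mem_centralizer_singleton_iff.mpr v.2.1⟩, ?_⟩, ?_, ?_⟩
      · have h1 : (v.1 : C) ^ m = 1 :=
          orderOf_dvd_iff_pow_eq_one.mp ((orderOf_dvd_of_pow_eq_one v.2).trans (Nat.gcd_dvd_left _ _))
        exact congrArg Subtype.val h1
      · apply Subtype.ext
        have h1 : (⟨v.1, Subgroup.mem_centralizer_singleton_iff.mpr v.2.1⟩ : C) ^ m = 1 :=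
          Subtype.ext v.2.2
        apply (Subtype.ext_iff.mp (orderOf_dvd_iff_pow_eq_one.mp (Nat.dvd_gcd
          (orderOf_dvd_of_pow_eq_one h1) (orderOf_dvd_natCard _))))
      · intro v
        rfl
      · intro v
        rfl
    rw [hD2] at hD
    have h5 : m ∣ Nat.card G := hm
    rw [← C.card_mul_index] at h5
    have h6 : m ∣ Nat.gcd m (Nat.card C) * C.index := by
      rw [← Nat.gcd_mul_right]
      exact Nat.dvd_gcd (Dvd.intro _ rfl) h5
    have h7 : m ∣ C.index * f u := by
      calc m ∣ Nat.gcd m (Nat.card C) * C.index := h6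
        _ = C.index * Nat.gcd m (Nat.card C) := mul_comm _ _
        _ ∣ C.index * f u := Nat.mul_dvd_mul_left _ hD
    exact_mod_cast h7)
  have h8 : ∑ v, f' v = ((∑ v, f v : ℕ) : ℤ) := by
    rw [Nat.cast_sum]
  rw [h8] at hsum
  exact_mod_cast hsum

theorem arith (p b c L : ℕ) (hp : p.Prime) (hc : 1 ≤ c) (hL : 1 ≤ L)
    (h : p ^ (b + 1) = c * p ^ b + (p - 1) * L) : c = 1 := by
  obtain ⟨q, rfl⟩ : ∃ q, p = q + 1 := ⟨p - 1, by have := hp.pos; omega⟩
  simp only [Nat.add_sub_cancel] at h
  have hq : 1 ≤ q := by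
    have := hp.two_le
    omega
  have hpb : 0 < (q + 1) ^ b := pow_pos (by omega) _
  have h1 : (q + 1) ^ (b + 1) = (q + 1) * (q + 1) ^ b := by ring
  rw [h1] at h
  have hcle : c ≤ q := by
    by_contra hcon
    have h2 : q + 1 ≤ c := by omega
    have h3 : (q + 1) * (q + 1) ^ b ≤ c * (q + 1) ^ b := Nat.mul_le_mul_right _ h2
    have h4 : 0 < q * L := Nat.mul_pos hq hL
    omega
  have h5 : (q + 1 - c) * (q + 1) ^ b = q * L := by
    have h6 : (q + 1 - c) * (q + 1) ^ b = (q + 1) * (q + 1) ^ b - c * (q + 1) ^ b := by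
      rw [Nat.sub_mul]
    rw [h6, h]
    omega
  have hcop : Nat.Coprime q ((q + 1) ^ b) := by
    apply Nat.Coprime.pow_right
    simp
  have h7 : q ∣ q + 1 - c := by
    have h8 : q ∣ (q + 1 - c) * (q + 1) ^ b := ⟨L, h5⟩
    exact hcop.dvd_of_dvd_mul_right h8
  have h9 : q ≤ q + 1 - c := Nat.le_of_dvd (by omega) h7
  omega

theorem main : ∀ (N : ℕ) (G : Type u) [Group G] [Finite G] [Group.IsSolvable G], Nat.card G = N →
    ∀ n, n ∣ Nat.card G → Nat.card {x : G // x ^ n = 1} = n → ∃ H : Subgroup G, (H : Set G) = {x | x ^ n = 1} := by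
  intro N
  induction N using Nat.strong_induction_on with
  | _ N ih =>
    intro G _ _ _ hN n hn hX
    classical
    letI : Fintype G := Fintype.ofFinite G
    by_cases hnt : Nontrivial G
    swap
    · rw [not_nontrivial_iff_subsingleton] at hnt
      refine ⟨⊤, ?_⟩
      ext x
      simp [Subsingleton.elim x 1]
    obtain ⟨M, hMn, hMp⟩ := Cfsg.Agent.Lib.H6Orb4.exists_prime_index G
    haveI := hMn
    set p := M.index with hp
    haveI hpF : Fact p.Prime := ⟨hMp⟩
    have hcard : Nat.card G = p * Nat.card M := by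
      rw [← M.card_mul_index, mul_comm]
    have hrpos : 0 < Nat.card M := Nat.card_pos
    have hlt : Nat.card M < N := by
      rw [← hN, hcard]
      have := hMp.two_le
      nlinarith
    haveI : Group.IsSolvable M := Group.isSolvable_of_isSolvable_injective M.subtype_injective
    have hG0 : 0 < Nat.card G := Nat.card_pos
    have hn0 : n ≠ 0 := by
      rintro rfl
      rw [zero_dvd_iff] at hn
      omega
    by_cases hnM : n ∣ Nat.card M
    · have h1 := Cfsg.Agent.Lib.H6Frob.frobenius M n hnM
      let ι : {x : M // x ^ n = 1} → {x : G // x ^ n = 1} := fun x => ⟨x.1, by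
        have h2 := congrArg Subtype.val x.2
        simpa using h2⟩
      have hι : Function.Injective ι := by
        intro a b hab
        have h2 : (ι a).1 = (ι b).1 := congrArg Subtype.val hab
        exact Subtype.ext (Subtype.ext h2)
      have hle : Nat.card {x : M // x ^ n = 1} ≤ n :=
        (Nat.card_le_card_of_injective ι hι).trans hX.le
      have hpos : 0 < Nat.card {x : M // x ^ n = 1} := by
        rw [Nat.card_pos_iff]
        exact ⟨⟨⟨1, one_pow n⟩⟩, inferInstance⟩
      have heq : Nat.card {x : M // x ^ n = 1} = n := le_antisymm hle (Nat.le_of_dvd hpos h1)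
      obtain ⟨K, hK⟩ := ih _ hlt M rfl n hnM heq
      have hsurj : Function.Surjective ι :=
        (hι.bijective_of_nat_card_le (by rw [hX, heq])).2
      have hall : ∀ x : G, x ^ n = 1 → x ∈ M := by
        intro x hx
        obtain ⟨a, ha⟩ := hsurj ⟨x, hx⟩
        have h2 : ((a.1 : M) : G) = x := congrArg Subtype.val ha
        rw [← h2]
        exact a.1.2
      refine ⟨K.map M.subtype, ?_⟩
      ext x
      constructor
      · rintro ⟨k, hk, rfl⟩
        have h2 : k ∈ (K : Set M) := hk
        rw [hK] at h2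
        have h3 := congrArg Subtype.val (show k ^ n = 1 from h2)
        simpa using h3
      · intro hx
        have hxM := hall x hx
        refine ⟨⟨x, hxM⟩, ?_, rfl⟩
        have h2 : (⟨x, hxM⟩ : M) ∈ (K : Set M) := by
          rw [hK]
          exact Subtype.ext hx
        exact h2
    · -- the main case
      obtain ⟨a, m, hpm, hnam⟩ := Nat.exists_eq_pow_mul_and_not_dvd hn0 p hMp.ne_one
      have hcopm : Nat.Coprime p m := (Nat.Prime.coprime_iff_not_dvd hMp).mpr hpm
      have hm0 : 0 < m := by
        rcases Nat.eq_zero_or_pos m with h0 | h0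
        · rw [h0] at hpm
          exact absurd (dvd_zero p) hpm
        · exact h0
      have ha0 : a ≠ 0 := by
        rintro rfl
        rw [pow_zero, one_mul] at hnam
        apply hnM
        have h1 : m ∣ Nat.card G := hnam ▸ hn
        rw [hcard] at h1
        rw [hnam]
        exact (hcopm.symm).dvd_of_dvd_mul_left h1
      obtain ⟨b, rfl⟩ := Nat.exists_eq_succ_of_ne_zero ha0
      rw [Nat.succ_eq_add_one] at hnam
      set n' := p ^ b * m with hn'
      have hnn' : n = p * n' := by rw [hnam, hn']; ring
      have hn'M : n' ∣ Nat.card M := by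
        have h1 : p * n' ∣ p * Nat.card M := by rw [← hnn', ← hcard]; exact hn
        exact Nat.dvd_of_mul_dvd_mul_left hMp.pos h1
      obtain ⟨t, ht⟩ := hn'M
      have hpt : ¬ p ∣ t := by
        rintro ⟨s, rfl⟩
        apply hnM
        rw [ht, hnn']
        exact ⟨s, by ring⟩
      have hn'pos : 0 < n' := by
        rw [hn']
        exact Nat.mul_pos (pow_pos hMp.pos _) hm0
      -- powers in M
      have hpowM : ∀ x : M, x ^ n = 1 → x ^ n' = 1 := by
        intro x hx
        have h1 : orderOf x ∣ p * n' := by rw [← hnn']; exact orderOf_dvd_of_pow_eq_one hx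
        have h2 : orderOf x ∣ n' * t := by rw [← ht]; exact orderOf_dvd_natCard x
        have h3 : Nat.gcd (p * n') (n' * t) = n' := by
          rw [mul_comm p n', Nat.gcd_mul_left]
          have : Nat.gcd p t = 1 := (Nat.Prime.coprime_iff_not_dvd hMp).mpr hpt
          rw [this, mul_one]
        have h4 := Nat.dvd_gcd h1 h2
        rw [h3] at h4
        exact orderOf_dvd_iff_pow_eq_one.mp h4
      have hX' := Cfsg.Agent.Lib.H6Frob.frobenius M n' ⟨t, ht⟩
      obtain ⟨c, hc⟩ := hX'
      have hc'pos : 0 < Nat.card {x : M // x ^ n' = 1} := by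
        rw [Nat.card_pos_iff]
        exact ⟨⟨⟨1, one_pow n'⟩⟩, inferInstance⟩
      have hc1 : 1 ≤ c := by
        rcases Nat.eq_zero_or_pos c with h0 | h0
        · rw [h0, mul_zero] at hc
          omega
        · exact h0
      -- the fibres
      set φ := QuotientGroup.mk' M with hφ
      have hQcard : Nat.card (G ⧸ M) = p := rfl
      letI : Fintype (G ⧸ M) := Fintype.ofFinite _
      haveI : IsCyclic (G ⧸ M) := isCyclic_of_prime_card hQcard
      have hcomm : ∀ a b : G ⧸ M, a * b = b * a := fun a b =>
        (IsCyclic.commGroup : CommGroup (G ⧸ M)).mul_comm a b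
      have hab : ∀ a b, φ (a * b) = φ (b * a) := by
        intro a b
        rw [map_mul, map_mul, hcomm]
      have hv : ∀ v : G, v ^ m = 1 → φ v = 1 := by
        intro v hv
        have h1 : orderOf (φ v) ∣ m := orderOf_dvd_of_pow_eq_one (by rw [← map_pow, hv, map_one])
        have h2 : orderOf (φ v) ∣ p := by rw [← hQcard]; exact orderOf_dvd_natCard _
        have h3 := Nat.dvd_gcd h2 h1
        rw [hcopm] at h3
        exact orderOf_eq_one_iff.mp (Nat.dvd_one.mp h3)
      set Λ : G ⧸ M → ℕ := fun c => Nat.card {x : G // x ^ (p ^ (b + 1) * m) = 1 ∧ φ x = c} with hΛ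
      -- a subgroup of order p ^ (b + 1)
      have hpdvd : p ^ (b + 1) ∣ Nat.card G := by
        rw [hcard, pow_succ, mul_comm (p ^ b) p]
        exact Nat.mul_dvd_mul_left _ ⟨m * t, by rw [ht, hn']; ring⟩
      obtain ⟨P, hP⟩ := Sylow.exists_subgroup_card_pow_prime (G := G) p hpdvd
      have hPM : ¬ P ≤ M := by
        intro hle
        have h1 : p ^ (b + 1) ∣ Nat.card M := by
          rw [← hP]
          exact Subgroup.card_dvd_of_le hle
        rw [ht, hn', pow_succ, mul_assoc] at h1
        have h2 : p ∣ m * t := Nat.dvd_of_mul_dvd_mul_left (pow_pos hMp.pos b) h1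
        rcases (Nat.Prime.dvd_mul hMp).mp h2 with h3 | h3
        · exact hpm h3
        · exact hpt h3
      obtain ⟨y, hyP, hyM⟩ := Set.not_subset.mp hPM
      have hyφ : φ y ≠ 1 := by
        intro h
        exact hyM ((QuotientGroup.eq_one_iff y).mp h)
      have hypow : y ^ (p ^ (b + 1)) = 1 := by
        have h1 : (⟨y, hyP⟩ : P) ^ (p ^ (b + 1)) = 1 := by
          rw [← hP]
          exact pow_card_eq_one'
        simpa using congrArg Subtype.val h1
      have hLpos : 0 < Λ (φ y) := by
        rw [hΛ, Nat.card_pos_iff]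
        refine ⟨⟨⟨y, ?_, rfl⟩⟩, inferInstance⟩
        rw [pow_mul, hypow, one_pow]
      have hmdvd : m ∣ Λ (φ y) := by
        have hmG : m ∣ Nat.card G := (Dvd.intro_left _ hnam.symm).trans hn
        exact coset_dvd φ hab (p ^ (b + 1)) m (Nat.Coprime.pow_left _ hcopm) hmG hv (φ y)
      obtain ⟨L, hL⟩ := hmdvd
      have hL1 : 1 ≤ L := by
        rcases Nat.eq_zero_or_pos L with h0 | h0
        · rw [h0, mul_zero] at hL
          omega
        · exact h0
      have hypowQ : (φ y) ^ p = 1 := by
        rw [← hQcard]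
        exact pow_card_eq_one'
      have hn1 : 1 < n := by
        rw [hnn']
        have := hMp.two_le
        nlinarith
      have hfib : ∀ d : G ⧸ M, d ≠ 1 → Λ d = Λ (φ y) := by
        intro d hd
        have h1 : d ∈ Submonoid.powers (φ y) := mem_powers_of_prime_card hQcard hyφ
        obtain ⟨i, hi⟩ := h1
        have hi' : (φ y) ^ i = d := hi
        have hpi : ¬ p ∣ i := by
          rintro ⟨s, rfl⟩
          apply hd
          rw [← hi', pow_mul, hypowQ, one_pow]
        obtain ⟨j, hj1, hj2⟩ := Nat.chineseRemainder hcopm i 1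
        have hjp : ¬ p ∣ j := by
          rw [(Nat.ModEq.dvd_iff hj1 (dvd_refl p))]
          exact hpi
        have hjm : Nat.Coprime j m := by
          have := hj2.gcd_eq
          rw [Nat.Coprime, this]
          simp
        have hjn : Nat.Coprime j n := by
          rw [hnam]
          exact Nat.Coprime.mul_right (Nat.Coprime.pow_right _ ((Nat.Prime.coprime_iff_not_dvd hMp).mpr hjp).symm) hjm
        obtain ⟨j', _, hj'⟩ := Nat.exists_mul_mod_eq_one_of_coprime hjn hn1
        have hfix : ∀ x : G, x ^ n = 1 → (x ^ j) ^ j' = x := by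
          intro x hx
          rw [← pow_mul, pow_eq_pow_mod (j * j') hx, hj', pow_one]
        have hfix' : ∀ x : G, x ^ n = 1 → (x ^ j') ^ j = x := by
          intro x hx
          rw [← pow_mul, mul_comm j' j, pow_eq_pow_mod (j * j') hx, hj', pow_one]
        have hjmodp : (φ y) ^ j = d := by
          rw [← hi', pow_eq_pow_mod j hypowQ, hj1, ← pow_eq_pow_mod i hypowQ]
        have hjj : (j * j') % p = 1 % p := by
          have h2 : j * j' ≡ 1 [MOD n] := by
            rw [Nat.ModEq, hj', Nat.mod_eq_of_lt hn1]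
          exact (h2.of_dvd ⟨n', hnn'⟩)
        have hj'modp : d ^ j' = φ y := by
          rw [← hjmodp, ← pow_mul, pow_eq_pow_mod (j * j') hypowQ, hjj, ← pow_eq_pow_mod 1 hypowQ, pow_one]
        show Nat.card _ = Nat.card _
        symm
        apply Nat.card_congr
        rw [← hnam]
        refine ⟨fun x => ⟨(x.1) ^ j, ?_, ?_⟩, fun x => ⟨(x.1) ^ j', ?_, ?_⟩, ?_, ?_⟩
        · rw [← pow_mul, mul_comm, pow_mul, x.2.1, one_pow]
        · rw [map_pow, x.2.2, hjmodp]
        · rw [← pow_mul, mul_comm, pow_mul, x.2.1, one_pow]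
        · rw [map_pow, x.2.2, hj'modp]
        · intro x
          exact Subtype.ext (hfix x.1 x.2.1)
        · intro x
          exact Subtype.ext (hfix' x.1 x.2.1)
      -- the count in `M`
      have hone : Λ 1 = Nat.card {x : M // x ^ n' = 1} := by
        symm
        apply Nat.card_congr
        refine ⟨fun x => ⟨x.1, ?_, ?_⟩, fun x => ⟨⟨x.1, ?_⟩, ?_⟩, ?_, ?_⟩
        · have h2 : (x.1 : G) ^ n' = 1 := by
            have h3 := congrArg Subtype.val x.2
            simpa using h3
          rw [← hnam, hnn', mul_comm, pow_mul, h2, one_pow]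
        · exact (QuotientGroup.eq_one_iff _).mpr x.1.2
        · exact (QuotientGroup.eq_one_iff _).mp x.2.2
        · apply hpowM
          apply Subtype.ext
          have h2 : (x.1 : G) ^ n = 1 := by
            rw [hnam]
            exact x.2.1
          simpa using h2
        · intro x
          rfl
        · intro x
          rfl
      -- the sum
      have hsum : n = Λ 1 + (p - 1) * Λ (φ y) := by
        have h1 : Nat.card {x : G // x ^ n = 1} = (Finset.univ.filter (fun x : G => x ^ n = 1)).card := by
          rw [Nat.card_eq_fintype_card, Fintype.card_subtype]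
        have h2 := Finset.card_eq_sum_card_fiberwise (s := Finset.univ.filter (fun x : G => x ^ n = 1))
          (t := (Finset.univ : Finset (G ⧸ M))) (f := φ) (fun _ _ => Finset.mem_coe.mpr (Finset.mem_univ _))
        have h3 : ∀ d : G ⧸ M, ((Finset.univ.filter (fun x : G => x ^ n = 1)).filter (fun x => φ x = d)).card = Λ d := by
          intro d
          show _ = Nat.card {x : G // x ^ (p ^ (b + 1) * m) = 1 ∧ φ x = d}
          rw [Nat.card_eq_fintype_card, Fintype.card_subtype, Finset.filter_filter, hnam]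
        rw [← hX, h1, h2, Finset.sum_congr rfl (fun d _ => h3 d),
          ← Finset.add_sum_erase _ _ (Finset.mem_univ (1 : G ⧸ M))]
        congr 1
        rw [Finset.sum_congr rfl (fun d hd => hfib d (Finset.ne_of_mem_erase hd)), Finset.sum_const, smul_eq_mul,
          Finset.card_erase_of_mem (Finset.mem_univ _), Finset.card_univ, ← Nat.card_eq_fintype_card, hQcard]
      have hc_eq : c = 1 := by
        apply arith p b c L hMp hc1 hL1
        rw [hone, hc, hL, hnam] at hsum
        have h1 : (p ^ (b + 1)) * m = (c * p ^ b + (p - 1) * L) * m := by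
          rw [hsum, hn']
          ring
        exact Nat.eq_of_mul_eq_mul_right hm0 h1
      have hcardX' : Nat.card {x : M // x ^ n' = 1} = n' := by
        rw [hc, hc_eq, mul_one]
      obtain ⟨K, hK⟩ := ih _ hlt M rfl n' ⟨t, ht⟩ hcardX'
      set H := K.map M.subtype with hH
      have hHmem : ∀ x : G, x ∈ H ↔ x ∈ M ∧ x ^ n' = 1 := by
        intro x
        constructor
        · rintro ⟨k, hk, rfl⟩
          have h2 : k ∈ (K : Set M) := hk
          rw [hK] at h2
          have h3 := congrArg Subtype.val (show k ^ n' = 1 from h2)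
          exact ⟨k.2, by simpa using h3⟩
        · rintro ⟨hxM, hx⟩
          refine ⟨⟨x, hxM⟩, ?_, rfl⟩
          have h2 : (⟨x, hxM⟩ : M) ∈ (K : Set M) := by
            rw [hK]
            exact Subtype.ext hx
          exact h2
      have hHcard : Nat.card H = n' := by
        rw [hH, Subgroup.card_map_of_injective M.subtype_injective, ← hcardX']
        apply Nat.card_congr
        exact Equiv.subtypeEquivRight (fun x => by
          show x ∈ (K : Set M) ↔ _
          rw [hK]
          rfl)
      have hHn : H.Normal := by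
        constructor
        intro x hx g
        obtain ⟨hxM, hx'⟩ := (hHmem x).mp hx
        refine (hHmem _).mpr ⟨hMn.conj_mem _ hxM g, ?_⟩
        rw [conj_pow, hx']
        group
      haveI := hHn
      have hsup1 := Cfsg.Agent.Lib.SchurZ2.card_sup_mul_card_inf M P (by
        rw [Subgroup.normalizer_eq_top_iff.mpr hMn]; exact le_top)
      have hsup2 := Cfsg.Agent.Lib.SchurZ2.card_sup_mul_card_inf H P (by
        rw [Subgroup.normalizer_eq_top_iff.mpr hHn]; exact le_top)
      have hMP : M ⊔ P = ⊤ := by
        have h1 : (M ⊔ P).index ∣ p := Subgroup.index_dvd_of_le le_sup_left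
        rcases (Nat.dvd_prime hMp).mp h1 with h2 | h2
        · exact Subgroup.index_eq_one.mp h2
        · exfalso
          have h3 : Nat.card (M ⊔ P : Subgroup G) * p = Nat.card G := by
            rw [← h2]; exact Subgroup.card_mul_index _
          have h4 : Nat.card (M ⊔ P : Subgroup G) = Nat.card M := by
            rw [hcard, mul_comm] at h3
            exact Nat.eq_of_mul_eq_mul_left hMp.pos h3
          have h5 : M = M ⊔ P := Subgroup.eq_of_le_of_card_ge le_sup_left h4.le
          exact hPM (h5 ▸ le_sup_right)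
      rw [hMP, Subgroup.card_top, hcard, hP] at hsup1
      have hMPcard : Nat.card (M ⊓ P : Subgroup G) = p ^ b := by
        have h1 : Nat.card M * (p * Nat.card (M ⊓ P : Subgroup G)) = Nat.card M * p ^ (b + 1) := by
          rw [← hsup1]; ring
        have h2 := Nat.eq_of_mul_eq_mul_left hrpos h1
        rw [pow_succ, mul_comm (p ^ b) p] at h2
        exact Nat.eq_of_mul_eq_mul_left hMp.pos h2
      have hinf : H ⊓ P = M ⊓ P := by
        apply le_antisymm
        · exact inf_le_inf_right _ (fun x hx => ((hHmem x).mp hx).1)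
        · rintro x ⟨hxM, hxP⟩
          refine ⟨(hHmem x).mpr ⟨hxM, ?_⟩, hxP⟩
          have h1 : (⟨x, ⟨hxM, hxP⟩⟩ : (M ⊓ P : Subgroup G)) ^ (p ^ b) = 1 := by
            rw [← hMPcard]
            exact pow_card_eq_one'
          have h2 : x ^ (p ^ b) = 1 := by
            simpa using congrArg Subtype.val h1
          rw [hn', pow_mul, h2, one_pow]
      rw [hinf, hMPcard, hHcard, hP] at hsup2
      have hTcard : Nat.card (H ⊔ P : Subgroup G) = n := by
        have h1 : Nat.card (H ⊔ P : Subgroup G) * p ^ b = n * p ^ b := by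
          rw [hsup2, hnam, hn']
          ring
        exact Nat.eq_of_mul_eq_mul_right (pow_pos hMp.pos b) h1
      refine ⟨H ⊔ P, ?_⟩
      have hTpow : ∀ x : (H ⊔ P : Subgroup G), (x : G) ^ n = 1 := by
        intro x
        have h1 : x ^ n = 1 := by
          rw [← hTcard]
          exact pow_card_eq_one'
        simpa using congrArg Subtype.val h1
      let ι : (H ⊔ P : Subgroup G) → {x : G // x ^ n = 1} := fun x => ⟨x, hTpow x⟩
      have hι : Function.Injective ι := by
        intro a b hab
        have h2 : (ι a).1 = (ι b).1 := congrArg Subtype.val hab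
        exact Subtype.ext h2
      have hsurj : Function.Surjective ι :=
        (hι.bijective_of_nat_card_le (by rw [hX, hTcard])).2
      ext x
      constructor
      · intro hx
        exact hTpow ⟨x, hx⟩
      · intro hx
        obtain ⟨a, ha⟩ := hsurj ⟨x, hx⟩
        have h2 : (a : G) = x := congrArg Subtype.val ha
        rw [← h2]
        exact a.2

/-- If `G` is a finite solvable group and `n` divides the order of `G` and exactly `n` elements `x` of `G` satisfy `x^n = 1`, then these elements form a normal subgroup. -/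
theorem result {G : Type*} [Group G] [Finite G] [Group.IsSolvable G] (n : ℕ) (hn : n ∣ Nat.card G) (hcount : Nat.card {x : G // x ^ n = 1} = n) : ∃ H : Subgroup G, H.Normal ∧ (H : Set G) = {x : G | x ^ n = 1} := by
  obtain ⟨H, hH⟩ := main _ G rfl n hn hcount
  refine ⟨H, ?_, hH⟩
  constructor
  intro x hx g
  have h1 : x ∈ (H : Set G) := hx
  rw [hH] at h1
  have h2 : g * x * g⁻¹ ∈ ({x | x ^ n = 1} : Set G) := by
    show (g * x * g⁻¹) ^ n = 1
    rw [conj_pow, show x ^ n = 1 from h1]
    group
  rw [← hH] at h2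
  exact h2

end Cfsg.Agent.S4213
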