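import Mathlib
import Cfsg.Statements.S4214
import Cfsg.Agent.Lib.H6Fac
import Cfsg.Agent.Lib.Hall
import Cfsg.Agent.Lib.SchurZ2
import Cfsg.Agent.Lib.SubnormalJoin
-- import your own Cfsg.Agent.* helpers here

set_option autoImplicit false
open Cfsg

namespace Cfsg.Agent.S4214

universe u

open Subgroup Cfsg.Agent.Lib.H6Fac
open scoped Pointwise

def Chiefp {G : Type*} [Group G] (K L : Subgroup G) : Prop :=
  K.Normal ∧ L.Normal ∧ K < L ∧ (∀ M : Subgroup G, M.Normal → K ≤ M → M ≤ L → M = K ∨ M = L)

theorem chief_lift {G : Type*} [Group G] (V : Subgroup G) [V.Normal] {K L : Subgroup (G ⧸ V)} (h : Chiefp K L) :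
    Chiefp (K.comap (QuotientGroup.mk' V)) (L.comap (QuotientGroup.mk' V)) := by
  obtain ⟨hK, hL, hlt, hmin⟩ := h
  have hsurj : Function.Surjective (QuotientGroup.mk' V) := QuotientGroup.mk'_surjective V
  refine ⟨hK.comap _, hL.comap _, ?_, ?_⟩
  · refine lt_of_le_of_ne (Subgroup.comap_mono hlt.le) ?_
    intro he
    apply hlt.ne
    have := congrArg (Subgroup.map (QuotientGroup.mk' V)) he
    rwa [Subgroup.map_comap_eq_self_of_surjective hsurj, Subgroup.map_comap_eq_self_of_surjective hsurj] at this
  · intro M hM hKM hML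
    have hV : V ≤ M := by
      intro v hv
      apply hKM
      show (QuotientGroup.mk' V) v ∈ K
      have : (QuotientGroup.mk' V) v = 1 := (QuotientGroup.eq_one_iff v).mpr hv
      rw [this]
      exact one_mem _
    have hcm : (M.map (QuotientGroup.mk' V)).comap (QuotientGroup.mk' V) = M := by
      apply Subgroup.comap_map_eq_self
      rw [QuotientGroup.ker_mk']
      exact hV
    have h1 : K ≤ M.map (QuotientGroup.mk' V) := by
      have := Subgroup.map_mono (f := QuotientGroup.mk' V) hKM
      rwa [Subgroup.map_comap_eq_self_of_surjective hsurj] at this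
    have h2 : M.map (QuotientGroup.mk' V) ≤ L := by
      have := Subgroup.map_mono (f := QuotientGroup.mk' V) hML
      rwa [Subgroup.map_comap_eq_self_of_surjective hsurj] at this
    rcases hmin (M.map (QuotientGroup.mk' V)) (hM.map _ hsurj) h1 h2 with h | h
    · left
      rw [← h, hcm]
    · right
      rw [← h, hcm]

theorem relIndex_lift {G : Type*} [Group G] (V : Subgroup G) [V.Normal] (K L : Subgroup (G ⧸ V)) :
    (K.comap (QuotientGroup.mk' V)).relIndex (L.comap (QuotientGroup.mk' V)) = K.relIndex L := by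
  rw [Subgroup.relIndex_comap, Subgroup.map_comap_eq_self_of_surjective (QuotientGroup.mk'_surjective V)]

theorem card_comap_mk {G : Type*} [Group G] [Finite G] (V : Subgroup G) [V.Normal] (K : Subgroup (G ⧸ V)) :
    Nat.card (K.comap (QuotientGroup.mk' V)) = Nat.card K * Nat.card V := by
  have h1 := (K.comap (QuotientGroup.mk' V)).card_mul_index
  rw [Subgroup.index_comap_of_surjective _ (QuotientGroup.mk'_surjective V)] at h1
  have h2 := K.card_mul_index
  have h3 : Nat.card G = Nat.card (G ⧸ V) * Nat.card V := Subgroup.card_eq_card_quotient_mul_card_subgroup V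
  have hpos : 0 < K.index := Nat.pos_of_ne_zero Subgroup.index_ne_zero_of_finite
  apply Nat.eq_of_mul_eq_mul_right hpos
  rw [h1, h3, ← h2]
  ring

theorem card_map_mk' {G : Type*} [Group G] [Finite G] (V A : Subgroup G) [V.Normal] :
    Nat.card (A.map (QuotientGroup.mk' V)) * Nat.card (V ⊓ A : Subgroup G) = Nat.card A := by
  set ψ : A →* G ⧸ V := (QuotientGroup.mk' V).comp A.subtype with hψ
  have h1 : ψ.range = A.map (QuotientGroup.mk' V) := by
    rw [hψ, MonoidHom.range_comp, Subgroup.range_subtype]
  have h2 : Nat.card ψ.ker = Nat.card (V ⊓ A : Subgroup G) := by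
    apply Nat.card_congr
    refine ⟨fun k => ⟨(k.1 : G), ?_, k.1.2⟩, fun x => ⟨⟨x.1, x.2.2⟩, ?_⟩, ?_, ?_⟩
    · have := k.2
      rw [MonoidHom.mem_ker] at this
      exact (QuotientGroup.eq_one_iff _).mp this
    · rw [MonoidHom.mem_ker]
      exact (QuotientGroup.eq_one_iff _).mpr x.2.1
    · intro k
      rfl
    · intro k
      rfl
  rw [← h1, ← h2, mul_comm, ← Subgroup.index_ker]
  exact ψ.ker.card_mul_index

/-- The predicate on factors. -/
def Good {G : Type*} [Group G] (m f : ℕ) : Prop :=
  (∃ q e : ℕ, q.Prime ∧ f = q ^ e) ∧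
    (∃ K L : Subgroup G, Chiefp K L ∧ f ∣ K.relIndex L) ∧ (∃ q : ℕ, q.Prime ∧ q ∣ m ∧ f ≡ 1 [MOD q])

/-- The orbit count for the conjugates of `H` under `V`. -/
theorem orbit_count {G : Type*} [Group G] [Finite G] (V H : Subgroup G) [hV : V.Normal] (hinf : V ⊓ H = ⊥) :
    ∃ Ω : Set (Subgroup G), (∀ H', H' ∈ Ω ↔ ∃ v ∈ V, H' = H.map (MulAut.conj v).toMonoidHom) ∧
      Nat.card Ω * Nat.card {v : V // ∀ h ∈ H, h * (v : G) * h⁻¹ = v} = Nat.card V := by
  classical
  let f : V →* MulAut G := (MulAut.conj (G := G)).comp V.subtype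
  letI : MulAction V (Subgroup G) := MulAction.compHom (Subgroup G) f
  have hsmul : ∀ (v : V) (K : Subgroup G), v • K = K.map (MulAut.conj (v : G)).toMonoidHom := fun _ _ => rfl
  refine ⟨MulAction.orbit V H, ?_, ?_⟩
  · intro H'
    constructor
    · rintro ⟨v, rfl⟩
      exact ⟨v, v.2, hsmul v H⟩
    · rintro ⟨v, hv, rfl⟩
      exact ⟨⟨v, hv⟩, hsmul _ H⟩
  · have h1 : Nat.card (MulAction.stabilizer V H) * Nat.card (MulAction.orbit V H) = Nat.card V := by
      rw [Nat.card_coe_set_eq, ← MulAction.index_stabilizer]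
      exact (MulAction.stabilizer V H).card_mul_index
    have h2 : Nat.card (MulAction.stabilizer V H) = Nat.card {v : V // ∀ h ∈ H, h * (v : G) * h⁻¹ = v} := by
      apply Nat.card_congr
      apply Equiv.subtypeEquivRight
      intro v
      rw [MulAction.mem_stabilizer_iff, hsmul]
      constructor
      · intro hv h hh
        have h3 : (v : G) * h * (v : G)⁻¹ ∈ H := by
          have h4 : (v : G) * h * (v : G)⁻¹ ∈ H.map (MulAut.conj (v : G)).toMonoidHom := ⟨h, hh, rfl⟩
          rwa [hv] at h4
        have h5 : (v : G) * h * (v : G)⁻¹ * h⁻¹ ∈ V ⊓ H := by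
          constructor
          · have h6 : h * (v : G)⁻¹ * h⁻¹ ∈ V := hV.conj_mem _ (V.inv_mem v.2) h
            have : (v : G) * h * (v : G)⁻¹ * h⁻¹ = v * (h * (v : G)⁻¹ * h⁻¹) := by group
            rw [this]
            exact V.mul_mem v.2 h6
          · exact H.mul_mem h3 (H.inv_mem hh)
        rw [hinf, Subgroup.mem_bot] at h5
        have h7 : (v : G) * h * (v : G)⁻¹ = h := by
          have := mul_inv_eq_one.mp h5
          exact this
        calc h * (v : G) * h⁻¹ = h * ((v : G) * h⁻¹ * (v : G)⁻¹) * v := by group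
          _ = h * ((v : G) * h * (v : G)⁻¹)⁻¹ * v := by group
          _ = h * h⁻¹ * v := by rw [h7]
          _ = v := by group
      · intro hv
        apply le_antisymm
        · rintro _ ⟨h, hh, rfl⟩
          have h3 := hv h hh
          have : (MulAut.conj (v : G)).toMonoidHom h = h := by
            show (v : G) * h * (v : G)⁻¹ = h
            have h4 : h * (v : G) = v * h := by
              calc h * (v : G) = h * (v : G) * h⁻¹ * h := by group
                _ = v * h := by rw [h3]
            rw [← h4]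
            group
          rw [this]
          exact hh
        · intro h hh
          refine ⟨h, hh, ?_⟩
          have h3 := hv h hh
          show (v : G) * h * (v : G)⁻¹ = h
          have h4 : h * (v : G) = v * h := by
            calc h * (v : G) = h * (v : G) * h⁻¹ * h := by group
              _ = v * h := by rw [h3]
          rw [← h4]
          group
    rw [← h2, ← h1, mul_comm]

theorem main : ∀ (k : ℕ) (G : Type u) [Group G] [Finite G] [Group.IsSolvable G] (m n : ℕ),
    Nat.card G = k → Nat.card G = m * n → m.Coprime n →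
    ∃ l : List ℕ, Nat.card {H : Subgroup G // Nat.card H = m} = l.prod ∧ ∀ f ∈ l, Good (G := G) m f := by
  intro k
  induction k using Nat.strong_induction_on with
  | _ k ih =>
    intro G _ _ _ m n hk hmn hcop
    classical
    have hGpos : 0 < Nat.card G := Nat.card_pos
    have hm0 : 0 < m := by
      rcases Nat.eq_zero_or_pos m with h0 | h0
      · rw [h0, zero_mul] at hmn; omega
      · exact h0
    by_cases hnt : Nontrivial G
    swap
    · rw [not_nontrivial_iff_subsingleton] at hnt
      have h1 : Nat.card G = 1 := Nat.card_unique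
      have hm : m = 1 := by
        rw [hmn] at h1
        exact Nat.eq_one_of_mul_eq_one_right h1
      refine ⟨[], ?_, by simp⟩
      subst hm
      simp only [List.prod_nil]
      rw [Nat.card_eq_one_iff_unique]
      refine ⟨⟨fun a b => Subtype.ext ?_⟩, ⟨⟨⊥, Subgroup.card_bot⟩⟩⟩
      rw [Subgroup.eq_bot_of_card_eq _ a.2, Subgroup.eq_bot_of_card_eq _ b.2]
    let 𝒮 : Set (Subgroup G) := {M | M.Normal ∧ M ≠ ⊥}
    obtain ⟨V, hVm⟩ := 𝒮.toFinite.exists_minimal ⟨⊤, normal_top, top_ne_bot⟩
    obtain ⟨hVn, hVb⟩ := hVm.prop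
    haveI := hVn
    have hmin : ∀ M : Subgroup G, M.Normal → M ≤ V → M = ⊥ ∨ M = V := by
      intro M hM hle
      by_cases hMb : M = ⊥
      · exact Or.inl hMb
      · exact Or.inr (le_antisymm hle (hVm.le_of_le ⟨hM, hMb⟩ hle))
    obtain ⟨hVc, q, hq, hqpow⟩ := Cfsg.Agent.Lib.FitSolv.minimal_normal_elementary V hVb hmin
    haveI : Fact q.Prime := ⟨hq⟩
    have hVp : IsPGroup q V := by
      intro x
      refine ⟨1, ?_⟩
      apply Subtype.ext
      rw [pow_one]
      exact hqpow x x.2
    obtain ⟨a, ha⟩ := IsPGroup.iff_card.mp hVp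
    have hv1 : 1 < Nat.card V := (Subgroup.one_lt_card_iff_ne_bot V).mpr hVb
    have hsplit : Nat.card G = Nat.card (G ⧸ V) * Nat.card V :=
      Subgroup.card_eq_card_quotient_mul_card_subgroup V
    have hlt : Nat.card (G ⧸ V) < k := by
      rw [← hk, hsplit]
      have : 0 < Nat.card (G ⧸ V) := Nat.card_pos
      nlinarith
    have hsup : ∀ H : Subgroup G, Nat.card (V ⊔ H : Subgroup G) * Nat.card (V ⊓ H : Subgroup G) = Nat.card V * Nat.card H :=
      fun H => Cfsg.Agent.Lib.SchurZ2.card_sup_mul_card_inf V H (by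
        rw [Subgroup.normalizer_eq_top_iff.mpr hVn]; exact le_top)
    obtain ⟨H₀, hH₀⟩ := Cfsg.Agent.Lib.Hall.hall_exists _ G m n rfl hmn hcop
    have hmksurj : Function.Surjective (QuotientGroup.mk' V) := QuotientGroup.mk'_surjective V
    by_cases hqm : q ∣ m
    · have hqn : ¬ q ∣ n := fun h => by
        have := Nat.dvd_gcd hqm h
        rw [hcop] at this
        exact hq.one_lt.ne' (Nat.dvd_one.mp this)
      have hcopVn : Nat.Coprime (Nat.card V) n := by
        rw [ha]
        exact Nat.Coprime.pow_left _ ((Nat.Prime.coprime_iff_not_dvd hq).mpr hqn)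
      have hVle : ∀ H : Subgroup G, Nat.card H = m → V ≤ H := by
        intro H hH
        have h1 := hsup H
        obtain ⟨s, hs⟩ : Nat.card (V ⊓ H : Subgroup G) ∣ Nat.card V := Subgroup.card_dvd_of_le inf_le_left
        have htpos : 0 < Nat.card (V ⊓ H : Subgroup G) := Nat.card_pos
        have h3 : Nat.card (V ⊔ H : Subgroup G) = s * m := by
          apply Nat.eq_of_mul_eq_mul_right htpos
          rw [h1, hH]
          nth_rewrite 1 [hs]
          ring
        have h4 : s * m ∣ m * n := by
          rw [← h3, ← hmn]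
          exact Subgroup.card_subgroup_dvd_card _
        rw [mul_comm s m] at h4
        have h5 : s ∣ n := Nat.dvd_of_mul_dvd_mul_left hm0 h4
        have h6 : s ∣ Nat.card V := ⟨Nat.card (V ⊓ H : Subgroup G), by rw [hs]; ring⟩
        have h7 : s = 1 := Nat.eq_one_of_dvd_coprimes hcopVn h6 h5
        rw [h7, mul_one] at hs
        have h8 : V ⊓ H = V := Subgroup.eq_of_le_of_card_ge inf_le_left hs.le
        exact inf_eq_left.mp h8
      obtain ⟨m', hm'⟩ : Nat.card V ∣ m := by
        rw [← hH₀]
        exact Subgroup.card_dvd_of_le (hVle H₀ hH₀)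
      have hc' : Nat.card (G ⧸ V) = m' * n := by
        apply Nat.eq_of_mul_eq_mul_right (show 0 < Nat.card V by omega)
        rw [← hsplit, hmn, hm']
        ring
      have hcop' : m'.Coprime n := Nat.Coprime.coprime_dvd_left ⟨Nat.card V, by rw [hm']; ring⟩ hcop
      obtain ⟨l, hl, hlf⟩ := ih _ hlt (G ⧸ V) m' n rfl hc' hcop'
      refine ⟨l, ?_, ?_⟩
      · rw [← hl]
        apply Nat.card_congr
        refine ⟨fun H => ⟨H.1.map (QuotientGroup.mk' V), ?_⟩, fun K => ⟨K.1.comap (QuotientGroup.mk' V), ?_⟩, ?_, ?_⟩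
        · have h1 := card_map_mk' V H.1
          rw [inf_eq_left.mpr (hVle H.1 H.2), H.2] at h1
          have h2 := h1.trans hm'
          rw [mul_comm (Nat.card V) m'] at h2
          exact Nat.eq_of_mul_eq_mul_right (show 0 < Nat.card V by omega) h2
        · refine (card_comap_mk V K.1).trans ?_
          rw [K.2, mul_comm]
          exact hm'.symm
        · intro H
          apply Subtype.ext
          apply Subgroup.comap_map_eq_self
          rw [QuotientGroup.ker_mk']
          exact hVle H.1 H.2
        · intro K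
          apply Subtype.ext
          exact Subgroup.map_comap_eq_self_of_surjective hmksurj _
      · intro f hf
        obtain ⟨h1, ⟨K, L, hch, hd⟩, ⟨r, hr, hrm, hrf⟩⟩ := hlf f hf
        refine ⟨h1, ⟨_, _, chief_lift V hch, by rw [relIndex_lift]; exact hd⟩, ⟨r, hr, ?_, hrf⟩⟩
        rw [hm']
        exact hrm.mul_left _
    · -- the main case
      have hcopVm : Nat.Coprime (Nat.card V) m := by
        rw [ha]
        exact Nat.Coprime.pow_left _ ((Nat.Prime.coprime_iff_not_dvd hq).mpr hqm)
      obtain ⟨n', hn'⟩ : Nat.card V ∣ n := by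
        apply hcopVm.dvd_of_dvd_mul_left
        rw [← hmn]
        exact Subgroup.card_subgroup_dvd_card V
      have hc' : Nat.card (G ⧸ V) = m * n' := by
        apply Nat.eq_of_mul_eq_mul_right (show 0 < Nat.card V by omega)
        rw [← hsplit, hmn, hn']
        ring
      have hcop' : m.Coprime n' := Nat.Coprime.coprime_dvd_right ⟨Nat.card V, by rw [hn']; ring⟩ hcop
      obtain ⟨l', hl', hlf'⟩ := ih _ hlt (G ⧸ V) m n' rfl hc' hcop'
      have hinf : ∀ H : Subgroup G, Nat.card H = m → V ⊓ H = ⊥ := by
        intro H hH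
        apply Cfsg.Agent.Lib.SchurZ.inf_eq_bot_of_coprime
        rw [hH]
        exact hcopVm
      have hcardmap : ∀ H : Subgroup G, Nat.card H = m → Nat.card (H.map (QuotientGroup.mk' V)) = m := by
        intro H hH
        have h1 := card_map_mk' V H
        rw [hinf H hH, Subgroup.card_bot, mul_one, hH] at h1
        exact h1
      -- the action
      letI : CommGroup V := { (inferInstance : Group V) with
        mul_comm := fun a b => Subtype.ext (hVc a a.2 b b.2) }
      let ρ : H₀ →* MulAut V := (MulAut.conjNormal (H := V)).comp H₀.subtype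
      haveI : Group.IsSolvable H₀ := Group.isSolvable_of_isSolvable_injective H₀.subtype_injective
      have hqH : ¬ q ∣ Nat.card H₀ := by rw [hH₀]; exact hqm
      obtain ⟨l'', hl'', hlf''⟩ := Cfsg.Agent.Lib.H6Fac.fac q hqH _ V ρ rfl hVp
      have hfix : Nat.card (fixS ρ) = Nat.card {v : V // ∀ h ∈ H₀, h * (v : G) * h⁻¹ = v} := by
        apply Nat.card_congr
        apply Equiv.subtypeEquivRight
        intro v
        constructor
        · intro hv h hh
          have h1 : ρ ⟨h, hh⟩ v = v := hv ⟨h, hh⟩
          have h2 := congrArg Subtype.val h1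
          simpa [ρ, MulAut.conjNormal_apply] using h2
        · intro hv h
          apply Subtype.ext
          have h2 := hv h h.2
          simpa [ρ, MulAut.conjNormal_apply] using h2
      have hconjC : ∀ H : Subgroup G, Nat.card H = m →
          Nat.card {v : V // ∀ h ∈ H, h * (v : G) * h⁻¹ = v} = Nat.card (fixS ρ) := by
        intro H hH
        obtain ⟨g, hg⟩ := Cfsg.Agent.Lib.Hall.hall_conj _ G m n rfl hmn hcop H₀ H hH₀ (by rw [hH]; exact hcop)
        have hHe : H = H₀.map (MulAut.conj g).toMonoidHom := by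
          apply Subgroup.eq_of_le_of_card_ge hg
          rw [Subgroup.card_map_of_injective (MulEquiv.injective _), hH₀, hH]
        rw [hfix]
        apply Nat.card_congr
        refine ⟨fun v => ⟨⟨g⁻¹ * v.1 * g, ?_⟩, ?_⟩, fun v => ⟨⟨g * v.1 * g⁻¹, hVn.conj_mem _ v.1.2 g⟩, ?_⟩, ?_, ?_⟩
        · have := hVn.conj_mem _ v.1.2 g⁻¹
          rwa [inv_inv] at this
        · intro h hh
          have h1 : g * h * g⁻¹ ∈ H := by
            rw [hHe]
            exact ⟨h, hh, rfl⟩
          have h2 := v.2 _ h1
          show h * (g⁻¹ * v.1 * g) * h⁻¹ = g⁻¹ * v.1 * g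
          calc h * (g⁻¹ * v.1 * g) * h⁻¹ = g⁻¹ * ((g * h * g⁻¹) * (v.1 : G) * (g * h * g⁻¹)⁻¹) * g := by group
            _ = _ := by rw [h2]
        · intro h hh
          have h1 : h ∈ H := hh
          rw [hHe] at h1
          obtain ⟨h', hh', rfl⟩ := h1
          have h2 := v.2 h' hh'
          show (g * h' * g⁻¹) * (g * v.1 * g⁻¹) * (g * h' * g⁻¹)⁻¹ = g * v.1 * g⁻¹
          calc (g * h' * g⁻¹) * (g * v.1 * g⁻¹) * (g * h' * g⁻¹)⁻¹ = g * (h' * (v.1 : G) * h'⁻¹) * g⁻¹ := by group
            _ = _ := by rw [h2]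
        · intro v
          apply Subtype.ext
          apply Subtype.ext
          show g * (g⁻¹ * v.1 * g) * g⁻¹ = v.1
          group
        · intro v
          apply Subtype.ext
          apply Subtype.ext
          show g⁻¹ * (g * v.1 * g⁻¹) * g = v.1
          group
      have hc₀pos : 0 < Nat.card (fixS ρ) := Nat.card_pos
      -- the projection
      let π : {H : Subgroup G // Nat.card H = m} → {K : Subgroup (G ⧸ V) // Nat.card K = m} :=
        fun x => ⟨x.1.map (QuotientGroup.mk' V), hcardmap x.1 x.2⟩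
      have hπs : Function.Surjective π := by
        rintro ⟨K, hK⟩
        set L := K.comap (QuotientGroup.mk' V) with hL
        have hLc : Nat.card L = m * Nat.card V := by
          rw [hL, card_comap_mk, hK]
        haveI : Group.IsSolvable L := Group.isSolvable_of_isSolvable_injective L.subtype_injective
        have hcop2 : m.Coprime (Nat.card V) := hcopVm.symm
        obtain ⟨H₁, hH₁⟩ := Cfsg.Agent.Lib.Hall.hall_exists _ L m (Nat.card V) rfl hLc hcop2
        have hH₂ : Nat.card (H₁.map L.subtype) = m := by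
          rw [Subgroup.card_map_of_injective L.subtype_injective, hH₁]
        refine ⟨⟨H₁.map L.subtype, hH₂⟩, Subtype.ext ?_⟩
        show (H₁.map L.subtype).map (QuotientGroup.mk' V) = K
        apply Subgroup.eq_of_le_of_card_ge
        · rintro _ ⟨_, ⟨x, _, rfl⟩, rfl⟩
          exact x.2
        · rw [hcardmap _ hH₂, hK]
      have hfiber : ∀ x : {H : Subgroup G // Nat.card H = m}, Nat.card {y // π y = π x} = l''.prod := by
        intro x
        obtain ⟨H, hH⟩ := x
        obtain ⟨Ω, hΩ, hΩc⟩ := orbit_count V H (hinf H hH)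
        rw [hconjC H hH, hl''] at hΩc
        have hΩ2 : Nat.card Ω = l''.prod := Nat.eq_of_mul_eq_mul_right hc₀pos hΩc
        rw [← hΩ2]
        apply Nat.card_congr
        refine Equiv.ofBijective (fun y => ⟨y.1.1, ?_⟩) ⟨?_, ?_⟩
        · -- a subgroup with the same image is a conjugate
          obtain ⟨⟨H', hH'⟩, hy⟩ := y
          have hyim : H'.map (QuotientGroup.mk' V) = H.map (QuotientGroup.mk' V) := congrArg Subtype.val hy
          rw [hΩ]
          set L := V ⊔ H with hL
          have hH'L : H' ≤ L := by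
            intro z hz
            have h1 : (QuotientGroup.mk' V) z ∈ H.map (QuotientGroup.mk' V) := by
              rw [← hyim]
              exact ⟨z, hz, rfl⟩
            obtain ⟨h, hh, he⟩ := h1
            have h2 : h⁻¹ * z ∈ V := QuotientGroup.eq.mp he
            have h4 : z = h * (h⁻¹ * z) := by group
            rw [h4]
            exact L.mul_mem ((le_sup_right : H ≤ L) hh) ((le_sup_left : V ≤ L) h2)
          have hHL : H ≤ L := le_sup_right
          have hLc : Nat.card L = m * Nat.card V := by
            have h1 := hsup H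
            rw [hinf H hH, Subgroup.card_bot, mul_one, hH, mul_comm] at h1
            exact h1
          haveI : Group.IsSolvable L := Group.isSolvable_of_isSolvable_injective L.subtype_injective
          have hc1 : Nat.card (H.subgroupOf L) = m := by
            rw [← hH]
            exact Nat.card_congr (Subgroup.subgroupOfEquivOfLe hHL).toEquiv
          have hc2 : Nat.card (H'.subgroupOf L) = m := by
            rw [← hH']
            exact Nat.card_congr (Subgroup.subgroupOfEquivOfLe hH'L).toEquiv
          obtain ⟨g, hg⟩ := Cfsg.Agent.Lib.Hall.hall_conj _ L m (Nat.card V) rfl hLc hcopVm.symm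
            (H.subgroupOf L) (H'.subgroupOf L) hc1 (by rw [hc2]; exact hcopVm.symm)
          have hle : H' ≤ H.map (MulAut.conj (g : G)).toMonoidHom := by
            intro z hz
            have h1 : (⟨z, hH'L hz⟩ : L) ∈ H'.subgroupOf L := hz
            obtain ⟨h₁, hh₁, he⟩ := hg h1
            refine ⟨h₁, hh₁, ?_⟩
            exact congrArg Subtype.val he
          have heq : H' = H.map (MulAut.conj (g : G)).toMonoidHom := by
            apply Subgroup.eq_of_le_of_card_ge hle
            rw [Subgroup.card_map_of_injective (MulEquiv.injective _), hH, hH']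
          obtain ⟨v₀, hv₀, h₀, hh₀, hgv⟩ := Subgroup.mem_sup_of_normal_left.mp g.2
          refine ⟨v₀, hv₀, ?_⟩
          show H' = _
          refine heq.trans ?_
          rw [← hgv]
          show Cfsg.Agent.Lib.SubnormalJoin.cj (v₀ * h₀) H = Cfsg.Agent.Lib.SubnormalJoin.cj v₀ H
          rw [Cfsg.Agent.Lib.SubnormalJoin.cj_mul, Cfsg.Agent.Lib.SubnormalJoin.cj_eq_self hh₀]
        · rintro ⟨⟨H₁, hH₁⟩, _⟩ ⟨⟨H₂, hH₂⟩, _⟩ he
          have h1 : H₁ = H₂ := congrArg (fun ω : Ω => (ω : Subgroup G)) he
          subst h1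
          rfl
        · rintro ⟨ω, hω⟩
          obtain ⟨v, hv, rfl⟩ := (hΩ ω).mp hω
          have hcc : Nat.card (H.map (MulAut.conj v).toMonoidHom) = m := by
            rw [Subgroup.card_map_of_injective (MulEquiv.injective _), hH]
          have hmkv : (QuotientGroup.mk' V) v = 1 := (QuotientGroup.eq_one_iff v).mpr hv
          have hmkc : ∀ h, (QuotientGroup.mk' V) (v * h * v⁻¹) = (QuotientGroup.mk' V) h := by
            intro h
            rw [map_mul, map_mul, map_inv, hmkv]
            simp
          refine ⟨⟨⟨_, hcc⟩, Subtype.ext ?_⟩, rfl⟩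
          show (H.map (MulAut.conj v).toMonoidHom).map (QuotientGroup.mk' V) = H.map (QuotientGroup.mk' V)
          apply le_antisymm
          · rintro _ ⟨_, ⟨h, hh, rfl⟩, rfl⟩
            exact ⟨h, hh, (hmkc h).symm⟩
          · rintro _ ⟨h, hh, rfl⟩
            exact ⟨_, ⟨h, hh, rfl⟩, hmkc h⟩
      letI : Fintype {K : Subgroup (G ⧸ V) // Nat.card K = m} := Fintype.ofFinite _
      have hcount : Nat.card {H : Subgroup G // Nat.card H = m} = l'.prod * l''.prod := by
        have h1 : Nat.card {H : Subgroup G // Nat.card H = m} =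
            ∑ y : {K : Subgroup (G ⧸ V) // Nat.card K = m}, Nat.card {x // π x = y} := by
          rw [← Nat.card_sigma]
          exact Nat.card_congr (Equiv.sigmaFiberEquiv π).symm
        have h2 : ∀ y : {K : Subgroup (G ⧸ V) // Nat.card K = m}, Nat.card {x // π x = y} = l''.prod := by
          intro y
          obtain ⟨x, rfl⟩ := hπs y
          exact hfiber x
        rw [h1, Finset.sum_congr rfl (fun y _ => h2 y), Finset.sum_const, smul_eq_mul, Finset.card_univ,
          ← Nat.card_eq_fintype_card, hl']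
      refine ⟨l' ++ l'', by rw [hcount, List.prod_append], ?_⟩
      intro f hf
      rcases List.mem_append.mp hf with hf | hf
      · obtain ⟨h1, ⟨K, L, hch, hd⟩, ⟨r, hr, hrm, hrf⟩⟩ := hlf' f hf
        exact ⟨h1, ⟨_, _, chief_lift V hch, by rw [relIndex_lift]; exact hd⟩, ⟨r, hr, hrm, hrf⟩⟩
      · obtain ⟨⟨e, he⟩, hd, r, hr, hrH, hrf⟩ := hlf'' f hf
        refine ⟨⟨q, e, hq, he⟩, ⟨⊥, V, ⟨normal_bot, hVn, bot_lt_iff_ne_bot.mpr hVb, ?_⟩, ?_⟩, ⟨r, hr, ?_, hrf⟩⟩
        · intro M hM _ hMV
          exact hmin M hM hMV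
        · rw [Subgroup.relIndex_bot_left]
          exact hd
        · rw [← hH₀]
          exact hrH

/-- Let `G` be a finite solvable group of order `mn` with `gcd(m, n) = 1`. Then the number of subgroups of order `m` is a product of natural numbers each of which is a power of a prime, divides the order of some chief factor of `G` (a quotient `L/K` of normal subgroups `K < L` of `G` with no normal subgroup of `G` strictly between them), and is congruent to `1` modulo some prime divisor of `m`. -/
theorem result {G : Type*} [Group G] [Finite G] [Group.IsSolvable G] (m n : ℕ) (hG : Nat.card G = m * n) (hmn : Nat.Coprime m n) : ∃ (k : ℕ) (f : Fin k → ℕ), Nat.card {H : Subgroup G // Nat.card H = m} = ∏ i, f i ∧ ∀ i, (∃ q e : ℕ, q.Prime ∧ f i = q ^ e) ∧ (∃ K L : Subgroup G, K.Normal ∧ L.Normal ∧ K < L ∧ (∀ M : Subgroup G, M.Normal → K ≤ M → M ≤ L → M = K ∨ M = L) ∧ f i ∣ K.relIndex L) ∧ (∃ q : ℕ, q.Prime ∧ q ∣ m ∧ f i ≡ 1 [MOD q]) := by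
  obtain ⟨l, hl, hlf⟩ := main _ G m n rfl hG hmn
  refine ⟨l.length, fun i => l.get i, ?_, ?_⟩
  · rw [hl, ← List.prod_ofFn, List.ofFn_get]
  · intro i
    obtain ⟨h1, ⟨K, L, ⟨h2, h3, h4, h5⟩, h6⟩, h7⟩ := hlf _ (List.get_mem l i)
    exact ⟨h1, ⟨K, L, h2, h3, h4, h5, h6⟩, h7⟩

end Cfsg.Agent.S4214
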