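import Cfsg.Statements.S4216
import Cfsg.Agent.Lib.ConjFamily
import Cfsg.Agent.Lib.Focal
import Cfsg.Agent.Lib.SchurZ2
import Cfsg.Agent.Lib.MinPClosed
import Cfsg.Agent.Lib.TameInter
import Cfsg.Agent.Lib.H5Basic
import Cfsg.Agent.Lib.SylowIn
-- import your own Cfsg.Agent.* helpers here

set_option autoImplicit false
set_option linter.all false
open Cfsg

namespace Cfsg.Agent.S4216

open scoped commutatorElement

open Cfsg.Agent.Lib.ConjFamily Cfsg.Agent.Lib.SylowIn in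
theorem grun_main {G : Type*} [Group G] [Finite G] {p : ℕ} [Fact p.Prime] (P : Sylow p G)
    (Z : Subgroup G)
    (hZ1 : ∀ z : G, (P : Subgroup G) ⊓ cj z ⁅(P : Subgroup G), (P : Subgroup G)⁆ ≤ Z)
    (hZ2 : (P : Subgroup G) ⊓ ⁅Subgroup.normalizer ((P : Subgroup G) : Set G),
      Subgroup.normalizer ((P : Subgroup G) : Set G)⁆ ≤ Z) :
    ∀ (T : Subgroup G), T ≤ (P : Subgroup G) → ∀ g : G, cj g T ≤ (P : Subgroup G) →
      ∀ u ∈ T, u⁻¹ * (g * u * g⁻¹) ∈ Z := by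
  classical
  suffices H : ∀ n : ℕ, ∀ T : Subgroup G, Nat.card G - Nat.card T = n → T ≤ (P : Subgroup G) →
      ∀ g : G, cj g T ≤ (P : Subgroup G) → ∀ u ∈ T, u⁻¹ * (g * u * g⁻¹) ∈ Z from
    fun T => H _ T rfl
  intro n
  induction n using Nat.strong_induction_on with
  | _ n IH =>
  intro T hn hTP g hg u hu
  have IH' : ∀ R : Subgroup G, Nat.card T < Nat.card R → R ≤ (P : Subgroup G) → ∀ g : G,
      cj g R ≤ (P : Subgroup G) → ∀ u ∈ R, u⁻¹ * (g * u * g⁻¹) ∈ Z := by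
    intro R hc hRP g hg u hu
    have h1 : Nat.card R ≤ Nat.card G := Subgroup.card_le_card_group R
    exact IH (Nat.card G - Nat.card R) (by omega) R rfl hRP g hg u hu
  have hPcard : ∀ R : Subgroup G, R ≤ (P : Subgroup G) → Nat.card (P : Subgroup G) ≤ Nat.card R →
      R = (P : Subgroup G) := fun R hR hc => Subgroup.eq_of_le_of_card_ge hR hc
  by_cases hT : T = (P : Subgroup G)
  · subst hT
    have hgc : cj g (P : Subgroup G) = (P : Subgroup G) := hPcard _ hg (by rw [card_cj])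
    have hgn := mem_normalizer_of_cj_eq hgc
    exact hZ2 (Cfsg.Agent.Lib.Focal.comm_mem_of_normalizer hu hgn)
  let F : Set (Subgroup G) := {U | U ≤ (P : Subgroup G) ∧ ∃ h : G, cj h T = U}
  have hFT : T ∈ F := ⟨hTP, 1, cj_one T⟩
  obtain ⟨T₃, hT₃F, hT₃max⟩ := Set.exists_max_image F
    (fun U => Nat.card ((P : Subgroup G) ⊓ Subgroup.normalizer (U : Set G) : Subgroup G))
    (Set.toFinite F) ⟨T, hFT⟩
  obtain ⟨hT₃P, h₁, hh₁⟩ := hT₃F
  let L : Subgroup G := Subgroup.normalizer (T₃ : Set G)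
  let S : Subgroup G := (P : Subgroup G) ⊓ L
  have hSL : S ≤ L := inf_le_right
  have hSp : IsPGroup p S := P.isPGroup'.to_le inf_le_left
  have hT₃S : T₃ ≤ S := le_inf hT₃P Subgroup.le_normalizer
  have hcT₃ : Nat.card T₃ = Nat.card T := by rw [← hh₁, card_cj]
  have hSsyl : IsSylowIn p S L := by
    obtain ⟨S₁, hSS₁, hS₁L, hS₁⟩ := exists_isSylowIn_ge hSL hSp
    have hS₁p := IsSylowIn.isPGroup hS₁ hS₁L
    obtain ⟨a, ha⟩ := exists_conj_le_sylow P hS₁p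
    have hUP : cj a T₃ ≤ (P : Subgroup G) := (cj_mono a (hT₃S.trans hSS₁)).trans ha
    have hUF : cj a T₃ ∈ F := ⟨hUP, a * h₁, by rw [← cj_cj, hh₁]⟩
    have h2 : cj a S₁ ≤ (P : Subgroup G) ⊓ Subgroup.normalizer ((cj a T₃ : Subgroup G) : Set G) := by
      refine le_inf ha ?_
      rw [normalizer_cj]
      exact cj_mono a hS₁L
    have h3 : Nat.card S₁ ≤ Nat.card S := by
      have h4 := Subgroup.card_le_of_le h2
      rw [card_cj] at h4
      exact h4.trans (hT₃max _ hUF)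
    have h5 : S = S₁ := Subgroup.eq_of_le_of_card_ge hSS₁ h3
    rw [h5]; exact hS₁
  have hne' : ∀ R : Subgroup G, R ≤ (P : Subgroup G) → Nat.card R = Nat.card T →
      R ≠ (P : Subgroup G) := by
    intro R hR hc h
    apply hT
    apply hPcard T hTP
    rw [← hc, h]
  have stepA : ∀ (Q' : Subgroup G) (h₀ : G), Q' ≤ (P : Subgroup G) → Nat.card Q' = Nat.card T →
      cj h₀ Q' = T₃ → ∃ b : G, cj b Q' = T₃ ∧ ∀ w ∈ Q', w⁻¹ * (b * w * b⁻¹) ∈ Z := by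
    intro Q' h₀ hQ'P hc hU
    obtain ⟨x, hxP, hxQ', hxN⟩ := Cfsg.Agent.Lib.H5Basic.exists_mem_normalizer_of_lt
      P.isPGroup' hQ'P (hne' Q' hQ'P hc)
    let N₀ : Subgroup G := (P : Subgroup G) ⊓ Subgroup.normalizer (Q' : Set G)
    have hQ'N₀ : Q' ≤ N₀ := le_inf hQ'P Subgroup.le_normalizer
    have hxN₀ : x ∈ N₀ := ⟨hxP, hxN⟩
    have hcardN₀ : Nat.card T < Nat.card N₀ := by
      rw [← hc]
      refine lt_of_le_of_ne (Subgroup.card_le_of_le hQ'N₀) ?_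
      intro hc'
      exact hxQ' ((Subgroup.eq_of_le_of_card_ge hQ'N₀ hc'.ge) ▸ hxN₀)
    have hXN : cj h₀ N₀ ≤ L := by
      show cj h₀ N₀ ≤ Subgroup.normalizer (T₃ : Set G)
      rw [← hU, normalizer_cj]
      exact cj_mono _ inf_le_right
    have hXp : IsPGroup p (cj h₀ N₀) := (P.isPGroup'.to_le inf_le_left).map _
    obtain ⟨y, hyL, hy⟩ := exists_conj_le_of_isSylowIn hSsyl hXN hXp
    refine ⟨y * h₀, ?_, fun w hw => ?_⟩
    · rw [← cj_cj, hU]; exact cj_eq_of_mem_normalizer hyL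
    · have hb : cj (y * h₀) N₀ ≤ (P : Subgroup G) := by
        rw [← cj_cj]; exact hy.trans inf_le_left
      exact IH' N₀ hcardN₀ inf_le_left _ hb w (hQ'N₀ hw)
  have hT₃conj : ∀ a ∈ L, ∀ w ∈ T₃, a * w * a⁻¹ ∈ T₃ :=
    fun a ha w hw => (Subgroup.mem_normalizer_iff.1 ha w).1 hw
  let C : Subgroup G :=
    { carrier := {ℓ | ℓ ∈ L ∧ ∀ w ∈ T₃, w⁻¹ * (ℓ * w * ℓ⁻¹) ∈ Z}
      mul_mem' := by
        rintro a b ⟨ha, ha'⟩ ⟨hb, hb'⟩
        refine ⟨L.mul_mem ha hb, fun w hw => ?_⟩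
        have h1 := hb' w hw
        have h2 := ha' _ (hT₃conj b hb w hw)
        have e : w⁻¹ * (a * b * w * (a * b)⁻¹) = (w⁻¹ * (b * w * b⁻¹)) *
            ((b * w * b⁻¹)⁻¹ * (a * (b * w * b⁻¹) * a⁻¹)) := by group
        rw [e]; exact Z.mul_mem h1 h2
      one_mem' := by
        refine ⟨L.one_mem, fun w hw => ?_⟩
        have e : w⁻¹ * (1 * w * 1⁻¹) = 1 := by group
        rw [e]; exact Z.one_mem
      inv_mem' := by
        rintro a ⟨ha, ha'⟩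
        refine ⟨L.inv_mem ha, fun w hw => ?_⟩
        have h0 : a⁻¹ * w * a⁻¹⁻¹ ∈ T₃ := hT₃conj _ (L.inv_mem ha) w hw
        have h1 := ha' _ h0
        have e : w⁻¹ * (a⁻¹ * w * a⁻¹⁻¹) =
            ((a⁻¹ * w * a⁻¹⁻¹)⁻¹ * (a * (a⁻¹ * w * a⁻¹⁻¹) * a⁻¹))⁻¹ := by group
        rw [e]; exact Z.inv_mem h1 }
  let gens : Set G := {x | ∃ ℓ ∈ L, x ∈ cj ℓ S}
  let D : Subgroup G := Subgroup.closure gens
  have hSD : S ≤ D := fun s hs => Subgroup.subset_closure ⟨1, L.one_mem, by rw [cj_one]; exact hs⟩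
  have hgenC : gens ⊆ C := by
    rintro s ⟨ℓ, hℓ, hs⟩
    have hs' := mem_cj.1 hs
    have hsL : s ∈ L := by
      have h1 : ℓ * (ℓ⁻¹ * s * ℓ) * ℓ⁻¹ = s := by group
      rw [← h1]
      exact L.mul_mem (L.mul_mem hℓ (hSL hs')) (L.inv_mem hℓ)
    refine ⟨hsL, fun w hw => hZ1 ℓ ⟨?_, ?_⟩⟩
    · exact (P : Subgroup G).mul_mem ((P : Subgroup G).inv_mem (hT₃P hw))
        (hT₃P (hT₃conj s hsL w hw))
    · refine mem_cj.2 ?_
      have hw' : ℓ⁻¹ * w * ℓ ∈ T₃ := by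
        have h2 := hT₃conj _ (L.inv_mem hℓ) w hw
        rwa [inv_inv] at h2
      have e : ℓ⁻¹ * (w⁻¹ * (s * w * s⁻¹)) * ℓ = ⁅(ℓ⁻¹ * w * ℓ)⁻¹, ℓ⁻¹ * s * ℓ⁆ := by
        rw [commutatorElement_def]; group
      rw [e]
      exact Subgroup.commutator_mem_commutator ((P : Subgroup G).inv_mem (hT₃P hw'))
        ((inf_le_left : S ≤ (P : Subgroup G)) hs')
  have hDC : D ≤ C := (Subgroup.closure_le _).2 hgenC
  have hDL : D ≤ L := hDC.trans (fun x hx => hx.1)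
  have stepB : ∀ m ∈ L, ∀ w ∈ T₃, w⁻¹ * (m * w * m⁻¹) ∈ Z := by
    intro m hm w hw
    have hmD : m ∈ Subgroup.normalizer (D : Set G) := by
      apply Cfsg.Agent.Lib.MinPClosed.mem_normalizer_of_conj_le
      intro d hd
      have hle : D ≤ D.comap (MulAut.conj m).toMonoidHom := by
        rw [Subgroup.closure_le]
        rintro x ⟨ℓ, hℓ, hx⟩
        show m * x * m⁻¹ ∈ D
        apply Subgroup.subset_closure
        refine ⟨m * ℓ, L.mul_mem hm hℓ, ?_⟩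
        rw [mem_cj] at hx ⊢
        have e : (m * ℓ)⁻¹ * (m * x * m⁻¹) * (m * ℓ) = ℓ⁻¹ * x * ℓ := by group
        rw [e]; exact hx
      exact hle hd
    obtain ⟨R, hR⟩ := IsSylowIn.mono hSsyl hSD hDL
    obtain ⟨d, hd, hdm⟩ := Cfsg.Agent.Lib.SchurZ2.frattini_of_normalizer R hmD
    have hRS : (R : Subgroup D).map D.subtype = S := by
      rw [hR]; exact Subgroup.map_subgroupOf_eq_of_le hSD
    rw [hRS] at hdm
    have hcS : cj (d * m) S = S := cj_eq_of_mem_normalizer hdm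
    have hcardS : Nat.card T < Nat.card S := by
      rw [← hcT₃]
      obtain ⟨x, hxP, hxT, hxN⟩ := Cfsg.Agent.Lib.H5Basic.exists_mem_normalizer_of_lt
        P.isPGroup' hT₃P (hne' T₃ hT₃P hcT₃)
      exact Cfsg.Agent.Lib.TameInter.card_lt_of_le_of_not_le hT₃S (fun h => hxT (h ⟨hxP, hxN⟩))
    have h1 := IH' S hcardS inf_le_left (d * m) (by rw [hcS]; exact inf_le_left) w (hT₃S hw)
    have hdC : d⁻¹ ∈ C := C.inv_mem (hDC hd)
    have hw' : (d * m) * w * (d * m)⁻¹ ∈ T₃ := hT₃conj _ (L.mul_mem (hDL hd) hm) w hw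
    have h2 := hdC.2 _ hw'
    have e : w⁻¹ * (m * w * m⁻¹) = (w⁻¹ * ((d * m) * w * (d * m)⁻¹)) *
        (((d * m) * w * (d * m)⁻¹)⁻¹ * (d⁻¹ * ((d * m) * w * (d * m)⁻¹) * d⁻¹⁻¹)) := by group
    rw [e]; exact Z.mul_mem h1 h2
  obtain ⟨b₁, hb₁, hb₁'⟩ := stepA T h₁ hTP rfl hh₁
  have hcT₂ : Nat.card (cj g T) = Nat.card T := card_cj g T
  have hh₂ : cj (h₁ * g⁻¹) (cj g T) = T₃ := by
    rw [cj_cj]
    have e : h₁ * g⁻¹ * g = h₁ := by group
    rw [e]; exact hh₁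
  obtain ⟨b₂, hb₂, hb₂'⟩ := stepA (cj g T) (h₁ * g⁻¹) hg hcT₂ hh₂
  have hm : b₂ * g * b₁⁻¹ ∈ L := by
    apply mem_normalizer_of_cj_eq
    conv_lhs => rw [← hb₁]
    rw [cj_cj]
    have e : b₂ * g * b₁⁻¹ * b₁ = b₂ * g := by group
    rw [e, ← cj_cj]; exact hb₂
  have hw₁ : b₁ * u * b₁⁻¹ ∈ T₃ := by rw [← hb₁]; exact cj_mem hu
  have h1 := hb₁' u hu
  have h2 := stepB _ hm _ hw₁
  have hu₂ : g * u * g⁻¹ ∈ cj g T := cj_mem hu
  have h3 := hb₂' _ hu₂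
  have e : u⁻¹ * (g * u * g⁻¹) = (u⁻¹ * (b₁ * u * b₁⁻¹)) *
      ((b₁ * u * b₁⁻¹)⁻¹ * ((b₂ * g * b₁⁻¹) * (b₁ * u * b₁⁻¹) * (b₂ * g * b₁⁻¹)⁻¹)) *
      ((g * u * g⁻¹)⁻¹ * (b₂ * (g * u * g⁻¹) * b₂⁻¹))⁻¹ := by group
  rw [e]; exact Z.mul_mem (Z.mul_mem h1 h2) (Z.inv_mem h3)



/-- Grün's first Theorem: if `P` is a Sylow `p`-subgroup of the finite group `G`, then `P ∩ G'` is the subgroup generated by `P ∩ N_G(P)'` together with the subgroups `P ∩ z P' z⁻¹` for all `z ∈ G`, where `'` denotes the derived subgroup and `N_G(P)` the normalizer of `P`. -/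
theorem result {G : Type*} [Group G] [Finite G] {p : ℕ} [Fact p.Prime] (P : Sylow p G) : (P : Subgroup G) ⊓ commutator G = ((P : Subgroup G) ⊓ ⁅Subgroup.normalizer ((P : Subgroup G) : Set G), Subgroup.normalizer ((P : Subgroup G) : Set G)⁆) ⊔ ⨆ z : G, (P : Subgroup G) ⊓ (⁅(P : Subgroup G), (P : Subgroup G)⁆).map (MulAut.conj z).toMonoidHom := by
  apply le_antisymm
  · refine Cfsg.Agent.Lib.Focal.inf_commutator_le_of P _ ?_
    intro x hx g hgx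
    refine grun_main P _ (fun z => le_sup_of_le_right (le_iSup (fun z : G =>
      (P : Subgroup G) ⊓ (⁅(P : Subgroup G), (P : Subgroup G)⁆).map (MulAut.conj z).toMonoidHom) z))
      le_sup_left (Subgroup.zpowers x) ?_ g ?_ x (Subgroup.mem_zpowers x)
    · rw [Subgroup.zpowers_le]; exact hx
    · rw [Cfsg.Agent.Lib.ConjFamily.cj, MonoidHom.map_zpowers, Subgroup.zpowers_le]
      exact hgx
  · have hn : (commutator G).Normal := inferInstance
    have hle : ∀ A B : Subgroup G, ⁅A, B⁆ ≤ commutator G := fun A B => by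
      rw [commutator_def]; exact Subgroup.commutator_mono le_top le_top
    refine sup_le (inf_le_inf_left _ (hle _ _)) (iSup_le fun z => inf_le_inf_left _ ?_)
    rintro _ ⟨y, hy, rfl⟩
    exact hn.conj_mem y (hle _ _ hy) z

end Cfsg.Agent.S4216
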