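import Mathlib
import Cfsg.Statements.S4217
-- import your own Cfsg.Agent.* helpers here

set_option autoImplicit false
open Cfsg

namespace Cfsg.Agent.S4217

open Subgroup

/-- A crossed homomorphism into `A` restricting to `a ↦ a ^ t` on `A`. -/
def CrossPow {G : Type*} [Group G] (A : Subgroup G) (t : ℤ) : Prop :=
  ∃ Θ : G → A, (∀ g h, (Θ (g * h) : G) = Θ g * (g * Θ h * g⁻¹)) ∧ ∀ a : A, Θ a = a ^ t

section Core

variable {G : Type*} [Group G] [Finite G] (A : Subgroup G) [hAn : A.Normal] [hA : IsMulCommutative A]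

instance instCommA : CommGroup A := { (inferInstance : Group A) with mul_comm := fun a b => hA.is_comm.comm a b }

theorem crossPow_add {s t : ℤ} (hs : CrossPow A s) (ht : CrossPow A t) : CrossPow A (s + t) := by
  obtain ⟨Θ₁, h1, h1a⟩ := hs
  obtain ⟨Θ₂, h2, h2a⟩ := ht
  refine ⟨fun g => Θ₁ g * Θ₂ g, ?_, ?_⟩
  · intro g h
    have hconj : ∀ x : A, g * (x : G) * g⁻¹ ∈ A := fun x => hAn.conj_mem _ x.2 g
    have hc : ((⟨g * Θ₁ h * g⁻¹, hconj _⟩ : A) * (Θ₂ g) : A) = (Θ₂ g) * ⟨g * Θ₁ h * g⁻¹, hconj _⟩ := mul_comm _ _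
    have hc' : (g * (Θ₁ h : G) * g⁻¹) * (Θ₂ g : G) = (Θ₂ g : G) * (g * (Θ₁ h : G) * g⁻¹) := congrArg Subtype.val hc
    show ((Θ₁ (g * h) : G) * (Θ₂ (g * h) : G)) = (Θ₁ g : G) * (Θ₂ g : G) * (g * ((Θ₁ h : G) * (Θ₂ h : G)) * g⁻¹)
    rw [h1, h2]
    calc (Θ₁ g : G) * (g * (Θ₁ h : G) * g⁻¹) * ((Θ₂ g : G) * (g * (Θ₂ h : G) * g⁻¹))
        = (Θ₁ g : G) * ((g * (Θ₁ h : G) * g⁻¹) * (Θ₂ g : G)) * (g * (Θ₂ h : G) * g⁻¹) := by group
      _ = (Θ₁ g : G) * ((Θ₂ g : G) * (g * (Θ₁ h : G) * g⁻¹)) * (g * (Θ₂ h : G) * g⁻¹) := by rw [hc']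
      _ = _ := by group
  · intro a
    show Θ₁ a * Θ₂ a = a ^ (s + t)
    rw [h1a, h2a, zpow_add]

theorem crossPow_neg {t : ℤ} (ht : CrossPow A t) : CrossPow A (-t) := by
  obtain ⟨Θ, h1, h1a⟩ := ht
  refine ⟨fun g => (Θ g)⁻¹, ?_, ?_⟩
  · intro g h
    have hconj : ∀ x : A, g * (x : G) * g⁻¹ ∈ A := fun x => hAn.conj_mem _ x.2 g
    have hc : ((⟨g * Θ h * g⁻¹, hconj _⟩ : A) * (Θ g) : A) = (Θ g) * ⟨g * Θ h * g⁻¹, hconj _⟩ := mul_comm _ _
    have hc' : (g * (Θ h : G) * g⁻¹) * (Θ g : G) = (Θ g : G) * (g * (Θ h : G) * g⁻¹) := congrArg Subtype.val hc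
    show ((Θ (g * h) : G))⁻¹ = (Θ g : G)⁻¹ * (g * (Θ h : G)⁻¹ * g⁻¹)
    rw [h1, mul_inv_rev]
    have : (g * (Θ h : G) * g⁻¹)⁻¹ * (Θ g : G)⁻¹ = ((Θ g : G) * (g * (Θ h : G) * g⁻¹))⁻¹ := by group
    rw [← hc'] at this
    calc (g * (Θ h : G) * g⁻¹)⁻¹ * (Θ g : G)⁻¹ = ((g * (Θ h : G) * g⁻¹) * (Θ g : G))⁻¹ := this
      _ = (Θ g : G)⁻¹ * (g * (Θ h : G)⁻¹ * g⁻¹) := by group
  · intro a
    show (Θ a)⁻¹ = a ^ (-t)
    rw [h1a, zpow_neg]

theorem crossPow_zero : CrossPow A 0 := by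
  refine ⟨fun _ => 1, ?_, ?_⟩
  · intro g h
    simp
  · intro a
    simp

/-- The transfer-type construction: a complement in `P` gives a crossed homomorphism. -/
theorem crossPow_of_complement (P K : Subgroup G) (hAP : A ≤ P) (hinf : K ⊓ A = ⊥) (hsup : K ⊔ A = P) :
    CrossPow A (P.index : ℤ) := by
  classical
  letI : Fintype (G ⧸ P) := Fintype.ofFinite _
  have hKP : K ≤ P := hsup ▸ le_sup_left
  have hcm : ∀ x y : A, (x : G) * y = y * x := fun x y => congrArg Subtype.val (mul_comm x y)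
  have hdec : ∀ π : G, ∃ a : A, π ∈ P → ∃ k ∈ K, π = a * k := by
    intro π
    by_cases hπ : π ∈ P
    · rw [← hsup] at hπ
      obtain ⟨k, hk, a, ha, rfl⟩ := Subgroup.mem_sup_of_normal_right.mp hπ
      refine ⟨⟨k * a * k⁻¹, hAn.conj_mem _ ha k⟩, fun _ => ⟨k, hk, ?_⟩⟩
      group
    · exact ⟨1, fun h => absurd h hπ⟩
  choose ρ hρ using hdec
  have hρuniq : ∀ (a : A) (k : G), k ∈ K → ρ (a * k) = a := by
    intro a k hk
    have hmem : (a : G) * k ∈ P := P.mul_mem (hAP a.2) (hKP hk)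
    obtain ⟨k', hk', he⟩ := hρ _ hmem
    have h1 : ((ρ (a * k) : A) : G)⁻¹ * a = k' * k⁻¹ := by
      calc ((ρ (a * k) : A) : G)⁻¹ * a = ((ρ (a * k) : A) : G)⁻¹ * ((a : G) * k) * k⁻¹ := by group
        _ = ((ρ (a * k) : A) : G)⁻¹ * (((ρ (a * k) : A) : G) * k') * k⁻¹ := by rw [← he]
        _ = k' * k⁻¹ := by group
    have h2 : k' * k⁻¹ ∈ K ⊓ A :=
      ⟨K.mul_mem hk' (K.inv_mem hk), h1 ▸ A.mul_mem (A.inv_mem (ρ _).2) a.2⟩
    rw [hinf, Subgroup.mem_bot] at h2
    rw [h2] at h1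
    exact Subtype.ext (inv_mul_eq_one.mp h1)
  have hρcross : ∀ x y : G, x ∈ P → y ∈ P → (ρ (x * y) : G) = ρ x * (x * ρ y * x⁻¹) := by
    intro x y hx hy
    obtain ⟨k, hk, hxk⟩ := hρ x hx
    obtain ⟨l, hl, hyl⟩ := hρ y hy
    set a := ρ x with ha
    set b := ρ y with hb
    have hkb : k * (b : G) * k⁻¹ ∈ A := hAn.conj_mem _ b.2 k
    have e : x * y = ((a * ⟨k * b * k⁻¹, hkb⟩ : A) : G) * (k * l) := by
      rw [hxk, hyl]
      show (a : G) * k * ((b : G) * l) = ((a : G) * (k * b * k⁻¹)) * (k * l)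
      group
    rw [e, hρuniq _ _ (K.mul_mem hk hl)]
    show (a : G) * (k * b * k⁻¹) = a * (x * b * x⁻¹)
    rw [hxk]
    have hc := hcm a ⟨k * b * k⁻¹, hkb⟩
    have hc' : (a : G) * (k * b * k⁻¹) = (k * b * k⁻¹) * a := hc
    congr 1
    calc k * (b : G) * k⁻¹ = ((k * b * k⁻¹) * a) * (a : G)⁻¹ := by group
      _ = ((a : G) * (k * b * k⁻¹)) * (a : G)⁻¹ := by rw [hc']
      _ = _ := by group
  -- the transversal
  let t : G ⧸ P → G := fun c => c.out
  have htc : ∀ c : G ⧸ P, ((t c : G) : G ⧸ P) = c := fun c => QuotientGroup.out_eq' c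
  let π : G → G ⧸ P → G := fun g c => (t (g • c))⁻¹ * (g * t c)
  have hπ : ∀ g c, π g c ∈ P := by
    intro g c
    apply QuotientGroup.eq.mp
    rw [htc]
    have : ((g * t c : G) : G ⧸ P) = g • ((t c : G) : G ⧸ P) := rfl
    rw [this, htc]
  let τ : G → G ⧸ P → A := fun g c =>
    ⟨t (g • c) * ρ (π g c) * (t (g • c))⁻¹, hAn.conj_mem _ (ρ (π g c)).2 _⟩
  let Θ : G → A := fun g => ∏ c, τ g c
  have hterm : ∀ g h c, τ (g * h) c = τ g (h • c) * (MulAut.conjNormal g) (τ h c) := by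
    intro g h c
    apply Subtype.ext
    have h1 : π (g * h) c = π g (h • c) * π h c := by
      show (t ((g * h) • c))⁻¹ * (g * h * t c) = (t (g • (h • c)))⁻¹ * (g * t (h • c)) * ((t (h • c))⁻¹ * (h * t c))
      rw [mul_smul]
      group
    have h2 := hρcross _ _ (hπ g (h • c)) (hπ h c)
    rw [← h1] at h2
    show t ((g * h) • c) * ρ (π (g * h) c) * (t ((g * h) • c))⁻¹ =
      (t (g • (h • c)) * ρ (π g (h • c)) * (t (g • (h • c)))⁻¹) *
        ((MulAut.conjNormal g) (τ h c) : G)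
    rw [MulAut.conjNormal_apply, h2, mul_smul]
    show t (g • (h • c)) * ((ρ (π g (h • c)) : G) * (π g (h • c) * ρ (π h c) * (π g (h • c))⁻¹)) * (t (g • (h • c)))⁻¹ =
      (t (g • (h • c)) * ρ (π g (h • c)) * (t (g • (h • c)))⁻¹) *
        (g * (t (h • c) * ρ (π h c) * (t (h • c))⁻¹) * g⁻¹)
    show t (g • (h • c)) * ((ρ (π g (h • c)) : G) * (((t (g • (h • c)))⁻¹ * (g * t (h • c))) * ρ (π h c) * ((t (g • (h • c)))⁻¹ * (g * t (h • c)))⁻¹)) * (t (g • (h • c)))⁻¹ =
      (t (g • (h • c)) * ρ (π g (h • c)) * (t (g • (h • c)))⁻¹) *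
        (g * (t (h • c) * ρ (π h c) * (t (h • c))⁻¹) * g⁻¹)
    group
  have hcross : ∀ g h, Θ (g * h) = Θ g * (MulAut.conjNormal g) (Θ h) := by
    intro g h
    show ∏ c, τ (g * h) c = (∏ c, τ g c) * (MulAut.conjNormal g) (∏ c, τ h c)
    rw [Finset.prod_congr rfl (fun c _ => hterm g h c), Finset.prod_mul_distrib, map_prod]
    congr 1
    exact Equiv.prod_comp (MulAction.toPerm h) (fun c => τ g c)
  have hfix : ∀ (a : A) (c : G ⧸ P), (a : G) • c = c := by
    intro a c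
    have h1 : ((a : G) * t c : G) = (a : G) * t c := rfl
    have h2 : ((( (a : G) * t c : G)) : G ⧸ P) = (a : G) • ((t c : G) : G ⧸ P) := rfl
    rw [htc] at h2
    rw [← h2]
    conv_rhs => rw [← htc c]
    apply QuotientGroup.eq.mpr
    have : ((a : G) * t c)⁻¹ * t c = (t c)⁻¹ * (a : G)⁻¹ * t c := by group
    rw [this]
    have h3 : (t c)⁻¹ * (a : G)⁻¹ * ((t c)⁻¹)⁻¹ ∈ A := hAn.conj_mem _ (A.inv_mem a.2) _
    rw [inv_inv] at h3
    exact hAP h3
  have hτa : ∀ (a : A) c, τ a c = a := by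
    intro a c
    apply Subtype.ext
    show t ((a : G) • c) * ρ (π a c) * (t ((a : G) • c))⁻¹ = a
    have h1 : π a c = (t c)⁻¹ * (a : G) * t c := by
      show (t ((a : G) • c))⁻¹ * ((a : G) * t c) = _
      rw [hfix]
      group
    have h2 : (t c)⁻¹ * (a : G) * t c ∈ A := by
      have h3 : (t c)⁻¹ * (a : G) * ((t c)⁻¹)⁻¹ ∈ A := hAn.conj_mem _ a.2 _
      rwa [inv_inv] at h3
    have h3 : ρ ((t c)⁻¹ * (a : G) * t c) = ⟨_, h2⟩ := by
      have := hρuniq ⟨_, h2⟩ 1 K.one_mem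
      simpa using this
    rw [h1, h3, hfix]
    show t c * ((t c)⁻¹ * (a : G) * t c) * (t c)⁻¹ = a
    group
  refine ⟨Θ, ?_, ?_⟩
  · intro g h
    have := congrArg Subtype.val (hcross g h)
    rw [Subgroup.coe_mul, MulAut.conjNormal_apply] at this
    exact this
  · intro a
    show ∏ c, τ a c = a ^ (P.index : ℤ)
    rw [Finset.prod_congr rfl (fun c _ => hτa a c), Finset.prod_const, Finset.card_univ, zpow_natCast]
    congr 1
    rw [← Nat.card_eq_fintype_card]
    rfl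

end Core

/-- Let `A` be an abelian normal subgroup of the finite group `G`. Then `A` has a complement in `G` if and only if, for every prime `p` dividing the index of `A`, there are a Sylow `p`-subgroup `S` of `G/A` and a subgroup `K` of `G` with `K ∩ A = 1` and `KA` equal to the preimage of `S` (that is, `A` has a complement in the preimage of a Sylow `p`-subgroup of `G/A`). -/
theorem result {G : Type*} [Group G] [Finite G] (A : Subgroup G) [A.Normal] (hA : IsMulCommutative A) : (∃ K : Subgroup G, K.IsComplement' A) ↔ ∀ p : ℕ, p.Prime → p ∣ A.index → ∃ (S : Sylow p (G ⧸ A)) (K : Subgroup G), K ⊓ A = ⊥ ∧ K ⊔ A = (S : Subgroup (G ⧸ A)).comap (QuotientGroup.mk' A) := by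
  constructor
  · rintro ⟨K, hK⟩ p hp hd
    haveI : Fact p.Prime := ⟨hp⟩
    obtain ⟨S⟩ : Nonempty (Sylow p (G ⧸ A)) := inferInstance
    have hAle : A ≤ (S : Subgroup (G ⧸ A)).comap (QuotientGroup.mk' A) := by
      intro a ha
      show (QuotientGroup.mk' A) a ∈ (S : Subgroup (G ⧸ A))
      have h0 : (QuotientGroup.mk' A) a = 1 := (QuotientGroup.eq_one_iff a).mpr ha
      rw [h0]
      exact one_mem _
    refine ⟨S, K ⊓ (S : Subgroup (G ⧸ A)).comap (QuotientGroup.mk' A), ?_, ?_⟩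
    · have h1 : K ⊓ A = ⊥ := disjoint_iff.mp hK.disjoint
      rw [eq_bot_iff, ← h1]
      exact inf_le_inf_right _ inf_le_left
    · apply le_antisymm
      · exact sup_le inf_le_right hAle
      · intro x hx
        have hx' : x ∈ K ⊔ A := by
          rw [hK.sup_eq_top]
          trivial
        obtain ⟨k, hk, a, ha, rfl⟩ := Subgroup.mem_sup_of_normal_right.mp hx'
        refine Subgroup.mul_mem_sup ⟨hk, ?_⟩ ha
        have h2 := ((S : Subgroup (G ⧸ A)).comap (QuotientGroup.mk' A)).mul_mem hx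
          (((S : Subgroup (G ⧸ A)).comap (QuotientGroup.mk' A)).inv_mem (hAle ha))
        have h3 : k = k * a * a⁻¹ := by group
        rw [h3]
        exact h2
  · intro h
    haveI : IsMulCommutative A := hA
    by_cases hAtop : A = ⊤
    · exact ⟨⊥, by rw [hAtop]; exact Subgroup.isComplement'_bot_top⟩
    let J : AddSubgroup ℤ :=
      { carrier := {t | CrossPow A t}
        add_mem' := fun hs ht => crossPow_add A hs ht
        zero_mem' := crossPow_zero A
        neg_mem' := fun ht => crossPow_neg A ht }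
    obtain ⟨d, hd⟩ := Int.subgroup_cyclic J
    have hsyl : ∀ p : ℕ, p.Prime → p ∣ A.index → ∃ t : ℕ, ¬ p ∣ t ∧ t ∣ A.index ∧ d ∣ (t : ℤ) := by
      intro p hp hpd
      haveI : Fact p.Prime := ⟨hp⟩
      obtain ⟨S, K, hK1, hK2⟩ := h p hp hpd
      have hAP : A ≤ (S : Subgroup (G ⧸ A)).comap (QuotientGroup.mk' A) := by
        rw [← hK2]; exact le_sup_right
      have h1 := crossPow_of_complement A _ K hAP hK1 hK2
      rw [Subgroup.index_comap_of_surjective _ (QuotientGroup.mk'_surjective A)] at h1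
      refine ⟨(S : Subgroup (G ⧸ A)).index, S.not_dvd_index, ?_, ?_⟩
      · have := (S : Subgroup (G ⧸ A)).index_dvd_card
        exact this
      · have h2 : ((S : Subgroup (G ⧸ A)).index : ℤ) ∈ J := h1
        rw [hd, AddSubgroup.mem_closure_singleton] at h2
        obtain ⟨n, hn⟩ := h2
        exact ⟨n, by rw [← hn]; simp [mul_comm]⟩
    have hidx : A.index ≠ 1 := fun h1 => hAtop (Subgroup.index_eq_one.mp h1)
    have hidx0 : A.index ≠ 0 := Subgroup.index_ne_zero_of_finite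
    obtain ⟨t₀, ht₀1, ht₀2, ht₀3⟩ := hsyl _ (Nat.minFac_prime hidx) (Nat.minFac_dvd _)
    have hone : d.natAbs = 1 := by
      by_contra hne
      have hr := Nat.minFac_prime hne
      set r := d.natAbs.minFac with hrdef
      have hrd : (r : ℤ) ∣ d := Int.natCast_dvd.mpr (Nat.minFac_dvd _)
      have hrt : r ∣ t₀ := by
        have : (r : ℤ) ∣ (t₀ : ℤ) := hrd.trans ht₀3
        exact_mod_cast this
      obtain ⟨t₁, h1, _, h3⟩ := hsyl r hr (hrt.trans ht₀2)
      apply h1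
      have : (r : ℤ) ∣ (t₁ : ℤ) := hrd.trans h3
      exact_mod_cast this
    have h1J : (1 : ℤ) ∈ J := by
      rw [hd]
      rcases Int.natAbs_eq d with h2 | h2 <;> rw [hone] at h2
      · rw [AddSubgroup.mem_closure_singleton]
        exact ⟨1, by rw [h2]; simp⟩
      · rw [AddSubgroup.mem_closure_singleton]
        exact ⟨-1, by rw [h2]; simp⟩
    obtain ⟨Θ, hΘ, hΘa⟩ : CrossPow A 1 := h1J
    have hΘ1 : Θ 1 = 1 := by
      have := hΘa 1
      simpa using this
    let K : Subgroup G :=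
      { carrier := {g | Θ g = 1}
        mul_mem' := by
          intro a b ha hb
          show Θ (a * b) = 1
          apply Subtype.ext
          rw [hΘ a b, show Θ a = 1 from ha, show Θ b = 1 from hb]
          simp
        one_mem' := hΘ1
        inv_mem' := by
          intro a ha
          show Θ a⁻¹ = 1
          apply Subtype.ext
          have := hΘ a⁻¹ a
          rw [show Θ a = 1 from ha, inv_mul_cancel, hΘ1] at this
          simpa using this.symm }
    refine ⟨K, Subgroup.isComplement'_of_disjoint_and_mul_eq_univ ?_ ?_⟩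
    · rw [disjoint_iff, eq_bot_iff]
      rintro x ⟨hxK, hxA⟩
      have h2 : Θ x = 1 := hxK
      have h3 := hΘa ⟨x, hxA⟩
      rw [zpow_one] at h3
      have h4 : Θ x = ⟨x, hxA⟩ := h3
      rw [h2] at h4
      have h5 : (1 : G) = x := congrArg Subtype.val h4
      rw [Subgroup.mem_bot]
      exact h5.symm
    · rw [Set.eq_univ_iff_forall]
      intro g
      set a := Θ g with ha
      have hinv : Θ ((a : G)⁻¹) = a⁻¹ := by
        have := hΘa a⁻¹
        rw [zpow_one] at this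
        exact this
      have hk : (a : G)⁻¹ * g ∈ K := by
        show Θ ((a : G)⁻¹ * g) = 1
        apply Subtype.ext
        rw [hΘ, hinv, ← ha]
        simp
      refine Set.mem_mul.mpr ⟨(a : G)⁻¹ * g, hk, ((a : G)⁻¹ * g)⁻¹ * (a : G) * ((a : G)⁻¹ * g), ?_, ?_⟩
      · have h3 := Subgroup.Normal.conj_mem (inferInstance : A.Normal) _ a.2 (((a : G)⁻¹ * g)⁻¹)
        rw [inv_inv] at h3
        exact h3
      · group

end Cfsg.Agent.S4217
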