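import Cfsg.Statements.S4219
import Cfsg.Agent.Lib.AmalgamChar
-- import your own Cfsg.Agent.* helpers here

set_option autoImplicit false
open Cfsg

namespace Cfsg.Agent.S4219

/-- Let a finite group `G` act `t`-fold transitively on a finite set, let `H` be the stabilizer of `t` distinct points and `P` a Sylow `p`-subgroup of `H`. Then the normalizer of `P` in `G` is `t`-fold transitive on the fixed points of `P`: any `t` distinct fixed points of `P` can be carried to any other `t` distinct fixed points of `P` by an element normalizing `P`. -/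
theorem result {G : Type*} [Group G] [Finite G] {α : Type*} [Fintype α] [MulAction G α] {t : ℕ} (hG : MulAction.IsMultiplyPretransitive G α t) (x : Fin t ↪ α) {p : ℕ} [Fact p.Prime] (P : Sylow p (MulAction.stabilizer G x)) (a b : Fin t ↪ α) (ha : ∀ i, a i ∈ MulAction.fixedPoints ((P : Subgroup (MulAction.stabilizer G x)).map (MulAction.stabilizer G x).subtype) α) (hb : ∀ i, b i ∈ MulAction.fixedPoints ((P : Subgroup (MulAction.stabilizer G x)).map (MulAction.stabilizer G x).subtype) α) : ∃ g ∈ Subgroup.normalizer ((((P : Subgroup (MulAction.stabilizer G x)).map (MulAction.stabilizer G x).subtype) : Subgroup G) : Set G), g • a = b := by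
  classical
  let H := MulAction.stabilizer G x
  let Q : Subgroup G := (P : Subgroup H).map H.subtype
  have hQH : Cfsg.Agent.Lib.AmalgamChar.IsSylowIn p Q H := Cfsg.Agent.Lib.AmalgamChar.isSylowIn_map P
  obtain ⟨g₁, hg₁⟩ := MulAction.exists_smul_eq G a b
  have hcard : ∀ c : Fin t ↪ α, Nat.card (MulAction.stabilizer G c) = Nat.card H := by
    intro c
    obtain ⟨g, hg⟩ := MulAction.exists_smul_eq G c x
    have : MulAction.stabilizer G (g • c) = (MulAction.stabilizer G c).map (MulAut.conj g).toMonoidHom :=
      MulAction.stabilizer_smul_eq_stabilizer_map_conj g c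
    change _ = Nat.card (MulAction.stabilizer G x)
    rw [← hg, this]
    exact Nat.card_congr ((MulAut.conj g).subgroupMap _).toEquiv
  have hsyl : ∀ c : Fin t ↪ α, (∀ i, c i ∈ MulAction.fixedPoints Q α) →
      Cfsg.Agent.Lib.AmalgamChar.IsSylowIn p Q (MulAction.stabilizer G c) := by
    intro c hc
    refine ⟨?_, by rw [hcard]; exact hQH.2⟩
    intro q hq
    rw [MulAction.mem_stabilizer_iff]
    ext i
    exact hc i ⟨q, hq⟩
  have ha' := hsyl a ha
  have hb' := hsyl b hb
  have hQ1 : Cfsg.Agent.Lib.AmalgamChar.IsSylowIn p (Q.map (MulAut.conj g₁).toMonoidHom)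
      (MulAction.stabilizer G b) := by
    constructor
    · rintro _ ⟨q, hq, rfl⟩
      rw [MulAction.mem_stabilizer_iff]
      have h1 : q • a = a := ha'.1 hq
      change (g₁ * q * g₁⁻¹) • b = b
      rw [← hg₁, mul_smul, mul_smul, inv_smul_smul, h1]
    · have : Nat.card (Q.map (MulAut.conj g₁).toMonoidHom) = Nat.card Q :=
        Nat.card_congr ((MulAut.conj g₁).subgroupMap _).symm.toEquiv
      rw [this]
      exact hb'.2
  obtain ⟨h, hh, hmap⟩ := hQ1.exists_conj hb'
  refine ⟨h * g₁, ?_, ?_⟩
  · have key : ∀ y : G, y ∈ Q ↔ (h * g₁) * y * (h * g₁)⁻¹ ∈ Q := by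
      intro y
      constructor
      · intro hy
        rw [hmap]
        refine ⟨g₁ * y * g₁⁻¹, ⟨y, hy, rfl⟩, ?_⟩
        simp [MulAut.conj_apply, mul_assoc]
      · intro hy
        rw [hmap] at hy
        obtain ⟨_, ⟨z, hz, rfl⟩, hz2⟩ := hy
        have : y = z := by
          have h3 : (h * g₁) * z * (h * g₁)⁻¹ = (h * g₁) * y * (h * g₁)⁻¹ := by
            rw [← hz2]
            simp [MulAut.conj_apply, mul_assoc]
          exact (mul_left_cancel (mul_right_cancel h3)).symm
        rw [this]
        exact hz
    exact Subgroup.mem_normalizer_iff.mpr key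
  · rw [mul_smul, hg₁]
    exact hh

end Cfsg.Agent.S4219
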