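import Cfsg.Statements.S4222
-- import your own Cfsg.Agent.* helpers here

set_option autoImplicit false
open Cfsg

namespace Cfsg.Agent.S4222

/-- If a normal subgroup `N` of a finite group is complete (its centre is trivial and every automorphism of `N` is inner), then the group is the internal direct product of `N` and the centralizer of `N`: the centralizer is a complement to `N`. -/
theorem result {T : Type*} [Group T] [Finite T] (N : Subgroup T) [N.Normal] (hz : Subgroup.center ↥N = ⊥) (ha : Function.Surjective (MulAut.conj : ↥N →* MulAut ↥N)) : (Subgroup.centralizer (N : Set T)).IsComplement' N := by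
  classical
  apply Subgroup.isComplement'_of_disjoint_and_mul_eq_univ
  · rw [Subgroup.disjoint_def]
    intro x hxC hxN
    have hx : (⟨x, hxN⟩ : N) ∈ Subgroup.center N := by
      rw [Subgroup.mem_center_iff]
      intro y
      apply Subtype.ext
      have := Subgroup.mem_centralizer_iff.mp hxC y y.2
      simpa using this
    rw [hz] at hx
    have := (Subgroup.mem_bot.mp hx)
    simpa using congrArg Subtype.val this
  · ext t
    simp only [Set.mem_univ, iff_true]
    obtain ⟨n, hn⟩ := ha (MulAut.conjNormal t)
    have hn' : ∀ y : N, (n : T) * y * (n : T)⁻¹ = t * y * t⁻¹ := by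
      intro y
      have := congrArg (fun f : MulAut N => ((f y : N) : T)) hn
      simpa [MulAut.conj_apply, MulAut.conjNormal_apply] using this
    refine Set.mem_mul.mpr ⟨t * (n : T)⁻¹, ?_, n, n.2, by group⟩
    rw [SetLike.mem_coe, Subgroup.mem_centralizer_iff]
    intro y hy
    have hy' : (n : T)⁻¹ * y * n ∈ N := by
      have := ‹N.Normal›.conj_mem y hy (n : T)⁻¹
      simpa using this
    have h1 := hn' ⟨_, hy'⟩
    simp only at h1
    have h2 : (n : T) * ((n : T)⁻¹ * y * n) * (n : T)⁻¹ = y := by group
    rw [h2] at h1
    -- y = t (n⁻¹ y n) t⁻¹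
    have h3 : y * (t * (n : T)⁻¹) = t * ((n : T)⁻¹ * y * n) * t⁻¹ * (t * (n : T)⁻¹) := by
      rw [← h1]
    rw [h3]; group

end Cfsg.Agent.S4222
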