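import Mathlib
import Cfsg.Statements.S4223
-- import your own Cfsg.Agent.* helpers here

set_option autoImplicit false
open Cfsg

namespace Cfsg.Agent.S4223


set_option autoImplicit false
set_option linter.all false

section H6KS

open Subgroup

/-- Normal endomorphisms. -/
def IsN {A : Type*} [Group A] (φ : A →* A) : Prop := ∀ a x, φ (a * x * a⁻¹) = a * φ x * a⁻¹

/-- Directly indecomposable groups. -/
def Indec (A : Type*) [Group A] : Prop :=
  Nontrivial A ∧ ∀ H K : Subgroup A, H.Normal → K.Normal → H ⊓ K = ⊥ → H ⊔ K = ⊤ → H = ⊥ ∨ K = ⊥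

/-- Iterates of an endomorphism. -/
def itH {A : Type*} [Group A] (φ : A →* A) : ℕ → (A →* A)
  | 0 => MonoidHom.id A
  | k + 1 => φ.comp (itH φ k)

section one

variable {A : Type*} [Group A]

theorem itH_succ (φ : A →* A) (k : ℕ) (x : A) : itH φ (k + 1) x = φ (itH φ k x) := rfl

theorem itH_zero (φ : A →* A) (x : A) : itH φ 0 x = x := rfl

theorem itH_add (φ : A →* A) (a b : ℕ) (x : A) : itH φ (a + b) x = itH φ a (itH φ b x) := by
  induction a generalizing x with
  | zero => simp [itH_zero]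
  | succ a ih =>
    rw [show a + 1 + b = (a + b) + 1 by omega, itH_succ, itH_succ, ih]

theorem IsN.itH {φ : A →* A} (h : IsN φ) (k : ℕ) : IsN (itH φ k) := by
  induction k with
  | zero => intro a x; rfl
  | succ k ih =>
    intro a x
    rw [itH_succ, itH_succ, ih a x, h]

theorem exists_idem [Finite A] (φ : A →* A) : ∃ k, 1 ≤ k ∧ ∀ x, itH φ k (itH φ k x) = itH φ k x := by
  haveI : Finite (A →* A) := Finite.of_injective (fun f : A →* A => (f : A → A)) DFunLike.coe_injective
  obtain ⟨a, b, hab, hfab⟩ := Finite.exists_ne_map_eq_of_infinite (Cfsg.Agent.S4223.itH φ)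
  wlog hlt : a < b generalizing a b
  · exact this b a hab.symm hfab.symm (by omega)
  obtain ⟨d, rfl⟩ : ∃ d, b = a + d := ⟨b - a, by omega⟩
  have hd : 1 ≤ d := by omega
  have hper : ∀ (s t : ℕ) (x : A), itH φ (a + t) x = itH φ (a + t + s * d) x := by
    intro s t x
    induction s with
    | zero => simp
    | succ s ih =>
      rw [ih]
      have h1 : a + t + (s + 1) * d = (t + s * d) + (a + d) := by ring
      have h2 : a + t + s * d = (t + s * d) + a := by ring
      rw [h1, h2, itH_add φ (t + s * d) (a + d), itH_add φ (t + s * d) a, ← hfab]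
  refine ⟨(a + 1) * d, by nlinarith, ?_⟩
  intro x
  have hk : a ≤ (a + 1) * d := by nlinarith
  obtain ⟨t, ht⟩ : ∃ t, (a + 1) * d = a + t := ⟨(a + 1) * d - a, by omega⟩
  have h1 := hper (a + 1) t x
  rw [← itH_add, ← ht] at *
  rw [h1]

theorem fitting [Finite A] (hA : Indec A) (φ : A →* A) (hφ : IsN φ) :
    Function.Bijective φ ∨ ∃ k, ∀ x, itH φ k x = 1 := by
  obtain ⟨k, hk1, hk⟩ := exists_idem φ
  let e : A →* A := itH φ k
  have he : ∀ x, e (e x) = e x := hk
  have heN : IsN e := hφ.itH k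
  have hK : e.range.Normal := by
    constructor
    rintro _ ⟨x, rfl⟩ a
    exact ⟨a * x * a⁻¹, heN a x⟩
  have hinf : e.ker ⊓ e.range = ⊥ := by
    rw [eq_bot_iff]
    rintro y ⟨hy, ⟨x, rfl⟩⟩
    rw [Subgroup.mem_bot, ← he x]
    exact hy
  have hsup : e.ker ⊔ e.range = ⊤ := by
    rw [eq_top_iff]
    intro x _
    have h1 : x * (e x)⁻¹ ∈ e.ker := by
      rw [MonoidHom.mem_ker, map_mul, map_inv, he, mul_inv_cancel]
    have h2 : e x ∈ e.range := ⟨x, rfl⟩
    have h3 := Subgroup.mul_mem_sup h1 h2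
    simpa using h3
  rcases hA.2 e.ker e.range inferInstance hK hinf hsup with h | h
  · left
    have hinj : Function.Injective e := (MonoidHom.ker_eq_bot_iff e).1 h
    have hid : ∀ x, e x = x := fun x => hinj (he x)
    obtain ⟨k', rfl⟩ : ∃ k', k = k' + 1 := ⟨k - 1, by omega⟩
    have hsurj : Function.Surjective φ := fun x => ⟨itH φ k' x, hid x⟩
    exact ⟨(Finite.injective_iff_surjective).2 hsurj, hsurj⟩
  · right
    refine ⟨k, fun x => ?_⟩
    have h1 : e x ∈ e.range := ⟨x, rfl⟩
    rw [h] at h1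
    exact Subgroup.mem_bot.1 h1

theorem not_nil_of_bij (hnt : Nontrivial A) {φ : A →* A} (hφ : Function.Injective φ) : ¬ ∃ k, ∀ x, itH φ k x = 1 := by
  rintro ⟨k, hk⟩
  have hinj : ∀ k, Function.Injective (itH φ k) := by
    intro k
    induction k with
    | zero => exact fun x y h => h
    | succ k ih =>
      intro x y h
      rw [itH_succ, itH_succ] at h
      exact ih (hφ h)
  obtain ⟨x, hx⟩ := exists_ne (1 : A)
  apply hx
  apply hinj k
  rw [hk, map_one]

theorem sum_nil [Finite A] (hA : Indec A) {φ ψ θ : A →* A} (h1 : IsN φ) (h2 : IsN ψ) (h3 : IsN θ)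
    (hθ : ∀ x, θ x = φ x * ψ x) (hφ : ∃ k, ∀ x, itH φ k x = 1) (hψ : ∃ k, ∀ x, itH ψ k x = 1) :
    ∃ k, ∀ x, itH θ k x = 1 := by
  rcases fitting hA θ h3 with hb | h
  swap
  · exact h
  exfalso
  let t : A ≃* A := MulEquiv.ofBijective θ hb
  have ht : ∀ x, θ (t.symm x) = x := fun x => t.apply_symm_apply x
  have htN : IsN t.symm.toMonoidHom := by
    intro a x
    apply hb.1
    show θ (t.symm (a * x * a⁻¹)) = θ (a * t.symm x * a⁻¹)
    rw [ht, h3, ht]
  let φ' : A →* A := t.symm.toMonoidHom.comp φ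
  let ψ' : A →* A := t.symm.toMonoidHom.comp ψ
  have hφ'N : IsN φ' := by
    intro a x
    show t.symm (φ (a * x * a⁻¹)) = a * t.symm (φ x) * a⁻¹
    rw [h1]
    exact htN a (φ x)
  have hx : ∀ x, x = φ' x * ψ' x := by
    intro x
    apply hb.1
    rw [map_mul]
    show θ x = θ (t.symm (φ x)) * θ (t.symm (ψ x))
    rw [ht, ht, hθ]
  have hφ' : ¬ Function.Bijective φ' := by
    intro hbij
    refine not_nil_of_bij hA.1 (φ := φ) ?_ hφ
    intro a b hab
    apply hbij.1
    show t.symm (φ a) = t.symm (φ b)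
    rw [hab]
  rcases fitting hA φ' hφ'N with h | ⟨k, hk⟩
  · exact hφ' h
  have hψinj : Function.Injective ψ' := by
    rw [injective_iff_map_eq_one]
    intro x hxψ
    have h4 := hx x
    rw [hxψ, mul_one] at h4
    have h5 : ∀ j, itH φ' j x = x := by
      intro j
      induction j with
      | zero => rfl
      | succ j ih => rw [itH_succ, ih]; exact h4.symm
    rw [← h5 k, hk]
  refine not_nil_of_bij hA.1 (φ := ψ) ?_ hψ
  intro a b hab
  apply hψinj
  show t.symm (ψ a) = t.symm (ψ b)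
  rw [hab]

end one

section prod

variable {ι : Type} [DecidableEq ι] {X : ι → Type*} [∀ i, Group (X i)]

/-- Normal endomorphisms of a product. -/
def IsNN (N : (∀ i, X i) →* (∀ i, X i)) : Prop := ∀ w b, N (w * b * w⁻¹) = w * N b * w⁻¹

theorem IsNN.corner {N : (∀ i, X i) →* (∀ i, X i)} (h : IsNN N) (k : ι) :
    IsN ((Pi.evalMonoidHom X k).comp (N.comp (MonoidHom.mulSingle X k))) := by
  intro a x
  show (N (Pi.mulSingle k (a * x * a⁻¹))) k = a * (N (Pi.mulSingle k x)) k * a⁻¹
  have h1 : (Pi.mulSingle k (a * x * a⁻¹) : ∀ i, X i) = Pi.mulSingle k a * Pi.mulSingle k x * (Pi.mulSingle k a)⁻¹ := by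
    rw [Pi.mulSingle_mul, Pi.mulSingle_mul, Pi.mulSingle_inv]
  rw [h1, h]
  simp [Pi.mul_apply, Pi.inv_apply]

/-- Restriction to a set of coordinates. -/
def resH (s : Finset ι) : (∀ i, X i) →* (∀ i, X i) where
  toFun b := fun i => if i ∈ s then b i else 1
  map_one' := by
    funext i
    simp
  map_mul' a b := by
    funext i
    by_cases h : i ∈ s <;> simp [h]

theorem resH_apply (s : Finset ι) (b : ∀ i, X i) (i : ι) : (resH s b) i = if i ∈ s then b i else 1 := rfl

theorem resH_isNN (s : Finset ι) : IsNN (resH (X := X) s) := by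
  intro w b
  funext i
  by_cases h : i ∈ s <;> simp [resH_apply, h, Pi.mul_apply, Pi.inv_apply]

theorem resH_singleton (k : ι) (b : ∀ i, X i) : resH (X := X) {k} b = Pi.mulSingle k (b k) := by
  funext i
  by_cases h : i = k
  · subst h
    simp [resH_apply]
  · simp [resH_apply, h, Pi.mulSingle_eq_of_ne h]

end prod

section main

universe u v

variable {ι κ : Type} {A : ι → Type u} {B : κ → Type v} [∀ i, Group (A i)] [∀ j, Group (B j)]

theorem it_comp {P Q : Type*} [Group P] [Group Q] (f : Q →* P) (g : P →* Q) (k : ℕ) (x : P) :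
    itH (f.comp g) (k + 1) x = f (itH (g.comp f) k (g x)) := by
  induction k with
  | zero => rfl
  | succ k ih =>
    rw [itH_succ, ih, itH_succ (g.comp f) k]
    rfl

theorem isNN_conj [DecidableEq ι] [DecidableEq κ] (e : (∀ i, A i) ≃* (∀ j, B j)) {N : (∀ j, B j) →* (∀ j, B j)}
    (h : IsNN N) : IsNN (e.symm.toMonoidHom.comp (N.comp e.toMonoidHom)) := by
  intro w b
  show e.symm (N (e (w * b * w⁻¹))) = w * e.symm (N (e b)) * w⁻¹
  have h1 : e (w * b * w⁻¹) = e w * e b * (e w)⁻¹ := by simp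
  rw [h1, h, map_mul, map_mul, map_inv, e.symm_apply_apply]

theorem ks_step [Finite ι] [Finite κ]
    [∀ i, Finite (A i)] [∀ j, Finite (B j)] (hA : ∀ i, Indec (A i)) (hB : ∀ j, Indec (B j))
    (e : (∀ i, A i) ≃* (∀ j, B j)) (i₀ : ι) :
    ∃ j₀ : κ, Nonempty (A i₀ ≃* B j₀) ∧
      Nonempty ((∀ i : {i // i ≠ i₀}, A i) ≃* (∀ j : {j // j ≠ j₀}, B j)) := by
  classical
  haveI := Fintype.ofFinite κ
  let ψ : Finset κ → (A i₀ →* A i₀) := fun s =>
    (Pi.evalMonoidHom A i₀).comp ((e.symm.toMonoidHom.comp ((resH s).comp e.toMonoidHom)).comp (MonoidHom.mulSingle A i₀))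
  have hψapp : ∀ s x, ψ s x = (e.symm (resH s (e (Pi.mulSingle i₀ x)))) i₀ := fun s x => rfl
  have hψN : ∀ s, IsN (ψ s) := fun s => IsNN.corner (isNN_conj e (resH_isNN s)) i₀
  have hψuniv : ∀ x, ψ Finset.univ x = x := by
    intro x
    have : resH (X := B) Finset.univ (e (Pi.mulSingle i₀ x)) = e (Pi.mulSingle i₀ x) := by
      funext j
      simp [resH_apply]
    rw [hψapp, this, e.symm_apply_apply]
    simp
  have hψempty : ∀ x, ψ ∅ x = 1 := by
    intro x
    have : resH (X := B) ∅ (e (Pi.mulSingle i₀ x)) = 1 := by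
      funext j
      simp [resH_apply]
    rw [hψapp, this, map_one]
    rfl
  have hψins : ∀ j s, j ∉ s → ∀ x, ψ (insert j s) x = ψ {j} x * ψ s x := by
    intro j s hj x
    have : ∀ b : ∀ j, B j, resH (X := B) (insert j s) b = resH {j} b * resH s b := by
      intro b
      funext i
      rw [Pi.mul_apply, resH_apply, resH_apply, resH_apply]
      by_cases h : i = j
      · subst h
        simp [hj]
      · simp [h]
    rw [hψapp, hψapp, hψapp, this, map_mul]
    rfl
  have hnil : ∀ s : Finset κ, (∀ j ∈ s, ∃ k, ∀ x, itH (ψ {j}) k x = 1) → ∃ k, ∀ x, itH (ψ s) k x = 1 := by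
    intro s
    induction s using Finset.induction_on with
    | empty =>
      intro _
      exact ⟨1, fun x => hψempty _⟩
    | insert j s hj ih =>
      intro h
      exact sum_nil (hA i₀) (hψN {j}) (hψN s) (hψN (insert j s)) (hψins j s hj)
        (h j (Finset.mem_insert_self j s)) (ih fun j' hj' => h j' (Finset.mem_insert_of_mem hj'))
  obtain ⟨j₀, hj₀⟩ : ∃ j₀, ¬ ∃ k, ∀ x, itH (ψ {j₀}) k x = 1 := by
    by_contra hcon
    push Not at hcon
    have h1 := hnil Finset.univ (fun j _ => by simpa using hcon j)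
    refine not_nil_of_bij (hA i₀).1 (φ := ψ Finset.univ) ?_ h1
    intro a b hab
    rwa [hψuniv, hψuniv] at hab
  have hbij : Function.Bijective (ψ {j₀}) := by
    rcases fitting (hA i₀) (ψ {j₀}) (hψN _) with h | h
    · exact h
    · exact absurd h hj₀
  let g : A i₀ →* B j₀ := (Pi.evalMonoidHom B j₀).comp (e.toMonoidHom.comp (MonoidHom.mulSingle A i₀))
  let f : B j₀ →* A i₀ := (Pi.evalMonoidHom A i₀).comp (e.symm.toMonoidHom.comp (MonoidHom.mulSingle B j₀))
  have hfg : ψ {j₀} = f.comp g := by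
    ext x
    rw [hψapp, resH_singleton]
    rfl
  have hθN : IsN (g.comp f) := by
    have h1 := IsNN.corner (N := e.toMonoidHom.comp ((resH {i₀}).comp e.symm.toMonoidHom)) (k := j₀) (by
      have := isNN_conj e.symm (resH_isNN (X := A) {i₀})
      exact this)
    have h2 : (Pi.evalMonoidHom B j₀).comp ((e.toMonoidHom.comp ((resH {i₀}).comp e.symm.toMonoidHom)).comp (MonoidHom.mulSingle B j₀)) = g.comp f := by
      ext y
      show e (resH {i₀} (e.symm (Pi.mulSingle j₀ y))) j₀ = _
      rw [resH_singleton]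
      rfl
    rw [h2] at h1
    exact h1
  have hθbij : Function.Bijective (g.comp f) := by
    rcases fitting (hB j₀) (g.comp f) hθN with h | ⟨k, hk⟩
    · exact h
    · exfalso
      apply hj₀
      refine ⟨k + 1, fun x => ?_⟩
      rw [hfg, it_comp, hk, map_one]
  have hfinj : Function.Injective f := by
    intro a b hab
    apply hθbij.1
    show g (f a) = g (f b)
    rw [hab]
  have hginj : Function.Injective g := by
    intro a b hab
    apply hbij.1
    rw [hfg]
    show f (g a) = f (g b)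
    rw [hab]
  have hgsurj : Function.Surjective g := by
    intro y
    obtain ⟨x, hx⟩ := hθbij.2 y
    exact ⟨f x, hx⟩
  let E₀ : A i₀ ≃* B j₀ := MulEquiv.ofBijective g ⟨hginj, hgsurj⟩
  refine ⟨j₀, ⟨E₀⟩, ?_⟩
  let ext' : (∀ i : {i // i ≠ i₀}, A i) →* (∀ i, A i) :=
    { toFun := fun a' i => if h : i = i₀ then 1 else a' ⟨i, h⟩
      map_one' := by
        funext i
        by_cases h : i = i₀ <;> simp [h]
      map_mul' := by
        intro a b
        funext i
        by_cases h : i = i₀ <;> simp [h] }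
  have hext0 : ∀ a', ext' a' i₀ = 1 := fun a' => by
    show (if h : i₀ = i₀ then 1 else _) = 1
    simp
  have hext1 : ∀ a' (i : {i // i ≠ i₀}), ext' a' i = a' i := fun a' i => by
    show (if h : (i : ι) = i₀ then 1 else _) = _
    simp [i.2]
  let res' : (∀ j, B j) →* (∀ j : {j // j ≠ j₀}, B j) :=
    { toFun := fun b j => b j
      map_one' := rfl
      map_mul' := fun _ _ => rfl }
  let Φ : (∀ i : {i // i ≠ i₀}, A i) →* (∀ j : {j // j ≠ j₀}, B j) := res'.comp (e.toMonoidHom.comp ext')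
  have hΦinj : Function.Injective Φ := by
    rw [injective_iff_map_eq_one]
    intro a' ha'
    have h1 : ∀ j, j ≠ j₀ → e (ext' a') j = 1 := fun j hj => congrFun ha' ⟨j, hj⟩
    have h2 : e (ext' a') = Pi.mulSingle j₀ (e (ext' a') j₀) := by
      funext j
      by_cases hj : j = j₀
      · subst hj
        simp
      · rw [h1 j hj, Pi.mulSingle_eq_of_ne hj]
    have h3 : f (e (ext' a') j₀) = 1 := by
      show e.symm (Pi.mulSingle j₀ (e (ext' a') j₀)) i₀ = 1
      rw [← h2, e.symm_apply_apply, hext0]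
    have h4 : e (ext' a') j₀ = 1 := by
      apply hfinj
      rw [h3, map_one]
    have h5 : e (ext' a') = 1 := by
      rw [h2, h4, Pi.mulSingle_one]
    have h6 : ext' a' = 1 := by
      apply e.injective
      rw [h5, map_one]
    funext i
    have h7 := hext1 a' i
    rw [h6] at h7
    exact h7.symm
  have hcardA : Nat.card (∀ i, A i) = Nat.card (A i₀) * Nat.card (∀ i : {i // i ≠ i₀}, A i) := by
    rw [Nat.card_congr (Equiv.piSplitAt i₀ A), Nat.card_prod]
  have hcardB : Nat.card (∀ j, B j) = Nat.card (B j₀) * Nat.card (∀ j : {j // j ≠ j₀}, B j) := by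
    rw [Nat.card_congr (Equiv.piSplitAt j₀ B), Nat.card_prod]
  have hcard : Nat.card (∀ i : {i // i ≠ i₀}, A i) = Nat.card (∀ j : {j // j ≠ j₀}, B j) := by
    have h1 : Nat.card (∀ i, A i) = Nat.card (∀ j, B j) := Nat.card_congr e.toEquiv
    have h2 : Nat.card (A i₀) = Nat.card (B j₀) := Nat.card_congr E₀.toEquiv
    rw [hcardA, hcardB, h2] at h1
    exact Nat.eq_of_mul_eq_mul_left Nat.card_pos h1
  exact ⟨MulEquiv.ofBijective Φ (hΦinj.bijective_of_nat_card_le hcard.ge)⟩

theorem ks (N : ℕ) : ∀ (ι κ : Type) [Finite ι] [Finite κ] (A : ι → Type u) (B : κ → Type v)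
    [∀ i, Group (A i)] [∀ j, Group (B j)] [∀ i, Finite (A i)] [∀ j, Finite (B j)],
    Nat.card ι = N → (∀ i, Indec (A i)) → (∀ j, Indec (B j)) → ((∀ i, A i) ≃* (∀ j, B j)) →
    ∃ σ : ι ≃ κ, ∀ i, Nonempty (A i ≃* B (σ i)) := by
  induction N with
  | zero =>
    intro ι κ _ _ A B _ _ _ _ hN hA hB e
    classical
    haveI : IsEmpty ι := by
      rw [Nat.card_eq_zero] at hN
      rcases hN with h | h
      · exact h
      · exact absurd h (not_infinite_iff_finite.2 inferInstance)
    haveI : IsEmpty κ := by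
      constructor
      intro j
      haveI := (hB j).1
      obtain ⟨b, hb⟩ := exists_ne (1 : B j)
      apply hb
      have h1 : e.symm (Pi.mulSingle j b) = 1 := Subsingleton.elim _ _
      have h2 : (Pi.mulSingle j b : ∀ j, B j) = 1 := by
        apply e.symm.injective
        rw [h1, map_one]
      have h3 := congrFun h2 j
      simpa using h3
    exact ⟨Equiv.equivOfIsEmpty ι κ, fun i => isEmptyElim i⟩
  | succ N ih =>
    intro ι κ _ _ A B _ _ _ _ hN hA hB e
    classical
    haveI : Nonempty ι := by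
      by_contra hne
      rw [not_nonempty_iff] at hne
      rw [Nat.card_of_isEmpty] at hN
      omega
    obtain ⟨i₀⟩ := ‹Nonempty ι›
    obtain ⟨j₀, ⟨E₀⟩, ⟨E'⟩⟩ := ks_step hA hB e i₀
    have hcard : Nat.card {i // i ≠ i₀} = N := by
      have h1 := Nat.card_congr (Equiv.optionSubtypeNe i₀)
      rw [Finite.card_option, hN] at h1
      omega
    obtain ⟨σ', hσ'⟩ := ih {i // i ≠ i₀} {j // j ≠ j₀} (fun i => A i) (fun j => B j) hcard
      (fun i => hA i) (fun j => hB j) E'
    let σ : ι ≃ κ := (Equiv.optionSubtypeNe i₀).symm.trans ((Equiv.optionCongr σ').trans (Equiv.optionSubtypeNe j₀))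
    have hσ0 : σ i₀ = j₀ := by
      show Equiv.optionSubtypeNe j₀ (Equiv.optionCongr σ' ((Equiv.optionSubtypeNe i₀).symm i₀)) = j₀
      rw [Equiv.optionSubtypeNe_symm_self]
      simp
    have hσ1 : ∀ i (h : i ≠ i₀), σ i = σ' ⟨i, h⟩ := by
      intro i h
      show Equiv.optionSubtypeNe j₀ (Equiv.optionCongr σ' ((Equiv.optionSubtypeNe i₀).symm i)) = _
      rw [Equiv.optionSubtypeNe_symm_of_ne h]
      simp
    refine ⟨σ, fun i => ?_⟩
    by_cases h : i = i₀
    · subst h
      rw [hσ0]
      exact ⟨E₀⟩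
    · rw [hσ1 i h]
      exact hσ' ⟨i, h⟩

end main

end H6KS

/-- If a finite group is isomorphic both to a direct product of `m` directly indecomposable nontrivial groups and to a direct product of `n` such groups (a group is directly indecomposable when it is not the internal direct product of two nontrivial normal subgroups), then `m = n` and the factors are isomorphic in pairs after a suitable matching. -/
theorem result {m n : ℕ} {A : Fin m → Type*} {B : Fin n → Type*} [∀ i, Group (A i)] [∀ j, Group (B j)] [∀ i, Finite (A i)] [∀ j, Finite (B j)] (hA : ∀ i, Nontrivial (A i) ∧ ∀ H K : Subgroup (A i), H.Normal → K.Normal → H ⊓ K = ⊥ → H ⊔ K = ⊤ → H = ⊥ ∨ K = ⊥) (hB : ∀ j, Nontrivial (B j) ∧ ∀ H K : Subgroup (B j), H.Normal → K.Normal → H ⊓ K = ⊥ → H ⊔ K = ⊤ → H = ⊥ ∨ K = ⊥) (e : ((i : Fin m) → A i) ≃* ((j : Fin n) → B j)) : ∃ σ : Fin m ≃ Fin n, ∀ i, Nonempty (A i ≃* B (σ i)) := by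
  exact ks m (Fin m) (Fin n) A B (by simp) hA hB e

end Cfsg.Agent.S4223
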