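import Mathlib
import Cfsg.Statements.S4224
import Cfsg.Agent.Lib.H6Regular
-- import your own Cfsg.Agent.* helpers here

set_option autoImplicit false
open Cfsg

namespace Cfsg.Agent.S4224

/-- In a regular `p`-group, for all elements `a`, `b` and every power `q = p^k`: `a^q` commutes with `b` if and only if the commutator `a⁻¹b⁻¹ab` has `q`-th power equal to `1`. -/
theorem result {G : Type*} [Group G] [Finite G] {p : ℕ} [Fact p.Prime] (hG : Cfsg.IsRegularPGroup p G) (a b : G) (k : ℕ) : a ^ p ^ k * b = b * a ^ p ^ k ↔ (a⁻¹ * b⁻¹ * a * b) ^ p ^ k = 1 := by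
  have h1 := Cfsg.Agent.Lib.H6Regular.key _ G rfl hG k a⁻¹ (b⁻¹ * a⁻¹ * b)
  have h2 : a⁻¹ * (b⁻¹ * a⁻¹ * b)⁻¹ = a⁻¹ * b⁻¹ * a * b := by group
  rw [h2] at h1
  rw [← h1]
  have h3 : (b⁻¹ * a⁻¹ * b) ^ p ^ k = b⁻¹ * (a ^ p ^ k)⁻¹ * b := by
    have h4 := conj_pow (a := b⁻¹) (b := a⁻¹) (i := p ^ k)
    rw [inv_inv] at h4
    rw [h4, inv_pow]
  rw [h3, inv_pow]
  constructor
  · intro h
    have hc : Commute (a ^ p ^ k) b := h
    have h5 : (a ^ p ^ k)⁻¹ * b = b * (a ^ p ^ k)⁻¹ := hc.inv_left.eq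
    rw [mul_assoc, h5]
    group
  · intro h
    have h5 : (a ^ p ^ k)⁻¹ * b = b * (a ^ p ^ k)⁻¹ := by
      calc (a ^ p ^ k)⁻¹ * b = b * (b⁻¹ * (a ^ p ^ k)⁻¹ * b) := by group
        _ = b * (a ^ p ^ k)⁻¹ := by rw [← h]
    have h6 : a ^ p ^ k * ((a ^ p ^ k)⁻¹ * b) * a ^ p ^ k = a ^ p ^ k * (b * (a ^ p ^ k)⁻¹) * a ^ p ^ k := by
      rw [h5]
    have h7 : a ^ p ^ k * ((a ^ p ^ k)⁻¹ * b) * a ^ p ^ k = b * a ^ p ^ k := by group
    have h8 : a ^ p ^ k * (b * (a ^ p ^ k)⁻¹) * a ^ p ^ k = a ^ p ^ k * b := by group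
    rw [h7, h8] at h6
    exact h6.symm

end Cfsg.Agent.S4224
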