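import Cfsg.Statements.S4275


set_option autoImplicit false
set_option linter.all false
open Cfsg

namespace Cfsg.Agent.S4275

/-- Let G be a transitive group of permutations of a finite set Ω, let o ∈ Ω, and let α be an automorphism of G. Then α is induced by conjugation by a permutation of Ω normalizing G if and only if the image under α of the stabilizer of o fixes some point of Ω. -/
theorem result {Ω : Type*} [Fintype Ω] (G : Subgroup (Equiv.Perm Ω)) (htr : MulAction.IsPretransitive G Ω) (o : Ω) (α : G ≃* G) : (∃ σ : Equiv.Perm Ω, σ ∈ Subgroup.normalizer (G : Set (Equiv.Perm Ω)) ∧ ∀ g : G, ((α g : G) : Equiv.Perm Ω) = σ * (g : Equiv.Perm Ω) * σ⁻¹) ↔ ∃ ω : Ω, ∀ g ∈ (MulAction.stabilizer G o).map α.toMonoidHom, g • ω = ω := by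
  classical
  haveI := htr
  constructor
  · rintro ⟨σ, -, hσ⟩
    refine ⟨σ o, ?_⟩
    rintro g ⟨h, hh, rfl⟩
    change ((α h : G) : Equiv.Perm Ω) (σ o) = σ o
    rw [hσ]
    have h1 : h • o = o := hh
    have h2 : (h : Equiv.Perm Ω) o = o := h1
    have h3 : σ⁻¹ (σ o) = o := by simp
    simp only [Equiv.Perm.coe_mul, Function.comp_apply]
    rw [h3, h2]
  · rintro ⟨ω, hω⟩
    -- the map
    have hwd : ∀ g g' : G, g • o = g' • o → α g • ω = α g' • ω := by
      intro g g' h
      have h1 : g'⁻¹ * g ∈ MulAction.stabilizer G o := by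
        rw [MulAction.mem_stabilizer_iff, mul_smul, h, inv_smul_smul]
      have h2 := hω (α (g'⁻¹ * g)) ⟨_, h1, rfl⟩
      rw [map_mul, map_inv, mul_smul, inv_smul_eq_iff] at h2
      exact h2
    choose r hr using fun y : Ω => MulAction.exists_smul_eq G o y
    let f : Ω → Ω := fun y => α (r y) • ω
    have hf : ∀ g : G, f (g • o) = α g • ω := fun g => hwd _ _ (hr _)
    have hfeq : ∀ (g : G) (y : Ω), f (g • y) = α g • f y := by
      intro g y
      have h1 : g • y = (g * r y) • o := by rw [mul_smul, hr]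
      rw [h1, hf, map_mul, mul_smul]
    have hsurj : Function.Surjective f := by
      intro y
      obtain ⟨g, hg⟩ := MulAction.exists_smul_eq G ω y
      refine ⟨(α.symm g) • o, ?_⟩
      rw [hf]
      simpa using hg
    have hbij : Function.Bijective f := ⟨Finite.injective_iff_surjective.mpr hsurj, hsurj⟩
    let σ : Equiv.Perm Ω := Equiv.ofBijective f hbij
    have hσ : ∀ y, σ y = f y := fun y => rfl
    have hconj : ∀ g : G, ((α g : G) : Equiv.Perm Ω) = σ * (g : Equiv.Perm Ω) * σ⁻¹ := by
      intro g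
      ext y
      obtain ⟨z, rfl⟩ := σ.surjective y
      have h3 : σ⁻¹ (σ z) = z := by simp
      simp only [Equiv.Perm.coe_mul, Function.comp_apply]
      rw [h3, hσ, hσ]
      exact (hfeq g z).symm
    refine ⟨σ, ?_, hconj⟩
    rw [Subgroup.mem_normalizer_iff]
    intro h
    constructor
    · intro hh
      have := hconj ⟨h, hh⟩
      change _ = σ * h * σ⁻¹ at this
      rw [← this]
      exact (α ⟨h, hh⟩).2
    · intro hh
      have h1 := hconj (α.symm ⟨_, hh⟩)
      simp only [MulEquiv.apply_symm_apply] at h1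
      have h2 : h = ((α.symm ⟨_, hh⟩ : G) : Equiv.Perm Ω) := by
        have h3 := mul_left_cancel (a := σ) (b := h) (c := ((α.symm ⟨_, hh⟩ : G) : Equiv.Perm Ω))
          (mul_right_cancel (b := σ⁻¹) h1)
        exact h3
      rw [h2]
      exact (α.symm ⟨_, hh⟩).2

end Cfsg.Agent.S4275
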