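import Cfsg.Statements.S4276
import Cfsg.Agent.Lib.OddAutDesign

set_option autoImplicit false
set_option linter.all false
open Cfsg

namespace Cfsg.Agent.S4276

/-- Let G be a doubly transitive group of permutations of a finite set Ω of size n, let o ∈ Ω, and let α be an automorphism of G of odd order. Suppose that the image under α of the stabilizer of o has an orbit on Ω whose length k is coprime to n. Then α is induced by conjugation by a permutation of Ω normalizing G, and k = 1 or k = n − 1. -/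
theorem result {Ω : Type*} [Fintype Ω] (G : Subgroup (Equiv.Perm Ω)) (h2 : MulAction.IsMultiplyPretransitive G Ω 2) (o : Ω) (α : MulAut G) (hα : Odd (orderOf α)) (ω : Ω) (hk : (Nat.card (MulAction.orbit ((MulAction.stabilizer G o).map α.toMonoidHom) ω)).Coprime (Fintype.card Ω)) : (∃ σ : Equiv.Perm Ω, σ ∈ Subgroup.normalizer (G : Set (Equiv.Perm Ω)) ∧ ∀ g : G, ((α g : G) : Equiv.Perm Ω) = σ * (g : Equiv.Perm Ω) * σ⁻¹) ∧ (Nat.card (MulAction.orbit ((MulAction.stabilizer G o).map α.toMonoidHom) ω) = 1 ∨ Nat.card (MulAction.orbit ((MulAction.stabilizer G o).map α.toMonoidHom) ω) = Fintype.card Ω - 1) := by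
  classical
  set K := (MulAction.stabilizer G o).map α.toMonoidHom with hK
  have h2' : ∀ a b c d : Ω, a ≠ b → c ≠ d → ∃ g : G, g • a = c ∧ g • b = d := by
    intro a b c d hab hcd
    exact (MulAction.is_two_pretransitive_iff.1 h2) hab hcd
  have htr : ∀ a b : Ω, ∃ g : G, g • a = b := by
    intro a b
    by_cases h : a = b
    · exact ⟨1, by simp [h]⟩
    · obtain ⟨g, hg, _⟩ := h2' a b b a h (Ne.symm h)
      exact ⟨g, hg⟩
  let B : Finset Ω := (MulAction.orbit K ω).toFinset
  have hBcard : Nat.card (MulAction.orbit K ω) = B.card := by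
    rw [Nat.card_eq_fintype_card, Set.toFinset_card]
  have hBmem : ∀ y, y ∈ B ↔ y ∈ MulAction.orbit K ω := fun y => Set.mem_toFinset
  have hωB : ω ∈ B := (hBmem ω).2 (MulAction.mem_orbit_self ω)
  have hB : ∀ h : G, h • o = o → ∀ y ∈ B, α h • y ∈ B := by
    intro h hh y hy
    rw [hBmem] at hy ⊢
    obtain ⟨u, rfl⟩ := hy
    have hmem : α h ∈ K := Subgroup.mem_map_of_mem _ (MulAction.mem_stabilizer_iff.2 hh)
    refine ⟨⟨α h, hmem⟩ * u, ?_⟩
    simp only [mul_smul]
    rfl
  have hcop : Nat.Coprime B.card (Fintype.card Ω) := by rw [← hBcard]; exact hk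
  have hαm : ∀ g, (α ^ orderOf α) g = g := by
    intro g; rw [pow_orderOf_eq_one]; rfl
  have hmain := Cfsg.Agent.Lib.OddAutDesign.design_main h2' htr α _ hα hαm o B hB ⟨ω, hωB⟩ hcop
  have hfix : ∃ ω₀ : Ω, ∀ h : G, h • o = o → α h • ω₀ = ω₀ := by
    rcases hmain with h1 | h1
    · refine ⟨ω, fun h hh => ?_⟩
      exact Finset.card_le_one.1 h1.le _ (hB h hh _ hωB) _ hωB
    · have hpos : 0 < B.card := Finset.card_pos.2 ⟨ω, hωB⟩
      have hc : (Bᶜ).card = 1 := by
        rw [Finset.card_compl]; omega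
      obtain ⟨ω₀, hω₀⟩ := Finset.card_eq_one.1 hc
      have hω₀' : ω₀ ∈ Bᶜ := by rw [hω₀]; exact Finset.mem_singleton_self _
      refine ⟨ω₀, fun h hh => ?_⟩
      have hnot : α h • ω₀ ∈ Bᶜ := by
        rw [Finset.mem_compl]
        intro hcon
        have hh' : h⁻¹ • o = o := by rw [inv_smul_eq_iff, hh]
        have := hB h⁻¹ hh' _ hcon
        rw [map_inv, inv_smul_smul] at this
        exact (Finset.mem_compl.1 hω₀') this
      rw [hω₀] at hnot
      exact Finset.mem_singleton.1 hnot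
  obtain ⟨ω₀, hω₀⟩ := hfix
  obtain ⟨σ, hσ⟩ := Cfsg.Agent.Lib.OddAutDesign.exists_twist_perm htr α o ω₀ hω₀
  have hconj : ∀ g : G, ((α g : G) : Equiv.Perm Ω) = σ * (g : Equiv.Perm Ω) * σ⁻¹ := by
    intro g
    rw [eq_mul_inv_iff_mul_eq]
    ext x
    exact (hσ g x).symm
  refine ⟨⟨σ, ?_, hconj⟩, ?_⟩
  · rw [Subgroup.mem_normalizer_iff]
    intro h
    constructor
    · intro hh
      have := hconj ⟨h, hh⟩
      simp only at this
      rw [← this]
      exact (α ⟨h, hh⟩).2
    · intro hh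
      have e := hconj (α.symm ⟨_, hh⟩)
      simp only [MulEquiv.apply_symm_apply] at e
      have e2 : ((α.symm ⟨_, hh⟩ : G) : Equiv.Perm Ω) = h := by
        have e3 : σ * ((α.symm ⟨_, hh⟩ : G) : Equiv.Perm Ω) * σ⁻¹ = σ * h * σ⁻¹ := e.symm
        simpa using e3
      rw [← e2]
      exact (α.symm ⟨_, hh⟩).2
  · rw [hBcard]; exact hmain

end Cfsg.Agent.S4276
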