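import Cfsg.Statements.S4283
import Mathlib
import Cfsg.Agent.S0034
import Cfsg.Agent.S0035

set_option autoImplicit false
open Cfsg

namespace Cfsg.Agent.S4283

open scoped Pointwise

theorem mem_cent {G : Type*} [Group G] (x g : G) :
    g ∈ Subgroup.centralizer ({x} : Set G) ↔ x * g = g * x := by
  simp [Subgroup.mem_centralizer_iff]

theorem index_cent_conj {G : Type*} [Group G] (u x : G) :
    (Subgroup.centralizer ({u * x * u⁻¹} : Set G)).index =
      (Subgroup.centralizer ({x} : Set G)).index := by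
  have e : Subgroup.centralizer ({u * x * u⁻¹} : Set G) =
      (Subgroup.centralizer ({x} : Set G)).map ((MulAut.conj u : G ≃* G) : G →* G) := by
    ext g
    rw [mem_cent, Subgroup.mem_map]
    constructor
    · intro h
      refine ⟨u⁻¹ * g * u, ?_, ?_⟩
      · rw [mem_cent]
        have : u⁻¹ * (u * x * u⁻¹ * g) * u = u⁻¹ * (g * (u * x * u⁻¹)) * u := by rw [h]
        calc x * (u⁻¹ * g * u) = u⁻¹ * (u * x * u⁻¹ * g) * u := by group
          _ = u⁻¹ * (g * (u * x * u⁻¹)) * u := this
          _ = _ := by group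
      · show (MulAut.conj u) (u⁻¹ * g * u) = g
        rw [MulAut.conj_apply]; group
    · rintro ⟨y, hy, rfl⟩
      rw [mem_cent] at hy
      show u * x * u⁻¹ * (MulAut.conj u) y = (MulAut.conj u) y * (u * x * u⁻¹)
      rw [MulAut.conj_apply]
      calc u * x * u⁻¹ * (u * y * u⁻¹) = u * (x * y) * u⁻¹ := by group
        _ = u * (y * x) * u⁻¹ := by rw [hy]
        _ = _ := by group
  rw [e]
  exact Subgroup.index_map_equiv _ _

theorem frob_comm {Q : Type*} [Group Q] (Hq : Subgroup Q)
    (hF : ∀ g : Q, g ∉ Hq → Hq ⊓ (MulAut.conj g • Hq) = ⊥) (h x : Q) (hh : h ∈ Hq) (h1 : h ≠ 1)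
    (hc : x * h = h * x) : x ∈ Hq := by
  by_contra hx
  have hmem : h ∈ Hq ⊓ (MulAut.conj x • Hq) := by
    refine ⟨hh, ?_⟩
    show h ∈ MulAut.conj x • Hq
    rw [Subgroup.mem_pointwise_smul_iff_inv_smul_mem, MulAut.smul_def, MulAut.conj_inv_apply]
    have : x⁻¹ * h * x = h := by
      rw [mul_assoc, ← hc]; group
    rw [this]; exact hh
  rw [hF x hx, Subgroup.mem_bot] at hmem
  exact h1 hmem

/-- Let G be a finite group with centre Z and let K, H be abelian subgroups of G containing Z such that G/Z is a Frobenius group with complement H/Z and kernel K/Z. Then the conjugacy class sizes of G are exactly 1, [G : K] and [G : H], and these two indices are coprime. (This is the converse half of the characterization of finite groups whose conjugacy class sizes are exactly 1, m and n with m and n coprime.) -/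
theorem result {G : Type*} [Group G] [Finite G] (K H : Subgroup G) (hZK : Subgroup.center G ≤ K) (hZH : Subgroup.center G ≤ H) (hK : IsMulCommutative K) (hH : IsMulCommutative H) (hFrob : Cfsg.IsFrobeniusComplement (H.map (QuotientGroup.mk' (Subgroup.center G)))) (hker : Cfsg.frobeniusKernel (H.map (QuotientGroup.mk' (Subgroup.center G))) = (K.map (QuotientGroup.mk' (Subgroup.center G)) : Set (G ⧸ Subgroup.center G))) : Set.range (fun x : G => (Subgroup.centralizer ({x} : Set G)).index) = ({1, K.index, H.index} : Set ℕ) ∧ K.index.Coprime H.index := by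
  classical
  let Z := Subgroup.center G
  let mk := QuotientGroup.mk' Z
  have hmk : Function.Surjective mk := QuotientGroup.mk'_surjective Z
  have hkermk : mk.ker = Z := QuotientGroup.ker_mk' Z
  set Hb := H.map mk with hHb
  set Kb := K.map mk with hKb
  obtain ⟨hHbot, hHtop, hF⟩ := id hFrob
  obtain ⟨N, hNs, hNn, hcomp⟩ := Cfsg.Agent.S0035.result Hb hFrob
  have hNK : N = Kb := by
    apply SetLike.coe_injective
    rw [hNs, hker]
  subst hNK
  have hc34 := Cfsg.Agent.S0034.result Hb hFrob
  have hmemK : ∀ g : G, mk g ∈ K.map mk ↔ g ∈ K := by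
    intro g
    have : (K.map mk).comap mk = K := Subgroup.comap_map_eq_self (by rw [hkermk]; exact hZK)
    conv_rhs => rw [← this]
    rfl
  have hmemH : ∀ g : G, mk g ∈ H.map mk ↔ g ∈ H := by
    intro g
    have : (H.map mk).comap mk = H := Subgroup.comap_map_eq_self (by rw [hkermk]; exact hZH)
    conv_rhs => rw [← this]
    rfl
  have hone : ∀ g : G, mk g = 1 ↔ g ∈ Z := by
    intro g
    exact QuotientGroup.eq_one_iff g
  have hKb' : ∀ y : G ⧸ Z, y ∈ K.map mk ↔ (y = 1 ∨ ∀ u : G ⧸ Z, y ∉ MulAut.conj u • H.map mk) := by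
    intro y
    have : y ∈ (K.map mk : Set (G ⧸ Z)) ↔ y ∈ Cfsg.frobeniusKernel (H.map mk) := by
      rw [← hHb, hker]
    exact this
  have hA : ∀ y : G ⧸ Z, y ∉ K.map mk → y ≠ 1 ∧ ∃ u : G ⧸ Z, u⁻¹ * y * u ∈ H.map mk := by
    intro y hy
    rw [hKb'] at hy
    push Not at hy
    refine ⟨hy.1, ?_⟩
    obtain ⟨u, hu⟩ := hy.2
    refine ⟨u, ?_⟩
    have hu' : y ∈ MulAut.conj u • H.map mk := hu
    rw [Subgroup.mem_pointwise_smul_iff_inv_smul_mem, MulAut.smul_def, MulAut.conj_inv_apply] at hu'
    exact hu'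
  have hB : ∀ y : G ⧸ Z, y ∈ K.map mk → y ≠ 1 → ∀ u : G ⧸ Z, u⁻¹ * y * u ∉ H.map mk := by
    intro y hy hy1 u hu
    rw [hKb'] at hy
    rcases hy with hy | hy
    · exact hy1 hy
    · apply hy u
      show y ∈ MulAut.conj u • H.map mk
      rw [Subgroup.mem_pointwise_smul_iff_inv_smul_mem, MulAut.smul_def, MulAut.conj_inv_apply]
      exact hu
  have hcentK : ∀ x ∈ K, x ∉ Z → Subgroup.centralizer ({x} : Set G) = K := by
    intro x hx hxZ
    apply le_antisymm
    · intro g hg
      rw [mem_cent] at hg
      by_contra hgK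
      have hgK' : mk g ∉ K.map mk := fun h => hgK ((hmemK g).1 h)
      obtain ⟨hg1, u, hu⟩ := hA _ hgK'
      apply hB (mk x) ((hmemK x).2 hx) (fun h => hxZ ((hone x).1 h)) u
      apply frob_comm _ hF (u⁻¹ * mk g * u) _ hu
      · intro h
        apply hg1
        have : mk g = u * (u⁻¹ * mk g * u) * u⁻¹ := by group
        rw [this, h]; group
      · have e : mk x * mk g = mk g * mk x := by
          rw [← map_mul, ← map_mul, hg]
        calc u⁻¹ * mk x * u * (u⁻¹ * mk g * u) = u⁻¹ * (mk x * mk g) * u := by group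
          _ = u⁻¹ * (mk g * mk x) * u := by rw [e]
          _ = _ := by group
    · intro g hg
      rw [mem_cent]
      have := hK.is_comm.comm (⟨x, hx⟩ : K) ⟨g, hg⟩
      exact congrArg Subtype.val this
  have hcentH : ∀ x ∈ H, x ∉ Z → Subgroup.centralizer ({x} : Set G) = H := by
    intro x hx hxZ
    apply le_antisymm
    · intro g hg
      rw [mem_cent] at hg
      rw [← hmemH]
      apply frob_comm _ hF (mk x) _ ((hmemH x).2 hx) (fun h => hxZ ((hone x).1 h))
      rw [← map_mul, ← map_mul, hg]
    · intro g hg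
      rw [mem_cent]
      have := hH.is_comm.comm (⟨x, hx⟩ : H) ⟨g, hg⟩
      exact congrArg Subtype.val this
  have hcentZ : ∀ x ∈ Z, Subgroup.centralizer ({x} : Set G) = ⊤ := by
    intro x hx
    rw [eq_top_iff]
    intro g _
    rw [mem_cent]
    exact (Subgroup.mem_center_iff.1 hx g).symm
  have hcKb : Nat.card (K.map mk) = (H.map mk).index := by
    rw [← hc34.1, hker]
    rfl
  have hKbbot : K.map mk ≠ ⊥ := by
    intro h
    apply hHtop
    rw [h, Subgroup.card_bot] at hcKb
    exact Subgroup.index_eq_one.1 hcKb.symm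
  have hexK : ∃ x ∈ K, x ∉ Z := by
    by_contra h
    push Not at h
    apply hKbbot
    rw [eq_bot_iff]
    rintro _ ⟨x, hx, rfl⟩
    rw [Subgroup.mem_bot]
    exact (hone x).2 (h x hx)
  have hexH : ∃ x ∈ H, x ∉ Z := by
    by_contra h
    push Not at h
    apply hHbot
    rw [eq_bot_iff]
    rintro _ ⟨x, hx, rfl⟩
    rw [Subgroup.mem_bot]
    exact (hone x).2 (h x hx)
  constructor
  · ext n
    simp only [Set.mem_range, Set.mem_insert_iff, Set.mem_singleton_iff]
    constructor
    · rintro ⟨x, rfl⟩
      by_cases hxZ : x ∈ Z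
      · left
        rw [hcentZ x hxZ, Subgroup.index_top]
      · by_cases hxK : x ∈ K
        · right; left
          rw [hcentK x hxK hxZ]
        · right; right
          have hxK' : mk x ∉ K.map mk := fun h => hxK ((hmemK x).1 h)
          obtain ⟨_, u, hu⟩ := hA _ hxK'
          obtain ⟨v, rfl⟩ := hmk u
          have e : (mk v)⁻¹ * mk x * mk v = mk (v⁻¹ * x * v) := by simp
          rw [e, hmemH] at hu
          have hZ' : v⁻¹ * x * v ∉ Z := by
            intro h
            apply hxZ
            have : x = v * (v⁻¹ * x * v) * v⁻¹ := by group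
            rw [this]
            exact (Subgroup.normal_of_characteristic _).conj_mem _ h v
          rw [← hcentH _ hu hZ']
          have := index_cent_conj v (v⁻¹ * x * v)
          have e2 : v * (v⁻¹ * x * v) * v⁻¹ = x := by group
          rw [e2] at this
          exact this
    · rintro (rfl | rfl | rfl)
      · exact ⟨1, by rw [hcentZ 1 Z.one_mem, Subgroup.index_top]⟩
      · obtain ⟨x, hx, hxZ⟩ := hexK
        exact ⟨x, by rw [hcentK x hx hxZ]⟩
      · obtain ⟨x, hx, hxZ⟩ := hexH
        exact ⟨x, by rw [hcentH x hx hxZ]⟩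
  · have e1 : K.index = Nat.card (H.map mk) := by
      rw [← hcomp.symm.index_eq_card]
      exact (Subgroup.index_map_eq _ hmk (by rw [hkermk]; exact hZK)).symm
    have e2 : H.index = (H.map mk).index :=
      (Subgroup.index_map_eq _ hmk (by rw [hkermk]; exact hZH)).symm
    rw [e1, e2]
    have h3 : (H.map mk).index ≡ 1 [MOD Nat.card (H.map mk)] := hc34.2
    have := h3.gcd_eq
    rw [Nat.coprime_comm]
    unfold Nat.Coprime
    rw [this]
    simp

end Cfsg.Agent.S4283
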