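import Cfsg.Statements.S4290
import Cfsg.Agent.S4276

set_option autoImplicit false
set_option linter.all false
open Cfsg

namespace Cfsg.Agent.S4290

/-- Let G be a doubly transitive group of permutations of a finite set Ω in which a point stabilizer is a Hall subgroup of G (its order is coprime to its index). Then every automorphism of G of odd order is induced by conjugation by a permutation of Ω normalizing G. -/
theorem result {Ω : Type*} [Fintype Ω] (G : Subgroup (Equiv.Perm Ω)) (h2 : MulAction.IsMultiplyPretransitive G Ω 2) (o : Ω) (hHall : (Nat.card (MulAction.stabilizer G o)).Coprime (MulAction.stabilizer G o).index) (α : MulAut G) (hα : Odd (orderOf α)) : ∃ σ : Equiv.Perm Ω, σ ∈ Subgroup.normalizer (G : Set (Equiv.Perm Ω)) ∧ ∀ g : G, ((α g : G) : Equiv.Perm Ω) = σ * (g : Equiv.Perm Ω) * σ⁻¹ := by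
  classical
  have hk : (Nat.card (MulAction.orbit ((MulAction.stabilizer G o).map α.toMonoidHom) o)).Coprime (Fintype.card Ω) := by
    have h2' : ∀ a b c d : Ω, a ≠ b → c ≠ d → ∃ g : G, g • a = c ∧ g • b = d := by
      intro a b c d hab hcd
      exact (MulAction.is_two_pretransitive_iff.1 h2) hab hcd
    have htr : ∀ a b : Ω, ∃ g : G, g • a = b := by
      intro a b
      by_cases h : a = b
      · exact ⟨1, by simp [h]⟩
      · obtain ⟨g, hg, _⟩ := h2' a b b a h (Ne.symm h)
        exact ⟨g, hg⟩
    have : MulAction.IsPretransitive G Ω := ⟨fun a b => htr a b⟩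
    have hindex : (MulAction.stabilizer G o).index = Fintype.card Ω := by
      rw [← Nat.card_eq_fintype_card, ← MulAction.index_stabilizer_of_transitive G o]
    have hdvd : Nat.card (MulAction.orbit ((MulAction.stabilizer G o).map α.toMonoidHom) o)
        ∣ Nat.card (MulAction.stabilizer G o) := by
      have h1 : Nat.card (MulAction.orbit ((MulAction.stabilizer G o).map α.toMonoidHom) o)
          ∣ Nat.card ((MulAction.stabilizer G o).map α.toMonoidHom) := by
        rw [Nat.card_congr (MulAction.orbitEquivQuotientStabilizer _ o)]
        exact Subgroup.card_quotient_dvd_card _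
      have h2 : Nat.card ((MulAction.stabilizer G o).map α.toMonoidHom) = Nat.card (MulAction.stabilizer G o) :=
        Subgroup.card_map_of_injective α.injective
      rwa [h2] at h1
    rw [← hindex]
    exact Nat.Coprime.coprime_dvd_left hdvd hHall
  exact (Cfsg.Agent.S4276.result G h2 o α hα o hk).1

end Cfsg.Agent.S4290
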