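import Cfsg.Statements.S4293
import Cfsg.Agent.Lib.FrobSmall

set_option autoImplicit false
set_option linter.all false
open Cfsg

namespace Cfsg.Agent.S4293

open scoped Pointwise

/-- A nontrivial finite subgroup of the multiplicative group of a division ring occurs as a Frobenius complement of some finite Frobenius group. -/
theorem result {D : Type*} [DivisionRing D] (H : Subgroup Dˣ) [Finite H] (hH : H ≠ ⊥) :
    ∃ (L : Type) (_ : Group L) (_ : Finite L) (C : Subgroup L), Cfsg.IsFrobeniusComplement C ∧ Nonempty (H ≃* C) := by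
  classical
  set S : Set D := (fun u : Dˣ => (u : D)) '' (H : Set Dˣ) with hS
  have hSfin : S.Finite := (Set.toFinite (H : Set Dˣ)).image _
  set R : Submodule ℤ D := Submodule.span ℤ S with hR
  have hSR : ∀ u ∈ H, ((u : Dˣ) : D) ∈ R := fun u hu => Submodule.subset_span ⟨u, hu, rfl⟩
  have hRfg : R.FG := Submodule.fg_span hSfin
  have hLmul : ∀ u ∈ H, ∀ x ∈ R, ((u : Dˣ) : D) * x ∈ R := by
    intro u hu x hx
    induction hx using Submodule.span_induction with
    | mem x hx =>
      obtain ⟨v, hv, rfl⟩ := hx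
      have : ((u * v : Dˣ) : D) ∈ R := hSR _ (H.mul_mem hu hv)
      simpa using this
    | zero => rw [mul_zero]; exact R.zero_mem
    | add a b _ _ ha hb => rw [mul_add]; exact R.add_mem ha hb
    | smul n a _ ha => rw [mul_smul_comm]; exact R.smul_mem n ha
  have hRmul : ∀ x ∈ R, ∀ y ∈ R, x * y ∈ R := by
    intro x hx y hy
    induction hx using Submodule.span_induction with
    | mem x hx =>
      obtain ⟨v, hv, rfl⟩ := hx
      exact hLmul v hv y hy
    | zero => rw [zero_mul]; exact R.zero_mem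
    | add a b _ _ ha hb => rw [add_mul]; exact R.add_mem ha hb
    | smul n a _ ha => rw [smul_mul_assoc]; exact R.smul_mem n ha
  have h1R : (1 : D) ∈ R := by
    have := hSR 1 H.one_mem
    simpa using this
  have hpowR : ∀ (x : D), x ∈ R → ∀ j : ℕ, x ^ j ∈ R := by
    intro x hx j
    induction j with
    | zero => simpa using h1R
    | succ j ih => rw [pow_succ]; exact hRmul _ ih _ hx
  -- the choice of the prime
  obtain ⟨p, hp, hpH, hpc⟩ : ∃ p : ℕ, p.Prime ∧ ¬ p ∣ Nat.card H ∧ (ringChar D = 0 ∨ ringChar D = p) := by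
    by_cases hc0 : ringChar D = 0
    · obtain ⟨p, hple, hp⟩ := Nat.exists_infinite_primes (Nat.card H + 1)
      refine ⟨p, hp, fun hd => ?_, Or.inl hc0⟩
      have := Nat.le_of_dvd Nat.card_pos hd
      omega
    · have hcp : (ringChar D).Prime :=
        (CharP.char_is_prime_or_zero D (ringChar D)).resolve_right hc0
      refine ⟨ringChar D, hcp, fun hd => ?_, Or.inr rfl⟩
      haveI : Fact (ringChar D).Prime := ⟨hcp⟩
      obtain ⟨x, hx⟩ := exists_prime_orderOf_dvd_card' (p := ringChar D) hd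
      have h1 : ((x : Dˣ) : D) ^ (ringChar D) = 1 := by
        have h2 : x ^ (ringChar D) = 1 := by rw [← hx]; exact pow_orderOf_eq_one x
        have h3 : (((x ^ (ringChar D) : H) : Dˣ) : D) = 1 := by rw [h2]; rfl
        simpa using h3
      haveI : CharP D (ringChar D) := ringChar.charP D
      have h4 : (((x : Dˣ) : D) - 1) ^ (ringChar D) = 0 := by
        rw [sub_pow_char_of_commute (ringChar D) (Commute.one_right _), h1, one_pow, sub_self]
      have h5 : ((x : Dˣ) : D) = 1 := sub_eq_zero.1 (pow_eq_zero_iff hcp.ne_zero |>.1 h4)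
      have h6 : x = 1 := Subtype.ext (Units.ext h5)
      rw [h6, orderOf_one] at hx
      exact hcp.one_lt.ne hx
  haveI hpf : Fact p.Prime := ⟨hp⟩
  -- the subgroup `pR`
  set N : Submodule ℤ D := (p : ℤ) • R with hN
  have hNmem : ∀ x, x ∈ N ↔ ∃ y ∈ R, (p : ℤ) • y = x := fun x => Submodule.mem_smul_pointwise_iff_exists x _ R
  have hNR : N ≤ R := by
    intro x hx
    obtain ⟨y, hy, rfl⟩ := (hNmem x).1 hx
    exact R.smul_mem _ hy
  set Q : Submodule ℤ R := N.comap R.subtype with hQ
  -- nontriviality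
  have hnt : Q ≠ ⊤ := by
    intro htop
    have hle : R ≤ Ideal.span {(p : ℤ)} • R := by
      rw [Submodule.ideal_span_singleton_smul]
      intro x hx
      have h1 : (⟨x, hx⟩ : R) ∈ Q := by rw [htop]; trivial
      exact h1
    obtain ⟨r, hr1, hr2⟩ := Submodule.exists_sub_one_mem_and_smul_eq_zero_of_fg_of_le_smul _ R hRfg hle
    have h2 := hr2 1 h1R
    have h3 : ((r : ℤ) : D) = 0 := by simpa using h2
    haveI : CharP D (ringChar D) := ringChar.charP D
    have h4 : ((ringChar D : ℕ) : ℤ) ∣ r := (CharP.intCast_eq_zero_iff D (ringChar D) r).1 h3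
    have h5 : (p : ℤ) ∣ r := by
      rcases hpc with hc | hc
      · rw [hc] at h4
        have : r = 0 := by simpa using h4
        rw [this]; exact dvd_zero _
      · rwa [hc] at h4
    have h6 : (p : ℤ) ∣ r - 1 := Ideal.mem_span_singleton.1 hr1
    have h7 : (p : ℤ) ∣ 1 := by
      have := dvd_sub h5 h6
      simpa using this
    have h8 : p ∣ 1 := by exact_mod_cast h7
    exact hp.one_lt.ne' (Nat.dvd_one.1 h8)
  -- left multiplication
  let Lm : H → (R →ₗ[ℤ] R) := fun u =>
    { toFun := fun x => ⟨((u : Dˣ) : D) * x, hLmul u u.2 x x.2⟩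
      map_add' := fun a b => Subtype.ext (mul_add _ _ _)
      map_smul' := fun n a => Subtype.ext (mul_smul_comm _ _ _) }
  have hLQ : ∀ u : H, Q ≤ Q.comap (Lm u) := by
    intro u x hx
    have hx' : (x : D) ∈ N := hx
    obtain ⟨y, hy, hyx⟩ := (hNmem _).1 hx'
    show ((u : Dˣ) : D) * (x : D) ∈ N
    rw [hNmem]
    exact ⟨_, hLmul u u.2 y hy, by rw [← hyx, mul_smul_comm]⟩
  let V := R ⧸ Q
  let M : H → (V →ₗ[ℤ] V) := fun u => Q.mapQ Q (Lm u) (hLQ u)
  have hM : ∀ (u : H) (x : R), M u (Q.mkQ x) = Q.mkQ (Lm u x) := fun u x => rfl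
  have hMmul : ∀ (u v : H) (x : V), M (u * v) x = M u (M v x) := by
    intro u v x
    obtain ⟨x, rfl⟩ := Q.mkQ_surjective x
    rw [hM, hM, hM]
    congr 1
    apply Subtype.ext
    show (((u * v : H) : Dˣ) : D) * x = ((u : Dˣ) : D) * (((v : Dˣ) : D) * x)
    simp [mul_assoc]
  have hMone : ∀ x : V, M 1 x = x := by
    intro x
    obtain ⟨x, rfl⟩ := Q.mkQ_surjective x
    rw [hM]
    congr 1
    apply Subtype.ext
    show (((1 : H) : Dˣ) : D) * x = x
    simp
  let ρ : H →* MulAut (Multiplicative V) := MonoidHom.mk'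
    (fun u => Cfsg.Agent.Lib.FrobSemi.mulOf
      { toFun := M u
        invFun := M u⁻¹
        left_inv := fun x => by rw [← hMmul, inv_mul_cancel, hMone]
        right_inv := fun x => by rw [← hMmul, mul_inv_cancel, hMone]
        map_add' := fun a b => map_add _ a b })
    (fun u v => by
      refine MulEquiv.ext fun x => ?_
      exact congrArg Multiplicative.ofAdd (hMmul u v (Multiplicative.toAdd x)))
  -- fixed points
  have hfp : ∀ u v, ρ u v = v → u = 1 ∨ v = 1 := by
    intro u x hx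
    by_cases hu : u = 1
    · exact Or.inl hu
    right
    have hx' : M u (Multiplicative.toAdd x) = Multiplicative.toAdd x := congrArg Multiplicative.toAdd hx
    obtain ⟨r, hr⟩ := Q.mkQ_surjective (Multiplicative.toAdd x)
    rw [← hr, hM] at hx'
    have h1 : Lm u r - r ∈ Q := (Submodule.Quotient.eq Q).1 hx'
    have h2 : ((Lm u r - r : R) : D) ∈ N := h1
    obtain ⟨r', hr', hr'e⟩ := (hNmem _).1 h2
    set h : D := ((u : Dˣ) : D) with hh
    have hr'' : (p : ℤ) • r' = (h - 1) * (r : D) := by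
      rw [hr'e, sub_mul, one_mul]; rfl
    have hne : h - 1 ≠ 0 := by
      intro h0
      apply hu
      exact Subtype.ext (Units.ext (sub_eq_zero.1 h0))
    set m := orderOf u with hm
    have hmpow : h ^ m = 1 := by
      have h2 : u ^ m = 1 := pow_orderOf_eq_one u
      have h3 : (((u ^ m : H) : Dˣ) : D) = 1 := by rw [h2]; rfl
      simpa using h3
    have hsum : (∑ i ∈ Finset.range m, h ^ i) = 0 := by
      have h3 := geom_sum_mul h m
      rw [hmpow, sub_self] at h3
      exact (mul_eq_zero.1 h3).resolve_right hne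
    set w : D := ∑ i ∈ Finset.range m, ∑ j ∈ Finset.range i, h ^ j with hw
    have hwR : w ∈ R := Submodule.sum_mem _ fun i _ => Submodule.sum_mem _ fun j _ =>
      hpowR h (hSR u u.2) j
    have hwm : w * (h - 1) = -(m : D) := by
      rw [hw, Finset.sum_mul]
      have h4 : ∀ i ∈ Finset.range m, (∑ j ∈ Finset.range i, h ^ j) * (h - 1) = h ^ i - 1 :=
        fun i _ => geom_sum_mul h i
      rw [Finset.sum_congr rfl h4, Finset.sum_sub_distrib, hsum]
      simp
    have hmr : -((m : ℤ) • (r : D)) = (p : ℤ) • (w * r') := by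
      calc -((m : ℤ) • (r : D)) = (w * (h - 1)) * (r : D) := by
            rw [hwm]; simp
        _ = w * ((h - 1) * (r : D)) := mul_assoc _ _ _
        _ = w * ((p : ℤ) • r') := by rw [hr'']
        _ = _ := mul_smul_comm _ _ _
    have hmH : m ∣ Nat.card H := orderOf_dvd_natCard u
    have hcop : IsCoprime (m : ℤ) (p : ℤ) := by
      rw [Nat.isCoprime_iff_coprime, Nat.coprime_comm, hp.coprime_iff_not_dvd]
      exact fun hd => hpH (hd.trans hmH)
    obtain ⟨a, b, hab⟩ := hcop
    have hrN : (r : R) ∈ Q := by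
      show (r : D) ∈ N
      rw [hNmem]
      refine ⟨b • (r : D) - a • (w * r'), R.sub_mem (R.smul_mem _ r.2) (R.smul_mem _ (hRmul _ hwR _ hr')), ?_⟩
      have e1 : (r : D) = (a * (m : ℤ) + b * (p : ℤ)) • (r : D) := by rw [hab, one_smul]
      rw [smul_sub, smul_comm (p : ℤ) a, ← hmr, smul_neg, sub_neg_eq_add, ← smul_assoc, ← smul_assoc]
      conv_rhs => rw [e1]
      simp only [smul_eq_mul, add_smul]
      rw [mul_comm (p : ℤ) b, add_comm]
    have hzero : Q.mkQ r = 0 := (Submodule.Quotient.mk_eq_zero Q).2 hrN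
    have hx0 : Multiplicative.toAdd x = 0 := by rw [← hr, hzero]
    exact hx0
  haveI : Module.Finite ℤ R := Module.Finite.iff_fg.2 hRfg
  haveI hfinV : Finite V := by
    apply Module.finite_of_fg_torsion
    intro x
    obtain ⟨r, rfl⟩ := Q.mkQ_surjective x
    refine ⟨⟨(p : ℤ), mem_nonZeroDivisors_of_ne_zero (by exact_mod_cast hp.ne_zero)⟩, ?_⟩
    show (p : ℤ) • Q.mkQ r = 0
    rw [← map_smul]
    apply (Submodule.Quotient.mk_eq_zero Q).2
    show ((p : ℤ) • (r : D)) ∈ N
    rw [hNmem]
    exact ⟨r, r.2, rfl⟩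
  haveI hntV : Nontrivial V := Submodule.Quotient.nontrivial_iff.2 hnt
  haveI : Nontrivial H := (Subgroup.nontrivial_iff_ne_bot H).2 hH
  obtain ⟨L, i1, i2, C, h1, he, -⟩ := Cfsg.Agent.Lib.FrobSmall.exists_of_fpf_univ ρ hfp
  exact ⟨L, i1, i2, C, h1, he⟩

end Cfsg.Agent.S4293
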