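import Cfsg.Statements.S4296
import Cfsg.Agent.Lib.QuatSquare
import Cfsg.Agent.S0035
import Cfsg.Agent.S0040

set_option autoImplicit false
set_option linter.all false
open Cfsg

namespace Cfsg.Agent.S4296

open scoped Pointwise

/-- Let H be a Frobenius complement in a finite group, and suppose some Sylow subgroup of H is not cyclic. Then the number of elements of the Frobenius kernel (the identity together with the elements lying in no conjugate of H) is an odd perfect square. -/
theorem result {L : Type*} [Group L] [Finite L] (H : Subgroup L) (hF : Cfsg.IsFrobeniusComplement H)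
    (hZ : ∃ (p : ℕ) (_ : Fact p.Prime) (P : Sylow p H), ¬ IsCyclic P) :
    Odd (Nat.card (Cfsg.frobeniusKernel H)) ∧ IsSquare (Nat.card (Cfsg.frobeniusKernel H)) := by
  classical
  obtain ⟨N, hNs, hNn, hc⟩ := Cfsg.Agent.S0035.result H hF
  have hcard : Nat.card (Cfsg.frobeniusKernel H) = Nat.card N := by rw [← hNs]; rfl
  rw [hcard]
  obtain ⟨p, hp, P, hP⟩ := hZ
  have hdisj : N ⊓ H = ⊥ := hc.disjoint.eq_bot
  have hTI : ∀ h ∈ H, h ≠ 1 → ∀ g ∈ N, h * g * h⁻¹ = g → g = 1 := by
    intro h hh hh1 g hg hgh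
    by_contra hg1
    have hgH : g ∉ H := by
      intro h2
      have : g ∈ N ⊓ H := ⟨hg, h2⟩
      rw [hdisj] at this
      exact hg1 this
    have h3 := hF.2.2 g hgH
    have h4 : h ∈ H ⊓ (MulAut.conj g • H) := by
      refine ⟨hh, ?_⟩
      have h5 : h ∈ MulAut.conj g • H := by
        rw [Subgroup.mem_pointwise_smul_iff_inv_smul_mem]
        have h6 : g⁻¹ * h * g = h := by
          have h7 : h * g = g * h := mul_inv_eq_iff_eq_mul.1 hgh
          rw [mul_assoc, h7]; group
        simp only [MulAut.smul_def, MulAut.conj_inv_apply, h6]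
        exact hh
      exact h5
    rw [h3] at h4
    exact hh1 h4
  have hfpf : ∀ h ∈ H, h ≠ 1 → N ⊓ Subgroup.centralizer {h} = ⊥ := by
    intro h hh hh1
    rw [eq_bot_iff]
    rintro g ⟨hgN, hgc⟩
    have hgc' : g ∈ Subgroup.centralizer {h} := hgc
    rw [Subgroup.mem_centralizer_singleton_iff] at hgc'
    have : h * g * h⁻¹ = g := by
      rw [← hgc']; group
    exact hTI h hh hh1 g hgN this
  have hNbot : N ≠ ⊥ := by
    intro h
    have := hc.sup_eq_top
    rw [h, bot_sup_eq] at this
    exact hF.2.1 this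
  rcases Cfsg.Agent.S0040.result N H hc hNbot hfpf p P with hcyc | ⟨n, ⟨e⟩⟩
  · exact absurd hcyc hP
  have hn0 : n ≠ 0 := by
    rintro rfl
    apply hP
    haveI : IsCyclic (QuaternionGroup (2 ^ 0)) := QuaternionGroup.quaternionGroup_one_isCyclic
    exact isCyclic_of_surjective e.symm e.symm.surjective
  obtain ⟨m, rfl⟩ := Nat.exists_eq_succ_of_ne_zero hn0
  set n' := 2 ^ (m + 1) with hn'
  have hnpos : 0 < n' := by positivity
  haveI : NeZero n' := ⟨hnpos.ne'⟩
  let ι : QuaternionGroup n' →* L :=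
    H.subtype.comp ((P : Subgroup H).subtype.comp e.symm.toMonoidHom)
  have hιH : ∀ x, ι x ∈ H := fun x => (((P : Subgroup H).subtype (e.symm x)) : H).2
  have hιinj : Function.Injective ι := by
    intro x y hxy
    have h1 : (P : Subgroup H).subtype (e.symm x) = (P : Subgroup H).subtype (e.symm y) :=
      Subtype.ext hxy
    exact e.symm.injective (Subtype.ext h1)
  let r : ZMod (2 * n') := ((2 ^ m : ℕ) : ZMod (2 * n'))
  have h2r : r + r = ((n' : ℕ) : ZMod (2 * n')) := by
    show ((2 ^ m : ℕ) : ZMod (2 * n')) + ((2 ^ m : ℕ) : ZMod (2 * n')) = _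
    rw [← Nat.cast_add, hn', pow_succ]
    congr 1
    ring
  let i : QuaternionGroup n' := QuaternionGroup.a r
  let j : QuaternionGroup n' := QuaternionGroup.xa 0
  let z : QuaternionGroup n' := QuaternionGroup.a ((n' : ℕ) : ZMod (2 * n'))
  have hii : i * i = z := by
    show QuaternionGroup.a r * QuaternionGroup.a r = _
    rw [QuaternionGroup.a_mul_a, h2r]
  have hjj : j * j = z := by
    show QuaternionGroup.xa 0 * QuaternionGroup.xa 0 = _
    rw [QuaternionGroup.xa_mul_xa]
    simp [z]
  have hzz : z * z = 1 := by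
    show QuaternionGroup.a _ * QuaternionGroup.a _ = _
    rw [QuaternionGroup.a_mul_a, QuaternionGroup.one_def]
    congr 1
    have : ((2 * n' : ℕ) : ZMod (2 * n')) = 0 := ZMod.natCast_self _
    rw [← this]
    push_cast
    ring
  have hz1 : z ≠ 1 := by
    intro h
    rw [QuaternionGroup.one_def] at h
    have h1 : ((n' : ℕ) : ZMod (2 * n')) = 0 := QuaternionGroup.a.inj h
    rw [ZMod.natCast_eq_zero_iff] at h1
    have := Nat.le_of_dvd hnpos h1
    omega
  have hiji : i * j * i = j := by
    show QuaternionGroup.a r * QuaternionGroup.xa 0 * QuaternionGroup.a r = QuaternionGroup.xa 0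
    rw [QuaternionGroup.a_mul_xa, QuaternionGroup.xa_mul_a]
    congr 1
    ring
  let ρ : L →* MulAut N := MulAut.conjNormal
  have ht1 : ι z ≠ 1 := fun h => hz1 (hιinj (h.trans (map_one ι).symm))
  let τ : MulAut N := ρ (ι z)
  have hτ2 : ∀ x, τ (τ x) = x := by
    intro x
    have h1 : ρ (ι z * ι z) x = x := by
      rw [← map_mul, hzz, map_one, map_one]; rfl
    rw [map_mul] at h1
    exact h1
  have hτfree : ∀ x, τ x = x → x = 1 := by
    intro x hx
    have h1 : ι z * (x : L) * (ι z)⁻¹ = x := congrArg Subtype.val hx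
    have h2 := hTI _ (hιH z) ht1 x x.2 h1
    exact Subtype.ext h2
  obtain ⟨hinv, hcomm⟩ := Cfsg.Agent.Lib.QuatSquare.inverts_of_fpf τ hτ2 hτfree
  have hodd : Odd (Nat.card N) := by
    by_contra hcon
    rw [Nat.not_odd_iff_even, even_iff_two_dvd] at hcon
    haveI : Fact (Nat.Prime 2) := ⟨Nat.prime_two⟩
    obtain ⟨x, hx⟩ := exists_prime_orderOf_dvd_card' (p := 2) hcon
    have h1 : x ^ 2 = 1 := by rw [← hx]; exact pow_orderOf_eq_one x
    have h2 : x⁻¹ = x := by
      rw [inv_eq_iff_mul_eq_one, ← sq, h1]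
    have h3 := hτfree x (by rw [hinv, h2])
    rw [h3, orderOf_one] at hx
    omega
  refine ⟨hodd, ?_⟩
  refine Cfsg.Agent.Lib.QuatSquare.abelian_square _ N hcomm (ρ (ι i)) (ρ (ι j)) ?_ ?_ ?_ rfl hodd
  · intro x
    have h1 : ρ (ι i * ι i) x = τ x := by rw [← map_mul, hii]
    rw [map_mul] at h1
    rw [← hinv]
    exact h1
  · intro x
    have h1 : ρ (ι j * ι j) x = τ x := by rw [← map_mul, hjj]
    rw [map_mul] at h1
    rw [← hinv]
    exact h1
  · intro x
    have h1 : ρ (ι i * ι j * ι i) x = ρ (ι j) x := by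
      rw [← map_mul, ← map_mul, hiji]
    rw [map_mul, map_mul] at h1
    exact h1

end Cfsg.Agent.S4296
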