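import Cfsg.Statements.S4295
import Cfsg.Agent.Lib.QuatRep
import Cfsg.Agent.S4296
import Cfsg.Agent.S0034

set_option autoImplicit false
set_option linter.all false
open Cfsg

namespace Cfsg.Agent.S4295

/-- For a natural number m the following are equivalent: (a) some finite group has a Frobenius complement isomorphic to the quaternion group of order 8 whose Frobenius kernel (the identity together with the elements lying in no conjugate of the complement) has exactly m elements; (b) m is an odd perfect square greater than 1. -/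
theorem result (m : ℕ) :
    (∃ (L : Type) (_ : Group L) (_ : Finite L) (H : Subgroup L), Cfsg.IsFrobeniusComplement H ∧
        Nonempty (H ≃* QuaternionGroup 2) ∧ Nat.card (Cfsg.frobeniusKernel H) = m) ↔
    (Odd m ∧ IsSquare m ∧ 1 < m) := by
  classical
  constructor
  · rintro ⟨L, iG, iF, H, hF, ⟨e⟩, hm⟩
    have hcardH : Nat.card H = 8 := by
      rw [Nat.card_congr e.toEquiv, Nat.card_eq_fintype_card, QuaternionGroup.card]
    haveI hf2 : Fact (Nat.Prime 2) := ⟨Nat.prime_two⟩
    obtain ⟨P⟩ : Nonempty (Sylow 2 H) := inferInstance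
    have hPg : IsPGroup 2 H := IsPGroup.of_card (n := 3) (by rw [hcardH]; norm_num)
    have hPtop : (P : Subgroup H) = ⊤ := by
      have h1 := P.is_maximal' (Q := ⊤) (IsPGroup.to_subgroup hPg ⊤) le_top
      exact h1.symm
    have hnc : ¬ IsCyclic (P : Subgroup H) := by
      intro hc
      let e' : (P : Subgroup H) ≃* QuaternionGroup 2 :=
        (MulEquiv.subgroupCongr hPtop).trans (Subgroup.topEquiv.trans e)
      exact Cfsg.Agent.Lib.QuatRep.quat_not_cyclic (isCyclic_of_surjective e' e'.surjective)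
    obtain ⟨h1, h2⟩ := Cfsg.Agent.S4296.result H hF ⟨2, hf2, P, hnc⟩
    rw [hm] at h1 h2
    refine ⟨h1, h2, ?_⟩
    have h3 := (Cfsg.Agent.S0034.result H hF).1
    rw [hm] at h3
    rw [h3]
    have h4 : H.index ≠ 1 := by
      intro h
      exact hF.2.1 (Subgroup.index_eq_one.1 h)
    have h5 : H.index ≠ 0 := Subgroup.index_ne_zero_of_finite
    omega
  · rintro ⟨hodd, ⟨r, rfl⟩, h1⟩
    have hr : Odd r := (Nat.odd_mul.1 hodd).1
    obtain ⟨V, iV, fV, ρ, hcard, hρ⟩ := Cfsg.Agent.Lib.QuatRep.exists_rep r hr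
    haveI : Nontrivial V := by
      rw [← Finite.one_lt_card_iff_nontrivial, hcard]
      exact h1
    obtain ⟨L, i1, i2, H, h2, ⟨e⟩, hk⟩ := Cfsg.Agent.Lib.FrobSemi.exists_of_fpf ρ hρ
    exact ⟨L, i1, i2, H, h2, ⟨e.symm⟩, by rw [hk, hcard]⟩

end Cfsg.Agent.S4295
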