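import Cfsg.Statements.S4297
import Cfsg.Agent.Lib.FrobSemi

set_option autoImplicit false
set_option linter.all false
open Cfsg

namespace Cfsg.Agent.S4297

/-- For every n ≥ 2 the dicyclic group of order 4n (generated by an element a of order 2n and an element x with x² = aⁿ and x a x⁻¹ = a⁻¹) occurs as a Frobenius complement of some finite Frobenius group. -/
theorem result (n : ℕ) (hn : 2 ≤ n) :
    ∃ (L : Type) (_ : Group L) (_ : Finite L) (H : Subgroup L), Cfsg.IsFrobeniusComplement H ∧ Nonempty (H ≃* QuaternionGroup n) := by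
  classical
  haveI : NeZero n := ⟨by omega⟩
  have h2n : 2 * n ≠ 0 := by omega
  obtain ⟨p, hp, ζ, hζ⟩ := Cfsg.Agent.Lib.FrobSemi.exists_unit_order (2 * n) h2n
  let z : ZMod p := (ζ : ZMod p)
  let z' : ZMod p := ((ζ⁻¹ : (ZMod p)ˣ) : ZMod p)
  have hzz' : z * z' = 1 := Units.mul_inv ζ
  have hz'z : z' * z = 1 := Units.inv_mul ζ
  let Af : (ZMod p × ZMod p) ≃+ (ZMod p × ZMod p) :=
    { toFun := fun w => (z * w.1, z' * w.2)
      invFun := fun w => (z' * w.1, z * w.2)
      left_inv := fun w => by
        ext
        · show z' * (z * w.1) = w.1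
          rw [← mul_assoc, hz'z, one_mul]
        · show z * (z' * w.2) = w.2
          rw [← mul_assoc, hzz', one_mul]
      right_inv := fun w => by
        ext
        · show z * (z' * w.1) = w.1
          rw [← mul_assoc, hzz', one_mul]
        · show z' * (z * w.2) = w.2
          rw [← mul_assoc, hz'z, one_mul]
      map_add' := fun a b => by
        ext
        · show z * (a.1 + b.1) = z * a.1 + z * b.1
          ring
        · show z' * (a.2 + b.2) = z' * a.2 + z' * b.2
          ring }
  let Xf : (ZMod p × ZMod p) ≃+ (ZMod p × ZMod p) :=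
    { toFun := fun w => (-w.2, w.1)
      invFun := fun w => (w.2, -w.1)
      left_inv := fun w => by ext <;> simp
      right_inv := fun w => by ext <;> simp
      map_add' := fun a b => by ext <;> simp <;> ring }
  let A : MulAut (Multiplicative (ZMod p × ZMod p)) := Cfsg.Agent.Lib.FrobSemi.mulOf Af
  let X : MulAut (Multiplicative (ZMod p × ZMod p)) := Cfsg.Agent.Lib.FrobSemi.mulOf Xf
  have hAa : ∀ u v : ZMod p, A (Multiplicative.ofAdd (u, v)) = Multiplicative.ofAdd (z * u, z' * v) :=
    fun u v => rfl
  have hXa : ∀ u v : ZMod p, X (Multiplicative.ofAdd (u, v)) = Multiplicative.ofAdd (-v, u) :=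
    fun u v => rfl
  have hext : ∀ F G : MulAut (Multiplicative (ZMod p × ZMod p)),
      (∀ u v : ZMod p, F (Multiplicative.ofAdd (u, v)) = G (Multiplicative.ofAdd (u, v))) → F = G := by
    intro F G h
    refine MulEquiv.ext fun x => ?_
    exact h (Multiplicative.toAdd x).1 (Multiplicative.toAdd x).2
  have hApow : ∀ (j : ℕ) (u v : ZMod p), (A ^ j) (Multiplicative.ofAdd (u, v)) =
      Multiplicative.ofAdd (z ^ j * u, z' ^ j * v) := by
    intro j
    induction j with
    | zero => intro u v; simp
    | succ j ih =>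
      intro u v
      rw [pow_succ', MulAut.mul_apply, ih, hAa]
      congr 2 <;> ring
  have hz2n : z ^ (2 * n) = 1 := by
    show ((ζ : ZMod p)) ^ (2 * n) = 1
    rw [← Units.val_pow_eq_pow_val, ← hζ, pow_orderOf_eq_one]; rfl
  have hzpow : ∀ m : ℕ, 0 < m → m < 2 * n → z ^ m ≠ 1 := by
    intro m h0 hm h
    have h1 : ζ ^ m = 1 := Units.ext (by rw [Units.val_pow_eq_pow_val]; exact h)
    exact pow_ne_one_of_lt_orderOf h0.ne' (by rw [hζ]; exact hm) h1
  have hz'pow : ∀ m : ℕ, z ^ m * z' ^ m = 1 := by
    intro m
    rw [← mul_pow, hzz', one_pow]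
  have hzn : z ^ n = -1 := by
    have h1 : z ^ n * z ^ n = 1 := by
      rw [← pow_add, ← two_mul, hz2n]
    rcases mul_self_eq_one_iff.1 h1 with h | h
    · exact absurd h (hzpow n (Nat.pos_of_ne_zero (NeZero.ne n)) (by omega))
    · exact h
  have hz'n : z' ^ n = -1 := by
    have h1 := hz'pow n
    rw [hzn] at h1
    linear_combination -h1
  have hz'2n : z' ^ (2 * n) = 1 := by
    have h1 := hz'pow (2 * n)
    rwa [hz2n, one_mul] at h1
  have hp5 : 2 < p := by
    have h1 : orderOf ζ ∣ Nat.card (ZMod p)ˣ := orderOf_dvd_natCard ζ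
    rw [hζ, Nat.card_eq_fintype_card, ZMod.card_units p] at h1
    have h2 := hp.out.two_le
    have h3 := Nat.le_of_dvd (by omega) h1
    omega
  have h2ne : (2 : ZMod p) ≠ 0 := by
    intro h
    have h3 : ((2 : ℕ) : ZMod p) = 0 := by exact_mod_cast h
    have h4 : p ∣ 2 := (ZMod.natCast_eq_zero_iff 2 p).1 h3
    have := Nat.le_of_dvd (by omega) h4
    omega
  obtain ⟨f, hfa, hfx⟩ := Cfsg.Agent.Lib.FrobSemi.quat_lift n A X
    (hext _ _ fun u v => by
      rw [hApow, hz2n, hz'2n]; simp)
    (hext _ _ fun u v => by
      rw [hApow, sq, MulAut.mul_apply, hXa, hXa, hzn, hz'n]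
      refine congrArg Multiplicative.ofAdd (Prod.ext ?_ ?_)
      · show - u = -1 * u
        ring
      · show - v = -1 * v
        ring)
    (hext _ _ fun u v => by
      rw [MulAut.mul_apply, MulAut.mul_apply, hAa, hXa, hAa]
      refine congrArg Multiplicative.ofAdd (Prod.ext ?_ ?_)
      · show z * -(z' * v) = -v
        linear_combination (-v) * hzz'
      · show z' * (z * u) = u
        linear_combination u * hz'z)
  have hfp : ∀ c v, f c v = v → c = 1 ∨ v = 1 := by
    intro c x hx
    obtain ⟨u, v, rfl⟩ : ∃ u v : ZMod p, x = Multiplicative.ofAdd (u, v) := ⟨(Multiplicative.toAdd x).1, (Multiplicative.toAdd x).2, rfl⟩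
    rcases c with i | i
    · rw [hfa, hApow] at hx
      by_cases hi : i = 0
      · left; rw [hi]; rfl
      · right
        have hval : 0 < i.val := Nat.pos_of_ne_zero (by rwa [Ne, ZMod.val_eq_zero])
        have hlt : i.val < 2 * n := ZMod.val_lt i
        have h1 := hzpow _ hval hlt
        have e := Multiplicative.ofAdd.injective hx
        have e1 : z ^ i.val * u = u := congrArg Prod.fst e
        have e2 : z' ^ i.val * v = v := congrArg Prod.snd e
        have hu : u = 0 := by
          have : (z ^ i.val - 1) * u = 0 := by linear_combination e1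
          exact (mul_eq_zero.1 this).resolve_left (sub_ne_zero.2 h1)
        have hv : v = 0 := by
          have h3 : z ^ i.val * (z' ^ i.val * v) = z ^ i.val * v := by rw [e2]
          rw [← mul_assoc, hz'pow, one_mul] at h3
          have : (z ^ i.val - 1) * v = 0 := by linear_combination -h3
          exact (mul_eq_zero.1 this).resolve_left (sub_ne_zero.2 h1)
        rw [hu, hv]; rfl
    · rw [hfx, MulAut.mul_apply, hApow, hXa] at hx
      right
      have e := Multiplicative.ofAdd.injective hx
      have e1 : -(z' ^ i.val * v) = u := congrArg Prod.fst e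
      have e2 : z ^ i.val * u = v := congrArg Prod.snd e
      have hu : u = 0 := by
        have h3 := hz'pow i.val
        have : 2 * u = 0 := by
          have h4 : u = - u := by
            calc u = -(z' ^ i.val * v) := e1.symm
              _ = -(z' ^ i.val * (z ^ i.val * u)) := by rw [e2]
              _ = -((z ^ i.val * z' ^ i.val) * u) := by ring
              _ = -u := by rw [h3, one_mul]
          linear_combination h4
        exact (mul_eq_zero.1 this).resolve_left h2ne
      have hv : v = 0 := by rw [← e2, hu, mul_zero]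
      rw [hu, hv]; rfl
  haveI : Finite (Multiplicative (ZMod p × ZMod p)) := inferInstance
  haveI : Nontrivial (Multiplicative (ZMod p × ZMod p)) := inferInstance
  obtain ⟨L, i1, i2, H, h1, ⟨e⟩, -⟩ := Cfsg.Agent.Lib.FrobSemi.exists_of_fpf f hfp
  exact ⟨L, i1, i2, H, h1, ⟨e.symm⟩⟩

end Cfsg.Agent.S4297
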