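import Cfsg.Statements.S4298
import Cfsg.Agent.Lib.FrobSemi

set_option autoImplicit false
set_option linter.all false
open Cfsg

namespace Cfsg.Agent.S4298


/-- The table of the embedding of `SL(2,3)` into `SL(2,5)`, indexed by the entries in base 3. -/
def tabList : List (Fin 5 × Fin 5 × Fin 5 × Fin 5) := [
    (1,0,0,1), (1,0,0,1), (1,0,0,1), (1,0,0,1), (1,0,0,1), (1,0,0,1), (1,0,0,1), (1,0,0,1), (1,0,0,1),
    (1,0,0,1), (1,0,0,1), (1,0,0,1), (1,0,0,1), (1,0,0,1), (1,0,0,1), (0,4,1,0), (2,4,3,4), (3,2,1,1),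
    (1,0,0,1), (1,0,0,1), (1,0,0,1), (0,1,4,0), (2,3,4,4), (3,1,2,1), (1,0,0,1), (1,0,0,1), (1,0,0,1),
    (1,0,0,1), (1,0,0,1), (1,0,0,1), (1,0,0,1), (1,2,1,3), (1,0,0,1), (1,0,0,1), (3,3,4,1), (1,0,0,1),
    (1,0,0,1), (1,1,2,3), (1,0,0,1), (1,0,0,1), (1,0,0,1), (0,2,2,0), (4,2,1,2), (1,0,0,1), (1,0,0,1),
    (1,0,0,1), (3,4,3,1), (1,0,0,1), (4,1,2,2), (1,0,0,1), (1,0,0,1), (1,0,0,1), (1,0,0,1), (3,0,0,2),
    (1,0,0,1), (1,0,0,1), (4,0,0,4), (1,0,0,1), (1,0,0,1), (2,2,1,4), (1,0,0,1), (1,0,0,1), (4,3,4,2),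
    (1,0,0,1), (1,0,0,1), (2,1,2,4), (1,0,0,1), (2,0,0,3), (1,0,0,1), (1,4,3,3), (1,0,0,1), (1,0,0,1),
    (1,0,0,1), (1,0,0,1), (4,4,3,2), (1,3,4,3), (1,0,0,1), (1,0,0,1), (1,0,0,1), (0,3,3,0), (1,0,0,1)]

/-- The entries of the image. -/
def tab (a b c d : Fin 3) : Fin 5 × Fin 5 × Fin 5 × Fin 5 :=
  tabList.getD (a.val * 27 + b.val * 9 + c.val * 3 + d.val) (1, 0, 0, 1)

def m3 (a b : Fin 3) : Fin 3 := a * b
def a3 (a b : Fin 3) : Fin 3 := a + b

set_option maxRecDepth 100000 in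
theorem tab_mul_aux : ∀ a b c d e f g h : Fin 3, a * d = b * c + 1 → e * h = f * g + 1 →
    (let t := tab a b c d; let s := tab e f g h
     tab (a * e + b * g) (a * f + b * h) (c * e + d * g) (c * f + d * h) =
      (t.1 * s.1 + t.2.1 * s.2.2.1, t.1 * s.2.1 + t.2.1 * s.2.2.2,
       t.2.2.1 * s.1 + t.2.2.2 * s.2.2.1, t.2.2.1 * s.2.1 + t.2.2.2 * s.2.2.2)) := by
  decide

set_option maxRecDepth 100000 in
theorem tab_fpf_aux : ∀ a b c d : Fin 3, a * d = b * c + 1 → ¬ (a = 1 ∧ b = 0 ∧ c = 0 ∧ d = 1) →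
    ∀ u v : Fin 5, (tab a b c d).1 * u + (tab a b c d).2.1 * v = u →
      (tab a b c d).2.2.1 * u + (tab a b c d).2.2.2 * v = v → u = 0 ∧ v = 0 := by
  decide

theorem tab_one : tab 1 0 0 1 = (1, 0, 0, 1) := by decide

/-- The image as a function on the prime field of order 5. -/
def F5 (a b c d : ZMod 3) (w : ZMod 5 × ZMod 5) : ZMod 5 × ZMod 5 :=
  let t : ZMod 5 × ZMod 5 × ZMod 5 × ZMod 5 := tab a b c d
  (t.1 * w.1 + t.2.1 * w.2, t.2.2.1 * w.1 + t.2.2.2 * w.2)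

theorem tab_mul5 : ∀ a b c d e f g h : ZMod 3, a * d = b * c + 1 → e * h = f * g + 1 →
    (let t : ZMod 5 × ZMod 5 × ZMod 5 × ZMod 5 := tab a b c d
     let s : ZMod 5 × ZMod 5 × ZMod 5 × ZMod 5 := tab e f g h
     ((tab (a * e + b * g) (a * f + b * h) (c * e + d * g) (c * f + d * h) :
        ZMod 5 × ZMod 5 × ZMod 5 × ZMod 5)) =
      (t.1 * s.1 + t.2.1 * s.2.2.1, t.1 * s.2.1 + t.2.1 * s.2.2.2,
       t.2.2.1 * s.1 + t.2.2.2 * s.2.2.1, t.2.2.1 * s.2.1 + t.2.2.2 * s.2.2.2)) :=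
  tab_mul_aux

theorem tab_fpf5 : ∀ a b c d : ZMod 3, a * d = b * c + 1 → ¬ (a = 1 ∧ b = 0 ∧ c = 0 ∧ d = 1) →
    ∀ u v : ZMod 5, F5 a b c d (u, v) = (u, v) → u = 0 ∧ v = 0 := by
  intro a b c d h1 h2 u v h3
  exact tab_fpf_aux a b c d h1 h2 u v (congrArg Prod.fst h3) (congrArg Prod.snd h3)

theorem F5_one (w : ZMod 5 × ZMod 5) : F5 1 0 0 1 w = w := by
  rcases w with ⟨u, v⟩
  show (((1 : ZMod 5) * u + (0 : ZMod 5) * v, (0 : ZMod 5) * u + (1 : ZMod 5) * v) : ZMod 5 × ZMod 5) = (u, v)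
  simp

theorem F5_mul (a b c d e f g h : ZMod 3) (h1 : a * d = b * c + 1) (h2 : e * h = f * g + 1)
    (w : ZMod 5 × ZMod 5) :
    F5 (a * e + b * g) (a * f + b * h) (c * e + d * g) (c * f + d * h) w =
      F5 a b c d (F5 e f g h w) := by
  have := tab_mul5 a b c d e f g h h1 h2
  simp only at this
  simp only [F5, this]
  ext <;> simp <;> ring

theorem F5_add (a b c d : ZMod 3) (w w' : ZMod 5 × ZMod 5) :
    F5 a b c d (w + w') = F5 a b c d w + F5 a b c d w' := by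
  simp only [F5]
  ext <;> simp <;> ring

/-- The entries. -/
def ent (g : Matrix.SpecialLinearGroup (Fin 2) (ZMod 3)) (w : ZMod 5 × ZMod 5) : ZMod 5 × ZMod 5 :=
  F5 (g.1 0 0) (g.1 0 1) (g.1 1 0) (g.1 1 1) w

theorem ent_det (g : Matrix.SpecialLinearGroup (Fin 2) (ZMod 3)) :
    g.1 0 0 * g.1 1 1 = g.1 0 1 * g.1 1 0 + 1 := by
  have h := g.2
  rw [Matrix.det_fin_two] at h
  linear_combination h

theorem ent_mul (g h : Matrix.SpecialLinearGroup (Fin 2) (ZMod 3)) (w : ZMod 5 × ZMod 5) :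
    ent (g * h) w = ent g (ent h w) := by
  have := F5_mul _ _ _ _ _ _ _ _ (ent_det g) (ent_det h) w
  simp only [ent]
  rw [← this]
  congr 1 <;> simp [Matrix.mul_apply, Fin.sum_univ_two]

theorem ent_one (w : ZMod 5 × ZMod 5) : ent 1 w = w := by
  simp only [ent]
  convert F5_one w <;> simp

theorem ent_add (g : Matrix.SpecialLinearGroup (Fin 2) (ZMod 3)) (w w' : ZMod 5 × ZMod 5) :
    ent g (w + w') = ent g w + ent g w' := F5_add _ _ _ _ _ _


/-- The group SL(2,3) of order 24 (the binary tetrahedral group) occurs as a Frobenius complement of some finite Frobenius group. -/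
theorem result :
    ∃ (L : Type) (_ : Group L) (_ : Finite L) (H : Subgroup L), Cfsg.IsFrobeniusComplement H ∧ Nonempty (H ≃* Matrix.SpecialLinearGroup (Fin 2) (ZMod 3)) := by
  classical
  let ρ : Matrix.SpecialLinearGroup (Fin 2) (ZMod 3) →* MulAut (Multiplicative (ZMod 5 × ZMod 5)) :=
    MonoidHom.mk' (fun g => Cfsg.Agent.Lib.FrobSemi.mulOf
      { toFun := ent g
        invFun := ent g⁻¹
        left_inv := fun w => by rw [← ent_mul, inv_mul_cancel, ent_one]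
        right_inv := fun w => by rw [← ent_mul, mul_inv_cancel, ent_one]
        map_add' := ent_add g }) (fun g h => by
      refine MulEquiv.ext fun x => ?_
      exact congrArg Multiplicative.ofAdd (ent_mul g h (Multiplicative.toAdd x)))
  have hfp : ∀ c v, ρ c v = v → c = 1 ∨ v = 1 := by
    intro g x hx
    by_cases h1 : g = 1
    · exact Or.inl h1
    · right
      have h2 : ¬ (g.1 0 0 = 1 ∧ g.1 0 1 = 0 ∧ g.1 1 0 = 0 ∧ g.1 1 1 = 1) := by
        rintro ⟨e1, e2, e3, e4⟩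
        apply h1
        apply Subtype.ext
        ext i j
        fin_cases i <;> fin_cases j <;> simp [e1, e2, e3, e4]
      have h3 := tab_fpf5 _ _ _ _ (ent_det g) h2 (Multiplicative.toAdd x).1 (Multiplicative.toAdd x).2
        (congrArg Multiplicative.toAdd hx)
      exact Prod.ext h3.1 h3.2
  haveI : Fact (Nat.Prime 5) := ⟨by norm_num⟩
  haveI : Nontrivial (Matrix.SpecialLinearGroup (Fin 2) (ZMod 3)) := by
    refine ⟨⟨⟨!![1, 1; 0, 1], by simp [Matrix.det_fin_two]⟩, 1, fun h => ?_⟩⟩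
    have h1 : (1 : ZMod 3) = 0 := by
      simpa using congrArg (fun g : Matrix.SpecialLinearGroup (Fin 2) (ZMod 3) => g.1 0 1) h
    exact absurd h1 (by decide)
  haveI : Finite (Matrix.SpecialLinearGroup (Fin 2) (ZMod 3)) := inferInstance
  obtain ⟨L, i1, i2, H, h1, ⟨e⟩, -⟩ := Cfsg.Agent.Lib.FrobSemi.exists_of_fpf ρ hfp
  exact ⟨L, i1, i2, H, h1, ⟨e.symm⟩⟩

end Cfsg.Agent.S4298
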