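import Cfsg.Statements.S4299
import Cfsg.Agent.Lib.FrobSemi

set_option autoImplicit false
set_option linter.all false
open Cfsg

namespace Cfsg.Agent.S4299

/-- Every nontrivial finite cyclic group occurs as a Frobenius complement of some finite Frobenius group. -/
theorem result {C : Type*} [Group C] [Finite C] [IsCyclic C] [Nontrivial C] :
    ∃ (L : Type) (_ : Group L) (_ : Finite L) (H : Subgroup L), Cfsg.IsFrobeniusComplement H ∧ Nonempty (C ≃* H) := by
  classical
  obtain ⟨c, hc⟩ := IsCyclic.exists_generator (α := C)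
  have hn : Nat.card C ≠ 0 := Nat.card_pos.ne'
  obtain ⟨p, hp, ζ, hζ⟩ := Cfsg.Agent.Lib.FrobSemi.exists_unit_order (Nat.card C) hn
  have hordc : orderOf c = Nat.card C := orderOf_eq_card_of_forall_mem_zpowers hc
  let ψ : C →* (ZMod p)ˣ := monoidHomOfForallMemZpowers hc (g' := ζ) (by rw [hζ, hordc])
  have hψc : ψ c = ζ := monoidHomOfForallMemZpowers_apply_gen hc _
  have hinj : Function.Injective ψ := by
    rw [injective_iff_map_eq_one]
    intro x hx
    obtain ⟨i, rfl⟩ := hc x
    simp only at hx ⊢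
    rw [map_zpow, hψc] at hx
    have h1 := orderOf_dvd_iff_zpow_eq_one.2 hx
    rw [hζ, ← hordc] at h1
    exact orderOf_dvd_iff_zpow_eq_one.1 h1
  let C' := ψ.range
  haveI : Nontrivial C' := (MonoidHom.ofInjective hinj).symm.toEquiv.nontrivial
  haveI : Finite C' := Finite.of_equiv _ (MonoidHom.ofInjective hinj).toEquiv
  let φ : C' →* MulAut (Multiplicative (ZMod p)) := (Cfsg.Agent.Lib.FrobSemi.unitMul (ZMod p)).comp C'.subtype
  have hfp : ∀ x v, φ x v = v → x = 1 ∨ v = 1 := by
    intro x v hv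
    have h1 : ((x : (ZMod p)ˣ) : ZMod p) * Multiplicative.toAdd v = Multiplicative.toAdd v := hv
    by_cases hv0 : Multiplicative.toAdd v = 0
    · right; exact hv0
    · left
      have h2 : ((x : (ZMod p)ˣ) : ZMod p) = 1 := mul_right_cancel₀ hv0 (by rw [h1, one_mul])
      exact Subtype.ext (Units.ext h2)
  obtain ⟨L, i1, i2, H, h1, ⟨e⟩, -⟩ := Cfsg.Agent.Lib.FrobSemi.exists_of_fpf φ hfp
  exact ⟨L, i1, i2, H, h1, ⟨(MonoidHom.ofInjective hinj).trans e⟩⟩

end Cfsg.Agent.S4299
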