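import Cfsg.Statements.S4300


set_option autoImplicit false
set_option linter.all false
open Cfsg

namespace Cfsg.Agent.S4300

/-- Let G act faithfully and primitively on a set X, and suppose the stabilizer of some point is a simple group. Then either G is simple, or G has a normal subgroup, neither trivial nor the whole group, that acts regularly on X (transitively with trivial point stabilizers). -/
theorem result {G : Type*} [Group G] {X : Type*} [MulAction G X] [FaithfulSMul G X]
    (hprim : MulAction.IsPreprimitive G X) (x : X) (hsimple : IsSimpleGroup (MulAction.stabilizer G x)) :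
    IsSimpleGroup G ∨ ∃ N : Subgroup G, N.Normal ∧ N ≠ ⊥ ∧ N ≠ ⊤ ∧
      MulAction.IsPretransitive N X ∧ ∀ y : X, MulAction.stabilizer N y = ⊥ := by
  classical
  by_cases hN : ∀ N : Subgroup G, N.Normal → N = ⊥ ∨ N = ⊤
  · left
    haveI : Nontrivial G := by
      obtain ⟨a, b, hab⟩ := hsimple.exists_pair_ne
      exact ⟨a, b, fun h => hab (Subtype.ext h)⟩
    exact ⟨hN⟩
  · right
    push_neg at hN
    obtain ⟨N, hNn, hNb, hNt⟩ := hN
    refine ⟨N, hNn, hNb, hNt, ?_⟩
    haveI := hNn
    haveI := hprim.toIsPretransitive
    -- N is transitive
    have hblock : MulAction.IsBlock G (MulAction.orbit N x) := MulAction.IsBlock.orbit_of_normal x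
    have htriv := hprim.isTrivialBlock_of_isBlock hblock
    have htrans : MulAction.IsPretransitive N X := by
      rcases htriv with hs | hu
      · exfalso
        apply hNb
        rw [eq_bot_iff]
        intro n hn
        rw [Subgroup.mem_bot]
        have hfix : ∀ y : X, n • y = y := by
          intro y
          obtain ⟨g, rfl⟩ := MulAction.exists_smul_eq G x y
          have h1 : g⁻¹ * n * g ∈ N := by
            have := hNn.conj_mem n hn g⁻¹
            simpa using this
          have h2 : (g⁻¹ * n * g) • x ∈ MulAction.orbit N x := ⟨⟨_, h1⟩, rfl⟩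
          have h3 : x ∈ MulAction.orbit N x := MulAction.mem_orbit_self x
          have h4 := hs h2 h3
          have h5 : g⁻¹ • n • g • x = x := by
            simpa [mul_smul] using h4
          calc n • g • x = g • g⁻¹ • n • g • x := by simp
            _ = g • x := by rw [h5]
        exact FaithfulSMul.eq_of_smul_eq_smul (fun y => by rw [hfix y, one_smul])
      · refine ⟨fun a b => ?_⟩
        have ha : ∀ y : X, y ∈ MulAction.orbit N x := fun y => by
          rw [hu]; exact Set.mem_univ y
        obtain ⟨m, hm⟩ := ha a
        obtain ⟨k, hk⟩ := ha b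
        refine ⟨k * m⁻¹, ?_⟩
        simp only at hm hk
        rw [← hm, ← hk, mul_smul, inv_smul_smul]
    refine ⟨htrans, ?_⟩
    -- stabilizer in N of x is trivial
    let S := MulAction.stabilizer G x
    have hcase : (N.subgroupOf S) = ⊥ ∨ (N.subgroupOf S) = ⊤ := by
      haveI : (N.subgroupOf S).Normal := hNn.subgroupOf S
      exact hsimple.eq_bot_or_eq_top_of_normal _ inferInstance
    rcases hcase with hb | ht
    · have hx0 : ∀ n : N, n • x = x → n = 1 := by
        intro n hn
        have h1 : (n : G) • x = x := hn
        have h2 : (⟨n, h1⟩ : S) ∈ N.subgroupOf S := by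
          rw [Subgroup.mem_subgroupOf]
          exact n.2
        rw [hb, Subgroup.mem_bot] at h2
        exact Subtype.ext (congrArg (fun z : S => (z : G)) h2)
      intro y
      rw [eq_bot_iff]
      intro n hn
      rw [Subgroup.mem_bot]
      obtain ⟨m, hm⟩ := htrans.exists_smul_eq x y
      have h1 : (m⁻¹ * n * m) • x = x := by
        rw [mul_smul, mul_smul, hm]
        have : n • y = y := hn
        rw [this, ← hm, inv_smul_smul]
      have h2 := hx0 _ h1
      have : n = m * (m⁻¹ * n * m) * m⁻¹ := by group
      rw [this, h2]
      simp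
    · exfalso
      apply hNt
      rw [eq_top_iff]
      intro g _
      obtain ⟨m, hm⟩ := htrans.exists_smul_eq x (g • x)
      have h1 : (m : G)⁻¹ * g ∈ S := by
        change ((m : G)⁻¹ * g) • x = x
        rw [mul_smul]
        have : (m : G) • x = g • x := hm
        rw [← this, inv_smul_smul]
      have h2 : (⟨_, h1⟩ : S) ∈ N.subgroupOf S := by rw [ht]; trivial
      have h3 : (m : G)⁻¹ * g ∈ N := Subgroup.mem_subgroupOf.mp h2
      have h4 := N.mul_mem m.2 h3
      simpa using h4

end Cfsg.Agent.S4300
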