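import Mathlib
import Cfsg.Statements.S4301
-- import your own Cfsg.Agent.* helpers here

set_option autoImplicit false
open Cfsg

namespace Cfsg.Agent.S4301


theorem exists_perm_pair {X : Type*} (p q x y : X) (hpq : p ≠ q) (hxy : x ≠ y) :
    ∃ σ : Equiv.Perm X, σ p = x ∧ σ q = y := by
  classical
  set σ₁ := Equiv.swap p x with hσ₁
  have h1 : σ₁ q ≠ x := by
    intro h
    have : σ₁ q = σ₁ p := by rw [h, hσ₁, Equiv.swap_apply_left]
    exact hpq (σ₁.injective this).symm
  refine ⟨Equiv.swap (σ₁ q) y * σ₁, ?_, ?_⟩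
  · rw [Equiv.Perm.mul_apply, hσ₁, Equiv.swap_apply_left, ← hσ₁]
    exact Equiv.swap_apply_of_ne_of_ne h1.symm hxy
  · rw [Equiv.Perm.mul_apply, Equiv.swap_apply_left]


/-- One-point extension of a multiply transitive group. Let X be a set and G a group of permutations of Option X (the set X with one extra point ∗ = none) all of whose elements fix ∗, such that G is k-transitive on the points of X for some k ≥ 2, X having at least k points. Suppose a permutation h of Option X and an element g of G satisfy: h interchanges ∗ with a point x of X and fixes a point y of X; g interchanges x and y; (g h)³ and h² lie in G; and for every f in G fixing x, the product h f h lies in G and fixes x. Then an element of the group generated by G and h fixes ∗ exactly when it lies in G, and that group acts (k+1)-transitively on Option X. -/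
theorem result {X : Type*} (G : Subgroup (Equiv.Perm (Option X))) (hfix : ∀ f ∈ G, f none = none)
    (k : ℕ) (hk : 2 ≤ k) (hkX : Nonempty (Fin k ↪ X))
    (htrans : ∀ a b : Fin k ↪ X, ∃ f ∈ G, ∀ i, f (some (a i)) = some (b i))
    (h g : Equiv.Perm (Option X)) (hg : g ∈ G) (x y : X)
    (h1 : h none = some x) (h2 : h (some x) = none) (h3 : h (some y) = some y)
    (h4 : g (some x) = some y) (h5 : g (some y) = some x)
    (h6 : (g * h) ^ 3 ∈ G) (h7 : h ^ 2 ∈ G)
    (h8 : ∀ f ∈ G, f (some x) = some x → h * f * h ∈ G ∧ (h * f * h) (some x) = some x) :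
    (∀ f ∈ Subgroup.closure ((G : Set (Equiv.Perm (Option X))) ∪ {h}), f none = none ↔ f ∈ G) ∧
      MulAction.IsMultiplyPretransitive (Subgroup.closure ((G : Set (Equiv.Perm (Option X))) ∪ {h})) (Option X) (k + 1) := by
  classical
  set H := Subgroup.closure ((G : Set (Equiv.Perm (Option X))) ∪ {h}) with hH
  have hhH : h ∈ H := Subgroup.subset_closure (Or.inr rfl)
  have hGH : G ≤ H := fun f hf => Subgroup.subset_closure (Or.inl hf)
  have hxy : x ≠ y := by
    intro he
    rw [← he, h2] at h3
    exact absurd h3 (by simp)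
  -- two-point transitivity
  have h2pt : ∀ p q r s : X, p ≠ q → r ≠ s → ∃ f ∈ G, f (some p) = some r ∧ f (some q) = some s := by
    intro p q r s hpq hrs
    obtain ⟨e⟩ := hkX
    have hne : e ⟨0, by omega⟩ ≠ e ⟨1, by omega⟩ := by
      intro he
      have := e.injective he
      simp at this
    obtain ⟨σ₁, h11, h12⟩ := exists_perm_pair _ _ p q hne hpq
    obtain ⟨σ₂, h21, h22⟩ := exists_perm_pair _ _ r s hne hrs
    obtain ⟨f, hf, hfi⟩ := htrans (e.trans σ₁.toEmbedding) (e.trans σ₂.toEmbedding)
    refine ⟨f, hf, ?_, ?_⟩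
    · have := hfi ⟨0, by omega⟩
      simpa [h11, h21] using this
    · have := hfi ⟨1, by omega⟩
      simpa [h12, h22] using this
  have h1pt : ∀ p r : X, ∃ f ∈ G, f (some p) = some r := by
    intro p r
    have hq : ∃ q, q ≠ p := by
      by_cases hx : x = p
      · exact ⟨y, fun he => hxy (by rw [hx, he])⟩
      · exact ⟨x, hx⟩
    have hs : ∃ s, s ≠ r := by
      by_cases hx : x = r
      · exact ⟨y, fun he => hxy (by rw [hx, he])⟩
      · exact ⟨x, hx⟩
    obtain ⟨q, hq⟩ := hq
    obtain ⟨s, hs⟩ := hs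
    obtain ⟨f, hf, hf1, _⟩ := h2pt p q r s hq.symm hs.symm
    exact ⟨f, hf, hf1⟩
  -- t := h^2
  have ht : h * h ∈ G := by rwa [← pow_two]
  have htx : (h * h) (some x) = some x := by
    rw [Equiv.Perm.mul_apply, h2, h1]
  have hinv : h⁻¹ = (h * h)⁻¹ * h := by group
  have hA : ∀ f ∈ G, f (some x) = some x → h * f * h⁻¹ ∈ G := by
    intro f hf hfx
    have hfm : f * (h * h)⁻¹ ∈ G := G.mul_mem hf (G.inv_mem ht)
    have hfmx : (f * (h * h)⁻¹) (some x) = some x := by
      have : (h * h)⁻¹ (some x) = some x := by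
        rw [Equiv.Perm.inv_eq_iff_eq]; exact htx.symm
      rw [Equiv.Perm.mul_apply, this, hfx]
    have := (h8 _ hfm hfmx).1
    have he : h * f * h⁻¹ = h * (f * (h * h)⁻¹) * h := by group
    rwa [he]
  have hB : ∀ f ∈ G, f (some x) = some x → h⁻¹ * f * h ∈ G := by
    intro f hf hfx
    have := (h8 _ hf hfx).1
    have he : h⁻¹ * f * h = (h * h)⁻¹ * (h * f * h) := by group
    rw [he]
    exact G.mul_mem (G.inv_mem ht) this
  -- main double coset
  have hmain : ∀ f ∈ G, h * f * h ∈ G ∨ ∃ a ∈ G, ∃ b ∈ G, h * f * h = a * h * b := by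
    intro f hf
    by_cases hfx : f (some x) = some x
    · exact Or.inl (h8 f hf hfx).1
    right
    -- f x = some z
    have hfn := hfix f hf
    obtain ⟨z, hz⟩ : ∃ z, f (some x) = some z := by
      refine Option.ne_none_iff_exists'.1 ?_
      intro he
      have : f (some x) = f none := by rw [he, hfn]
      have := f.injective this
      exact absurd this (by simp)
    have hzx : z ≠ x := by
      intro he
      apply hfx
      rw [hz, he]
    obtain ⟨f₁, hf₁, hf₁x, hf₁y⟩ := h2pt x y x z hxy hzx.symm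
    set f₂ := (f₁ * g)⁻¹ * f with hf₂
    have hf₂G : f₂ ∈ G := G.mul_mem (G.inv_mem (G.mul_mem hf₁ hg)) hf
    have hf₂x : f₂ (some x) = some x := by
      rw [hf₂, Equiv.Perm.mul_apply, hz, Equiv.Perm.inv_eq_iff_eq, Equiv.Perm.mul_apply, h4, hf₁y]
    have hfe : f = f₁ * g * f₂ := by rw [hf₂]; group
    have hu := hA f₁ hf₁ hf₁x
    have hv := hB f₂ hf₂G hf₂x
    set w := (g * h) ^ 3 with hw
    refine ⟨(h * f₁ * h⁻¹) * g⁻¹ * w * (h * h)⁻¹, ?_, g⁻¹ * (h⁻¹ * f₂ * h), ?_, ?_⟩
    · exact G.mul_mem (G.mul_mem (G.mul_mem hu (G.inv_mem hg)) h6) (G.inv_mem ht)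
    · exact G.mul_mem (G.inv_mem hg) hv
    · rw [hfe, hw]
      have : (g * h) ^ 3 = g * h * (g * h) * (g * h) := by
        rw [pow_succ, pow_two]
      rw [this]
      group
  -- the set S
  have hS : ∀ f ∈ H, f ∈ G ∨ ∃ a ∈ G, ∃ b ∈ G, f = a * h * b := by
    intro f hf
    have hstepG : ∀ c ∈ G, ∀ u : Equiv.Perm (Option X), (u ∈ G ∨ ∃ a ∈ G, ∃ b ∈ G, u = a * h * b) →
        (c * u ∈ G ∨ ∃ a ∈ G, ∃ b ∈ G, c * u = a * h * b) := by
      rintro c hc u (hu | ⟨a, ha, b, hb, rfl⟩)
      · exact Or.inl (G.mul_mem hc hu)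
      · exact Or.inr ⟨c * a, G.mul_mem hc ha, b, hb, by group⟩
    have hsteph : ∀ u : Equiv.Perm (Option X), (u ∈ G ∨ ∃ a ∈ G, ∃ b ∈ G, u = a * h * b) →
        (h * u ∈ G ∨ ∃ a ∈ G, ∃ b ∈ G, h * u = a * h * b) := by
      rintro u (hu | ⟨a, ha, b, hb, rfl⟩)
      · exact Or.inr ⟨1, G.one_mem, u, hu, by group⟩
      · rcases hmain a ha with h' | ⟨c, hc, d, hd, he⟩
        · left
          have : h * (a * h * b) = (h * a * h) * b := by group
          rw [this]
          exact G.mul_mem h' hb
        · right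
          refine ⟨c, hc, d * b, G.mul_mem hd hb, ?_⟩
          have : h * (a * h * b) = (h * a * h) * b := by group
          rw [this, he]
          group
    induction hf using Subgroup.closure_induction_left with
    | one => exact Or.inl G.one_mem
    | mul_left c hc u _ ih =>
      rcases hc with hc | hc
      · exact hstepG c hc u ih
      · rw [Set.mem_singleton_iff] at hc
        subst hc
        exact hsteph u ih
    | inv_mul_cancel c hc u _ ih =>
      rcases hc with hc | hc
      · exact hstepG c⁻¹ (G.inv_mem hc) u ih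
      · rw [Set.mem_singleton_iff] at hc
        subst hc
        have he : c⁻¹ * u = (c * c)⁻¹ * (c * u) := by group
        rw [he]
        exact hstepG _ (G.inv_mem ht) _ (hsteph u ih)
  refine ⟨?_, ?_⟩
  · intro f hf
    refine ⟨fun hn => ?_, hfix f⟩
    rcases hS f hf with h' | ⟨a, ha, b, hb, rfl⟩
    · exact h'
    · exfalso
      rw [Equiv.Perm.mul_apply, Equiv.Perm.mul_apply, hfix b hb, h1] at hn
      have : a (some x) = a none := by rw [hn, hfix a ha]
      have := a.injective this
      exact absurd this (by simp)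
  · -- moving a point to none
    have hto : ∀ z : Option X, ∃ φ ∈ H, φ z = none := by
      intro z
      cases z with
      | none => exact ⟨1, H.one_mem, rfl⟩
      | some p =>
        obtain ⟨f, hf, hfp⟩ := h1pt p x
        refine ⟨h * f, H.mul_mem hhH (hGH hf), ?_⟩
        rw [Equiv.Perm.mul_apply, hfp, h2]
    -- core
    have hcore : ∀ a b : Fin (k + 1) ↪ Option X, a 0 = none → b 0 = none →
        ∃ f ∈ G, ∀ i, f (a i) = b i := by
      intro a b ha hb
      have hsome : ∀ (c : Fin (k + 1) ↪ Option X), c 0 = none → ∀ i : Fin k, ∃ u, c i.succ = some u := by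
        intro c hc i
        refine Option.ne_none_iff_exists'.1 ?_
        intro he
        have := c.injective (he.trans hc.symm)
        exact absurd this (Fin.succ_ne_zero i)
      choose a' ha' using hsome a ha
      choose b' hb' using hsome b hb
      have ha'inj : Function.Injective a' := by
        intro i j hij
        have : a i.succ = a j.succ := by rw [ha', ha', hij]
        exact Fin.succ_injective _ (a.injective this)
      have hb'inj : Function.Injective b' := by
        intro i j hij
        have : b i.succ = b j.succ := by rw [hb', hb', hij]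
        exact Fin.succ_injective _ (b.injective this)
      obtain ⟨f, hf, hfi⟩ := htrans ⟨a', ha'inj⟩ ⟨b', hb'inj⟩
      refine ⟨f, hf, fun i => ?_⟩
      refine Fin.cases ?_ (fun j => ?_) i
      · rw [ha, hb, hfix f hf]
      · rw [ha', hb']
        exact hfi j
    refine ⟨fun a b => ?_⟩
    obtain ⟨φ, hφ, hφa⟩ := hto (a 0)
    obtain ⟨ψ, hψ, hψb⟩ := hto (b 0)
    obtain ⟨f, hf, hfi⟩ := hcore (a.trans φ.toEmbedding) (b.trans ψ.toEmbedding) (by simpa using hφa) (by simpa using hψb)
    refine ⟨⟨ψ⁻¹ * f * φ, H.mul_mem (H.mul_mem (H.inv_mem hψ) (hGH hf)) hφ⟩, ?_⟩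
    ext1 i
    have := hfi i
    simp only [Function.Embedding.trans_apply, Equiv.coe_toEmbedding] at this
    show (ψ⁻¹ * f * φ) (a i) = b i
    rw [Equiv.Perm.mul_apply, Equiv.Perm.mul_apply, this]
    exact ψ.symm_apply_apply _

end Cfsg.Agent.S4301
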