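import Cfsg.Statements.S4303
import Cfsg.Agent.Lib.CoprimeSylow

set_option autoImplicit false
set_option linter.all false
universe u
open Cfsg

namespace Cfsg.Agent.S4303


open Cfsg.Agent.Lib.SylowIdx in
theorem list_of_prime_parts (p n : ℕ) [Fact p.Prime] (hn : n ≠ 0)
    (h : ∀ r : ℕ, r.Prime → r ^ n.factorization r ≡ 1 [MOD p]) :
    ∃ l : List ℕ, l.prod = n ∧ ∀ m ∈ l, IsPrimePow m ∧ m % p = 1 := by
  classical
  have hpp : p.Prime := Fact.out
  refine ⟨n.primeFactors.toList.map (fun r => r ^ n.factorization r), ?_, ?_⟩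
  · rw [Finset.prod_map_toList]
    exact Nat.factorization_prod_pow_eq_self hn
  · intro m hm
    obtain ⟨r, hr, rfl⟩ := List.mem_map.mp hm
    have hr' : r ∈ n.primeFactors := Finset.mem_toList.mp hr
    have hrp : r.Prime := Nat.prime_of_mem_primeFactors hr'
    refine ⟨?_, ?_⟩
    · refine ⟨r, n.factorization r, hrp.prime, ?_, rfl⟩
      exact hrp.factorization_pos_of_dvd hn (Nat.dvd_of_mem_primeFactors hr')
    · have := h r hrp
      unfold Nat.ModEq at this
      rw [this]
      exact Nat.mod_eq_of_lt hpp.one_lt

theorem aux (p : ℕ) [Fact p.Prime] (n : ℕ) : ∀ (X : Type u) [Group X] [Finite X], Nat.card X = n →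
    ∃ l : List ℕ, l.prod = Nat.card (Sylow p X) ∧
      ∀ m ∈ l, (IsPrimePow m ∧ m % p = 1) ∨
        ∃ (S : Type u) (_ : Group S) (_ : Finite S), IsSimpleGroup S ∧ m = Nat.card (Sylow p S) := by
  classical
  induction n using Nat.strong_induction_on with
  | _ n ih =>
  intro X _ _ hn
  have hpp : p.Prime := Fact.out
  by_cases hnt : Nontrivial X
  · by_cases hsimple : IsSimpleGroup X
    · refine ⟨[Nat.card (Sylow p X)], by simp, ?_⟩
      intro m hm
      rw [List.mem_singleton] at hm
      exact Or.inr ⟨X, inferInstance, inferInstance, hsimple, hm⟩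
    · -- a proper nontrivial normal subgroup
      obtain ⟨K, hKn, hKbot, hKtop⟩ : ∃ K : Subgroup X, K.Normal ∧ K ≠ ⊥ ∧ K ≠ ⊤ := by
        by_contra hcon
        push_neg at hcon
        apply hsimple
        exact { eq_bot_or_eq_top_of_normal := fun H hH => by
                  by_cases h : H = ⊥
                  · exact Or.inl h
                  · exact Or.inr (hcon H hH h) }
      haveI := hKn
      have hKlt : Nat.card K < n := by
        rw [← hn]
        have h1 := K.card_mul_index
        have h2 : 1 < K.index := Subgroup.one_lt_index_of_ne_top hKtop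
        have h3 : 0 < Nat.card K := Nat.card_pos
        nlinarith
      have hQlt : Nat.card (X ⧸ K) < n := by
        rw [← hn]
        have h1 := K.card_mul_index
        have h2 : 1 < Nat.card K := by
          refine Nat.one_lt_iff_ne_zero_and_ne_one.mpr ⟨Nat.card_pos.ne', ?_⟩
          exact fun h => hKbot (Subgroup.card_eq_one.mp h)
        have h3 : 0 < K.index := Nat.pos_of_ne_zero Subgroup.index_ne_zero_of_finite
        rw [Subgroup.index_eq_card] at h3 h1
        nlinarith
      obtain ⟨l1, hl1, hl1'⟩ := ih _ hQlt (X ⧸ K) rfl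
      obtain ⟨l2, hl2, hl2'⟩ := ih _ hKlt K rfl
      obtain ⟨P⟩ : Nonempty (Sylow p X) := inferInstance
      let N : Subgroup X := ((P : Subgroup X) ⊔ K) ⊓ Subgroup.normalizer (((P : Subgroup X) ⊓ K : Subgroup X) : Set X)
      have hNN : N = ((P : Subgroup X) ⊔ K) ⊓ Subgroup.normalizer (((P : Subgroup X) ⊓ K : Subgroup X) : Set X) := rfl
      haveI hD : (((P : Subgroup X) ⊓ K).subgroupOf N).Normal := by
        constructor
        intro x hx g
        rw [Subgroup.mem_subgroupOf] at hx ⊢
        have hg : (g : X) ∈ Subgroup.normalizer (((P : Subgroup X) ⊓ K : Subgroup X) : Set X) :=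
          (Subgroup.mem_inf.mp g.2).2
        exact (Subgroup.mem_normalizer_iff.mp hg _).mp hx
      have hform := Cfsg.Agent.Lib.SylowIdx.card_sylow_eq_mul_mul P K N hNN
      by_cases hlt : Nat.card (N ⧸ ((P : Subgroup X) ⊓ K).subgroupOf N) < n
      · obtain ⟨l3, hl3, hl3'⟩ := ih _ hlt (N ⧸ ((P : Subgroup X) ⊓ K).subgroupOf N) rfl
        refine ⟨l1 ++ l2 ++ l3, ?_, ?_⟩
        · rw [List.prod_append, List.prod_append, hl1, hl2, hl3, hform]
        · intro m hm
          rw [List.mem_append, List.mem_append] at hm
          rcases hm with (hm | hm) | hm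
          · exact hl1' m hm
          · exact hl2' m hm
          · exact hl3' m hm
      · -- the bad case
        have hcardN : Nat.card N = Nat.card (N ⧸ ((P : Subgroup X) ⊓ K).subgroupOf N) * Nat.card (((P : Subgroup X) ⊓ K).subgroupOf N) :=
          Subgroup.card_eq_card_quotient_mul_card_subgroup _
        have hNle : Nat.card N ≤ n := by
          rw [← hn]; exact Subgroup.card_le_card_group N
        have hDpos : 0 < Nat.card (((P : Subgroup X) ⊓ K).subgroupOf N) := Nat.card_pos
        have hQpos : 0 < Nat.card (N ⧸ ((P : Subgroup X) ⊓ K).subgroupOf N) := Nat.card_pos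
        have hge : n ≤ Nat.card (N ⧸ ((P : Subgroup X) ⊓ K).subgroupOf N) := not_lt.mp hlt
        have hD1 : Nat.card (((P : Subgroup X) ⊓ K).subgroupOf N) = 1 := by
          by_contra hne
          have : 2 ≤ Nat.card (((P : Subgroup X) ⊓ K).subgroupOf N) := by omega
          nlinarith
        have hN1 : Nat.card N = n := by
          rw [hD1, mul_one] at hcardN
          omega
        have hPN : ((P : Subgroup X) ⊓ K) ≤ N := by
          refine le_inf (inf_le_left.trans le_sup_left) Subgroup.le_normalizer
        have hinf : (P : Subgroup X) ⊓ K = ⊥ := by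
          apply Subgroup.card_eq_one.mp
          rw [← hD1]
          exact (Nat.card_congr (Subgroup.subgroupOfEquivOfLe hPN).toEquiv).symm
        have hNtop : N = ⊤ := Subgroup.eq_top_of_card_eq _ (hN1.trans hn.symm)
        have hsup : K ⊔ (P : Subgroup X) = ⊤ := by
          rw [sup_comm, eq_top_iff, ← hNtop]
          exact inf_le_left
        have hcount : Nat.card (Sylow p X) = (Subgroup.normalizer ((P : Subgroup X) : Set X)).relIndex K := by
          rw [Cfsg.Agent.Lib.SylowIdx.card_sylow_eq_index_normalizer P, ← Subgroup.relIndex_top_right]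
          refine Cfsg.Agent.Lib.SylowIdx.relIndex_eq_of_mem_mul K _ ⊤ le_top (fun x _ => ?_) le_top
          have hx : x ∈ K ⊔ (P : Subgroup X) := by rw [hsup]; trivial
          obtain ⟨a, ha, b, hb, hab⟩ := Subgroup.mem_sup_of_normal_left.mp hx
          exact ⟨a, ha, b, Subgroup.le_normalizer hb, hab.symm⟩
        obtain ⟨l, hl, hl'⟩ := list_of_prime_parts p (Nat.card (Sylow p X)) Nat.card_pos.ne' (fun r hr => by
          rw [hcount]
          haveI : Fact r.Prime := ⟨hr⟩
          exact Cfsg.Agent.Lib.CoprimeSylow.prime_part_modEq P K hinf hr)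
        exact ⟨l, hl, fun m hm => Or.inl (hl' m hm)⟩
  · rw [not_nontrivial_iff_subsingleton] at hnt
    refine ⟨[], ?_, by simp⟩
    haveI : Subsingleton (Sylow p X) := by
      constructor
      intro a b
      ext x
      rw [Subsingleton.elim x 1]
      simp [Subgroup.one_mem]
    haveI : Nonempty (Sylow p X) := inferInstance
    simp [Nat.card_unique]


/-- For a finite group `G` and a prime `p`, the number of Sylow `p`-subgroups of `G` is a product of natural numbers each of which is either a prime power congruent to 1 modulo `p` or the number of Sylow `p`-subgroups of some finite simple group. -/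
theorem result {G : Type u} [Group G] [Finite G]
    (p : ℕ) [Fact p.Prime] :
    ∃ l : List ℕ, l.prod = Nat.card (Sylow p G) ∧
      ∀ m ∈ l, (IsPrimePow m ∧ m % p = 1) ∨
        ∃ (S : Type u) (_ : Group S) (_ : Finite S), IsSimpleGroup S ∧ m = Nat.card (Sylow p S) := by
  exact aux p _ G rfl

end Cfsg.Agent.S4303
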