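import Cfsg.Statements.S4421
import Cfsg.Agent.Lib.H7Basic

set_option autoImplicit false
set_option linter.all false
open Cfsg

namespace Cfsg.Agent.S4421

/-- A factorization of a normalizer from two-step control of fusion. Let `G` be a finite group and `A ≤ S ≤ H` subgroups of `G` such that: (i) `S` controls the `G`-fusion of `A` in the sense that every `G`-conjugate of `A` lying in `S` is an `S`-conjugate of `A`; (ii) `H` controls the `G`-fusion of `S` in the same sense; (iii) every conjugate of `S` by an element of the normalizer of `A` lies in `H`. Then `N_G(A) = N_H(A) · (N_G(S) ∩ N_G(A))`: every element of the normalizer of `A` is a product of an element of `H` normalizing `A` and an element normalizing both `S` and `A`. -/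
theorem result {G : Type*} [Group G] [Finite G] (A S H : Subgroup G)
    (hAS : A ≤ S) (hSH : S ≤ H)
    (h1 : ∀ g : G, A.map (MulAut.conj g).toMonoidHom ≤ S → ∃ s ∈ S, A.map (MulAut.conj g).toMonoidHom = A.map (MulAut.conj s).toMonoidHom)
    (h2 : ∀ g : G, S.map (MulAut.conj g).toMonoidHom ≤ H → ∃ y ∈ H, S.map (MulAut.conj g).toMonoidHom = S.map (MulAut.conj y).toMonoidHom)
    (h3 : ∀ x ∈ Subgroup.normalizer (A : Set G), S.map (MulAut.conj x).toMonoidHom ≤ H) :
    ∀ x ∈ Subgroup.normalizer (A : Set G), ∃ y ∈ H ⊓ Subgroup.normalizer (A : Set G),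
      ∃ z ∈ Subgroup.normalizer (S : Set G) ⊓ Subgroup.normalizer (A : Set G), x = y * z := by
  classical
  intro x hx
  have hxA : A.map (MulAut.conj x).toMonoidHom = A :=
    (Cfsg.Agent.Lib.H7Basic.mem_normalizer_iff_map_conj A x).mp hx
  obtain ⟨y, hyH, hy⟩ := h2 x (h3 x hx)
  have hle : A ≤ S.map (MulAut.conj y).toMonoidHom := by
    rw [← hy]
    calc A = A.map (MulAut.conj x).toMonoidHom := hxA.symm
      _ ≤ _ := Subgroup.map_mono hAS
  have hle2 : A.map (MulAut.conj y⁻¹).toMonoidHom ≤ S := by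
    rintro _ ⟨a, ha, rfl⟩
    have := (Cfsg.Agent.Lib.H7Basic.mem_map_conj_iff S y a).mp (hle ha)
    simpa using this
  obtain ⟨s, hsS, hs⟩ := h1 y⁻¹ hle2
  have hy0 : y * s ∈ Subgroup.normalizer (A : Set G) := by
    rw [Cfsg.Agent.Lib.H7Basic.mem_normalizer_iff_map_conj]
    ext z
    rw [Cfsg.Agent.Lib.H7Basic.mem_map_conj_iff]
    have h5 : (y * s)⁻¹ * z * (y * s) ∈ A ↔ y * ((y * s)⁻¹ * z * (y * s)) * y⁻¹ ∈ A.map (MulAut.conj y).toMonoidHom := by
      rw [Cfsg.Agent.Lib.H7Basic.mem_map_conj_iff]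
      simp [mul_assoc]
    have h6 : s * ((y * s)⁻¹ * z * (y * s)) * s⁻¹ ∈ A.map (MulAut.conj s).toMonoidHom ↔ (y * s)⁻¹ * z * (y * s) ∈ A := by
      rw [Cfsg.Agent.Lib.H7Basic.mem_map_conj_iff]
      simp [mul_assoc]
    rw [← h6, ← hs, Cfsg.Agent.Lib.H7Basic.mem_map_conj_iff]
    simp [mul_assoc]
  have hyx : y⁻¹ * x ∈ Subgroup.normalizer (S : Set G) := by
    rw [Cfsg.Agent.Lib.H7Basic.mem_normalizer_iff_map_conj]
    ext z
    rw [Cfsg.Agent.Lib.H7Basic.mem_map_conj_iff]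
    have h5 : (y⁻¹ * x)⁻¹ * z * (y⁻¹ * x) ∈ S ↔ y * z * y⁻¹ ∈ S.map (MulAut.conj x).toMonoidHom := by
      rw [Cfsg.Agent.Lib.H7Basic.mem_map_conj_iff]
      simp [mul_assoc]
    rw [h5, hy, Cfsg.Agent.Lib.H7Basic.mem_map_conj_iff]
    simp [mul_assoc]
  have hsN : s⁻¹ ∈ Subgroup.normalizer (S : Set G) := by
    apply Subgroup.le_normalizer
    exact S.inv_mem hsS
  refine ⟨y * s, ⟨H.mul_mem hyH (hSH hsS), hy0⟩, s⁻¹ * (y⁻¹ * x), ⟨?_, ?_⟩, by simp [mul_assoc]⟩
  · exact Subgroup.mul_mem _ hsN hyx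
  · have := Subgroup.mul_mem _ (Subgroup.inv_mem _ hy0) hx
    simpa [mul_assoc] using this

end Cfsg.Agent.S4421
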