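import Cfsg.Statements.S4422


set_option autoImplicit false
set_option linter.all false
open Cfsg

namespace Cfsg.Agent.S4422

/-- Primitive divisors of `q^e - 1` are congruent to 1 modulo `e`. Let `q ≥ 2` and `e ≥ 1` be natural numbers and let `m` be a divisor of `q^e - 1` that is coprime to `q^i - 1` for every `1 ≤ i < e` (so `m` divides the primitive part of `q^e - 1`, the largest such divisor). Then `m ≡ 1 (mod e)`. -/
theorem result (q e m : ℕ) (hq : 2 ≤ q) (he : 1 ≤ e)
    (hm : m ∣ q ^ e - 1) (hcop : ∀ i : ℕ, 1 ≤ i → i < e → Nat.Coprime m (q ^ i - 1)) :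
    m % e = 1 % e := by
  classical
  have hq1 : 0 < q ^ e - 1 := by
    have : 2 ≤ q ^ e := le_trans hq (Nat.le_self_pow (by omega) q)
    omega
  have hprime : ∀ r : ℕ, r.Prime → r ∣ m → r ≡ 1 [MOD e] := by
    intro r hr hrm
    haveI : Fact r.Prime := ⟨hr⟩
    have hre : r ∣ q ^ e - 1 := hrm.trans hm
    have h1 : ((q : ZMod r)) ^ e = 1 := by
      have h2 : ((q ^ e - 1 : ℕ) : ZMod r) = 0 := (ZMod.natCast_eq_zero_iff _ _).mpr hre
      have h3 : 1 ≤ q ^ e := Nat.one_le_pow _ _ (by omega)
      rw [Nat.cast_sub h3] at h2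
      push_cast at h2
      exact sub_eq_zero.mp h2
    have hq0 : (q : ZMod r) ≠ 0 := by
      intro h0
      rw [h0, zero_pow (by omega)] at h1
      exact zero_ne_one h1
    set d := orderOf (q : ZMod r) with hd
    have hde : d ∣ e := orderOf_dvd_of_pow_eq_one h1
    have hdpos : 0 < d := Nat.pos_of_dvd_of_pos hde (by omega)
    have hdeq : d = e := by
      by_contra hne
      have hlt : d < e := lt_of_le_of_ne (Nat.le_of_dvd (by omega) hde) hne
      have hc := hcop d hdpos hlt
      have h3 : r ∣ q ^ d - 1 := by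
        have h4 : ((q : ZMod r)) ^ d = 1 := pow_orderOf_eq_one _
        have h5 : 1 ≤ q ^ d := Nat.one_le_pow _ _ (by omega)
        rw [← ZMod.natCast_eq_zero_iff, Nat.cast_sub h5]
        push_cast
        rw [h4, sub_self]
      have := Nat.dvd_gcd hrm h3
      rw [hc] at this
      exact hr.one_lt.ne' (Nat.dvd_one.mp this)
    have hdvd : d ∣ r - 1 := by
      have := ZMod.orderOf_dvd_card_sub_one hq0
      simpa using this
    rw [hdeq] at hdvd
    exact ((Nat.modEq_iff_dvd' hr.one_le).mpr hdvd).symm
  have hall : ∀ d : ℕ, d ∣ m → d ≡ 1 [MOD e] := by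
    have hm0 : m ≠ 0 := by
      rintro rfl
      rw [Nat.zero_dvd] at hm
      omega
    intro d
    induction d using Nat.strong_induction_on with
    | _ d ih =>
      intro hd
      have hd0 : d ≠ 0 := fun h => hm0 (by simpa [h] using hd)
      by_cases hd1 : d = 1
      · subst hd1; rfl
      · have hr := Nat.minFac_prime hd1
        obtain ⟨c, hc⟩ := Nat.minFac_dvd d
        have hcd : c ∣ m := (Dvd.intro_left _ hc.symm).trans hd
        have hclt : c < d := by
          have : 2 ≤ d.minFac := hr.two_le
          have hc0 : 0 < c := Nat.pos_of_ne_zero (fun h => hd0 (by rw [hc, h, mul_zero]))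
          nlinarith
        have h1 := hprime _ hr ((Nat.minFac_dvd d).trans hd)
        have h2 := ih c hclt hcd
        have h3 : d.minFac * c ≡ 1 * 1 [MOD e] := h1.mul h2
        rw [← hc, mul_one] at h3
        exact h3
  exact hall m dvd_rfl

end Cfsg.Agent.S4422
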