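import Cfsg.Statements.S4424
import Mathlib
import Cfsg.Agent.Lib.BrauerRegular

set_option autoImplicit false
set_option linter.style.haveILetI false
set_option linter.unusedVariables false
open Cfsg

namespace Cfsg.Agent.S4424

/-- Let χ be an irreducible character of the finite group G lying in the p-block B (relative to a maximal ideal M of the algebraic integers containing p), and let p^a be the p-part of the order of G. Then the class function that equals p^a · χ on the p-regular elements and vanishes on the p-singular elements is an integer combination of the irreducible characters in B: there are integers a_ψ, zero for ψ outside B, with that function equal to Σ a_ψ ψ. -/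
theorem result {G : Type*} [Group G] [Finite G] (p : ℕ) [Fact p.Prime] (M : Ideal Cfsg.AlgInt) (hM : Cfsg.IsPModular p M) (B : Set (Cfsg.IrrCharacter G)) (hB : Cfsg.IsPBlock M B) (χ : Cfsg.IrrCharacter G) (hχ : χ ∈ B) : ∃ a : Cfsg.IrrCharacter G → ℤ, (∀ ψ, ψ ∉ B → a ψ = 0) ∧ (fun x : G => if p ∣ orderOf x then (0 : ℂ) else ((p ^ (Nat.card G).factorization p : ℕ) : ℂ) * (χ : G → ℂ) x) = fun x => ∑ᶠ ψ : Cfsg.IrrCharacter G, (a ψ : ℂ) * (ψ : G → ℂ) x := by
  classical
  cases nonempty_fintype G
  open Cfsg.Agent.Lib.BrauerRegular Cfsg.Agent.Lib.CharIrr Cfsg.Agent.Lib.CharOps Cfsg.Agent.Lib.CharGen in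
  have hχc := IsIrrCharacter.isCharacter' χ.2
  open Cfsg.Agent.Lib.BrauerRegular Cfsg.Agent.Lib.CharIrr Cfsg.Agent.Lib.CharOps Cfsg.Agent.Lib.CharGen in
  choose n hn using fun ξ : Cfsg.IrrCharacter G =>
    exists_int_classInner (isGen_regChar (p := p) hχc) (isGen_of_char (IsIrrCharacter.isCharacter' ξ.2))
  open Cfsg.Agent.Lib.BrauerRegular Cfsg.Agent.Lib.CharIrr Cfsg.Agent.Lib.CharOps Cfsg.Agent.Lib.CharGen Cfsg.Agent.Lib.CharBlockConv in
  have hcl : Cfsg.IsClassFunction G (regChar p (χ : G → ℂ)) :=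
    regChar_isClass (IsCharacter.isClassFunction' hχc)
  refine ⟨n, ?_, ?_⟩
  · intro ψ hψ
    have h1 := Cfsg.Agent.Lib.BrauerRegular.classInner_regChar_eq_zero (p := p) hM hB hχ hψ
    rw [hn ψ] at h1
    exact_mod_cast h1
  · funext x
    have h1 := congrFun (Cfsg.Agent.Lib.CharIrr.classFunction_expand hcl) x
    rw [Finset.sum_apply] at h1
    rw [finsum_eq_sum_of_fintype]
    show Cfsg.Agent.Lib.BrauerRegular.regChar p (χ : G → ℂ) x = _
    rw [h1]
    refine Finset.sum_congr rfl fun ξ _ => ?_
    rw [Pi.smul_apply, smul_eq_mul, hn ξ]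

end Cfsg.Agent.S4424
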