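import Cfsg.Statements.S4425
import Mathlib
import Cfsg.Agent.Lib.BrauerRegular
import Cfsg.Agent.Lib.CharBlockVan

set_option autoImplicit false
set_option linter.style.haveILetI false
set_option linter.unusedVariables false
open Cfsg

namespace Cfsg.Agent.S4425

/-- Let χ be an irreducible character of the finite group G, p a prime, p^a the p-part of the order of G and p^b the p-part of the degree χ(1). Let χ̃ be the class function equal to p^a · χ on p-regular elements and zero on p-singular elements. Then p^(−b) · χ̃ is a generalized character of G, while p^(−(b+1)) · χ̃ is not. -/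
theorem result {G : Type*} [Group G] [Finite G] (p : ℕ) [Fact p.Prime] (χ : Cfsg.IrrCharacter G) : Cfsg.IsGeneralizedCharacter G (fun x : G => if p ∣ orderOf x then (0 : ℂ) else ((p ^ ((Nat.card G).factorization p - (Cfsg.charDegree (χ : G → ℂ)).factorization p) : ℕ) : ℂ) * (χ : G → ℂ) x) ∧ ¬ Cfsg.IsGeneralizedCharacter G (fun x : G => if p ∣ orderOf x then (0 : ℂ) else ((p ^ (Nat.card G).factorization p : ℕ) : ℂ) / ((p ^ ((Cfsg.charDegree (χ : G → ℂ)).factorization p + 1) : ℕ) : ℂ) * (χ : G → ℂ) x) := by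
  classical
  cases nonempty_fintype G
  have hp : p.Prime := Fact.out
  obtain ⟨M, hM⟩ := Cfsg.Agent.Lib.CharBlockVan.exists_isPModular hp
  have hχc := Cfsg.Agent.Lib.CharOps.IsIrrCharacter.isCharacter' χ.2
  set a := (Nat.card G).factorization p with ha
  set v := (Cfsg.charDegree (χ : G → ℂ)).factorization p with hv
  have hD0 := Cfsg.Agent.Lib.CharBlockDefect.charDegree_ne_zero χ.2
  have hDdvd := Cfsg.Agent.Lib.CharBlockDefect.charDegree_dvd_card χ.2
  have hva : v ≤ a := (Nat.factorization_le_iff_dvd hD0 Nat.card_pos.ne').2 hDdvd p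
  constructor
  · -- first part
    choose n hn using fun ξ : Cfsg.IrrCharacter G =>
      Cfsg.Agent.Lib.CharGen.exists_int_classInner (Cfsg.Agent.Lib.BrauerRegular.isGen_regChar (p := p) hχc)
        (Cfsg.Agent.Lib.CharGen.isGen_of_char (Cfsg.Agent.Lib.CharOps.IsIrrCharacter.isCharacter' ξ.2))
    have hdvd : ∀ ξ : Cfsg.IrrCharacter G, ((p ^ v : ℕ) : ℤ) ∣ n ξ := by
      intro ξ
      have h1 := Cfsg.Agent.Lib.BrauerRegular.memLocalRing_div_left (p := p) hM χ.2
        (Cfsg.Agent.Lib.CharOps.IsIrrCharacter.isCharacter' ξ.2)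
      rw [hn ξ, ← Cfsg.Agent.Lib.CharBlockDefect.charDegree_cast hχc] at h1
      exact Cfsg.Agent.Lib.BrauerRegular.pow_dvd_of_memLocalRing hM hD0 h1
    choose k hk using hdvd
    have hGen : Cfsg.IsGeneralizedCharacter G (∑ ξ : Cfsg.IrrCharacter G, (k ξ : ℂ) • (ξ : G → ℂ)) := by
      apply Cfsg.Agent.Lib.CharGen.isGen_sum
      intro ξ _
      exact Cfsg.Agent.Lib.CharGen.isGen_zsmul
        (Cfsg.Agent.Lib.CharGen.isGen_of_char (Cfsg.Agent.Lib.CharOps.IsIrrCharacter.isCharacter' ξ.2)) (k ξ)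
    convert hGen using 1
    have hcl : Cfsg.IsClassFunction G (Cfsg.Agent.Lib.BrauerRegular.regChar p (χ : G → ℂ)) :=
      Cfsg.Agent.Lib.BrauerRegular.regChar_isClass (Cfsg.Agent.Lib.CharOps.IsCharacter.isClassFunction' hχc)
    funext x
    have h1 := congrFun (Cfsg.Agent.Lib.CharIrr.classFunction_expand hcl) x
    rw [Finset.sum_apply] at h1
    rw [Finset.sum_apply]
    have hPv : ((p ^ v : ℕ) : ℂ) ≠ 0 := by exact_mod_cast pow_ne_zero _ hp.ne_zero
    apply mul_left_cancel₀ hPv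
    have h2 : ((p ^ v : ℕ) : ℂ) * ((p ^ (a - v) : ℕ) : ℂ) = ((p ^ a : ℕ) : ℂ) := by
      rw [← Nat.cast_mul, ← pow_add]
      congr 2
      omega
    have h3 : ((p ^ v : ℕ) : ℂ) * (if p ∣ orderOf x then 0 else ((p ^ (a - v) : ℕ) : ℂ) * (χ : G → ℂ) x) =
        Cfsg.Agent.Lib.BrauerRegular.regChar p (χ : G → ℂ) x := by
      rw [Cfsg.Agent.Lib.BrauerRegular.regChar_apply]
      split_ifs
      · simp
      · rw [← mul_assoc, h2]
    rw [h3, h1, Finset.mul_sum]
    refine Finset.sum_congr rfl fun ξ _ => ?_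
    rw [Pi.smul_apply, Pi.smul_apply, smul_eq_mul, smul_eq_mul, hn ξ, hk ξ]
    push_cast
    ring
  · -- second part
    intro hgen
    obtain ⟨P⟩ : Nonempty (Sylow p G) := inferInstance
    let Q : Subgroup G := (P : Subgroup G)
    have hQp : IsPGroup p Q := P.isPGroup'
    have hcard : Nat.card Q = p ^ a := P.card_eq_multiplicity
    letI : Fintype Q := Fintype.ofFinite _
    have h1 := Cfsg.Agent.Lib.CharGen.isGen_restrict Q hgen
    obtain ⟨z, hz⟩ := Cfsg.Agent.Lib.CharGen.exists_int_classInner h1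
      (Cfsg.Agent.Lib.CharGen.isGen_one (G := Q))
    rw [Cfsg.classInner] at hz
    have hPc : ((Nat.card Q : ℕ) : ℂ) ≠ 0 := by exact_mod_cast Nat.card_pos.ne'
    have hsum : ∑ u : Q, ((if p ∣ orderOf (u : G) then (0 : ℂ) else ((p ^ a : ℕ) : ℂ) / ((p ^ (v + 1) : ℕ) : ℂ) * (χ : G → ℂ) u) * (starRingEnd ℂ) 1) =
        ((p ^ a : ℕ) : ℂ) / ((p ^ (v + 1) : ℕ) : ℂ) * (χ : G → ℂ) 1 := by
      rw [Finset.sum_eq_single (1 : Q)]
      · simp [hp.ne_one]
      · intro u _ hu
        have hord : p ∣ orderOf (u : G) := by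
          obtain ⟨j, hj⟩ := IsPGroup.iff_orderOf.mp hQp u
          rw [Subgroup.orderOf_coe, hj]
          have hj0 : j ≠ 0 := by
            rintro rfl
            rw [pow_zero, orderOf_eq_one_iff] at hj
            exact hu hj
          exact dvd_pow_self p hj0
        rw [if_pos hord, zero_mul]
      · simp
    rw [hsum, hcard, ← Cfsg.Agent.Lib.CharBlockDefect.charDegree_cast hχc] at hz
    have hPa : ((p ^ a : ℕ) : ℂ) ≠ 0 := by exact_mod_cast pow_ne_zero _ hp.ne_zero
    have hPv : ((p ^ (v + 1) : ℕ) : ℂ) ≠ 0 := by exact_mod_cast pow_ne_zero _ hp.ne_zero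
    have h2 : ((Cfsg.charDegree (χ : G → ℂ) : ℕ) : ℂ) = (z : ℂ) * ((p ^ (v + 1) : ℕ) : ℂ) := by
      rw [← hz]
      field_simp
    have h3 : ((Cfsg.charDegree (χ : G → ℂ) : ℕ) : ℤ) = z * ((p ^ (v + 1) : ℕ) : ℤ) := by
      exact_mod_cast h2
    have h4 : ((p ^ (v + 1) : ℕ) : ℤ) ∣ ((Cfsg.charDegree (χ : G → ℂ) : ℕ) : ℤ) := ⟨z, by rw [h3]; ring⟩
    have h5 : p ^ (v + 1) ∣ Cfsg.charDegree (χ : G → ℂ) := Int.natCast_dvd_natCast.mp h4
    exact Nat.pow_succ_factorization_not_dvd hD0 hp h5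

end Cfsg.Agent.S4425
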