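import Cfsg.Statements.S4430
import Cfsg.Agent.Lib.BlockInd

set_option autoImplicit false
set_option linter.all false
open Cfsg

namespace Cfsg.Agent.S4430

/-- Let H be a subgroup of the finite group G, b a block of H whose induced block B₀ in G is defined (relative to a maximal ideal M of the algebraic integers containing p), and ξ ∈ b. For a block B of G let n_B be the value at 1 of the B-part of the induced character ξ^G (a natural number: the sum over χ ∈ B of the multiplicity of χ in ξ^G times χ(1)). Then for B = B₀ the exact power of p dividing n_B equals the exact power of p dividing ξ^G(1), while for every other block B either n_B = 0 or n_B is divisible by a strictly higher power of p than ξ^G(1). -/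
theorem result {G : Type*} [Group G] [Fintype G] (p : ℕ) [Fact p.Prime] (M : Ideal Cfsg.AlgInt) (hM : Cfsg.IsPModular p M) (H : Subgroup G) [Fintype H] (b : Set (Cfsg.IrrCharacter H)) (B₀ : Set (Cfsg.IrrCharacter G)) (hind : Cfsg.IsInducedBlock M H b B₀) (ξ : Cfsg.IrrCharacter H) (hξ : ξ ∈ b) : (∃ n : ℕ, Cfsg.blockPart B₀ (Cfsg.indFun H (ξ : H → ℂ)) 1 = (n : ℂ) ∧ n ≠ 0 ∧ n.factorization p = (Cfsg.charDegree (Cfsg.indFun H (ξ : H → ℂ))).factorization p) ∧ ∀ B : Set (Cfsg.IrrCharacter G), Cfsg.IsPBlock M B → B ≠ B₀ → ∃ n : ℕ, Cfsg.blockPart B (Cfsg.indFun H (ξ : H → ℂ)) 1 = (n : ℂ) ∧ (n = 0 ∨ (Cfsg.charDegree (Cfsg.indFun H (ξ : H → ℂ))).factorization p < n.factorization p) := by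
  classical
  haveI := hM.2.1.isPrime
  open Cfsg.Agent.Lib.BlockLocal Cfsg.Agent.Lib.BlockOsima Cfsg.Agent.Lib.BlockInd in
  have hB₀ := hind.2.1
  obtain ⟨χ₀, hχ₀⟩ : ∃ χ₀, χ₀ ∈ B₀ := by
    obtain ⟨χ, hχ⟩ := hB₀
    exact ⟨χ, hχ ▸ mem_block_self χ⟩
  have hI := Cfsg.Agent.Lib.CharOps.isCharacter_indFun H (Cfsg.Agent.Lib.CharOps.IsIrrCharacter.isCharacter' ξ.2)
  have hdeg := charDegree_ind H ξ
  set N := charDegree (indFun H (ξ : H → ℂ)) with hN
  have hN0 : N ≠ 0 := by
    rw [hdeg]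
    exact mul_ne_zero (Subgroup.index_ne_zero_of_finite) (Cfsg.Agent.Lib.CharAb.deg_pos ξ).ne'
  have hNc : (H.index : ℂ) * (ξ : H → ℂ) 1 = (N : ℂ) := by
    rw [hdeg, Cfsg.Agent.Lib.CharAb.apply_one_eq_deg ξ]; push_cast; ring
  have hξ1 := irr_one_ne_zero ξ.2
  have hpart := fun B => blockPart_ind_one H hξ1 B
  constructor
  · obtain ⟨n, hn⟩ := blockPart_one_nat hI B₀
    refine ⟨n, hn, ?_⟩
    have h1 := omH_blockCoeff_congr H hind hξ hχ₀ hB₀
    rw [if_pos hχ₀] at h1
    have hz : (n : ℂ) = omH H (ξ : H → ℂ) (blockCoeff B₀) * N := by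
      rw [← hn, hpart, hNc]
    have hl : MemLocalRing M (omH H (ξ : H → ℂ) (blockCoeff B₀)) := by
      have := MemLocalRing_add (MemLocalIdeal.toRing h1) (memLocalRing_one (M := M))
      simpa using this
    have hu : ¬ MemLocalIdeal M (omH H (ξ : H → ℂ) (blockCoeff B₀)) := by
      intro hc
      apply one_not_memLocalIdeal (M := M)
      have := MemLocalIdeal_sub hc h1
      simpa using this
    exact factorization_of_unit hM hN0 hz hl hu
  · intro B hB hne
    obtain ⟨n, hn⟩ := blockPart_one_nat hI B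
    refine ⟨n, hn, ?_⟩
    have h1 := omH_blockCoeff_congr H hind hξ hχ₀ hB
    have hχB : χ₀ ∉ B := by
      intro hc
      apply hne
      rw [blockOf_eq_of_mem hB hc, ← blockOf_eq_of_mem hB₀ hχ₀]
    rw [if_neg hχB, sub_zero] at h1
    have hz : (n : ℂ) = omH H (ξ : H → ℂ) (blockCoeff B) * N := by
      rw [← hn, hpart, hNc]
    exact factorization_of_mem hM hN0 hz h1

end Cfsg.Agent.S4430
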