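import Cfsg.Statements.S4431
import Cfsg.Agent.Lib.BlockHt

set_option autoImplicit false
set_option linter.all false
open Cfsg

namespace Cfsg.Agent.S4431

/-- Let H be a subgroup of the finite group G and b a block of H whose induced block B₀ in G is defined (relative to a maximal ideal M of the algebraic integers containing p). Let χ be an irreducible character of G, ψ ∈ b, and let η be the class function on H equal to p^a · χ on the p-regular elements of H and zero elsewhere, p^a being the p-part of the order of H. Then (a) if χ ∉ B₀, the number [η, ψ]/ψ(1) lies in the local ideal at M; (b) if χ ∈ B₀ has height zero, it does not. -/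
theorem result {G : Type*} [Group G] [Fintype G] (p : ℕ) [Fact p.Prime] (M : Ideal Cfsg.AlgInt) (hM : Cfsg.IsPModular p M) (H : Subgroup G) [Fintype H] (b : Set (Cfsg.IrrCharacter H)) (B₀ : Set (Cfsg.IrrCharacter G)) (hind : Cfsg.IsInducedBlock M H b B₀) (χ : Cfsg.IrrCharacter G) (ψ : Cfsg.IrrCharacter H) (hψ : ψ ∈ b) : (χ ∉ B₀ → Cfsg.MemLocalIdeal M (Cfsg.classInner (fun h : H => if p ∣ orderOf h then (0 : ℂ) else ((p ^ (Nat.card H).factorization p : ℕ) : ℂ) * (χ : G → ℂ) h) (ψ : H → ℂ) / (ψ : H → ℂ) 1)) ∧ (χ ∈ B₀ → Cfsg.blockHeight p B₀ (χ : G → ℂ) = 0 → ¬ Cfsg.MemLocalIdeal M (Cfsg.classInner (fun h : H => if p ∣ orderOf h then (0 : ℂ) else ((p ^ (Nat.card H).factorization p : ℕ) : ℂ) * (χ : G → ℂ) h) (ψ : H → ℂ) / (ψ : H → ℂ) 1)) := by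
  classical
  rw [Cfsg.Agent.Lib.BlockHt.classInner_eta H (χ : G → ℂ) ψ.2]
  have hnd : ¬ p ∣ (Nat.card H / p ^ (Nat.card H).factorization p) :=
    Nat.not_dvd_ordCompl hM.1 Nat.card_pos.ne'
  have hu := Cfsg.Agent.Lib.CharBlockLocal.natCast_inv_memLocalRing hM hnd
  have hne : ((Nat.card H / p ^ (Nat.card H).factorization p : ℕ) : ℂ) ≠ 0 := by
    intro h
    have h' : Nat.card H / p ^ (Nat.card H).factorization p = 0 := by exact_mod_cast h
    rw [h'] at hnd
    exact hnd (dvd_zero _)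
  haveI : M.IsPrime := hM.2.1.isPrime
  constructor
  · intro hχ
    exact Cfsg.Agent.Lib.CharBlockLocal.MemLocalIdeal.mul_left hM hu
      (Cfsg.Agent.Lib.BlockHt.eta_not_mem hM H hind χ hψ hχ)
  · intro hχ h0 hI
    apply Cfsg.Agent.Lib.BlockHt.eta_not_ideal hM H hind hψ hχ h0
    have h1 := Cfsg.Agent.Lib.CharBlockLocal.MemLocalIdeal.mul_left hM
      (Cfsg.Agent.Lib.CharBlockLocal.MemLocalRing.natCast hM (Nat.card H / p ^ (Nat.card H).factorization p)) hI
    rw [← mul_assoc, mul_inv_cancel₀ hne, one_mul] at h1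
    exact h1

end Cfsg.Agent.S4431
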