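import Cfsg.Statements.S4444
import Cfsg.Agent.Lib.Glaub

set_option autoImplicit false
set_option linter.all false
open Cfsg

namespace Cfsg.Agent.S4444

/-- The Glauberman correspondence for a p-group of operators. Inside a finite group Γ let S normalise G with the orders of G and S coprime, S a p-group, and let C = G ⊓ C(S) be the fixed points. Call an irreducible character χ of G S-invariant when χ(s g s⁻¹) = χ(g) for s ∈ S, g ∈ G. Then: (i) for every S-invariant χ there is exactly one irreducible character β of C whose multiplicity [χ_C, β] in the restriction of χ is not divisible by p; (ii) that multiplicity is ≡ 1 or ≡ −1 (mod p); (iii) distinct S-invariant χ give distinct β; (iv) every irreducible character of C arises in this way. So χ ↦ β is a bijection from the S-invariant irreducible characters of G onto the irreducible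 characters of C. -/
theorem result {Γ : Type*} [Group Γ] [Fintype Γ] (G S : Subgroup Γ) [Fintype G] (hnorm : ∀ s ∈ S, ∀ g ∈ G, s * g * s⁻¹ ∈ G) (hcop : (Nat.card G).Coprime (Nat.card S)) (p : ℕ) (hp : p.Prime) (hS : IsPGroup p S) (C : Subgroup Γ) [Fintype C] (hC : C = G ⊓ Subgroup.centralizer (S : Set Γ)) (hCG : C ≤ G) : (∀ χ : Cfsg.IrrCharacter G, (∀ s ∈ S, ∀ g g' : G, (g' : Γ) = s * g * s⁻¹ → (χ : G → ℂ) g' = (χ : G → ℂ) g) → ∃! β : Cfsg.IrrCharacter C, ∃ m : ℕ, Cfsg.classInner (fun c : C => (χ : G → ℂ) ⟨c, hCG c.2⟩) (β : C → ℂ) = (m : ℂ) ∧ ¬ p ∣ m) ∧ (∀ χ : Cfsg.IrrCharacter G, (∀ s ∈ S, ∀ g g' : G, (g' : Γ) = s * g * s⁻¹ → (χ : G → ℂ) g' = (χ : G → ℂ) g) → ∀ β : Cfsg.IrrCharacter C, ∀ m : ℕ, Cfsg.classInner (fun c : C => (χ : G → ℂ) ⟨c, hCG c.2⟩) (β : C → ℂ) = (m : ℂ) → ¬ p ∣ m → ((m : ℤ) ≡ 1 [ZMOD p] ∨ (m : ℤ) ≡ -1 [ZMOD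 p])) ∧ (∀ χ χ' : Cfsg.IrrCharacter G, (∀ s ∈ S, ∀ g g' : G, (g' : Γ) = s * g * s⁻¹ → (χ : G → ℂ) g' = (χ : G → ℂ) g) → (∀ s ∈ S, ∀ g g' : G, (g' : Γ) = s * g * s⁻¹ → (χ' : G → ℂ) g' = (χ' : G → ℂ) g) → ∀ β : Cfsg.IrrCharacter C, ∀ m m' : ℕ, Cfsg.classInner (fun c : C => (χ : G → ℂ) ⟨c, hCG c.2⟩) (β : C → ℂ) = (m : ℂ) → ¬ p ∣ m → Cfsg.classInner (fun c : C => (χ' : G → ℂ) ⟨c, hCG c.2⟩) (β : C → ℂ) = (m' : ℂ) → ¬ p ∣ m' → χ = χ') ∧ (∀ β : Cfsg.IrrCharacter C, ∃ χ : Cfsg.IrrCharacter G, (∀ s ∈ S, ∀ g g' : G, (g' : Γ) = s * g * s⁻¹ → (χ : G → ℂ) g' = (χ : G → ℂ) g) ∧ ∃ m : ℕ, Cfsg.classInner (fun c : C => (χ : G → ℂ) ⟨c, hCG c.2⟩) (β : C → ℂ) = (m : ℂ) ∧ ¬ p ∣ m) := by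
  classical
  have D := Cfsg.Agent.Lib.Glaub.conj_glau G S C hnorm hcop hp hS hC hCG
  have hres : ∀ χ₀ : Cfsg.IrrCharacter G, Cfsg.IsCharacter C (fun c : C => (χ₀ : G → ℂ) ⟨c, hCG c.2⟩) :=
    fun χ₀ => Cfsg.Agent.Lib.CharOps.isCharacter_comp (Subgroup.inclusion hCG)
      (Cfsg.Agent.Lib.CharOps.IsIrrCharacter.isCharacter' χ₀.2)
  have hnat : ∀ (χ₀ : Cfsg.IrrCharacter G) (β : Cfsg.IrrCharacter C),
      ∃ m : ℕ, Cfsg.classInner (fun c : C => (χ₀ : G → ℂ) ⟨c, hCG c.2⟩) (β : C → ℂ) = (m : ℂ) :=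
    fun χ₀ β => Cfsg.Agent.Lib.CharOps.exists_nat_classInner (hres χ₀)
      (Cfsg.Agent.Lib.CharOps.IsIrrCharacter.isCharacter' β.2)
  have hcorr : ∀ (χ₀ : Cfsg.IrrCharacter G) (β β' : Cfsg.IrrCharacter C) (m : ℕ),
      Cfsg.Agent.Lib.Glaub.Corr p (fun c : C => (χ₀ : G → ℂ) ⟨c, hCG c.2⟩) β →
      Cfsg.classInner (fun c : C => (χ₀ : G → ℂ) ⟨c, hCG c.2⟩) (β' : C → ℂ) = (m : ℂ) → ¬ p ∣ m → β' = β := by
    intro χ₀ β β' m h hm hm2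
    by_contra hne
    exact hm2 ((h β' m hm).2 hne)
  have hnotdvd : ∀ (χ₀ : Cfsg.IrrCharacter G) (β : Cfsg.IrrCharacter C) (m : ℕ),
      Cfsg.Agent.Lib.Glaub.Corr p (fun c : C => (χ₀ : G → ℂ) ⟨c, hCG c.2⟩) β →
      Cfsg.classInner (fun c : C => (χ₀ : G → ℂ) ⟨c, hCG c.2⟩) (β : C → ℂ) = (m : ℂ) → ¬ p ∣ m :=
    fun χ₀ β m h hm => Cfsg.Agent.Lib.Glaub.not_dvd_of_sq hp ((h β m hm).1 rfl)
  have hcorr2 : ∀ (χ₀ : Cfsg.IrrCharacter G), (∀ s ∈ S, ∀ g g' : G, (g' : Γ) = s * g * s⁻¹ → (χ₀ : G → ℂ) g' = (χ₀ : G → ℂ) g) →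
      ∀ (β : Cfsg.IrrCharacter C) (m : ℕ), Cfsg.classInner (fun c : C => (χ₀ : G → ℂ) ⟨c, hCG c.2⟩) (β : C → ℂ) = (m : ℂ) → ¬ p ∣ m →
      Cfsg.Agent.Lib.Glaub.Corr p (fun c : C => (χ₀ : G → ℂ) ⟨c, hCG c.2⟩) β := by
    intro χ₀ hχ₀ β m hm hm2
    obtain ⟨β₀, h⟩ := D.ex χ₀ hχ₀
    have h1 : β = β₀ := hcorr χ₀ β₀ β m h hm hm2
    rw [h1]
    exact h
  refine ⟨?_, ?_, ?_, ?_⟩
  · intro χ hχ
    obtain ⟨β, h⟩ := D.ex χ hχ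
    obtain ⟨m, hm⟩ := hnat χ β
    refine ⟨β, ⟨m, hm, hnotdvd χ β m h hm⟩, ?_⟩
    rintro β' ⟨m', hm', hm2⟩
    exact hcorr χ β β' m' h hm' hm2
  · intro χ hχ β m hm hm2
    have h := hcorr2 χ hχ β m hm hm2
    have h1 := (h β m hm).1 rfl
    have h2 : ((m : ℤ) - 1) * ((m : ℤ) + 1) = (m : ℤ) ^ 2 - 1 := by ring
    rw [← h2] at h1
    have hpi : Prime (p : ℤ) := Nat.prime_iff_prime_int.1 hp
    rcases hpi.dvd_or_dvd h1 with h3 | h3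
    · left
      exact Int.ModEq.symm (Int.modEq_iff_dvd.2 h3)
    · right
      exact Int.ModEq.symm (Int.modEq_iff_dvd.2 (by rw [sub_neg_eq_add]; exact h3))
  · intro χ χ' hχ hχ' β m m' hm hm2 hm' hm2'
    exact D.inj χ χ' hχ hχ' β (hcorr2 χ hχ β m hm hm2) (hcorr2 χ' hχ' β m' hm' hm2')
  · intro β
    obtain ⟨χ, hχ, h⟩ := D.surj β
    obtain ⟨m, hm⟩ := hnat χ β
    exact ⟨χ, hχ, m, hm, hnotdvd χ β m h hm⟩

end Cfsg.Agent.S4444
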