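import Cfsg.Statements.S4446
import Cfsg.Agent.Lib.GlauCyc

set_option autoImplicit false
set_option linter.all false
open Cfsg

namespace Cfsg.Agent.S4446

/-- Let the finite group Γ be generated by a normal subgroup G and a cyclic subgroup S of coprime orders, C = G ⊓ C(S), and let χ be an S-invariant irreducible character of G with canonical extension χ̂ to Γ (the extension whose determinantal order is coprime to the order of S). Then there are exactly one irreducible character β of C and one sign ε such that χ̂(c s) = ε β(c) for every c ∈ C and every generator s of S; this β is a constituent of the restriction of χ to C; distinct S-invariant χ give distinct β; and every irreducible character of C arises in this way. -/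
theorem result {Γ : Type*} [Group Γ] [Fintype Γ] (G S : Subgroup Γ) [Fintype G] (hnorm : ∀ s ∈ S, ∀ g ∈ G, s * g * s⁻¹ ∈ G) (hcop : (Nat.card G).Coprime (Nat.card S)) (htop : G ⊔ S = ⊤) (hcyc : IsCyclic S) (C : Subgroup Γ) [Fintype C] (hC : C = G ⊓ Subgroup.centralizer (S : Set Γ)) (hCG : C ≤ G) : (∀ (χ : Cfsg.IrrCharacter G) (χh : Cfsg.IrrCharacter Γ), (∀ s ∈ S, ∀ g g' : G, (g' : Γ) = s * g * s⁻¹ → (χ : G → ℂ) g' = (χ : G → ℂ) g) → (∀ g : G, (χh : Γ → ℂ) g = (χ : G → ℂ) g) → (Cfsg.detOrder (χh : Γ → ℂ)).Coprime (Nat.card S) → (∃! βε : Cfsg.IrrCharacter C × ℤ, (βε.2 = 1 ∨ βε.2 = -1) ∧ ∀ c : C, ∀ s : Γ, Subgroup.zpowers s = S → (χh : Γ → ℂ) ((c : Γ) * s) = (βε.2 : ℂ) * (βε.1 : C → ℂ) c) ∧ ∀ β : Cfsg.IrrCharacter C, ∀ ε : ℤ, (ε = 1 ∨ ε = -1) → (∀ c : C, ∀ s : Γ, Subgroup.zpowers s = S → (χh : Γ → ℂ) ((c : Γ) * s) = (ε : ℂ) * (β : C → ℂ) c) → Cfsg.classInner (fun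 c : C => (χ : G → ℂ) ⟨c, hCG c.2⟩) (β : C → ℂ) ≠ 0) ∧ (∀ (χ χ' : Cfsg.IrrCharacter G) (χh χh' : Cfsg.IrrCharacter Γ), (∀ s ∈ S, ∀ g g' : G, (g' : Γ) = s * g * s⁻¹ → (χ : G → ℂ) g' = (χ : G → ℂ) g) → (∀ s ∈ S, ∀ g g' : G, (g' : Γ) = s * g * s⁻¹ → (χ' : G → ℂ) g' = (χ' : G → ℂ) g) → (∀ g : G, (χh : Γ → ℂ) g = (χ : G → ℂ) g) → (∀ g : G, (χh' : Γ → ℂ) g = (χ' : G → ℂ) g) → (Cfsg.detOrder (χh : Γ → ℂ)).Coprime (Nat.card S) → (Cfsg.detOrder (χh' : Γ → ℂ)).Coprime (Nat.card S) → ∀ β : Cfsg.IrrCharacter C, ∀ ε ε' : ℤ, (ε = 1 ∨ ε = -1) → (ε' = 1 ∨ ε' = -1) → (∀ c : C, ∀ s : Γ, Subgroup.zpowers s = S → (χh : Γ → ℂ) ((c : Γ) * s) = (ε : ℂ) * (β : C → ℂ) c) → (∀ c : C, ∀ s : Γ, Subgroup.zpowers s = S → (χh' : Γ → ℂ) ((c : Γ) * s) = (ε' : ℂ) * (β : C → ℂ) c) → χ = χ') ∧ (∀ β : Cfsg.IrrCharacter C, ∃ (χ : Cfsg.IrrCharacter G) (χh : Cfsg.IrrCharacter Γ) (ε : ℤ), (∀ s ∈ S,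 ∀ g g' : G, (g' : Γ) = s * g * s⁻¹ → (χ : G → ℂ) g' = (χ : G → ℂ) g) ∧ (∀ g : G, (χh : Γ → ℂ) g = (χ : G → ℂ) g) ∧ (Cfsg.detOrder (χh : Γ → ℂ)).Coprime (Nat.card S) ∧ (ε = 1 ∨ ε = -1) ∧ ∀ c : C, ∀ s : Γ, Subgroup.zpowers s = S → (χh : Γ → ℂ) ((c : Γ) * s) = (ε : ℂ) * (β : C → ℂ) c) := by
  classical
  letI : Fintype S := Fintype.ofFinite S
  haveI hG : G.Normal := Cfsg.Agent.Lib.GlauCyc.normal_of_top G S hnorm htop
  have D : Cfsg.Agent.Lib.GlauCyc.Setup G S C := Cfsg.Agent.Lib.GlauCyc.setup_of G S C hcop htop hC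
  obtain ⟨s₀, hs₀⟩ := Cfsg.Agent.Lib.GlauCyc.exists_generator_of_cyclic S hcyc
  have hsolv := Cfsg.Agent.Lib.GlauCyc.solvable_of_cyclic S hcyc
  have hres : ∀ (χ : Cfsg.IrrCharacter G) (χh : Cfsg.IrrCharacter Γ), (∀ g : G, (χh : Γ → ℂ) g = (χ : G → ℂ) g) →
      Cfsg.IsIrrCharacter G (fun n : G => (χh : Γ → ℂ) n) := by
    intro χ χh h
    have h1 : (fun n : G => (χh : Γ → ℂ) n) = (χ : G → ℂ) := funext h
    rw [h1]
    exact χ.2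
  have hidx : (Nat.card G).Coprime G.index := by
    rw [D.hidx]
    exact hcop
  have hfix : ∀ (χ : Cfsg.IrrCharacter G) (χh : Cfsg.IrrCharacter Γ), (∀ g : G, (χh : Γ → ℂ) g = (χ : G → ℂ) g) →
      (Cfsg.detOrder (χh : Γ → ℂ)).Coprime (Nat.card S) →
      ∀ K : ℕ, K ≡ 1 [MOD Nat.card G] → K.Coprime (Nat.card Γ) → ∀ x, (χh : Γ → ℂ) (x ^ K) = (χh : Γ → ℂ) x := by
    intro χ χh h1 h2 K hK1 hK2 x
    exact Cfsg.Agent.Lib.GlauCyc.pow_fix G χh.2 (hres χ χh h1) (by rw [D.hidx]; exact h2.symm) hidx K hK1 hK2 x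
  have hmain : ∀ (χ : Cfsg.IrrCharacter G) (χh : Cfsg.IrrCharacter Γ), (∀ g : G, (χh : Γ → ℂ) g = (χ : G → ℂ) g) →
      (Cfsg.detOrder (χh : Γ → ℂ)).Coprime (Nat.card S) → _ :=
    fun χ χh h1 h2 => D.main hs₀ (Cfsg.Agent.Lib.CharOps.IsIrrCharacter.isCharacter' χh.2) (hres χ χh h1) (hfix χ χh h1 h2)
  have hinj : ∀ (χ χ' : Cfsg.IrrCharacter G) (χh χh' : Cfsg.IrrCharacter Γ),
      (∀ g : G, (χh : Γ → ℂ) g = (χ : G → ℂ) g) → (∀ g : G, (χh' : Γ → ℂ) g = (χ' : G → ℂ) g) →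
      ∀ β : Cfsg.IrrCharacter C, ∀ ε ε' : ℤ, (ε = 1 ∨ ε = -1) → (ε' = 1 ∨ ε' = -1) →
      (∀ c : C, ∀ s : Γ, Subgroup.zpowers s = S → (χh : Γ → ℂ) ((c : Γ) * s) = (ε : ℂ) * (β : C → ℂ) c) →
      (∀ c : C, ∀ s : Γ, Subgroup.zpowers s = S → (χh' : Γ → ℂ) ((c : Γ) * s) = (ε' : ℂ) * (β : C → ℂ) c) → χ = χ' := by
    intro χ χ' χh χh' h1 h1' β ε ε' hε hε' h2 h2'
    have h3 := D.corr_inj hs₀ χh.2 χh'.2 (hres χ χh h1) (hres χ' χh' h1') hε hε'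
      (fun c => h2 c s₀ hs₀) (fun c => h2' c s₀ hs₀)
    apply Subtype.ext
    funext g
    rw [← h1, ← h1']
    exact congrFun h3 g
  refine ⟨?_, ?_, ?_⟩
  · intro χ χh hinv hext hdet
    obtain ⟨β₀, ε, hε, h1, h2⟩ := hmain χ χh hext hdet
    refine ⟨⟨(β₀, ε), ⟨hε, h1⟩, ?_⟩, ?_⟩
    · rintro ⟨β, ε'⟩ ⟨h3, h4⟩
      obtain ⟨h5, h6⟩ := Cfsg.Agent.Lib.GlauCyc.corr_unique (f := fun c : C => (χh : Γ → ℂ) ((c : Γ) * s₀)) h3 hε
        (fun c => h4 c s₀ hs₀) (fun c => h1 c s₀ hs₀)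
      simp only at h5 h6
      rw [h5, h6]
    · intro β ε' h3 h4
      obtain ⟨h5, h6⟩ := Cfsg.Agent.Lib.GlauCyc.corr_unique (f := fun c : C => (χh : Γ → ℂ) ((c : Γ) * s₀)) h3 hε
        (fun c => h4 c s₀ hs₀) (fun c => h1 c s₀ hs₀)
      subst h5
      have h7 : (fun c : C => (χ : G → ℂ) ⟨c, hCG c.2⟩) = fun c : C => (χh : Γ → ℂ) ((c : Γ) * ((1 : Γ))) := by
        funext c
        rw [mul_one]
        exact (hext ⟨c, hCG c.2⟩).symm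
      rw [h7]
      exact h2
  · intro χ χ' χh χh' _ _ h1 h1' _ _ β ε ε' hε hε' h2 h2'
    exact hinj χ χ' χh χh' h1 h1' β ε ε' hε hε' h2 h2'
  · -- surjectivity by counting
    have hcan := fun χ : {χ : Cfsg.IrrCharacter G // ∀ s ∈ S, ∀ g g' : G, (g' : Γ) = s * g * s⁻¹ → (χ : G → ℂ) g' = (χ : G → ℂ) g} =>
      Cfsg.Agent.Lib.GlauCyc.exists_canonical D htop χ.1 χ.2
    choose ext hext hdet using hcan
    have hm := fun χ => hmain χ.1 (ext χ) (hext χ) (hdet χ)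
    choose F e he hform hne using hm
    have hFinj : Function.Injective F := by
      intro χ χ' h
      apply Subtype.ext
      exact hinj χ.1 χ'.1 (ext χ) (ext χ') (hext χ) (hext χ') (F χ) (e χ) (e χ') (he χ) (he χ') (hform χ)
        (by
          rw [h]
          exact hform χ')
    have hcard : Nat.card (Cfsg.IrrCharacter C) ≤ Nat.card {χ : Cfsg.IrrCharacter G // ∀ s ∈ S, ∀ g g' : G, (g' : Γ) = s * g * s⁻¹ → (χ : G → ℂ) g' = (χ : G → ℂ) g} := by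
      rw [Cfsg.Agent.Lib.CharIrr.card_irr, Cfsg.Agent.Lib.Glaub2.conj_count G S hnorm hcop hsolv]
      let ι₁ : C →* G := Subgroup.inclusion hCG
      rw [Cfsg.Agent.Lib.CharCop.card_classes_fix G S hcop hsolv ι₁ (Subgroup.inclusion_injective hCG)]
      intro x
      constructor
      · rintro ⟨a, rfl⟩ t ht
        have h1 := D.hcomm a a.2 t ht
        show t * (a : Γ) * t⁻¹ = a
        rw [← h1]
        group
      · intro hx
        have hxC : (x : Γ) ∈ C := (D.hC x).mpr ⟨x.2, fun t ht => by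
          have h2 := hx t ht
          calc (x : Γ) * t = (t * x * t⁻¹) * t := by rw [h2]
            _ = t * x := by group⟩
        exact ⟨⟨x, hxC⟩, rfl⟩
    have hbij := Function.Injective.bijective_of_nat_card_le hFinj hcard
    intro β
    obtain ⟨χ, rfl⟩ := hbij.2 β
    exact ⟨χ.1, ext χ, e χ, χ.2, hext χ, hdet χ, he χ, hform χ⟩

end Cfsg.Agent.S4446
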