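import Cfsg.Statements.S4451
import Cfsg.Agent.Lib.GlauFpf

set_option autoImplicit false
set_option linter.all false
open Cfsg

namespace Cfsg.Agent.S4451

/-- Let the finite group Γ be generated by a normal subgroup G and a cyclic subgroup S of coprime orders such that every non-identity element of S has the same centraliser C = G ⊓ C(S) in G. Let χ be an S-invariant irreducible character of G, χ̂ its canonical extension to Γ (determinantal order coprime to the order of S), and β the irreducible character of C with χ̂(c s) = ε₀ β(c) for c ∈ C and generators s of S (ε₀ = ±1). Then there are a sign ε = ±1, which may differ from ε₀, and a linear character μ of S with μ² = 1, such that: (a) χ̂(c x) = ε β(c) μ(x) for all c ∈ C and all x ∈ S other than 1; (b) the restriction of χ to C equals |S|·ϑ + ε β for some character ϑ of C or ϑ = 0; (c) |S| divides χ(1) − ε β(1). -/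
theorem result {Γ : Type*} [Group Γ] [Fintype Γ] (G S : Subgroup Γ) [Fintype G] (hnorm : ∀ s ∈ S, ∀ g ∈ G, s * g * s⁻¹ ∈ G) (hcop : (Nat.card G).Coprime (Nat.card S)) (htop : G ⊔ S = ⊤) (hcyc : IsCyclic S) (C : Subgroup Γ) [Fintype C] (hC : C = G ⊓ Subgroup.centralizer (S : Set Γ)) (hCG : C ≤ G) (hfpf : ∀ x ∈ S, x ≠ 1 → G ⊓ Subgroup.centralizer ({x} : Set Γ) = C) (χ : Cfsg.IrrCharacter G) (hinv : (∀ s ∈ S, ∀ g g' : G, (g' : Γ) = s * g * s⁻¹ → (χ : G → ℂ) g' = (χ : G → ℂ) g)) (χh : Cfsg.IrrCharacter Γ) (hext : (∀ g : G, (χh : Γ → ℂ) g = (χ : G → ℂ) g)) (hdet : (Cfsg.detOrder (χh : Γ → ℂ)).Coprime (Nat.card S)) (β : Cfsg.IrrCharacter C) (ε₀ : ℤ) (hε₀ : ε₀ = 1 ∨ ε₀ = -1) (hβ : ∀ c : C, ∀ s : Γ, Subgroup.zpowers s = S → (χh : Γ → ℂ) ((c : Γ) * s) = (ε₀ : ℂ) * (β : C → ℂ) c) : ∃ ε : ℤ, (ε = 1 ∨ ε = -1) ∧ (∃ μ : S → ℂ, Cfsg.IsCharacter S μ ∧ μ 1 = 1 ∧ (∀ x : S, μ x * μ x = 1) ∧ ∀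 c : C, ∀ x : S, x ≠ 1 → (χh : Γ → ℂ) ((c : Γ) * x) = (ε : ℂ) * (β : C → ℂ) c * μ x) ∧ (∃ ϑ : C → ℂ, Cfsg.IsCharacter C ϑ ∧ (fun c : C => (χ : G → ℂ) ⟨c, hCG c.2⟩) = fun c => (Nat.card S : ℂ) * ϑ c + (ε : ℂ) * (β : C → ℂ) c) ∧ (Nat.card S : ℤ) ∣ (Cfsg.charDegree (χ : G → ℂ) : ℤ) - ε * (Cfsg.charDegree (β : C → ℂ) : ℤ) := by
  classical
  letI : Fintype S := Fintype.ofFinite S
  haveI hG : G.Normal := Cfsg.Agent.Lib.GlauCyc.normal_of_top G S hnorm htop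
  have D : Cfsg.Agent.Lib.GlauCyc.Setup G S C := Cfsg.Agent.Lib.GlauCyc.setup_of G S C hcop htop hC
  obtain ⟨s₀, hs₀⟩ := Cfsg.Agent.Lib.GlauCyc.exists_generator_of_cyclic S hcyc
  have hres : Cfsg.IsIrrCharacter G (fun n : G => (χh : Γ → ℂ) n) := by
    have h1 : (fun n : G => (χh : Γ → ℂ) n) = (χ : G → ℂ) := funext hext
    rw [h1]
    exact χ.2
  have hidx : (Nat.card G).Coprime G.index := by
    rw [D.hidx]
    exact hcop
  have hfix : ∀ K : ℕ, K ≡ 1 [MOD Nat.card G] → K.Coprime (Nat.card Γ) → ∀ x, (χh : Γ → ℂ) (x ^ K) = (χh : Γ → ℂ) x := by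
    intro K hK1 hK2 x
    exact Cfsg.Agent.Lib.GlauCyc.pow_fix G χh.2 hres (by rw [D.hidx]; exact hdet.symm) hidx K hK1 hK2 x
  have hψ := Cfsg.Agent.Lib.CharOps.IsIrrCharacter.isCharacter' χh.2
  have hfpf' : ∀ y ∈ S, y ≠ 1 → ∀ c, c ∈ C ↔ c ∈ G ∧ c * y = y * c := by
    intro y hy hy1 c
    rw [← hfpf y hy hy1, Subgroup.mem_inf, Subgroup.mem_centralizer_singleton_iff]
  have hCone : ∀ c : C, (χh : Γ → ℂ) ((c : Γ) * 1) = (χ : G → ℂ) ⟨c, hCG c.2⟩ := by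
    intro c
    rw [mul_one]
    exact hext ⟨c, hCG c.2⟩
  by_cases h2 : 2 ≤ Nat.card S
  · have hgen : Cfsg.Agent.Lib.GlauCyc.coef C (χh : Γ → ℂ) (β : C → ℂ) s₀ ≠ 0 := by
      unfold Cfsg.Agent.Lib.GlauCyc.coef
      have h1 : (fun c : C => (χh : Γ → ℂ) ((c : Γ) * s₀)) = (ε₀ : ℂ) • (β : C → ℂ) := by
        funext c
        rw [hβ c s₀ hs₀]
        rfl
      rw [h1, Cfsg.Agent.Lib.CharIrr.classInner_smul_left, Cfsg.Agent.Lib.CharIrr.classInner_irr β.2 β.2, if_pos rfl]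
      rcases hε₀ with rfl | rfl <;> simp
    obtain ⟨ε, hε, hμ, ϑ, hϑ, hϑ2⟩ := Cfsg.Agent.Lib.GlauFpf.fpf_main D hs₀ hψ hres hfix hfpf' β hgen h2
    refine ⟨ε, hε, hμ, ⟨ϑ, hϑ, ?_⟩, ?_⟩
    · funext c
      rw [← hCone c, hϑ2 c]
    · have h3 := hϑ2 1
      rw [hCone 1] at h3
      have h4 : ((Cfsg.charDegree (χ : G → ℂ) : ℤ) : ℂ) = ((Nat.card S : ℤ) * (Cfsg.charDegree ϑ : ℤ) + ε * (Cfsg.charDegree (β : C → ℂ) : ℤ) : ℤ) := by
        push_cast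
        rw [Cfsg.Agent.Lib.CharBlockDefect.charDegree_cast (Cfsg.Agent.Lib.CharOps.IsIrrCharacter.isCharacter' χ.2),
          Cfsg.Agent.Lib.CharBlockDefect.charDegree_cast hϑ,
          Cfsg.Agent.Lib.CharBlockDefect.charDegree_cast (Cfsg.Agent.Lib.CharOps.IsIrrCharacter.isCharacter' β.2)]
        exact h3
      have h5 : (Cfsg.charDegree (χ : G → ℂ) : ℤ) = (Nat.card S : ℤ) * (Cfsg.charDegree ϑ : ℤ) + ε * (Cfsg.charDegree (β : C → ℂ) : ℤ) := by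
        exact_mod_cast h4
      rw [h5]
      exact ⟨(Cfsg.charDegree ϑ : ℤ), by ring⟩
  · have hS : Nat.card S = 1 := by
      have : 0 < Nat.card S := Nat.card_pos
      omega
    refine ⟨ε₀, hε₀, ⟨fun _ => 1, Cfsg.Agent.Lib.CharOps.isCharacter_one, rfl, fun _ => by simp, ?_⟩, ⟨0, Cfsg.Agent.Lib.CharOps.isCharacter_zero, ?_⟩, ?_⟩
    · intro c x hx
      exact absurd ((Nat.card_eq_one_iff_unique.mp hS).1.elim x 1) hx
    · funext c
      rw [← hCone c]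
      have hs₁ : (χh : Γ → ℂ) ((c : Γ) * s₀) = (ε₀ : ℂ) * (β : C → ℂ) c := hβ c s₀ hs₀
      have hone : s₀ = 1 := by
        have hmem : s₀ ∈ S := hs₀ ▸ Subgroup.mem_zpowers s₀
        have h1 := (Nat.card_eq_one_iff_unique.mp hS).1.elim (⟨s₀, hmem⟩ : S) 1
        exact congrArg Subtype.val h1
      rw [hone] at hs₁
      rw [hs₁]
      simp
    · rw [hS]
      simp

end Cfsg.Agent.S4451
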