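import Cfsg.Statements.S4458
import Cfsg.Agent.Lib.TwoDeg

set_option autoImplicit false
set_option linter.all false
open Cfsg

namespace Cfsg.Agent.S4458

open scoped commutatorElement

/-- If a finite group has exactly two irreducible character degrees, 1 and m with m ≠ 1, then its commutator subgroup is abelian. -/
theorem result {G : Type*} [Group G] [Finite G] (m : ℕ) (hcd : ∀ χ : Cfsg.IrrCharacter G, Cfsg.charDegree (χ : G → ℂ) = 1 ∨ Cfsg.charDegree (χ : G → ℂ) = m) (hm : ∃ χ : Cfsg.IrrCharacter G, Cfsg.charDegree (χ : G → ℂ) = m) (hm1 : m ≠ 1) : ∀ a ∈ commutator G, ∀ b ∈ commutator G, a * b = b * a := by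
  classical
  letI : Fintype G := Fintype.ofFinite G
  rcases Cfsg.Agent.Lib.TwoDeg.two_deg (m := m) hcd hm1 hm with ⟨A, h1, h2, h3, h4⟩ | ⟨h, -⟩
  · have hle : commutator G ≤ A := by
      unfold _root_.commutator
      rw [Subgroup.commutator_le]
      intro x _ y _
      rw [commutatorElement_def]
      exact h4 x y
    intro a ha b hb
    exact h2 a (hle ha) b (hle hb)
  · haveI := h
    intro a ha b hb
    exact Cfsg.Agent.Lib.TwoDeg.metabelian_of_nilpotent (m := m) hcd hm1 ha hb

end Cfsg.Agent.S4458
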