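import Cfsg.Statements.S4462
import Cfsg.Agent.Lib.NilLength

set_option autoImplicit false
set_option linter.all false
open Cfsg

namespace Cfsg.Agent.S4462

/-- Let G be a finite solvable group with exactly n distinct irreducible character degrees. Then G has normal subgroups 1 = N₀ ≤ N₁ ≤ ⋯ ≤ Nₙ = G with every quotient N_{i+1}/N_i nilpotent (the nilpotent length of G is at most n). -/
theorem result {G : Type*} [Group G] [Finite G] (hsolv : Group.IsSolvable G) (n : ℕ) (hcd : Nat.card {d : ℕ // ∃ χ : Cfsg.IrrCharacter G, Cfsg.charDegree (χ : G → ℂ) = d} = n) : ∃ N : Fin (n + 1) → Subgroup G, N 0 = ⊥ ∧ N (Fin.last n) = ⊤ ∧ Monotone N ∧ (∀ i, (N i).Normal) ∧ ∀ i : Fin n, ∀ h : (N i.castSucc).subgroupOf (N i.succ) |>.Normal, Group.IsNilpotent (↥(N i.succ) ⧸ (N i.castSucc).subgroupOf (N i.succ)) := by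
  have h1 : (Cfsg.Agent.Lib.NilLength.cdSet G).ncard ≤ n := by
    rw [← hcd]
    exact le_of_eq (Nat.card_coe_set_eq _).symm
  obtain ⟨N, hN, h0, htop, hmono, hnil⟩ := Cfsg.Agent.Lib.NilLength.nl_of_card n G hsolv h1
  refine ⟨fun i => N i, h0, htop n le_rfl, fun a b hab => hmono hab, fun i => hN i, fun i h => ?_⟩
  exact hnil i h

end Cfsg.Agent.S4462
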