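import Cfsg.Statements.S4475
import Cfsg.Agent.Lib.CharFS2

set_option autoImplicit false
set_option linter.style.haveILetI false
set_option linter.unusedVariables false
open Cfsg

namespace Cfsg.Agent.S4475

/-- Let ρ be an irreducible representation of the finite group G on the coordinate space Fin n → ℂ whose character χ is real-valued, and let ν be the Frobenius–Schur indicator of χ (the average of χ(s²)). Writing X(g) for the matrix of ρ(g), there is a nonzero matrix M with X(g)ᵀ M X(g) = M for all g ∈ G; and every such M (zero or not) satisfies Mᵀ = ν·M. -/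
theorem result {G : Type*} [Group G] [Fintype G] (n : ℕ) (ρ : Representation ℂ G (Fin n → ℂ)) (hirr : ρ.IsIrreducible) (hreal : ∀ g : G, (ρ.character g).im = 0) : (∃ M : Matrix (Fin n) (Fin n) ℂ, M ≠ 0 ∧ ∀ g : G, (LinearMap.toMatrix' (ρ g)).transpose * M * LinearMap.toMatrix' (ρ g) = M) ∧ ∀ M : Matrix (Fin n) (Fin n) ℂ, (∀ g : G, (LinearMap.toMatrix' (ρ g)).transpose * M * LinearMap.toMatrix' (ρ g) = M) → M.transpose = ((Nat.card G : ℂ)⁻¹ * ∑ s : G, ρ.character (s * s)) • M := by
  classical
  let b := Pi.basisFun ℂ (Fin n)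
  have h1 := Cfsg.Agent.Lib.CharFS2.finrank_invMat_eq_one b ρ hirr hreal
  have hmat : ∀ g, LinearMap.toMatrix b b (ρ g) = LinearMap.toMatrix' (ρ g) := fun g => by
    simp [b, LinearMap.toMatrix_eq_toMatrix']
  constructor
  · obtain ⟨v, hv0, _⟩ := finrank_eq_one_iff'.mp h1
    refine ⟨v.1, fun h => hv0 (Subtype.ext h), fun g => ?_⟩
    have := v.2 g
    simpa only [hmat] using this
  · intro M hM
    have hmem : M ∈ Cfsg.Agent.Lib.CharFS.invMat (fun s => LinearMap.toMatrix b b (ρ s)) := by
      intro g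
      simp only [hmat]
      exact hM g
    have ht := Cfsg.Agent.Lib.CharFS.transpose_eq_smul _ (Cfsg.Agent.Lib.CharFS2.toMatrix_mul b ρ) h1 hmem
    rw [← Cfsg.Agent.Lib.CharFS2.indicator_eq b, Cfsg.Agent.Lib.CharFS2.indicator] at ht
    exact ht

end Cfsg.Agent.S4475
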