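import Cfsg.Statements.S4476
import Cfsg.Agent.Lib.CharFS2
import Cfsg.Agent.Lib.CharIso
import Cfsg.Agent.Lib.CharAb

set_option autoImplicit false
set_option linter.style.haveILetI false
set_option linter.unusedVariables false
open Cfsg

namespace Cfsg.Agent.S4476

/-- Let G be a finite group of even order g with exactly t involutions, and put α = (g − 1)/t (a rational number). Then (a) some non-identity element x of G has at most α² conjugates; and (b) some non-principal real-valued irreducible character of G has degree at most α. -/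
theorem result {G : Type*} [Group G] [Fintype G] (heven : Even (Nat.card G)) (t : ℕ) (ht : Nat.card {x : G // orderOf x = 2} = t) : (∃ x : G, x ≠ 1 ∧ ((Subgroup.centralizer ({x} : Set G)).index : ℚ) ≤ (((Nat.card G : ℚ) - 1) / t) ^ 2) ∧ ∃ χ : Cfsg.IrrCharacter G, (χ : G → ℂ) ≠ (fun _ => 1) ∧ (∀ g : G, ((χ : G → ℂ) g).im = 0) ∧ (Cfsg.charDegree (χ : G → ℂ) : ℚ) ≤ ((Nat.card G : ℚ) - 1) / t := by
  classical
  open Cfsg.Agent.Lib.CharAb Cfsg.Agent.Lib.CharFS2 Cfsg.Agent.Lib.CharIso Cfsg.Agent.Lib.CharIrr Cfsg.Agent.Lib.CharOps in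
  let I : Finset G := Finset.univ.filter (fun u => u * u = 1)
  have hcardI : I.card = t + 1 := by
    have h1 : I = insert 1 (Finset.univ.filter (fun u : G => orderOf u = 2)) := by
      ext u
      simp only [I, Finset.mem_filter, Finset.mem_univ, true_and, Finset.mem_insert]
      constructor
      · intro h
        by_cases hu : u = 1
        · exact Or.inl hu
        · right
          exact orderOf_eq_prime (by rw [sq]; exact h) hu
      · rintro (rfl | h)
        · simp
        · rw [← sq, ← h]
          exact pow_orderOf_eq_one u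
    have h2 : (1 : G) ∉ Finset.univ.filter (fun u : G => orderOf u = 2) := by
      simp
    rw [h1, Finset.card_insert_of_notMem h2, ← ht, Nat.card_eq_fintype_card, Fintype.card_subtype]
  have ht0 : 0 < t := by
    have h2 : 2 ∣ Nat.card G := even_iff_two_dvd.mp heven
    haveI : Fact (Nat.Prime 2) := ⟨Nat.prime_two⟩
    obtain ⟨x, hx⟩ := exists_prime_orderOf_dvd_card' 2 h2
    rw [← ht]
    exact (Nat.card_pos_iff.mpr ⟨⟨⟨x, hx⟩⟩, inferInstance⟩)
  have hcardG : Nat.card G = Fintype.card G := Nat.card_eq_fintype_card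
  have hIG : t + 1 ≤ Nat.card G := by
    rw [hcardG, ← hcardI]
    exact Finset.card_le_univ _
  have hG2 : 2 ≤ Nat.card G := by omega
  have htQ : (0 : ℚ) < t := by exact_mod_cast ht0
  constructor
  · let Pairs : Finset (G × G) := I ×ˢ I
    let N : G → ℕ := fun x => (Pairs.filter (fun p => p.1 * p.2 = x)).card
    have hsum : ∑ x, N x = (t + 1) * (t + 1) := by
      have h1 := Finset.card_eq_sum_card_fiberwise (f := fun p : G × G => p.1 * p.2) (s := Pairs)
        (t := Finset.univ) (fun _ _ => Finset.mem_univ _)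
      rw [← h1, Finset.card_product, hcardI]
    have hN1 : N 1 = t + 1 := by
      rw [← hcardI]
      apply Finset.card_bij (fun (p : G × G) _ => p.1)
      · intro p hp
        have h2 := Finset.mem_filter.mp hp
        exact (Finset.mem_product.mp h2.1).1
      · intro p hp q hq hpq
        have h2 := Finset.mem_filter.mp hp
        have h3 := Finset.mem_filter.mp hq
        have h4 := (Finset.mem_filter.mp (Finset.mem_product.mp h2.1).1).2
        have h5 := (Finset.mem_filter.mp (Finset.mem_product.mp h3.1).1).2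
        have e1 : p.2 = p.1 := by
          have := h2.2
          calc p.2 = (p.1 * p.1) * p.2 := by rw [h4, one_mul]
            _ = p.1 * (p.1 * p.2) := by group
            _ = p.1 := by rw [this, mul_one]
        have e2 : q.2 = q.1 := by
          have := h3.2
          calc q.2 = (q.1 * q.1) * q.2 := by rw [h5, one_mul]
            _ = q.1 * (q.1 * q.2) := by group
            _ = q.1 := by rw [this, mul_one]
        exact Prod.ext hpq (by rw [e1, e2, hpq])
      · intro u hu
        refine ⟨(u, u), ?_, rfl⟩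
        refine Finset.mem_filter.mpr ⟨Finset.mem_product.mpr ⟨hu, hu⟩, ?_⟩
        exact (Finset.mem_filter.mp hu).2
    have hsum' : ∑ x ∈ Finset.univ.erase (1 : G), N x = t * (t + 1) := by
      have h1 := Finset.add_sum_erase Finset.univ N (Finset.mem_univ (1 : G))
      rw [hsum, hN1] at h1
      have h2 : (t + 1) * (t + 1) = (t + 1) + t * (t + 1) := by ring
      omega
    have hcardE : (Finset.univ.erase (1 : G)).card = Nat.card G - 1 := by
      rw [Finset.card_erase_of_mem (Finset.mem_univ _), Finset.card_univ, hcardG]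
    have hne : (Finset.univ.erase (1 : G)).Nonempty := by
      rw [← Finset.card_pos, hcardE]
      omega
    obtain ⟨x, hx, hle⟩ : ∃ x ∈ Finset.univ.erase (1 : G), t * (t + 1) ≤ N x * (Nat.card G - 1) := by
      by_contra hcon
      push Not at hcon
      have h1 := Finset.sum_lt_sum_of_nonempty hne hcon
      rw [← Finset.sum_mul, hsum', Finset.sum_const, hcardE, smul_eq_mul, mul_comm] at h1
      exact lt_irrefl _ h1
    have hx1 : x ≠ 1 := (Finset.mem_erase.mp hx).1
    have hNC : N x ≤ Nat.card (Subgroup.centralizer ({x} : Set G)) := by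
      by_cases hem : (Pairs.filter (fun p => p.1 * p.2 = x)) = ∅
      · simp only [N]
        rw [hem]
        simp
      · obtain ⟨p₀, hp₀⟩ := Finset.nonempty_iff_ne_empty.mpr hem
        have hinv : ∀ p ∈ Pairs.filter (fun p => p.1 * p.2 = x), p.1 * x * p.1⁻¹ = x⁻¹ := by
          intro p hp
          have h2 := Finset.mem_filter.mp hp
          have h4 := (Finset.mem_filter.mp (Finset.mem_product.mp h2.1).1).2
          have h5 := (Finset.mem_filter.mp (Finset.mem_product.mp h2.1).2).2
          rw [← h2.2]
          have e1 : p.1⁻¹ = p.1 := inv_eq_of_mul_eq_one_left h4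
          have e2 : p.2⁻¹ = p.2 := inv_eq_of_mul_eq_one_left h5
          rw [mul_inv_rev, e1, e2]
          calc p.1 * (p.1 * p.2) * p.1 = (p.1 * p.1) * (p.2 * p.1) := by group
            _ = p.2 * p.1 := by rw [h4, one_mul]
        simp only [N]
        rw [← Fintype.card_coe, ← Nat.card_eq_fintype_card]
        apply Nat.card_le_card_of_injective (fun p : (Pairs.filter (fun p => p.1 * p.2 = x)) =>
          (⟨p₀.1⁻¹ * p.1.1, by
            rw [Subgroup.mem_centralizer_singleton_iff]
            have h1 := hinv p.1 p.2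
            have h2 := hinv p₀ hp₀
            have h3 : p.1.1 * x * p.1.1⁻¹ = p₀.1 * x * p₀.1⁻¹ := h1.trans h2.symm
            calc p₀.1⁻¹ * p.1.1 * x = p₀.1⁻¹ * (p.1.1 * x * p.1.1⁻¹) * p.1.1 := by group
              _ = p₀.1⁻¹ * (p₀.1 * x * p₀.1⁻¹) * p.1.1 := by rw [h3]
              _ = x * (p₀.1⁻¹ * p.1.1) := by group⟩ : Subgroup.centralizer ({x} : Set G)))
        intro p q hpq
        have h1 : p.1.1 = q.1.1 := by
          have := congrArg (fun y : Subgroup.centralizer ({x} : Set G) => (y : G)) hpq
          simpa using this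
        have h2 := (Finset.mem_filter.mp p.2).2
        have h3 := (Finset.mem_filter.mp q.2).2
        apply Subtype.ext
        apply Prod.ext h1
        have h4 : p.1.1 * p.1.2 = q.1.1 * q.1.2 := h2.trans h3.symm
        rw [h1] at h4
        exact mul_left_cancel h4
    refine ⟨x, hx1, ?_⟩
    have hidx := Subgroup.card_mul_index (Subgroup.centralizer ({x} : Set G))
    set c := Nat.card (Subgroup.centralizer ({x} : Set G)) with hc
    set i := (Subgroup.centralizer ({x} : Set G)).index with hi
    set g := Nat.card G with hg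
    have hcpos : 0 < c := Nat.card_pos
    have hcQ : (0 : ℚ) < c := by exact_mod_cast hcpos
    have hiQ : (c : ℚ) * i = g := by exact_mod_cast hidx
    have hg1 : (1 : ℚ) ≤ (g : ℚ) - 1 := by
      have : (2 : ℚ) ≤ g := by exact_mod_cast hG2
      linarith
    have hleQ : (t : ℚ) * (t + 1) ≤ c * ((g : ℚ) - 1) := by
      have h1 : t * (t + 1) ≤ c * (g - 1) := hle.trans (Nat.mul_le_mul_right _ hNC)
      have h2 : ((t * (t + 1) : ℕ) : ℚ) ≤ ((c * (g - 1) : ℕ) : ℚ) := by exact_mod_cast h1
      rw [Nat.cast_mul, Nat.cast_mul, Nat.cast_sub (by omega)] at h2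
      simpa using h2
    have hIGQ : (t : ℚ) + 1 ≤ g := by exact_mod_cast hIG
    have hiv : (i : ℚ) = g / c := by
      field_simp
      linarith
    rw [hiv, div_pow, div_le_div_iff₀ hcQ (by positivity)]
    have h5 : (g : ℚ) * t ≤ ((g : ℚ) - 1) * (t + 1) := by nlinarith
    have h6 : (g : ℚ) * t * t ≤ ((g : ℚ) - 1) * (t * (t + 1)) := by nlinarith
    have h7 : ((g : ℚ) - 1) * (t * (t + 1)) ≤ ((g : ℚ) - 1) * (c * ((g : ℚ) - 1)) :=
      mul_le_mul_of_nonneg_left hleQ (by linarith)
    nlinarith
  · -- the real character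
    have hexp := card_sqrt_eq (1 : G)
    have hleft : (Nat.card {u : G // u * u = 1} : ℂ) = ((t : ℂ) + 1) := by
      have : Nat.card {u : G // u * u = 1} = t + 1 := by
        rw [← hcardI, Nat.card_eq_fintype_card, Fintype.card_subtype]
      rw [this]
      push_cast
      rfl
    rw [hleft] at hexp
    let e : Cfsg.IrrCharacter G := ⟨fun _ => 1, isIrr_one⟩
    let r : Cfsg.IrrCharacter G → ℝ := fun χ => (indicator (χ : G → ℂ)).re
    let d : Cfsg.IrrCharacter G → ℝ := fun χ => (deg χ : ℝ)
    have hdχ : ∀ χ : Cfsg.IrrCharacter G, (χ : G → ℂ) 1 = (d χ : ℂ) := by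
      intro χ
      rw [apply_one_eq_deg]
      simp [d]
    have hdpos : ∀ χ, 0 < d χ := fun χ => by
      have := deg_pos χ
      simp only [d]
      exact_mod_cast this
    have hde : d e = 1 := by
      have h1 : (e : G → ℂ) 1 = 1 := rfl
      rw [hdχ] at h1
      exact_mod_cast h1
    have hval : (t : ℝ) + 1 = ∑ χ, r χ * d χ := by
      have h1 := congrArg Complex.re hexp
      rw [Complex.re_sum] at h1
      simp only [hdχ] at h1
      have h2 : ∀ χ : Cfsg.IrrCharacter G, (indicator (χ : G → ℂ) * (d χ : ℂ)).re = r χ * d χ := by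
        intro χ
        simp [r]
      simp only [h2] at h1
      rw [← h1]
      simp
    have hr1 : ∀ χ, r χ ≤ 1 := by
      intro χ
      by_cases hreal : ∀ g, ((χ : G → ℂ) g).im = 0
      · rcases indicator_real χ.2 hreal with h | h <;> simp [r, h]
      · simp [r, indicator_not_real χ.2 hreal]
    have hr0 : ∀ χ : Cfsg.IrrCharacter G, (¬ ∀ g, ((χ : G → ℂ) g).im = 0) → r χ = 0 := by
      intro χ hreal
      simp [r, indicator_not_real χ.2 hreal]
    let S : Finset (Cfsg.IrrCharacter G) := (Finset.univ.erase e).filter (fun χ => ∀ g, ((χ : G → ℂ) g).im = 0)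
    have hleS : (t : ℝ) ≤ ∑ χ ∈ S, d χ := by
      rw [← Finset.add_sum_erase Finset.univ _ (Finset.mem_univ e), hde, mul_one] at hval
      have h1 : ∑ χ ∈ Finset.univ.erase e, r χ * d χ ≤ ∑ χ ∈ S, d χ := by
        simp only [S]
        rw [Finset.sum_filter]
        refine Finset.sum_le_sum fun χ _ => ?_
        by_cases hreal : ∀ g, ((χ : G → ℂ) g).im = 0
        · rw [if_pos hreal]
          have := mul_le_mul_of_nonneg_right (hr1 χ) (hdpos χ).le
          linarith
        · rw [if_neg hreal, hr0 χ hreal, zero_mul]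
      have h2 := hr1 e
      linarith
    by_contra hcon
    push Not at hcon
    have hlt : ∀ χ ∈ S, ((Nat.card G : ℝ) - 1) * d χ < d χ * d χ * t := by
      intro χ hχ
      have hχ' := Finset.mem_filter.mp hχ
      have hχne : χ ≠ e := (Finset.mem_erase.mp hχ'.1).1
      have hfun : (χ : G → ℂ) ≠ fun _ => 1 := fun h => hχne (Subtype.ext h)
      have h1 := hcon χ hfun hχ'.2
      have hdeg : Cfsg.charDegree (χ : G → ℂ) = deg χ := by
        rw [Cfsg.charDegree, apply_one_eq_deg]
        simp
      rw [hdeg, div_lt_iff₀ htQ] at h1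
      have h2 : (Nat.card G : ℚ) < (deg χ : ℚ) * t + 1 := by linarith
      have h3 : Nat.card G < deg χ * t + 1 := by exact_mod_cast h2
      have h4 : (Nat.card G : ℝ) < (deg χ : ℝ) * t + 1 := by exact_mod_cast h3
      have h5 := hdpos χ
      have h6 : (Nat.card G : ℝ) - 1 < d χ * t := by
        simp only [d]
        linarith
      nlinarith
    have hSne : S.Nonempty := by
      by_contra hem
      rw [Finset.not_nonempty_iff_eq_empty] at hem
      rw [hem, Finset.sum_empty] at hleS
      have : (0 : ℝ) < t := by exact_mod_cast ht0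
      linarith
    have hsumlt := Finset.sum_lt_sum_of_nonempty hSne hlt
    rw [← Finset.mul_sum, ← Finset.sum_mul] at hsumlt
    have hd2 : ∑ χ ∈ S, d χ * d χ ≤ (Nat.card G : ℝ) - 1 := by
      have h1 : (∑ χ : Cfsg.IrrCharacter G, deg χ ^ 2 : ℝ) = (Nat.card G : ℝ) := by
        exact_mod_cast sum_deg_sq (G := G)
      have h2 : ∑ χ ∈ Finset.univ.erase e, d χ * d χ = (Nat.card G : ℝ) - 1 := by
        have h3 := Finset.add_sum_erase Finset.univ (fun χ => d χ * d χ) (Finset.mem_univ e)
        simp only [hde] at h3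
        have h4 : ∑ χ : Cfsg.IrrCharacter G, d χ * d χ = (Nat.card G : ℝ) := by
          rw [← h1]
          exact Finset.sum_congr rfl fun χ _ => by simp only [d]; ring
        rw [h4] at h3
        linarith
      rw [← h2]
      exact Finset.sum_le_sum_of_subset_of_nonneg (Finset.filter_subset _ _) (fun χ _ _ => mul_self_nonneg _)
    have hg0 : (0 : ℝ) ≤ (Nat.card G : ℝ) - 1 := by
      have : (2 : ℝ) ≤ Nat.card G := by exact_mod_cast hG2
      linarith
    have ht' : (0 : ℝ) < t := by exact_mod_cast ht0
    have h7 := mul_le_mul_of_nonneg_left hleS hg0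
    have h8 := mul_le_mul_of_nonneg_right hd2 ht'.le
    linarith

end Cfsg.Agent.S4476
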