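import Cfsg.Statements.S4477
import Cfsg.Agent.Lib.H7Char

set_option autoImplicit false
set_option linter.all false
open Cfsg

namespace Cfsg.Agent.S4477


open Cfsg Subgroup
open scoped ComplexConjugate
open Cfsg.Agent.Lib.CharAb Cfsg.Agent.Lib.CharOps Cfsg.Agent.Lib.CharIrr Cfsg.Agent.Lib.CharFS2
open Cfsg.Agent.Lib.H7Char

variable {G : Type*} [Group G] [Fintype G]

theorem index_two_of_coatom (hG : IsPGroup 2 G) (M : Subgroup G) (hM : IsCoatom M) : M.index = 2 := by
  classical
  haveI : Fact (Nat.Prime 2) := ⟨Nat.prime_two⟩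
  obtain ⟨n, hn⟩ := IsPGroup.iff_card.mp hG
  have hMp : IsPGroup 2 M := hG.to_subgroup M
  obtain ⟨m, hm⟩ := IsPGroup.iff_card.mp hMp
  have hdvd : (2 : ℕ) ^ m ∣ 2 ^ n := by
    rw [← hm, ← hn]
    exact Subgroup.card_subgroup_dvd_card M
  have hmn : m ≤ n := (Nat.pow_dvd_pow_iff_le_right (by norm_num)).mp hdvd
  have hmne : m ≠ n := by
    rintro rfl
    apply hM.1
    apply Subgroup.eq_top_of_card_eq
    rw [hm, hn]
  have hdvd2 : (2 : ℕ) ^ (m + 1) ∣ Nat.card G := by
    rw [hn]
    exact pow_dvd_pow 2 (by omega)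
  obtain ⟨K, hKc, hMK⟩ := Sylow.exists_subgroup_card_pow_succ hdvd2 hm
  have hKtop : K = ⊤ := by
    apply hM.2
    apply lt_of_le_of_ne hMK
    rintro rfl
    rw [hm] at hKc
    have := Nat.pow_right_injective (le_refl 2) hKc
    omega
  have h1 := M.card_mul_index
  rw [hm, hn] at h1
  have h2 : n = m + 1 := by
    rw [hKtop, Subgroup.card_top, hn] at hKc
    exact Nat.pow_right_injective (le_refl 2) hKc
  rw [h2, pow_succ] at h1
  have h3 : (2 : ℕ) ^ m * M.index = 2 ^ m * 2 := h1
  exact Nat.eq_of_mul_eq_mul_left (pow_pos (by norm_num) m) h3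

/-- The homomorphism to `ℂˣ` with kernel a given subgroup of index two. -/
noncomputable def signHom (M : Subgroup G) (hM : M.index = 2) : G →* ℂˣ := by
  classical
  exact MonoidHom.mk' (fun g => if g ∈ M then 1 else -1) (by
    intro a b
    have h := Subgroup.mul_mem_iff_of_index_two hM (a := a) (b := b)
    by_cases ha : a ∈ M <;> by_cases hb : b ∈ M <;> simp [ha, hb, h])

theorem signHom_apply_of_mem (M : Subgroup G) (hM : M.index = 2) {g : G} (hg : g ∈ M) : signHom M hM g = 1 := by
  classical
  simp [signHom, hg]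

theorem signHom_apply_of_not_mem (M : Subgroup G) (hM : M.index = 2) {g : G} (hg : g ∉ M) : signHom M hM g = -1 := by
  classical
  simp [signHom, hg]

/-- The group of homomorphisms with values `±1`. -/
noncomputable def R (G : Type*) [Group G] [Fintype G] : Subgroup (G →* ℂˣ) := (powMonoidHom 2 : (G →* ℂˣ) →* (G →* ℂˣ)).ker

theorem mem_R {l : G →* ℂˣ} : l ∈ R G ↔ ∀ g, l g ^ 2 = 1 := by
  unfold R
  rw [MonoidHom.mem_ker]
  constructor
  · intro h g
    have := congrArg (fun f : G →* ℂˣ => f g) h
    simpa using this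
  · intro h
    ext g
    simpa using congrArg (fun u : ℂˣ => (u : ℂ)) (h g)

theorem finite_hom : Finite (G →* ℂˣ) := by
  apply Nat.finite_of_card_ne_zero
  rw [card_hom_eq_index]
  exact Subgroup.index_ne_zero_of_finite

theorem four_dvd_card_R (hG : IsPGroup 2 G) (hc : ¬ IsCyclic G) : 4 ∣ Nat.card (R G) := by
  classical
  haveI : Fact (Nat.Prime 2) := ⟨Nat.prime_two⟩
  haveI : Finite (G →* ℂˣ) := finite_hom
  have hRp : IsPGroup 2 (R G) := by
    intro l
    refine ⟨1, ?_⟩
    apply Subtype.ext
    ext g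
    have := (mem_R.mp l.2) g
    simpa using congrArg (fun u : ℂˣ => (u : ℂ)) this
  obtain ⟨r, hr⟩ := IsPGroup.iff_card.mp hRp
  rw [hr]
  by_contra hcon
  have hr1 : r ≤ 1 := by
    by_contra h
    apply hcon
    have h2 : 2 ≤ r := by omega
    calc 4 = 2 ^ 2 := by norm_num
      _ ∣ 2 ^ r := pow_dvd_pow 2 h2
  have hRle : Nat.card (R G) ≤ 2 := by
    rw [hr]
    calc 2 ^ r ≤ 2 ^ 1 := Nat.pow_le_pow_right (by norm_num) hr1
      _ = 2 := by norm_num
  -- `G` is nontrivial
  have hnt : Nontrivial G := by
    by_contra hnt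
    rw [not_nontrivial_iff_subsingleton] at hnt
    exact hc inferInstance
  -- a maximal subgroup
  obtain ⟨M, hM⟩ : ∃ M : Subgroup G, IsCoatom M := by
    obtain ⟨M, hM, _⟩ := (eq_top_or_exists_le_coatom (⊥ : Subgroup G)).resolve_left bot_ne_top
    exact ⟨M, hM⟩
  have hMi := index_two_of_coatom hG M hM
  obtain ⟨x, hx⟩ : ∃ x : G, x ∉ M := by
    by_contra hcon
    push_neg at hcon
    exact hM.1 (eq_top_iff.mpr fun y _ => hcon y)
  have hz : zpowers x ≠ ⊤ := by
    intro h
    apply hc
    exact isCyclic_iff_exists_zpowers_eq_top.mpr ⟨x, h⟩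
  obtain ⟨M', hM', hxM'⟩ := (eq_top_or_exists_le_coatom (zpowers x)).resolve_left hz
  have hxM'' : x ∈ M' := hxM' (mem_zpowers x)
  have hMi' := index_two_of_coatom hG M' hM'
  have hneq : M ≠ M' := by
    rintro rfl
    exact hx hxM''
  -- three different elements of `R`
  let l₁ := signHom M hMi
  let l₂ := signHom M' hMi'
  have hsq : ∀ (N : Subgroup G) (hN : N.index = 2), signHom N hN ∈ R G := by
    intro N hN
    rw [mem_R]
    intro g
    by_cases hg : g ∈ N
    · rw [signHom_apply_of_mem N hN hg, one_pow]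
    · rw [signHom_apply_of_not_mem N hN hg]
      simp
  have hone : ∀ (N : Subgroup G) (hN : N.index = 2), signHom N hN ≠ 1 := by
    intro N hN h
    obtain ⟨y, hy⟩ : ∃ y : G, y ∉ N := by
      by_contra hcon
      push_neg at hcon
      have : N = ⊤ := eq_top_iff.mpr fun y _ => hcon y
      rw [this, Subgroup.index_top] at hN
      omega
    have h1 := congrArg (fun f : G →* ℂˣ => f y) h
    simp only [MonoidHom.one_apply] at h1
    rw [signHom_apply_of_not_mem N hN hy] at h1
    have h2 := congrArg (fun u : ℂˣ => (u : ℂ)) h1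
    norm_num at h2
  have hl₁₂ : l₁ ≠ l₂ := by
    intro h
    have h1 : M ≤ M' := by
      intro g hg
      by_contra hg'
      have h2 := congrArg (fun f : G →* ℂˣ => f g) h
      simp only [l₁, l₂] at h2
      rw [signHom_apply_of_mem M hMi hg, signHom_apply_of_not_mem M' hMi' hg'] at h2
      have h3 := congrArg (fun u : ℂˣ => (u : ℂ)) h2
      norm_num at h3
    exact hM'.1 (hM.2 M' (lt_of_le_of_ne h1 hneq))
  -- the map from `Fin 3` to `R` is injective
  let F : Fin 3 → R G := ![1, ⟨l₁, hsq M hMi⟩, ⟨l₂, hsq M' hMi'⟩]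
  have hF : Function.Injective F := by
    intro i j hij
    have hne1 : (⟨l₁, hsq M hMi⟩ : R G) ≠ 1 := fun h => hone M hMi (congrArg Subtype.val h)
    have hne2 : (⟨l₂, hsq M' hMi'⟩ : R G) ≠ 1 := fun h => hone M' hMi' (congrArg Subtype.val h)
    have hne3 : (⟨l₁, hsq M hMi⟩ : R G) ≠ ⟨l₂, hsq M' hMi'⟩ := fun h => hl₁₂ (congrArg Subtype.val h)
    fin_cases i <;> fin_cases j <;> first
      | rfl
      | exact absurd hij hne1
      | exact absurd hij hne2
      | exact absurd hij hne3
      | exact absurd hij.symm hne1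
      | exact absurd hij.symm hne2
      | exact absurd hij.symm hne3
  have := Nat.card_le_card_of_injective F hF
  rw [Nat.card_eq_fintype_card (α := Fin 3), Fintype.card_fin] at this
  omega

theorem main (hG : IsPGroup 2 G) (ht : Nat.card {x : G // orderOf x = 2} % 4 = 1) (hc : ¬ IsCyclic G) :
    (commutator G).index = 4 := by
  classical
  haveI : Fact (Nat.Prime 2) := ⟨Nat.prime_two⟩
  obtain ⟨n, hn⟩ := IsPGroup.iff_card.mp hG
  have hdeg2 : ∀ χ : IrrCharacter G, ∃ k, deg χ = 2 ^ k := by
    intro χ
    have h1 := deg_dvd_card χ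
    rw [hn] at h1
    obtain ⟨k, _, hk⟩ := (Nat.dvd_prime_pow Nat.prime_two).mp h1
    exact ⟨k, hk⟩
  -- real characters
  let real : IrrCharacter G → Prop := fun χ => ∀ g, ((χ : G → ℂ) g).im = 0
  -- integer valued indicator
  have hnu : ∀ χ : IrrCharacter G, ∃ e : ℤ, indicator (χ : G → ℂ) = (e : ℂ) ∧
      (real χ → (e = 1 ∨ e = -1)) ∧ (real χ → deg χ = 1 → e = 1) ∧ (¬ real χ → e = 0) := by
    intro χ
    by_cases hr : real χ
    · have hodd : deg χ = 1 → indicator (χ : G → ℂ) = 1 := by
        intro h1
        apply indicator_odd χ.2 hr (deg χ) (apply_one_eq_deg χ)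
        rw [h1]
        decide
      rcases indicator_real χ.2 hr with h | h
      · exact ⟨1, by simpa using h, fun _ => Or.inl rfl, fun _ _ => rfl, fun h' => absurd hr h'⟩
      · refine ⟨-1, by simpa using h, fun _ => Or.inr rfl, fun _ h1 => ?_, fun h' => absurd hr h'⟩
        exfalso
        rw [hodd h1] at h
        norm_num at h
    · exact ⟨0, by simpa using indicator_not_real χ.2 hr, fun h => absurd h hr, fun h => absurd h hr, fun _ => rfl⟩
  choose ν hν hν1 hν2 hν3 using hnu
  -- the count
  let t := Nat.card {x : G // orderOf x = 2}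
  have hsqrt : (Nat.card {u : G // u * u = 1} : ℂ) = ((t + 1 : ℕ) : ℂ) := by
    congr 1
    have h1 : Nat.card {u : G // u * u = 1} = Nat.card (Option {x : G // orderOf x = 2}) := by
      apply Nat.card_congr
      refine ⟨fun u => if h : u.1 = 1 then none else some ⟨u.1, ?_⟩, fun o => o.elim ⟨1, by simp⟩ (fun x => ⟨x.1, ?_⟩), ?_, ?_⟩
      · apply orderOf_eq_prime
        · rw [sq]
          exact u.2
        · exact h
      · have := pow_orderOf_eq_one x.1
        rw [x.2, sq] at this
        exact this
      · intro u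
        by_cases h : u.1 = 1
        · simp only [h, dite_true]
          exact Subtype.ext h.symm
        · simp only [h, dite_false]
          rfl
      · intro o
        cases o with
        | none => simp
        | some x =>
          have hx1 : x.1 ≠ 1 := by
            intro h
            have := x.2
            rw [h, orderOf_one] at this
            omega
          simp [hx1]
    rw [h1, Finite.card_option]
  have hsum : ((t + 1 : ℕ) : ℤ) = ∑ χ : IrrCharacter G, ν χ * (deg χ : ℤ) := by
    have h1 := card_sqrt_eq (G := G) (1 : G)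
    rw [hsqrt] at h1
    have h2 : ((t + 1 : ℕ) : ℂ) = ((∑ χ : IrrCharacter G, ν χ * (deg χ : ℤ) : ℤ) : ℂ) := by
      rw [h1]
      push_cast
      apply Finset.sum_congr rfl
      intro χ _
      rw [hν χ, apply_one_eq_deg χ]
    exact_mod_cast h2
  -- modulo four
  let A₁ : Finset (IrrCharacter G) := Finset.univ.filter (fun χ => deg χ = 1 ∧ real χ)
  let A₂ : Finset (IrrCharacter G) := Finset.univ.filter (fun χ => deg χ = 2 ∧ real χ)
  have hmod4 : ((t + 1 : ℕ) : ZMod 4) = (A₁.card : ZMod 4) + 2 * (A₂.card : ZMod 4) := by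
    have h1 := congrArg (Int.cast : ℤ → ZMod 4) hsum
    rw [Int.cast_natCast, Int.cast_sum] at h1
    rw [h1]
    have h2 : ∀ χ : IrrCharacter G, (((ν χ * (deg χ : ℤ) : ℤ)) : ZMod 4) =
        (if deg χ = 1 ∧ real χ then 1 else 0) + 2 * (if deg χ = 2 ∧ real χ then 1 else 0) := by
      intro χ
      obtain ⟨k, hk⟩ := hdeg2 χ
      by_cases hr : real χ
      · match k, hk with
        | 0, hk =>
          have hd : deg χ = 1 := by simpa using hk
          have he := hν2 χ hr hd
          simp [hd, hr, he]
        | 1, hk =>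
          have hd : deg χ = 2 := by simpa using hk
          rcases hν1 χ hr with he | he
          · simp [hd, hr, he]
          · simp [hd, hr, he]
            decide
        | (m + 2), hk =>
          have hd : deg χ = 4 * 2 ^ m := by
            rw [hk]
            ring
          have hd1 : deg χ ≠ 1 := by
            rw [hd]
            have : 0 < 2 ^ m := by positivity
            omega
          have hd2 : deg χ ≠ 2 := by
            rw [hd]
            have : 0 < 2 ^ m := by positivity
            omega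
          have h4 : (4 : ZMod 4) = 0 := by decide
          simp [hd1, hd2]
          rw [hd]
          push_cast
          rw [h4]
          simp
      · have he := hν3 χ hr
        simp [hr, he]
    rw [Finset.sum_congr rfl (fun χ _ => h2 χ), Finset.sum_add_distrib, ← Finset.mul_sum]
    simp only [A₁, A₂, Finset.natCast_card_filter]
  -- `A₁` is the group `R`
  have hA₁ : A₁.card = Nat.card (R G) := by
    have hc1 : Nat.card {χ // χ ∈ A₁} = A₁.card := by
      rw [Nat.card_eq_fintype_card, Fintype.card_coe]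
    rw [← hc1]
    have hone : ∀ χ : IrrCharacter G, χ ∈ A₁ → (χ : G → ℂ) 1 = 1 := by
      intro χ hχ
      have h1 := (Finset.mem_filter.mp hχ).2.1
      rw [apply_one_eq_deg χ, h1]
      simp
    refine Nat.card_congr ⟨fun χ => ⟨linearEquiv ⟨χ.1, hone χ.1 χ.2⟩, ?_⟩,
      fun l => ⟨⟨fun g => (l.1 g : ℂ), isIrrCharacter_of_hom l.1⟩, ?_⟩, ?_, ?_⟩
    · rw [mem_R]
      intro g
      apply Units.ext
      have hχ := χ.2
      have hr : real χ.1 := (Finset.mem_filter.mp hχ).2.2
      show (((χ.1 : G → ℂ) g) ^ 2) = 1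
      have h1 := character_inv_of_isCharacter (IsIrrCharacter.isCharacter' χ.1.2) g
      have h2 : conj ((χ.1 : G → ℂ) g) = (χ.1 : G → ℂ) g := Complex.conj_eq_iff_im.mpr (hr g)
      have h3 := degree_one_mul (IsIrrCharacter.isCharacter' χ.1.2) (hone χ.1 χ.2) g g⁻¹
      rw [mul_inv_cancel, hone χ.1 χ.2, h1, h2] at h3
      rw [sq]
      exact h3.symm
    · apply Finset.mem_filter.mpr
      refine ⟨Finset.mem_univ _, ?_, ?_⟩
      · have h1 := apply_one_eq_deg (⟨fun g => (l.1 g : ℂ), isIrrCharacter_of_hom l.1⟩ : IrrCharacter G)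
        have h2 : ((l.1 1 : ℂˣ) : ℂ) = 1 := by simp
        have h3 : ((deg (⟨fun g => (l.1 g : ℂ), isIrrCharacter_of_hom l.1⟩ : IrrCharacter G) : ℕ) : ℂ) = 1 := by
          rw [← h1]
          exact h2
        exact_mod_cast h3
      · intro g
        have h1 := (mem_R.mp l.2) g
        have h2 : ((l.1 g : ℂˣ) : ℂ) ^ 2 = 1 := by
          have := congrArg (fun u : ℂˣ => (u : ℂ)) h1
          simpa using this
        rw [sq] at h2
        show ((l.1 g : ℂˣ) : ℂ).im = 0
        rcases mul_self_eq_one_iff.mp h2 with h | h <;> simp [h]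
    · intro χ
      exact Subtype.ext (Subtype.ext rfl)
    · intro l
      apply Subtype.ext
      ext g
      rfl
  have hzero4 : (A₁.card : ZMod 4) = 0 := by
    rw [hA₁]
    exact (ZMod.natCast_eq_zero_iff _ _).mpr (four_dvd_card_R hG hc)
  have ht2 : ((t + 1 : ℕ) : ZMod 4) = 2 := by
    have h1 : t = 4 * (t / 4) + 1 := by
      have := Nat.div_add_mod t 4
      have h5 : t % 4 = 1 := ht
      omega
    rw [h1]
    push_cast
    have h4 : (4 : ZMod 4) = 0 := by decide
    rw [h4]
    ring
  have hA₂odd : ¬ Even A₂.card := by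
    rintro ⟨m, hm⟩
    rw [ht2, hzero4, zero_add, hm] at hmod4
    push_cast at hmod4
    have h4 : (2 : ZMod 4) * ((m : ZMod 4) + m) = 4 * m := by ring
    rw [h4] at hmod4
    have h5 : (4 : ZMod 4) = 0 := by decide
    rw [h5, zero_mul] at hmod4
    revert hmod4
    decide
  -- complex conjugation on the non-real characters of degree two
  let cσ : IrrCharacter G → IrrCharacter G := fun χ => ⟨fun g => conj ((χ : G → ℂ) g), isIrr_conj χ.2⟩
  have hcσdeg : ∀ χ, deg (cσ χ) = deg χ := by
    intro χ
    have h1 := apply_one_eq_deg (cσ χ)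
    have h2 : ((cσ χ : IrrCharacter G) : G → ℂ) 1 = conj ((χ : G → ℂ) 1) := rfl
    rw [h2, apply_one_eq_deg χ, Complex.conj_natCast] at h1
    exact_mod_cast h1.symm
  have hcσreal : ∀ χ, real (cσ χ) ↔ real χ := by
    intro χ
    constructor
    · intro h g
      have := h g
      have h2 : ((cσ χ : IrrCharacter G) : G → ℂ) g = conj ((χ : G → ℂ) g) := rfl
      rw [h2, Complex.conj_im] at this
      linarith
    · intro h g
      have h2 : ((cσ χ : IrrCharacter G) : G → ℂ) g = conj ((χ : G → ℂ) g) := rfl
      rw [h2, Complex.conj_im, h g, neg_zero]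
  let N₂ : Finset (IrrCharacter G) := Finset.univ.filter (fun χ => deg χ = 2 ∧ ¬ real χ)
  have hN₂ : Even N₂.card := by
    have h1 : (N₂.card : ZMod 2) = 0 := by
      rw [Finset.cast_card]
      apply Finset.sum_involution (fun χ _ => cσ χ)
      · intro χ _
        exact CharTwo.add_self_eq_zero (1 : ZMod 2)
      · intro χ hχ _ h
        apply (Finset.mem_filter.mp hχ).2.2
        intro g
        have h2 := congrFun (congrArg Subtype.val h) g
        exact Complex.conj_eq_iff_im.mp h2
      · intro χ hχ
        have h2 := (Finset.mem_filter.mp hχ).2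
        apply Finset.mem_filter.mpr
        refine ⟨Finset.mem_univ _, ?_, ?_⟩
        · rw [hcσdeg]
          exact h2.1
        · rw [hcσreal]
          exact h2.2
      · intro χ _
        apply Subtype.ext
        funext g
        exact Complex.conj_conj _
    exact (ZMod.natCast_eq_zero_iff_even).mp h1
  let D₂ : Finset (IrrCharacter G) := Finset.univ.filter (fun χ => deg χ = 2)
  have hD₂ : D₂.card = A₂.card + N₂.card := by
    have h1 : Disjoint A₂ N₂ := by
      rw [Finset.disjoint_left]
      intro χ h1 h2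
      exact (Finset.mem_filter.mp h2).2.2 (Finset.mem_filter.mp h1).2.2
    rw [← Finset.card_union_of_disjoint h1]
    congr 1
    ext χ
    simp only [D₂, A₂, N₂, Finset.mem_filter, Finset.mem_univ, true_and, Finset.mem_union]
    tauto
  let D₁ : Finset (IrrCharacter G) := Finset.univ.filter (fun χ => deg χ = 1)
  have hD₁ : D₁.card = (commutator G).index := by
    rw [← card_linear]
    have hc1 : Nat.card {χ // χ ∈ D₁} = D₁.card := by
      rw [Nat.card_eq_fintype_card, Fintype.card_coe]
    rw [← hc1]
    apply Nat.card_congr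
    apply Equiv.subtypeEquivRight
    intro χ
    simp only [D₁, Finset.mem_filter, Finset.mem_univ, true_and]
    rw [apply_one_eq_deg χ]
    exact_mod_cast Iff.rfl
  have hsq : (Nat.card G : ZMod 8) = (D₁.card : ZMod 8) + 4 * (D₂.card : ZMod 8) := by
    have h1 := sum_deg_sq (G := G)
    rw [← h1]
    push_cast
    have h2 : ∀ χ : IrrCharacter G, (deg χ : ZMod 8) ^ 2 =
        (if deg χ = 1 then 1 else 0) + 4 * (if deg χ = 2 then 1 else 0) := by
      intro χ
      obtain ⟨k, hk⟩ := hdeg2 χ
      match k, hk with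
      | 0, hk =>
        have hd : deg χ = 1 := by simpa using hk
        simp [hd]
      | 1, hk =>
        have hd : deg χ = 2 := by simpa using hk
        simp [hd]
        decide
      | (m + 2), hk =>
        have hd : deg χ = 4 * 2 ^ m := by
          rw [hk]
          ring
        have hd1 : deg χ ≠ 1 := by
          rw [hd]
          have : 0 < 2 ^ m := by positivity
          omega
        have hd2 : deg χ ≠ 2 := by
          rw [hd]
          have : 0 < 2 ^ m := by positivity
          omega
        simp [hd1, hd2]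
        rw [hd]
        push_cast
        have h8 : (4 * (2 : ZMod 8) ^ m) ^ 2 = (16 : ZMod 8) * (2 ^ m) ^ 2 := by ring
        rw [h8]
        have h16 : (16 : ZMod 8) = 0 := by decide
        rw [h16, zero_mul]
    rw [Finset.sum_congr rfl (fun χ _ => h2 χ), Finset.sum_add_distrib, ← Finset.mul_sum]
    simp only [D₁, D₂, Finset.natCast_card_filter]
  -- conclusion
  by_contra hI
  have hIdvd : (commutator G).index ∣ Nat.card G := Subgroup.index_dvd_card _
  rw [hn] at hIdvd
  obtain ⟨i, _, hi⟩ := (Nat.dvd_prime_pow Nat.prime_two).mp hIdvd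
  have hIge : 4 ≤ (commutator G).index := by
    haveI : Finite (G →* ℂˣ) := finite_hom
    rw [← card_hom_eq_index]
    calc 4 ≤ Nat.card (R G) := Nat.le_of_dvd Nat.card_pos (four_dvd_card_R hG hc)
      _ ≤ Nat.card (G →* ℂˣ) := Subgroup.card_le_card_group (R G)
  have hi3 : 3 ≤ i := by
    by_contra hcon
    have hi2 : i ≤ 2 := by omega
    rw [hi] at hIge hI
    interval_cases i
    · omega
    · omega
    · exact hI (by norm_num)
  have h8I : 8 ∣ (commutator G).index := by
    rw [hi]
    calc 8 = 2 ^ 3 := by norm_num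
      _ ∣ 2 ^ i := pow_dvd_pow 2 hi3
  have h8G : 8 ∣ Nat.card G := h8I.trans (Subgroup.index_dvd_card _)
  rw [(ZMod.natCast_eq_zero_iff _ _).mpr h8G, hD₁, (ZMod.natCast_eq_zero_iff _ _).mpr h8I, zero_add] at hsq
  have hD₂even : Even D₂.card := by
    by_contra hodd
    rw [Nat.not_even_iff_odd] at hodd
    obtain ⟨m, hm⟩ := hodd
    rw [hm] at hsq
    push_cast at hsq
    have h1 : (4 : ZMod 8) * (2 * (m : ZMod 8) + 1) = 8 * m + 4 := by ring
    rw [h1] at hsq
    have h8 : (8 : ZMod 8) = 0 := by decide
    rw [h8, zero_mul, zero_add] at hsq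
    revert hsq
    decide
  apply hA₂odd
  rw [hD₂] at hD₂even
  exact (Nat.even_add.mp hD₂even).mpr hN₂


/-- Let G be a finite 2-group whose number of involutions is congruent to 1 modulo 4. Then G is cyclic or its commutator subgroup has index 4. -/
theorem result {G : Type*} [Group G] [Finite G] (hG : IsPGroup 2 G) (ht : Nat.card {x : G // orderOf x = 2} % 4 = 1) : IsCyclic G ∨ (commutator G).index = 4 := by
  classical
  cases nonempty_fintype G
  by_cases hc : IsCyclic G
  · exact Or.inl hc
  · exact Or.inr (main hG ht hc)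

end Cfsg.Agent.S4477
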