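import Cfsg.Statements.S4478
import Cfsg.Agent.S0165
import Cfsg.Agent.Lib.CharFS2
import Cfsg.Agent.Lib.CharBlockDefect
import Cfsg.Agent.Lib.CharIso
import Cfsg.Agent.Lib.CharOps
import Cfsg.Agent.Lib.CharIrr

set_option autoImplicit false
set_option linter.all false
open Cfsg

namespace Cfsg.Agent.S4478


open Cfsg.Agent.Lib.CharOps Cfsg.Agent.Lib.CharIrr Cfsg.Agent.Lib.CharBlockDefect Cfsg.Agent.Lib.CharFS2
open scoped ComplexConjugate

theorem class_size {G : Type*} [Group G] [Finite G] (t : G) :
    Nat.card {k : G // IsConj t k} * Nat.card (Subgroup.centralizer ({t} : Set G)) = Nat.card G := by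
  classical
  letI : Fintype {k : G // IsConj t k} := Fintype.ofFinite _
  let e : G ≃ (Σ k : {k : G // IsConj t k}, {g : G // g * t * g⁻¹ = k.1}) :=
    { toFun := fun g => ⟨⟨g * t * g⁻¹, isConj_iff.2 ⟨g, rfl⟩⟩, ⟨g, rfl⟩⟩
      invFun := fun p => p.2.1
      left_inv := fun g => rfl
      right_inv := by
        rintro ⟨⟨k, hk⟩, ⟨g, hg⟩⟩
        dsimp only at hg
        subst hg
        rfl }
  have hfib : ∀ k : {k : G // IsConj t k}, Nat.card {g : G // g * t * g⁻¹ = k.1} =
      Nat.card (Subgroup.centralizer ({t} : Set G)) := by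
    rintro ⟨k, hk⟩
    obtain ⟨g₀, hg₀⟩ := isConj_iff.1 hk
    apply Nat.card_congr
    exact
      { toFun := fun g => ⟨g₀⁻¹ * g.1, by
          rw [Subgroup.mem_centralizer_singleton_iff]
          have h1 : g.1 * t * g.1⁻¹ = g₀ * t * g₀⁻¹ := g.2.trans hg₀.symm
          have h2 : g₀⁻¹ * g.1 * t * (g₀⁻¹ * g.1)⁻¹ = t := by
            calc g₀⁻¹ * g.1 * t * (g₀⁻¹ * g.1)⁻¹ = g₀⁻¹ * (g.1 * t * g.1⁻¹) * g₀ := by group
              _ = g₀⁻¹ * (g₀ * t * g₀⁻¹) * g₀ := by rw [h1]
              _ = t := by group
          calc g₀⁻¹ * g.1 * t = g₀⁻¹ * g.1 * t * (g₀⁻¹ * g.1)⁻¹ * (g₀⁻¹ * g.1) := by group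
            _ = t * (g₀⁻¹ * g.1) := by rw [h2]⟩
        invFun := fun c => ⟨g₀ * c.1, by
          have h3 : c.1 * t = t * c.1 := Subgroup.mem_centralizer_singleton_iff.1 c.2
          show g₀ * c.1 * t * (g₀ * c.1)⁻¹ = k
          rw [← hg₀]
          calc g₀ * c.1 * t * (g₀ * c.1)⁻¹ = g₀ * (c.1 * t) * c.1⁻¹ * g₀⁻¹ := by group
            _ = g₀ * (t * c.1) * c.1⁻¹ * g₀⁻¹ := by rw [h3]
            _ = g₀ * t * g₀⁻¹ := by group⟩
        left_inv := fun g => Subtype.ext (by simp)
        right_inv := fun c => Subtype.ext (by simp) }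
  rw [Nat.card_congr e, Nat.card_sigma, Finset.sum_congr rfl (fun k _ => hfib k), Finset.sum_const, Finset.card_univ,
    smul_eq_mul, Nat.card_eq_fintype_card (α := {k : G // IsConj t k})]

theorem orderOf_mul_self_of_odd {G : Type*} [Group G] (g : G) (h : Odd (orderOf g)) : orderOf (g * g) = orderOf g := by
  rw [← pow_two, orderOf_pow' g (by norm_num)]
  have : (orderOf g).gcd 2 = 1 := by
    exact (Nat.coprime_two_right).2 h
  rw [this, Nat.div_one]


/-- Let G be a finite group of even order and χ an irreducible character of G whose degree x is divisible by the full power of 2 dividing the order of G and, for every odd prime p such that G has an element of order 2p, by the full power of p dividing the order of G. Then all involutions of G are conjugate, the centralizer of every involution has order exactly x with x coprime to its index, and the Frobenius–Schur indicator of χ equals 1. -/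
theorem result {G : Type*} [Group G] [Fintype G] (heven : Even (Nat.card G)) (χ : Cfsg.IrrCharacter G) (h2 : 2 ^ (Nat.card G).factorization 2 ∣ Cfsg.charDegree (χ : G → ℂ)) (hp : ∀ p : ℕ, p.Prime → p ≠ 2 → (∃ g : G, orderOf g = 2 * p) → p ^ (Nat.card G).factorization p ∣ Cfsg.charDegree (χ : G → ℂ)) : (∀ s t : G, orderOf s = 2 → orderOf t = 2 → IsConj s t) ∧ (∀ s : G, orderOf s = 2 → Nat.card (Subgroup.centralizer ({s} : Set G)) = Cfsg.charDegree (χ : G → ℂ) ∧ (Nat.card (Subgroup.centralizer ({s} : Set G))).Coprime (Subgroup.centralizer ({s} : Set G)).index) ∧ (Nat.card G : ℂ)⁻¹ * ∑ g : G, (χ : G → ℂ) (g * g) = 1 := by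

  classical
  have hGpos : Nat.card G ≠ 0 := Nat.card_pos.ne'
  have hGne : (Nat.card G : ℂ) ≠ 0 := by exact_mod_cast hGpos
  set d := charDegree (χ : G → ℂ) with hd
  have hχc : IsCharacter G (χ : G → ℂ) := IsIrrCharacter.isCharacter' χ.2
  have hχ1 : (χ : G → ℂ) 1 = d := (charDegree_cast hχc).symm
  have hd0 : d ≠ 0 := charDegree_ne_zero χ.2
  have hvan : ∀ p : ℕ, p.Prime → p ^ (Nat.card G).factorization p ∣ d → ∀ x : G, p ∣ orderOf x → (χ : G → ℂ) x = 0 := by
    intro p hpp hdv x hx
    obtain ⟨n, ρ, hρ, hρχ⟩ := χ.2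
    have hf : Module.finrank ℂ (Fin n → ℂ) = d := by
      have h1 : (χ : G → ℂ) 1 = (Module.finrank ℂ (Fin n → ℂ) : ℂ) := by
        rw [← hρχ]
        exact Representation.char_one ρ
      rw [hχ1] at h1
      exact_mod_cast h1.symm
    haveI : ρ.IsIrreducible := hρ
    have h2 := Cfsg.Agent.S0165.result ρ p ((Nat.card G).factorization p) hpp (Nat.ordProj_dvd _ _)
      (Nat.pow_succ_factorization_not_dvd hGpos hpp) (by rw [hf]; exact hdv) x hx
    rwa [hρχ] at h2
  have h2p : ∀ t : G, orderOf t = 2 → ∀ p : ℕ, p.Prime → p ≠ 2 → ∀ u : G, Commute t u → orderOf u = p →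
      p ^ (Nat.card G).factorization p ∣ d := by
    intro t ht p hpp hp2 u hc hu
    apply hp p hpp hp2
    refine ⟨t * u, ?_⟩
    rw [hc.orderOf_mul_eq_mul_orderOf_of_coprime (by rw [ht, hu]; exact (Nat.coprime_primes Nat.prime_two hpp).2 (Ne.symm hp2)), ht, hu]
  have hC : ∀ t : G, orderOf t = 2 → ∀ y : G, Commute t y → y ≠ 1 → (χ : G → ℂ) y = 0 := by
    intro t ht y hcomm hy
    have hne : orderOf y ≠ 1 := fun h => hy (orderOf_eq_one_iff.1 h)
    obtain ⟨p, hpp, hpdvd⟩ := Nat.exists_prime_and_dvd hne
    by_cases hp2 : p = 2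
    · subst hp2
      exact hvan 2 Nat.prime_two h2 y hpdvd
    · have hord : orderOf (y ^ (orderOf y / p)) = p :=
        orderOf_pow_orderOf_div (orderOf_pos y).ne' hpdvd
      exact hvan p hpp (h2p t ht p hpp hp2 _ (hcomm.pow_right _) hord) y hpdvd
  have hdvdC : ∀ t : G, orderOf t = 2 → Nat.card (Subgroup.centralizer ({t} : Set G)) ∣ d := by
    intro t ht
    letI : Fintype (Subgroup.centralizer ({t} : Set G)) := Fintype.ofFinite _
    obtain ⟨m, hm⟩ := exists_nat_classInner (isCharacter_restrict (Subgroup.centralizer ({t} : Set G)) hχc)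
      (IsIrrCharacter.isCharacter' (Cfsg.Agent.Lib.CharIso.isIrr_one (G := Subgroup.centralizer ({t} : Set G))))
    rw [classInner, Finset.sum_eq_single (1 : Subgroup.centralizer ({t} : Set G))] at hm
    · have hCne : (Nat.card (Subgroup.centralizer ({t} : Set G)) : ℂ) ≠ 0 := by exact_mod_cast Nat.card_pos.ne'
      have h1 : (d : ℂ) = (Nat.card (Subgroup.centralizer ({t} : Set G)) : ℂ) * m := by
        rw [← hm, hχ1.symm]
        simp only [OneMemClass.coe_one, map_one, mul_one]
        rw [← mul_assoc, mul_inv_cancel₀ hCne, one_mul]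
      have h2' : d = Nat.card (Subgroup.centralizer ({t} : Set G)) * m := by exact_mod_cast h1
      exact ⟨m, h2'⟩
    · intro c _ hc
      have h3 : (c : G) ≠ 1 := fun h => hc (Subtype.ext h)
      have h4 : Commute t (c : G) := by
        have := Subgroup.mem_centralizer_singleton_iff.1 c.2
        exact this.symm
      rw [hC t ht c h4 h3, zero_mul]
    · intro h
      exact absurd (Finset.mem_univ _) h
  -- the sum
  let O := Finset.univ.filter (fun g : G => Odd (orderOf g))
  have hsum1 : ∑ g ∈ O, (χ : G → ℂ) (g * g) = ∑ g ∈ O, (χ : G → ℂ) g := by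
    apply Finset.sum_nbij' (fun g => g * g) (fun g => g ^ ((orderOf g + 1) / 2))
    · intro g hg
      simp only [O, Finset.mem_filter, Finset.mem_univ, true_and] at hg ⊢
      rwa [orderOf_mul_self_of_odd g hg]
    · intro g hg
      simp only [O, Finset.mem_filter, Finset.mem_univ, true_and] at hg ⊢
      exact hg.of_dvd_nat (orderOf_pow_dvd _)
    · intro g hg
      simp only [O, Finset.mem_filter, Finset.mem_univ, true_and] at hg
      rw [orderOf_mul_self_of_odd g hg]
      obtain ⟨j, hj⟩ := hg
      have h3 : (orderOf g + 1) / 2 = j + 1 := by omega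
      rw [h3, ← pow_two, ← pow_mul]
      have h4 : 2 * (j + 1) = orderOf g + 1 := by omega
      rw [h4, pow_succ, pow_orderOf_eq_one, one_mul]
    · intro g hg
      simp only [O, Finset.mem_filter, Finset.mem_univ, true_and] at hg
      obtain ⟨j, hj⟩ := hg
      have h3 : (orderOf g + 1) / 2 = j + 1 := by omega
      rw [h3, ← pow_add]
      have h4 : j + 1 + (j + 1) = orderOf g + 1 := by omega
      rw [h4, pow_succ, pow_orderOf_eq_one, one_mul]
    · intro g _
      rfl
  have hsum2 : ∀ g ∈ Finset.univ.filter (fun g : G => ¬ Odd (orderOf g)),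
      (χ : G → ℂ) (g * g) = if orderOf g = 2 then (d : ℂ) else 0 := by
    intro g hg
    simp only [Finset.mem_filter, Finset.mem_univ, true_and, Nat.not_odd_iff_even] at hg
    have h2g : 2 ∣ orderOf g := hg.two_dvd
    split_ifs with h
    · have h1 : g * g = 1 := by
        rw [← pow_two, ← h]
        exact pow_orderOf_eq_one g
      rw [h1, hχ1]
    · have ht : orderOf (g ^ (orderOf g / 2)) = 2 := orderOf_pow_orderOf_div (orderOf_pos g).ne' h2g
      apply hC _ ht
      · exact ((Commute.refl g).pow_left _).mul_right ((Commute.refl g).pow_left _)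
      · intro h1
        have h3 : orderOf g ∣ 2 := orderOf_dvd_of_pow_eq_one (by rw [pow_two]; exact h1)
        have h4 : orderOf g ≤ 2 := Nat.le_of_dvd (by norm_num) h3
        have h5 := orderOf_pos g
        have h6 : orderOf g ≠ 1 := by
          intro h7
          rw [h7] at hg
          exact absurd hg (by decide)
        omega
  have hsum3 : ∀ g ∈ Finset.univ.filter (fun g : G => ¬ Odd (orderOf g)), (χ : G → ℂ) g = 0 := by
    intro g hg
    simp only [Finset.mem_filter, Finset.mem_univ, true_and, Nat.not_odd_iff_even] at hg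
    exact hvan 2 Nat.prime_two h2 g hg.two_dvd
  have hv2 : 1 ≤ (Nat.card G).factorization 2 :=
    (Nat.prime_two.pow_dvd_iff_le_factorization hGpos).1 (by rw [pow_one]; exact heven.two_dvd)
  have hdeven : 2 ∣ d := (dvd_pow_self 2 (by omega)).trans h2
  have hsum4 : ∑ g : G, (χ : G → ℂ) g = 0 := by
    have hne : (χ : G → ℂ) ≠ (fun _ => (1 : ℂ)) := by
      intro h
      have h1 := congrFun h 1
      rw [hχ1] at h1
      have h2' : d = 1 := by exact_mod_cast h1
      rw [h2'] at hdeven
      omega
    have h1 := classInner_irr χ.2 (Cfsg.Agent.Lib.CharIso.isIrr_one (G := G))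
    rw [if_neg hne, classInner] at h1
    simp only [map_one, mul_one] at h1
    exact (mul_eq_zero.1 h1).resolve_left (inv_ne_zero hGne)
  let I := Finset.univ.filter (fun g : G => orderOf g = 2)
  have hsumall : ∑ g : G, (χ : G → ℂ) (g * g) = (d : ℂ) * (I.card : ℂ) := by
    rw [← Finset.sum_filter_add_sum_filter_not Finset.univ (fun g : G => Odd (orderOf g))]
    have h1 : ∑ g ∈ Finset.univ.filter (fun g : G => Odd (orderOf g)), (χ : G → ℂ) (g * g) = 0 := by
      have h2' := hsum1
      simp only [O] at h2'
      rw [h2']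
      rw [← hsum4, ← Finset.sum_filter_add_sum_filter_not Finset.univ (fun g : G => Odd (orderOf g)) (fun g => (χ : G → ℂ) g)]
      rw [Finset.sum_eq_zero hsum3, add_zero]
    rw [h1, zero_add, Finset.sum_congr rfl hsum2]
    rw [← Finset.sum_filter, Finset.filter_filter, Finset.sum_const, nsmul_eq_mul, mul_comm]
    congr 2
    apply congrArg
    ext g
    simp only [Finset.mem_filter, Finset.mem_univ, true_and, I]
    constructor
    · exact fun h => h.2
    · intro h
      refine ⟨?_, h⟩
      rw [h]
      decide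
  -- an involution exists
  obtain ⟨t₀, ht₀⟩ := exists_prime_orderOf_dvd_card' (G := G) 2 heven.two_dvd
  have hIpos : 0 < I.card := Finset.card_pos.2 ⟨t₀, by simp [I, ht₀]⟩
  have hind : indicator (χ : G → ℂ) = (Nat.card G : ℂ)⁻¹ * ((d : ℂ) * (I.card : ℂ)) := by
    rw [indicator, hsumall]
  have hpos : ((Nat.card G : ℂ)⁻¹ * ((d : ℂ) * (I.card : ℂ))) ≠ 0 := by
    apply mul_ne_zero (inv_ne_zero hGne)
    apply mul_ne_zero
    · exact_mod_cast hd0
    · exact_mod_cast hIpos.ne'
  have hreal : ∀ g : G, ((χ : G → ℂ) g).im = 0 := by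
    by_contra hnr
    have := indicator_not_real χ.2 hnr
    rw [hind] at this
    exact hpos this
  have hν : indicator (χ : G → ℂ) = 1 := by
    rcases indicator_real χ.2 hreal with h | h
    · exact h
    · exfalso
      rw [hind] at h
      have h1 : (d : ℂ) * (I.card : ℂ) = -(Nat.card G : ℂ) := by
        field_simp at h
        linear_combination h
      have h2' : ((d * I.card + Nat.card G : ℕ) : ℂ) = 0 := by
        push_cast
        rw [h1]
        ring
      have h3 : d * I.card + Nat.card G = 0 := by exact_mod_cast h2'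
      omega
  have hdI : d * I.card = Nat.card G := by
    rw [hind] at hν
    have h1 : (d : ℂ) * (I.card : ℂ) = (Nat.card G : ℂ) := by
      field_simp at hν
      linear_combination hν
    exact_mod_cast h1
  -- the count
  have hcount : ∀ s : G, orderOf s = 2 → Nat.card (Subgroup.centralizer ({s} : Set G)) = d ∧
      Nat.card {k : G // IsConj s k} = I.card := by
    intro s hs
    have h1 := class_size s
    have h2' : Nat.card {k : G // IsConj s k} ≤ I.card := by
      rw [Nat.card_eq_fintype_card, Fintype.card_subtype]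
      apply Finset.card_le_card
      intro k hk
      simp only [Finset.mem_filter, Finset.mem_univ, true_and, I] at hk ⊢
      rw [← hs]
      obtain ⟨c, hc⟩ := isConj_iff.1 hk
      rw [← hc]
      exact orderOf_injective (MulAut.conj c).toMonoidHom (MulAut.conj c).injective s
    have h3 : Nat.card (Subgroup.centralizer ({s} : Set G)) ≤ d :=
      Nat.le_of_dvd (Nat.pos_of_ne_zero hd0) (hdvdC s hs)
    set a := Nat.card {k : G // IsConj s k} with ha
    set b := Nat.card (Subgroup.centralizer ({s} : Set G)) with hb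
    have hbpos : 0 < b := Nat.card_pos
    have h4 : a * b = d * I.card := by rw [h1, hdI]
    have h5 : b = d := by
      by_contra hne
      have h6 : b < d := lt_of_le_of_ne h3 hne
      have h7 : a * b ≤ I.card * b := Nat.mul_le_mul_right b h2'
      have h8 : I.card * b < I.card * d := Nat.mul_lt_mul_of_pos_left h6 hIpos
      rw [h4, mul_comm d] at h7
      omega
    refine ⟨h5, ?_⟩
    rw [h5, mul_comm d] at h4
    exact Nat.eq_of_mul_eq_mul_right (Nat.pos_of_ne_zero hd0) h4
  refine ⟨?_, ?_, ?_⟩
  · intro s t hs ht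
    have h1 := (hcount s hs).2
    have h2' : (Finset.univ.filter (fun k : G => IsConj s k)) = I := by
      apply Finset.eq_of_subset_of_card_le
      · intro k hk
        simp only [Finset.mem_filter, Finset.mem_univ, true_and, I] at hk ⊢
        rw [← hs]
        obtain ⟨c, hc⟩ := isConj_iff.1 hk
        rw [← hc]
        exact orderOf_injective (MulAut.conj c).toMonoidHom (MulAut.conj c).injective s
      · rw [← h1, Nat.card_eq_fintype_card, Fintype.card_subtype]
    have h3 : t ∈ I := by simp [I, ht]
    rw [← h2'] at h3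
    simpa using h3
  · intro s hs
    obtain ⟨h1, -⟩ := hcount s hs
    refine ⟨h1, ?_⟩
    have hidx : Nat.card (Subgroup.centralizer ({s} : Set G)) * (Subgroup.centralizer ({s} : Set G)).index = Nat.card G :=
      Subgroup.card_mul_index _
    rw [h1] at hidx ⊢
    apply Nat.coprime_of_dvd
    intro r hr hrd hri
    -- the full power of r divides d
    have hfull : r ^ (Nat.card G).factorization r ∣ d := by
      by_cases hr2 : r = 2
      · subst hr2
        exact h2
      · have hr3 : r ∣ Nat.card (Subgroup.centralizer ({s} : Set G)) := by rw [h1]; exact hrd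
        haveI : Fact r.Prime := ⟨hr⟩
        obtain ⟨u, hu⟩ := exists_prime_orderOf_dvd_card' (G := Subgroup.centralizer ({s} : Set G)) r hr3
        have hu' : orderOf (u : G) = r := by rw [← hu, Subgroup.orderOf_coe]
        have hc : Commute s (u : G) := (Subgroup.mem_centralizer_singleton_iff.1 u.2).symm
        exact h2p s hs r hr hr2 _ hc hu'
    have h5 : r ^ ((Nat.card G).factorization r + 1) ∣ Nat.card G := by
      calc r ^ ((Nat.card G).factorization r + 1) = r ^ (Nat.card G).factorization r * r := pow_succ _ _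
        _ ∣ d * (Subgroup.centralizer ({s} : Set G)).index := Nat.mul_dvd_mul hfull hri
        _ = Nat.card G := hidx
    exact Nat.pow_succ_factorization_not_dvd hGpos hr h5
  · exact hν

end Cfsg.Agent.S4478
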