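import Cfsg.Statements.S4493
import Cfsg.Agent.Lib.H7Ito
import Cfsg.Agent.S0169

set_option autoImplicit false
set_option linter.all false
open Cfsg

namespace Cfsg.Agent.S4493


open Cfsg Subgroup
open Cfsg.Agent.Lib.H7Ito Cfsg.Agent.Lib.H7Char Cfsg.Agent.Lib.CharAb


/-- Let G be a finite solvable group and p a prime. Then G has a normal abelian Sylow p-subgroup if and only if no irreducible character degree of G is divisible by p. -/
theorem result {G : Type*} [Group G] [Finite G] (hsolv : Group.IsSolvable G) (p : ℕ) (hp : p.Prime) : (∃ P : Subgroup G, P.Normal ∧ (∀ x ∈ P, ∀ y ∈ P, x * y = y * x) ∧ IsPGroup p P ∧ ¬ p ∣ P.index) ↔ ∀ χ : Cfsg.IrrCharacter G, ¬ p ∣ Cfsg.charDegree (χ : G → ℂ) := by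
  classical
  haveI : Fact p.Prime := ⟨hp⟩
  cases nonempty_fintype G
  constructor
  · rintro ⟨P, hPn, hPc, hPp, hPi⟩ χ
    obtain ⟨n, ρ, hρ, hχ⟩ := χ.2
    haveI : ρ.IsIrreducible := hρ
    haveI := hPn
    have h1 := Cfsg.Agent.S0169.result ρ P hPc
    simp only [Module.finrank_fin_fun] at h1
    have h2 : charDegree (χ : G → ℂ) = n := by
      unfold charDegree
      rw [← hχ, Representation.char_one]
      simp
    rw [h2]
    intro hd
    exact hPi (hd.trans h1)
  · intro hdeg
    obtain ⟨P⟩ : Nonempty (Sylow p G) := inferInstance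
    have hnormal := normal_sylow_core (p := p) (fun X _ => Group.IsSolvable X)
      (fun X _ _ N _ hX => by
        haveI := hX
        exact solvable_of_surjective (QuotientGroup.mk'_surjective N))
      (fun X _ _ hX hnt => by
        haveI := hnt
        obtain ⟨q, A, hq, hAn, hAbot, hAp, _⟩ := Cfsg.Agent.Lib.H7Basic.exists_normal_pGroup hX
        refine ⟨A, hAn, hAbot, ?_⟩
        by_cases hqp : q = p
        · subst hqp
          exact Or.inl hAp
        · right
          intro hd
          haveI : Fact q.Prime := ⟨hq⟩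
          obtain ⟨k, hk⟩ := IsPGroup.iff_card.mp hAp
          rw [hk] at hd
          have := (Nat.prime_dvd_prime_iff_eq hp hq).mp (hp.dvd_of_dvd_pow hd)
          exact hqp this.symm)
      _ G rfl hsolv hdeg P
    have hc := comm_of_normal P hnormal (by
      intro χ
      rw [← charDegree_eq_deg]
      exact hdeg χ)
    refine ⟨P, hnormal, ?_, P.isPGroup', P.not_dvd_index⟩
    intro x hx y hy
    have := hc.is_comm.comm (⟨x, hx⟩ : (P : Subgroup G)) ⟨y, hy⟩
    exact congrArg Subtype.val this

end Cfsg.Agent.S4493
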