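import Cfsg.Statements.S4496
import Cfsg.Agent.Lib.SylowCount
import Cfsg.Agent.Lib.CoprimeSylow

set_option autoImplicit false
set_option linter.all false
open Cfsg

namespace Cfsg.Agent.S4496


open Subgroup
open scoped Pointwise
open Cfsg.Agent.Lib.SylowCount

theorem exists_sylow_eq {G : Type*} [Group G] [Finite G] {p : ℕ} [Fact p.Prime] {x : G}
    (hx : orderOf x = p) (hC : centralizer ({x} : Set G) = zpowers x) :
    ∃ P : Sylow p G, (P : Subgroup G) = zpowers x := by
  classical
  have hcard : Nat.card (zpowers x) = p := by rw [Nat.card_zpowers, hx]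
  have hpg : IsPGroup p (zpowers x) := IsPGroup.of_card (n := 1) (by rw [hcard, pow_one])
  obtain ⟨P, hP⟩ := hpg.exists_le_sylow
  refine ⟨P, ?_⟩
  have hxP : x ∈ (P : Subgroup G) := hP (mem_zpowers x)
  have hx1 : x ≠ 1 := by
    rintro rfl
    rw [orderOf_one] at hx
    exact (Fact.out : p.Prime).one_lt.ne hx
  haveI : Nontrivial (P : Subgroup G) := by
    refine ⟨⟨⟨x, hxP⟩, 1, ?_⟩⟩
    intro h
    exact hx1 (congrArg Subtype.val h)
  haveI := P.isPGroup'.center_nontrivial
  obtain ⟨z, hz⟩ := exists_ne (1 : center (P : Subgroup G))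
  have hz1 : ((z : (P : Subgroup G)) : G) ≠ 1 := by
    intro h
    apply hz
    apply Subtype.ext
    apply Subtype.ext
    exact h
  have hzc : ∀ y ∈ (P : Subgroup G), ((z : (P : Subgroup G)) : G) * y = y * (z : (P : Subgroup G)) := by
    intro y hy
    have := (mem_center_iff.mp z.2) ⟨y, hy⟩
    exact (congrArg Subtype.val this).symm
  have hzC : ((z : (P : Subgroup G)) : G) ∈ centralizer ({x} : Set G) := by
    rw [mem_centralizer_singleton_iff]
    exact hzc x hxP
  rw [hC] at hzC
  have hzeq := zpowers_eq_of_card_prime (zpowers x) hcard hzC hz1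
  have hxz : x ∈ zpowers ((z : (P : Subgroup G)) : G) := by
    rw [hzeq]
    exact mem_zpowers x
  have hle : (P : Subgroup G) ≤ centralizer ({x} : Set G) := by
    intro y hy
    rw [mem_centralizer_singleton_iff]
    obtain ⟨k, rfl⟩ := mem_zpowers_iff.mp hxz
    have hcomm : Commute y ((z : (P : Subgroup G)) : G) := (hzc y hy).symm
    exact (hcomm.zpow_right k).eq
  rw [hC] at hle
  exact le_antisymm hle hP

theorem part_a {G : Type*} [Group G] [Finite G] {p : ℕ} [Fact p.Prime] {x : G}
    (hx : orderOf x = p) (hC : centralizer ({x} : Set G) = zpowers x) (S : Subgroup G) [S.Normal]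
    (hS : p ∣ Nat.card S) : commutator G ≤ S := by
  classical
  obtain ⟨P, hP⟩ := exists_sylow_eq hx hC
  -- `x ∈ S`
  obtain ⟨y, hy⟩ := exists_prime_orderOf_dvd_card' p hS
  have hyo : orderOf (y : G) = p := by
    rw [Subgroup.orderOf_coe]
    exact hy
  have hypg : IsPGroup p (zpowers (y : G)) :=
    IsPGroup.of_card (n := 1) (by rw [Nat.card_zpowers, hyo, pow_one])
  obtain ⟨Q, hQ⟩ := hypg.exists_le_sylow
  obtain ⟨g, hg⟩ := MulAction.exists_smul_eq G Q P
  have hQc : Nat.card (Q : Subgroup G) = p := by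
    rw [Cfsg.Agent.Lib.SylowCount.card_sylow_eq Q P, hP, Nat.card_zpowers, hx]
  have hQy : (Q : Subgroup G) = zpowers (y : G) := by
    symm
    apply Subgroup.eq_of_le_of_card_ge hQ
    rw [hQc, Nat.card_zpowers, hyo]
  have hxmem : x ∈ (g • Q : Sylow p G) := by
    rw [hg]
    show x ∈ (P : Subgroup G)
    rw [hP]
    exact mem_zpowers x
  rw [mem_smul_sylow, hQy] at hxmem
  have hxS : x ∈ S := by
    have h1 : g⁻¹ * x * g ∈ S := (zpowers_le.mpr y.2) hxmem
    have h2 := (inferInstance : S.Normal).conj_mem _ h1 g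
    have h3 : g * (g⁻¹ * x * g) * g⁻¹ = x := by group
    rwa [h3] at h2
  have hPS : (P : Subgroup G) ≤ S := by
    rw [hP]
    exact zpowers_le.mpr hxS
  -- Frattini
  have hF := P.normalizer_sup_eq_top' hPS
  -- elements of the normalizer act by powers
  set N := normalizer ((P : Subgroup G) : Set G) with hN
  have hact : ∀ n ∈ N, ∃ k : ℤ, n * x * n⁻¹ = x ^ k := by
    intro n hn
    have h1 : x ∈ (P : Subgroup G) := by
      rw [hP]
      exact mem_zpowers x
    have h2 : n * x * n⁻¹ ∈ (P : Subgroup G) := (mem_normalizer_iff.mp hn x).mp h1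
    rw [hP] at h2
    obtain ⟨k, hk⟩ := mem_zpowers_iff.mp h2
    exact ⟨k, hk.symm⟩
  have hconjzpow : ∀ (n : G) (k : ℤ), n * x ^ k * n⁻¹ = (n * x * n⁻¹) ^ k := by
    intro n k
    exact (conj_zpow).symm
  have hcomm : ∀ n ∈ N, ∀ m ∈ N, n⁻¹ * m⁻¹ * n * m ∈ S := by
    intro n hn m hm
    obtain ⟨a, ha⟩ := hact n hn
    obtain ⟨b, hb⟩ := hact m hm
    have h1 : (n * m) * x * (n * m)⁻¹ = (m * n) * x * (m * n)⁻¹ := by
      calc (n * m) * x * (n * m)⁻¹ = n * (m * x * m⁻¹) * n⁻¹ := by group
        _ = n * x ^ b * n⁻¹ := by rw [hb]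
        _ = (n * x * n⁻¹) ^ b := hconjzpow n b
        _ = (x ^ a) ^ b := by rw [ha]
        _ = (x ^ b) ^ a := by rw [← zpow_mul, ← zpow_mul, mul_comm]
        _ = (m * x * m⁻¹) ^ a := by rw [hb]
        _ = m * x ^ a * m⁻¹ := (hconjzpow m a).symm
        _ = m * (n * x * n⁻¹) * m⁻¹ := by rw [ha]
        _ = (m * n) * x * (m * n)⁻¹ := by group
    have h2 : n⁻¹ * m⁻¹ * n * m ∈ centralizer ({x} : Set G) := by
      rw [mem_centralizer_singleton_iff]
      have h3 : (m * n)⁻¹ * ((n * m) * x * (n * m)⁻¹) * (m * n) = x := by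
        rw [h1]
        group
      have h4 : n⁻¹ * m⁻¹ * n * m = (m * n)⁻¹ * (n * m) := by group
      rw [h4]
      calc (m * n)⁻¹ * (n * m) * x = ((m * n)⁻¹ * ((n * m) * x * (n * m)⁻¹) * (m * n)) * ((m * n)⁻¹ * (n * m)) := by group
        _ = x * ((m * n)⁻¹ * (n * m)) := by rw [h3]
    rw [hC, ← hP] at h2
    exact hPS h2
  -- finish in the quotient
  rw [commutator_def, Subgroup.commutator_le]
  intro a _ b _
  have hF' : N ⊔ S = ⊤ := hF
  have hdecomp : ∀ c : G, ∃ n ∈ N, ∃ s ∈ S, c = n⁻¹ * s := by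
    intro c
    have h1 : c ∈ N ⊔ S := by
      rw [hF']
      trivial
    obtain ⟨n, hn, s, hs, h2⟩ := Subgroup.mem_sup_of_normal_right.mp h1
    exact ⟨n⁻¹, N.inv_mem hn, s, hs, by rw [inv_inv, h2]⟩
  obtain ⟨n, hn, s, hs, rfl⟩ := hdecomp a
  obtain ⟨m, hm, t, ht, rfl⟩ := hdecomp b
  rw [← QuotientGroup.eq_one_iff]
  have hφ : ∀ s ∈ S, QuotientGroup.mk' S s = 1 := by
    intro s hs
    exact (QuotientGroup.eq_one_iff s).mpr hs
  change QuotientGroup.mk' S _ = 1
  rw [map_commutatorElement, map_mul, map_mul, hφ s hs, hφ t ht, mul_one, mul_one,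
    ← map_commutatorElement]
  apply hφ
  rw [commutatorElement_def, inv_inv, inv_inv]
  exact hcomm n hn m hm

theorem part_b {G : Type*} [Group G] [Finite G] {p : ℕ} [Fact p.Prime] {x : G}
    (hx : orderOf x = p) (hC : centralizer ({x} : Set G) = zpowers x) (S : Subgroup G) [hSn : S.Normal]
    (hS : ¬ p ∣ Nat.card S) : Nat.card S ∣ Nat.card {H : Subgroup G // Nat.card H = p} ∧ Nat.card S % p = 1 ∧ orderOf (QuotientGroup.mk x : G ⧸ S) = p ∧ Subgroup.centralizer ({(QuotientGroup.mk x : G ⧸ S)} : Set (G ⧸ S)) = Subgroup.zpowers (QuotientGroup.mk x : G ⧸ S) := by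
  classical
  have hpp : p.Prime := Fact.out
  obtain ⟨P, hP⟩ := exists_sylow_eq hx hC
  have hcardP : Nat.card (P : Subgroup G) = p := by rw [hP, Nat.card_zpowers, hx]
  -- a `p`-subgroup meets `S` trivially
  have hinter : ∀ (Q : Sylow p G) (s : G), s ∈ S → s ∈ (Q : Subgroup G) → s = 1 := by
    intro Q s hs hsQ
    have h1 : orderOf s ∣ Nat.card S := by
      have := orderOf_dvd_natCard (⟨s, hs⟩ : S)
      rwa [Subgroup.orderOf_mk] at this
    have h2 : orderOf s ∣ p := by
      have := orderOf_dvd_natCard (⟨s, hsQ⟩ : (Q : Subgroup G))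
      rw [Subgroup.orderOf_mk, Cfsg.Agent.Lib.SylowCount.card_sylow_eq Q P, hcardP] at this
      exact this
    rcases (Nat.dvd_prime hpp).mp h2 with h3 | h3
    · exact orderOf_eq_one_iff.mp h3
    · rw [h3] at h1
      exact absurd h1 hS
  have hxP : x ∈ (P : Subgroup G) := by
    rw [hP]
    exact mem_zpowers x
  have hCS : ∀ s ∈ S, s * x = x * s → s = 1 := by
    intro s hs hsx
    apply hinter P s hs
    rw [hP, ← hC, mem_centralizer_singleton_iff]
    exact hsx
  have hxS : x ∉ S := by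
    intro h
    have := hinter P x h hxP
    rw [this, orderOf_one] at hx
    exact hpp.one_lt.ne hx
  refine ⟨?_, ?_, ?_, ?_⟩
  · -- divisibility
    have hequiv : Nat.card {H : Subgroup G // Nat.card H = p} = Nat.card (Sylow p G) := by
      have hfact : p ^ (Nat.card G).factorization p = p := by
        rw [← P.card_eq_multiplicity, hcardP]
      refine Nat.card_congr ⟨fun H => Sylow.ofCard H.1 (by rw [H.2, hfact]), fun Q => ⟨Q, ?_⟩, ?_, ?_⟩
      · rw [Cfsg.Agent.Lib.SylowCount.card_sylow_eq Q P, hcardP]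
      · intro H
        exact Subtype.ext rfl
      · intro Q
        exact Sylow.ext rfl
    rw [hequiv]
    apply dvd_card_of_dvd_orbits (H := S) (X := Sylow p G)
    intro Q
    have hstab : MulAction.stabilizer S Q = ⊥ := by
      rw [eq_bot_iff]
      intro s hs
      rw [Subgroup.mem_bot]
      have hs1 : (s : G) • Q = Q := hs
      have hs2 : (s : G) ∈ normalizer ((Q : Subgroup G) : Set G) := Sylow.smul_eq_iff_mem_normalizer.mp hs1
      obtain ⟨g, hg⟩ := MulAction.exists_smul_eq G P Q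
      set y := g * x * g⁻¹ with hy
      have hyQ : y ∈ (Q : Subgroup G) := by
        rw [← hg]
        show y ∈ (g • P : Sylow p G)
        rw [mem_smul_sylow, hy]
        have : g⁻¹ * (g * x * g⁻¹) * g = x := by group
        rw [this]
        exact hxP
      have h2 : (s : G) * y * (s : G)⁻¹ ∈ (Q : Subgroup G) := (mem_normalizer_iff.mp hs2 y).mp hyQ
      have h3 : (s : G) * y * (s : G)⁻¹ * y⁻¹ ∈ (Q : Subgroup G) :=
        (Q : Subgroup G).mul_mem h2 ((Q : Subgroup G).inv_mem hyQ)
      have h4 : (s : G) * y * (s : G)⁻¹ * y⁻¹ ∈ S := by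
        have h5 := hSn.conj_mem _ (S.inv_mem s.2) y
        have h6 : (s : G) * y * (s : G)⁻¹ * y⁻¹ = (s : G) * (y * (s : G)⁻¹ * y⁻¹) := by group
        rw [h6]
        exact S.mul_mem s.2 h5
      have h5 := hinter Q _ h4 h3
      have h6 : (s : G) * y = y * s := by
        have h7 : (s : G) * y * (s : G)⁻¹ = y := by
          rw [mul_inv_eq_one] at h5
          exact h5
        rw [mul_inv_eq_iff_eq_mul] at h7
        exact h7
      have h7 : g⁻¹ * (s : G) * g ∈ centralizer ({x} : Set G) := by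
        rw [mem_centralizer_singleton_iff]
        have h8 : g⁻¹ * ((s : G) * y) * g = g⁻¹ * (y * s) * g := by rw [h6]
        rw [hy] at h8
        calc g⁻¹ * (s : G) * g * x = g⁻¹ * ((s : G) * (g * x * g⁻¹)) * g := by group
          _ = g⁻¹ * ((g * x * g⁻¹) * s) * g := h8
          _ = x * (g⁻¹ * (s : G) * g) := by group
      rw [hC, ← hP] at h7
      have h8 : (s : G) ∈ (Q : Subgroup G) := by
        rw [← hg]
        show (s : G) ∈ (g • P : Sylow p G)
        rw [mem_smul_sylow]
        exact h7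
      have h9 := hinter Q _ s.2 h8
      exact Subtype.ext h9
    have h1 := card_orbit_mul_card_stabilizer (H := S) Q
    rw [hstab, Subgroup.card_bot, mul_one] at h1
    rw [h1]
  · -- the congruence
    have hpg : IsPGroup p (zpowers x) := IsPGroup.of_card (n := 1) (by rw [Nat.card_zpowers, hx, pow_one])
    letI := Cfsg.Agent.Lib.CoprimeSylow.conjOn (zpowers x) S (fun a _ l hl => hSn.conj_mem l hl a)
    have h1 := hpg.card_modEq_card_fixedPoints (S : Type _)
    have h2 : Nat.card (MulAction.fixedPoints (zpowers x) S) = 1 := by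
      rw [Nat.card_eq_one_iff_unique]
      refine ⟨⟨?_⟩, ⟨⟨1, ?_⟩⟩⟩
      · rintro ⟨a, ha⟩ ⟨b, hb⟩
        have key : ∀ c : S, c ∈ MulAction.fixedPoints (zpowers x) S → c = 1 := by
          intro c hc
          have h3 := hc ⟨x, mem_zpowers x⟩
          have h4 : x * (c : G) * x⁻¹ = c := congrArg Subtype.val h3
          apply Subtype.ext
          apply hCS c c.2
          rw [mul_inv_eq_iff_eq_mul] at h4
          exact h4.symm
        apply Subtype.ext
        show a = b
        rw [key a ha, key b hb]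
      · intro a
        exact smul_one a
    rw [h2] at h1
    unfold Nat.ModEq at h1
    rw [h1]
    exact Nat.mod_eq_of_lt hpp.one_lt
  · apply orderOf_eq_prime
    · rw [← QuotientGroup.mk_pow, ← hx, pow_orderOf_eq_one]
      rfl
    · intro h
      exact hxS ((QuotientGroup.eq_one_iff x).mp h)
  · apply le_antisymm
    · intro a ha
      obtain ⟨y, rfl⟩ := QuotientGroup.mk_surjective a
      rw [mem_centralizer_singleton_iff] at ha
      have ht : y * x * y⁻¹ * x⁻¹ ∈ S := by
        rw [← QuotientGroup.eq_one_iff]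
        have h1 : ((y * x * y⁻¹ * x⁻¹ : G) : G ⧸ S) = (y : G ⧸ S) * x * (y : G ⧸ S)⁻¹ * (x : G ⧸ S)⁻¹ := rfl
        rw [h1, ha]
        group
      let f : S → S := fun s => ⟨(s : G) * x * (s : G)⁻¹ * x⁻¹, by
        have h5 := hSn.conj_mem _ (S.inv_mem s.2) x
        have h6 : (s : G) * x * (s : G)⁻¹ * x⁻¹ = (s : G) * (x * (s : G)⁻¹ * x⁻¹) := by group
        rw [h6]
        exact S.mul_mem s.2 h5⟩
      have hf : Function.Injective f := by
        intro s s' h
        have h1 : (s : G) * x * (s : G)⁻¹ * x⁻¹ = (s' : G) * x * (s' : G)⁻¹ * x⁻¹ := congrArg Subtype.val h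
        have h2 : (s : G) * x * (s : G)⁻¹ = (s' : G) * x * (s' : G)⁻¹ := mul_right_cancel h1
        have h3 := hCS ((s' : G)⁻¹ * s) (S.mul_mem (S.inv_mem s'.2) s.2) (by
          calc (s' : G)⁻¹ * s * x = (s' : G)⁻¹ * ((s : G) * x * (s : G)⁻¹) * s := by group
            _ = (s' : G)⁻¹ * ((s' : G) * x * (s' : G)⁻¹) * s := by rw [h2]
            _ = x * ((s' : G)⁻¹ * s) := by group)
        apply Subtype.ext
        rw [inv_mul_eq_one] at h3
        exact h3.symm
      obtain ⟨s, hs⟩ := (Finite.injective_iff_surjective.mp hf) ⟨_, ht⟩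
      have h1 : (s : G) * x * (s : G)⁻¹ * x⁻¹ = y * x * y⁻¹ * x⁻¹ := congrArg Subtype.val hs
      have h2 : (s : G) * x * (s : G)⁻¹ = y * x * y⁻¹ := mul_right_cancel h1
      have h3 : (s : G)⁻¹ * y ∈ centralizer ({x} : Set G) := by
        rw [mem_centralizer_singleton_iff]
        calc (s : G)⁻¹ * y * x = (s : G)⁻¹ * (y * x * y⁻¹) * y := by group
          _ = (s : G)⁻¹ * ((s : G) * x * (s : G)⁻¹) * y := by rw [h2]
          _ = x * ((s : G)⁻¹ * y) := by group
      rw [hC] at h3
      obtain ⟨k, hk⟩ := mem_zpowers_iff.mp h3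
      have h4 : y = (s : G) * x ^ k := by
        rw [hk]
        group
      rw [h4]
      apply mem_zpowers_iff.mpr
      refine ⟨k, ?_⟩
      have h5 : ((s : G) : G ⧸ S) = 1 := (QuotientGroup.eq_one_iff _).mpr s.2
      rw [QuotientGroup.mk_mul, h5, one_mul]
      rfl
    · rw [zpowers_le, mem_centralizer_singleton_iff]


/-- Let the finite group G contain an element x of prime order p with C_G(x) = ⟨x⟩. Then: (a) every normal subgroup of order divisible by p contains the commutator subgroup; (b) every normal subgroup S of order prime to p has order dividing the number of subgroups of order p of G and congruent to 1 modulo p, and in G/S the image of x again has prime order p and commutes only with its own powers. -/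
theorem result {G : Type*} [Group G] [Finite G] (p : ℕ) (hp : p.Prime) (x : G) (hx : orderOf x = p) (hC : Subgroup.centralizer ({x} : Set G) = Subgroup.zpowers x) (S : Subgroup G) [S.Normal] : (p ∣ Nat.card S → commutator G ≤ S) ∧ (¬ p ∣ Nat.card S → Nat.card S ∣ Nat.card {H : Subgroup G // Nat.card H = p} ∧ Nat.card S % p = 1 ∧ orderOf (QuotientGroup.mk x : G ⧸ S) = p ∧ Subgroup.centralizer ({(QuotientGroup.mk x : G ⧸ S)} : Set (G ⧸ S)) = Subgroup.zpowers (QuotientGroup.mk x : G ⧸ S)) := by
  haveI : Fact p.Prime := ⟨hp⟩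
  exact ⟨part_a hx hC S, part_b hx hC S⟩

end Cfsg.Agent.S4496
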