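import Cfsg.Statements.S4495
import Cfsg.Agent.S4496

set_option autoImplicit false
set_option linter.all false
open Cfsg

namespace Cfsg.Agent.S4495


open Subgroup Cfsg.Agent.Lib.SylowCount
open scoped commutatorElement

section
variable {G : Type*} [Group G] [Finite G] {p : ℕ} [hp : Fact p.Prime] {x : G}

theorem one_lt_p : 1 < p := (Fact.out : p.Prime).one_lt

theorem card_zpowers_x (hx : orderOf x = p) : Nat.card (zpowers x) = p := by
  rw [Nat.card_zpowers, hx]

theorem zpowers_eq_of_mem (hx : orderOf x = p) {y : G} (hy : y ∈ zpowers x) (hy1 : y ≠ 1) :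
    zpowers y = zpowers x :=
  zpowers_eq_of_card_prime (zpowers x) (card_zpowers_x hx) hy hy1

theorem orderOf_of_mem (hx : orderOf x = p) {y : G} (hy : y ∈ zpowers x) (hy1 : y ≠ 1) :
    orderOf y = p := by
  rw [← Nat.card_zpowers, zpowers_eq_of_mem hx hy hy1, card_zpowers_x hx]

theorem centralizer_of_mem (hx : orderOf x = p) (hC : centralizer ({x} : Set G) = zpowers x)
    {y : G} (hy : y ∈ zpowers x) (hy1 : y ≠ 1) :
    centralizer ({y} : Set G) = zpowers x := by
  have hxy : x ∈ zpowers y := by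
    rw [zpowers_eq_of_mem hx hy hy1]; exact mem_zpowers x
  apply le_antisymm
  · intro g hg
    rw [mem_centralizer_singleton_iff] at hg
    rw [← hC, mem_centralizer_singleton_iff]
    obtain ⟨k, rfl⟩ := mem_zpowers_iff.mp hxy
    have hcomm : Commute g y := hg
    exact (hcomm.zpow_right k).eq
  · intro g hg
    rw [mem_centralizer_singleton_iff]
    obtain ⟨a, rfl⟩ := mem_zpowers_iff.mp hg
    obtain ⟨b, rfl⟩ := mem_zpowers_iff.mp hy
    rw [← zpow_add, ← zpow_add, add_comm]

/-- The conjugacy classes of elements of order `p` are met by the nontrivial powers of `x`. -/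
theorem exists_conj_mem (hx : orderOf x = p) (hC : centralizer ({x} : Set G) = zpowers x)
    {g : G} (hg : orderOf g = p) : ∃ h : G, h * g * h⁻¹ ∈ zpowers x := by
  classical
  obtain ⟨P, hP⟩ := Cfsg.Agent.S4496.exists_sylow_eq hx hC
  have hpg : IsPGroup p (zpowers g) :=
    IsPGroup.of_card (n := 1) (by rw [Nat.card_zpowers, hg, pow_one])
  obtain ⟨Q, hQ⟩ := hpg.exists_le_sylow
  obtain ⟨h, hh⟩ := MulAction.exists_smul_eq G Q P
  refine ⟨h, ?_⟩
  have h1 : g ∈ (Q : Subgroup G) := hQ (mem_zpowers g)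
  have h2 : h * g * h⁻¹ ∈ (h • Q : Sylow p G) := by
    rw [mem_smul_sylow]
    have : h⁻¹ * (h * g * h⁻¹) * h = g := by group
    rw [this]
    exact h1
  rw [hh, ] at h2
  have h3 : h * g * h⁻¹ ∈ (P : Subgroup G) := h2
  rwa [hP] at h3

abbrev NN (x : G) : Subgroup G := normalizer ((zpowers x : Subgroup G) : Set G)

theorem zpowers_le_NN (x : G) : zpowers x ≤ NN x := le_normalizer

theorem card_normalizer_eq (hx : orderOf x = p) : Nat.card (NN x) / p * p = Nat.card (NN x) := by
  apply Nat.div_mul_cancel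
  have h1 := Subgroup.card_dvd_of_le (zpowers_le_NN x)
  rwa [card_zpowers_x hx] at h1

/-- fibre count for conjugation by the normalizer. -/
theorem card_fiber_NN (hx : orderOf x = p) (hC : centralizer ({x} : Set G) = zpowers x)
    (y : {z : zpowers x // z ≠ 1}) :
    Nat.card {z : {z : zpowers x // z ≠ 1} // IsConj ((y.1 : zpowers x) : G) ((z.1 : zpowers x) : G)} =
      Nat.card (NN x) / p := by
  classical
  have hy1 : ((y.1 : zpowers x) : G) ≠ 1 := by
    intro h; exact y.2 (Subtype.ext h)
  have hym := (y.1 : zpowers x).2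
  set Y := {z : {z : zpowers x // z ≠ 1} // IsConj ((y.1 : zpowers x) : G) ((z.1 : zpowers x) : G)} with hY
  -- a map from the normalizer onto the fibre
  let f : NN x → Y := fun n => ⟨⟨⟨n.1 * (y.1 : G) * n.1⁻¹, by
        exact (mem_normalizer_iff.mp n.2 _).mp hym⟩, by
        intro h
        have h2 : n.1 * (y.1 : G) * n.1⁻¹ = 1 := congrArg Subtype.val h
        apply hy1
        have : (y.1 : G) = n.1⁻¹ * (n.1 * (y.1 : G) * n.1⁻¹) * n.1 := by group
        rw [this, h2]; group⟩, by
        rw [isConj_iff]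
        exact ⟨n.1, rfl⟩⟩
  have hf : ∀ b : Y, Nat.card {a // f a = b} = p := by
    rintro ⟨⟨⟨z, hz⟩, hz1⟩, hconj⟩
    obtain ⟨g, hg⟩ := isConj_iff.mp hconj
    have hg' : g * (y.1 : G) * g⁻¹ = z := hg
    have hgN : g ∈ NN x := by
      have hz1' : z ≠ 1 := by
        intro h; exact hz1 (Subtype.ext h)
      rw [mem_normalizer_iff]
      intro w
      have hzw : zpowers z = zpowers x := zpowers_eq_of_mem hx hz hz1'
      have hyw : zpowers (y.1 : G) = zpowers x := zpowers_eq_of_mem hx hym hy1
      have hmap : (zpowers x).map (MulAut.conj g).toMonoidHom = zpowers x := by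
        rw [← hyw, MonoidHom.map_zpowers]
        have : (MulAut.conj g).toMonoidHom (y.1 : G) = z := hg'
        rw [this, hzw, hyw]
      constructor
      · intro hw
        have : g * w * g⁻¹ ∈ (zpowers x).map (MulAut.conj g).toMonoidHom :=
          ⟨w, hw, rfl⟩
        rwa [hmap] at this
      · intro hw
        rw [← hmap] at hw
        obtain ⟨w', hw', he⟩ := hw
        have he' : g * w' * g⁻¹ = g * w * g⁻¹ := he
        have : w' = w := by
          have := congrArg (fun a => g⁻¹ * a * g) he'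
          simpa [mul_assoc] using this
        rwa [← this]
    have hcen := centralizer_of_mem hx hC hym hy1
    have hmemC : ∀ c : G, c ∈ zpowers x ↔ c * (y.1 : G) = (y.1 : G) * c := by
      intro c
      have h1 : c ∈ zpowers x ↔ c ∈ centralizer ({(y.1 : G)} : Set G) := by rw [hcen]
      rw [h1, mem_centralizer_singleton_iff]
    rw [← card_zpowers_x hx]
    refine Nat.card_congr ⟨fun a => ⟨g⁻¹ * a.1.1, ?_⟩, fun c => ⟨⟨g * c.1, ?_⟩, ?_⟩, ?_, ?_⟩
    · have h2 : a.1.1 * (y.1 : G) * a.1.1⁻¹ = z := by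
        have := congrArg (fun b : Y => (((b.1).1 : zpowers x) : G)) a.2
        exact this
      apply (hmemC _).mpr
      have h3 : a.1.1 * (y.1 : G) * a.1.1⁻¹ = g * (y.1 : G) * g⁻¹ := by rw [h2, hg']
      have h4 : (g⁻¹ * a.1.1) * (y.1 : G) * (g⁻¹ * a.1.1)⁻¹ = (y.1 : G) := by
        have : (g⁻¹ * a.1.1) * (y.1 : G) * (g⁻¹ * a.1.1)⁻¹ = g⁻¹ * (a.1.1 * (y.1 : G) * a.1.1⁻¹) * g := by group
        rw [this, h3]; group
      have h5 : (g⁻¹ * a.1.1) * (y.1 : G) = (y.1 : G) * (g⁻¹ * a.1.1) := by
        rw [← mul_inv_eq_iff_eq_mul]; exact h4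
      exact h5
    · exact (NN x).mul_mem hgN (zpowers_le_NN x c.2)
    · apply Subtype.ext
      apply Subtype.ext
      apply Subtype.ext
      have hc := (hmemC c.1).mp c.2
      show g * c.1 * (y.1 : G) * (g * c.1)⁻¹ = z
      have : g * c.1 * (y.1 : G) * (g * c.1)⁻¹ = g * (c.1 * (y.1 : G) * c.1⁻¹) * g⁻¹ := by group
      rw [this]
      have : c.1 * (y.1 : G) * c.1⁻¹ = (y.1 : G) := by
        rw [mul_inv_eq_iff_eq_mul]; exact hc
      rw [this, hg']
    · intro a; ext; simp
    · intro c; ext; simp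
  have hsurj := hf
  have := card_eq_mul_of_fibers f p hf
  rw [this]
  rw [Nat.mul_div_cancel _ (Nat.Prime.pos Fact.out)]

theorem card_A (hx : orderOf x = p) : Nat.card {z : zpowers x // z ≠ 1} = p - 1 := by
  classical
  haveI := Fintype.ofFinite (zpowers x)
  rw [Nat.card_eq_fintype_card, Fintype.card_subtype_compl, ← Nat.card_eq_fintype_card,
    card_zpowers_x hx]
  simp

/-- `t * e = p - 1`. -/
theorem card_mul_e (hx : orderOf x = p) (hC : centralizer ({x} : Set G) = zpowers x) :
    Nat.card {C : ConjClasses G // ∃ g ∈ C.carrier, orderOf g = p} * (Nat.card (NN x) / p) = p - 1 := by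
  classical
  rw [← card_A hx]
  let f : {z : zpowers x // z ≠ 1} → {C : ConjClasses G // ∃ g ∈ C.carrier, orderOf g = p} :=
    fun z => ⟨ConjClasses.mk ((z.1 : zpowers x) : G), (z.1 : G), ConjClasses.mem_carrier_mk,
      orderOf_of_mem hx z.1.2 (fun h => z.2 (Subtype.ext h))⟩
  symm
  refine card_eq_mul_of_fibers f _ ?_
  rintro ⟨C, g, hgC, hg⟩
  obtain ⟨h, hh⟩ := exists_conj_mem hx hC hg
  have hne : h * g * h⁻¹ ≠ 1 := by
    intro h1
    have : g = 1 := by
      have h2 : g = h⁻¹ * (h * g * h⁻¹) * h := by group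
      rw [h2, h1]; group
    rw [this, orderOf_one] at hg
    exact one_lt_p.ne hg
  let y : {z : zpowers x // z ≠ 1} := ⟨⟨h * g * h⁻¹, hh⟩, fun h1 => hne (congrArg Subtype.val h1)⟩
  rw [← card_fiber_NN hx hC y]
  refine Nat.card_congr (Equiv.subtypeEquivRight fun z => ?_)
  have hCg : C = ConjClasses.mk g := by
    rw [ConjClasses.mem_carrier_iff_mk_eq] at hgC
    exact hgC.symm
  have hgy : IsConj g ((y.1 : zpowers x) : G) := by
    rw [isConj_iff]; exact ⟨h, rfl⟩
  constructor
  · intro hz
    have h1 : ConjClasses.mk ((z.1 : zpowers x) : G) = C := congrArg Subtype.val hz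
    rw [hCg, ConjClasses.mk_eq_mk_iff_isConj] at h1
    exact hgy.symm.trans h1.symm
  · intro hz
    apply Subtype.ext
    show ConjClasses.mk ((z.1 : zpowers x) : G) = C
    rw [hCg, ConjClasses.mk_eq_mk_iff_isConj]
    exact (hgy.trans hz).symm

/-- Elements of `K` of order prime to `p` avoid the powers of `x`. -/
theorem fpf_of_not_dvd (hx : orderOf x = p) {K : Subgroup G} (hK : ¬ p ∣ Nat.card K) {k : G}
    (hkK : k ∈ K) (hkx : k ∈ zpowers x) : k = 1 := by
  by_contra hk1
  apply hK
  have h1 := orderOf_of_mem hx hkx hk1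
  rw [← h1, ← Subgroup.orderOf_mk k hkK]
  exact orderOf_dvd_natCard _

/-- If a normal subgroup `K` meets the centralizer of `x` trivially, then each of its elements
is a commutator with `x`. -/
theorem exists_comm_eq (K : Subgroup G) [K.Normal]
    (hK : ∀ k ∈ K, k ∈ centralizer ({x} : Set G) → k = 1) (k : G) (hk : k ∈ K) :
    ∃ s ∈ K, k = s * x * s⁻¹ * x⁻¹ := by
  classical
  let f : K → K := fun s => ⟨s.1 * x * s.1⁻¹ * x⁻¹, by
    have h1 := (inferInstance : K.Normal).conj_mem s.1⁻¹ (K.inv_mem s.2) x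
    have h2 : s.1 * (x * s.1⁻¹ * x⁻¹) ∈ K := K.mul_mem s.2 h1
    have h3 : s.1 * x * s.1⁻¹ * x⁻¹ = s.1 * (x * s.1⁻¹ * x⁻¹) := by group
    rw [h3]; exact h2⟩
  have hinj : Function.Injective f := by
    intro a b hab
    have h1 : a.1 * x * a.1⁻¹ * x⁻¹ = b.1 * x * b.1⁻¹ * x⁻¹ := congrArg Subtype.val hab
    have h2 : a.1 * x * a.1⁻¹ = b.1 * x * b.1⁻¹ := mul_right_cancel h1
    have h3 : b.1⁻¹ * a.1 ∈ centralizer ({x} : Set G) := by
      rw [mem_centralizer_singleton_iff]
      have : b.1⁻¹ * (a.1 * x * a.1⁻¹) * a.1 = b.1⁻¹ * (b.1 * x * b.1⁻¹) * a.1 := by rw [h2]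
      have e1 : b.1⁻¹ * (a.1 * x * a.1⁻¹) * a.1 = b.1⁻¹ * a.1 * x := by group
      have e2 : b.1⁻¹ * (b.1 * x * b.1⁻¹) * a.1 = x * (b.1⁻¹ * a.1) := by group
      rw [e1, e2] at this
      exact this
    have h4 := hK _ (K.mul_mem (K.inv_mem b.2) a.2) h3
    apply Subtype.ext
    have : a.1 = b.1 * (b.1⁻¹ * a.1) := by group
    rw [this, h4, mul_one]
  have hsurj : Function.Surjective f := Finite.surjective_of_injective hinj
  obtain ⟨s, hs⟩ := hsurj ⟨k, hk⟩
  refine ⟨s.1, s.2, ?_⟩
  exact (congrArg Subtype.val hs).symm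

open scoped commutatorElement in
theorem le_commutator_of_fpf {K M : Subgroup G} [K.Normal] (hxM : x ∈ M) (hKM : K ≤ M)
    (hK : ∀ k ∈ K, k ∈ centralizer ({x} : Set G) → k = 1) :
    K ≤ ⁅M, M⁆ := by
  intro k hk
  obtain ⟨s, hs, rfl⟩ := exists_comm_eq K hK k hk
  exact Subgroup.commutator_mem_commutator (hKM hs) hxM

theorem x_mem_of_dvd (hx : orderOf x = p) (hC : centralizer ({x} : Set G) = zpowers x)
    (S : Subgroup G) [S.Normal] (hS : p ∣ Nat.card S) : x ∈ S := by
  classical
  obtain ⟨y, hy⟩ := exists_prime_orderOf_dvd_card' p hS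
  have hyo : orderOf (y : G) = p := by
    rw [Subgroup.orderOf_coe]
    exact hy
  obtain ⟨h, hh⟩ := exists_conj_mem hx hC hyo
  have h1 : h * (y : G) * h⁻¹ ∈ S := (inferInstance : S.Normal).conj_mem _ y.2 h
  have hne : h * (y : G) * h⁻¹ ≠ 1 := by
    intro h2
    have h3 : (y : G) = 1 := by
      have h4 : (y : G) = h⁻¹ * (h * (y : G) * h⁻¹) * h := by group
      rw [h4, h2]; group
    rw [h3, orderOf_one] at hyo
    exact one_lt_p.ne hyo
  have h5 := zpowers_eq_of_mem hx hh hne
  have h6 : zpowers (h * (y : G) * h⁻¹) ≤ S := zpowers_le.mpr h1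
  rw [h5] at h6
  exact h6 (mem_zpowers x)

theorem dvd_card_commutator (hx : orderOf x = p) (hC : centralizer ({x} : Set G) = zpowers x)
    (he : Nat.card (NN x) / p ≠ 1) : p ∣ Nat.card (commutator G) := by
  classical
  -- `N ≠ P`, hence `x` is moved
  have hneq : ∃ n ∈ NN x, n ∉ zpowers x := by
    by_contra hcon
    push_neg at hcon
    have h1 : NN x ≤ zpowers x := hcon
    have h2 : Nat.card (NN x) = p := by
      rw [← card_zpowers_x hx]
      exact congrArg (fun H : Subgroup G => Nat.card H) (le_antisymm h1 (zpowers_le_NN x))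
    apply he
    rw [h2]
    exact Nat.div_self (Nat.Prime.pos Fact.out)
  obtain ⟨n, hn, hnx⟩ := hneq
  by_contra hnd
  apply hnx
  rw [← hC, mem_centralizer_singleton_iff]
  have h1 : n * x * n⁻¹ * x⁻¹ ∈ commutator G := by
    rw [_root_.commutator_def]
    exact Subgroup.commutator_mem_commutator (mem_top _) (mem_top _)
  have h2 : n * x * n⁻¹ ∈ zpowers x := (mem_normalizer_iff.mp hn x).mp (mem_zpowers x)
  have h3 : n * x * n⁻¹ * x⁻¹ ∈ zpowers x := mul_mem h2 (inv_mem (mem_zpowers x))
  have h4 := fpf_of_not_dvd hx hnd h1 h3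
  have h5 : n * x * n⁻¹ = x := by
    rwa [mul_inv_eq_one] at h4
  rw [mul_inv_eq_iff_eq_mul] at h5
  exact h5

theorem index_dvd_e (hx : orderOf x = p) (hC : centralizer ({x} : Set G) = zpowers x)
    (he : Nat.card (NN x) / p ≠ 1) : (commutator G).index ∣ Nat.card (NN x) / p := by
  classical
  obtain ⟨P, hP⟩ := Cfsg.Agent.S4496.exists_sylow_eq hx hC
  have hdvd := dvd_card_commutator hx hC he
  -- `P ≤ G'`
  have hPL : (P : Subgroup G) ≤ commutator G := by
    rw [hP, zpowers_le]
    exact x_mem_of_dvd hx hC _ hdvd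
  have hF := P.normalizer_sup_eq_top' hPL
  have hF' : NN x ⊔ commutator G = ⊤ := by
    have : NN x = normalizer ((P : Subgroup G) : Set G) := by rw [hP]
    rw [this]; exact hF
  have hidx : (commutator G).index = (commutator G).relIndex (NN x) := by
    have h1 := Subgroup.relIndex_sup_left (NN x) (commutator G)
    rw [sup_comm, hF', relIndex_top_right] at h1
    exact h1
  rw [hidx]
  have h2 : (zpowers x).relIndex (NN x) = Nat.card (NN x) / p := by
    have h3 := Subgroup.relIndex_mul_index (zpowers_le_NN x)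
    have h4 : (zpowers x).relIndex (NN x) * Nat.card (zpowers x) = Nat.card (NN x) := by
      rw [mul_comm]
      have := Subgroup.card_mul_index ((zpowers x).subgroupOf (NN x))
      rw [card_subgroupOf_eq, inf_eq_left.mpr (zpowers_le_NN x)] at this
      exact this
    rw [card_zpowers_x hx] at h4
    rw [← h4, Nat.mul_div_cancel _ (Nat.Prime.pos Fact.out)]
  rw [← h2]
  exact Subgroup.relIndex_dvd_of_le_left (NN x) (by rw [← hP]; exact hPL)

theorem NN_eq (hx : orderOf x = p) (he : Nat.card (NN x) / p = 1) : NN x = zpowers x := by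
  symm
  apply Subgroup.eq_of_le_of_card_ge (zpowers_le_NN x)
  have := card_normalizer_eq hx
  rw [he, one_mul] at this
  rw [← this, card_zpowers_x hx]

/-- The case `e = 1`: the commutator subgroup is the normal complement of `⟨x⟩`. -/
theorem exists_complement (hx : orderOf x = p) (hC : centralizer ({x} : Set G) = zpowers x)
    (he : Nat.card (NN x) / p = 1) :
    commutator G ⊓ zpowers x = ⊥ ∧ commutator G ⊔ zpowers x = ⊤ ∧ (commutator G).index = p ∧
      IsComplement' (commutator G) (zpowers x) := by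
  classical
  obtain ⟨P, hP⟩ := Cfsg.Agent.S4496.exists_sylow_eq hx hC
  have hN := NN_eq hx he
  have hle : normalizer ((P : Subgroup G) : Set G) ≤ centralizer ((P : Subgroup G) : Set G) := by
    rw [hP]
    show NN x ≤ _
    rw [hN]
    intro g hg
    rw [mem_centralizer_iff]
    intro h hh
    obtain ⟨a, rfl⟩ := mem_zpowers_iff.mp hg
    obtain ⟨b, rfl⟩ := mem_zpowers_iff.mp hh
    rw [← zpow_add, ← zpow_add, add_comm]
  have hcompl := MonoidHom.ker_transferSylow_isComplement' P hle
  set K := (MonoidHom.transferSylow P hle).ker with hK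
  haveI hKn : K.Normal := MonoidHom.normal_ker _
  have hPcard : Nat.card (P : Subgroup G) = p := by rw [hP, card_zpowers_x hx]
  have hKindex : K.index = p := by
    rw [← hPcard]
    exact hcompl.symm.index_eq_card
  have hnd : ¬ p ∣ Nat.card K := by
    intro hdvd
    have h1 : x ∈ K := x_mem_of_dvd hx hC K hdvd
    have h2 : x ∈ (P : Subgroup G) := by rw [hP]; exact mem_zpowers x
    have h3 := hcompl.disjoint.le_bot ⟨h1, h2⟩
    have h4 : x = 1 := by simpa using h3
    rw [h4, orderOf_one] at hx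
    exact one_lt_p.ne hx
  have hKle : K ≤ commutator G := by
    have h := le_commutator_of_fpf (x := x) (K := K) (M := ⊤) (mem_top x) le_top (by
      intro k hk hkc
      rw [hC] at hkc
      exact fpf_of_not_dvd hx hnd hk hkc)
    exact h
  have hGK : commutator G ≤ K := by
    -- quotient has prime order
    have h1 : Nat.card (G ⧸ K) = p := by
      rw [← Subgroup.index_eq_card, hKindex]
    haveI : Fact (Nat.card (G ⧸ K)).Prime := ⟨by rw [h1]; exact Fact.out⟩
    haveI : IsCyclic (G ⧸ K) := isCyclic_of_prime_card rfl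
    letI : CommGroup (G ⧸ K) := IsCyclic.commGroup
    rw [_root_.commutator_def, Subgroup.commutator_le]
    intro a _ b _
    rw [← QuotientGroup.eq_one_iff]
    have h2 : ((⁅a, b⁆ : G) : G ⧸ K) = ⁅(a : G ⧸ K), (b : G ⧸ K)⁆ := rfl
    rw [h2, commutatorElement_eq_one_iff_mul_comm]
    exact mul_comm _ _
  have hKeq : K = commutator G := le_antisymm hKle hGK
  rw [← hKeq, ← hP]
  refine ⟨hcompl.disjoint.eq_bot, hcompl.sup_eq_top, hKindex, hcompl⟩

theorem index_eq (hx : orderOf x = p) (hC : centralizer ({x} : Set G) = zpowers x)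
    (he : Nat.card (NN x) / p = 1) : (commutator G).index = p :=
  (exists_complement hx hC he).2.2.1

end


/-- Let the finite group G contain an element x of prime order p with C_G(x) = ⟨x⟩, and let t be the number of conjugacy classes of elements of order p. If t ≠ p − 1 then the commutator subgroup has index at most (p − 1)/t; if t = p − 1 it has index exactly p. -/
theorem result {G : Type*} [Group G] [Finite G] (p : ℕ) (hp : p.Prime) (x : G) (hx : orderOf x = p) (hC : Subgroup.centralizer ({x} : Set G) = Subgroup.zpowers x) (t : ℕ) (ht : Nat.card {C : ConjClasses G // ∃ g ∈ C.carrier, orderOf g = p} = t) : (t ≠ p - 1 → (commutator G).index * t ≤ p - 1) ∧ (t = p - 1 → (commutator G).index = p) := by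
  classical
  haveI : Fact p.Prime := ⟨hp⟩
  have hte := card_mul_e hx hC
  have hP1 := one_lt_p (p := p)
  have hNcard := card_normalizer_eq hx
  refine ⟨?_, ?_⟩
  · intro htn
    rw [ht] at hte
    have he : Nat.card (normalizer ((zpowers x : Subgroup G) : Set G)) / p ≠ 1 := by
      intro h1
      rw [h1, mul_one] at hte
      exact htn hte
    have hdvd := index_dvd_e hx hC he
    have hpos : 0 < Nat.card (normalizer ((zpowers x : Subgroup G) : Set G)) / p := by
      rcases Nat.eq_zero_or_pos (Nat.card (normalizer ((zpowers x : Subgroup G) : Set G)) / p) with h | h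
      · rw [h, mul_zero] at hte
        omega
      · exact h
    have hle := Nat.le_of_dvd hpos hdvd
    calc (commutator G).index * t ≤ (Nat.card (normalizer ((zpowers x : Subgroup G) : Set G)) / p) * t :=
          Nat.mul_le_mul_right _ hle
      _ = p - 1 := by rw [mul_comm]; exact hte
  · intro htp
    rw [ht, htp] at hte
    have he : Nat.card (normalizer ((zpowers x : Subgroup G) : Set G)) / p = 1 := by
      have h1 : 0 < p - 1 := by omega
      exact Nat.eq_of_mul_eq_mul_left h1 (by rw [hte, mul_one])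
    exact index_eq hx hC he

end Cfsg.Agent.S4495
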