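import Cfsg.Statements.S4497
import Cfsg.Agent.S4495
import Cfsg.Agent.Lib.SolvCore
import Cfsg.Agent.Lib.FitCore
import Cfsg.Agent.Lib.PComps

set_option autoImplicit false
set_option linter.all false
open Cfsg

namespace Cfsg.Agent.S4497


open Subgroup Cfsg.Agent.S4495 Cfsg.Agent.Lib.SylowCount
open scoped commutatorElement

section
variable {G : Type*} [Group G] [Finite G] {p : ℕ} [hp : Fact p.Prime] {x : G}

theorem restrict_order (M : Subgroup G) (hxM : x ∈ M) (hx : orderOf x = p) :
    orderOf (⟨x, hxM⟩ : M) = p := by
  rw [Subgroup.orderOf_mk, hx]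

theorem restrict_centralizer (M : Subgroup G) (hxM : x ∈ M)
    (hC : centralizer ({x} : Set G) = zpowers x) :
    centralizer ({(⟨x, hxM⟩ : M)} : Set M) = zpowers (⟨x, hxM⟩ : M) := by
  ext a
  rw [mem_centralizer_singleton_iff]
  constructor
  · intro h
    have h1 : (a : G) ∈ centralizer ({x} : Set G) := by
      rw [mem_centralizer_singleton_iff]
      exact congrArg Subtype.val h
    rw [hC] at h1
    obtain ⟨k, hk⟩ := mem_zpowers_iff.mp h1
    rw [mem_zpowers_iff]
    refine ⟨k, Subtype.ext ?_⟩
    simpa using hk
  · intro h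
    obtain ⟨k, rfl⟩ := mem_zpowers_iff.mp h
    rw [← zpow_add_one, ← zpow_one_add, add_comm]

theorem subnormal_of_normal_normal (L : Subgroup G) [hL : L.Normal] (T : Subgroup L) [hT : T.Normal] :
    (T.map L.subtype).IsSubnormal := by
  refine Subgroup.IsSubnormal.step _ L (Subgroup.map_subtype_le _) hL.isSubnormal ?_
  have : (T.map L.subtype).subgroupOf L = T := by
    rw [Subgroup.subgroupOf, Subgroup.comap_map_eq_self_of_injective L.subtype_injective]
  rw [this]
  exact hT

/-- The quotient `G'/O_{p'}(G)` is simple in the case `e ≠ 1`. -/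
theorem simple_quot (hx : orderOf x = p) (hC : centralizer ({x} : Set G) = zpowers x)
    (he : Nat.card (NN x) / p ≠ 1)
    (h : ((pPrimeCore p G).subgroupOf (commutator G)).Normal) :
    IsSimpleGroup (↥(commutator G) ⧸ (pPrimeCore p G).subgroupOf (commutator G)) := by
  classical
  have hpp : p.Prime := Fact.out
  haveI hSn : (pPrimeCore p G).Normal := Cfsg.Agent.Lib.FitCore.pPrimeCore_normal p
  have hSnd : ¬ p ∣ Nat.card (pPrimeCore p G) := Cfsg.Agent.Lib.FitCore.not_dvd_card_pPrimeCore p hpp
  have hdvd := dvd_card_commutator hx hC he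
  have hxL : x ∈ commutator G := x_mem_of_dvd hx hC _ hdvd
  set L := commutator G with hL
  haveI hLn : L.Normal := by rw [hL]; infer_instance
  set SL := (pPrimeCore p G).subgroupOf L with hSL
  let xL : L := ⟨x, hxL⟩
  have hxLo : orderOf xL = p := restrict_order L hxL hx
  have hxLC := restrict_centralizer L hxL hC
  have hSLnd : ¬ p ∣ Nat.card SL := by
    intro h1
    apply hSnd
    rw [hSL, card_subgroupOf_eq] at h1
    exact h1.trans (Subgroup.card_dvd_of_le inf_le_left)
  have hxS : x ∉ pPrimeCore p G := by
    intro hm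
    apply hSnd
    have h1 := Subgroup.card_dvd_of_le (zpowers_le.mpr hm)
    rwa [card_zpowers_x hx] at h1
  have hnontriv : Nontrivial (L ⧸ SL) := by
    refine ⟨⟨(xL : L ⧸ SL), 1, ?_⟩⟩
    intro h1
    rw [QuotientGroup.eq_one_iff] at h1
    exact hxS h1
  by_cases hD : p ∣ Nat.card (⁅L, L⁆ : Subgroup G)
  · -- `L` perfect
    haveI : (⁅L, L⁆ : Subgroup G).Normal := Subgroup.commutator_normal L L
    have hLD : L ≤ ⁅L, L⁆ := Cfsg.Agent.S4496.part_a hx hC _ hD
    have hperf : commutator L = ⊤ := by
      apply Subgroup.map_injective L.subtype_injective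
      rw [Subgroup.map_subtype_commutator, ← MonoidHom.range_eq_map, L.range_subtype]
      exact le_antisymm (Subgroup.commutator_le_left _ _) hLD
    refine ⟨fun T hT => ?_⟩
    set That := T.comap (QuotientGroup.mk' SL) with hThat
    haveI hThatN : That.Normal := Subgroup.Normal.comap hT _
    by_cases hTd : p ∣ Nat.card That
    · right
      have h1 : commutator L ≤ That := Cfsg.Agent.S4496.part_a hxLo hxLC That hTd
      rw [hperf] at h1
      rw [eq_top_iff]
      intro a _
      induction a using QuotientGroup.induction_on with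
      | H a => exact h1 (mem_top a)
    · left
      rw [eq_bot_iff]
      intro a ha
      induction a using QuotientGroup.induction_on with
      | H a =>
        rw [Subgroup.mem_bot, QuotientGroup.eq_one_iff]
        show (a : G) ∈ pPrimeCore p G
        have hsub : (That.map L.subtype).IsSubnormal := by
          have h1 : (That.map L.subtype) ≤ L := Subgroup.map_subtype_le _
          exact Cfsg.Agent.S4497.subnormal_of_normal_normal L That
        have hco : (Nat.card (That.map L.subtype)).Coprime p := by
          rw [Subgroup.card_map_of_injective L.subtype_injective]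
          exact ((Nat.Prime.coprime_iff_not_dvd hpp).mpr hTd).symm
        have := Cfsg.Agent.Lib.PComps.le_pPrimeCore_of_subnormal hsub hco
        exact this ⟨a, ha, rfl⟩
  · -- `L / SL` abelian
    have hDle : (⁅L, L⁆ : Subgroup G) ≤ pPrimeCore p G :=
      Cfsg.Agent.Lib.SolvCore.le_pPrimeCore _ (Subgroup.commutator_normal L L) hD
    have hb := (Cfsg.Agent.S4496.part_b hxLo hxLC SL hSLnd).2.2
    have hab : ∀ a b : L ⧸ SL, a * b = b * a := by
      intro a b
      induction a using QuotientGroup.induction_on with
      | H a =>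
        induction b using QuotientGroup.induction_on with
        | H b =>
          rw [← QuotientGroup.mk_mul, ← QuotientGroup.mk_mul, QuotientGroup.eq]
          show ((a * b)⁻¹ * (b * a) : L).1 ∈ pPrimeCore p G
          apply hDle
          have : (((a * b)⁻¹ * (b * a) : L) : G) = ⁅(b⁻¹ : L).1, (a⁻¹ : L).1⁆ := by
            simp [commutatorElement_def]
            group
          rw [this]
          exact Subgroup.commutator_mem_commutator (b⁻¹).2 (a⁻¹).2
    have htop : zpowers (xL : L ⧸ SL) = ⊤ := by
      rw [← hb.2, eq_top_iff]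
      intro a _
      rw [mem_centralizer_singleton_iff]
      exact hab _ _
    have hcard : Nat.card (L ⧸ SL) = p := by
      have h2 := Nat.card_zpowers (xL : L ⧸ SL)
      rw [htop, hb.1, Subgroup.card_top] at h2
      exact h2
    haveI : Fact (Nat.card (L ⧸ SL)).Prime := ⟨by rw [hcard]; exact hpp⟩
    exact isSimpleGroup_of_prime_card rfl

end


/-- Let the finite group G contain an element x of prime order p with C_G(x) = ⟨x⟩, let t be the number of conjugacy classes of elements of order p, and let S* = O_{p′}(G) be the largest normal subgroup of order prime to p. Then S* ≤ G′; if t ≠ p − 1 the quotient G′/S* is simple (in particular non-trivial); if t = p − 1 then G′ = S*. -/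
theorem result {G : Type*} [Group G] [Finite G] (p : ℕ) (hp : p.Prime) (x : G) (hx : orderOf x = p) (hC : Subgroup.centralizer ({x} : Set G) = Subgroup.zpowers x) (t : ℕ) (ht : Nat.card {C : ConjClasses G // ∃ g ∈ C.carrier, orderOf g = p} = t) : Cfsg.pPrimeCore p G ≤ commutator G ∧ (t ≠ p - 1 → ∀ h : ((Cfsg.pPrimeCore p G).subgroupOf (commutator G)).Normal, IsSimpleGroup (↥(commutator G) ⧸ (Cfsg.pPrimeCore p G).subgroupOf (commutator G))) ∧ (t = p - 1 → commutator G = Cfsg.pPrimeCore p G) := by
  classical
  haveI : Fact p.Prime := ⟨hp⟩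
  have hte := card_mul_e hx hC
  have hP1 := one_lt_p (p := p)
  haveI hSn : (pPrimeCore p G).Normal := Cfsg.Agent.Lib.FitCore.pPrimeCore_normal p
  have hSnd : ¬ p ∣ Nat.card (pPrimeCore p G) := Cfsg.Agent.Lib.FitCore.not_dvd_card_pPrimeCore p hp
  have hle : pPrimeCore p G ≤ commutator G := by
    have h := le_commutator_of_fpf (x := x) (K := pPrimeCore p G) (M := ⊤) (mem_top x) le_top (by
      intro k hk hkc
      rw [hC] at hkc
      exact fpf_of_not_dvd hx hSnd hk hkc)
    exact h
  refine ⟨hle, ?_, ?_⟩
  · intro htn h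
    rw [ht] at hte
    have he : Nat.card (NN x) / p ≠ 1 := by
      intro h1
      rw [h1, mul_one] at hte
      exact htn hte
    exact simple_quot hx hC he h
  · intro htp
    rw [ht, htp] at hte
    have he : Nat.card (NN x) / p = 1 := by
      have h1 : 0 < p - 1 := by omega
      exact Nat.eq_of_mul_eq_mul_left h1 (by rw [hte, mul_one])
    obtain ⟨h1, h2, h3, h4⟩ := exists_complement hx hC he
    apply le_antisymm _ hle
    apply Cfsg.Agent.Lib.SolvCore.le_pPrimeCore _ inferInstance
    intro hdvd
    have h5 : x ∈ commutator G := x_mem_of_dvd hx hC _ hdvd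
    have h6 : x ∈ commutator G ⊓ zpowers x := ⟨h5, mem_zpowers x⟩
    rw [h1] at h6
    have h7 : x = 1 := by simpa using h6
    rw [h7, orderOf_one] at hx
    exact hP1.ne hx

end Cfsg.Agent.S4497
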