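import Cfsg.Statements.S4508
import Cfsg.Agent.S4495
import Cfsg.Agent.Lib.H7Char
import Cfsg.Agent.Lib.CharDecomp
import Cfsg.Agent.Lib.CharGen
import Cfsg.Agent.Lib.CharBase0
import Cfsg.Agent.Lib.CharIso
import Cfsg.Agent.Lib.CharCliff

set_option autoImplicit false
set_option linter.all false
open Cfsg

namespace Cfsg.Agent.S4508


open Subgroup Cfsg.Agent.S4495 Cfsg.Agent.Lib.SylowCount Cfsg.Agent.Lib.CharOps Cfsg.Agent.Lib.CharIrr
  Cfsg.Agent.Lib.CharAb Cfsg.Agent.Lib.H7Char Cfsg.Agent.Lib.CharCore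
open scoped commutatorElement ComplexConjugate

universe u

section
variable {G : Type u} [Group G] [Finite G] {p : ℕ} [hp : Fact p.Prime] {x : G}

theorem relIndex_NN (hx : orderOf x = p) : (zpowers x).relIndex (NN x) = Nat.card (NN x) / p := by
  have h4 : (zpowers x).relIndex (NN x) * Nat.card (zpowers x) = Nat.card (NN x) := by
    rw [mul_comm]
    have := Subgroup.card_mul_index ((zpowers x).subgroupOf (NN x))
    rw [card_subgroupOf_eq, inf_eq_left.mpr (zpowers_le_NN x)] at this
    exact this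
  rw [card_zpowers_x hx] at h4
  rw [← h4, Nat.mul_div_cancel _ (Nat.Prime.pos Fact.out)]

theorem centralizer_zpowers (hC : centralizer ({x} : Set G) = zpowers x) :
    centralizer ((zpowers x : Subgroup G) : Set G) = zpowers x := by
  apply le_antisymm
  · intro g hg
    rw [← hC, mem_centralizer_singleton_iff]
    exact ((Subgroup.mem_centralizer_iff.mp hg) x (mem_zpowers x)).symm
  · intro g hg
    rw [Subgroup.mem_centralizer_iff]
    intro h hh
    obtain ⟨a, rfl⟩ := mem_zpowers_iff.mp hg
    obtain ⟨b, rfl⟩ := mem_zpowers_iff.mp hh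
    rw [← zpow_add, ← zpow_add, add_comm]

/-- The cyclic quotient of the normalizer produces an element of order `e`. -/
theorem exists_y (hx : orderOf x = p) (hC : centralizer ({x} : Set G) = zpowers x)
    (hcop : (Nat.card (NN x) / p).Coprime p) :
    ∃ y ∈ NN x, orderOf y = Nat.card (NN x) / p := by
  classical
  have hcard : Nat.card (zpowers x) = p := card_zpowers_x hx
  let φ := (zpowers x).normalizerMonoidHom
  have hker : ∀ n : NN x, φ n = 1 → (n : G) ∈ zpowers x := by
    intro n hn
    have h1 : n ∈ φ.ker := hn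
    rw [Subgroup.normalizerMonoidHom_ker] at h1
    have h2 : (n : G) ∈ centralizer ((zpowers x : Subgroup G) : Set G) := h1
    rwa [centralizer_zpowers hC] at h2
  haveI hcyc : IsCyclic (MulAut (zpowers x)) := by
    have hp' : IsCyclic (ZMod (Nat.card (zpowers x)))ˣ := by
      rw [hcard]
      infer_instance
    exact isCyclic_of_surjective _ (IsCyclic.mulAutMulEquiv (zpowers x)).symm.surjective
  haveI : IsCyclic φ.range := inferInstance
  obtain ⟨⟨_, y₀, rfl⟩, hgen⟩ := IsCyclic.exists_generator (α := φ.range)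
  have hord : orderOf (φ y₀) = Nat.card (NN x) / p := by
    have h1 := orderOf_eq_card_of_forall_mem_zpowers hgen
    have h2 : orderOf (φ y₀) = Nat.card φ.range := by
      rw [← h1]
      exact Subgroup.orderOf_coe (⟨φ y₀, y₀, rfl⟩ : φ.range)
    rw [h2, ← Subgroup.index_ker φ, Subgroup.normalizerMonoidHom_ker, centralizer_zpowers hC]
    exact relIndex_NN hx
  refine ⟨((y₀ ^ p : NN x) : G), (y₀ ^ p).2, ?_⟩
  rw [Subgroup.orderOf_coe]
  have h1 : orderOf (φ (y₀ ^ p)) = Nat.card (NN x) / p := by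
    rw [map_pow, Nat.Coprime.orderOf_pow (by rw [hord]; exact hcop), hord]
  apply Nat.dvd_antisymm
  · apply orderOf_dvd_of_pow_eq_one
    rw [← pow_mul, mul_comm, pow_mul]
    have h2 : φ (y₀ ^ (Nat.card (NN x) / p)) = 1 := by
      rw [map_pow, ← hord, pow_orderOf_eq_one]
    have h3 := hker _ h2
    have h4 : ((⟨_, h3⟩ : zpowers x)) ^ Nat.card (zpowers x) = 1 := pow_card_eq_one'
    rw [hcard] at h4
    apply Subtype.ext
    have h5 := congrArg Subtype.val h4
    simpa using h5
  · rw [← h1]
    exact orderOf_map_dvd φ _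

/-- Inside `N`, the elements outside `⟨x⟩` act fixed-point-freely: a coset `uP` is one class. -/
theorem coset_conj (hx : orderOf x = p) (hC : centralizer ({x} : Set G) = zpowers x)
    {u : G} (huN : u ∈ NN x) (huP : u ∉ zpowers x) {z : G} (hz : z ∈ zpowers x) :
    ∃ w : G, w * u * w⁻¹ = u * z := by
  classical
  have hu1 : u⁻¹ ∈ NN x := inv_mem huN
  have hmem : ∀ w : zpowers x, u⁻¹ * (w : G) * u ∈ zpowers x := by
    intro w
    have h := (mem_normalizer_iff.mp hu1 (w : G)).mp w.2
    simpa using h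
  let f : zpowers x → zpowers x := fun w => ⟨u⁻¹ * (w : G) * u * (w : G)⁻¹,
    mul_mem (hmem w) (inv_mem w.2)⟩
  have hcomm : ∀ a b : zpowers x, (a : G) * b = b * a := by
    rintro ⟨a, ha⟩ ⟨b, hb⟩
    obtain ⟨k, rfl⟩ := mem_zpowers_iff.mp ha
    obtain ⟨l, rfl⟩ := mem_zpowers_iff.mp hb
    show x ^ k * x ^ l = x ^ l * x ^ k
    rw [← zpow_add, ← zpow_add, add_comm]
  have hinj : Function.Injective f := by
    intro a b hab
    have h1 : u⁻¹ * (a : G) * u * (a : G)⁻¹ = u⁻¹ * (b : G) * u * (b : G)⁻¹ := congrArg Subtype.val hab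
    by_contra hne
    set v : G := (b : G)⁻¹ * a with hv
    have hvP : v ∈ zpowers x := mul_mem (inv_mem b.2) a.2
    have hv1 : v ≠ 1 := by
      intro h
      apply hne
      apply Subtype.ext
      rw [hv, inv_mul_eq_one] at h
      exact h.symm
    have hcom : u⁻¹ * v * u = v := by
      have hA := hcomm ⟨u⁻¹ * (b : G) * u, hmem b⟩ ⟨(b : G)⁻¹, inv_mem b.2⟩
      have hB := hcomm ⟨u⁻¹ * (a : G) * u, hmem a⟩ ⟨(a : G)⁻¹, inv_mem a.2⟩
      simp only at hA hB
      have e1 : u⁻¹ * v * u = (u⁻¹ * (b : G) * u)⁻¹ * (u⁻¹ * (a : G) * u) := by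
        rw [hv]; group
      rw [e1]
      have e2 : u⁻¹ * (a : G) * u = (u⁻¹ * (b : G) * u * (b : G)⁻¹) * a := by
        rw [← h1]; group
      rw [e2, hv]
      group
    have hcen := centralizer_of_mem hx hC hvP hv1
    apply huP
    rw [← hcen, mem_centralizer_singleton_iff]
    have : u⁻¹ * (v * u) = v := by rw [← mul_assoc]; exact hcom
    rw [inv_mul_eq_iff_eq_mul] at this
    exact this.symm
  have hsurj := Finite.surjective_of_injective hinj
  obtain ⟨w, hw⟩ := hsurj ⟨z, hz⟩
  refine ⟨w, ?_⟩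
  have h1 : u⁻¹ * (w : G) * u * (w : G)⁻¹ = z := congrArg Subtype.val hw
  rw [← h1]
  group

theorem prod_nth_roots (e : ℕ) (he : 0 < e) :
    ∏ a ∈ Polynomial.nthRootsFinset e (1 : ℂ), a = (-1) ^ (e + 1) := by
  classical
  have hprim := Complex.isPrimitiveRoot_exp e he.ne'
  have h := Polynomial.X_pow_sub_one_eq_prod he hprim
  have h2 := congrArg (Polynomial.eval 0) h
  simp only [Polynomial.eval_sub, Polynomial.eval_pow, Polynomial.eval_X, Polynomial.eval_one,
    Polynomial.eval_prod, Polynomial.eval_C] at h2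
  rw [zero_pow he.ne', zero_sub] at h2
  simp only [zero_sub] at h2
  rw [Finset.prod_neg, hprim.card_nthRootsFinset] at h2
  have h3 : (-1 : ℂ) ^ e * (-1) ^ e = 1 := by rw [← mul_pow]; simp
  calc ∏ a ∈ Polynomial.nthRootsFinset e (1 : ℂ), a
      = ((-1 : ℂ) ^ e * (-1) ^ e) * ∏ a ∈ Polynomial.nthRootsFinset e (1 : ℂ), a := by rw [h3, one_mul]
    _ = (-1) ^ e * ((-1) ^ e * ∏ a ∈ Polynomial.nthRootsFinset e (1 : ℂ), a) := by ring
    _ = (-1) ^ (e + 1) := by rw [← h2, pow_succ]

theorem geom_eq {ζ : ℂ} {e : ℕ} (hζ : ζ ^ e = 1) :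
    ∑ k ∈ Finset.range e, ζ ^ k = if ζ = 1 then (e : ℂ) else 0 := by
  split_ifs with h
  · subst h; simp
  · have h1 : ζ - 1 ≠ 0 := sub_ne_zero.mpr h
    have h2 := geom_sum_mul ζ e
    rw [hζ, sub_self] at h2
    exact (mul_eq_zero.mp h2).resolve_right h1

theorem det_of_regular {V : Type*} [AddCommGroup V] [Module ℂ V] [FiniteDimensional ℂ V]
    (T : Module.End ℂ V) (e t : ℕ) (he : 0 < e) (hT : T ^ e = 1)
    (htr : ∀ k, 0 < k → k < e → LinearMap.trace ℂ V (T ^ k) = 0) (hdim : Module.finrank ℂ V = t * e) :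
    LinearMap.det T = ((-1) ^ (e + 1)) ^ t := by
  classical
  obtain ⟨n, b, μ, h1, h2⟩ := Cfsg.Agent.Lib.CharBase0.exists_eigenbasis_of_pow_eq_one T e he hT
  -- diagonal form
  have hpow : ∀ (k : ℕ) i, (T ^ k) (b i) = (μ i ^ k) • b i := by
    intro k i
    induction k with
    | zero => simp
    | succ k ih =>
      rw [pow_succ, Module.End.mul_apply, h1, map_smul, ih, smul_smul, pow_succ, mul_comm]
  have htrk : ∀ k, LinearMap.trace ℂ V (T ^ k) = ∑ i, μ i ^ k := fun k =>
    Cfsg.Agent.Lib.CharBase0.trace_eq_sum_of_eigenbasis _ b _ (hpow k)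
  have hdet : LinearMap.det T = ∏ i, μ i := by
    rw [← LinearMap.det_toMatrix b T]
    have : LinearMap.toMatrix b b T = Matrix.diagonal μ := by
      ext i j
      rw [LinearMap.toMatrix_apply, h1, map_smul, b.repr_self]
      by_cases hij : i = j
      · subst hij; simp
      · simp [hij]
    rw [this, Matrix.det_diagonal]
  -- multiplicities
  have hmult : ∀ a : ℂ, a ^ e = 1 → (Finset.univ.filter fun i => μ i = a).card = t := by
    intro a ha
    have ha0 : a ≠ 0 := by
      rintro rfl
      rw [zero_pow he.ne'] at ha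
      exact zero_ne_one ha
    have hS : ∑ k ∈ Finset.range e, a⁻¹ ^ k * ∑ i, μ i ^ k = (t * e : ℂ) := by
      rw [Finset.sum_eq_single_of_mem 0 (Finset.mem_range.mpr he)]
      · rw [pow_zero, one_mul, ← htrk, pow_zero]
        rw [LinearMap.trace_one]
        rw [hdim]; push_cast; ring
      · intro k hk hk0
        rw [← htrk, htr k (Nat.pos_of_ne_zero hk0) (Finset.mem_range.mp hk), mul_zero]
    have hS2 : ∑ k ∈ Finset.range e, a⁻¹ ^ k * ∑ i, μ i ^ k = ∑ i, if μ i = a then (e : ℂ) else 0 := by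
      simp_rw [Finset.mul_sum]
      rw [Finset.sum_comm]
      refine Finset.sum_congr rfl fun i _ => ?_
      have h3 : ∀ k, a⁻¹ ^ k * μ i ^ k = (a⁻¹ * μ i) ^ k := fun k => (mul_pow _ _ _).symm
      simp_rw [h3]
      have h4 : (a⁻¹ * μ i) ^ e = 1 := by rw [mul_pow, inv_pow, ha, h2 i]; simp
      rw [geom_eq h4]
      by_cases h5 : μ i = a
      · simp [h5, ha0]
      · have : a⁻¹ * μ i ≠ 1 := by
          intro h6
          apply h5
          field_simp at h6
          exact h6
        simp [h5, this]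
    rw [hS2, Finset.sum_ite, Finset.sum_const_zero, add_zero, Finset.sum_const, nsmul_eq_mul] at hS
    have he0 : (e : ℂ) ≠ 0 := by exact_mod_cast he.ne'
    have h7 : ((Finset.univ.filter fun i => μ i = a).card : ℂ) = t := by
      apply mul_right_cancel₀ he0
      exact hS
    exact_mod_cast h7
  rw [hdet]
  have hsub : Finset.univ.image μ ⊆ Polynomial.nthRootsFinset e (1 : ℂ) := by
    intro a ha
    obtain ⟨i, -, rfl⟩ := Finset.mem_image.mp ha
    rw [Polynomial.mem_nthRootsFinset he]
    exact h2 i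
  have hcomp := Finset.prod_comp (s := (Finset.univ : Finset (Fin n))) (fun a : ℂ => a) μ
  rw [hcomp, Finset.prod_subset hsub, ← prod_nth_roots e he, ← Finset.prod_pow]
  · refine Finset.prod_congr rfl fun a ha => ?_
    rw [hmult a ((Polynomial.mem_nthRootsFinset he 1).mp ha)]
  · intro a ha ha2
    have : (Finset.univ.filter fun i => μ i = a) = ∅ := by
      rw [Finset.filter_eq_empty_iff]
      intro i _ h3
      exact ha2 (Finset.mem_image.mpr ⟨i, Finset.mem_univ _, h3⟩)
    rw [this]
    simp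

theorem classInner_self_re_nonneg {G : Type*} [Group G] [Fintype G] (φ : G → ℂ) :
    0 ≤ (classInner φ φ).re := by
  rw [classInner]
  have h1 : ∑ g, φ g * conj (φ g) = ((∑ g, Complex.normSq (φ g) : ℝ) : ℂ) := by
    push_cast
    exact Finset.sum_congr rfl fun g _ => Complex.mul_conj _
  rw [h1]
  have hn : ((Nat.card G : ℂ))⁻¹ = (((Nat.card G : ℝ))⁻¹ : ℝ) := by push_cast; rfl
  rw [hn, ← Complex.ofReal_mul, Complex.ofReal_re]
  have h2 : 0 ≤ ∑ g, Complex.normSq (φ g) := Finset.sum_nonneg fun g _ => Complex.normSq_nonneg _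
  positivity

theorem bessel {G : Type*} [Group G] [Fintype G] (F χ : G → ℂ) (hχ : classInner χ χ = 1) :
    Complex.normSq (classInner F χ) ≤ (classInner F F).re := by
  set α := classInner F χ with hα
  have h := classInner_self_re_nonneg (F + (-α) • χ)
  have e1 : classInner (F + (-α) • χ) (F + (-α) • χ) = classInner F F - (Complex.normSq α : ℂ) := by
    rw [classInner_add_left, classInner_add_right, classInner_add_right, classInner_smul_left,
      classInner_smul_left, classInner_smul_right, classInner_smul_right, hχ, ← hα,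
      ← classInner_conj F χ, ← hα, Complex.normSq_eq_conj_mul_self]
    simp
    ring
  rw [e1] at h
  simpa using h

end

section ind
variable {G : Type u} [Group G] {p : ℕ} [hp : Fact p.Prime] {x : G}

theorem mem_NN_of_conj [Finite G] (hx : orderOf x = p) {g y z : G} (hy : y ∈ zpowers x) (hy1 : y ≠ 1)
    (hz : z ∈ zpowers x) (h : g * y * g⁻¹ = z) : g ∈ NN x := by
  have hz1 : z ≠ 1 := by
    rintro rfl
    apply hy1
    have : y = g⁻¹ * (g * y * g⁻¹) * g := by group
    rw [this, h]; group
  show g ∈ normalizer _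
  rw [mem_normalizer_iff]
  intro w
  have hzw := zpowers_eq_of_mem hx hz hz1
  have hyw := zpowers_eq_of_mem hx hy hy1
  have hmap : (zpowers x).map (MulAut.conj g).toMonoidHom = zpowers x := by
    rw [← hyw, MonoidHom.map_zpowers]
    have : (MulAut.conj g).toMonoidHom y = z := h
    rw [this, hzw, hyw]
  constructor
  · intro hw
    have : g * w * g⁻¹ ∈ (zpowers x).map (MulAut.conj g).toMonoidHom :=
      ⟨w, hw, rfl⟩
    rwa [hmap] at this
  · intro hw
    rw [← hmap] at hw
    obtain ⟨w', hw', he⟩ := hw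
    have he' : g * w' * g⁻¹ = g * w * g⁻¹ := he
    have : w' = w := by
      have := congrArg (fun a => g⁻¹ * a * g) he'
      simpa [mul_assoc] using this
    rwa [← this]

/-- conjugation action on `⟨x⟩` of the normalizer, `z ↦ n⁻¹ z n`. -/
noncomputable def sig (x : G) (n : NN x) : MulAut (zpowers x) := (zpowers x).normalizerMonoidHom n⁻¹

theorem sig_coe (n : NN x) (z : zpowers x) : ((sig x n z : zpowers x) : G) = (n : G)⁻¹ * z * n := by
  simp [sig]

variable [Fintype G]

theorem ind_apply_P [Fintype (zpowers x)] [Fintype (NN x)] (hx : orderOf x = p)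
    (c : zpowers x → ℂ) (hc : c 1 = 0) (z : zpowers x) :
    indFun (zpowers x) c (z : G) = (p : ℂ)⁻¹ * ∑ n : NN x, c (sig x n z) := by
  rw [indFun_apply, card_zpowers_x hx, sum_over_subgroup (NN x)]
  · congr 1
    refine Finset.sum_congr rfl fun n _ => ?_
    rw [← sig_coe, extendByZero_coe]
  · intro g hg
    by_cases hz1 : (z : G) = 1
    · rw [hz1]
      have : g⁻¹ * 1 * g = ((1 : zpowers x) : G) := by simp
      rw [this, extendByZero_coe, hc]
    · apply extendByZero_of_not_mem
      intro hmem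
      apply hg
      have := mem_NN_of_conj hx (g := g⁻¹) z.2 hz1 hmem (by simp)
      exact (inv_mem_iff).mp this

theorem norm_ind [Fintype (zpowers x)] [Fintype (NN x)] (hx : orderOf x = p)
    (c : zpowers x → ℂ) (hc : c 1 = 0) :
    classInner (indFun (zpowers x) c) (indFun (zpowers x) c) =
      (p : ℂ)⁻¹ * ∑ n : NN x, classInner c (fun z => c (sig x n z)) := by
  rw [frobenius_reciprocity (zpowers x) c (indFun_isClassFunction _ c)]
  simp only [classInner, card_zpowers_x hx]
  simp_rw [ind_apply_P hx c hc, map_mul, map_inv₀, Complex.conj_natCast, map_sum]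
  simp_rw [← Finset.mul_sum]
  congr 1
  simp_rw [Finset.mul_sum]
  rw [Finset.sum_comm]
  refine Finset.sum_congr rfl fun n _ => ?_
  refine Finset.sum_congr rfl fun z _ => ?_
  ring

end ind

section lam
variable {L : Type u} [Group L] [Fintype L]

theorem inner_c (lam : IrrCharacter L) (hne : (lam : L → ℂ) ≠ fun _ => 1) (σ : MulAut L) :
    classInner (fun z => (lam : L → ℂ) z - 1) (fun z => (lam : L → ℂ) (σ z) - 1) =
      (if (lam : L → ℂ) = fun z => (lam : L → ℂ) (σ z) then 1 else 0) + 1 := by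
  have key : ∀ a b : L → ℂ, classInner (fun z => a z - 1) (fun z => b z - 1) =
      classInner a b - classInner a (fun _ => 1) - classInner (fun _ => 1) b +
        classInner (fun _ : L => (1 : ℂ)) (fun _ : L => (1 : ℂ)) := by
    intro a b
    simp only [classInner, sub_mul, mul_sub, Finset.sum_sub_distrib, map_sub, map_one, mul_one, one_mul]
    ring
  have h1 : IsIrrCharacter L (fun _ => (1 : ℂ)) := Cfsg.Agent.Lib.CharIso.isIrr_one
  have h2 : IsIrrCharacter L (fun z => (lam : L → ℂ) (σ z)) :=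
    Cfsg.Agent.Lib.CharCliff.isIrr_comp_mulEquiv σ lam.2
  have hne2 : (fun _ => (1 : ℂ)) ≠ (fun z => (lam : L → ℂ) (σ z)) := by
    intro h
    apply hne
    funext z
    have := congrFun h (σ⁻¹ z)
    simpa using this.symm
  rw [key, classInner_irr lam.2 h2, classInner_irr lam.2 h1, classInner_irr h1 h2, classInner_irr h1 h1,
    if_neg hne, if_neg hne2, if_pos rfl]
  ring

end lam

section ind2
variable {G : Type u} [Group G] [Fintype G] {p : ℕ} [hp : Fact p.Prime] {x : G}

theorem comm_zpowers (a b : zpowers x) : a * b = b * a := by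
  rcases a with ⟨a, ha⟩
  rcases b with ⟨b, hb⟩
  obtain ⟨k, rfl⟩ := mem_zpowers_iff.mp ha
  obtain ⟨l, rfl⟩ := mem_zpowers_iff.mp hb
  apply Subtype.ext
  show x ^ k * x ^ l = x ^ l * x ^ k
  rw [← zpow_add, ← zpow_add, add_comm]

theorem lam_one [Fintype (zpowers x)] (lam : IrrCharacter (zpowers x)) : (lam : zpowers x → ℂ) 1 = 1 := by
  have h := (commutative_iff_deg_one (G := zpowers x)).mp comm_zpowers lam
  rw [apply_one_eq_deg, h]
  simp

theorem lam_mul [Fintype (zpowers x)] (lam : IrrCharacter (zpowers x)) (a b : zpowers x) :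
    (lam : zpowers x → ℂ) (a * b) = (lam : zpowers x → ℂ) a * (lam : zpowers x → ℂ) b :=
  degree_one_mul (IsIrrCharacter.isCharacter' lam.2) (lam_one lam) a b

theorem lam_sig_eq [Fintype (zpowers x)] (lam : IrrCharacter (zpowers x)) (n : NN x)
    (hn : (n : G) ∈ zpowers x) : (lam : zpowers x → ℂ) = fun z => (lam : zpowers x → ℂ) (sig x n z) := by
  funext z
  have h3 : sig x n z = z := by
    apply Subtype.ext
    rw [sig_coe]
    have := comm_zpowers (⟨n, hn⟩ : zpowers x) z
    have h2 : (n : G) * z = z * n := congrArg Subtype.val this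
    rw [mul_assoc, ← h2]
    group
  rw [h3]

theorem lam_sig_ne [Fintype (zpowers x)] (hx : orderOf x = p)
    (hC : centralizer ({x} : Set G) = zpowers x) (lam : IrrCharacter (zpowers x))
    (hne : (lam : zpowers x → ℂ) ≠ fun _ => 1) (n : NN x) (hn : (n : G) ∉ zpowers x) :
    (lam : zpowers x → ℂ) ≠ fun z => (lam : zpowers x → ℂ) (sig x n z) := by
  classical
  intro h
  apply hne
  set a : zpowers x := ⟨x, mem_zpowers x⟩ with ha
  set w : zpowers x := sig x n a * a⁻¹ with hw
  have hlam : (lam : zpowers x → ℂ) w = 1 := by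
    rw [hw, lam_mul, ← congrFun h a, ← lam_mul, mul_inv_cancel, lam_one]
  have hw1 : (w : G) ≠ 1 := by
    intro h1
    apply hn
    rw [← hC, mem_centralizer_singleton_iff]
    have h2 : ((sig x n a : zpowers x) : G) * x⁻¹ = 1 := h1
    rw [sig_coe, mul_inv_eq_one] at h2
    have h3 : (n : G)⁻¹ * (x * n) = x := by rw [← mul_assoc]; exact h2
    rw [inv_mul_eq_iff_eq_mul] at h3
    exact h3.symm
  have hz := zpowers_eq_of_mem hx w.2 hw1
  funext z
  have hzm : (z : G) ∈ zpowers (w : G) := by rw [hz]; exact z.2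
  rw [← mem_powers_iff_mem_zpowers] at hzm
  obtain ⟨k, hk⟩ := hzm
  have hzk : z = w ^ k := Subtype.ext (by simpa using hk.symm)
  rw [hzk]
  have hp : ∀ k : ℕ, (lam : zpowers x → ℂ) (w ^ k) = 1 := by
    intro k
    induction k with
    | zero => simpa using lam_one lam
    | succ k ih => rw [pow_succ, lam_mul, ih, hlam, mul_one]
  exact hp k

theorem bound [Fintype (zpowers x)] [Fintype (NN x)] (hx : orderOf x = p)
    (hC : centralizer ({x} : Set G) = zpowers x) {χ : G → ℂ} (hχ : IsIrrCharacter G χ)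
    (lam : IrrCharacter (zpowers x)) (hne : (lam : zpowers x → ℂ) ≠ fun _ => 1) :
    Complex.normSq (classInner (fun z : zpowers x => χ z) lam -
        classInner (fun z : zpowers x => χ z) (fun _ => 1)) ≤ 1 + (Nat.card (NN x) : ℝ) / p := by
  classical
  have hp0 : (p : ℂ) ≠ 0 := by exact_mod_cast (Fact.out : p.Prime).ne_zero
  set c : zpowers x → ℂ := fun z => (lam : zpowers x → ℂ) z - 1 with hc
  have hc1 : c 1 = 0 := by simp [hc, lam_one]
  have hclass := IsCharacter.isClassFunction' (IsIrrCharacter.isCharacter' hχ)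
  have h1 : classInner (indFun (zpowers x) c) χ =
      conj (classInner (fun z : zpowers x => χ z) lam -
        classInner (fun z : zpowers x => χ z) (fun _ => 1)) := by
    rw [frobenius_reciprocity (zpowers x) c hclass, map_sub, classInner_conj, classInner_conj]
    simp only [hc, classInner, sub_mul, Finset.sum_sub_distrib, mul_sub, one_mul]
  have h2 := classInner_irr hχ hχ
  rw [if_pos rfl] at h2
  have hb := bessel (indFun (zpowers x) c) χ h2
  rw [h1, Complex.normSq_conj] at hb
  refine hb.trans (le_of_eq ?_)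
  rw [norm_ind hx c hc1]
  have h3 : ∀ n : NN x, classInner c (fun z => c (sig x n z)) =
      (if (n : G) ∈ zpowers x then 1 else 0) + 1 := by
    intro n
    rw [hc, inner_c lam hne (sig x n)]
    by_cases hn : (n : G) ∈ zpowers x
    · rw [if_pos (lam_sig_eq lam n hn), if_pos hn]
    · rw [if_neg (lam_sig_ne hx hC lam hne n hn), if_neg hn]
  simp_rw [h3]
  rw [Finset.sum_add_distrib]
  have h4 : ∑ n : NN x, (if (n : G) ∈ zpowers x then (1 : ℂ) else 0) = p := by
    have h5 := sum_ite_subgroup ((zpowers x).subgroupOf (NN x)) (1 : ℂ)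
    rw [card_subgroupOf_eq, inf_eq_left.mpr (zpowers_le_NN x), card_zpowers_x hx, mul_one] at h5
    simpa only [Subgroup.mem_subgroupOf] using h5
  rw [h4]
  simp only [Finset.sum_const, Finset.card_univ, nsmul_eq_mul, mul_one]
  rw [← Nat.card_eq_fintype_card]
  have hp0r : (p : ℝ) ≠ 0 := by exact_mod_cast (Fact.out : p.Prime).ne_zero
  have : ((p : ℂ)⁻¹ * ((p : ℂ) + (Nat.card (NN x) : ℂ))) = ((1 + (Nat.card (NN x) : ℝ) / p : ℝ) : ℂ) := by
    push_cast
    field_simp
  rw [this, Complex.ofReal_re]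

end ind2

section fin
variable {G : Type u} [Group G] [Fintype G] {p : ℕ} [hp : Fact p.Prime] {x : G}

theorem pigeonhole [Fintype (zpowers x)] (hx : orderOf x = p) {ξ : zpowers x → ℂ}
    (hξ : IsCharacter _ ξ) (hdeg : ξ 1 = ((p - 1 : ℕ) : ℂ)) (h0 : classInner ξ (fun _ => 1) ≠ 0) :
    ∃ lam : IrrCharacter (zpowers x), (lam : zpowers x → ℂ) ≠ (fun _ => 1) ∧
      classInner ξ (lam : zpowers x → ℂ) = 0 := by
  classical
  let one : IrrCharacter (zpowers x) := ⟨fun _ => 1, Cfsg.Agent.Lib.CharIso.isIrr_one⟩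
  choose a ha using fun lam : IrrCharacter (zpowers x) =>
    Cfsg.Agent.Lib.CharDecomp.exists_nat_classInner hξ lam
  have hsum : ∑ lam, a lam = p - 1 := by
    have h1 := Cfsg.Agent.Lib.CharDecomp.eq_sum_classInner hξ
    have h2 := congrFun h1 1
    rw [hdeg] at h2
    simp only [Finset.sum_apply, Pi.smul_apply, smul_eq_mul, lam_one, mul_one, ha] at h2
    exact_mod_cast h2.symm
  have hcard : (Finset.univ : Finset (IrrCharacter (zpowers x))).card = p := by
    have h1 := sum_deg_sq (G := zpowers x)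
    have h2 : ∀ lam : IrrCharacter (zpowers x), deg lam = 1 :=
      (commutative_iff_deg_one (G := zpowers x)).mp comm_zpowers
    simp only [h2, one_pow, Finset.sum_const, smul_eq_mul, mul_one, card_zpowers_x hx] at h1
    exact h1
  by_contra hcon
  push_neg at hcon
  have hone : 1 ≤ a one := by
    have h1 := ha one
    have h2 : a one ≠ 0 := by
      intro h3
      apply h0
      rw [h3] at h1
      simpa [one] using h1
    omega
  have hge : ∀ lam ∈ (Finset.univ : Finset (IrrCharacter (zpowers x))).erase one, 1 ≤ a lam := by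
    intro lam hlam
    have hne : lam ≠ one := Finset.ne_of_mem_erase hlam
    have h1 : (lam : zpowers x → ℂ) ≠ fun _ => 1 := fun h => hne (Subtype.ext h)
    have h2 := hcon lam h1
    have h3 : a lam ≠ 0 := by
      intro h4
      apply h2
      rw [ha, h4]
      simp
    omega
  have h3 : ((Finset.univ : Finset (IrrCharacter (zpowers x))).erase one).card • 1 ≤
      ∑ lam ∈ (Finset.univ : Finset (IrrCharacter (zpowers x))).erase one, a lam :=
    Finset.card_nsmul_le_sum _ _ _ hge
  rw [Finset.card_erase_of_mem (Finset.mem_univ one), hcard, smul_eq_mul, mul_one] at h3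
  have h4 : a one + ∑ lam ∈ (Finset.univ : Finset (IrrCharacter (zpowers x))).erase one, a lam =
      ∑ lam, a lam := Finset.add_sum_erase _ _ (Finset.mem_univ one)
  have hP1 := one_lt_p (p := p)
  omega

/-- `e` divides the multiplicity of the trivial character in the restriction to `⟨x⟩`. -/
theorem e_dvd [Fintype (zpowers x)] [Fintype (NN x)] {y : G} [Fintype (zpowers y)]
    (hx : orderOf x = p) (hC : centralizer ({x} : Set G) = zpowers x) {χ : G → ℂ}
    (hχ : IsCharacter G χ) {t e a0 : ℕ} (hdeg : χ 1 = ((t * e : ℕ) : ℂ))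
    (hcard : Nat.card (NN x) = e * p) (hcop : e.Coprime p) (he : 0 < e) (hyN : y ∈ NN x) (hyo : orderOf y = e)
    (ha0 : classInner (fun z : zpowers x => χ z) (fun _ => 1) = (a0 : ℂ)) : e ∣ a0 := by
  classical
  have hpp : p.Prime := Fact.out
  have hclass := IsCharacter.isClassFunction' hχ
  have hYle : zpowers y ≤ NN x := zpowers_le.mpr hyN
  have hdisj : ∀ u ∈ zpowers y, u ∈ zpowers x → u = 1 := by
    intro u huY huP
    have h1 : orderOf u ∣ e := by
      have := orderOf_dvd_natCard (⟨u, huY⟩ : zpowers y)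
      rwa [Subgroup.orderOf_mk, Nat.card_zpowers, hyo] at this
    have h2 : orderOf u ∣ p := by
      have := orderOf_dvd_natCard (⟨u, huP⟩ : zpowers x)
      rwa [Subgroup.orderOf_mk, card_zpowers_x hx] at this
    have h3 := Nat.Coprime.eq_one_of_dvd (hcop.coprime_dvd_left h1) h2
    exact orderOf_eq_one_iff.mp h3
  -- the bijection
  let f : zpowers y × zpowers x → NN x := fun q =>
    ⟨(q.1 : G) * q.2, (NN x).mul_mem (hYle q.1.2) (zpowers_le_NN x q.2.2)⟩
  have hfinj : Function.Injective f := by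
    rintro ⟨u, z⟩ ⟨u', z'⟩ h
    have h1 : (u : G) * z = u' * z' := congrArg Subtype.val h
    have h2 : (u' : G)⁻¹ * u = z' * (z : G)⁻¹ := by
      rw [inv_mul_eq_iff_eq_mul, ← mul_assoc, ← h1]
      group
    have h3 : (u' : G)⁻¹ * u = 1 := hdisj _ (mul_mem (inv_mem u'.2) u.2) (by rw [h2]; exact mul_mem z'.2 (inv_mem z.2))
    have h4 : (u : G) = u' := by
      rw [inv_mul_eq_one] at h3
      exact h3.symm
    have h5 : (z : G) = z' := by
      rw [h4] at h1
      exact mul_left_cancel h1
    exact Prod.ext (Subtype.ext h4) (Subtype.ext h5)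
  have hfbij : Function.Bijective f := by
    rw [Fintype.bijective_iff_injective_and_card]
    refine ⟨hfinj, ?_⟩
    rw [Fintype.card_prod, ← Nat.card_eq_fintype_card, ← Nat.card_eq_fintype_card,
      ← Nat.card_eq_fintype_card, Nat.card_zpowers, hyo, card_zpowers_x hx, hcard]
  have hsumN : ∑ n : NN x, χ n = ∑ u : zpowers y, ∑ z : zpowers x, χ ((u : G) * z) := by
    rw [← hfbij.sum_comp, Fintype.sum_prod_type]
  -- the terms `u ≠ 1`
  have hterm : ∀ u : zpowers y, u ≠ 1 → ∑ z : zpowers x, χ ((u : G) * z) = p * χ u := by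
    intro u hu
    have huP : (u : G) ∉ zpowers x := by
      intro h
      exact hu (Subtype.ext (hdisj _ u.2 h))
    have h1 : ∀ z : zpowers x, χ ((u : G) * z) = χ u := by
      intro z
      obtain ⟨w, hw⟩ := coset_conj hx hC (hYle u.2) huP z.2
      rw [← hw]
      exact hclass _ _
    simp only [h1, Finset.sum_const, Finset.card_univ, nsmul_eq_mul]
    rw [← Nat.card_eq_fintype_card, card_zpowers_x hx]
  have hterm1 : ∑ z : zpowers x, χ (((1 : zpowers y) : G) * z) = p * a0 := by
    have h1 := ha0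
    rw [classInner, card_zpowers_x hx] at h1
    simp only [map_one, mul_one] at h1
    have hp0 : (p : ℂ) ≠ 0 := by exact_mod_cast hpp.ne_zero
    rw [← h1]
    simp only [OneMemClass.coe_one, one_mul]
    field_simp
  -- the two natural numbers
  obtain ⟨A, hA⟩ := Cfsg.Agent.Lib.CharDecomp.exists_nat_classInner (isCharacter_restrict (NN x) hχ)
    ⟨fun _ => 1, Cfsg.Agent.Lib.CharIso.isIrr_one⟩
  obtain ⟨B, hB⟩ := Cfsg.Agent.Lib.CharDecomp.exists_nat_classInner (isCharacter_restrict (zpowers y) hχ)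
    ⟨fun _ => 1, Cfsg.Agent.Lib.CharIso.isIrr_one⟩
  simp only [classInner, map_one, mul_one] at hA hB
  have hcardN : ((Nat.card (NN x) : ℕ) : ℂ) ≠ 0 := by exact_mod_cast Nat.card_pos.ne'
  have hcardY : ((Nat.card (zpowers y) : ℕ) : ℂ) ≠ 0 := by exact_mod_cast Nat.card_pos.ne'
  have hA' : ∑ n : NN x, χ n = (Nat.card (NN x) : ℂ) * A := by
    rw [← hA]; field_simp
  have hB' : ∑ u : zpowers y, χ u = (e : ℂ) * B := by
    rw [← hB, Nat.card_zpowers, hyo]
    have he0 : (e : ℂ) ≠ 0 := by exact_mod_cast he.ne'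
    field_simp
  rw [hsumN, ← Finset.add_sum_erase _ _ (Finset.mem_univ (1 : zpowers y)), hterm1] at hA'
  rw [← Finset.add_sum_erase _ _ (Finset.mem_univ (1 : zpowers y))] at hB'
  have h5 : ∑ u ∈ Finset.univ.erase (1 : zpowers y), ∑ z : zpowers x, χ ((u : G) * z) =
      (p : ℂ) * ∑ u ∈ Finset.univ.erase (1 : zpowers y), χ u := by
    rw [Finset.mul_sum]
    refine Finset.sum_congr rfl fun u hu => ?_
    exact hterm u (Finset.ne_of_mem_erase hu)
  rw [h5] at hA'
  have hone : χ ((1 : zpowers y) : G) = ((t * e : ℕ) : ℂ) := by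
    rw [OneMemClass.coe_one, hdeg]
  rw [hone] at hB'
  have hp0 : (p : ℂ) ≠ 0 := by exact_mod_cast hpp.ne_zero
  have key : (a0 : ℂ) = (e : ℂ) * ((A : ℂ) - B + t) := by
    have h6 : (p : ℂ) * ((a0 : ℂ) + ∑ u ∈ Finset.univ.erase (1 : zpowers y), χ u) = (p : ℂ) * ((e : ℂ) * A) := by
      rw [mul_add, hA', hcard]
      push_cast
      ring
    have h7 := mul_left_cancel₀ hp0 h6
    have h8 : ∑ u ∈ Finset.univ.erase (1 : zpowers y), χ u = (e : ℂ) * B - ((t * e : ℕ) : ℂ) := by
      rw [← hB']; ring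
    rw [h8] at h7
    push_cast at h7
    linear_combination h7
  have key2 : (a0 : ℤ) = (e : ℤ) * ((A : ℤ) - B + t) := by
    have : ((a0 : ℤ) : ℂ) = (((e : ℤ) * ((A : ℤ) - B + t) : ℤ) : ℂ) := by
      push_cast
      exact key
    exact_mod_cast this
  have h9 : (e : ℤ) ∣ (a0 : ℤ) := ⟨_, key2⟩
  exact_mod_cast h9

/-- If the trivial character of `⟨x⟩` does not occur, the trace vanishes on `N ∖ ⟨x⟩`. -/
theorem vanish [Fintype (zpowers x)] {n : ℕ} (ρ : Representation ℂ G (Fin n → ℂ))
    (hx : orderOf x = p) (hC : centralizer ({x} : Set G) = zpowers x)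
    (h0 : classInner (fun z : zpowers x => ρ.character z) (fun _ => 1) = 0)
    {u : G} (huN : u ∈ NN x) (huP : u ∉ zpowers x) : ρ.character u = 0 := by
  classical
  have hpp : p.Prime := Fact.out
  have hp0 : (p : ℂ) ≠ 0 := by exact_mod_cast hpp.ne_zero
  let T : Module.End ℂ (Fin n → ℂ) := (p : ℂ)⁻¹ • ∑ z : zpowers x, ρ z
  have hcardP : (Fintype.card (zpowers x) : ℂ) = p := by
    rw [← Nat.card_eq_fintype_card, card_zpowers_x hx]
  have hfix : ∀ w : zpowers x, ρ w * T = T := by
    intro w
    show ρ w * ((p : ℂ)⁻¹ • ∑ z : zpowers x, ρ z) = (p : ℂ)⁻¹ • ∑ z : zpowers x, ρ z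
    rw [mul_smul_comm, Finset.mul_sum]
    congr 1
    refine Fintype.sum_equiv (Equiv.mulLeft w) _ _ fun z => ?_
    rw [← map_mul]
    rfl
  have hid : IsIdempotentElem T := by
    show T * T = T
    have h1 : T * T = (p : ℂ)⁻¹ • ∑ z : zpowers x, (ρ z * T) := by
      show ((p : ℂ)⁻¹ • ∑ z : zpowers x, ρ z) * T = _
      rw [smul_mul_assoc, Finset.sum_mul]
    rw [h1]
    simp only [hfix, Finset.sum_const, Finset.card_univ]
    rw [← Nat.cast_smul_eq_nsmul ℂ, hcardP, smul_smul, inv_mul_cancel₀ hp0, one_smul]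
  have htr : LinearMap.trace ℂ _ T = 0 := by
    have h1 : LinearMap.trace ℂ _ T = (p : ℂ)⁻¹ * ∑ z : zpowers x, ρ.character z := by
      show LinearMap.trace ℂ _ ((p : ℂ)⁻¹ • ∑ z : zpowers x, ρ z) = _
      rw [map_smul, map_sum, smul_eq_mul]
      rfl
    rw [h1]
    have h2 := h0
    rw [classInner, card_zpowers_x hx] at h2
    simpa using h2
  have hT0 : T = 0 := LinearMap.IsIdempotentElem.eq_zero_of_trace_eq_zero hid htr
  have hclass : ∀ z : zpowers x, ρ.character (u * z) = ρ.character u := by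
    intro z
    obtain ⟨w, hw⟩ := coset_conj hx hC huN huP z.2
    rw [← hw]
    exact Representation.char_conj ρ _ _
  have h3 : LinearMap.trace ℂ _ (ρ u * T) = ρ.character u := by
    have h4 : ρ u * T = (p : ℂ)⁻¹ • ∑ z : zpowers x, ρ (u * z) := by
      show ρ u * ((p : ℂ)⁻¹ • ∑ z : zpowers x, ρ z) = _
      rw [mul_smul_comm, Finset.mul_sum]
      simp only [map_mul]
    rw [h4, map_smul, map_sum, smul_eq_mul]
    have h5 : ∀ z : zpowers x, LinearMap.trace ℂ _ (ρ (u * z)) = ρ.character u := hclass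
    simp only [h5, Finset.sum_const, Finset.card_univ]
    rw [← Nat.cast_smul_eq_nsmul ℂ, hcardP, smul_eq_mul]
    field_simp
  rw [← h3, hT0, mul_zero, map_zero]

theorem final [Fintype (zpowers x)] [Fintype (NN x)] {y : G} [Fintype (zpowers y)] {t : ℕ}
    (hx : orderOf x = p) (hC : centralizer ({x} : Set G) = zpowers x)
    (χ : IrrCharacter G) (hχ : charDegree (χ : G → ℂ) + 1 = p)
    (hte : t * (Nat.card (NN x) / p) = p - 1) (heven : Even (Nat.card (NN x) / p))
    (he : 0 < Nat.card (NN x) / p) (hcop : (Nat.card (NN x) / p).Coprime p)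
    (hyN : y ∈ NN x) (hyo : orderOf y = Nat.card (NN x) / p) (htodd : Odd t) :
    Even (commutator G).index := by
  classical
  have hpp : p.Prime := Fact.out
  have hP1 := one_lt_p (p := p)
  set e := Nat.card (NN x) / p with he_def
  have hdegn : deg χ = p - 1 := by
    rw [charDegree_eq_deg] at hχ
    omega
  have hone : (χ : G → ℂ) 1 = ((t * e : ℕ) : ℂ) := by
    rw [apply_one_eq_deg, hdegn, hte]
  have hisChar := IsIrrCharacter.isCharacter' χ.2
  have hcardN : Nat.card (NN x) = e * p := (card_normalizer_eq hx).symm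
  -- the multiplicity
  obtain ⟨a0, ha0⟩ := Cfsg.Agent.Lib.CharDecomp.exists_nat_classInner (isCharacter_restrict (zpowers x) hisChar)
    ⟨fun _ => 1, Cfsg.Agent.Lib.CharIso.isIrr_one⟩
  have hdvd : e ∣ a0 := e_dvd hx hC hisChar hone hcardN hcop he hyN hyo ha0
  have ha00 : a0 = 0 := by
    by_contra hne
    have hge : e ≤ a0 := Nat.le_of_dvd (Nat.pos_of_ne_zero hne) hdvd
    have hne' : classInner (fun z : zpowers x => (χ : G → ℂ) z) (fun _ => 1) ≠ 0 := by
      intro h
      have h2 : classInner (fun z : zpowers x => (χ : G → ℂ) z) (fun _ => 1) = (a0 : ℂ) := ha0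
      rw [h2] at h
      exact hne (by exact_mod_cast h)
    obtain ⟨lam, hlam, hlam0⟩ := pigeonhole hx (isCharacter_restrict (zpowers x) hisChar)
      (by simpa using (by rw [hone, hte] : (χ : G → ℂ) 1 = ((p - 1 : ℕ) : ℂ))) hne'
    have hb := bound hx hC χ.2 lam hlam
    rw [hlam0, ha0, zero_sub, Complex.normSq_neg, Complex.normSq_natCast] at hb
    have h2e : 2 ≤ e := by
      obtain ⟨r, hr⟩ := heven
      omega
    have hq : (Nat.card (NN x) : ℝ) / p = e := by
      rw [hcardN]
      push_cast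
      have : (p : ℝ) ≠ 0 := by exact_mod_cast hpp.ne_zero
      field_simp
    rw [hq] at hb
    have h3 : (a0 : ℝ) * a0 ≤ 1 + e := hb
    have h4 : ((a0 * a0 : ℕ) : ℝ) ≤ ((1 + e : ℕ) : ℝ) := by
      push_cast
      exact h3
    have h5 : a0 * a0 ≤ 1 + e := by exact_mod_cast h4
    nlinarith
  -- a representation
  obtain ⟨n, ρ, hρ, hρχ⟩ := χ.2
  have hfinrank : Module.finrank ℂ (Fin n → ℂ) = t * e := by
    have h1 : (χ : G → ℂ) 1 = (Module.finrank ℂ (Fin n → ℂ) : ℂ) := by
      rw [← hρχ, Representation.char_one]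
    rw [hone] at h1
    exact_mod_cast h1.symm
  have h0 : classInner (fun z : zpowers x => ρ.character z) (fun _ => 1) = 0 := by
    rw [hρχ]
    have h2 : classInner (fun z : zpowers x => (χ : G → ℂ) z) (fun _ => 1) = (a0 : ℂ) := ha0
    rw [h2, ha00]
    simp
  -- powers of `y`
  have htr : ∀ k, 0 < k → k < e → LinearMap.trace ℂ _ ((ρ y) ^ k) = 0 := by
    intro k hk hke
    rw [← map_pow]
    have hyk : y ^ k ∈ NN x := pow_mem hyN k
    have hykP : y ^ k ∉ zpowers x := by
      intro hm
      have h1 : orderOf (y ^ k) ∣ p := by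
        have := orderOf_dvd_natCard (⟨_, hm⟩ : zpowers x)
        rwa [Subgroup.orderOf_mk, card_zpowers_x hx] at this
      have h2 : orderOf (y ^ k) ∣ e := by
        rw [← hyo]
        exact orderOf_pow_dvd k
      have h3 := Nat.Coprime.eq_one_of_dvd (hcop.coprime_dvd_left h2) h1
      have h4 : y ^ k = 1 := orderOf_eq_one_iff.mp h3
      have h5 := orderOf_dvd_of_pow_eq_one h4
      rw [hyo] at h5
      have := Nat.le_of_dvd hk h5
      omega
    exact vanish ρ hx hC h0 hyk hykP
  have hTe : (ρ y) ^ e = 1 := by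
    rw [← map_pow, ← hyo, pow_orderOf_eq_one, map_one]
  have hdet := det_of_regular (ρ y) e t he hTe htr hfinrank
  have hdet2 : LinearMap.det (ρ y) = -1 := by
    rw [hdet, Even.add_one heven |>.neg_one_pow, htodd.neg_one_pow]
  -- the linear character
  let δ : G →* ℂˣ := ((LinearMap.det : (Module.End ℂ (Fin n → ℂ)) →* ℂ).comp ρ).toHomUnits
  have hδ : ∀ g, ((δ g : ℂˣ) : ℂ) = LinearMap.det (ρ g) := fun g => rfl
  have hker : commutator G ≤ δ.ker := by
    rw [_root_.commutator_def, Subgroup.commutator_le]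
    intro a _ b _
    rw [MonoidHom.mem_ker, map_commutatorElement, commutatorElement_eq_one_iff_mul_comm]
    exact mul_comm _ _
  have h1 : y ^ (commutator G).index ∈ commutator G := Subgroup.pow_index_mem _ _
  have h2 := hker h1
  rw [MonoidHom.mem_ker, map_pow] at h2
  have h3 := congrArg (fun w : ℂˣ => (w : ℂ)) h2
  simp only [Units.val_pow_eq_pow_val, hδ, hdet2, Units.val_one] at h3
  have hne : (-1 : ℂ) ≠ 1 := by norm_num
  exact (neg_one_pow_eq_one_iff_even hne).mp h3

end fin



/-- Let the finite group G contain an element x of prime order p with C_G(x) = ⟨x⟩, and let t be the number of conjugacy classes of elements of order p. If G has an irreducible character of degree p − 1, then t is even or the commutator subgroup has even index. -/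
theorem result {G : Type*} [Group G] [Finite G] (p : ℕ) (hp : p.Prime) (x : G) (hx : orderOf x = p) (hC : Subgroup.centralizer ({x} : Set G) = Subgroup.zpowers x) (t : ℕ) (ht : Nat.card {C : ConjClasses G // ∃ g ∈ C.carrier, orderOf g = p} = t) (χ : Cfsg.IrrCharacter G) (hχ : Cfsg.charDegree (χ : G → ℂ) + 1 = p) : Even t ∨ Even (commutator G).index := by
  classical
  letI : Fintype G := Fintype.ofFinite G
  haveI : Fact p.Prime := ⟨hp⟩
  have hte := card_mul_e hx hC
  rw [ht] at hte
  have hP1 := one_lt_p (p := p)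
  by_cases hp2 : p = 2
  · -- p = 2
    right
    have h1 : t = p - 1 := by
      rw [hp2] at hte ⊢
      exact Nat.eq_one_of_mul_eq_one_right hte
    have h2 := (Cfsg.Agent.S4495.result p hp x hx hC t ht).2 h1
    rw [h2, hp2]
    exact even_two
  by_cases htodd : Even t
  · left; exact htodd
  right
  have hpodd : Even (p - 1) := by
    have := hp.even_sub_one hp2
    exact this
  rw [← hte, Nat.even_mul] at hpodd
  have heven := hpodd.resolve_left htodd
  have hepos : 0 < Nat.card (NN x) / p := by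
    rcases Nat.eq_zero_or_pos (Nat.card (NN x) / p) with h0 | h0
    · rw [h0, mul_zero] at hte; omega
    · exact h0
  have htpos : 0 < t := by
    rcases Nat.eq_zero_or_pos t with h0 | h0
    · rw [h0, zero_mul] at hte; omega
    · exact h0
  have hle : Nat.card (NN x) / p ≤ p - 1 := by
    rw [← hte]; exact Nat.le_mul_of_pos_left _ htpos
  have hcop : (Nat.card (NN x) / p).Coprime p :=
    (Nat.coprime_of_lt_prime hepos.ne' (by omega) hp).symm
  obtain ⟨y, hyN, hyo⟩ := exists_y hx hC hcop
  letI : Fintype (zpowers x) := Fintype.ofFinite _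
  letI : Fintype (NN x) := Fintype.ofFinite _
  letI : Fintype (zpowers y) := Fintype.ofFinite _
  exact final hx hC χ hχ hte heven hepos hcop hyN hyo (by simpa using htodd)

end Cfsg.Agent.S4508
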