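import Cfsg.Statements.S4509
import Cfsg.Agent.S4497
import Cfsg.Agent.Lib.SchurZ2

set_option autoImplicit false
set_option linter.all false
open Cfsg

namespace Cfsg.Agent.S4509


open Subgroup Cfsg.Agent.S4495 Cfsg.Agent.Lib.SylowCount Cfsg.Agent.S4497
open scoped commutatorElement

section
variable {G : Type*} [Group G] [Finite G] {p : ℕ} [hp : Fact p.Prime] {x : G}

theorem count_np (hx : orderOf x = p) (hC : centralizer ({x} : Set G) = zpowers x) :
    Nat.card {H : Subgroup G // Nat.card H = p} * Nat.card (NN x) = Nat.card G := by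
  classical
  obtain ⟨P, hP⟩ := Cfsg.Agent.S4496.exists_sylow_eq hx hC
  have hcardP : Nat.card (P : Subgroup G) = p := by rw [hP, card_zpowers_x hx]
  have hequiv : Nat.card {H : Subgroup G // Nat.card H = p} = Nat.card (Sylow p G) := by
    have hfact : p ^ (Nat.card G).factorization p = p := by
      rw [← P.card_eq_multiplicity, hcardP]
    refine Nat.card_congr ⟨fun H => Sylow.ofCard H.1 (by rw [H.2, hfact]), fun Q => ⟨Q, ?_⟩, ?_, ?_⟩
    · rw [Cfsg.Agent.Lib.SylowCount.card_sylow_eq Q P, hcardP]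
    · intro H
      exact Subtype.ext rfl
    · intro Q
      exact Sylow.ext rfl
  rw [hequiv]
  have := card_sylow_mul_card_normalizer P
  rwa [hP] at this

/-- A normal subgroup of order prime to `p` meets the normalizer of `⟨x⟩` trivially. -/
theorem inf_NN (hx : orderOf x = p) (hC : centralizer ({x} : Set G) = zpowers x)
    (S : Subgroup G) [hSn : S.Normal] (hS : ¬ p ∣ Nat.card S) : S ⊓ NN x = ⊥ := by
  rw [eq_bot_iff]
  rintro s ⟨hs, hsN⟩
  have hsN' : s ∈ normalizer ((zpowers x : Subgroup G) : Set G) := hsN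
  have h2 : s * x * s⁻¹ ∈ zpowers x := (mem_normalizer_iff.mp hsN' x).mp (mem_zpowers x)
  have h3 : s * x * s⁻¹ * x⁻¹ ∈ zpowers x := mul_mem h2 (inv_mem (mem_zpowers x))
  have h4 : s * x * s⁻¹ * x⁻¹ ∈ S := by
    have h5 := hSn.conj_mem _ (S.inv_mem hs) x
    have h6 : s * x * s⁻¹ * x⁻¹ = s * (x * s⁻¹ * x⁻¹) := by group
    rw [h6]
    exact S.mul_mem hs h5
  have h5 := fpf_of_not_dvd hx hS h4 h3
  have h6 : s * x * s⁻¹ = x := by
    rwa [mul_inv_eq_one] at h5
  rw [mul_inv_eq_iff_eq_mul] at h6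
  have h7 : s ∈ centralizer ({x} : Set G) := by
    rw [mem_centralizer_singleton_iff]
    exact h6
  rw [hC] at h7
  exact fpf_of_not_dvd hx hS hs h7

/-- If a normal subgroup of order `n_p` exists then `G'' ≠ G'` whenever `e ≠ 1`. -/
theorem not_perfect_of_normal (hx : orderOf x = p) (hC : centralizer ({x} : Set G) = zpowers x)
    (he : Nat.card (NN x) / p ≠ 1) {m : ℕ} (S : Subgroup G) [hSn : S.Normal]
    (hS : Nat.card S = 1 + m * p) (hcount : (1 + m * p) * Nat.card (NN x) = Nat.card G) :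
    ⁅commutator G, commutator G⁆ ≠ commutator G := by
  classical
  have hpp : p.Prime := Fact.out
  have hSnd : ¬ p ∣ Nat.card S := by
    rw [hS]
    intro h1
    have h2 : p ∣ 1 := (Nat.dvd_add_left (dvd_mul_left p m)).mp h1
    exact hpp.one_lt.ne' (Nat.dvd_one.mp h2)
  have hinf := inf_NN hx hC S hSnd
  have hcompl : IsComplement' S (NN x) := by
    apply Subgroup.isComplement'_of_card_mul_and_disjoint
    · rw [hS]; exact hcount
    · rw [disjoint_iff]; exact hinf
  have hsup := hcompl.sup_eq_top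
  -- the quotient
  have hb := (Cfsg.Agent.S4496.part_b hx hC S hSnd).2.2
  have hzn : (zpowers (x : G ⧸ S)).Normal := by
    constructor
    intro a ha q
    induction q using QuotientGroup.induction_on with
    | H q =>
      have hq : q ∈ ((S ⊔ NN x : Subgroup G) : Set G) := by rw [hsup]; exact mem_top q
      rw [Subgroup.normal_mul] at hq
      obtain ⟨s, hs, n, hn, rfl⟩ := Set.mem_mul.mp hq
      obtain ⟨k, rfl⟩ := mem_zpowers_iff.mp ha
      have hn' : n ∈ normalizer ((zpowers x : Subgroup G) : Set G) := hn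
      have hy : n * x ^ k * n⁻¹ ∈ zpowers x :=
        (mem_normalizer_iff.mp hn' _).mp (zpow_mem (mem_zpowers x) k)
      obtain ⟨l, hl⟩ := mem_zpowers_iff.mp hy
      rw [mem_zpowers_iff]
      refine ⟨l, ?_⟩
      have hs1 : (s : G ⧸ S) = 1 := (QuotientGroup.eq_one_iff s).mpr hs
      have h2 : ((s * n : G) : G ⧸ S) = (n : G ⧸ S) := by
        rw [QuotientGroup.mk_mul, hs1, one_mul]
      rw [h2]
      have h3 : ((n * x ^ k * n⁻¹ : G) : G ⧸ S) = (n : G ⧸ S) * (x : G ⧸ S) ^ k * (n : G ⧸ S)⁻¹ := rfl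
      rw [← h3, ← hl]
      rfl
  have hzd : p ∣ Nat.card (zpowers (x : G ⧸ S)) := by
    rw [Nat.card_zpowers, hb.1]
  have h1 := Cfsg.Agent.S4496.part_a hb.1 hb.2 _ hzd
  have hmapL : ∀ g ∈ commutator G, (g : G ⧸ S) ∈ zpowers (x : G ⧸ S) := by
    intro g hg
    apply h1
    have h2 : ((commutator G).map (QuotientGroup.mk' S)) ≤ commutator (G ⧸ S) := by
      rw [_root_.commutator_def, _root_.commutator_def, Subgroup.map_commutator]
      exact Subgroup.commutator_mono le_top le_top
    exact h2 ⟨g, hg, rfl⟩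
  have hDle : ⁅commutator G, commutator G⁆ ≤ S := by
    rw [Subgroup.commutator_le]
    intro a ha b hb'
    rw [← QuotientGroup.eq_one_iff]
    obtain ⟨k, hk⟩ := mem_zpowers_iff.mp (hmapL a ha)
    obtain ⟨l, hl⟩ := mem_zpowers_iff.mp (hmapL b hb')
    have h3 : ((⁅a, b⁆ : G) : G ⧸ S) = ⁅(a : G ⧸ S), (b : G ⧸ S)⁆ := rfl
    rw [h3, ← hk, ← hl, commutatorElement_eq_one_iff_mul_comm, ← zpow_add, ← zpow_add, add_comm]
  intro heq
  rw [heq] at hDle
  apply hSnd
  exact (Cfsg.Agent.S4495.dvd_card_commutator hx hC he).trans (Subgroup.card_dvd_of_le hDle)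

theorem lt_of_mul_eq {t e m : ℕ} (h : t * e = m) (hm : 0 < m) (he : e ≠ 1) : t < m := by
  rcases e with _ | _ | e
  · simp at h; omega
  · simp at he
  · subst h
    have : 0 < t := by
      rcases Nat.eq_zero_or_pos t with h0 | h0
      · subst h0; simp at hm
      · exact h0
    nlinarith

theorem case_two (hx : orderOf x = p) (hC : centralizer ({x} : Set G) = zpowers x)
    (he : Nat.card (NN x) / p ≠ 1) (hne : ⁅commutator G, commutator G⁆ ≠ commutator G) {m : ℕ}
    (hcount : (1 + m * p) * Nat.card (NN x) = Nat.card G) :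
    Nat.card (⁅commutator G, commutator G⁆ : Subgroup G) = 1 + m * p ∧
      Nat.card (commutator G) = p * (1 + m * p) := by
  classical
  have hpp : p.Prime := Fact.out
  have hdvd := dvd_card_commutator hx hC he
  have hxL : x ∈ commutator G := x_mem_of_dvd hx hC _ hdvd
  obtain ⟨P, hP⟩ := Cfsg.Agent.S4496.exists_sylow_eq hx hC
  haveI hKn : (pPrimeCore p G).Normal := Cfsg.Agent.Lib.FitCore.pPrimeCore_normal p
  have hKnd : ¬ p ∣ Nat.card (pPrimeCore p G) := Cfsg.Agent.Lib.FitCore.not_dvd_card_pPrimeCore p hpp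
  have hfpf : ∀ k ∈ pPrimeCore p G, k ∈ centralizer ({x} : Set G) → k = 1 := by
    intro k hk hkc
    rw [hC] at hkc
    exact fpf_of_not_dvd hx hKnd hk hkc
  have hKle : pPrimeCore p G ≤ commutator G :=
    le_commutator_of_fpf (x := x) (K := pPrimeCore p G) (M := ⊤) (mem_top x) le_top hfpf
  have hKle2 : pPrimeCore p G ≤ ⁅commutator G, commutator G⁆ :=
    le_commutator_of_fpf (x := x) hxL hKle hfpf
  haveI hDn : (⁅commutator G, commutator G⁆ : Subgroup G).Normal := Subgroup.commutator_normal _ _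
  have hDnd : ¬ p ∣ Nat.card (⁅commutator G, commutator G⁆ : Subgroup G) := by
    intro h1
    apply hne
    exact le_antisymm (Subgroup.commutator_le_left _ _) (Cfsg.Agent.S4496.part_a hx hC _ h1)
  have hDle : ⁅commutator G, commutator G⁆ ≤ pPrimeCore p G :=
    Cfsg.Agent.Lib.SolvCore.le_pPrimeCore _ hDn hDnd
  have hKeq : pPrimeCore p G = ⁅commutator G, commutator G⁆ := le_antisymm hKle2 hDle
  -- `G' ≤ K ⊔ P`
  have hb := (Cfsg.Agent.S4496.part_b hx hC _ hKnd).2.2
  have hLle : commutator G ≤ pPrimeCore p G ⊔ zpowers x := by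
    intro a ha
    have h1 : (a : G ⧸ pPrimeCore p G) ∈ centralizer ({(x : G ⧸ pPrimeCore p G)} : Set (G ⧸ pPrimeCore p G)) := by
      rw [mem_centralizer_singleton_iff]
      have h2 : ⁅a, x⁆ ∈ pPrimeCore p G := hDle (Subgroup.commutator_mem_commutator ha hxL)
      rw [← QuotientGroup.eq_one_iff] at h2
      have h3 : ((⁅a, x⁆ : G) : G ⧸ pPrimeCore p G) = ⁅(a : G ⧸ pPrimeCore p G), (x : G ⧸ pPrimeCore p G)⁆ := rfl
      rw [h3, commutatorElement_eq_one_iff_mul_comm] at h2
      exact h2
    rw [hb.2] at h1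
    obtain ⟨k, hk⟩ := mem_zpowers_iff.mp h1
    have h2 : ((x ^ k : G) : G ⧸ pPrimeCore p G) = (a : G ⧸ pPrimeCore p G) := hk
    rw [QuotientGroup.eq] at h2
    have h3 : a = x ^ k * ((x ^ k)⁻¹ * a) := by group
    rw [h3]
    exact mul_mem (mem_sup_right (zpow_mem (mem_zpowers x) k)) (mem_sup_left h2)
  have hsupL : pPrimeCore p G ⊔ zpowers x = commutator G :=
    le_antisymm (sup_le hKle (zpowers_le.mpr hxL)) hLle
  have hinfP : pPrimeCore p G ⊓ zpowers x = ⊥ := by
    rw [eq_bot_iff]
    rintro k ⟨hk, hk2⟩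
    exact fpf_of_not_dvd hx hKnd hk hk2
  have hcardL := Cfsg.Agent.Lib.SchurZ2.card_sup_mul_card_inf (pPrimeCore p G) (zpowers x) (by
    rw [Subgroup.normalizer_eq_top_iff.mpr hKn]; exact le_top)
  rw [hsupL, hinfP, Subgroup.card_bot, mul_one, card_zpowers_x hx] at hcardL
  -- `K ⊔ N = ⊤`
  have hPL : (P : Subgroup G) ≤ commutator G := by
    rw [hP, zpowers_le]; exact hxL
  have hF := P.normalizer_sup_eq_top' hPL
  have hF' : NN x ⊔ commutator G = ⊤ := by
    have : NN x = normalizer ((P : Subgroup G) : Set G) := by rw [hP]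
    rw [this]; exact hF
  have hsupN : pPrimeCore p G ⊔ NN x = ⊤ := by
    rw [eq_top_iff, ← hF']
    apply sup_le le_sup_right
    exact hLle.trans (sup_le le_sup_left ((zpowers_le_NN x).trans le_sup_right))
  have hinfN := inf_NN hx hC (pPrimeCore p G) hKnd
  have hcardG := Cfsg.Agent.Lib.SchurZ2.card_sup_mul_card_inf (pPrimeCore p G) (NN x) (by
    rw [Subgroup.normalizer_eq_top_iff.mpr hKn]; exact le_top)
  rw [hsupN, hinfN, Subgroup.card_bot, mul_one, Subgroup.card_top] at hcardG
  have hNpos : 0 < Nat.card (NN x) := Nat.card_pos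
  have hK : Nat.card (pPrimeCore p G) = 1 + m * p :=
    Nat.eq_of_mul_eq_mul_right hNpos (hcardG.symm.trans hcount.symm)
  rw [← hKeq, hK]
  refine ⟨rfl, ?_⟩
  rw [hcardL, hK, mul_comm]

end


/-- Let the finite group G contain an element x of prime order p with C_G(x) = ⟨x⟩; let t be the number of conjugacy classes of elements of order p and 1 + n·p the number of subgroups of order p. Then G has a normal subgroup of order 1 + n·p if and only if either t = p − 1, or t < p − 1 and G″ ≠ G′. Moreover, if t = p − 1 then G′ has order 1 + n·p and G/G′ is cyclic of order p; and if t < p − 1 and G″ ≠ G′ then G″ has order 1 + n·p and G′ has order p·(1 + n·p). -/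
theorem result {G : Type*} [Group G] [Finite G] (p : ℕ) (hp : p.Prime) (x : G) (hx : orderOf x = p) (hC : Subgroup.centralizer ({x} : Set G) = Subgroup.zpowers x) (t : ℕ) (ht : Nat.card {C : ConjClasses G // ∃ g ∈ C.carrier, orderOf g = p} = t) (n : ℕ) (hn : Nat.card {H : Subgroup G // Nat.card H = p} = 1 + n * p) : ((∃ S : Subgroup G, S.Normal ∧ Nat.card S = 1 + n * p) ↔ (t = p - 1 ∨ (t < p - 1 ∧ derivedSeries G 2 ≠ derivedSeries G 1))) ∧ (t = p - 1 → Nat.card (commutator G) = 1 + n * p ∧ IsCyclic (G ⧸ commutator G) ∧ (commutator G).index = p) ∧ (t < p - 1 → derivedSeries G 2 ≠ derivedSeries G 1 → Nat.card (derivedSeries G 2) = 1 + n * p ∧ Nat.card (commutator G) = p * (1 + n * p)) := by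
  classical
  haveI : Fact p.Prime := ⟨hp⟩
  have hte := card_mul_e hx hC
  rw [ht] at hte
  have hP1 := one_lt_p (p := p)
  have hcount := count_np hx hC
  rw [hn] at hcount
  have hG1 : derivedSeries G 1 = commutator G := derivedSeries_one G
  have hG2 : derivedSeries G 2 = ⁅commutator G, commutator G⁆ := by
    rw [derivedSeries_succ, hG1]
  rw [hG1, hG2]
  have hcase1 : t = p - 1 → Nat.card (commutator G) = 1 + n * p ∧ IsCyclic (G ⧸ commutator G) ∧ (commutator G).index = p := by
    intro htp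
    rw [htp] at hte
    have he : Nat.card (NN x) / p = 1 := by
      have h1 : 0 < p - 1 := by omega
      exact Nat.eq_of_mul_eq_mul_left h1 (by rw [hte, mul_one])
    obtain ⟨h1, h2, h3, h4⟩ := exists_complement hx hC he
    have hN := NN_eq hx he
    refine ⟨?_, ?_, h3⟩
    · have h5 := h4.card_mul
      rw [card_zpowers_x hx] at h5
      rw [hN, card_zpowers_x hx] at hcount
      have hpos : 0 < p := by omega
      exact Nat.eq_of_mul_eq_mul_right hpos (h5.trans hcount.symm)
    · have hc : Nat.card (G ⧸ commutator G) = p := by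
        rw [← Subgroup.index_eq_card, h3]
      haveI : Fact (Nat.card (G ⧸ commutator G)).Prime := ⟨by rw [hc]; exact hp⟩
      exact isCyclic_of_prime_card rfl
  have hcase2 : t < p - 1 → ⁅commutator G, commutator G⁆ ≠ commutator G →
      Nat.card (⁅commutator G, commutator G⁆ : Subgroup G) = 1 + n * p ∧ Nat.card (commutator G) = p * (1 + n * p) := by
    intro htp hne
    have he : Nat.card (NN x) / p ≠ 1 := by
      intro h1
      rw [h1, mul_one] at hte
      omega
    exact case_two hx hC he hne hcount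
  refine ⟨⟨?_, ?_⟩, hcase1, hcase2⟩
  · rintro ⟨S, hSn, hS⟩
    by_cases htp : t = p - 1
    · left; exact htp
    · right
      have he : Nat.card (NN x) / p ≠ 1 := by
        intro h1
        rw [h1, mul_one] at hte
        exact htp hte
      have htlt : t < p - 1 := lt_of_mul_eq hte (by omega) he
      refine ⟨htlt, ?_⟩
      haveI := hSn
      exact not_perfect_of_normal hx hC he S hS hcount
  · rintro (htp | ⟨htp, hne⟩)
    · obtain ⟨h1, -, -⟩ := hcase1 htp
      exact ⟨commutator G, inferInstance, h1⟩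
    · obtain ⟨h1, -⟩ := hcase2 htp hne
      exact ⟨_, Subgroup.commutator_normal _ _, h1⟩

end Cfsg.Agent.S4509
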