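import Cfsg.Statements.S4511
import Cfsg.Agent.Lib.BlockCount

set_option autoImplicit false
set_option linter.all false
open Cfsg

namespace Cfsg.Agent.S4511

/-- Brauer's count of the irreducible characters in a block by subsections. Let M be a maximal ideal of the algebraic integers containing the prime p, B a p-block of the finite group G, and X a set of representatives of the conjugacy classes of p-elements of G (elements of p-power order, the identity included: every p-element is conjugate to exactly one member of X). Then the number of irreducible characters in B is the sum, over x ∈ X and over the blocks b of C_G(x) that induce B, of the p-regular rank of b (the number of irreducible Brauer characters of b, here the dimension of the span of the restrictions of the members of b to the p-regular elements of C_G(x)). -/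
theorem result {G : Type*} [Group G] [Finite G] (p : ℕ) (M : Ideal Cfsg.AlgInt) (hM : Cfsg.IsPModular p M)
    (B : Set (Cfsg.IrrCharacter G)) (hB : Cfsg.IsPBlock M B) (X : Finset G)
    (hX : ∀ x ∈ X, ∃ k : ℕ, orderOf x = p ^ k)
    (hXrep : ∀ g : G, (∃ k : ℕ, orderOf g = p ^ k) → ∃! x, x ∈ X ∧ IsConj g x) :
    Nat.card B = ∑ x ∈ X, ∑ᶠ b ∈ {b : Set (Cfsg.IrrCharacter ↥(Subgroup.centralizer ({x} : Set G))) | Cfsg.IsInducedBlock M (Subgroup.centralizer ({x} : Set G)) b B},
      Cfsg.blockRank p b := by
  classical
  letI : Fintype G := Fintype.ofFinite G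
  letI inst1 : ∀ x : G, Fintype (Subgroup.centralizer ({x} : Set G)) := fun x => Fintype.ofFinite _
  letI inst2 : ∀ x : {x // x ∈ X}, Fintype ↥(Cfsg.Agent.Lib.BlockCount.IndSet M B (x : G)) := fun x => Fintype.ofFinite _
  letI inst3 : Fintype B := Fintype.ofFinite _
  have h1 := Cfsg.Agent.Lib.BlockCount.card_block_le hM hB X hX hXrep
  have h2 := Cfsg.Agent.Lib.BlockCount.sum_le_card_block hM (B := B) X hX hXrep
  have h3 : (∑ x ∈ X, ∑ᶠ b ∈ {b : Set (Cfsg.IrrCharacter ↥(Subgroup.centralizer ({x} : Set G))) | Cfsg.IsInducedBlock M (Subgroup.centralizer ({x} : Set G)) b B},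
      Cfsg.blockRank p b) = ∑ i : Cfsg.Agent.Lib.BlockCount.IdxT M B X, Module.finrank ℂ (Cfsg.Agent.Lib.BlockCount.regW p i.2.1) := by
    rw [Fintype.sum_sigma, ← Finset.sum_coe_sort X]
    refine Finset.sum_congr rfl fun x _ => ?_
    rw [← finsum_set_coe_eq_finsum_mem]
    rw [finsum_eq_sum_of_fintype]
    rfl
  rw [h3, Nat.card_eq_fintype_card]
  exact le_antisymm h1 h2

end Cfsg.Agent.S4511
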