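import Cfsg.Statements.S4633
import Cfsg.Agent.Lib.BlockPC

set_option autoImplicit false
set_option linter.all false
open Cfsg

namespace Cfsg.Agent.S4633

/-- Let B be a block of the finite group G relative to a maximal ideal M of the algebraic integers containing the prime p, with a nontrivial cyclic defect group P. Let c be a block of C_G(P) inducing B and T the stabilizer of c in N_G(P) (the elements of N_G(P) conjugating c to itself); T contains C_G(P). Then T/C_G(P) is cyclic of order dividing p − 1, and it acts freely on the non-identity elements of P: an element of T fixing some non-identity element of P under conjugation lies in C_G(P). -/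
theorem result {G : Type*} [Group G] [Finite G] (p : ℕ) [Fact p.Prime] (M : Ideal Cfsg.AlgInt) (hM : Cfsg.IsPModular p M) (B : Set (Cfsg.IrrCharacter G)) (hB : Cfsg.IsPBlock M B) (P : Subgroup G) (hPD : Cfsg.IsDefectGroup p M B P) (hP1 : P ≠ ⊥) (hcyc : IsCyclic P) (c : Set (Cfsg.IrrCharacter (Subgroup.centralizer (P : Set G)))) (hc : Cfsg.IsInducedBlock M (Subgroup.centralizer (P : Set G)) c B) (T : Subgroup G) (hT : ∀ g : G, g ∈ T ↔ (g ∈ Subgroup.normalizer (P : Set G) ∧ Cfsg.StabilizesBlock (Subgroup.centralizer (P : Set G)) c g)) [hn : ((Subgroup.centralizer (P : Set G)).subgroupOf T).Normal] : IsCyclic (T ⧸ (Subgroup.centralizer (P : Set G)).subgroupOf T) ∧ (Subgroup.centralizer (P : Set G)).relIndex T ∣ p - 1 ∧ ∀ g ∈ T, ∀ x ∈ P, x ≠ 1 → g * x * g⁻¹ = x → g ∈ Subgroup.centralizer (P : Set G) := by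
  classical
  letI : Fintype G := Fintype.ofFinite _
  haveI : M.IsPrime := hM.2.1.isPrime
  letI : Fintype (Subgroup.centralizer (P : Set G)) := Fintype.ofFinite _
  letI : Fintype T := Fintype.ofFinite _
  have hPp : IsPGroup p P := by
    obtain ⟨g, _, S, rfl⟩ := hPD
    exact Cfsg.Agent.Lib.CharBlockMinMax.isPGroup_sylow_map S
  have hpair := Cfsg.Agent.Lib.BlockAbInd.pair_of_induced hM hPp hc
  have hTS : Cfsg.Agent.Lib.BlockMax.IsStab P c T := fun y => hT y
  have hmax := Cfsg.Agent.Lib.BlockRecep.maximal_of_defect hM hpair hPD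
  have hDT := Cfsg.Agent.Lib.BlockFrob.maximal_stab_defect hM hmax hTS
  have hI := Cfsg.Agent.Lib.BlockSat.defect_sup_index hM hpair.1 hTS hDT
  have hab : P ≤ Subgroup.centralizer (P : Set G) := by
    intro x hx
    rw [Subgroup.mem_centralizer_iff]
    intro y hy
    have h0 := (IsCyclic.commutative (α := P)).is_comm.comm ⟨y, hy⟩ ⟨x, hx⟩
    simpa using congrArg Subtype.val h0
  have hidx : ((P.subgroupOf T) ⊔ (Subgroup.inclusion hTS.cent_le).range).index =
      (Subgroup.centralizer (P : Set G)).relIndex T := by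
    rw [Subgroup.inclusion_range, ← Subgroup.subgroupOf_sup hTS.self_le hTS.cent_le, sup_eq_right.2 hab]
    rfl
  rw [hidx] at hI
  exact Cfsg.Agent.Lib.BlockPC.cyc_quotient hPp hcyc hP1 hTS.le_norm hI
end Cfsg.Agent.S4633
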