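import Cfsg.Statements.S4636


set_option autoImplicit false
set_option linter.all false
open scoped Pointwise
open Cfsg

namespace Cfsg.Agent.S4636

/-- Let P be a nontrivial cyclic p-subgroup of the finite group G and Z its subgroup of order p. For every x outside N_G(Z), P meets its conjugate xPx⁻¹ trivially; consequently N_G(Q) ≤ N_G(Z) for every nontrivial subgroup Q of P. -/
theorem result {G : Type*} [Group G] [Finite G] (p : ℕ) [Fact p.Prime] (P : Subgroup G) (hP : IsPGroup p P) (hP1 : P ≠ ⊥) (hcyc : IsCyclic P) (Z : Subgroup G) (hZ : Z ≤ P) (hZcard : Nat.card Z = p) : (∀ x : G, x ∉ Subgroup.normalizer (Z : Set G) → P ⊓ MulAut.conj x • P = ⊥) ∧ ∀ Q : Subgroup G, Q ≤ P → Q ≠ ⊥ → Subgroup.normalizer (Q : Set G) ≤ Subgroup.normalizer (Z : Set G) := by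
  classical
  haveI := hcyc
  haveI : Fintype P := Fintype.ofFinite P
  -- `Z` is the unique subgroup of order `p` of `P`
  have hchar : ∀ A : Subgroup G, A ≤ P → Nat.card A = p → ∀ x : G, x ∈ A ↔ x ∈ P ∧ x ^ p = 1 := by
    intro A hA hAc x
    constructor
    · intro hx
      refine ⟨hA hx, ?_⟩
      have := pow_card_eq_one' (x := (⟨x, hx⟩ : A))
      rw [hAc] at this
      simpa using congrArg Subtype.val this
    · rintro ⟨hxP, hxp⟩
      haveI : Fintype A := Fintype.ofFinite A
      let F : Finset P := Finset.univ.filter (fun a : P => a ^ p = 1)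
      have hF : F.card ≤ p := IsCyclic.card_pow_eq_one_le (Fact.out : p.Prime).pos
      let I : Finset P := (Finset.univ : Finset A).image (fun a => ⟨a.1, hA a.2⟩)
      have hIF : I ⊆ F := by
        intro a ha
        obtain ⟨b, -, rfl⟩ := Finset.mem_image.mp ha
        simp only [F, Finset.mem_filter, Finset.mem_univ, true_and]
        have := pow_card_eq_one' (x := b)
        rw [hAc] at this
        apply Subtype.ext
        simpa using congrArg Subtype.val this
      have hIc : I.card = p := by
        rw [Finset.card_image_of_injective]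
        · rw [Finset.card_univ, ← Nat.card_eq_fintype_card, hAc]
        · intro a b hab
          apply Subtype.ext
          exact congrArg (fun y : P => (y : G)) hab
      have hEq : I = F := Finset.eq_of_subset_of_card_le hIF (by rw [hIc]; exact hF)
      have hxF : (⟨x, hxP⟩ : P) ∈ F := by
        simp only [F, Finset.mem_filter, Finset.mem_univ, true_and]
        apply Subtype.ext
        simpa using hxp
      rw [← hEq] at hxF
      obtain ⟨b, -, hb⟩ := Finset.mem_image.mp hxF
      have : (b : G) = x := congrArg (fun y : P => (y : G)) hb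
      rw [← this]
      exact b.2
  have hmain : ∀ x : G, (P ⊓ MulAut.conj x • P) ≠ ⊥ → x ∈ Subgroup.normalizer (Z : Set G) := by
    intro x hT
    set T := P ⊓ MulAut.conj x • P with hTdef
    have hTp : IsPGroup p T := hP.to_le inf_le_left
    have hTdvd : p ∣ Nat.card T := by
      obtain ⟨k, hk⟩ := IsPGroup.iff_card.mp hTp
      have hk0 : k ≠ 0 := by
        rintro rfl
        rw [pow_zero] at hk
        exact hT (Subgroup.card_eq_one.mp hk)
      rw [hk]
      exact dvd_pow_self p hk0
    obtain ⟨t, ht⟩ := exists_prime_orderOf_dvd_card' p hTdvd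
    set y : G := (t : G) with hy
    have hyo : orderOf y = p := by
      rw [hy, Subgroup.orderOf_coe]
      exact ht
    have hyP : y ∈ P := t.2.1
    have hyx : x⁻¹ * y * x ∈ P := by
      have h1 : y ∈ MulAut.conj x • P := t.2.2
      rw [Subgroup.mem_pointwise_smul_iff_inv_smul_mem] at h1
      simpa [MulAut.smul_def, MulAut.conj_inv_apply] using h1
    set w : G := x⁻¹ * y * x with hw
    have hwo : orderOf w = p := by
      have : w = MulAut.conj x⁻¹ y := by
        simp [hw, MulAut.conj_apply]
      rw [this, MulEquiv.orderOf_eq]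
      exact hyo
    have hZy : Z = Subgroup.zpowers y := by
      apply Subgroup.ext
      intro a
      rw [hchar Z hZ hZcard a, hchar (Subgroup.zpowers y) (by simpa using hyP)
        (by rw [Nat.card_zpowers, hyo]) a]
    have hZw : Z = Subgroup.zpowers w := by
      apply Subgroup.ext
      intro a
      rw [hchar Z hZ hZcard a, hchar (Subgroup.zpowers w) (by simpa using hyx)
        (by rw [Nat.card_zpowers, hwo]) a]
    rw [Subgroup.mem_normalizer_iff'']
    intro z
    constructor
    · intro hz
      rw [hZy] at hz
      obtain ⟨k, rfl⟩ := Subgroup.mem_zpowers_iff.mp hz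
      have h2 : x⁻¹ * y ^ k * x = w ^ k := by
        rw [hw]
        have : x⁻¹ * y * x = MulAut.conj x⁻¹ y := by simp [MulAut.conj_apply]
        rw [this, ← map_zpow]
        simp [MulAut.conj_apply]
      rw [h2, hZw]
      exact Subgroup.zpow_mem_zpowers w k
    · intro hz
      rw [hZw] at hz
      obtain ⟨k, hk⟩ := Subgroup.mem_zpowers_iff.mp hz
      have h2 : x⁻¹ * y ^ k * x = w ^ k := by
        rw [hw]
        have : x⁻¹ * y * x = MulAut.conj x⁻¹ y := by simp [MulAut.conj_apply]
        rw [this, ← map_zpow]
        simp [MulAut.conj_apply]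
      rw [← h2] at hk
      have h3 : y ^ k = z := by
        have := congrArg (fun u => x * u * x⁻¹) hk
        simpa [mul_assoc] using this
      rw [← h3, hZy]
      exact Subgroup.zpow_mem_zpowers y k
  refine ⟨?_, ?_⟩
  · intro x hx
    by_contra h
    exact hx (hmain x h)
  · intro Q hQ hQ1 g hg
    apply hmain g
    intro h
    apply hQ1
    rw [eq_bot_iff, ← h]
    refine le_inf hQ ?_
    intro q hq
    rw [Subgroup.mem_pointwise_smul_iff_inv_smul_mem]
    have h1 : g⁻¹ * q * g ∈ Q := (Subgroup.mem_normalizer_iff''.mp hg q).mp hq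
    apply hQ
    simpa [MulAut.smul_def, MulAut.conj_inv_apply] using h1

end Cfsg.Agent.S4636
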