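import Cfsg.Statements.S4646
import Cfsg.Agent.Lib.BlockSub
import Cfsg.Agent.Lib.BlockApps
import Cfsg.Agent.Lib.BlockPair
import Cfsg.Agent.Lib.CharBlockKer
import Cfsg.Agent.Lib.PNilpB

set_option autoImplicit false
set_option linter.all false
open Cfsg

namespace Cfsg.Agent.S4646

/-- For a finite group G, a prime p and a maximal ideal M of the algebraic integers containing p: the principal block of G is nilpotent if and only if its p-regular rank is 1 (the trivial Brauer character is its only irreducible Brauer character). -/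
theorem result {G : Type*} [Group G] [Finite G] (p : ℕ) [Fact p.Prime] (M : Ideal Cfsg.AlgInt) (hM : Cfsg.IsPModular p M) : Cfsg.IsNilpotentBlock p M (Cfsg.principalBlock M G) ↔ Cfsg.blockRank p (Cfsg.principalBlock M G) = 1 := by
  classical
  letI : Fintype G := Fintype.ofFinite G
  haveI hprime : M.IsPrime := hM.2.1.isPrime
  have hp : p.Prime := Fact.out
  let ρ : G → ℂ := Cfsg.pRegularPart p (fun _ => (1 : ℂ))
  let S : Submodule ℂ (G → ℂ) := Submodule.span ℂ ((fun χ : Cfsg.IrrCharacter G => Cfsg.pRegularPart p (χ : G → ℂ)) '' Cfsg.principalBlock M G)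
  have hρS : ρ ∈ S := Submodule.subset_span
    ⟨Cfsg.Agent.Lib.BlockApps.one' G, Cfsg.Agent.Lib.BlockApps.one_mem_principal, rfl⟩
  have hreg1 : Cfsg.IsPRegular p (1 : G) := by
    simp [Cfsg.IsPRegular, hp.ne_one]
  have hρ1 : ρ 1 = 1 := by
    simp only [ρ, Cfsg.pRegularPart]
    rw [if_pos hreg1]
  have hnz : (⟨ρ, hρS⟩ : S) ≠ 0 := by
    intro h
    have h1 := congrArg (fun v : S => (v : G → ℂ) 1) h
    simp only [hρ1] at h1
    simp at h1
  have hreg_eval : ∀ (φ : G → ℂ) (x : G), Cfsg.IsPRegular p x → Cfsg.pRegularPart p φ x = φ x := by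
    intro φ x hx
    simp only [Cfsg.pRegularPart]
    rw [if_pos hx]
  constructor
  · intro hnil
    have hnpc : Cfsg.HasNormalPComplement p G := by
      refine Cfsg.Agent.Lib.PNilpB.frob2 fun Q hQ y hy hyc => ?_
      letI : Fintype (Subgroup.centralizer (Q : Set G)) := Fintype.ofFinite _
      have hpair := (Cfsg.Agent.Lib.BlockPair.isBrauerPairOf_principal_iff hM Q hQ _
        Cfsg.Agent.Lib.BlockApps.principal_isBlock).2 rfl
      have hy' : y ∈ Subgroup.normalizer ((Subgroup.centralizer (Q : Set G) : Subgroup G) : Set G) :=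
        Cfsg.Agent.Lib.BlockSub.normalizes_centralizer le_rfl hy
      refine hnil.2 Q _ hpair y hy ?_ ((Nat.Prime.coprime_iff_not_dvd hp).1 hyc.symm)
      refine (Cfsg.Agent.Lib.BlockSub.stabilizes_iff _ hy' Cfsg.Agent.Lib.BlockApps.principal_isBlock).2 ?_
      refine Cfsg.Agent.Lib.BlockSub.block_eq_of_mem
        (Cfsg.Agent.Lib.BlockSub.isPBlock_image _ Cfsg.Agent.Lib.BlockApps.principal_isBlock)
        Cfsg.Agent.Lib.BlockApps.principal_isBlock (χ := Cfsg.Agent.Lib.BlockApps.one' _) ?_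
        Cfsg.Agent.Lib.BlockApps.one_mem_principal
      exact ⟨Cfsg.Agent.Lib.BlockApps.one' _, Cfsg.Agent.Lib.BlockApps.one_mem_principal, Subtype.ext rfl⟩
    obtain ⟨N, hNn, hNp, hpow⟩ := Cfsg.Agent.Lib.PNilp.npc_iff.1 hnpc
    haveI := hNn
    have hregN : ∀ g : G, Cfsg.IsPRegular p g → g ∈ N := by
      intro g hg
      obtain ⟨k, hk⟩ := hpow g
      have hcop : (p ^ k).Coprime (orderOf g) :=
        Nat.Coprime.pow_left k ((Nat.Prime.coprime_iff_not_dvd hp).2 hg)
      obtain ⟨m, hm⟩ := exists_pow_eq_self_of_coprime hcop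
      rw [← hm]
      exact N.pow_mem hk m
    have hle : S ≤ Submodule.span ℂ {ρ} := by
      refine Submodule.span_le.2 ?_
      rintro _ ⟨χ, hχ, rfl⟩
      refine SetLike.mem_coe.2 (Submodule.mem_span_singleton.2 ⟨(χ : G → ℂ) 1, ?_⟩)
      funext x
      simp only [Pi.smul_apply, smul_eq_mul, ρ, Cfsg.pRegularPart]
      by_cases hx : Cfsg.IsPRegular p x
      · rw [if_pos hx, if_pos hx, mul_one]
        exact (Cfsg.Agent.Lib.CharBlockKer.ker_of_sameBlock hM N hNp
          (Cfsg.Agent.Lib.BlockApps.one' G).2 χ.2 hχ (fun _ _ => rfl) x (hregN x hx)).symm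
      · rw [if_neg hx, if_neg hx, mul_zero]
    refine (finrank_eq_one_iff_of_nonzero' (⟨ρ, hρS⟩ : S) hnz).2 ?_
    rintro ⟨w, hw⟩
    obtain ⟨c, hc⟩ := Submodule.mem_span_singleton.1 (hle hw)
    exact ⟨c, Subtype.ext hc⟩
  · intro hrank
    have hrank' := (finrank_eq_one_iff_of_nonzero' (⟨ρ, hρS⟩ : S) hnz).1 hrank
    have hker : ∀ x : G, Cfsg.IsPRegular p x → x ∈ Cfsg.blockKer (Cfsg.principalBlock M G) := by
      intro x hx χ hχ
      obtain ⟨c, hc⟩ := hrank' ⟨Cfsg.pRegularPart p (χ : G → ℂ), Submodule.subset_span ⟨χ, hχ, rfl⟩⟩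
      have hc' : c • ρ = Cfsg.pRegularPart p (χ : G → ℂ) := congrArg Subtype.val hc
      have e1 := congrFun hc' 1
      have e2 := congrFun hc' x
      simp only [Pi.smul_apply, smul_eq_mul, hρ1, mul_one] at e1
      rw [hreg_eval _ 1 hreg1] at e1
      simp only [Pi.smul_apply, smul_eq_mul] at e2
      rw [hreg_eval _ x hx] at e2
      have e3 : ρ x = 1 := by
        simp only [ρ]
        rw [hreg_eval _ x hx]
      rw [e3, mul_one] at e2
      rw [← e2, e1]
    obtain ⟨K, hKn, hKset, hKp, -, -⟩ := Cfsg.Agent.Lib.CharBlockKer.exists_blockKer hM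
      Cfsg.Agent.Lib.BlockApps.principal_isBlock (Cfsg.Agent.Lib.BlockApps.one_mem_principal (M := M) (G := G))
    haveI := hKn
    refine ⟨Cfsg.Agent.Lib.BlockApps.principal_isBlock, fun Q e hQe x hxN _ hxreg => ?_⟩
    have hQ : IsPGroup p Q := hQe.1.1
    have hxK : x ∈ K := by
      have : x ∈ (K : Set G) := by
        rw [hKset]
        exact hker x hxreg
      exact this
    rw [Subgroup.mem_centralizer_iff]
    intro q hq
    have hzQ : x * q * x⁻¹ * q⁻¹ ∈ Q :=
      Q.mul_mem ((Subgroup.mem_normalizer_iff.1 hxN q).1 hq) (Q.inv_mem hq)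
    have hzK : x * q * x⁻¹ * q⁻¹ ∈ K := by
      have h1 : q * x⁻¹ * q⁻¹ ∈ K := hKn.conj_mem _ (K.inv_mem hxK) q
      have e : x * q * x⁻¹ * q⁻¹ = x * (q * x⁻¹ * q⁻¹) := by group
      rw [e]
      exact K.mul_mem hxK h1
    have hz1 : x * q * x⁻¹ * q⁻¹ = 1 := by
      obtain ⟨k, hk⟩ := hQ ⟨_, hzQ⟩
      have hk' : (x * q * x⁻¹ * q⁻¹) ^ (p ^ k) = 1 := by simpa using congrArg Subtype.val hk
      obtain ⟨j, -, hj⟩ := (Nat.dvd_prime_pow hp).1 (orderOf_dvd_of_pow_eq_one hk')
      have h2 : orderOf (x * q * x⁻¹ * q⁻¹) ∣ Nat.card K := Subgroup.orderOf_dvd_natCard K hzK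
      have hj0 : j = 0 := by
        by_contra hne
        apply hKp
        refine dvd_trans ?_ h2
        rw [hj]
        exact dvd_pow_self p hne
      rw [hj0, pow_zero, orderOf_eq_one_iff] at hj
      exact hj
    have e3 : x * q * x⁻¹ = q := mul_inv_eq_one.1 hz1
    calc q * x = x * q * x⁻¹ * x := by rw [e3]
      _ = x * q := by group

end Cfsg.Agent.S4646
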