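import Cfsg.Statements.S4650
import Cfsg.Agent.Lib.BlockAbInd

set_option autoImplicit false
set_option linter.all false
open Cfsg

namespace Cfsg.Agent.S4650

/-- Let B be a block of the finite group G relative to a maximal ideal M of the algebraic integers containing the prime p, with a nontrivial commutative defect group P; let c be a block of C_G(P) inducing B and T the stabilizer of c in N_G(P). Then T/C_G(P) acts freely on the non-identity elements of P (an element of T fixing a non-identity element of P under conjugation lies in C_G(P)) if and only if, for every nontrivial subgroup Q of P, the block of C_G(Q) induced by c inside C_G(Q) is a nilpotent block of C_G(Q). -/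
theorem result {G : Type*} [Group G] [Finite G] (p : ℕ) [Fact p.Prime] (M : Ideal Cfsg.AlgInt) (hM : Cfsg.IsPModular p M) (B : Set (Cfsg.IrrCharacter G)) (hB : Cfsg.IsPBlock M B) (P : Subgroup G) (hPD : Cfsg.IsDefectGroup p M B P) (hPab : ∀ x ∈ P, ∀ y ∈ P, x * y = y * x) (hP1 : P ≠ ⊥) (c : Set (Cfsg.IrrCharacter (Subgroup.centralizer (P : Set G)))) (hc : Cfsg.IsInducedBlock M (Subgroup.centralizer (P : Set G)) c B) (T : Subgroup G) (hT : ∀ g : G, g ∈ T ↔ (g ∈ Subgroup.normalizer (P : Set G) ∧ Cfsg.StabilizesBlock (Subgroup.centralizer (P : Set G)) c g)) : (∀ g ∈ T, ∀ x ∈ P, x ≠ 1 → g * x * g⁻¹ = x → g ∈ Subgroup.centralizer (P : Set G)) ↔ ∀ Q : Subgroup G, Q ≤ P → Q ≠ ⊥ → ∀ f : Set (Cfsg.IrrCharacter (Subgroup.centralizer (Q : Set G))), Cfsg.IsInducedBlockIn M (Subgroup.centralizer (Q : Set G)) (Subgroup.centralizer (P : Set G)) c f → Cfsg.IsNilpotentBlock p M f := by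
  classical
  letI : Fintype G := Fintype.ofFinite G
  haveI hprime : M.IsPrime := hM.2.1.isPrime
  have hP : IsPGroup p P := by
    obtain ⟨g, -, S, rfl⟩ := hPD
    exact Cfsg.Agent.Lib.CharBlockMinMax.isPGroup_sylow_map S
  have hpair := Cfsg.Agent.Lib.BlockAbInd.pair_of_induced hM hP hc
  have hmax := Cfsg.Agent.Lib.BlockRecep.maximal_of_defect hM hpair hPD
  constructor
  · intro hfree Q hQP hQ1 f hind
    rw [Cfsg.Agent.Lib.BlockAbInd.nilp_iff_of_inducedIn hM hmax hPab hQP hind]
    intro x hxQ hxN hxS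
    obtain ⟨q, hq, hq1⟩ : ∃ q ∈ Q, q ≠ 1 := Subgroup.ne_bot_iff_exists_ne_one.1 hQ1 |>.elim (fun a ha => ⟨(a : G), a.2, fun h => ha (Subtype.ext h)⟩)
    refine hfree x ((hT x).2 ⟨hxN, hxS⟩) q (hQP hq) hq1 ?_
    have := Subgroup.mem_centralizer_iff.1 hxQ q hq
    rw [← this]
    group
  · intro hnil g hg x hx hx1 hgx
    let Q : Subgroup G := Subgroup.zpowers x
    have hQP : Q ≤ P := (Subgroup.zpowers_le).2 hx
    have hQ1 : Q ≠ ⊥ := by
      intro h
      apply hx1
      have : x ∈ Q := Subgroup.mem_zpowers x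
      rw [h] at this
      exact (Subgroup.mem_bot).1 this
    have hgQ : g ∈ Subgroup.centralizer (Q : Set G) := by
      rw [Subgroup.mem_centralizer_iff]
      rintro _ ⟨k, rfl⟩
      have hc : Commute g x := by
        show g * x = x * g
        calc g * x = g * x * g⁻¹ * g := by group
          _ = x * g := by rw [hgx]
      exact (hc.zpow_right k).symm.eq
    obtain ⟨f, hind⟩ := Cfsg.Agent.Lib.BlockAbInd.exists_inducedIn hM hP hPab hQP hc.1
    have hn := hnil Q hQP hQ1 f hind
    rw [Cfsg.Agent.Lib.BlockAbInd.nilp_iff_of_inducedIn hM hmax hPab hQP hind] at hn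
    exact hn g hgQ ((hT g).1 hg).1 ((hT g).1 hg).2

end Cfsg.Agent.S4650
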