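import Cfsg.Statements.S4665
import Cfsg.Agent.Lib.CharGen

set_option autoImplicit false
set_option linter.all false
open Cfsg

namespace Cfsg.Agent.S4665

/-- Fix a prime p, a maximal ideal M of the algebraic integers containing p, and a p-block B of the finite group G, and let p^a be the p-part of the order of G. Let χ be an integer combination of the irreducible characters in B. If the function that agrees with χ on p-regular elements and vanishes on p-singular elements is again an integer combination of the irreducible characters in B, then p^a divides χ(1). -/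
theorem result {G : Type*} [Group G] [Fintype G] (p : ℕ) [Fact p.Prime] (M : Ideal Cfsg.AlgInt) (hM : Cfsg.IsPModular p M) (B : Set (Cfsg.IrrCharacter G)) (hB : Cfsg.IsPBlock M B) (χ : G → ℂ) (hχ : (∃ n : Cfsg.IrrCharacter G → ℤ, ∀ g : G, χ g = ∑ᶠ ψ ∈ B, (n ψ : ℂ) * (ψ : G → ℂ) g)) (h0 : (∃ n : Cfsg.IrrCharacter G → ℤ, ∀ g : G, Cfsg.pRegularPart p χ g = ∑ᶠ ψ ∈ B, (n ψ : ℂ) * (ψ : G → ℂ) g)) : ∃ k : ℤ, χ 1 = (p ^ (Nat.card G).factorization p : ℂ) * k := by
  classical
  obtain ⟨n, hn⟩ := h0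
  obtain ⟨P⟩ : Nonempty (Sylow p G) := inferInstance
  set f : G → ℂ := Cfsg.pRegularPart p χ with hfdef
  have hf : Cfsg.IsGeneralizedCharacter G f := by
    have h1 : f = ∑ ψ ∈ (Set.toFinite B).toFinset, ((n ψ : ℤ) : ℂ) • (ψ : G → ℂ) := by
      funext g
      rw [hn g, finsum_mem_eq_finite_toFinset_sum _ (Set.toFinite B)]
      simp [Finset.sum_apply]
    rw [h1]
    apply Cfsg.Agent.Lib.CharGen.isGen_sum
    intro ψ _
    exact Cfsg.Agent.Lib.CharGen.isGen_zsmul
      (Cfsg.Agent.Lib.CharGen.isGen_of_char (Cfsg.Agent.Lib.CharOps.IsIrrCharacter.isCharacter' ψ.2)) _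
  have h2 := Cfsg.Agent.Lib.CharGen.isGen_restrict (P : Subgroup G) hf
  haveI : Fintype (P : Subgroup G) := Fintype.ofFinite _
  obtain ⟨m, hm⟩ := Cfsg.Agent.Lib.CharGen.exists_int_classInner h2 Cfsg.Agent.Lib.CharGen.isGen_one
  have hf1 : f 1 = χ 1 := by
    simp [hfdef, Cfsg.pRegularPart, Cfsg.IsPRegular, (Fact.out : p.Prime).ne_one]
  have hzero : ∀ x : (P : Subgroup G), x ≠ 1 → f x = 0 := by
    intro x hx
    have h3 : ¬ Cfsg.IsPRegular p (x : G) := by
      unfold Cfsg.IsPRegular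
      push_neg
      obtain ⟨k, hk⟩ := (IsPGroup.iff_orderOf.mp P.isPGroup') x
      rw [Subgroup.orderOf_coe, hk]
      have hk0 : k ≠ 0 := by
        rintro rfl
        rw [pow_zero, orderOf_eq_one_iff] at hk
        exact hx hk
      exact dvd_pow_self p hk0
    simp [hfdef, Cfsg.pRegularPart, h3]
  refine ⟨m, ?_⟩
  unfold Cfsg.classInner at hm
  have hsum : ∑ x : (P : Subgroup G), f x * (starRingEnd ℂ) (1 : ℂ) = χ 1 := by
    rw [Finset.sum_eq_single (1 : (P : Subgroup G))]
    · simp [hf1]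
    · intro x _ hx
      rw [hzero x hx]
      simp
    · simp
  have hcard : ((Nat.card (P : Subgroup G) : ℕ) : ℂ) ≠ 0 := by
    exact_mod_cast Nat.card_pos.ne'
  have hm' : (Nat.card (P : Subgroup G) : ℂ)⁻¹ * χ 1 = m := by
    rw [← hsum]
    exact hm
  have hc : ((Nat.card (P : Subgroup G) : ℕ) : ℂ) = (p ^ (Nat.card G).factorization p : ℂ) := by
    rw [P.card_eq_multiplicity]
    push_cast
    rfl
  rw [← hm', ← hc, mul_inv_cancel_left₀ hcard]

end Cfsg.Agent.S4665
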