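import Cfsg.Statements.S4666
import Mathlib
import Cfsg.Agent.Lib.BrauerRegular

set_option autoImplicit false
set_option linter.style.haveILetI false
set_option linter.unusedVariables false
open Cfsg

namespace Cfsg.Agent.S4666

/-- Fix a prime p and a maximal ideal M of the algebraic integers containing p, and a p-block B of the finite group G of defect d. For every integer combination χ of the irreducible characters in B, p^d times the function that agrees with χ on p-regular elements and vanishes elsewhere is again an integer combination of the irreducible characters in B. -/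
theorem result {G : Type*} [Group G] [Fintype G] (p : ℕ) [Fact p.Prime] (M : Ideal Cfsg.AlgInt) (hM : Cfsg.IsPModular p M) (B : Set (Cfsg.IrrCharacter G)) (hB : Cfsg.IsPBlock M B) (χ : G → ℂ) (hχ : (∃ n : Cfsg.IrrCharacter G → ℤ, ∀ g : G, χ g = ∑ᶠ ψ ∈ B, (n ψ : ℂ) * (ψ : G → ℂ) g)) : (∃ n : Cfsg.IrrCharacter G → ℤ, ∀ g : G, (p ^ Cfsg.blockDefect p B : ℂ) * Cfsg.pRegularPart p χ g = ∑ᶠ ψ ∈ B, (n ψ : ℂ) * (ψ : G → ℂ) g) := by
  classical
  choose n hn using hχ
  choose k hk0 hk using fun ψ : {ψ : Cfsg.IrrCharacter G // ψ ∈ B} =>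
    Cfsg.Agent.Lib.BrauerRegular.exists_block_expansion (p := p) hM hB ψ.2
  let n' : Cfsg.IrrCharacter G → ℤ := fun ξ =>
    ∑ ψ : Cfsg.IrrCharacter G, if h : ψ ∈ B then n ψ * k ⟨ψ, h⟩ ξ else 0
  have hn'0 : ∀ ξ, ξ ∉ B → n' ξ = 0 := by
    intro ξ hξ
    refine Finset.sum_eq_zero fun ψ _ => ?_
    split_ifs with h
    · rw [hk0 ⟨ψ, h⟩ ξ hξ, mul_zero]
    · rfl
  refine ⟨n', fun g => ?_⟩
  rw [Cfsg.Agent.Lib.CharBlockConv.finsum_mem_eq_sum_ite]
  have hrhs : ∑ ξ : Cfsg.IrrCharacter G, (if ξ ∈ B then (n' ξ : ℂ) * (ξ : G → ℂ) g else 0) =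
      ∑ ξ : Cfsg.IrrCharacter G, (n' ξ : ℂ) * (ξ : G → ℂ) g := by
    refine Finset.sum_congr rfl fun ξ _ => ?_
    split_ifs with h
    · rfl
    · rw [hn'0 ξ h]; simp
  rw [hrhs]
  have hlhs : ((p : ℂ) ^ Cfsg.blockDefect p B) * Cfsg.pRegularPart p χ g =
      ∑ ψ : Cfsg.IrrCharacter G, if h : ψ ∈ B then (n ψ : ℂ) * (∑ ξ : Cfsg.IrrCharacter G, (k ⟨ψ, h⟩ ξ : ℂ) * (ξ : G → ℂ) g) else 0 := by
    have h1 : Cfsg.pRegularPart p χ g = if p ∣ orderOf g then 0 else χ g := by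
      unfold Cfsg.pRegularPart Cfsg.IsPRegular
      by_cases hg : p ∣ orderOf g
      · simp [hg]
      · simp [hg]
    rw [h1]
    have h2 : ∀ ψ : {ψ : Cfsg.IrrCharacter G // ψ ∈ B},
        ∑ ξ : Cfsg.IrrCharacter G, (k ψ ξ : ℂ) * (ξ : G → ℂ) g =
          ((p ^ Cfsg.blockDefect p B : ℕ) : ℂ) * (if p ∣ orderOf g then 0 else (ψ.1 : G → ℂ) g) :=
      fun ψ => (hk ψ g).symm
    simp_rw [h2]
    by_cases hg : p ∣ orderOf g
    · simp [hg]
    · simp only [hg, if_false]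
      rw [hn g, Cfsg.Agent.Lib.CharBlockConv.finsum_mem_eq_sum_ite, Finset.mul_sum]
      refine Finset.sum_congr rfl fun ψ _ => ?_
      by_cases h : ψ ∈ B
      · simp only [h, if_true, dif_pos]
        push_cast
        ring
      · simp [h]
  rw [hlhs]
  show _ = ∑ ξ : Cfsg.IrrCharacter G, (((∑ ψ : Cfsg.IrrCharacter G, if h : ψ ∈ B then n ψ * k ⟨ψ, h⟩ ξ else 0 : ℤ)) : ℂ) * (ξ : G → ℂ) g
  push_cast
  simp_rw [Finset.sum_mul]
  rw [Finset.sum_comm]
  refine Finset.sum_congr rfl fun ψ _ => ?_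
  by_cases h : ψ ∈ B
  · simp only [h, dif_pos]
    rw [Finset.mul_sum]
    refine Finset.sum_congr rfl fun ξ _ => ?_
    push_cast
    ring
  · simp [h]

end Cfsg.Agent.S4666
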