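import Cfsg.Statements.S4668
import Cfsg.Agent.Lib.BlockUp
import Cfsg.Agent.Lib.BlockOrth

set_option autoImplicit false
set_option linter.all false
open Cfsg

namespace Cfsg.Agent.S4668

/-- Fix a prime p and a maximal ideal M of the algebraic integers containing p. Let Q₀ < Q₁ < ⋯ < Q_m be a strictly increasing chain of p-subgroups of the finite group G and N the intersection of their normalizers. Then every block idempotent of N is supported on C_G(Q_m): for every p-block E of N, the idempotent coefficient of E vanishes at every element of N outside C_G(Q_m). -/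
theorem result {G : Type*} [Group G] [Fintype G] (p : ℕ) [Fact p.Prime] (M : Ideal Cfsg.AlgInt) (hM : Cfsg.IsPModular p M) (m : ℕ) (Q : Fin (m + 1) → Subgroup G) (hQ : StrictMono Q) (hQp : ∀ i, IsPGroup p (Q i)) (N : Subgroup G) (hN : ∀ g : G, g ∈ N ↔ ∀ i, g ∈ Subgroup.normalizer (Q i : Set G)) (E : Set (Cfsg.IrrCharacter N)) (hE : Cfsg.IsPBlock M E) (n : N) (hn : (n : G) ∉ Subgroup.centralizer (Q (Fin.last m) : Set G)) : Cfsg.blockCoeff E n = 0 := by
  classical
  by_contra hne
  haveI hprime : M.IsPrime := hM.2.1.isPrime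
  have hp : p.Prime := Fact.out
  have hl : ∀ g, Cfsg.MemLocalRing M (Cfsg.blockCoeff E g) :=
    fun g => (Cfsg.Agent.Lib.CharBlockConv.isRClass_blockCoeff hM hE).2 g
  have hreg : ¬ p ∣ orderOf (n : G) := by
    intro h
    apply hne
    refine Cfsg.Agent.Lib.BlockOrth.blockCoeff_eq_zero_of_dvd hM hl ?_
    rwa [Subgroup.orderOf_coe] at h
  let Qm : Subgroup G := Q (Fin.last m)
  have hmono : ∀ i, Q i ≤ Qm := fun i => hQ.monotone (Fin.le_last i)
  have hQmp : IsPGroup p Qm := hQp _
  let W : ℕ → Subgroup G := fun k => Qm ⊓ ⨅ (j : Fin (m + 1)) (_ : k ≤ j.1), Subgroup.normalizer (Q j : Set G)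
  have hWmem : ∀ k x, x ∈ W k ↔ x ∈ Qm ∧ ∀ j : Fin (m + 1), k ≤ j.1 → x ∈ Subgroup.normalizer (Q j : Set G) := by
    intro k x
    simp only [W, Subgroup.mem_inf, Subgroup.mem_iInf]
  have hnQ : ∀ j, (n : G) ∈ Subgroup.normalizer (Q j : Set G) := (hN n).1 n.2
  have hWp : ∀ k, IsPGroup p (W k) := fun k => hQmp.to_le inf_le_left
  have hnW : ∀ k, (n : G) ∈ Subgroup.normalizer (W k : Set G) := by
    intro k
    rw [Subgroup.mem_normalizer_iff]
    intro h
    have hnQm : (n : G) ∈ Subgroup.normalizer (Qm : Set G) := hnQ _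
    constructor
    · intro hh
      rw [hWmem] at hh ⊢
      refine ⟨(Subgroup.mem_normalizer_iff.1 hnQm h).1 hh.1, fun j hj => ?_⟩
      exact Subgroup.mul_mem _ (Subgroup.mul_mem _ (hnQ j) (hh.2 j hj)) (Subgroup.inv_mem _ (hnQ j))
    · intro hh
      rw [hWmem] at hh ⊢
      refine ⟨(Subgroup.mem_normalizer_iff.1 hnQm h).2 hh.1, fun j hj => ?_⟩
      have h2 := Subgroup.mul_mem _ (Subgroup.mul_mem _ (Subgroup.inv_mem _ (hnQ j)) (hh.2 j hj)) (hnQ j)
      simpa [mul_assoc] using h2
  have h0 : (n : G) ∈ Subgroup.centralizer (W 0 : Set G) := by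
    haveI hnorm : (Qm.subgroupOf N).Normal :=
      Subgroup.normal_subgroupOf_of_le_normalizer (fun g hg => (hN g).1 hg _)
    have hPp : IsPGroup p (Qm.subgroupOf N) := fun x => by
      obtain ⟨k, hk⟩ := hQmp ⟨x.1.1, x.2⟩
      exact ⟨k, Subtype.ext (Subtype.ext (by simpa using congrArg Subtype.val hk))⟩
    have h1 : n ∈ Subgroup.centralizer ((Qm.subgroupOf N : Subgroup N) : Set N) := by
      by_contra hc
      exact hne (Cfsg.Agent.Lib.CharBlockInd.blockCoeff_eq_zero_of_not_centralizes hM _ hPp hE n hc)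
    rw [Subgroup.mem_centralizer_iff]
    intro x hx
    have hx' := (hWmem 0 x).1 hx
    have hxN : x ∈ N := (hN x).2 fun j => hx'.2 j (Nat.zero_le _)
    have h2 := (Subgroup.mem_centralizer_iff.1 h1) ⟨x, hxN⟩ (by
      rw [SetLike.mem_coe, Subgroup.mem_subgroupOf]
      exact hx'.1)
    exact congrArg Subtype.val h2
  have hup : ∀ k, k ≤ m + 1 → (n : G) ∈ Subgroup.centralizer (W k : Set G) := by
    intro k
    induction k with
    | zero => exact fun _ => h0
    | succ k ih =>
      intro hk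
      have hk' : k < m + 1 := hk
      refine Cfsg.Agent.Lib.BlockUp.cent_up hp (hWp (k + 1)) hreg (hnW (k + 1)) (Q := Q ⟨k, hk'⟩) ?_ ?_
      · intro x hx
        rw [hWmem]
        refine ⟨hmono _ hx, fun j hj => ?_⟩
        have hle : Q ⟨k, hk'⟩ ≤ Q j := hQ.monotone (Fin.mk_le_of_le_val (by omega))
        exact Subgroup.le_normalizer (hle hx)
      · have h1 := ih (by omega)
        rw [Subgroup.mem_centralizer_iff] at h1 ⊢
        rintro x ⟨hx1, hx2⟩
        refine h1 x ?_
        have hx1' := (hWmem _ x).1 hx1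
        refine (hWmem _ x).2 ⟨hx1'.1, fun j hj => ?_⟩
        rcases Nat.lt_or_ge k j.1 with h | h
        · exact hx1'.2 j h
        · have : j = ⟨k, hk'⟩ := Fin.ext (by simpa using le_antisymm h hj)
          rw [this]
          exact hx2
  have hfinal := hup (m + 1) le_rfl
  apply hn
  rw [Subgroup.mem_centralizer_iff] at hfinal ⊢
  intro x hx
  refine hfinal x ((hWmem _ x).2 ⟨hx, fun j hj => ?_⟩)
  exact absurd j.2 (by omega)

end Cfsg.Agent.S4668
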