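import Cfsg.Statements.S4670
import Cfsg.Agent.Lib.BlockCorr

set_option autoImplicit false
set_option linter.all false
open Cfsg

namespace Cfsg.Agent.S4670

/-- Fix a prime p and a maximal ideal M of the algebraic integers containing p. Let P be a p-subgroup of the finite group G and H a subgroup containing N_G(P). For every p-block B of G with defect group P there is exactly one p-block c of H with defect group P whose idempotent agrees with that of B, modulo the local ideal at M, at every element of C_G(P) (their Brauer-map images at P coincide); and every p-block c of H with defect group P arises in this way from exactly one such B. This is the Brauer correspondence over H. -/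
theorem result {G : Type*} [Group G] [Fintype G] (p : ℕ) [Fact p.Prime] (M : Ideal Cfsg.AlgInt) (hM : Cfsg.IsPModular p M) (P H : Subgroup G) (hP : IsPGroup p P) (hH : Subgroup.normalizer (P : Set G) ≤ H) : (∀ B : Set (Cfsg.IrrCharacter G), Cfsg.IsPBlock M B → Cfsg.IsDefectGroup p M B P → ∃! c : Set (Cfsg.IrrCharacter H), Cfsg.IsPBlock M c ∧ Cfsg.IsDefectGroup p M c (P.subgroupOf H) ∧ ∀ x : G, x ∈ Subgroup.centralizer (P : Set G) → Cfsg.MemLocalIdeal M (Cfsg.blockCoeff B x - Cfsg.subgroupBlockCoeff H c x)) ∧ (∀ c : Set (Cfsg.IrrCharacter H), Cfsg.IsPBlock M c → Cfsg.IsDefectGroup p M c (P.subgroupOf H) → ∃! B : Set (Cfsg.IrrCharacter G), Cfsg.IsPBlock M B ∧ Cfsg.IsDefectGroup p M B P ∧ ∀ x : G, x ∈ Subgroup.centralizer (P : Set G) → Cfsg.MemLocalIdeal M (Cfsg.blockCoeff B x - Cfsg.subgroupBlockCoeff H c x)) := by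
  classical
  haveI : M.IsPrime := hM.2.1.isPrime
  letI : Fintype H := Fintype.ofFinite _
  have hPH : P ≤ H := le_trans Subgroup.le_normalizer hH
  have hcN : Subgroup.centralizer (P : Set G) ≤ Subgroup.normalizer (P : Set G) :=
    Cfsg.Agent.Lib.CharBlockFirst.centralizer_le_normalizer' P
  have huH : ∀ c₁ c₂ : Set (Cfsg.IrrCharacter H), Cfsg.IsPBlock M c₁ → Cfsg.IsPBlock M c₂ →
      Cfsg.IsDefectGroup p M c₁ (P.subgroupOf H) → Cfsg.IsDefectGroup p M c₂ (P.subgroupOf H) →
      (∀ x ∈ Subgroup.centralizer (P : Set G), Cfsg.MemLocalIdeal M (Cfsg.subgroupBlockCoeff H c₁ x - Cfsg.subgroupBlockCoeff H c₂ x)) → c₁ = c₂ := by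
    intro c₁ c₂ h1 h2 h3 h4 h5
    refine Cfsg.Agent.Lib.BlockCorr.block_eq_of_cent hM (Cfsg.Agent.Lib.BlockCorr.isPGroup_subgroupOf' hP) h1 h2 h3 h4 fun x hx => ?_
    have hx' : (x : G) ∈ Subgroup.centralizer (P : Set G) := by
      rw [Subgroup.mem_centralizer_iff] at hx ⊢
      intro q hq
      have := hx ⟨q, hPH hq⟩ (by
        rw [SetLike.mem_coe, Subgroup.mem_subgroupOf]
        exact hq)
      exact congrArg Subtype.val this
    have h6 := h5 x hx'
    rwa [Cfsg.Agent.Lib.BlockMax.subgroupBlockCoeff_mem, Cfsg.Agent.Lib.BlockMax.subgroupBlockCoeff_mem] at h6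
  constructor
  · intro B hB hD
    obtain ⟨b, hb, hbD, -, hcong⟩ := Cfsg.Agent.Lib.BlockCorr.local_of_block hM hP hB hD
    obtain ⟨c, hc, hcD, hcong'⟩ := Cfsg.Agent.Lib.BlockCorr.over_of_local hM hP hPH hH hb hbD
    have hmain : ∀ x ∈ Subgroup.centralizer (P : Set G), Cfsg.MemLocalIdeal M (Cfsg.blockCoeff B x - Cfsg.subgroupBlockCoeff H c x) := by
      intro x hx
      have h1 := hcong ⟨x, hcN hx⟩ hx
      have h2 := hcong' ⟨x, hcN hx⟩ hx
      have h3 := Cfsg.Agent.Lib.CharBlockLocal.MemLocalIdeal.sub hM h1 h2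
      convert h3 using 1
      simp
    refine ⟨c, ⟨hc, hcD, hmain⟩, ?_⟩
    rintro c' ⟨hc', hcD', hcong''⟩
    refine huH c' c hc' hc hcD' hcD fun x hx => ?_
    have h3 := Cfsg.Agent.Lib.CharBlockLocal.MemLocalIdeal.sub hM (hmain x hx) (hcong'' x hx)
    convert h3 using 1
    ring
  · intro c hc hcD
    obtain ⟨b, hb, hbD, hcong⟩ := Cfsg.Agent.Lib.BlockCorr.local_of_over hM hP hPH hH hc hcD
    obtain ⟨B, hB, hBD, hcong'⟩ := Cfsg.Agent.Lib.BlockCorr.block_of_local hM hP hb hbD
    have hmain : ∀ x ∈ Subgroup.centralizer (P : Set G), Cfsg.MemLocalIdeal M (Cfsg.blockCoeff B x - Cfsg.subgroupBlockCoeff H c x) := by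
      intro x hx
      have h1 := hcong ⟨x, hcN hx⟩ hx
      have h2 := hcong' ⟨x, hcN hx⟩ hx
      have h3 := Cfsg.Agent.Lib.CharBlockLocal.MemLocalIdeal.sub hM h2 h1
      convert h3 using 1
      simp
    refine ⟨B, ⟨hB, hBD, hmain⟩, ?_⟩
    rintro B' ⟨hB', hBD', hcong''⟩
    refine Cfsg.Agent.Lib.BlockCorr.block_eq_of_cent hM hP hB' hB hBD' hBD fun x hx => ?_
    have h3 := Cfsg.Agent.Lib.CharBlockLocal.MemLocalIdeal.sub hM (hcong'' x hx) (hmain x hx)
    convert h3 using 1
    ring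

end Cfsg.Agent.S4670
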