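import Cfsg.Statements.S4691
import Cfsg.Agent.Lib.BlockMax

set_option autoImplicit false
set_option linter.all false
open Cfsg

namespace Cfsg.Agent.S4691

/-- Fix a prime p and a maximal ideal M of the algebraic integers containing p. A finite group G has a normal p-complement if and only if its principal p-block is nilpotent. -/
theorem result {G : Type*} [Group G] [Fintype G] (p : ℕ) [Fact p.Prime] (M : Ideal Cfsg.AlgInt) (hM : Cfsg.IsPModular p M) : Cfsg.HasNormalPComplement p G ↔ Cfsg.IsNilpotentBlock p M (Cfsg.principalBlock M G) := by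
  classical
  haveI := hM.2.1.isPrime
  constructor
  · intro h
    refine ⟨Cfsg.Agent.Lib.BlockApps.principal_isBlock, ?_⟩
    intro Q e hQe x hxN _ hx
    obtain ⟨N, hNn, hNp, hN⟩ := Cfsg.Agent.Lib.PNilp.npc_iff.1 h
    have hQp : IsPGroup p Q := hQe.1.1
    have hxN' : x ∈ N := by
      obtain ⟨k, hk⟩ := hN x
      have hc : (orderOf x).Coprime (p ^ k) := by
        apply Nat.Coprime.pow_right
        exact ((Nat.Prime.coprime_iff_not_dvd (Fact.out : p.Prime)).2 hx).symm
      obtain ⟨m, hm⟩ : ∃ m : ℕ, (x ^ p ^ k) ^ m = x := exists_pow_eq_self_of_coprime hc.symm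
      rw [← hm]
      exact N.pow_mem hk _
    rw [Subgroup.mem_centralizer_iff]
    intro q hq
    have h1 : x * q * x⁻¹ * q⁻¹ ∈ Q := by
      refine Q.mul_mem ?_ (Q.inv_mem hq)
      exact (Subgroup.mem_normalizer_iff.1 hxN q).1 hq
    have h2 : x * q * x⁻¹ * q⁻¹ ∈ N := by
      have : x * q * x⁻¹ * q⁻¹ = x * (q * x⁻¹ * q⁻¹) := by group
      rw [this]
      exact N.mul_mem hxN' (hNn.conj_mem _ (N.inv_mem hxN') q)
    have h3 : x * q * x⁻¹ * q⁻¹ = 1 := by
      have hmem : (x * q * x⁻¹ * q⁻¹) ∈ Q ⊓ N := ⟨h1, h2⟩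
      have hb : Q ⊓ N = ⊥ := by
        apply Subgroup.eq_bot_of_card_eq
        obtain ⟨k, hk⟩ := IsPGroup.iff_card.1 (hQp.to_le (inf_le_left : Q ⊓ N ≤ Q))
        have hd : Nat.card (Q ⊓ N : Subgroup G) ∣ Nat.card N :=
          Subgroup.card_dvd_of_le inf_le_right
        rw [hk] at hd ⊢
        cases k with
        | zero => simp
        | succ k =>
          exact absurd ((dvd_pow_self p (Nat.succ_ne_zero k)).trans hd) hNp
      rw [hb] at hmem
      exact (Subgroup.mem_bot).1 hmem
    have h4 : x * q * x⁻¹ = q := by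
      have := mul_inv_eq_one.1 h3
      exact this
    have h5 : q * x = x * q := by
      have : x * q = q * x := mul_inv_eq_iff_eq_mul.1 h4
      exact this.symm
    exact h5
  · rintro ⟨-, h⟩
    refine Cfsg.Agent.Lib.PNilpB.frob2 fun Q hQ y hy hyc => ?_
    letI : Fintype (Subgroup.centralizer (Q : Set G)) := Fintype.ofFinite _
    have hB := Cfsg.Agent.Lib.BlockApps.principal_isBlock (M := M) (G := Subgroup.centralizer (Q : Set G))
    have hpair := (Cfsg.Agent.Lib.BlockPair.isBrauerPairOf_principal_iff hM Q hQ _ hB).2 rfl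
    refine h Q _ hpair y hy ?_ ?_
    · have hyN : y ∈ Subgroup.normalizer ((Subgroup.centralizer (Q : Set G) : Subgroup G) : Set G) := by
        rw [Subgroup.mem_normalizer_iff]
        intro c
        simp only [SetLike.mem_coe, Subgroup.mem_centralizer_iff]
        constructor
        · intro hc q hq
          have hq' : y⁻¹ * q * y ∈ Q := by
            have := (Subgroup.mem_normalizer_iff.1 (Subgroup.inv_mem _ hy) q).1 hq
            simpa using this
          have := hc _ hq'
          have e1 : q * (y * c * y⁻¹) = y * ((y⁻¹ * q * y) * c) * y⁻¹ := by group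
          have e2 : y * c * y⁻¹ * q = y * (c * (y⁻¹ * q * y)) * y⁻¹ := by group
          rw [e1, e2, this]
        · intro hc q hq
          have hq' : y * q * y⁻¹ ∈ Q := (Subgroup.mem_normalizer_iff.1 hy q).1 hq
          have := hc _ hq'
          have e1 : q * c = y⁻¹ * ((y * q * y⁻¹) * (y * c * y⁻¹)) * y := by group
          have e2 : c * q = y⁻¹ * ((y * c * y⁻¹) * (y * q * y⁻¹)) * y := by group
          rw [e1, e2, this]
      rw [Cfsg.Agent.Lib.BlockSub.stabilizes_iff _ hyN hB]
      exact Cfsg.Agent.Lib.BlockPair.principal_image _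
    · intro hd
      have := Nat.Coprime.eq_one_of_dvd hyc.symm hd
      exact (Fact.out : p.Prime).one_lt.ne' this

end Cfsg.Agent.S4691
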