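import Cfsg.Statements.S4713
import Cfsg.Agent.Lib.H7Ito
import Cfsg.Agent.S0169

set_option autoImplicit false
set_option linter.all false
open Cfsg

namespace Cfsg.Agent.S4713


open Cfsg Subgroup
open Cfsg.Agent.Lib.H7Ito Cfsg.Agent.Lib.H7Char Cfsg.Agent.Lib.CharAb

universe u

theorem isPSolvable_quotient (p : ℕ) [hp : Fact p.Prime] {G : Type u} [Group G] [Finite G] (N : Subgroup G) [N.Normal]
    (h : Cfsg.IsPSolvable p G) : Cfsg.IsPSolvable p (G ⧸ N) := by
  obtain ⟨n, H, h0, hl, hmono, hnorm, hc⟩ := h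
  refine ⟨n, fun i => (H i).map (QuotientGroup.mk' N), ?_, ?_, ?_, ?_, ?_⟩
  · simp [h0]
  · simp only [hl]
    rw [← MonoidHom.range_eq_map, MonoidHom.range_eq_top]
    exact QuotientGroup.mk'_surjective N
  · intro i j hij
    exact Subgroup.map_mono (hmono hij)
  · intro i
    haveI := hnorm i
    exact Subgroup.Normal.map inferInstance _ (QuotientGroup.mk'_surjective N)
  · intro i
    have key : ((H i.castSucc).map (QuotientGroup.mk' N)).relIndex ((H i.succ).map (QuotientGroup.mk' N))
        ∣ (H i.castSucc).relIndex (H i.succ) := by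
      rw [← Subgroup.relIndex_comap, Subgroup.comap_map_eq, QuotientGroup.ker_mk']
      exact Subgroup.relIndex_dvd_of_le_left _ le_sup_left
    rcases hc i with ⟨m, hm⟩ | hcop
    · left
      rw [hm] at key
      obtain ⟨t, -, ht⟩ := (Nat.dvd_prime_pow hp.out).mp key
      exact ⟨t, ht⟩
    · right
      exact Nat.Coprime.coprime_dvd_left key hcop

theorem exists_normal_of_isPSolvable (p : ℕ) [hp : Fact p.Prime] {G : Type u} [Group G] [Finite G]
    (h : Cfsg.IsPSolvable p G) (hnt : Nontrivial G) :
    ∃ N : Subgroup G, N.Normal ∧ N ≠ ⊥ ∧ (IsPGroup p N ∨ ¬ p ∣ Nat.card N) := by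
  obtain ⟨n, H, h0, hl, hmono, hnorm, hc⟩ := h
  have key : ∀ i : ℕ, ∀ hi : i ≤ n, H ⟨i, Nat.lt_succ_of_le hi⟩ = ⊥ ∨
      ∃ N : Subgroup G, N.Normal ∧ N ≠ ⊥ ∧ (IsPGroup p N ∨ ¬ p ∣ Nat.card N) := by
    intro i
    induction i with
    | zero =>
      intro _
      left
      exact h0
    | succ i ih =>
      intro hi
      rcases ih (by omega) with h1 | h1
      · by_cases hb : H ⟨i + 1, Nat.lt_succ_of_le hi⟩ = ⊥
        · exact Or.inl hb
        · right
          refine ⟨_, hnorm _, hb, ?_⟩
          have h2 := hc ⟨i, by omega⟩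
          have h3 : (⟨i, by omega⟩ : Fin n).castSucc = ⟨i, Nat.lt_succ_of_le (by omega)⟩ := rfl
          have h4 : (⟨i, by omega⟩ : Fin n).succ = ⟨i + 1, Nat.lt_succ_of_le hi⟩ := rfl
          rw [h3, h4, h1, Subgroup.relIndex_bot_left] at h2
          rcases h2 with ⟨m, hm⟩ | hcop
          · left
            exact IsPGroup.of_card hm
          · right
            intro hd
            have := Nat.Coprime.eq_one_of_dvd hcop.symm hd
            exact hp.out.one_lt.ne' this
      · exact Or.inr h1
  rcases key n le_rfl with h1 | h1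
  · exfalso
    have h2 : H ⟨n, Nat.lt_succ_of_le le_rfl⟩ = ⊤ := hl
    rw [h2] at h1
    exact top_ne_bot h1
  · exact h1


/-- Let p be a prime and G a finite p-solvable group. Then G has a normal abelian Sylow p-subgroup if and only if the degree of every irreducible character of G is prime to p. -/
theorem result {G : Type*} [Group G] [Finite G] (p : ℕ) [Fact p.Prime] (hsolv : Cfsg.IsPSolvable p G) (P : Sylow p G) : ((P : Subgroup G).Normal ∧ IsMulCommutative P) ↔ ∀ χ : Cfsg.IrrCharacter G, ¬ p ∣ Cfsg.charDegree (χ : G → ℂ) := by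
  classical
  cases nonempty_fintype G
  constructor
  · rintro ⟨hPn, hPc⟩ χ
    obtain ⟨n, ρ, hρ, hχ⟩ := χ.2
    haveI : ρ.IsIrreducible := hρ
    haveI := hPn
    have h1 := Cfsg.Agent.S0169.result ρ (P : Subgroup G) (fun a ha b hb => by
      have := hPc.is_comm.comm (⟨a, ha⟩ : (P : Subgroup G)) ⟨b, hb⟩
      exact congrArg Subtype.val this)
    simp only [Module.finrank_fin_fun] at h1
    have h2 : charDegree (χ : G → ℂ) = n := by
      unfold charDegree
      rw [← hχ, Representation.char_one]
      simp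
    rw [h2]
    intro hd
    exact P.not_dvd_index (hd.trans h1)
  · intro hdeg
    have hnormal := normal_sylow_core (p := p) (fun X _ => Cfsg.IsPSolvable p X)
      (fun X _ _ N _ hX => isPSolvable_quotient p N hX)
      (fun X _ _ hX hnt => exists_normal_of_isPSolvable p hX hnt)
      _ G rfl hsolv hdeg P
    refine ⟨hnormal, comm_of_normal P hnormal ?_⟩
    intro χ
    rw [← charDegree_eq_deg]
    exact hdeg χ

end Cfsg.Agent.S4713
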