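import Cfsg.Statements.S4955
import Cfsg.Agent.S0169
import Cfsg.Agent.Lib.CharAMGM
import Cfsg.Agent.Lib.CharBlockVan
import Cfsg.Agent.Lib.CharInflate
import Cfsg.Agent.Lib.CharAb
import Cfsg.Agent.Lib.CharBlockSection
import Cfsg.Agent.Lib.CharBlockHeight
import Cfsg.Agent.Lib.CharBlockLocal
import Cfsg.Agent.Lib.CharBlockDefect

set_option autoImplicit false
set_option linter.all false
open Cfsg

namespace Cfsg.Agent.S4955


theorem card_classes_congr {A B : Type*} [Group A] [Group B] (e : A ≃* B) :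
    Nat.card (ConjClasses A) = Nat.card (ConjClasses B) := by
  apply Nat.card_congr
  refine ⟨ConjClasses.map e.toMonoidHom, ConjClasses.map e.symm.toMonoidHom, ?_, ?_⟩
  · intro c
    obtain ⟨a, rfl⟩ := ConjClasses.mk_surjective c
    show ConjClasses.mk (e.symm (e a)) = ConjClasses.mk a
    simp
  · intro c
    obtain ⟨a, rfl⟩ := ConjClasses.mk_surjective c
    show ConjClasses.mk (e (e.symm a)) = ConjClasses.mk a
    simp


/-- Let X be a finite group with an abelian normal Sylow p-subgroup V (a normal p-subgroup of index prime to p in which any two elements commute), and let G be a complement to V in X. Then for every v in V, writing C for the centralizer of v in G, the number k(X) of conjugacy classes of X satisfies k(X) ≤ (order of C)·(order of V) − ((order of G) − k(G)); the statement is written with the subtracted term moved to the left. In particular, if some v in V is centralized by no nonidentity element of G, then k(X) is at most the order of V. -/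
theorem result {X : Type*} [Group X] [Finite X] (p : ℕ) [Fact p.Prime] (V : Subgroup X) [V.Normal] (hVp : IsPGroup p V) (hidx : ¬ p ∣ V.index) (hab : ∀ a ∈ V, ∀ b ∈ V, a * b = b * a) (G : Subgroup X) (hGV : Subgroup.IsComplement' V G) (v : X) (hv : v ∈ V) : Nat.card (ConjClasses X) + Nat.card G ≤ Nat.card ↥(G ⊓ Subgroup.centralizer ({v} : Set X)) * Nat.card V + Nat.card (ConjClasses G) := by

  classical
  cases nonempty_fintype X
  obtain ⟨M, hM⟩ := Cfsg.Agent.Lib.CharBlockVan.exists_isPModular (Fact.out : p.Prime)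
  letI : Fintype V := Fintype.ofFinite _
  letI : Fintype (X ⧸ V) := Fintype.ofFinite _
  have hdeg : ∀ χ : Cfsg.IrrCharacter X, ¬ p ∣ Cfsg.charDegree (χ : X → ℂ) := by
    intro χ
    obtain ⟨n, ρ, hρ, hχ⟩ := χ.2
    haveI := hρ
    have h1 := Cfsg.Agent.S0169.result ρ V hab
    have h2 : Cfsg.charDegree (χ : X → ℂ) = Module.finrank ℂ (Fin n → ℂ) := by
      have h3 := Cfsg.Agent.Lib.CharBlockDefect.charDegree_cast (Cfsg.Agent.Lib.CharOps.IsIrrCharacter.isCharacter' χ.2)
      rw [← hχ] at h3 ⊢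
      rw [Representation.char_one] at h3
      exact_mod_cast h3
    rw [h2]
    intro h3
    exact hidx (h3.trans h1)
  obtain ⟨k, hk⟩ : ∃ k : ℕ, v ^ (p ^ k) = 1 := by
    obtain ⟨k, hk⟩ := (IsPGroup.iff_orderOf.1 hVp) ⟨v, hv⟩
    refine ⟨k, ?_⟩
    have : orderOf v = p ^ k := by rw [← hk]; exact (Subgroup.orderOf_mk v hv).symm
    rw [← this]; exact pow_orderOf_eq_one v
  have hg0 : ∀ χ : Cfsg.IrrCharacter X, (χ : X → ℂ) v ≠ 0 := by
    intro χ h0
    have h1 := Cfsg.Agent.Lib.CharBlockHeight.character_mul_congr hM (Cfsg.Agent.Lib.CharOps.IsIrrCharacter.isCharacter' χ.2) (y := 1) hk (Commute.one_right v)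
    rw [mul_one, h0, zero_sub] at h1
    have h2 := Cfsg.Agent.Lib.CharBlockLocal.MemLocalIdeal.neg h1
    rw [neg_neg, ← Cfsg.Agent.Lib.CharBlockDefect.charDegree_cast (Cfsg.Agent.Lib.CharOps.IsIrrCharacter.isCharacter' χ.2)] at h2
    exact hdeg χ ((Cfsg.Agent.Lib.CharBlockLocal.natCast_memLocalIdeal_iff hM _).1 h2)
  -- the generators of `⟨v⟩`
  let S : Finset X := Finset.univ.filter (fun x => ∃ m : ℕ, m.Coprime (Nat.card X) ∧ x = v ^ m)
  have hgS : v ∈ S := by
    simp only [S, Finset.mem_filter, Finset.mem_univ, true_and]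
    exact ⟨1, Nat.coprime_one_left _, (pow_one v).symm⟩
  have hSV : ∀ x ∈ S, x ∈ V := by
    intro x hx
    simp only [S, Finset.mem_filter, Finset.mem_univ, true_and] at hx
    obtain ⟨m, hm, rfl⟩ := hx
    exact V.pow_mem hv m
  have hSpow : ∀ x ∈ S, ∀ m : ℕ, m.Coprime (Nat.card X) → x ^ m ∈ S := by
    intro x hx m hm
    simp only [S, Finset.mem_filter, Finset.mem_univ, true_and] at hx ⊢
    obtain ⟨m', hm', rfl⟩ := hx
    exact ⟨m' * m, Nat.Coprime.mul_left hm' hm, (pow_mul v m' m).symm⟩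
  have hS0 : ∀ χ : Cfsg.IrrCharacter X, ∀ x ∈ S, (χ : X → ℂ) x ≠ 0 := by
    intro χ x hx
    simp only [S, Finset.mem_filter, Finset.mem_univ, true_and] at hx
    obtain ⟨m, hm, rfl⟩ := hx
    obtain ⟨n, ρ, hρ, hχ⟩ := χ.2
    rw [← hχ]
    apply Cfsg.Agent.Lib.CharAMGM.character_pow_ne_zero ρ hm
    rw [hχ]
    exact hg0 χ
  set c : ℕ := Nat.card (Subgroup.centralizer ({v} : Set X)) with hc
  have hC2 : ∀ x ∈ S, Nat.card (Subgroup.centralizer ({x} : Set X)) = c := by
    intro x hx
    simp only [S, Finset.mem_filter, Finset.mem_univ, true_and] at hx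
    obtain ⟨m, hm, rfl⟩ := hx
    have h0 : Subgroup.centralizer ({v ^ m} : Set X) = Subgroup.centralizer ({v} : Set X) := by
      apply le_antisymm
      · intro y hy
        rw [Subgroup.mem_centralizer_singleton_iff] at hy ⊢
        obtain ⟨a, ha⟩ := Cfsg.Agent.Lib.CharAMGM.exists_zpow_eq hm v
        have h1 : Commute y (v ^ m) := hy
        have h2 := h1.zpow_right a
        rwa [ha] at h2
      · intro y hy
        rw [Subgroup.mem_centralizer_singleton_iff] at hy ⊢
        exact (Commute.pow_right (show Commute y v from hy) m)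
    rw [h0]
  have hcol : ∀ x ∈ S, ∑ χ : Cfsg.IrrCharacter X, ‖(χ : X → ℂ) x‖ ^ 2 = (c : ℝ) := by
    intro x hx
    have h1 := Cfsg.Agent.Lib.CharIrr.column_orthogonality x x
    rw [if_pos (IsConj.refl x), hC2 x hx] at h1
    have h2 : ((∑ χ : Cfsg.IrrCharacter X, ‖(χ : X → ℂ) x‖ ^ 2 : ℝ) : ℂ) = ((c : ℝ) : ℂ) := by
      push_cast
      rw [← h1]
      refine Finset.sum_congr rfl fun χ _ => ?_
      rw [Complex.mul_conj, Complex.normSq_eq_norm_sq]
      push_cast
      rfl
    exact_mod_cast h2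
  have hrow : ∀ χ : Cfsg.IrrCharacter X, (S.card : ℝ) ≤ ∑ x ∈ S, ‖(χ : X → ℂ) x‖ ^ 2 := by
    intro χ
    obtain ⟨n, ρ, hρ, hχ⟩ := χ.2
    have := Cfsg.Agent.Lib.CharAMGM.card_le_sum_sq ρ S (fun x hx => by rw [hχ]; exact hS0 χ x hx) hSpow
    rwa [hχ] at this
  have hSpos : (0 : ℝ) < S.card := by exact_mod_cast Finset.card_pos.2 ⟨v, hgS⟩
  -- the characters with `V` in the kernel
  let P : Cfsg.IrrCharacter X → Prop := fun χ => ∀ n ∈ V, (χ : X → ℂ) n = (χ : X → ℂ) 1
  have hcardX : Nat.card V * Nat.card G = Nat.card X := hGV.card_mul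
  have hVpos : (0 : ℝ) < Nat.card V := by exact_mod_cast Nat.card_pos
  have hD : ∑ χ : Cfsg.IrrCharacter X, (if P χ then ‖(χ : X → ℂ) 1‖ ^ 2 else 0) = (Nat.card G : ℝ) := by
    have h1 := Cfsg.Agent.Lib.CharBlockSection.sum_deg_sq_ker (G := X) V
    have h2 : ∑ ξ : Cfsg.IrrCharacter X, (if ∀ n ∈ V, (ξ : X → ℂ) n = (ξ : X → ℂ) 1 then (ξ : X → ℂ) 1 * (starRingEnd ℂ) ((ξ : X → ℂ) 1) else 0) =
        ((∑ χ : Cfsg.IrrCharacter X, (if P χ then ‖(χ : X → ℂ) 1‖ ^ 2 else 0) : ℝ) : ℂ) := by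
      rw [Complex.ofReal_sum]
      refine Finset.sum_congr rfl fun χ _ => ?_
      by_cases hP : P χ
      · rw [if_pos hP, if_pos hP, Complex.mul_conj, Complex.normSq_eq_norm_sq]
      · rw [if_neg hP, if_neg hP]
        simp
    rw [h2, ← hcardX] at h1
    have h3 : (Nat.card V : ℝ) * (∑ χ : Cfsg.IrrCharacter X, (if P χ then ‖(χ : X → ℂ) 1‖ ^ 2 else 0)) =
        (Nat.card V : ℝ) * (Nat.card G : ℝ) := by
      exact_mod_cast h1
    exact mul_left_cancel₀ hVpos.ne' h3
  have hB : ∀ x ∈ S, ∑ χ : Cfsg.IrrCharacter X, (if P χ then 0 else ‖(χ : X → ℂ) x‖ ^ 2) = (c : ℝ) - (Nat.card G : ℝ) := by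
    intro x hx
    rw [← hcol x hx, ← hD, ← Finset.sum_sub_distrib]
    refine Finset.sum_congr rfl fun χ _ => ?_
    by_cases hP : P χ
    · rw [if_pos hP, if_pos hP, hP x (hSV x hx), sub_self]
    · rw [if_neg hP, if_neg hP, sub_zero]
  have hBcard : (((Finset.univ.filter (fun χ : Cfsg.IrrCharacter X => ¬ P χ)).card : ℝ)) ≤ (c : ℝ) - (Nat.card G : ℝ) := by
    have h1 : ∑ χ : Cfsg.IrrCharacter X, (if P χ then (0 : ℝ) else (S.card : ℝ)) ≤
        ∑ χ : Cfsg.IrrCharacter X, ∑ x ∈ S, (if P χ then 0 else ‖(χ : X → ℂ) x‖ ^ 2) := by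
      refine Finset.sum_le_sum fun χ _ => ?_
      by_cases hP : P χ
      · simp [hP]
      · simp only [hP, if_false]
        exact hrow χ
    rw [Finset.sum_comm, Finset.sum_congr rfl hB, Finset.sum_const, nsmul_eq_mul] at h1
    have h2 : ∑ χ : Cfsg.IrrCharacter X, (if P χ then (0 : ℝ) else (S.card : ℝ)) =
        ((Finset.univ.filter (fun χ : Cfsg.IrrCharacter X => ¬ P χ)).card : ℝ) * (S.card : ℝ) := by
      rw [← Finset.sum_filter_add_sum_filter_not Finset.univ P]
      have h3 : ∑ χ ∈ Finset.univ.filter P, (if P χ then (0 : ℝ) else (S.card : ℝ)) = 0 := by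
        apply Finset.sum_eq_zero
        intro χ hχ
        rw [if_pos (Finset.mem_filter.1 hχ).2]
      have h4 : ∑ χ ∈ Finset.univ.filter (fun χ => ¬ P χ), (if P χ then (0 : ℝ) else (S.card : ℝ)) =
          ∑ χ ∈ Finset.univ.filter (fun χ => ¬ P χ), (S.card : ℝ) := by
        apply Finset.sum_congr rfl
        intro χ hχ
        rw [if_neg (Finset.mem_filter.1 hχ).2]
      rw [h3, h4, zero_add, Finset.sum_const, nsmul_eq_mul]
    rw [h2, mul_comm] at h1
    exact le_of_mul_le_mul_left h1 hSpos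
  -- counting the characters over `V`
  have hAcard : (Finset.univ.filter P).card = Nat.card (ConjClasses G) := by
    have h1 : (Finset.univ.filter P).card = Nat.card {χ : Cfsg.IrrCharacter X // P χ} := by
      rw [Nat.card_eq_fintype_card, Fintype.card_subtype]
    rw [h1]
    have h2 : Nat.card {χ : Cfsg.IrrCharacter X // P χ} = Nat.card (Cfsg.IrrCharacter (X ⧸ V)) := by
      symm
      let f : Cfsg.IrrCharacter (X ⧸ V) → {χ : Cfsg.IrrCharacter X // P χ} := fun τ =>
        ⟨⟨fun g : X => (τ : X ⧸ V → ℂ) (g : X ⧸ V), Cfsg.Agent.Lib.CharInflate.isIrr_inflate V τ.2⟩, by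
          intro n hn
          have : ((n : X) : X ⧸ V) = ((1 : X) : X ⧸ V) := by
            rw [QuotientGroup.mk_one]
            exact (QuotientGroup.eq_one_iff n).2 hn
          show (τ : X ⧸ V → ℂ) (n : X ⧸ V) = (τ : X ⧸ V → ℂ) ((1 : X) : X ⧸ V)
          rw [this]⟩
      apply Nat.card_eq_of_bijective f
      constructor
      · intro τ₁ τ₂ h
        apply Subtype.ext
        funext q
        obtain ⟨g, rfl⟩ := QuotientGroup.mk_surjective q
        have h1 := congrArg (fun z : {χ : Cfsg.IrrCharacter X // P χ} => ((z : Cfsg.IrrCharacter X) : X → ℂ) g) h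
        exact h1
      · rintro ⟨χ, hχ⟩
        obtain ⟨θ, hθ, hval⟩ := Cfsg.Agent.Lib.CharInflate.exists_quotient_irr V χ.2 hχ
        refine ⟨⟨θ, hθ⟩, ?_⟩
        apply Subtype.ext
        apply Subtype.ext
        funext g
        exact hval g
    rw [h2, Cfsg.Agent.Lib.CharIrr.card_irr]
    -- `X / V ≃* G`
    let φ : G →* X ⧸ V := (QuotientGroup.mk' V).comp G.subtype
    have hφ : Function.Bijective φ := by
      constructor
      · rw [injective_iff_map_eq_one]
        intro g hg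
        have h3 : (g : X) ∈ V := (QuotientGroup.eq_one_iff _).1 hg
        have h4 : (g : X) ∈ V ⊓ G := Subgroup.mem_inf.2 ⟨h3, g.2⟩
        rw [hGV.disjoint.eq_bot, Subgroup.mem_bot] at h4
        exact Subtype.ext h4
      · intro q
        obtain ⟨x, rfl⟩ := QuotientGroup.mk_surjective q
        obtain ⟨⟨u, h⟩, huh⟩ := hGV.2 x
        refine ⟨h, ?_⟩
        have h5 : (u : X) * (h : X) = x := huh
        show ((h : X) : X ⧸ V) = (x : X ⧸ V)
        rw [QuotientGroup.eq]
        rw [← h5]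
        have h6 : ((h : X))⁻¹ * ((u : X) * (h : X)) ∈ V := by
          have := Subgroup.Normal.conj_mem (inferInstance : V.Normal) (u : X) u.2 ((h : X)⁻¹)
          simpa [mul_assoc] using this
        exact h6
    exact (card_classes_congr (MulEquiv.ofBijective φ hφ)).symm
  have hkX : Nat.card (ConjClasses X) = (Finset.univ.filter P).card + (Finset.univ.filter (fun χ : Cfsg.IrrCharacter X => ¬ P χ)).card := by
    rw [← Cfsg.Agent.Lib.CharIrr.card_irr, Finset.card_filter_add_card_filter_not, Finset.card_univ, Nat.card_eq_fintype_card]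
  -- the centralizer
  have hcle : c ≤ Nat.card ↥(G ⊓ Subgroup.centralizer ({v} : Set X)) * Nat.card V := by
    rw [mul_comm, ← Nat.card_prod]
    have hcomm : ∀ u ∈ V, ∀ h ∈ G ⊓ Subgroup.centralizer ({v} : Set X), u * h ∈ Subgroup.centralizer ({v} : Set X) := by
      intro u hu h hh
      apply Subgroup.mul_mem
      · rw [Subgroup.mem_centralizer_singleton_iff]
        exact hab u hu v hv
      · exact (Subgroup.mem_inf.1 hh).2
    let f : V × ↥(G ⊓ Subgroup.centralizer ({v} : Set X)) → Subgroup.centralizer ({v} : Set X) :=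
      fun a => ⟨(a.1 : X) * (a.2 : X), hcomm _ a.1.2 _ a.2.2⟩
    apply Nat.card_le_card_of_surjective f
    rintro ⟨x, hx⟩
    obtain ⟨⟨u, h⟩, huh⟩ := hGV.2 x
    have h5 : (u : X) * (h : X) = x := huh
    have hhc : (h : X) ∈ Subgroup.centralizer ({v} : Set X) := by
      have h6 : (h : X) = (u : X)⁻¹ * x := by rw [← h5]; group
      rw [h6]
      apply Subgroup.mul_mem _ _ hx
      apply Subgroup.inv_mem
      rw [Subgroup.mem_centralizer_singleton_iff]
      exact hab u u.2 v hv
    refine ⟨(u, ⟨h, Subgroup.mem_inf.2 ⟨h.2, hhc⟩⟩), ?_⟩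
    apply Subtype.ext
    exact h5
  have hfinal : ((Nat.card (ConjClasses X) + Nat.card G : ℕ) : ℝ) ≤ ((Nat.card ↥(G ⊓ Subgroup.centralizer ({v} : Set X)) * Nat.card V + Nat.card (ConjClasses G) : ℕ) : ℝ) := by
    have h1 : (c : ℝ) ≤ ((Nat.card ↥(G ⊓ Subgroup.centralizer ({v} : Set X)) * Nat.card V : ℕ) : ℝ) := by exact_mod_cast hcle
    rw [hkX, hAcard]
    push_cast at h1 ⊢
    linarith
  exact_mod_cast hfinal

end Cfsg.Agent.S4955
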