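import Cfsg.Statements.S4956
import Mathlib

set_option autoImplicit false
open Cfsg

namespace Cfsg.Agent.S4956

section Abstract
variable {A : Type*} [CommGroup A] [Finite A]

/-- `v ↦ v (α v)⁻¹`. -/
def omH (α : A →* A) : A →* A where
  toFun v := v * (α v)⁻¹
  map_one' := by simp
  map_mul' a b := by
    simp only [map_mul, mul_inv]
    exact mul_mul_mul_comm _ _ _ _

theorem omH_apply (α : A →* A) (v : A) : omH α v = v * (α v)⁻¹ := rfl

theorem omH_eq_one (α : A →* A) (v : A) : omH α v = 1 ↔ α v = v := by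
  rw [omH_apply, mul_inv_eq_one]
  exact eq_comm

theorem omH_disj (α : A →* A) (n : ℕ) (hn : (Nat.card A).Coprime n) (hα : ∀ v, α^[n] v = v)
    (x y : A) (hxy : x = omH α y) (hx : α x = x) : x = 1 := by
  have h : ∀ k : ℕ, x ^ k = y * (α^[k] y)⁻¹ := by
    intro k
    induction k with
    | zero => simp
    | succ k ih =>
      have hfix : α^[k] x = x := Function.iterate_fixed hx k
      have hxe : x = α^[k] y * (α^[k+1] y)⁻¹ := by
        conv_lhs => rw [← hfix, hxy, omH_apply]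
        rw [iterate_map_mul, iterate_map_inv, Function.iterate_succ_apply]
      rw [pow_succ, ih]
      conv_lhs => rw [hxe]
      rw [mul_assoc, inv_mul_cancel_left]
  have h1 : x ^ n = 1 := by
    rw [h n, hα, mul_inv_cancel]
  have h2 : x ^ Nat.card A = 1 := pow_card_eq_one'
  have h3 : orderOf x ∣ 1 := by
    have := Nat.dvd_gcd (orderOf_dvd_of_pow_eq_one h2) (orderOf_dvd_of_pow_eq_one h1)
    rwa [hn.gcd_eq_one] at this
  exact orderOf_eq_one_iff.mp (Nat.dvd_one.mp h3)

theorem omH_comm (α β : A →* A) (hc : ∀ v, α (β v) = β (α v)) (v : A) :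
    omH β (omH α v) = omH α (omH β v) := by
  simp only [omH_apply, map_mul, map_inv, hc]
  simp only [mul_inv, inv_inv]
  ac_rfl

theorem count_sol (α β : A →* A) (hc : ∀ v, α (β v) = β (α v)) (n : ℕ)
    (hn : (Nat.card A).Coprime n) (hα : ∀ v, α^[n] v = v) :
    Nat.card {p : A × A // p.1 * α p.2 = p.2 * β p.1} =
      Nat.card A * Nat.card {v : A // α v = v ∧ β v = v} := by
  classical
  let D := (omH α).range
  let Fa := (omH α).ker
  have hcardA : Nat.card A = Nat.card Fa * Nat.card D := by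
    rw [← Subgroup.card_mul_index Fa, Subgroup.index_ker]
  have hdisj : ∀ x : A, x ∈ D → x ∈ Fa → x = 1 := by
    rintro x ⟨y, hy⟩ hx
    exact omH_disj α n hn hα x y hy.symm ((omH_eq_one α x).mp hx)
  let t : D × Fa → A := fun q => (q.1 : A) * q.2
  have htinj : Function.Injective t := by
    rintro ⟨d, f⟩ ⟨d', f'⟩ h
    have h1 : (d' : A)⁻¹ * d = f' * (f : A)⁻¹ := by
      have h' : (d : A) * f = d' * f' := h
      rw [inv_mul_eq_iff_eq_mul, ← mul_assoc, ← h', mul_assoc, mul_inv_cancel, mul_one]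
    have h2 : (d' : A)⁻¹ * d = 1 := by
      apply hdisj
      · exact D.mul_mem (D.inv_mem d'.2) d.2
      · rw [h1]
        exact Fa.mul_mem f'.2 (Fa.inv_mem f.2)
    have h3 : (d : A) = d' := by
      rw [inv_mul_eq_one] at h2
      exact h2.symm
    have h4 : (f : A) = f' := by
      have h' : (d : A) * f = d' * f' := h
      rw [h3] at h'
      exact mul_left_cancel h'
    exact Prod.ext (Subtype.ext h3) (Subtype.ext h4)
  have htsurj : Function.Surjective t := by
    have : Function.Bijective t := Function.Injective.bijective_of_nat_card_le htinj (by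
      rw [Nat.card_prod, hcardA, mul_comm])
    exact this.2
  have hDinv : ∀ d : D, omH β d ∈ D := by
    rintro ⟨_, y, rfl⟩
    exact ⟨omH β y, (omH_comm α β hc y).symm⟩
  choose w₀ hw₀ using fun d : D => (hDinv d)
  let Fab := {v : A // α v = v ∧ β v = v}
  let G : Fa × (D × Fab) → {p : A × A // p.1 * α p.2 = p.2 * β p.1} := fun q =>
    ⟨((q.2.1 : A) * q.2.2.1, w₀ q.2.1 * q.1), by
      have h1 : α (q.1 : A) = q.1 := (omH_eq_one α _).mp q.1.2
      have h2 : β (q.2.2.1 : A) = q.2.2.1 := q.2.2.2.2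
      have h3 : omH α (w₀ q.2.1) = omH β q.2.1 := hw₀ q.2.1
      rw [omH_apply, omH_apply, mul_inv_eq_iff_eq_mul] at h3
      simp only [map_mul, h1, h2]
      have h4 : (q.2.1 : A) * q.2.2.1 * (α (w₀ q.2.1) * q.1) = ((q.2.1 : A) * α (w₀ q.2.1)) * (q.2.2.1 * q.1) := by ac_rfl
      have h5 : w₀ q.2.1 * q.1 * (β (q.2.1 : A) * q.2.2.1) = (w₀ q.2.1 * β (q.2.1 : A)) * (q.2.2.1 * q.1) := by ac_rfl
      rw [h4, h5]
      congr 1
      have h6 : w₀ q.2.1 = (q.2.1 : A) * (β q.2.1)⁻¹ * α (w₀ q.2.1) := h3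
      conv_rhs => rw [h6]
      rw [mul_assoc, mul_assoc, mul_comm (α (w₀ q.2.1)), inv_mul_cancel_left]⟩
  have hGbij : Function.Bijective G := by
    constructor
    · rintro ⟨f₂, d, f⟩ ⟨f₂', d', f'⟩ h
      have h1 := congrArg (fun r : {p : A × A // p.1 * α p.2 = p.2 * β p.1} => r.1.1) h
      have h2 := congrArg (fun r : {p : A × A // p.1 * α p.2 = p.2 * β p.1} => r.1.2) h
      simp only [G] at h1 h2
      have hf : (f.1 : A) ∈ Fa := (omH_eq_one α _).mpr f.2.1
      have hf' : (f'.1 : A) ∈ Fa := (omH_eq_one α _).mpr f'.2.1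
      have h3 : t (d, ⟨f.1, hf⟩) = t (d', ⟨f'.1, hf'⟩) := h1
      have h4 := htinj h3
      have h5 : d = d' := congrArg Prod.fst h4
      have h6 : (f.1 : A) = f'.1 := congrArg (fun r : D × Fa => (r.2 : A)) h4
      subst h5
      have h7 : (f₂ : A) = f₂' := mul_left_cancel h2
      exact Prod.ext (Subtype.ext h7) (Prod.ext rfl (Subtype.ext h6))
    · rintro ⟨⟨u, w⟩, hs⟩
      obtain ⟨⟨d, f₁⟩, hu⟩ := htsurj u
      have hu' : (d : A) * f₁ = u := hu
      have hs' : omH β u = omH α w := by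
        simp only at hs
        rw [omH_apply, omH_apply, mul_inv_eq_mul_inv_iff_mul_eq_mul, hs]
      have hf₁ : omH β f₁ = 1 := by
        have h1 : omH β u = omH β d * omH β f₁ := by rw [← hu', map_mul]
        have h2 : omH β f₁ = (omH β d)⁻¹ * omH α w := by
          rw [← hs', h1, inv_mul_cancel_left]
        apply hdisj
        · rw [h2]
          exact D.mul_mem (D.inv_mem (hDinv d)) ⟨w, rfl⟩
        · show omH α (omH β f₁) = 1
          rw [← omH_comm α β hc, MonoidHom.mem_ker.mp f₁.2, map_one]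
      have hβf : β (f₁ : A) = f₁ := (omH_eq_one β _).mp hf₁
      have hαf : α (f₁ : A) = f₁ := (omH_eq_one α _).mp f₁.2
      have hw : w * (w₀ d)⁻¹ ∈ Fa := by
        show omH α _ = 1
        rw [map_mul, map_inv, hw₀ d, ← hs', ← hu', map_mul, hf₁, mul_one, mul_inv_cancel]
      refine ⟨(⟨_, hw⟩, d, ⟨f₁, hαf, hβf⟩), ?_⟩
      apply Subtype.ext
      refine Prod.ext hu ?_
      show w₀ d * (w * (w₀ d)⁻¹) = w
      rw [mul_comm w, mul_inv_cancel_left]
  rw [← Nat.card_eq_of_bijective G hGbij, Nat.card_prod, Nat.card_prod, hcardA]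
  ring

end Abstract
section Concrete
variable {X : Type*} [Group X]

theorem card_conjClasses_congr {A B : Type*} [Group A] [Group B] (e : A ≃* B) :
    Nat.card (ConjClasses A) = Nat.card (ConjClasses B) := by
  refine Nat.card_congr (Quotient.congr e.toEquiv ?_)
  intro a b
  show IsConj a b ↔ IsConj (e a) (e b)
  constructor
  · intro h
    exact e.toMonoidHom.map_isConj h
  · intro h
    have := e.symm.toMonoidHom.map_isConj h
    simpa using this

/-- conjugation equivalence between the point stabilizers in `G`. -/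
theorem card_conj_stab (G : Subgroup X) (g : X) (hg : g ∈ G) (v : X) :
    Nat.card (ConjClasses ↥(G ⊓ Subgroup.centralizer ({v} : Set X))) =
      Nat.card (ConjClasses ↥(G ⊓ Subgroup.centralizer ({g * v * g⁻¹} : Set X))) := by
  have hmem : ∀ y, y ∈ G ⊓ Subgroup.centralizer ({v} : Set X) → g * y * g⁻¹ ∈ G ⊓ Subgroup.centralizer ({g * v * g⁻¹} : Set X) := by
    intro y hy
    refine ⟨G.mul_mem (G.mul_mem hg hy.1) (G.inv_mem hg), ?_⟩
    have h2 : y * v = v * y := Subgroup.mem_centralizer_singleton_iff.mp hy.2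
    show g * y * g⁻¹ ∈ Subgroup.centralizer _
    rw [Subgroup.mem_centralizer_singleton_iff]
    simp only [mul_assoc, inv_mul_cancel_left]
    rw [← mul_assoc y v, h2, mul_assoc]
  have hmem' : ∀ y, y ∈ G ⊓ Subgroup.centralizer ({g * v * g⁻¹} : Set X) → g⁻¹ * y * g ∈ G ⊓ Subgroup.centralizer ({v} : Set X) := by
    intro y hy
    refine ⟨G.mul_mem (G.mul_mem (G.inv_mem hg) hy.1) hg, ?_⟩
    have h2 : y * (g * v * g⁻¹) = (g * v * g⁻¹) * y := Subgroup.mem_centralizer_singleton_iff.mp hy.2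
    show g⁻¹ * y * g ∈ Subgroup.centralizer _
    rw [Subgroup.mem_centralizer_singleton_iff]
    have h3 : g⁻¹ * (y * (g * v * g⁻¹)) * g = g⁻¹ * ((g * v * g⁻¹) * y) * g := by rw [h2]
    simpa [mul_assoc] using h3
  let e : ↥(G ⊓ Subgroup.centralizer ({v} : Set X)) ≃* ↥(G ⊓ Subgroup.centralizer ({g * v * g⁻¹} : Set X)) :=
    { toFun := fun y => ⟨g * y * g⁻¹, hmem _ y.2⟩
      invFun := fun y => ⟨g⁻¹ * y * g, hmem' _ y.2⟩
      left_inv := fun y => Subtype.ext (by simp [mul_assoc])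
      right_inv := fun y => Subtype.ext (by simp [mul_assoc])
      map_mul' := fun a b => Subtype.ext (by simp [mul_assoc]) }
  exact card_conjClasses_congr e

end Concrete

/-- Let X be a finite group, V an abelian normal subgroup of X (any two elements of V commute) and G a complement to V in X whose order is coprime to that of V. Let S be a set of representatives of the orbits of G on V under conjugation: S lies in V and every element of V is conjugate under G to exactly one member of S. Then the number of conjugacy classes of X equals the sum, over s in S, of the number of conjugacy classes of the centralizer of s in G. -/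
theorem result {X : Type*} [Group X] [Finite X] (V : Subgroup X) [V.Normal] (hab : ∀ a ∈ V, ∀ b ∈ V, a * b = b * a) (G : Subgroup X) (hGV : Subgroup.IsComplement' V G) (hcop : (Nat.card V).Coprime (Nat.card G)) (S : Finset X) (hSV : ∀ s ∈ S, s ∈ V) (hrep : ∀ v ∈ V, ∃! s, s ∈ S ∧ ∃ g ∈ G, g * v * g⁻¹ = s) : Nat.card (ConjClasses X) = ∑ s ∈ S, Nat.card (ConjClasses ↥(G ⊓ Subgroup.centralizer ({s} : Set X))) := by
  classical
  haveI : Fintype X := Fintype.ofFinite X
  haveI : Fintype ↥V := Fintype.ofFinite _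
  haveI : Fintype ↥G := Fintype.ofFinite _
  haveI hnV : V.Normal := inferInstance
  letI instV : CommGroup ↥V := { (inferInstance : Group ↥V) with
    mul_comm := fun a b => Subtype.ext (hab a a.2 b b.2) }
  -- the conjugation endomorphisms
  let cj : ↥G → (↥V →* ↥V) := fun g =>
    { toFun := fun v => ⟨(g : X) * v * (g : X)⁻¹, hnV.conj_mem _ v.2 _⟩
      map_one' := Subtype.ext (by simp)
      map_mul' := fun a b => Subtype.ext (by simp [mul_assoc]) }
  have cj_coe : ∀ (g : ↥G) (v : ↥V), ((cj g v : ↥V) : X) = (g : X) * v * (g : X)⁻¹ := fun _ _ => rfl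
  have cj_iter : ∀ (g : ↥G) (v : ↥V) (k : ℕ), (((cj g)^[k] v : ↥V) : X) = ((g : X) ^ k) * v * ((g : X) ^ k)⁻¹ := by
    intro g v k
    induction k with
    | zero => simp
    | succ k ih =>
      rw [Function.iterate_succ_apply', cj_coe, ih, pow_succ']
      simp [mul_assoc]
  have hfin : ∀ (g : ↥G) (v : ↥V), (cj g)^[Nat.card ↥G] v = v := by
    intro g v
    apply Subtype.ext
    rw [cj_iter]
    have : (g : X) ^ Nat.card ↥G = 1 := by
      have h : g ^ Nat.card ↥G = 1 := pow_card_eq_one'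
      have h2 := congrArg (fun y : ↥G => (y : X)) h
      simpa only [Subgroup.coe_pow, Subgroup.coe_one] using h2
    rw [this]
    simp
  have hdec := hGV
  -- commuting pairs of X
  let CG := {q : ↥G × ↥G // Commute q.1 q.2}
  let Sol : CG → Type _ := fun p => {r : ↥V × ↥V // r.1 * cj p.1.1 r.2 = r.2 * cj p.1.2 r.1}
  have huniq : ∀ (a a' : ↥V) (b b' : ↥G), (a : X) * b = a' * b' → a = a' ∧ b = b' := by
    intro a a' b b' h
    have := hGV.1 (a₁ := (a, b)) (a₂ := (a', b')) h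
    exact ⟨congrArg Prod.fst this, congrArg Prod.snd this⟩
  have hkey : ∀ (u w : ↥V) (g h : ↥G), ((u : X) * g) * ((w : X) * h) = ((u * cj g w : ↥V) : X) * ((g * h : ↥G) : X) := by
    intro u w g h
    simp [cj_coe, mul_assoc]
  let H : (Σ p : CG, Sol p) → {q : X × X // Commute q.1 q.2} := fun x =>
    ⟨((x.2.1.1 : X) * x.1.1.1, (x.2.1.2 : X) * x.1.1.2), by
      show _ * _ = _ * _
      simp only []
      rw [hkey, hkey, x.2.2, x.1.2.eq]⟩
  have hHbij : Function.Bijective H := by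
    constructor
    · rintro ⟨⟨⟨g, h⟩, hc⟩, ⟨⟨u, w⟩, hs⟩⟩ ⟨⟨⟨g', h'⟩, hc'⟩, ⟨⟨u', w'⟩, hs'⟩⟩ he
      have h1 := congrArg (fun r : {q : X × X // Commute q.1 q.2} => r.1.1) he
      have h2 := congrArg (fun r : {q : X × X // Commute q.1 q.2} => r.1.2) he
      simp only [H] at h1 h2
      obtain ⟨rfl, rfl⟩ := huniq _ _ _ _ h1
      obtain ⟨rfl, rfl⟩ := huniq _ _ _ _ h2
      rfl
    · rintro ⟨⟨x, y⟩, hxy⟩
      obtain ⟨⟨u, g⟩, hu⟩ := hGV.2 x
      obtain ⟨⟨w, h⟩, hw⟩ := hGV.2 y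
      have hu' : (u : X) * g = x := hu
      have hw' : (w : X) * h = y := hw
      have hxy' : x * y = y * x := hxy
      rw [← hu', ← hw', hkey, hkey] at hxy'
      obtain ⟨h1, h2⟩ := huniq _ _ _ _ hxy'
      refine ⟨⟨⟨(g, h), h2⟩, ⟨(u, w), h1⟩⟩, ?_⟩
      apply Subtype.ext
      exact Prod.ext hu' hw'
  have hcomm_X : Nat.card {q : X × X // Commute q.1 q.2} = Nat.card ↥V * ∑ p : CG, Nat.card {v : ↥V // cj p.1.1 v = v ∧ cj p.1.2 v = v} := by
    rw [← Nat.card_eq_of_bijective H hHbij, Nat.card_sigma, Finset.mul_sum]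
    refine Finset.sum_congr rfl fun p _ => ?_
    refine count_sol (cj p.1.1) (cj p.1.2) ?_ (Nat.card ↥G) hcop (hfin p.1.1)
    intro v
    apply Subtype.ext
    simp only [cj_coe]
    have hgh : (p.1.1 : X) * p.1.2 = p.1.2 * p.1.1 := congrArg (fun y : ↥G => (y : X)) p.2.eq
    have h3 : (p.1.1 : X) * (p.1.2 * (v : X) * (p.1.2 : X)⁻¹) * (p.1.1 : X)⁻¹ = ((p.1.1 : X) * p.1.2) * v * ((p.1.1 : X) * p.1.2)⁻¹ := by
      simp [mul_assoc]
    have h4 : (p.1.2 : X) * (p.1.1 * (v : X) * (p.1.1 : X)⁻¹) * (p.1.2 : X)⁻¹ = ((p.1.2 : X) * p.1.1) * v * ((p.1.2 : X) * p.1.1)⁻¹ := by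
      simp [mul_assoc]
    rw [h3, h4, hgh]
  let K : X → Subgroup X := fun x => G ⊓ Subgroup.centralizer ({x} : Set X)
  -- swap the sums
  have hswap : ∑ p : CG, Nat.card {v : ↥V // cj p.1.1 v = v ∧ cj p.1.2 v = v} = ∑ v : ↥V, Nat.card {q : ↥(K v) × ↥(K v) // Commute q.1 q.2} := by
    have hfixmem : ∀ (g : ↥G) (v : ↥V), cj g v = v → (g : X) ∈ K v := by
      intro g v hv
      refine ⟨g.2, ?_⟩
      show (g : X) ∈ Subgroup.centralizer _
      rw [Subgroup.mem_centralizer_singleton_iff]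
      have h1 : (g : X) * v * (g : X)⁻¹ = v := congrArg (fun y : ↥V => (y : X)) hv
      rwa [mul_inv_eq_iff_eq_mul] at h1
    let E : (Σ p : CG, {v : ↥V // cj p.1.1 v = v ∧ cj p.1.2 v = v}) → (Σ v : ↥V, {q : ↥(K v) × ↥(K v) // Commute q.1 q.2}) := fun x =>
      ⟨x.2.1, ⟨(⟨x.1.1.1, hfixmem _ _ x.2.2.1⟩, ⟨x.1.1.2, hfixmem _ _ x.2.2.2⟩), by
        apply Subtype.ext
        exact congrArg (fun y : ↥G => (y : X)) x.1.2.eq⟩⟩
    have hEbij : Function.Bijective E := by
      constructor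
      · rintro ⟨⟨⟨g, h⟩, hc⟩, ⟨v, hv⟩⟩ ⟨⟨⟨g', h'⟩, hc'⟩, ⟨v', hv'⟩⟩ he
        have h0 : v = v' := congrArg Sigma.fst he
        have h1 := congrArg (fun y : (Σ v : ↥V, {q : ↥(K v) × ↥(K v) // Commute q.1 q.2}) => ((y.2.1.1 : X), (y.2.1.2 : X))) he
        simp only [E, Prod.mk.injEq] at h1
        obtain ⟨h2, h3⟩ := h1
        have h2' : g = g' := Subtype.ext h2
        have h3' : h = h' := Subtype.ext h3
        subst h0 h2' h3'
        rfl
      · rintro ⟨v, ⟨⟨a, b⟩, hc⟩⟩
        have hcomm' : Commute (⟨a, a.2.1⟩ : ↥G) ⟨b, b.2.1⟩ := by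
          apply Subtype.ext
          exact congrArg (fun y : ↥(K v) => (y : X)) hc.eq
        have hfx : ∀ y : ↥(K v), cj ⟨y, y.2.1⟩ v = v := by
          intro y
          apply Subtype.ext
          simp only [cj_coe]
          have h1 : (y : X) * v = v * y := Subgroup.mem_centralizer_singleton_iff.mp y.2.2
          rw [h1, mul_inv_cancel_right]
        refine ⟨⟨⟨(⟨a, a.2.1⟩, ⟨b, b.2.1⟩), hcomm'⟩, ⟨v, hfx a, hfx b⟩⟩, ?_⟩
        rfl
    rw [← Nat.card_sigma, ← Nat.card_sigma]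
    exact Nat.card_eq_of_bijective E hEbij
  -- the conjugation map
  let c : ↥G × {s // s ∈ S} → ↥V := fun q => ⟨(q.1 : X)⁻¹ * q.2 * (q.1 : X)⁻¹⁻¹, hnV.conj_mem _ (hSV _ q.2.2) _⟩
  have hc_val : ∀ q, ((c q : ↥V) : X) = (q.1 : X)⁻¹ * q.2 * (q.1 : X)⁻¹⁻¹ := fun _ => rfl
  have hKG : ∀ (x y : X), y ∈ K x → y ∈ G := fun x y h => (Subgroup.mem_inf.mp h).1
  have hKC : ∀ (x y : X), y ∈ K x → y * x = x * y := fun x y h => Subgroup.mem_centralizer_singleton_iff.mp (Subgroup.mem_inf.mp h).2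
  have hfib : ∀ v : ↥V, (Finset.univ.filter (fun q => c q = v)).card = Nat.card ↥(K v) := by
    intro v
    obtain ⟨s₀, ⟨hs₀, g₀, hg₀, hgs⟩, hun⟩ := hrep v v.2
    rw [← Fintype.card_subtype, ← Nat.card_eq_fintype_card]
    have hkey : ∀ y : X, y * v = v * y → (g₀ * y)⁻¹ * s₀ * (g₀ * y)⁻¹⁻¹ = v := by
      intro y h1
      rw [← hgs]
      simp only [inv_inv, mul_inv_rev, mul_assoc, inv_mul_cancel_left]
      rw [← h1]
      simp
    let m : ↥(K v) → {q // c q = v} := fun y => ⟨(⟨g₀ * y, G.mul_mem hg₀ (hKG _ _ y.2)⟩, ⟨s₀, hs₀⟩), by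
      apply Subtype.ext
      exact hkey _ (hKC _ _ y.2)⟩
    have hm : Function.Bijective m := by
      constructor
      · intro y y' h
        have h1 := congrArg (fun r : {q // c q = v} => ((r.1.1 : ↥G) : X)) h
        simp only [m] at h1
        exact Subtype.ext (mul_left_cancel h1)
      · rintro ⟨⟨g, ⟨s, hs⟩⟩, hq⟩
        have h1 : (g : X)⁻¹ * s * (g : X)⁻¹⁻¹ = v := congrArg (fun y : ↥V => (y : X)) hq
        have h2 : (g : X) * v * (g : X)⁻¹ = s := by
          rw [← h1]; simp [mul_assoc]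
        have h3 : s = s₀ := hun s ⟨hs, g, g.2, h2⟩
        subst h3
        have h4 : g₀⁻¹ * g ∈ K v := by
          refine ⟨G.mul_mem (G.inv_mem hg₀) g.2, ?_⟩
          show g₀⁻¹ * g ∈ Subgroup.centralizer _
          rw [Subgroup.mem_centralizer_singleton_iff]
          have h5 : (g : X) * v * (g : X)⁻¹ = g₀ * v * g₀⁻¹ := by rw [h2, hgs]
          rw [mul_inv_eq_iff_eq_mul] at h5
          rw [mul_assoc, h5]
          group
        refine ⟨⟨_, h4⟩, ?_⟩
        apply Subtype.ext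
        refine Prod.ext ?_ rfl
        apply Subtype.ext
        show g₀ * (g₀⁻¹ * g) = g
        rw [mul_inv_cancel_left]
    exact (Nat.card_eq_of_bijective m hm).symm
  have hsum : ∑ v : ↥V, Nat.card {q : ↥(K v) × ↥(K v) // Commute q.1 q.2} = Nat.card ↥G * ∑ s ∈ S, Nat.card (ConjClasses ↥(G ⊓ Subgroup.centralizer ({s} : Set X))) := by
    have h1 : ∀ v : ↥V, Nat.card {q : ↥(K v) × ↥(K v) // Commute q.1 q.2} = ∑ q ∈ Finset.univ.filter (fun q => c q = v), Nat.card (ConjClasses ↥(K (c q))) := by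
      intro v
      rw [card_comm_eq_card_conjClasses_mul_card]
      rw [Finset.sum_congr rfl (g := fun _ => Nat.card (ConjClasses ↥(K v))) (by
        intro q hq
        rw [(Finset.mem_filter.mp hq).2])]
      rw [Finset.sum_const, hfib, smul_eq_mul, mul_comm]
    simp_rw [h1]
    rw [Finset.sum_fiberwise]
    have h2 : ∀ q : ↥G × {s // s ∈ S}, Nat.card (ConjClasses ↥(K (c q))) = Nat.card (ConjClasses ↥(K q.2)) := by
      intro q
      exact (card_conj_stab G (q.1 : X)⁻¹ (G.inv_mem q.1.2) q.2).symm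
    simp_rw [h2]
    rw [Fintype.sum_prod_type]
    have hconst : ∀ (f : {s // s ∈ S} → ℕ), ∑ _x : ↥G, ∑ y, f y = Nat.card ↥G * ∑ y, f y := by
      intro f
      rw [Finset.sum_const, Finset.card_univ, smul_eq_mul, ← Nat.card_eq_fintype_card]
    refine (hconst (fun s => Nat.card (ConjClasses ↥(K s)))).trans ?_
    congr 1
    exact Finset.sum_coe_sort S (fun s => Nat.card (ConjClasses ↥(K s)))
  have hfinal := card_comm_eq_card_conjClasses_mul_card X
  rw [hcomm_X, hswap, hsum, ← hGV.card_mul_card] at hfinal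
  have hpos : 0 < Nat.card ↥V * Nat.card ↥G := Nat.mul_pos Nat.card_pos Nat.card_pos
  have h9 : Nat.card ↥V * Nat.card ↥G * (∑ s ∈ S, Nat.card (ConjClasses ↥(G ⊓ Subgroup.centralizer ({s} : Set X)))) = Nat.card ↥V * Nat.card ↥G * Nat.card (ConjClasses X) := by
    rw [mul_assoc, hfinal, mul_comm]
  exact (Nat.eq_of_mul_eq_mul_left hpos h9).symm

end Cfsg.Agent.S4956
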