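import Cfsg.Statements.S4965
import Mathlib

set_option autoImplicit false
open Cfsg

namespace Cfsg.Agent.S4965


/-- Let X be a finite group with an abelian normal subgroup V (any two elements of V commute), and let φ be the action of X ⧸ V on V induced by conjugation (well defined because V is abelian; the hypothesis hφ says that the class of x acts as conjugation by x). Then X has at most as many conjugacy classes as the semidirect product of V by X ⧸ V formed with this action: the split extension has the largest class number among extensions with the given action. -/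
theorem result {X : Type*} [Group X] [Finite X] (V : Subgroup X) [V.Normal] (hab : ∀ a ∈ V, ∀ b ∈ V, a * b = b * a) (φ : X ⧸ V →* MulAut ↥V) (hφ : ∀ (x : X) (v : ↥V), ((φ (QuotientGroup.mk x) v : ↥V) : X) = x * v * x⁻¹) : Nat.card (ConjClasses X) ≤ Nat.card (ConjClasses (SemidirectProduct ↥V (X ⧸ V) φ)) := by
  classical
  -- base point choice
  let Pr := {p : X × X // Commute p.1 p.2}
  let Pr' := {p : SemidirectProduct ↥V (X ⧸ V) φ × SemidirectProduct ↥V (X ⧸ V) φ // Commute p.1 p.2}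
  have hbase : ∀ p : (X ⧸ V) × (X ⧸ V), ∃ q : X × X, (∃ r : Pr, (QuotientGroup.mk (r.1.1) : X ⧸ V) = p.1 ∧ (QuotientGroup.mk (r.1.2) : X ⧸ V) = p.2) → (Commute q.1 q.2 ∧ (QuotientGroup.mk q.1 : X ⧸ V) = p.1 ∧ (QuotientGroup.mk q.2 : X ⧸ V) = p.2) := by
    intro p
    by_cases h : ∃ r : Pr, (QuotientGroup.mk (r.1.1) : X ⧸ V) = p.1 ∧ (QuotientGroup.mk (r.1.2) : X ⧸ V) = p.2
    · obtain ⟨r, h1, h2⟩ := h
      exact ⟨r.1, fun _ => ⟨r.2, h1, h2⟩⟩
    · exact ⟨(1, 1), fun h' => absurd h' h⟩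
  choose b hb using hbase
  have hin : ∀ a c : X, (QuotientGroup.mk a : X ⧸ V) = QuotientGroup.mk c → a * c⁻¹ ∈ V := by
    intro a c h
    have := QuotientGroup.eq.mp h.symm
    have h2 : a * c⁻¹ = c * (c⁻¹ * a) * c⁻¹ := by group
    rw [h2]
    exact ‹V.Normal›.conj_mem _ this c
  let F : Pr → Pr' := fun r =>
    let g : X ⧸ V := QuotientGroup.mk r.1.1
    let h : X ⧸ V := QuotientGroup.mk r.1.2
    have hex : ∃ r' : Pr, (QuotientGroup.mk (r'.1.1) : X ⧸ V) = (g, h).1 ∧ (QuotientGroup.mk (r'.1.2) : X ⧸ V) = (g, h).2 := ⟨r, rfl, rfl⟩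
    have hb' := hb (g, h) hex
    ⟨(⟨⟨r.1.1 * (b (g, h)).1⁻¹, hin _ _ hb'.2.1.symm⟩, g⟩, ⟨⟨r.1.2 * (b (g, h)).2⁻¹, hin _ _ hb'.2.2.symm⟩, h⟩), by
      have hc : r.1.1 * r.1.2 = r.1.2 * r.1.1 := r.2
      have hbc := hb'.1.eq
      have hgh : g * h = h * g := by
        show (QuotientGroup.mk r.1.1 : X ⧸ V) * QuotientGroup.mk r.1.2 = QuotientGroup.mk r.1.2 * QuotientGroup.mk r.1.1
        rw [← QuotientGroup.mk_mul, ← QuotientGroup.mk_mul, hc]
      show _ * _ = _ * _
      apply SemidirectProduct.ext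
      · simp only [SemidirectProduct.mul_left]
        apply Subtype.ext
        simp only [Subgroup.coe_mul]
        have hφ' : ∀ (g' : X ⧸ V) (x : X), (QuotientGroup.mk x : X ⧸ V) = g' → ∀ v : ↥V, ((φ g' v : ↥V) : X) = x * v * x⁻¹ := by
          rintro _ x rfl v
          exact hφ x v
        have h1 := hφ' g (b (g, h)).1 hb'.2.1 ⟨r.1.2 * (b (g, h)).2⁻¹, hin _ _ hb'.2.2.symm⟩
        have h2 := hφ' h (b (g, h)).2 hb'.2.2 ⟨r.1.1 * (b (g, h)).1⁻¹, hin _ _ hb'.2.1.symm⟩
        show r.1.1 * (b (g, h)).1⁻¹ * ((φ g ⟨r.1.2 * (b (g, h)).2⁻¹, _⟩ : ↥V) : X) = r.1.2 * (b (g, h)).2⁻¹ * ((φ h ⟨r.1.1 * (b (g, h)).1⁻¹, _⟩ : ↥V) : X)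
        rw [h1, h2]
        have key : ∀ x y x₀ y₀ : X, x * y = y * x → x₀ * y₀ = y₀ * x₀ → x * x₀⁻¹ * (x₀ * (y * y₀⁻¹) * x₀⁻¹) = y * y₀⁻¹ * (y₀ * (x * x₀⁻¹) * y₀⁻¹) := by
          intro x y x₀ y₀ hc hbc
          have e1 : x * x₀⁻¹ * (x₀ * (y * y₀⁻¹) * x₀⁻¹) = x * y * (x₀ * y₀)⁻¹ := by
            rw [mul_inv_rev]
            group
          have e2 : y * y₀⁻¹ * (y₀ * (x * x₀⁻¹) * y₀⁻¹) = y * x * (y₀ * x₀)⁻¹ := by
            rw [mul_inv_rev]
            group
          rw [e1, e2, hc, hbc]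
        exact key _ _ _ _ hc hbc
      · simpa [SemidirectProduct.mul_right] using hgh⟩
  have hinj : Function.Injective F := by
    intro r s hrs
    have h0 := congrArg (fun t : Pr' => t.1) hrs
    simp only [F, Prod.mk.injEq] at h0
    obtain ⟨h1, h2⟩ := h0
    have h1r := congrArg SemidirectProduct.right h1
    have h2r := congrArg SemidirectProduct.right h2
    simp only [] at h1r h2r
    have h1l := congrArg (fun t => ((SemidirectProduct.left t : ↥V) : X)) h1
    have h2l := congrArg (fun t => ((SemidirectProduct.left t : ↥V) : X)) h2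
    simp only [] at h1l h2l
    rw [h1r, h2r] at h1l h2l
    apply Subtype.ext
    exact Prod.ext (mul_right_cancel h1l) (mul_right_cancel h2l)
  haveI : Finite (SemidirectProduct ↥V (X ⧸ V) φ) := Finite.of_equiv _ SemidirectProduct.equivProd.symm
  have hle : Nat.card Pr ≤ Nat.card Pr' := Nat.card_le_card_of_injective F hinj
  have e1 : Nat.card Pr = Nat.card (ConjClasses X) * Nat.card X := card_comm_eq_card_conjClasses_mul_card X
  have e2 : Nat.card Pr' = Nat.card (ConjClasses (SemidirectProduct ↥V (X ⧸ V) φ)) * Nat.card (SemidirectProduct ↥V (X ⧸ V) φ) := card_comm_eq_card_conjClasses_mul_card _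
  have e3 : Nat.card (SemidirectProduct ↥V (X ⧸ V) φ) = Nat.card X := by
    rw [Nat.card_congr SemidirectProduct.equivProd, Nat.card_prod, mul_comm, ← Subgroup.card_eq_card_quotient_mul_card_subgroup]
  rw [e1, e2, e3] at hle
  exact Nat.le_of_mul_le_mul_right hle Nat.card_pos

end Cfsg.Agent.S4965
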