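import Cfsg.Statements.S5013
import Cfsg.Agent.Lib.RankOne

set_option autoImplicit false
open Cfsg

namespace Cfsg.Agent.S5013


/-- In a rank one group with unipotent subgroups A and B (conjugation written g H g⁻¹), for every non-identity a in A the non-identity b in B with b⁻¹ A b = a⁻¹ B a is unique, every non-identity b in B arises in this way from exactly one such a (so a ↦ b(a) is a bijection between the non-identity elements of A and of B), and no non-identity element of A normalizes B (and vice versa). -/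
theorem result {G : Type*} [Group G] {A B : Subgroup G} (h : Cfsg.IsRankOnePair A B) :
    (∀ a ∈ A, a ≠ 1 → ∃! b : G, b ∈ B ∧ b ≠ 1 ∧ Cfsg.conjBy A b⁻¹ = Cfsg.conjBy B a⁻¹) ∧
    (∀ b ∈ B, b ≠ 1 → ∃! a : G, a ∈ A ∧ a ≠ 1 ∧ Cfsg.conjBy A b⁻¹ = Cfsg.conjBy B a⁻¹) ∧
    A ⊓ Subgroup.normalizer (B : Set G) = ⊥ ∧ B ⊓ Subgroup.normalizer (A : Set G) = ⊥ := by
  open Cfsg.Agent.Lib.RankOne in
  have hu : ∀ {A B : Subgroup G}, Cfsg.IsRankOnePair A B → ∀ a ∈ A, a ≠ 1 → ∀ b ∈ B, ∀ b' ∈ B,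
      Cfsg.conjBy A b⁻¹ = Cfsg.conjBy B a⁻¹ → Cfsg.conjBy A b'⁻¹ = Cfsg.conjBy B a⁻¹ → b = b' := by
    intro A B h a ha ha1 b hb b' hb' e1 e2
    have h1 : Cfsg.conjBy A (b⁻¹⁻¹ * b'⁻¹) = A := by
      rw [Cfsg.Agent.Lib.RankOne.conjBy_mul, e2, ← e1, ← Cfsg.Agent.Lib.RankOne.conjBy_mul]
      simp [conjBy_one]
    have h2 := eq_one_of_conjBy_right h (B.mul_mem (B.inv_mem (B.inv_mem hb)) (B.inv_mem hb')) h1
    rw [inv_inv] at h2
    have := mul_inv_eq_one.mp h2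
    exact this
  refine ⟨?_, ?_, ?_, ?_⟩
  · intro a ha ha1
    obtain ⟨b, hb, hb1, hab⟩ := h.cond_left a ha ha1
    exact ⟨b, ⟨hb, hb1, hab⟩, fun b' hb' => hu h a ha ha1 b' hb'.1 b hb hb'.2.2 hab⟩
  · intro b hb hb1
    obtain ⟨a, ha, ha1, hab⟩ := h.cond_right b hb hb1
    refine ⟨a, ⟨ha, ha1, hab.symm⟩, fun a' ha' => hu (Cfsg.RankOnePair_symm h) b hb hb1 a' ha'.1 a ha ha'.2.2.symm hab⟩
  · rw [eq_bot_iff]
    rintro a ⟨ha, hn⟩
    exact eq_one_of_conjBy_left h ha (mem_normalizer_iff_conjBy.mp hn)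
  · rw [eq_bot_iff]
    rintro b ⟨hb, hn⟩
    exact eq_one_of_conjBy_right h hb (mem_normalizer_iff_conjBy.mp hn)

end Cfsg.Agent.S5013
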