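import Cfsg.Statements.S5014
import Cfsg.Agent.Lib.RankOne

set_option autoImplicit false
open Cfsg

namespace Cfsg.Agent.S5014


/-- Let X = ⟨A, B⟩ be a rank one group with unipotent subgroups A and B and let Ω be the set of conjugates of A under X. Then Ω has at least three members, X acts doubly transitively on Ω by conjugation (any two ordered pairs of distinct members are carried to one another by a single element of X), and A acts regularly on Ω with A removed: for C, D in Ω different from A there is exactly one element of A conjugating C to D. -/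
theorem result {G : Type*} [Group G] {A B : Subgroup G} (h : Cfsg.IsRankOnePair A B) :
    (∃ C₁ ∈ Cfsg.unipotentSubgroups A B, ∃ C₂ ∈ Cfsg.unipotentSubgroups A B, ∃ C₃ ∈ Cfsg.unipotentSubgroups A B,
      C₁ ≠ C₂ ∧ C₁ ≠ C₃ ∧ C₂ ≠ C₃) ∧
    (∀ C₁ ∈ Cfsg.unipotentSubgroups A B, ∀ C₂ ∈ Cfsg.unipotentSubgroups A B, ∀ D₁ ∈ Cfsg.unipotentSubgroups A B,
      ∀ D₂ ∈ Cfsg.unipotentSubgroups A B, C₁ ≠ C₂ → D₁ ≠ D₂ →
        ∃ x ∈ A ⊔ B, Cfsg.conjBy C₁ x = D₁ ∧ Cfsg.conjBy C₂ x = D₂) ∧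
    (∀ C ∈ Cfsg.unipotentSubgroups A B, ∀ D ∈ Cfsg.unipotentSubgroups A B, C ≠ A → D ≠ A →
      ∃! a : G, a ∈ A ∧ Cfsg.conjBy C a = D) := by
  open Cfsg.Agent.Lib.RankOne in
  refine ⟨?_, ?_, ?_⟩
  · obtain ⟨a, ha, ha1⟩ := exists_ne_one_left h
    refine ⟨A, left_mem_unipotent h, B, right_mem_unipotent h, Cfsg.conjBy B a,
      conj_mem_unipotent h (right_mem_unipotent h) (Subgroup.mem_sup_left ha), h.ne, ?_, ?_⟩
    · exact (conjBy_right_ne_left h ha).symm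
    · intro h3
      exact ha1 (eq_one_of_conjBy_left h ha h3.symm)
  · intro C₁ h1 C₂ h2 D₁ h3 D₂ h4 hC hD
    obtain ⟨x, hx, e1, e2⟩ := exists_to_pair h h1 h2 hC
    obtain ⟨y, hy, e3, e4⟩ := exists_to_pair h h3 h4 hD
    refine ⟨y⁻¹ * x, (A ⊔ B).mul_mem ((A ⊔ B).inv_mem hy) hx, ?_, ?_⟩
    · rw [conjBy_mul, e1, ← e3, conjBy_conjBy_inv]
    · rw [conjBy_mul, e2, ← e4, conjBy_conjBy_inv]
  · intro C hC D hD hCA hDA
    obtain ⟨a₁, ha₁, rfl⟩ := ((mem_unipotent_iff h).mp hC).resolve_left hCA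
    obtain ⟨a₂, ha₂, rfl⟩ := ((mem_unipotent_iff h).mp hD).resolve_left hDA
    refine ⟨a₂ * a₁⁻¹, ⟨A.mul_mem ha₂ (A.inv_mem ha₁), ?_⟩, ?_⟩
    · rw [← conjBy_mul]
      simp
    · rintro a ⟨ha, e⟩
      rw [← conjBy_mul] at e
      have h1 : Cfsg.conjBy B (a₂⁻¹ * (a * a₁)) = B := by
        rw [conjBy_mul, e, ← conjBy_mul]
        simp [conjBy_one]
      have h2 := eq_one_of_conjBy_left h (A.mul_mem (A.inv_mem ha₂) (A.mul_mem ha ha₁)) h1
      have h3 : a * a₁ = a₂ := by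
        have := mul_eq_one_iff_eq_inv'.mp h2
        simpa using this
      rw [← h3]
      group

end Cfsg.Agent.S5014
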