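import Cfsg.Statements.S5015
import Cfsg.Agent.Lib.RankOne

set_option autoImplicit false
open Cfsg

namespace Cfsg.Agent.S5015


/-- Let a group Y act doubly transitively on a set Ω with at least three points, and suppose that the stabilizer of a point α contains a nilpotent subgroup A, normalized by that stabilizer, which acts regularly on the points other than α. Then for any y in Y moving α, the subgroups A and y A y⁻¹ are the unipotent subgroups of a rank one group, and the normal closure of A in Y (the subgroup generated by all conjugates of A) is generated by A and y A y⁻¹ alone. -/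
theorem result {Y Ω : Type*} [Group Y] [MulAction Y Ω]
    (h2 : MulAction.IsMultiplyPretransitive Y Ω 2) (hΩ : 3 ≤ ENat.card Ω) (α : Ω) (A : Subgroup Y)
    (hA : A ≤ MulAction.stabilizer Y α) (hAn : ∀ y ∈ MulAction.stabilizer Y α, Cfsg.conjBy A y = A)
    (hnil : Group.IsNilpotent A) (hreg : ∀ β γ : Ω, β ≠ α → γ ≠ α → ∃! a : Y, a ∈ A ∧ a • β = γ)
    (y : Y) (hy : y ∉ MulAction.stabilizer Y α) :
    Cfsg.IsRankOnePair A (Cfsg.conjBy A y) ∧ Subgroup.normalClosure (A : Set Y) = A ⊔ Cfsg.conjBy A y := by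
  open Cfsg.Agent.Lib.RankOne in
  set β := y • α with hβ
  have hβα : β ≠ α := fun h => hy (MulAction.mem_stabilizer_iff.mpr h)
  have hconj : ∀ g h : Y, g • α = h • α → Cfsg.conjBy A g = Cfsg.conjBy A h := by
    intro g h e
    have h1 : h⁻¹ * g ∈ MulAction.stabilizer Y α := by
      rw [MulAction.mem_stabilizer_iff, mul_smul, e, inv_smul_smul]
    have h2 := hAn _ h1
    have h3 : g = h * (h⁻¹ * g) := by group
    rw [h3, conjBy_mul, h2]
  obtain ⟨γ, hγα, hγβ⟩ : ∃ γ : Ω, γ ≠ α ∧ γ ≠ β := by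
    by_contra hcon
    simp only [not_exists, not_and, not_not] at hcon
    have h1 : (Set.univ : Set Ω) ⊆ {α, β} := by
      intro x _
      by_cases hx : x = α
      · exact Or.inl hx
      · exact Or.inr (hcon x hx)
    have h2 : Set.encard (Set.univ : Set Ω) ≤ 2 := by
      refine (Set.encard_le_encard h1).trans ((Set.encard_insert_le _ _).trans ?_)
      rw [Set.encard_singleton]
      norm_num
    rw [Set.encard_univ] at h2
    have h3 := hΩ.trans h2
    exact absurd h3 (by decide)
  -- elements of `A` fix `α`; non-identity ones fix nothing else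
  have hfixα : ∀ a ∈ A, a • α = α := fun a ha => MulAction.mem_stabilizer_iff.mp (hA ha)
  have hfree : ∀ a ∈ A, a ≠ 1 → ∀ δ : Ω, δ ≠ α → a • δ ≠ δ := by
    intro a ha ha1 δ hδ hfix
    obtain ⟨c, -, huniq⟩ := hreg δ δ hδ hδ
    have h1 := huniq a ⟨ha, hfix⟩
    have h2 := huniq 1 ⟨A.one_mem, one_smul _ _⟩
    exact ha1 (h1.trans h2.symm)
  -- transport to `B`
  have hBreg : ∀ δ γ' : Ω, δ ≠ β → γ' ≠ β → ∃ b ∈ Cfsg.conjBy A y, b • δ = γ' := by
    intro δ γ' hδ hγ'
    have h1 : y⁻¹ • δ ≠ α := by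
      intro h
      apply hδ
      rw [hβ, ← h, smul_inv_smul]
    have h2 : y⁻¹ • γ' ≠ α := by
      intro h
      apply hγ'
      rw [hβ, ← h, smul_inv_smul]
    obtain ⟨a, ⟨ha, e⟩, -⟩ := hreg _ _ h1 h2
    refine ⟨y * a * y⁻¹, conj_mem_conjBy ha, ?_⟩
    rw [mul_smul, mul_smul, e, smul_inv_smul]
  have hBfix : ∀ b ∈ Cfsg.conjBy A y, b • β = β := by
    intro b hb
    rw [mem_conjBy] at hb
    have h1 := hfixα _ hb
    have h2 : b • y • α = y • α := by
      have := congrArg (fun w => y • w) h1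
      simp only [mul_smul, smul_inv_smul] at this
      exact this
    exact h2
  have hBfree : ∀ b ∈ Cfsg.conjBy A y, b ≠ 1 → ∀ δ : Ω, δ ≠ β → b • δ ≠ δ := by
    intro b hb hb1 δ hδ hfix
    rw [mem_conjBy] at hb
    have h1 : y⁻¹ * b * y ≠ 1 := by
      intro h
      apply hb1
      have : b = y * (y⁻¹ * b * y) * y⁻¹ := by group
      rw [this, h]
      simp
    apply hfree _ hb h1 (y⁻¹ • δ)
    · intro h
      apply hδ
      rw [hβ, ← h, smul_inv_smul]
    · simp only [mul_smul, smul_inv_smul, hfix]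
  have hne : A ≠ Cfsg.conjBy A y := by
    intro h
    obtain ⟨a, ⟨ha, e⟩, -⟩ := hreg β γ hβα hγα
    have h1 := hBfix a (h ▸ ha)
    exact hγβ (e.symm.trans h1)
  have hpair : Cfsg.IsRankOnePair A (Cfsg.conjBy A y) := by
    refine ⟨hne, hnil, ?_, ?_, ?_⟩
    · have e : A ≃* Cfsg.conjBy A y := A.equivMapOfInjective _ (MulAut.conj y).injective
      exact nilpotent_of_mulEquiv e
    · intro a ha ha1
      have ha1' : a⁻¹ ≠ 1 := by simpa using ha1
      have h1 : a⁻¹ • β ≠ β := hfree _ (A.inv_mem ha) ha1' β hβα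
      have h2 : a⁻¹ • β ≠ α := by
        intro h
        apply hβα
        have := congrArg (fun w => a • w) h
        simp only [smul_inv_smul, hfixα a ha] at this
        exact this
      obtain ⟨b₀, hb₀, e⟩ := hBreg α (a⁻¹ • β) hβα.symm h1
      refine ⟨b₀⁻¹, (Cfsg.conjBy A y).inv_mem hb₀, ?_, ?_⟩
      · intro h
        apply h2
        rw [← e]
        have : b₀ = 1 := by simpa using h
        rw [this, one_smul]
      · rw [inv_inv, ← conjBy_mul]
        apply hconj
        rw [e, mul_smul]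
    · intro b hb hb1
      have hb1' : b⁻¹ ≠ 1 := by simpa using hb1
      have hbi := (Cfsg.conjBy A y).inv_mem hb
      have h1 : b⁻¹ • α ≠ α := hBfree _ hbi hb1' α hβα.symm
      have h2 : b⁻¹ • α ≠ β := by
        intro h
        apply hβα
        have := congrArg (fun w => b • w) h
        simp only [smul_inv_smul, hBfix b hb] at this
        exact this.symm
      obtain ⟨⟨a₀, ⟨ha₀, e⟩, -⟩⟩ : Nonempty (∃! a : Y, a ∈ A ∧ a • β = b⁻¹ • α) := ⟨hreg β _ hβα h1⟩
      refine ⟨a₀⁻¹, A.inv_mem ha₀, ?_, ?_⟩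
      · intro h
        have : a₀ = 1 := by simpa using h
        rw [this, one_smul] at e
        exact h2 e.symm
      · rw [inv_inv, ← conjBy_mul]
        apply hconj
        rw [mul_smul]
        exact e
  refine ⟨hpair, ?_⟩
  apply le_antisymm
  · -- normal closure inside the join
    have hXtrans : ∀ g : Y, ∃ x ∈ A ⊔ Cfsg.conjBy A y, x • α = g • α := by
      intro g
      by_cases hg : g • α = α
      · exact ⟨1, Subgroup.one_mem _, by rw [one_smul, hg]⟩
      · obtain ⟨b₀, hb₀, e1⟩ := hBreg α γ hβα.symm hγβ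
        obtain ⟨a₀, ⟨ha₀, e2⟩, -⟩ := hreg γ (g • α) hγα hg
        refine ⟨a₀ * b₀, Subgroup.mul_mem _ (Subgroup.mem_sup_left ha₀) (Subgroup.mem_sup_right hb₀), ?_⟩
        rw [mul_smul, e1, e2]
    unfold Subgroup.normalClosure
    rw [Subgroup.closure_le]
    intro w hw
    rw [Group.mem_conjugatesOfSet_iff] at hw
    obtain ⟨a, ha, hc⟩ := hw
    obtain ⟨g, rfl⟩ := isConj_iff.mp hc
    obtain ⟨x, hx, e⟩ := hXtrans g
    have h1 : g * a * g⁻¹ ∈ Cfsg.conjBy A x := by
      rw [← hconj g x e.symm]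
      exact conj_mem_conjBy ha
    rw [mem_conjBy] at h1
    have h2 : g * a * g⁻¹ = x * (x⁻¹ * (g * a * g⁻¹) * x) * x⁻¹ := by group
    rw [h2]
    exact Subgroup.mul_mem _ (Subgroup.mul_mem _ hx (Subgroup.mem_sup_left h1)) (Subgroup.inv_mem _ hx)
  · refine sup_le Subgroup.le_normalClosure ?_
    intro w hw
    rw [mem_conjBy] at hw
    have h2 : w = y * (y⁻¹ * w * y) * y⁻¹ := by group
    rw [h2]
    exact (Subgroup.normalClosure_normal).conj_mem _ (Subgroup.le_normalClosure hw) y

end Cfsg.Agent.S5015
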