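import Cfsg.Statements.S5016
import Cfsg.Agent.Lib.RankOne

set_option autoImplicit false
open Cfsg

namespace Cfsg.Agent.S5016

open Matrix in
def xp {k : Type*} [Field k] (t : k) : SpecialLinearGroup (Fin 2) k :=
  ⟨!![1, t; 0, 1], by simp [Matrix.det_fin_two]⟩

open Matrix in
def xm {k : Type*} [Field k] (t : k) : SpecialLinearGroup (Fin 2) k :=
  ⟨!![1, 0; t, 1], by simp [Matrix.det_fin_two]⟩

section
variable {k : Type*} [Field k]

theorem sl2_ext {g h : Matrix.SpecialLinearGroup (Fin 2) k}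
    (h00 : (g : Matrix (Fin 2) (Fin 2) k) 0 0 = (h : Matrix (Fin 2) (Fin 2) k) 0 0)
    (h01 : (g : Matrix (Fin 2) (Fin 2) k) 0 1 = (h : Matrix (Fin 2) (Fin 2) k) 0 1)
    (h10 : (g : Matrix (Fin 2) (Fin 2) k) 1 0 = (h : Matrix (Fin 2) (Fin 2) k) 1 0)
    (h11 : (g : Matrix (Fin 2) (Fin 2) k) 1 1 = (h : Matrix (Fin 2) (Fin 2) k) 1 1) : g = h := by
  apply Subtype.ext
  ext i j
  fin_cases i <;> fin_cases j
  · exact h00
  · exact h01
  · exact h10
  · exact h11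

theorem xp_coe (t : k) : ((xp t : Matrix.SpecialLinearGroup (Fin 2) k) : Matrix (Fin 2) (Fin 2) k) = !![1, t; 0, 1] := rfl

theorem xm_coe (t : k) : ((xm t : Matrix.SpecialLinearGroup (Fin 2) k) : Matrix (Fin 2) (Fin 2) k) = !![1, 0; t, 1] := rfl

theorem xp_mul (s t : k) : xp s * xp t = xp (s + t) := by
  apply Subtype.ext
  rw [Matrix.SpecialLinearGroup.coe_mul, xp_coe, xp_coe, xp_coe, Matrix.mul_fin_two]
  simp
  exact add_comm _ _

theorem xm_mul (s t : k) : xm s * xm t = xm (s + t) := by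
  apply Subtype.ext
  rw [Matrix.SpecialLinearGroup.coe_mul, xm_coe, xm_coe, xm_coe, Matrix.mul_fin_two]
  simp

theorem xp_zero : xp (0 : k) = 1 := by
  apply Subtype.ext
  rw [xp_coe, Matrix.SpecialLinearGroup.coe_one, Matrix.one_fin_two]

theorem xm_zero : xm (0 : k) = 1 := by
  apply Subtype.ext
  rw [xm_coe, Matrix.SpecialLinearGroup.coe_one, Matrix.one_fin_two]

theorem xp_inv (t : k) : (xp t)⁻¹ = xp (-t) := by
  apply inv_eq_of_mul_eq_one_right
  rw [xp_mul, add_neg_cancel, xp_zero]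

theorem xm_inv (t : k) : (xm t)⁻¹ = xm (-t) := by
  apply inv_eq_of_mul_eq_one_right
  rw [xm_mul, add_neg_cancel, xm_zero]

theorem mem_upper_iff {g : Matrix.SpecialLinearGroup (Fin 2) k} : g ∈ Cfsg.upperUnipotentSL2 k ↔ ∃ t, g = xp t := by
  constructor
  · intro hg
    unfold Cfsg.upperUnipotentSL2 at hg
    induction hg using Subgroup.closure_induction with
    | mem x hx =>
      obtain ⟨h1, h2, h3⟩ := hx
      refine ⟨(x : Matrix (Fin 2) (Fin 2) k) 0 1, ?_⟩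
      apply sl2_ext <;> simp [xp_coe, h1, h2, h3]
    | one => exact ⟨0, xp_zero.symm⟩
    | mul x y _ _ ihx ihy =>
      obtain ⟨s, rfl⟩ := ihx
      obtain ⟨t, rfl⟩ := ihy
      exact ⟨s + t, xp_mul s t⟩
    | inv x _ ih =>
      obtain ⟨s, rfl⟩ := ih
      exact ⟨-s, xp_inv s⟩
  · rintro ⟨t, rfl⟩
    apply Subgroup.subset_closure
    exact ⟨by simp [xp_coe], by simp [xp_coe], by simp [xp_coe]⟩

theorem mem_lower_iff {g : Matrix.SpecialLinearGroup (Fin 2) k} : g ∈ Cfsg.lowerUnipotentSL2 k ↔ ∃ t, g = xm t := by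
  constructor
  · intro hg
    unfold Cfsg.lowerUnipotentSL2 at hg
    induction hg using Subgroup.closure_induction with
    | mem x hx =>
      obtain ⟨h1, h2, h3⟩ := hx
      refine ⟨(x : Matrix (Fin 2) (Fin 2) k) 1 0, ?_⟩
      apply sl2_ext <;> simp [xm_coe, h1, h2, h3]
    | one => exact ⟨0, xm_zero.symm⟩
    | mul x y _ _ ihx ihy =>
      obtain ⟨s, rfl⟩ := ihx
      obtain ⟨t, rfl⟩ := ihy
      exact ⟨s + t, xm_mul s t⟩
    | inv x _ ih =>
      obtain ⟨s, rfl⟩ := ih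
      exact ⟨-s, xm_inv s⟩
  · rintro ⟨t, rfl⟩
    apply Subgroup.subset_closure
    exact ⟨by simp [xm_coe], by simp [xm_coe], by simp [xm_coe]⟩

/-- the key conjugation identity -/
theorem conj_key {t : k} (ht : t ≠ 0) (s : k) :
    (xm t * xp (-t⁻¹)) * xm s = xp (-(s * (t⁻¹ * t⁻¹))) * (xm t * xp (-t⁻¹)) := by
  apply sl2_ext <;> simp [Matrix.mul_apply, Fin.sum_univ_two, xp_coe, xm_coe]
  all_goals try field_simp
  all_goals try ring
  all_goals try simp

theorem conj_eq {t : k} (ht : t ≠ 0) :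
    Cfsg.conjBy (Cfsg.lowerUnipotentSL2 k) (xp t⁻¹)⁻¹ = Cfsg.conjBy (Cfsg.upperUnipotentSL2 k) (xm t)⁻¹ := by
  -- it suffices that `c = a b⁻¹` conjugates lower to upper
  have h1 : Cfsg.conjBy (Cfsg.lowerUnipotentSL2 k) (xm t * xp (-t⁻¹)) = Cfsg.upperUnipotentSL2 k := by
    ext g
    rw [Cfsg.Agent.Lib.RankOne.mem_conjBy, mem_upper_iff, mem_lower_iff]
    constructor
    · rintro ⟨s, hs⟩
      refine ⟨-(s * (t⁻¹ * t⁻¹)), ?_⟩
      have h3 := conj_key ht s
      rw [← hs] at h3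
      have h4 : (xm t * xp (-t⁻¹)) * ((xm t * xp (-t⁻¹))⁻¹ * g * (xm t * xp (-t⁻¹))) = g * (xm t * xp (-t⁻¹)) := by
        group
      rw [h4] at h3
      exact mul_right_cancel h3
    · rintro ⟨r, rfl⟩
      refine ⟨-(r * (t * t)), ?_⟩
      have h3 := conj_key ht (-(r * (t * t)))
      have h4 : -(-(r * (t * t)) * (t⁻¹ * t⁻¹)) = r := by
        field_simp
      rw [h4] at h3
      rw [mul_assoc, ← h3]
      group
  have h2 : Cfsg.conjBy (Cfsg.lowerUnipotentSL2 k) (xm t * (xp t⁻¹)⁻¹) = Cfsg.upperUnipotentSL2 k := by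
    rw [xp_inv]
    exact h1
  rw [Cfsg.Agent.Lib.RankOne.conjBy_mul] at h2
  rw [← h2, ← Cfsg.Agent.Lib.RankOne.conjBy_mul]
  simp [Cfsg.Agent.Lib.RankOne.conjBy_one]

theorem upper_comm : IsMulCommutative (Cfsg.upperUnipotentSL2 k) := by
  refine ⟨⟨?_⟩⟩
  rintro ⟨x, hx⟩ ⟨y, hy⟩
  obtain ⟨s, rfl⟩ := mem_upper_iff.mp hx
  obtain ⟨t, rfl⟩ := mem_upper_iff.mp hy
  apply Subtype.ext
  show xp s * xp t = xp t * xp s
  rw [xp_mul, xp_mul, add_comm]

theorem lower_comm : IsMulCommutative (Cfsg.lowerUnipotentSL2 k) := by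
  refine ⟨⟨?_⟩⟩
  rintro ⟨x, hx⟩ ⟨y, hy⟩
  obtain ⟨s, rfl⟩ := mem_lower_iff.mp hx
  obtain ⟨t, rfl⟩ := mem_lower_iff.mp hy
  apply Subtype.ext
  show xm s * xm t = xm t * xm s
  rw [xm_mul, xm_mul, add_comm]

theorem nil_of_comm {H : Type*} [Group H] (h : IsMulCommutative H) : Group.IsNilpotent H := by
  letI : CommGroup H := { (inferInstance : Group H) with mul_comm := h.is_comm.comm }
  exact CommGroup.isNilpotent

theorem isPair : Cfsg.IsRankOnePair (Cfsg.lowerUnipotentSL2 k) (Cfsg.upperUnipotentSL2 k) := by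
  refine ⟨?_, nil_of_comm lower_comm, nil_of_comm upper_comm, ?_, ?_⟩
  · intro h
    have h1 : xm (1 : k) ∈ Cfsg.upperUnipotentSL2 k := by
      rw [← h, mem_lower_iff]
      exact ⟨1, rfl⟩
    obtain ⟨s, hs⟩ := mem_upper_iff.mp h1
    have := congrArg (fun g : Matrix.SpecialLinearGroup (Fin 2) k => (g : Matrix (Fin 2) (Fin 2) k) 1 0) hs
    simp [xm_coe, xp_coe] at this
  · intro a ha ha1
    obtain ⟨t, rfl⟩ := mem_lower_iff.mp ha
    have ht : t ≠ 0 := by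
      rintro rfl
      exact ha1 xm_zero
    refine ⟨xp t⁻¹, mem_upper_iff.mpr ⟨_, rfl⟩, ?_, conj_eq ht⟩
    intro h
    have := congrArg (fun g : Matrix.SpecialLinearGroup (Fin 2) k => (g : Matrix (Fin 2) (Fin 2) k) 0 1) h
    simp [xp_coe, ht] at this
  · intro b hb hb1
    obtain ⟨u, rfl⟩ := mem_upper_iff.mp hb
    have hu : u ≠ 0 := by
      rintro rfl
      exact hb1 xp_zero
    refine ⟨xm u⁻¹, mem_lower_iff.mpr ⟨_, rfl⟩, ?_, ?_⟩
    · intro h
      have := congrArg (fun g : Matrix.SpecialLinearGroup (Fin 2) k => (g : Matrix (Fin 2) (Fin 2) k) 1 0) h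
      simp [xm_coe, hu] at this
    · have := conj_eq (inv_ne_zero hu)
      rw [inv_inv] at this
      exact this.symm

theorem sup_top : Cfsg.lowerUnipotentSL2 k ⊔ Cfsg.upperUnipotentSL2 k = ⊤ := by
  rw [eq_top_iff]
  intro g _
  have hl : ∀ t : k, xm t ∈ Cfsg.lowerUnipotentSL2 k ⊔ Cfsg.upperUnipotentSL2 k := fun t =>
    Subgroup.mem_sup_left (mem_lower_iff.mpr ⟨t, rfl⟩)
  have hu : ∀ t : k, xp t ∈ Cfsg.lowerUnipotentSL2 k ⊔ Cfsg.upperUnipotentSL2 k := fun t =>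
    Subgroup.mem_sup_right (mem_upper_iff.mpr ⟨t, rfl⟩)
  have hdet : ∀ g : Matrix.SpecialLinearGroup (Fin 2) k, (g : Matrix (Fin 2) (Fin 2) k) 0 0 * (g : Matrix (Fin 2) (Fin 2) k) 1 1 -
      (g : Matrix (Fin 2) (Fin 2) k) 0 1 * (g : Matrix (Fin 2) (Fin 2) k) 1 0 = 1 := by
    intro g
    have := g.2
    rwa [Matrix.det_fin_two] at this
  have key : ∀ g : Matrix.SpecialLinearGroup (Fin 2) k, (g : Matrix (Fin 2) (Fin 2) k) 1 0 ≠ 0 →
      g ∈ Cfsg.lowerUnipotentSL2 k ⊔ Cfsg.upperUnipotentSL2 k := by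
    intro g hr
    have hd := hdet g
    have : g = xp (((g : Matrix (Fin 2) (Fin 2) k) 0 0 - 1) / (g : Matrix (Fin 2) (Fin 2) k) 1 0) * xm ((g : Matrix (Fin 2) (Fin 2) k) 1 0) * xp (((g : Matrix (Fin 2) (Fin 2) k) 1 1 - 1) / (g : Matrix (Fin 2) (Fin 2) k) 1 0) := by
      apply sl2_ext <;> simp [Matrix.mul_apply, Fin.sum_univ_two, xp_coe, xm_coe]
      · field_simp
        ring
      · field_simp
        linear_combination -hd
      · field_simp
        ring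
    rw [this]
    exact Subgroup.mul_mem _ (Subgroup.mul_mem _ (hu _) (hl _)) (hu _)
  by_cases hr : (g : Matrix (Fin 2) (Fin 2) k) 1 0 = 0
  · have hp : (g : Matrix (Fin 2) (Fin 2) k) 0 0 ≠ 0 := by
      intro h0
      have := hdet g
      rw [h0, hr] at this
      simp at this
    have h1 : xm 1 * g ∈ Cfsg.lowerUnipotentSL2 k ⊔ Cfsg.upperUnipotentSL2 k := by
      apply key
      simp [Matrix.mul_apply, Fin.sum_univ_two, xm_coe, hr, hp]
    have h2 := Subgroup.mul_mem _ ((Cfsg.lowerUnipotentSL2 k ⊔ Cfsg.upperUnipotentSL2 k).inv_mem (hl 1)) h1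
    simpa using h2
  · exact key g hr

end

/-- For any field k, the special linear group SL₂(k) is a special rank one group with abelian unipotent subgroups, the unipotent subgroups being the group of lower unitriangular matrices and the group of upper unitriangular matrices. -/
theorem result (k : Type*) [Field k] :
    Cfsg.IsRankOneGroup (Matrix.SpecialLinearGroup (Fin 2) k) (Cfsg.lowerUnipotentSL2 k) (Cfsg.upperUnipotentSL2 k) ∧
    Cfsg.IsSpecialRankOnePair (Cfsg.lowerUnipotentSL2 k) (Cfsg.upperUnipotentSL2 k) ∧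
    Cfsg.HasAbelianUnipotents (Cfsg.lowerUnipotentSL2 k) (Cfsg.upperUnipotentSL2 k) := by
  refine ⟨⟨sup_top, isPair⟩, ⟨isPair, ?_⟩, lower_comm, upper_comm⟩
  intro a ha ha1 b hb hb1 hab
  obtain ⟨t, rfl⟩ := mem_lower_iff.mp ha
  obtain ⟨u, rfl⟩ := mem_upper_iff.mp hb
  have ht : t ≠ 0 := by
    rintro rfl
    exact ha1 xm_zero
  -- uniqueness gives `u = t⁻¹`
  have hu : u = t⁻¹ := by
    have h1 := conj_eq ht
    have h2 : Cfsg.conjBy (Cfsg.lowerUnipotentSL2 k) (((xp u)⁻¹)⁻¹ * (xp t⁻¹)⁻¹) = Cfsg.lowerUnipotentSL2 k := by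
      rw [Cfsg.Agent.Lib.RankOne.conjBy_mul, h1, ← hab, ← Cfsg.Agent.Lib.RankOne.conjBy_mul]
      simp [Cfsg.Agent.Lib.RankOne.conjBy_one]
    have h3 := Cfsg.Agent.Lib.RankOne.eq_one_of_conjBy_right isPair
      (Subgroup.mul_mem _ (Subgroup.inv_mem _ (Subgroup.inv_mem _ hb)) (Subgroup.inv_mem _ (mem_upper_iff.mpr ⟨t⁻¹, rfl⟩))) h2
    rw [inv_inv, xp_inv, xp_mul] at h3
    have := congrArg (fun g : Matrix.SpecialLinearGroup (Fin 2) k => (g : Matrix (Fin 2) (Fin 2) k) 0 1) h3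
    simp [xp_coe] at this
    exact sub_eq_zero.mp (by simpa [sub_eq_add_neg] using this)
  subst hu
  rw [xp_inv, xm_inv]
  apply sl2_ext <;> simp [Matrix.mul_apply, Fin.sum_univ_two, xp_coe, xm_coe]
  all_goals try field_simp
  all_goals try ring
  all_goals try simp

end Cfsg.Agent.S5016
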