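import Cfsg.Statements.S5017
import Cfsg.Agent.Lib.RankOne

set_option autoImplicit false
open Cfsg

namespace Cfsg.Agent.S5017


/-- Let X be a rank one group with unipotent subgroups A and B and N a normal subgroup of X. Then either X = N A or N lies in the centre of X. Consequently a perfect rank one group is quasisimple. -/
theorem result {X : Type*} [Group X] {A B : Subgroup X} (h : Cfsg.IsRankOneGroup X A B) :
    (∀ N : Subgroup X, N.Normal → N ⊔ A = ⊤ ∨ N ≤ Subgroup.center X) ∧
    (Group.IsPerfect X → Cfsg.IsQuasisimple X) := by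
  open Cfsg.Agent.Lib.RankOne in
  obtain ⟨hsup, hp⟩ := h
  have key : ∀ N : Subgroup X, N.Normal → N ⊔ A = ⊤ ∨ N ≤ Subgroup.center X := by
    intro N hN
    by_cases hall : ∀ n ∈ N, ∀ C ∈ Cfsg.unipotentSubgroups A B, Cfsg.conjBy C n = C
    · right
      intro n hn
      rw [Subgroup.mem_center_iff]
      intro x
      have := commute_of_fix_all hp (hall n hn) x (by rw [hsup]; exact Subgroup.mem_top x)
      exact this.symm
    · left
      simp only [not_forall] at hall
      obtain ⟨n, hn, C, hC, hmove⟩ := hall
      obtain ⟨n', hn', -, e⟩ := exists_conj_of_moves hp (N := N) (fun n hn x _ => hN.conj_mem n hn x) hn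
        (by rw [hsup]; exact Subgroup.mem_top n) hC hmove
      rw [eq_top_iff, ← hsup]
      refine sup_le le_sup_right ?_
      rw [← e]
      intro x hx
      rw [mem_conjBy] at hx
      have : x = n' * (n'⁻¹ * x * n') * n'⁻¹ := by group
      rw [this]
      exact (N ⊔ A).mul_mem ((N ⊔ A).mul_mem (Subgroup.mem_sup_left hn') (Subgroup.mem_sup_right hx))
        (Subgroup.mem_sup_left (N.inv_mem hn'))
  refine ⟨key, fun hperf => ⟨hperf, ?_⟩⟩
  -- the quotient by the centre is simple
  have hAnil := hp.nilpotent_left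
  -- a normal subgroup `N` with `N ⊔ A = ⊤` is everything
  have htop : ∀ N : Subgroup X, N.Normal → N ⊔ A = ⊤ → N = ⊤ := by
    intro N hN hNA
    haveI := hN
    have hsurj : Function.Surjective ((QuotientGroup.mk' N).comp A.subtype) := by
      intro q
      obtain ⟨x, rfl⟩ := QuotientGroup.mk'_surjective N q
      have hx : x ∈ N ⊔ A := by rw [hNA]; exact Subgroup.mem_top x
      obtain ⟨n, hn, a, ha, rfl⟩ := Subgroup.mem_sup_of_normal_left.mp hx
      refine ⟨⟨a, ha⟩, ?_⟩
      simp only [MonoidHom.comp_apply, Subgroup.coe_subtype, QuotientGroup.mk'_apply]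
      rw [QuotientGroup.eq]
      have := hN.conj_mem n hn a⁻¹
      simpa [mul_assoc] using this
    haveI : Group.IsNilpotent (X ⧸ N) := nilpotent_of_surjective _ hsurj
    by_contra hne
    haveI : Nontrivial (X ⧸ N) := QuotientGroup.nontrivial_iff.mpr hne
    exact Group.IsPerfect.not_isNilpotent (G := X ⧸ N) inferInstance
  obtain ⟨b, hb, hb1⟩ := exists_ne_one_right hp
  have hne : Subgroup.center X ≠ ⊤ := by
    intro hc
    apply hb1
    apply eq_one_of_conjBy_right hp hb
    apply conjBy_eq_of_commute
    intro a _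
    have : b ∈ Subgroup.center X := by rw [hc]; exact Subgroup.mem_top b
    exact (Subgroup.mem_center_iff.mp this a).symm
  haveI : Nontrivial (X ⧸ Subgroup.center X) := QuotientGroup.nontrivial_iff.mpr hne
  refine ⟨?_⟩
  intro Nb hNb
  have hNc : (Nb.comap (QuotientGroup.mk' (Subgroup.center X))).Normal := inferInstance
  rcases key _ hNc with h1 | h1
  · right
    have h2 := htop _ hNc h1
    rw [eq_top_iff]
    intro q _
    obtain ⟨x, rfl⟩ := QuotientGroup.mk'_surjective _ q
    have : x ∈ Nb.comap (QuotientGroup.mk' (Subgroup.center X)) := by rw [h2]; exact Subgroup.mem_top x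
    exact this
  · left
    rw [eq_bot_iff]
    intro q hq
    obtain ⟨x, rfl⟩ := QuotientGroup.mk'_surjective _ q
    have h2 := h1 (show x ∈ Nb.comap (QuotientGroup.mk' (Subgroup.center X)) from hq)
    rw [Subgroup.mem_bot]
    exact (QuotientGroup.eq_one_iff x).mpr h2

end Cfsg.Agent.S5017
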