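import Cfsg.Statements.S5018
import Cfsg.Agent.Lib.RankOne

set_option autoImplicit false
open Cfsg

namespace Cfsg.Agent.S5018


/-- A rank one group is not nilpotent, and its second centre equals its centre. -/
theorem result {X : Type*} [Group X] {A B : Subgroup X} (h : Cfsg.IsRankOneGroup X A B) :
    Subgroup.upperCentralSeries X 2 = Subgroup.center X ∧ ¬ Group.IsNilpotent X := by
  open Cfsg.Agent.Lib.RankOne in
  open scoped commutatorElement in
  obtain ⟨hsup, hp⟩ := h
  have hle : Subgroup.center X ≤ Subgroup.upperCentralSeries X 2 := by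
    rw [← Subgroup.upperCentralSeries_one]
    exact Subgroup.upperCentralSeries_mono X (by norm_num)
  have hX : ∀ x : X, x ∈ A ⊔ B := fun x => by rw [hsup]; exact Subgroup.mem_top x
  have key : Subgroup.upperCentralSeries X 2 ≤ Subgroup.center X := by
    intro z hz
    by_cases hall : ∀ n ∈ Subgroup.upperCentralSeries X 2, ∀ C ∈ Cfsg.unipotentSubgroups A B, Cfsg.conjBy C n = C
    · rw [Subgroup.mem_center_iff]
      intro x
      exact (commute_of_fix_all hp (hall z hz) x (hX x)).symm
    · exfalso
      simp only [not_forall] at hall
      obtain ⟨n, hn, C, hC, hmove⟩ := hall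
      obtain ⟨n', hn', -, e⟩ := exists_conj_of_moves hp (N := Subgroup.upperCentralSeries X 2)
        (fun n hn x _ => (inferInstance : (Subgroup.upperCentralSeries X 2).Normal).conj_mem n hn x) hn (hX n) hC hmove
      obtain ⟨b, hb, hb1⟩ := exists_ne_one_right hp
      apply hb1
      apply eq_one_of_conjBy_right hp hb
      -- `b = n' a n'⁻¹ = ⁅n', a⁆ a` with `⁅n', a⁆` central
      rw [← e, mem_conjBy] at hb
      set a := n'⁻¹ * b * n' with ha
      have hcen : ⁅n', a⁆ ∈ Subgroup.center X := by
        have h1 : n' ∈ Subgroup.upperCentralSeries X (1 + 1) := hn'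
        have h2 := (Subgroup.mem_upperCentralSeries_succ_iff).mp h1 a
        rwa [Subgroup.upperCentralSeries_one] at h2
      have hba : b = ⁅n', a⁆ * a := by
        rw [commutatorElement_def, ha]
        group
      rw [hba, conjBy_mul, conjBy_eq_self_of_mem hb]
      apply conjBy_eq_of_commute
      intro y _
      exact (Subgroup.mem_center_iff.mp hcen y).symm
  have hcb : Subgroup.upperCentralSeries X 2 = Subgroup.center X := le_antisymm key hle
  refine ⟨hcb, ?_⟩
  intro hnil
  -- the whole series stays in the centre
  have hs : ∀ n, Subgroup.upperCentralSeries X n ≤ Subgroup.center X := by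
    intro n
    induction n with
    | zero =>
      rw [Subgroup.upperCentralSeries_zero]
      exact bot_le
    | succ n ih =>
      intro z hz
      apply key
      have h1 : z ∈ Subgroup.upperCentralSeries X (1 + 1) := by
        rw [Subgroup.mem_upperCentralSeries_succ_iff]
        intro y
        rw [Subgroup.upperCentralSeries_one]
        exact ih ((Subgroup.mem_upperCentralSeries_succ_iff).mp hz y)
      exact h1
  obtain ⟨n, hn⟩ := hnil.nilpotent
  obtain ⟨b, hb, hb1⟩ := exists_ne_one_right hp
  apply hb1
  apply eq_one_of_conjBy_right hp hb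
  apply conjBy_eq_of_commute
  intro a _
  have : b ∈ Subgroup.center X := hs n (by rw [hn]; exact Subgroup.mem_top b)
  exact (Subgroup.mem_center_iff.mp this a).symm

end Cfsg.Agent.S5018
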