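import Cfsg.Statements.S5019
import Cfsg.Agent.Lib.RankOneSpecial

set_option autoImplicit false
open Cfsg

namespace Cfsg.Agent.S5019

open Cfsg.Agent.Lib.RankOneSpecial in
theorem aux_eval {X : Type*} [Group X] {A B : Subgroup X} {N : Type*} [AddCommGroup N] [DistribMulAction X N]
    (ρ : ↥(A ⊔ B) →* AddMonoid.End N) (hρ : ∀ x : ↥(A ⊔ B), ∀ n : N, ρ x n = (x : X) • n)
    {x y : X} (hx : x ∈ A ⊔ B) (hy : y ∈ A ⊔ B) (n : N) :
    ((rr ρ y - 1) * (rr ρ x - 1)) n = y • (x • n - n) - (x • n - n) := by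
  show (rr ρ y - 1) ((rr ρ x - 1) n) = _
  have h1 : ∀ (z : X) (_ : z ∈ A ⊔ B) (m : N), (rr ρ z - 1) m = z • m - m := by
    intro z hz m
    show rr ρ z m - m = _
    rw [rr_of_mem ρ hz, hρ]
  rw [h1 x hx, h1 y hy]

/-- Let X be a rank one group with abelian unipotent subgroups A and B, and suppose X acts on an abelian group N (written additively) in such a way that A acts quadratically, meaning a' • (a • n − n) = a • n − n for all a, a' in A and n in N, while X as a whole does not: y • (x • n − n) ≠ x • n − n for some x, y in X and n in N. Then X is a special rank one group. -/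
theorem result {X : Type*} [Group X] {A B : Subgroup X} (h : Cfsg.IsRankOneGroup X A B)
    (hab : Cfsg.HasAbelianUnipotents A B) {N : Type*} [AddCommGroup N] [DistribMulAction X N]
    (hq : ∀ a ∈ A, ∀ a' ∈ A, ∀ n : N, a' • (a • n - n) = a • n - n)
    (hX : ∃ x y : X, ∃ n : N, y • (x • n - n) ≠ x • n - n) : Cfsg.IsSpecialRankOnePair A B := by
  let ρ : ↥(A ⊔ B) →* AddMonoid.End N :=
    (DistribMulAction.toAddMonoidEnd X N).comp (A ⊔ B).subtype
  have hρ : ∀ x : ↥(A ⊔ B), ∀ n : N, ρ x n = (x : X) • n := fun _ _ => rfl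
  have htop : ∀ x : X, x ∈ A ⊔ B := fun x => by rw [h.1]; exact Subgroup.mem_top x
  refine Cfsg.Agent.Lib.RankOneSpecial.special_core h.2 ρ ?_ ?_
  · intro a ha a' ha'
    ext n
    rw [aux_eval ρ hρ (htop a) (htop a') n, hq a ha a' ha' n, sub_self]
    rfl
  · obtain ⟨x, y, n, hne⟩ := hX
    refine ⟨x, htop x, y, htop y, ?_⟩
    intro h0
    apply hne
    have h1 := aux_eval ρ hρ (htop x) (htop y) n
    rw [h0] at h1
    exact (sub_eq_zero.mp h1.symm)

end Cfsg.Agent.S5019
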