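import Cfsg.Statements.S5020
import Cfsg.Agent.Lib.RootStruct

set_option autoImplicit false
open Cfsg

namespace Cfsg.Agent.S5020

open Cfsg.Agent.Lib.RankOne Cfsg.Agent.Lib.RootLaw Cfsg.Agent.Lib.RootAbsorb Cfsg.Agent.Lib.RootStruct


/-- Let X be a special rank one group with abelian unipotent subgroups A and B, and H = N(A) ∩ N(B) its diagonal subgroup. Then either A has at most three elements and X is isomorphic to SL₂(2), SL₂(3) or PSL₂(3); or X = X' A with the commutator subgroup X' quasisimple and the commutator subgroup ⁅A, H⁆ having more than three elements. -/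
theorem result {X : Type*} [Group X] {A B : Subgroup X} (h : Cfsg.IsRankOneGroup X A B)
    (hs : Cfsg.IsSpecialRankOnePair A B) (hab : Cfsg.HasAbelianUnipotents A B) :
    (ENat.card A ≤ 3 ∧ (Nonempty (X ≃* Matrix.SpecialLinearGroup (Fin 2) (ZMod 2)) ∨
        Nonempty (X ≃* Matrix.SpecialLinearGroup (Fin 2) (ZMod 3)) ∨
        Nonempty (X ≃* Matrix.ProjectiveSpecialLinearGroup (Fin 2) (ZMod 3)))) ∨
    (commutator X ⊔ A = ⊤ ∧ Cfsg.IsQuasisimple (commutator X) ∧
      3 < ENat.card ↥(⁅A, Cfsg.rankOneDiagonal A B⁆ : Subgroup X)) := by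
  have hrk := h.2
  by_cases hc : ENat.card A ≤ 3
  · left
    refine ⟨hc, ?_⟩
    obtain ⟨a, ha, ha1⟩ := exists_ne_one_left hrk
    obtain ⟨y, hm⟩ := exists_matched_right hrk ha ha1
    have hfin : Finite A := by
      by_contra hinf
      have : Infinite A := not_finite_iff_infinite.mp hinf
      rw [ENat.card_eq_top_of_infinite] at hc
      simp at hc
    rw [ENat.card_eq_coe_natCard] at hc
    have hn3 : Nat.card A ≤ 3 := by exact_mod_cast hc
    have hnt : Nontrivial A := ⟨⟨⟨a, ha⟩, 1, fun e => ha1 (congrArg Subtype.val e)⟩⟩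
    have hn1 : 1 < Nat.card A := Finite.one_lt_card
    have hpow : a ^ Nat.card A = 1 := by
      have := pow_card_eq_one' (G := A) (x := ⟨a, ha⟩)
      exact congrArg Subtype.val this
    have hA : ∀ (hp : (Nat.card A).Prime), A ≤ Subgroup.zpowers a := by
      intro hp x hx
      haveI : Fact (Nat.card A).Prime := ⟨hp⟩
      have h1 := mem_zpowers_of_prime_card (G := A) (p := Nat.card A) rfl (g := ⟨a, ha⟩) (g' := ⟨x, hx⟩)
        (fun e => ha1 (congrArg Subtype.val e))
      obtain ⟨k, hk⟩ := Subgroup.mem_zpowers_iff.mp h1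
      exact Subgroup.mem_zpowers_iff.mpr ⟨k, congrArg Subtype.val hk⟩
    have hB : ∀ (hp : (Nat.card A).Prime), B ≤ Subgroup.zpowers y := by
      intro hp x hx
      have h1 : x ∈ conjBy A (a⁻¹ * y * a⁻¹)⁻¹ := by
        rw [hm.conj_A_tau]
        exact hx
      rw [mem_conjBy, inv_inv] at h1
      generalize ht : a⁻¹ * y * a⁻¹ = t at h1
      have h2 := hA hp h1
      obtain ⟨k, hk⟩ := Subgroup.mem_zpowers_iff.mp h2
      have h3 := hm.tau_conj_a hs
      rw [ht] at h3
      have h4 : x = (t⁻¹ * a * t) ^ k := by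
        have h5 := conj_zpow (a := t⁻¹) (b := a) (i := k)
        rw [inv_inv] at h5
        rw [h5, hk]
        group
      rw [h4, h3, inv_zpow']
      exact Subgroup.mem_zpowers_iff.mpr ⟨-k, rfl⟩
    have hcases : Nat.card A = 2 ∨ Nat.card A = 3 := by omega
    rcases hcases with h2 | h3
    · left
      have hp : (Nat.card A).Prime := by rw [h2]; exact Nat.prime_two
      rw [h2] at hpow
      have hy := hm.pow_eq_one_right hs hpow
      rw [pow_two] at hpow hy
      exact small_two h.1 hs hm hpow hy (hA hp) (hB hp)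
    · right
      have hp : (Nat.card A).Prime := by rw [h3]; exact Nat.prime_three
      rw [h3] at hpow
      have h4 : a * a * a = 1 := by
        rw [pow_succ, pow_two] at hpow
        exact hpow
      exact small_three h.1 hs hm h4 (hA hp) (hB hp)
  · right
    push Not at hc
    obtain ⟨hp, hq⟩ := main_large h.1 hs hab hc
    refine ⟨by rw [hp]; exact top_sup_eq _, ?_, ?_⟩
    · rw [hp]
      exact Cfsg.Agent.Lib.Layer.isQuasisimple_congr Subgroup.topEquiv.symm hq
    · have hle := le_comm_diag hs hab.1 hc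
      have h1 : ENat.card ↥A ≤ ENat.card ↥(⁅A, rankOneDiagonal A B⁆ : Subgroup X) := by
        rw [show ENat.card ↥A = Set.encard (A : Set X) from ENat.card_coe_set_eq _,
          show ENat.card ↥(⁅A, rankOneDiagonal A B⁆ : Subgroup X) =
            Set.encard ((⁅A, rankOneDiagonal A B⁆ : Subgroup X) : Set X) from ENat.card_coe_set_eq _]
        exact Set.encard_le_encard hle
      exact lt_of_lt_of_le hc h1

end Cfsg.Agent.S5020
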