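import Cfsg.Statements.S5021
import Cfsg.Agent.Lib.RootLaw

set_option autoImplicit false
open Cfsg

namespace Cfsg.Agent.S5021

open Cfsg.Agent.Lib.RankOne Cfsg.Agent.Lib.RootLaw


/-- In a special rank one group with abelian unipotent subgroups A and B, either A is an elementary abelian p-group for some prime p, or A is torsion-free and divisible (every element of A has an n-th root in A for every positive n). -/
theorem result {X : Type*} [Group X] {A B : Subgroup X} (h : Cfsg.IsRankOneGroup X A B)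
    (hs : Cfsg.IsSpecialRankOnePair A B) (hab : Cfsg.HasAbelianUnipotents A B) :
    (∃ p : ℕ, p.Prime ∧ Cfsg.IsElementaryAbelian p A) ∨
    ((∀ a ∈ A, a ≠ 1 → ¬ IsOfFinOrder a) ∧ ∀ a ∈ A, ∀ n : ℕ, 0 < n → ∃ c ∈ A, c ^ n = a) := by
  have hrk := h.2
  by_cases hfin : ∃ a ∈ A, a ≠ 1 ∧ IsOfFinOrder a
  · left
    obtain ⟨a, ha, ha1, hao⟩ := hfin
    have hn1 : orderOf a ≠ 1 := by
      intro e
      exact ha1 (orderOf_eq_one_iff.mp e)
    have hn0 : 0 < orderOf a := hao.orderOf_pos
    refine ⟨(orderOf a).minFac, Nat.minFac_prime hn1, hab.1, ?_⟩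
    generalize hpd : (orderOf a).minFac = p
    have hp : p.Prime := hpd ▸ Nat.minFac_prime hn1
    have hdvd : p ∣ orderOf a := hpd ▸ Nat.minFac_dvd _
    generalize hb : a ^ (orderOf a / p) = a₀
    have ha₀ : a₀ ∈ A := hb ▸ A.pow_mem ha _
    have ha₀p : a₀ ^ p = 1 := by
      rw [← hb, ← pow_mul, Nat.div_mul_cancel hdvd, pow_orderOf_eq_one]
    have ha₀1 : a₀ ≠ 1 := by
      rw [← hb]
      apply pow_ne_one_of_lt_orderOf
      · exact (Nat.div_pos (Nat.le_of_dvd hn0 hdvd) hp.pos).ne'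
      · exact Nat.div_lt_self hn0 hp.one_lt
    intro x hx
    by_contra hxp
    have hx1 : x ≠ 1 := by
      rintro rfl
      simp at hxp
    have hcomm : Commute x a₀ := comm_of_mem hab.1 hx ha₀
    have hxa : (x * a₀) ^ p = x ^ p := by
      rw [hcomm.mul_pow, ha₀p, mul_one]
    have hxa1 : x * a₀ ≠ 1 := by
      intro e
      apply hxp
      rw [← hxa, e, one_pow]
    obtain ⟨w, hw⟩ := exists_matched_right hrk hx hx1
    obtain ⟨v, hv⟩ := exists_matched_right hrk (A.mul_mem hx ha₀) hxa1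
    obtain ⟨w₂, hw₂⟩ := exists_matched_right hrk (A.pow_mem hx p) hxp
    have hw₂' : Matched A B ((x * a₀) ^ p) w₂ := by rwa [hxa]
    have e1 := law_pow p hp.pos B A (special_symm hs) w x w₂ hw.swap hw₂.swap
    have e2 := law_pow p hp.pos B A (special_symm hs) v (x * a₀) w₂ hv.swap hw₂'.swap
    have e3 : w = v := e1.symm.trans e2
    rw [← e3] at hv
    have e4 := hw.unique_left hrk hv
    apply ha₀1
    calc a₀ = x⁻¹ * (x * a₀) := by group
      _ = 1 := by rw [← e4]; group
  · right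
    push Not at hfin
    refine ⟨hfin, ?_⟩
    intro a ha n hn
    by_cases ha1 : a = 1
    · exact ⟨1, A.one_mem, by simp [ha1]⟩
    obtain ⟨y, hm⟩ := exists_matched_right hrk ha ha1
    have hyn : y ^ n ≠ 1 := by
      intro e
      apply hfin a ha ha1
      exact isOfFinOrder_iff_pow_eq_one.mpr ⟨n, hn, hm.pow_eq_one_left hs e⟩
    obtain ⟨c, hc⟩ := exists_matched_left hrk (B.pow_mem hm.right_mem n) hyn
    exact ⟨c, hc.left_mem, law_pow n hn A B hs a y c hm hc⟩

end Cfsg.Agent.S5021
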