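import Cfsg.Statements.S5023
import Cfsg.Agent.S5019
import Cfsg.Agent.S5021
import Cfsg.Agent.Lib.RootBasic

set_option autoImplicit false
open Cfsg

namespace Cfsg.Agent.S5023

open Cfsg.Agent.Lib.RankOne

theorem comm_of_quad {X : Type*} [Group X] {V : Type*} [AddCommGroup V] [DistribMulAction X V]
    (hf : ∀ x : X, (∀ v : V, x • v = v) → x = 1) {a b : X}
    (h1 : ∀ v : V, a • (b • v - v) = b • v - v) (h2 : ∀ v : V, b • (a • v - v) = a • v - v) : a * b = b * a := by
  have h3 : ∀ v : V, (a * b) • v = (b * a) • v := by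
    intro v
    have e1 := h1 v
    have e2 := h2 v
    rw [smul_sub] at e1 e2
    rw [mul_smul, mul_smul]
    have e3 : a • b • v = b • v - v + a • v := sub_eq_iff_eq_add.mp e1
    have e4 : b • a • v = a • v - v + b • v := sub_eq_iff_eq_add.mp e2
    rw [e3, e4]
    abel
  have h4 : (b * a)⁻¹ * (a * b) = 1 := by
    apply hf
    intro v
    rw [mul_smul, h3 v, ← mul_smul, inv_mul_cancel, one_smul]
  calc a * b = (b * a) * ((b * a)⁻¹ * (a * b)) := by group
    _ = b * a := by rw [h4, mul_one]


/-- Let X be a rank one group with unipotent subgroups A and B that acts faithfully on an abelian group V (written additively) with A acting quadratically: a' • (a • v − v) = a • v − v for all a, a' in A and v in V. Then A is either torsion-free or an elementary abelian p-group for some prime p. -/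
theorem result {X : Type*} [Group X] {A B : Subgroup X} (h : Cfsg.IsRankOneGroup X A B)
    {V : Type*} [AddCommGroup V] [DistribMulAction X V] (hf : ∀ x : X, (∀ v : V, x • v = v) → x = 1)
    (hq : ∀ a ∈ A, ∀ a' ∈ A, ∀ v : V, a' • (a • v - v) = a • v - v) :
    (∀ a ∈ A, a ≠ 1 → ¬ IsOfFinOrder a) ∨ ∃ p : ℕ, p.Prime ∧ Cfsg.IsElementaryAbelian p A := by
  have hAc : IsMulCommutative A := by
    refine ⟨⟨fun x y => Subtype.ext ?_⟩⟩
    exact comm_of_quad hf (fun v => hq y y.2 x x.2 v) (fun v => hq x x.2 y y.2 v)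
  have hBc : IsMulCommutative B := by
    obtain ⟨g, -, hg⟩ := right_mem_unipotent h.2
    refine ⟨⟨fun x y => Subtype.ext ?_⟩⟩
    have hx : (x : X) ∈ Cfsg.conjBy A g := hg ▸ x.2
    have hy : (y : X) ∈ Cfsg.conjBy A g := hg ▸ y.2
    rw [mem_conjBy] at hx hy
    have h1 := comm_of_mem hAc hx hy
    have h2 : g⁻¹ * ((x : X) * (y : X)) * g = g⁻¹ * ((y : X) * (x : X)) * g := by
      calc g⁻¹ * ((x : X) * (y : X)) * g = (g⁻¹ * (x : X) * g) * (g⁻¹ * (y : X) * g) := by group
        _ = (g⁻¹ * (y : X) * g) * (g⁻¹ * (x : X) * g) := h1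
        _ = g⁻¹ * ((y : X) * (x : X)) * g := by group
    exact mul_left_cancel (mul_right_cancel h2)
  have hab : HasAbelianUnipotents A B := ⟨hAc, hBc⟩
  have hX : ∃ x y : X, ∃ n : V, y • (x • n - n) ≠ x • n - n := by
    by_contra hcon
    push Not at hcon
    apply Cfsg.Agent.Lib.RootBasic.rankOne_not_comm h.2
    intro a _ b _
    exact comm_of_quad hf (fun v => hcon b a v) (fun v => hcon a b v)
  have hs := Cfsg.Agent.S5019.result h hab hq hX
  rcases Cfsg.Agent.S5021.result h hs hab with h1 | h1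
  · exact Or.inr h1
  · exact Or.inl h1.1

end Cfsg.Agent.S5023
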