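import Cfsg.Statements.S5026
import Cfsg.Agent.Lib.RankOne

set_option autoImplicit false
open Cfsg

namespace Cfsg.Agent.S5026


/-- Let S be a degenerate set of abstract root subgroups of G (a set of abstract transvection groups) and let a, b be commuting non-identity elements of members of S with a b ≠ 1. Then the members of S centralizing a b are exactly those centralizing both a and b. -/
theorem result {G : Type*} [Group G] {S : Set (Subgroup G)} (hS : Cfsg.IsRootSubgroupSet S) (hdeg : Cfsg.IsDegenerateRootSet S)
    {a b : G} (ha : a ∈ Cfsg.rootElements S) (hb : b ∈ Cfsg.rootElements S) (hab : a * b = b * a) (hab1 : a * b ≠ 1) :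
    Cfsg.centralizingMembers S (Subgroup.zpowers (a * b)) =
      Cfsg.centralizingMembers S (Subgroup.zpowers a) ∩ Cfsg.centralizingMembers S (Subgroup.zpowers b) := by
  open Cfsg.Agent.Lib.RankOne in
  open scoped commutatorElement in
  obtain ⟨ha1, E, hE, haE⟩ := ha
  obtain ⟨hb1, F, hF, hbF⟩ := hb
  have hz : ∀ A : Subgroup G, A ≤ Subgroup.centralizer (Subgroup.zpowers (a * b) : Set G) → ∀ t ∈ A, t * (a * b) = (a * b) * t := by
    intro A hA t ht
    have := hA ht
    rw [Subgroup.mem_centralizer_iff] at this
    exact (this (a * b) (Subgroup.mem_zpowers _)).symm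
  have hcz : ∀ {c : G} {A : Subgroup G}, (∀ t ∈ A, t * c = c * t) → A ≤ Subgroup.centralizer (Subgroup.zpowers c : Set G) := by
    intro c A h t ht
    rw [Subgroup.mem_centralizer_iff]
    rintro y hy
    obtain ⟨n, rfl⟩ := Subgroup.mem_zpowers_iff.mp hy
    have h1 : Commute t c := h t ht
    exact (h1.zpow_right n).symm.eq
  have hzc : ∀ {c : G} {A : Subgroup G}, A ≤ Subgroup.centralizer (Subgroup.zpowers c : Set G) → ∀ t ∈ A, t * c = c * t := by
    intro c A h t ht
    have := h ht
    rw [Subgroup.mem_centralizer_iff] at this
    exact (this c (Subgroup.mem_zpowers _)).symm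
  ext A
  constructor
  · rintro ⟨hA, hAz⟩
    have hA_comm := hzc hAz
    -- `A` centralizes `a`
    have hAa : ∀ t ∈ A, t * a = a * t := by
      by_contra hne
      simp only [not_forall] at hne
      obtain ⟨t, ht, hta⟩ := hne
      -- the pair `(E, A)` is a rank one pair
      have hEA : IsRankOnePair E A := by
        rcases hS.pair E hE A hA with hc | hr | hcc
        · exfalso
          apply hta
          have : ⁅a, t⁆ ∈ ⁅E, A⁆ := Subgroup.commutator_mem_commutator haE ht
          rw [hc, Subgroup.mem_bot, commutatorElement_eq_one_iff_mul_comm] at this
          exact this.symm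
        · exact hr
        · exact absurd hcc (hdeg E hE A hA)
      -- `E` and `F` commute
      have hEF : ∀ x ∈ E, x * b = b * x := by
        by_cases hEeq : E = F
        · intro x hx
          rw [← hEeq] at hbF
          exact comm_of_mem (hS.commutative E hE) hx hbF
        · rcases hS.pair E hE F hF with hc | hr | hcc
          · intro x hx
            have : ⁅x, b⁆ ∈ ⁅E, F⁆ := Subgroup.commutator_mem_commutator hx hbF
            rw [hc, Subgroup.mem_bot, commutatorElement_eq_one_iff_mul_comm] at this
            exact this
          · exfalso
            -- `a` moves `F`, but fixes `b`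
            have hmove : conjBy F a ≠ F := fun h3 => ha1 (eq_one_of_conjBy_left hr haE h3)
            have h3 : conjBy F a ∈ unipotentSubgroups E F :=
              conj_mem_unipotent hr (right_mem_unipotent hr) (Subgroup.mem_sup_left haE)
            -- `b` lies in both `F` and `a F a⁻¹`
            have hbm : b ∈ conjBy F a := by
              rw [mem_conjBy]
              have : a⁻¹ * b * a = b := by
                rw [mul_assoc, ← hab]
                group
              rw [this]
              exact hbF
            have hfix : conjBy (conjBy F a) b = conjBy F a := conjBy_eq_self_of_mem hbm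
            have h4 := fix_eq (RankOnePair_symm hr) hbF hb1 (C := conjBy F a) (by
              rw [show unipotentSubgroups F E = unipotentSubgroups E F from ?_]
              · exact h3
              · have h5 := unipotent_eq_of_mem hr (right_mem_unipotent hr) (left_mem_unipotent hr) hr.ne.symm
                exact h5) hfix
            exact hmove h4
          · exact absurd hcc (hdeg E hE F hF)
      -- `a b` centralizes `⟨E, A⟩`
      have hcen : a * b ∈ Subgroup.centralizer ((E ⊔ A : Subgroup G) : Set G) := by
        have h1 : E ⊔ A ≤ Subgroup.centralizer {a * b} := by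
          refine sup_le ?_ ?_
          · intro x hx
            rw [Subgroup.mem_centralizer_iff]
            rintro y rfl
            have h2 := comm_of_mem (hS.commutative E hE) haE hx
            rw [mul_assoc, ← hEF x hx, ← mul_assoc, h2, mul_assoc]
          · intro x hx
            rw [Subgroup.mem_centralizer_iff]
            rintro y rfl
            exact (hA_comm x hx).symm
        rw [Subgroup.mem_centralizer_iff]
        intro x hx
        have h2 := h1 hx
        rw [Subgroup.mem_centralizer_iff] at h2
        exact (h2 (a * b) rfl).symm
      have := mul_not_root hS hE ⟨hA, hEA⟩ hcen hab1 a⁻¹ (E.inv_mem haE) (by simpa using ha1)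
      apply this
      have : a * b * a⁻¹ = b := by
        rw [hab]
        group
      rw [this]
      exact ⟨hb1, F, hF, hbF⟩
    refine ⟨⟨hA, hcz hAa⟩, hA, hcz ?_⟩
    intro t ht
    have h1 := hA_comm t ht
    have h2 := hAa t ht
    -- `t a b = a b t` and `t a = a t`
    have h3 : a * (t * b) = a * (b * t) := by
      calc a * (t * b) = (a * t) * b := by group
        _ = (t * a) * b := by rw [h2]
        _ = t * (a * b) := by group
        _ = a * b * t := h1
        _ = a * (b * t) := by group
    exact mul_left_cancel h3
  · rintro ⟨⟨hA, h1⟩, -, h2⟩
    refine ⟨hA, hcz ?_⟩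
    intro t ht
    have h3 := hzc h1 t ht
    have h4 := hzc h2 t ht
    calc t * (a * b) = (t * a) * b := by group
      _ = (a * t) * b := by rw [h3]
      _ = a * (t * b) := by group
      _ = a * (b * t) := by rw [h4]
      _ = a * b * t := by group

end Cfsg.Agent.S5026
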