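import Cfsg.Statements.S5027
import Cfsg.Agent.Lib.RankOne

set_option autoImplicit false
open Cfsg

namespace Cfsg.Agent.S5027


/-- Let S be a set of abstract root subgroups of G such that every member of S has a rank one partner in S (the graph of rank one pairs on S has no isolated vertex). Then the second centre of G equals its centre. -/
theorem result {G : Type*} [Group G] {S : Set (Subgroup G)} (hS : Cfsg.IsRootSubgroupSet S)
    (hF : ∀ A ∈ S, ¬ Cfsg.IsIsolatedIn (Cfsg.FAdj S) S A) : Subgroup.upperCentralSeries G 2 = Subgroup.center G := by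
  open Cfsg.Agent.Lib.RankOne in
  open scoped commutatorElement in
  have hle : Subgroup.center G ≤ Subgroup.upperCentralSeries G 2 := by
    rw [← Subgroup.upperCentralSeries_one]
    exact Subgroup.upperCentralSeries_mono G (by norm_num)
  refine le_antisymm ?_ hle
  intro z hz
  have hcomm : ∀ A ∈ S, A ≤ Subgroup.centralizer {z} := by
    intro A hA a ha
    by_cases ha1 : a = 1
    · rw [ha1]; exact Subgroup.one_mem _
    obtain ⟨B, hB, hr⟩ := exists_partner (hF A hA) hA
    have hcen : ⁅z, a⁆ ∈ Subgroup.center G := by
      have h1 : z ∈ Subgroup.upperCentralSeries G (1 + 1) := hz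
      have h2 := (Subgroup.mem_upperCentralSeries_succ_iff).mp h1 a
      rwa [Subgroup.upperCentralSeries_one] at h2
    have hw1 : ⁅z, a⁆ = 1 := by
      by_contra hne
      have hcz : ⁅z, a⁆ ∈ Subgroup.centralizer ((A ⊔ B : Subgroup G) : Set G) := by
        rw [Subgroup.mem_centralizer_iff]
        intro x _
        exact (Subgroup.mem_center_iff.mp hcen x)
      apply mul_not_root hS hA ⟨hB, hr⟩ hcz hne a ha ha1
      have e : ⁅z, a⁆ * a = z * a * z⁻¹ := by
        rw [commutatorElement_def]
        group
      rw [e]
      refine ⟨?_, _, hS.conj_mem A hA z, conj_mem_conjBy ha⟩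
      intro h1
      apply ha1
      have : a = z⁻¹ * (z * a * z⁻¹) * z := by group
      rw [this, h1]
      simp
    rw [Subgroup.mem_centralizer_iff]
    rintro w rfl
    have := commutatorElement_eq_one_iff_mul_comm.mp hw1
    exact this
  have htop : (⊤ : Subgroup G) ≤ Subgroup.centralizer {z} := by
    rw [← hS.generates]
    exact iSup₂_le hcomm
  rw [Subgroup.mem_center_iff]
  intro g
  have := htop (Subgroup.mem_top g)
  rw [Subgroup.mem_centralizer_iff] at this
  exact (this z rfl).symm

end Cfsg.Agent.S5027
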