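import Cfsg.Statements.S5029
import Cfsg.Agent.Lib.RootLines

set_option autoImplicit false
open Cfsg

namespace Cfsg.Agent.S5029


/-- Let S be a set of abstract root subgroups of G, A ∈ S having a rank one partner in S, and B ∈ S with C = ⁅A, B⁆ ∈ S. Then the members of S contained in AC are the conjugates of A by elements of B together with C, they partition AC, the members of S inside AC partition AC so that A is a line partner of C, and for every non-identity a ∈ A the map b ↦ a⁻¹ b⁻¹ a b is an isomorphism from B onto C. -/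
theorem result {G : Type*} [Group G] {S : Set (Subgroup G)} (hS : Cfsg.IsRootSubgroupSet S)
    {A B : Subgroup G} (hA : ¬ Cfsg.IsIsolatedIn (Cfsg.FAdj S) S A) (hAS : A ∈ S) (hB : B ∈ S) (hC : ⁅A, B⁆ ∈ S) :
    Cfsg.membersIn S (A ⊔ ⁅A, B⁆) = (fun b : G => Cfsg.conjBy A b) '' (B : Set G) ∪ {⁅A, B⁆} ∧
    Cfsg.IsSubgroupPartition (A ⊔ ⁅A, B⁆) (Cfsg.membersIn S (A ⊔ ⁅A, B⁆)) ∧
    A ∈ Cfsg.linePartners S ⁅A, B⁆ ∧
    ∀ a ∈ A, a ≠ 1 → ∃ φ : ↥B ≃* ↥⁅A, B⁆, ∀ b : ↥B, (φ b : G) = a⁻¹ * (b : G)⁻¹ * a * b := by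
  obtain ⟨D, hD, hAD⟩ := Cfsg.Agent.Lib.RankOne.exists_partner hA hAS
  have hcase := Cfsg.Agent.Lib.RootBasic.commCase_of_mem hS hAS hB hC
  exact ⟨Cfsg.Agent.Lib.RootLines.line_members hS hAS hD hAD hcase,
    Cfsg.Agent.Lib.RootLines.line_partition hS hAS hD hAD hcase,
    Cfsg.Agent.Lib.RootLines.line_partner hS hAS hD hAD hcase,
    fun a ha ha1 => Cfsg.Agent.Lib.RootLines.exists_equiv hS hAS hD hAD hcase ha ha1⟩

end Cfsg.Agent.S5029
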