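import Cfsg.Statements.S5034
import Cfsg.Agent.Lib.RootSpecial

set_option autoImplicit false
open Cfsg

namespace Cfsg.Agent.S5034


/-- Let S be a non-degenerate class of abstract root subgroups of G, A ∈ S and B a rank one partner of A. Then some line partner C of A has ⁅B, C⁆ ∈ S, and the rank one pair A, B is special. -/
theorem result {G : Type*} [Group G] {S : Set (Subgroup G)} (hS : Cfsg.IsRootSubgroupClass S) (hnd : Cfsg.IsNondegenerateRootSet S)
    {A B : Subgroup G} (hA : A ∈ S) (hB : B ∈ Cfsg.rankOnePartners S A) :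
    (∃ C ∈ Cfsg.linePartners S A, C ∈ Cfsg.commutatorPartners S B) ∧ Cfsg.IsSpecialRankOnePair A B := by
  obtain ⟨E, hE, hcase, -⟩ := Cfsg.Agent.Lib.RootSpecial.exists_linePartner hS hnd hA hB.1 hB.2
  refine ⟨⟨E, hE, hE.1.1, ?_⟩, Cfsg.Agent.Lib.RootSpecial.special_of_nondegenerate hS hnd hA hB.1 hB.2⟩
  rw [Subgroup.commutator_comm]
  exact hcase.1

end Cfsg.Agent.S5034
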