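import Cfsg.Statements.S5039
import Cfsg.Agent.Lib.RootDeg
import Cfsg.Agent.Lib.RootLaw
import Cfsg.Agent.Lib.RootPSL
import Cfsg.Agent.Lib.RootSpecial
import Cfsg.Agent.Lib.RootConn
import Cfsg.Agent.Lib.RootLines

set_option autoImplicit false
universe u
open Cfsg

namespace Cfsg.Agent.S5039

open Cfsg.Agent.Lib.RankOne Cfsg.Agent.Lib.RootBasic Cfsg.Agent.Lib.RootLines Cfsg.Agent.Lib.RootConn Cfsg.Agent.Lib.RootSpecial Cfsg.Agent.Lib.RootDeg

theorem exists_good {G : Type u} [Group G] {S : Set (Subgroup G)} (hS : Cfsg.IsRootSubgroupClass S)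
    (hdeg : Cfsg.IsDegenerateRootSet S)
    (hcomm : ∃ A ∈ S, ∃ C ∈ S, A ≠ C ∧ ⁅A, C⁆ = ⊥) {A D : Subgroup G} (hA : A ∈ S) (hD : D ∈ S)
    (hAD : Cfsg.IsRankOnePair A D) :
    ∃ C ∈ S, ∃ Y ∈ S, C ≠ A ∧ (∀ x ∈ A, ∀ z ∈ C, x * z = z * x) ∧ Cfsg.IsRankOnePair A Y ∧ Cfsg.IsRankOnePair C Y := by
  obtain ⟨A₁, hA₁, C₁, hC₁, hne, hcm⟩ := hcomm
  obtain ⟨g, hg⟩ := hS.2.2 A₁ hA₁ A hA
  have hC₀ : conjBy C₁ g ∈ S := hS.1.conj_mem C₁ hC₁ g
  have hcomm₀ : ∀ x ∈ A, ∀ z ∈ conjBy C₁ g, x * z = z * x := by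
    have := comm_conj (fun x hx z hz => comm_of_commutator_eq_bot hcm hx hz) g
    rwa [← hg] at this
  have hne₀ : conjBy C₁ g ≠ A := by
    intro e
    rw [hg] at e
    exact hne (conjBy_injective g e).symm
  obtain ⟨g₀, hg₀⟩ := hS.2.2 A hA _ hC₀
  have hpath := rel_conj_all hS.1 hA hD hAD g₀
  rw [← hg₀] at hpath
  have claim : ∀ W, Relation.ReflTransGen (FAdj S) A W → W = A ∨ IsRankOnePair A W ∨
      ∃ C ∈ S, ∃ Y ∈ S, C ≠ A ∧ (∀ x ∈ A, ∀ z ∈ C, x * z = z * x) ∧ Cfsg.IsRankOnePair A Y ∧ Cfsg.IsRankOnePair C Y := by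
    intro W hW
    induction hW with
    | refl => exact Or.inl rfl
    | @tail W W' _ hstep ih =>
      obtain ⟨hWS, hW'S, hWW'⟩ := hstep
      rcases ih with rfl | h1 | h1
      · exact Or.inr (Or.inl hWW')
      · rcases hS.1.pair A hA W' hW'S with h2 | h2 | h2
        · by_cases h3 : W' = A
          · exact Or.inl h3
          · refine Or.inr (Or.inr ⟨W', hW'S, W, hWS, h3, ?_, h1, RankOnePair_symm hWW'⟩)
            exact fun x hx z hz => comm_of_commutator_eq_bot h2 hx hz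
        · exact Or.inr (Or.inl h2)
        · exact absurd h2 (hdeg _ hA _ hW'S)
      · exact Or.inr (Or.inr h1)
  rcases claim _ hpath with h1 | h1 | h1
  · exact absurd h1 hne₀
  · exact absurd hcomm₀ (rankOne_not_comm h1)
  · exact h1


/-- Let S be a class of abstract root subgroups of G containing two different commuting members. Suppose that, in case S is degenerate and every element of every member of S has order at most 3, the following holds: for every A ∈ S and every rank one partner B of A there are subgroups A₀ ≤ A and B₀ ≤ B generating an image of SL₂(k) with central kernel, k a field with at least four elements, A₀ and B₀ being the images of the unitriangular subgroups. Then every rank one pair A, B in S is special. -/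
theorem result {G : Type u} [Group G] {S : Set (Subgroup G)} (hS : Cfsg.IsRootSubgroupClass S)
    (hcomm : ∃ A ∈ S, ∃ C ∈ S, A ≠ C ∧ ⁅A, C⁆ = ⊥)
    (hH : Cfsg.IsDegenerateRootSet S → (∀ A ∈ S, ∀ a ∈ A, 0 < orderOf a ∧ orderOf a ≤ 3) →
      ∀ A ∈ S, ∀ B ∈ Cfsg.rankOnePartners S A, ∃ A₀ B₀ : Subgroup G, A₀ ≤ A ∧ B₀ ≤ B ∧
        ∃ (k : Type u) (_ : Field k), 3 < ENat.card k ∧ Cfsg.IsPSL2PairOver k A₀ B₀)
    {A B : Subgroup G} (hA : A ∈ S) (hB : B ∈ Cfsg.rankOnePartners S A) : Cfsg.IsSpecialRankOnePair A B := by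
  have hA' := hA
  obtain ⟨hBS, hAB⟩ := hB
  by_cases hnd : IsNondegenerateRootSet S
  · exact special_of_nondegenerate hS hnd hA hBS hAB
  have hdeg : IsDegenerateRootSet S := by
    intro P hP Q hQ hc
    apply hnd
    exact ⟨hcomm, ⟨A, hA, B, hBS, hAB⟩, ⟨P, hP, Q, hQ, hc⟩⟩
  by_cases hgood : ∃ C ∈ S, C ≠ A ∧ (∀ x ∈ A, ∀ z ∈ C, x * z = z * x) ∧ IsRankOnePair C B
  · obtain ⟨C, hC, hne, hAC, hCB⟩ := hgood
    exact special_of_common_partner hS.1 hA hC hBS hAB hCB hAC hne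
  exfalso
  have hbad : ∀ E ∈ S, E ≠ A → (∀ x ∈ A, ∀ z ∈ E, x * z = z * x) → ∀ x ∈ E, ∀ w ∈ B, x * w = w * x := by
    intro E hE hne hc
    rcases hS.1.pair E hE B hBS with h | h | h
    · exact fun x hx w hw => comm_of_commutator_eq_bot h hx hw
    · exact absurd ⟨E, hE, hne, hc, h⟩ hgood
    · exact absurd h (hdeg _ hE _ hBS)
  obtain ⟨C, hC, Y, hY, hne, hAC, hAY, hCY⟩ := exists_good hS hdeg hcomm hA hBS hAB
  by_cases hord : ∀ P ∈ S, ∀ a ∈ P, 0 < orderOf a ∧ orderOf a ≤ 3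
  · obtain ⟨A₀, B₀, hA₀, hB₀, k, _, hk, hP⟩ := hH hdeg hord A hA B ⟨hBS, hAB⟩
    obtain ⟨h, hh, e, he, he1, he', hne'⟩ := Cfsg.Agent.Lib.RootPSL.psl2_torus hP hk
    have hhAB : h ∈ A ⊔ B := sup_le_sup hA₀ hB₀ hh
    have heA := hA₀ he
    have he'A := hA₀ he'
    have hne1 : h * e * h⁻¹ ≠ 1 := by
      intro e2
      apply he1
      have h3 : e = h⁻¹ * (h * e * h⁻¹) * h := by group
      rw [h3, e2]
      group
    have hNA : conjBy A h = A :=
      (eq_of_mem_inter hS.1 hA hBS hAB (hS.1.conj_mem A hA h) he'A (conj_mem_conjBy heA) hne1).symm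
    have hel : ∀ d ∈ A, d ≠ 1 → ∃ a ∈ A, a ≠ 1 ∧ d * a ≠ 1 := by
      intro d hd hd1
      by_cases h4 : d * e = 1
      · refine ⟨h * e * h⁻¹, he'A, hne1, ?_⟩
        intro h5
        apply hne'
        have h6 : d = e⁻¹ := eq_inv_of_mul_eq_one_left h4
        have h7 : d = (h * e * h⁻¹)⁻¹ := eq_inv_of_mul_eq_one_left h5
        exact inv_injective (h7.symm.trans h6)
      · exact ⟨e, heA, he1, h4⟩
    have h8 := bad_central hS.1 hdeg hA hBS hC hY hAB hAY hCY hAC hne hbad hel hhAB hNA heA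
    apply hne'
    rw [h8]
    group
  · push Not at hord
    obtain ⟨P, hP, x, hx, hxo⟩ := hord
    obtain ⟨g, hg⟩ := hS.2.2 P hP A hA
    have ha : g * x * g⁻¹ ∈ A := by
      rw [hg]
      exact conj_mem_conjBy hx
    have hmul : ∀ {u v : G}, (g * u * g⁻¹) * (g * v * g⁻¹) = g * (u * v) * g⁻¹ := by
      intro u v
      group
    have hconj1 : ∀ {u : G}, g * u * g⁻¹ = 1 → u = 1 := by
      intro u hu
      have h3 : u = g⁻¹ * (g * u * g⁻¹) * g := by group
      rw [h3, hu]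
      group
    have hx1 : x ≠ 1 := by
      rintro rfl
      have := hxo (by simp)
      simp at this
    have hx2 : x * x ≠ 1 := by
      intro e
      have h1 : orderOf x ∣ 2 := orderOf_dvd_of_pow_eq_one (by rw [pow_two]; exact e)
      have h2 : orderOf x ≤ 2 := Nat.le_of_dvd (by norm_num) h1
      have h3 := hxo (Nat.pos_of_dvd_of_pos h1 (by norm_num))
      omega
    have hx3 : x * x * x ≠ 1 := by
      intro e
      have h1 : orderOf x ∣ 3 := orderOf_dvd_of_pow_eq_one (by rw [pow_succ, pow_two]; exact e)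
      have h2 : orderOf x ≤ 3 := Nat.le_of_dvd (by norm_num) h1
      have h3 := hxo (Nat.pos_of_dvd_of_pos h1 (by norm_num))
      omega
    generalize hb : g * x * g⁻¹ = a at ha
    have ha1 : a ≠ 1 := by
      rw [← hb]
      exact fun e => hx1 (hconj1 e)
    have ha2 : a * a ≠ 1 := by
      rw [← hb, hmul]
      exact fun e => hx2 (hconj1 e)
    have ha3 : a * a * a ≠ 1 := by
      rw [← hb, hmul, hmul]
      exact fun e => hx3 (hconj1 e)
    have hsp := special_of_common_partner hS.1 hA hC hY hAY hCY hAC hne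
    obtain ⟨t, ht, hNt, hta⟩ := Cfsg.Agent.Lib.RootLaw.special_torus hsp ha ha1 ha2
    have h5 := bad_fix hS.1 hA hC hY hAB hAY hCY hAC hne hbad ht hNt ha ha1 ha ha1 ha2
    rw [hta] at h5
    apply ha3
    have h6 : (a * a * a) * a = 1 * a := by rw [h5, one_mul]
    exact mul_right_cancel h6

end Cfsg.Agent.S5039
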