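import Cfsg.Statements.S5363
import Mathlib

set_option autoImplicit false
open Cfsg

namespace Cfsg.Agent.S5363

theorem power_mul_mem {G : Type*} [Group G] {D : Set G} (hconj : ∀ g : G, ∀ d ∈ D, g * d * g⁻¹ ∈ D)
    (hinv2 : ∀ d ∈ D, d * d = 1) {a b : G} (ha : a ∈ D) (hb : b ∈ D) (m : ℕ) :
    (a * b) ^ m * a ∈ D ∧ (a * b) ^ (m + 1) * a ∈ D := by
  have hab : (a * b)⁻¹ = b * a := by
    rw [mul_inv_rev, inv_eq_of_mul_eq_one_left (hinv2 a ha), inv_eq_of_mul_eq_one_left (hinv2 b hb)]
  induction m with
  | zero =>
    constructor
    · simpa using ha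
    · have := hconj a b hb
      rw [inv_eq_of_mul_eq_one_left (hinv2 a ha)] at this
      simpa using this
  | succ m ih =>
    refine ⟨ih.2, ?_⟩
    have := hconj (a * b) _ ih.1
    rw [hab] at this
    have h2 : a * b * ((a * b) ^ m * a) * (b * a) = (a * b) ^ (m + 1 + 1) * a := by
      have h3 : (a * b) ^ (m + 1 + 1) = (a * b) * (a * b) ^ m * (a * b) := by
        rw [pow_succ, pow_succ']
      rw [h3]
      simp only [mul_assoc]
    rwa [h2] at this

/-- Let D be a conjugation-invariant set of involutions of a finite group G. Then every product of two members of D has odd order or order 2 if and only if, for every a in D and every b in D different from a and commuting with a, the members of D commuting with a b are exactly those commuting with both a and b. -/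
theorem result {G : Type*} [Group G] [Finite G] {D : Set G} (hinv : ∀ d ∈ D, orderOf d = 2) (hconj : ∀ g : G, ∀ d ∈ D, g * d * g⁻¹ ∈ D) : (∀ a ∈ D, ∀ b ∈ D, Odd (orderOf (a * b)) ∨ orderOf (a * b) = 2) ↔ ∀ a ∈ D, ∀ b ∈ D, b ≠ a → Commute a b → {y : G | y ∈ D ∧ Commute (a * b) y} = {y : G | y ∈ D ∧ Commute a y} ∩ {y : G | y ∈ D ∧ Commute b y} := by
  have hinv2 : ∀ d ∈ D, d * d = 1 := by
    intro d hd
    have := pow_orderOf_eq_one d
    rw [hinv d hd, pow_two] at this
    exact this
  have hinvv : ∀ d ∈ D, d⁻¹ = d := fun d hd => inv_eq_of_mul_eq_one_left (hinv2 d hd)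
  constructor
  · intro h a ha b hb hba hab
    ext y
    simp only [Set.mem_setOf_eq, Set.mem_inter_iff]
    constructor
    · rintro ⟨hy, hc⟩
      -- y commutes with a*b ⇒ w := (a*y)^2 = (b*y)^2
      have haa' : ∀ x, a * (a * x) = x := fun x => by rw [← mul_assoc, hinv2 a ha, one_mul]
      have hbb' : ∀ x, b * (b * x) = x := fun x => by rw [← mul_assoc, hinv2 b hb, one_mul]
      have hyy' : ∀ x, y * (y * x) = x := fun x => by rw [← mul_assoc, hinv2 y hy, one_mul]
      have hwa : ∀ u ∈ D, (Odd (orderOf (u * y)) ∨ orderOf (u * y) = 2) := fun u hu => h u hu y hy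
      have hww : (a * y) ^ 2 = (b * y) ^ 2 := by
        have hc1 : a * b * y = y * (a * b) := hc
        have h3 : a * y * (a * y) = b * y * (b * y) := by
          calc a * y * (a * y) = a * ((y * (a * b)) * (b * y)) := by simp only [mul_assoc, hbb']
            _ = a * ((a * b * y) * (b * y)) := by rw [← hc1]
            _ = b * y * (b * y) := by simp only [mul_assoc, haa']
        rw [pow_two, pow_two, h3]
      have hcomm_of : ∀ u ∈ D, (u * y) ^ 2 = 1 → Commute u y := by
        intro u hu h2
        show u * y = y * u
        have h4 : (u * y) * (u * y) = 1 := by rw [← pow_two]; exact h2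
        have h5 := eq_inv_of_mul_eq_one_left h4
        rw [mul_inv_rev, hinvv u hu, hinvv y hy] at h5
        exact h5
      have hone : (a * y) ^ 2 = 1 := by
        rcases hwa a ha with hoa | h2a
        · rcases hwa b hb with hob | h2b
          · exfalso
            obtain ⟨m, hm⟩ := exists_pow_eq_self_of_coprime (n := 2) (x := a * y) (Nat.coprime_two_left.mpr hoa)
            obtain ⟨m', hm'⟩ := exists_pow_eq_self_of_coprime (n := 2) (x := b * y) (Nat.coprime_two_left.mpr hob)
            rw [← hww] at hm'
            set w := (a * y) ^ 2 with hw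
            have hab1 : a * b = w ^ ((m : ℤ) - (m' : ℤ)) := by
              rw [zpow_sub, zpow_natCast, zpow_natCast, hm, hm', mul_inv_rev, hinvv y hy, hinvv b hb]
              simp only [mul_assoc, hyy']
            have hwn : w ^ orderOf (a * y) = 1 := by
              rw [hw, ← pow_mul, mul_comm, pow_mul, pow_orderOf_eq_one, one_pow]
            have habn : (a * b) ^ orderOf (a * y) = 1 := by
              rw [hab1, ← zpow_natCast, ← zpow_mul, mul_comm, zpow_mul, zpow_natCast, hwn, one_zpow]
            have hab2 : (a * b) ^ 2 = 1 := by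
              rw [pow_two]
              calc a * b * (a * b) = a * b * (b * a) := by rw [hab.eq]
                _ = 1 := by rw [mul_assoc, hbb', hinv2 a ha]
            have h6 : orderOf (a * b) ∣ 1 := by
              have := Nat.dvd_gcd (orderOf_dvd_of_pow_eq_one habn) (orderOf_dvd_of_pow_eq_one hab2)
              rwa [(Nat.coprime_two_right.mpr hoa).gcd_eq_one] at this
            have h7 : a * b = 1 := orderOf_eq_one_iff.mp (Nat.dvd_one.mp h6)
            apply hba
            have := inv_eq_of_mul_eq_one_right h7
            rw [hinvv a ha] at this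
            exact this.symm
          · rw [hww, ← h2b]
            exact pow_orderOf_eq_one _
        · rw [← h2a]
          exact pow_orderOf_eq_one _
      exact ⟨⟨hy, hcomm_of a ha hone⟩, hy, hcomm_of b hb (by rw [← hww]; exact hone)⟩
    · rintro ⟨⟨hy, hc1⟩, -, hc2⟩
      exact ⟨hy, hc1.mul_left hc2⟩
  · intro h a ha b hb
    by_contra hcon
    simp only [not_or] at hcon
    obtain ⟨hodd, hn2⟩ := hcon
    have hne0 : orderOf (a * b) ≠ 0 := (orderOf_pos _).ne'
    have heven : Even (orderOf (a * b)) := Nat.not_odd_iff_even.mp hodd
    obtain ⟨m, hm⟩ := heven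
    have hm0 : m ≠ 0 := by
      rintro rfl
      exact hne0 (by omega)
    set z := (a * b) ^ m with hz
    have hz2 : z * z = 1 := by
      rw [hz, ← pow_add, ← hm, pow_orderOf_eq_one]
    have hz1 : z ≠ 1 := by
      intro h1
      have := orderOf_dvd_of_pow_eq_one (show (a * b) ^ m = 1 from h1)
      have := Nat.le_of_dvd (Nat.pos_of_ne_zero hm0) this
      omega
    have hzD : z * a ∈ D := (power_mul_mem hconj hinv2 ha hb m).1
    have hai := hinvv a ha
    have hbi := hinvv b hb
    -- a inverts a*b
    have hinvab : ∀ k : ℕ, a * (a * b) ^ k * a = (b * a) ^ k := by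
      intro k
      induction k with
      | zero => simp [hinv2 a ha]
      | succ k ih =>
        calc a * (a * b) ^ (k + 1) * a = (a * (a * b) ^ k * a) * (a * (a * b) * a) := by
              rw [pow_succ]
              simp only [mul_assoc, (hinv2 a ha)]
              congr 3
              rw [← mul_assoc a a, hinv2 a ha, one_mul]
          _ = (b * a) ^ (k + 1) := by
              rw [ih, pow_succ]
              congr 1
              rw [← mul_assoc a a, hinv2 a ha, one_mul]
    have hinvz : (b * a) ^ m = z := by
      have h1 : (b * a) = (a * b)⁻¹ := by rw [mul_inv_rev, hai, hbi]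
      rw [h1, inv_pow]
      exact inv_eq_of_mul_eq_one_left hz2
    have hza : a * z = z * a := by
      have := hinvab m
      rw [hinvz] at this
      calc a * z = a * z * a * a := by rw [mul_assoc (a * z), hinv2 a ha, mul_one]
        _ = z * a := by rw [this]
    have hzb : b * z = z * b := by
      -- z also commutes with a*b, hence with b = a * (a*b)
      have h1 : b = a * (a * b) := by rw [← mul_assoc, hinv2 a ha, one_mul]
      have h2 : Commute (a * b) z := (Commute.refl _).pow_right m
      have h3 : Commute a z := hza
      have := h3.mul_left h2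
      rw [← h1] at this
      exact this
    have hne : z * a ≠ a := by
      intro h1
      exact hz1 (mul_eq_right.mp h1)
    have hc : Commute a (z * a) := by
      show a * (z * a) = z * a * a
      rw [← mul_assoc, hza]
    have key := h a ha (z * a) hzD hne hc
    have hb1 : b ∈ {y : G | y ∈ D ∧ Commute (a * (z * a)) y} := by
      refine ⟨hb, ?_⟩
      have : a * (z * a) = z := by
        rw [← mul_assoc, hza, mul_assoc, hinv2 a ha, mul_one]
      rw [this]
      exact hzb.symm
    rw [key] at hb1
    have hab : Commute a b := hb1.1.2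
    apply hn2
    have h2 : (a * b) ^ 2 = 1 := by
      rw [pow_two]
      calc a * b * (a * b) = a * b * (b * a) := by rw [hab.eq]
        _ = 1 := by
          rw [mul_assoc, ← mul_assoc b, hinv2 b hb, one_mul, hinv2 a ha]
    have h3 := orderOf_dvd_of_pow_eq_one h2
    have h4 : orderOf (a * b) ≤ 2 := Nat.le_of_dvd (by norm_num) h3
    -- orderOf even and ≠0, so it is 2
    omega

end Cfsg.Agent.S5363
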