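import Cfsg.Statements.S5049
import Cfsg.Agent.Lib.FusionAlperin
import Cfsg.Agent.S5363

set_option autoImplicit false
open Cfsg

namespace Cfsg.Agent.S5049


/-- Let G be a finite group generated by a set D of odd transpositions (root involutions with no product of order 4), Q = O₂(G), and for a ∈ D let Q_a be the commutator subgroup of Q with a. Then every member of D commuting with a centralizes Q_a; and for b ∈ D with ab of odd order greater than 1, the centralizer of ab in Q is the intersection of the centralizers of a and b in Q. -/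
theorem result {G : Type*} [Group G] [Finite G] {D : Set G} (hD : Cfsg.IsOddTranspositionSet D) {a : G} (ha : a ∈ D) :
    (∀ e ∈ Cfsg.commutingMembers D a, ∀ q ∈ ⁅Cfsg.pCore 2 G, Subgroup.zpowers a⁆, e * q = q * e) ∧
    (∀ b ∈ Cfsg.oddPartners D a,
      Cfsg.pCore 2 G ⊓ Subgroup.centralizer {a * b} = Cfsg.pCore 2 G ⊓ Subgroup.centralizer {a} ⊓ Subgroup.centralizer {b}) := by
  open Cfsg.Agent.Lib.FusionAlperin in
  open scoped commutatorElement in
  haveI : Fact (Nat.Prime 2) := ⟨Nat.prime_two⟩
  obtain ⟨hR, hno4⟩ := hD
  set Q := Cfsg.pCore 2 G with hQ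
  have hQn : Q.Normal := pCore_normal' (X := G) 2
  have hQp : IsPGroup 2 Q := isPGroup_pCore' (X := G) 2
  have hinv2 : ∀ d ∈ D, d * d = 1 := by
    intro d hd
    have := pow_orderOf_eq_one d
    rwa [hR.orderOf_eq d hd, pow_two] at this
  have hinvv : ∀ d ∈ D, d⁻¹ = d := fun d hd => inv_eq_of_mul_eq_one_left (hinv2 d hd)
  have hD' : ∀ g : G, ∀ d ∈ D, g * d * g⁻¹ ∈ D := fun g d hd => hR.conj_mem d hd g
  -- core fact: a member whose product square lands in `Q` commutes
  have hcore : ∀ u ∈ D, ∀ v ∈ D, (u * v) * (u * v) ∈ Q → u * v = v * u := by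
    intro u hu v hv hw
    rcases hR.pair u hu v hv with h | h | h
    · exact h
    · obtain ⟨k, hk⟩ := hQp ⟨_, hw⟩
      have hk' : ((u * v) * (u * v)) ^ 2 ^ k = 1 := by
        have := congrArg Subtype.val hk
        simpa using this
      have h1 : (u * v) ^ (2 * 2 ^ k) = 1 := by
        rw [pow_mul, pow_two]
        exact hk'
      have h2 : orderOf (u * v) ∣ 2 * 2 ^ k := orderOf_dvd_of_pow_eq_one h1
      have h3 : Nat.Coprime (orderOf (u * v)) (2 * 2 ^ k) := by
        rw [← pow_succ']
        exact Nat.Coprime.pow_right _ (Nat.coprime_two_right.mpr h)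
      have h4 : orderOf (u * v) = 1 := Nat.Coprime.eq_one_of_dvd h3 h2
      have h5 : u * v = 1 := orderOf_eq_one_iff.mp h4
      have h6 : v = u := by
        have := inv_eq_of_mul_eq_one_right h5
        rw [hinvv u hu] at this
        exact this.symm
      rw [h6]
    · exact absurd h.1 (hno4 u hu v hv)
  have haa := hinv2 a ha
  have hai := hinvv a ha
  have hconjQ : ∀ x ∈ Q, a * x * a⁻¹ ∈ Q := fun x hx => hQn.conj_mem x hx a
  -- the order condition for the forward direction of the centralizer criterion
  have hcrit : ∀ u ∈ D, ∀ v ∈ D, Odd (orderOf (u * v)) ∨ orderOf (u * v) = 2 := by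
    intro u hu v hv
    rcases hR.pair u hu v hv with h | h | h
    · have huu := hinv2 u hu
      have hvv := hinv2 v hv
      have h2 : (u * v) ^ 2 = 1 := by
        rw [pow_two]
        calc u * v * (u * v) = u * v * (v * u) := by rw [h]
          _ = u * (v * v) * u := by group
          _ = 1 := by rw [hvv, mul_one, huu]
      have h3 : orderOf (u * v) ∣ 2 := orderOf_dvd_of_pow_eq_one h2
      rcases (Nat.dvd_prime Nat.prime_two).mp h3 with h4 | h4
      · left
        rw [h4]
        exact odd_one
      · exact Or.inr h4
    · exact Or.inl h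
    · exact absurd h.1 (hno4 u hu v hv)
  constructor
  · intro e he
    have heD := he.1
    have hea : e * a = a * e := he.2
    have hee := hinv2 e heD
    have hei := hinvv e heD
    -- `e` commutes with the conjugates of `a` under `Q`
    have hconj : ∀ x ∈ Q, e * (x * a * x⁻¹) = (x * a * x⁻¹) * e := by
      intro x hx
      apply hcore e heD _ (hD' x a ha)
      set x' := e * x * e⁻¹ with hx'
      have hx'Q : x' ∈ Q := hQn.conj_mem x hx e
      have e1 : (e * (x * a * x⁻¹)) * (e * (x * a * x⁻¹)) = x' * (a * x'⁻¹ * a⁻¹) * (a * x * a⁻¹) * x⁻¹ := by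
        have e2 : e * (x * a * x⁻¹) * e = x' * a * x'⁻¹ := by
          rw [hx', hei]
          calc e * (x * a * x⁻¹) * e = e * x * (a * x⁻¹ * e) := by group
            _ = e * x * (a * (x⁻¹ * e)) := by group
            _ = e * x * e * (e * a) * (x⁻¹ * e) := by
              rw [show e * x * e * (e * a) = e * x * (e * e) * a by group, hee]
              group
            _ = e * x * e * (a * e) * (x⁻¹ * e) := by rw [hea]
            _ = e * x * e * a * (e * x * e)⁻¹ := by
              rw [mul_inv_rev, mul_inv_rev, hei]
              group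
        calc (e * (x * a * x⁻¹)) * (e * (x * a * x⁻¹)) = (e * (x * a * x⁻¹) * e) * (x * a * x⁻¹) := by group
          _ = (x' * a * x'⁻¹) * (x * a * x⁻¹) := by rw [e2]
          _ = x' * (a * x'⁻¹ * a⁻¹) * (a * x * a⁻¹) * (a * a) * x⁻¹ := by group
          _ = _ := by rw [haa, mul_one]
      rw [e1]
      exact Q.mul_mem (Q.mul_mem (Q.mul_mem hx'Q (hconjQ _ (Q.inv_mem hx'Q))) (hconjQ _ hx)) (Q.inv_mem hx)
    have hle : ⁅Q, Subgroup.zpowers a⁆ ≤ Subgroup.centralizer {e} := by
      rw [Subgroup.commutator_le]
      intro x hx y hy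
      obtain ⟨n, rfl⟩ := Subgroup.mem_zpowers_iff.mp hy
      rw [Subgroup.mem_centralizer_iff]
      intro w hw
      have hwe : w = e := hw
      rw [hwe]
      have ha2 : a ^ (2 : ℤ) = 1 := by
        rw [show (2 : ℤ) = ((2 : ℕ) : ℤ) from rfl, zpow_natCast, pow_two, haa]
      rcases Int.even_or_odd' n with ⟨m, rfl | rfl⟩
      · rw [zpow_mul, ha2, one_zpow, commutatorElement_one_right, one_mul, mul_one]
      · rw [zpow_add, zpow_mul, ha2, one_zpow, one_mul, zpow_one, commutatorElement_def, hai]
        have h1 := hconj x hx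
        calc e * (x * a * x⁻¹ * a) = (e * (x * a * x⁻¹)) * a := by group
          _ = (x * a * x⁻¹) * (e * a) := by rw [h1]; group
          _ = (x * a * x⁻¹) * (a * e) := by rw [hea]
          _ = x * a * x⁻¹ * a * e := by group
    intro q hq
    have := hle hq
    rw [Subgroup.mem_centralizer_iff] at this
    exact this e rfl
  · intro b hb
    obtain ⟨hbD, hba, hodd⟩ := hb
    have hbb := hinv2 b hbD
    have hbi := hinvv b hbD
    apply le_antisymm
    · rintro x ⟨hxQ, hxc⟩
      replace hxc : x ∈ Subgroup.centralizer {a * b} := hxc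
      rw [Subgroup.mem_centralizer_iff] at hxc
      have hxab : a * b * x = x * (a * b) := hxc _ rfl
      set a' := x * a * x⁻¹ with ha'
      set b' := x * b * x⁻¹ with hb'
      have ha'D : a' ∈ D := hD' x a ha
      have hb'D : b' ∈ D := hD' x b hbD
      have hprod : a' * b' = a * b := by
        rw [ha', hb']
        calc x * a * x⁻¹ * (x * b * x⁻¹) = x * (a * b) * x⁻¹ := by group
          _ = a * b * x * x⁻¹ := by rw [hxab]
          _ = a * b := by group
      have hw : a * a' = b * b' := by
        have h1 : a * (a' * b') = b := by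
          rw [hprod, ← mul_assoc, haa, one_mul]
        calc a * a' = (a * (a' * b')) * b'⁻¹ := by group
          _ = b * b' := by rw [h1, hinvv b' hb'D]
      have hinQ : ∀ u ∈ D, u * (x * u * x⁻¹) ∈ Q := by
        intro u hu
        have e : u * (x * u * x⁻¹) = (u * x * u⁻¹) * x⁻¹ := by
          rw [hinvv u hu]
          group
        rw [e]
        exact Q.mul_mem (hQn.conj_mem x hxQ u) (Q.inv_mem hxQ)
      have haa' : a * a' = a' * a := hcore a ha a' ha'D (Q.mul_mem (hinQ a ha) (hinQ a ha))
      have hbb' : b * b' = b' * b := hcore b hbD b' hb'D (Q.mul_mem (hinQ b hbD) (hinQ b hbD))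
      have hw1 : a * a' = 1 := by
        by_contra hne
        have hnea : a' ≠ a := by
          intro h
          apply hne
          rw [h, haa]
        have key := (Cfsg.Agent.S5363.result (fun d hd => hR.orderOf_eq d hd) hD').mp hcrit a ha a' ha'D hnea haa'
        have hbmem : b ∈ {y : G | y ∈ D ∧ Commute (a * a') y} := by
          refine ⟨hbD, ?_⟩
          rw [hw]
          show b * b' * b = b * (b * b')
          calc b * b' * b = b' * b * b := by rw [hbb']
            _ = b' := by rw [mul_assoc, hbb, mul_one]
            _ = b * (b * b') := by rw [← mul_assoc, hbb, one_mul]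
        rw [key] at hbmem
        have hab : a * b = b * a := hbmem.1.2
        have h2 : (a * b) ^ 2 = 1 := by
          rw [pow_two]
          calc a * b * (a * b) = a * b * (b * a) := by rw [hab]
            _ = a * (b * b) * a := by group
            _ = 1 := by rw [hbb, mul_one, haa]
        have h3 : orderOf (a * b) ∣ 2 := orderOf_dvd_of_pow_eq_one h2
        have h4 : orderOf (a * b) = 1 := by
          rcases (Nat.dvd_prime Nat.prime_two).mp h3 with h5 | h5
          · exact h5
          · rw [h5] at hodd
            exact absurd hodd (by decide)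
        have h5 : a * b = 1 := orderOf_eq_one_iff.mp h4
        apply hba
        have := inv_eq_of_mul_eq_one_right h5
        rw [hai] at this
        exact this.symm
      have hcomm : ∀ u ∈ D, u * (x * u * x⁻¹) = 1 → u * x = x * u := by
        intro u hu h1
        have h2 := inv_eq_of_mul_eq_one_right h1
        rw [hinvv u hu] at h2
        exact (mul_inv_eq_iff_eq_mul.mp h2.symm).symm
      refine ⟨⟨hxQ, Subgroup.mem_centralizer_iff.mpr ?_⟩, Subgroup.mem_centralizer_iff.mpr ?_⟩
      · intro w hwm
        have hwe : w = a := hwm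
        rw [hwe]
        exact hcomm a ha hw1
      · intro w hwm
        have hwe : w = b := hwm
        rw [hwe]
        exact hcomm b hbD (by
          show b * b' = 1
          rw [← hw]
          exact hw1)
    · rintro x ⟨⟨hxQ, h1⟩, h2⟩
      refine ⟨hxQ, Subgroup.mem_centralizer_iff.mpr ?_⟩
      replace h1 : x ∈ Subgroup.centralizer {a} := h1
      replace h2 : x ∈ Subgroup.centralizer {b} := h2
      rw [Subgroup.mem_centralizer_iff] at h1 h2
      intro w hw
      have hwe : w = a * b := hw
      rw [hwe]
      have h3 := h1 a rfl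
      have h4 := h2 b rfl
      rw [mul_assoc, h4, ← mul_assoc, h3, mul_assoc]

end Cfsg.Agent.S5049
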