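import Cfsg.Statements.S5057
import Cfsg.Prelude.Def_RootSubgroups

set_option autoImplicit false
open Cfsg

namespace Cfsg.Agent.S5057

def encP (g : Equiv.Perm (Fin 6)) : List ℕ := [(g 0).val, (g 1).val, (g 2).val, (g 3).val, (g 4).val, (g 5).val]

def mk4 (p : ℕ × ℕ × ℕ × ℕ) : Equiv.Perm (Fin 6) :=
  Equiv.swap (Fin.ofNat 6 p.1) (Fin.ofNat 6 p.2.1) * Equiv.swap (Fin.ofNat 6 p.2.2.1) (Fin.ofNat 6 p.2.2.2)

def names : List (ℕ × ℕ × ℕ × ℕ) := [(0,1,2,3),(0,1,2,4),(0,1,2,5),(0,1,3,4),(0,1,3,5),(0,1,4,5),(0,2,1,3),(0,2,1,4),(0,2,1,5),(0,2,3,4),(0,2,3,5),(0,2,4,5),(0,3,1,2),(0,3,1,4),(0,3,1,5),(0,3,2,4),(0,3,2,5),(0,3,4,5),(0,4,1,2),(0,4,1,3),(0,4,1,5),(0,4,2,3),(0,4,2,5),(0,4,3,5),(0,5,1,2),(0,5,1,3),(0,5,1,4),(0,5,2,3),(0,5,2,4),(0,5,3,4),(1,2,3,4),(1,2,3,5),(1,2,4,5),(1,3,2,4),(1,3,2,5),(1,3,4,5),(1,4,2,3),(1,4,2,5),(1,4,3,5),(1,5,2,3),(1,5,2,4),(1,5,3,4),(2,3,4,5),(2,4,3,5),(2,5,3,4)]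

def invsA6 : List (Equiv.Perm (Fin 6)) := names.map mk4

def encL : List (List ℕ) := [[1,0,3,2,4,5],[1,0,4,3,2,5],[1,0,5,3,4,2],[1,0,2,4,3,5],[1,0,2,5,4,3],[1,0,2,3,5,4],[2,3,0,1,4,5],[2,4,0,3,1,5],[2,5,0,3,4,1],[2,1,0,4,3,5],[2,1,0,5,4,3],[2,1,0,3,5,4],[3,2,1,0,4,5],[3,4,2,0,1,5],[3,5,2,0,4,1],[3,1,4,0,2,5],[3,1,5,0,4,2],[3,1,2,0,5,4],[4,2,1,3,0,5],[4,3,2,1,0,5],[4,5,2,3,0,1],[4,1,3,2,0,5],[4,1,5,3,0,2],[4,1,2,5,0,3],[5,2,1,3,4,0],[5,3,2,1,4,0],[5,4,2,3,1,0],[5,1,3,2,4,0],[5,1,4,3,2,0],[5,1,2,4,3,0],[0,2,1,4,3,5],[0,2,1,5,4,3],[0,2,1,3,5,4],[0,3,4,1,2,5],[0,3,5,1,4,2],[0,3,2,1,5,4],[0,4,3,2,1,5],[0,4,5,3,1,2],[0,4,2,5,1,3],[0,5,3,2,4,1],[0,5,4,3,2,1],[0,5,2,4,3,1],[0,1,3,2,5,4],[0,1,4,5,2,3],[0,1,5,4,3,2]]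

def swaps (l : List (ℕ × ℕ)) : Equiv.Perm (Fin 6) :=
  (l.map fun p => Equiv.swap (Fin.ofNat 6 p.1) (Fin.ofNat 6 p.2)).prod

def conjT : List ((ℕ × ℕ × ℕ × ℕ) × List (ℕ × ℕ)) := [((0,1,2,3),[]),((0,1,2,4),[(3,4),(4,5)]),((0,1,2,5),[(3,5),(4,5)]),((0,1,3,4),[(2,3),(3,4)]),((0,1,3,5),[(2,3),(3,5)]),((0,1,4,5),[(2,4),(3,5)]),((0,2,1,3),[(1,2),(4,5)]),((0,2,1,4),[(1,2),(3,4)]),((0,2,1,5),[(1,2),(3,5)]),((0,2,3,4),[(1,2),(2,3),(3,4),(4,5)]),((0,2,3,5),[(1,2),(2,3),(3,5),(4,5)]),((0,2,4,5),[(1,2),(2,4),(3,5),(4,5)]),((0,3,1,2),[(1,3),(2,3)]),((0,3,1,4),[(1,3),(2,3),(3,4),(4,5)]),((0,3,1,5),[(1,3),(2,3),(3,5),(4,5)]),((0,3,2,4),[(1,3),(3,4)]),((0,3,2,5),[(1,3),(3,5)]),((0,3,4,5),[(1,3),(2,4),(3,5),(4,5)]),((0,4,1,2),[(1,4),(2,4),(3,4),(4,5)]),((0,4,1,3),[(1,4),(2,4)]),((0,4,1,5),[(1,4),(2,4),(3,5),(4,5)]),((0,4,2,3),[(1,4),(4,5)]),((0,4,2,5),[(1,4),(3,5)]),((0,4,3,5),[(1,4),(2,3),(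3,5),(4,5)]),((0,5,1,2),[(1,5),(2,5),(3,5),(4,5)]),((0,5,1,3),[(1,5),(2,5)]),((0,5,1,4),[(1,5),(2,5),(3,4),(4,5)]),((0,5,2,3),[(1,5),(4,5)]),((0,5,2,4),[(1,5),(3,4)]),((0,5,3,4),[(1,5),(2,3),(3,4),(4,5)]),((1,2,3,4),[(0,1),(1,2),(2,3),(3,4)]),((1,2,3,5),[(0,1),(1,2),(2,3),(3,5)]),((1,2,4,5),[(0,1),(1,2),(2,4),(3,5)]),((1,3,2,4),[(0,1),(1,3),(3,4),(4,5)]),((1,3,2,5),[(0,1),(1,3),(3,5),(4,5)]),((1,3,4,5),[(0,1),(1,3),(2,4),(3,5)]),((1,4,2,3),[(0,1),(1,4)]),((1,4,2,5),[(0,1),(1,4),(3,5),(4,5)]),((1,4,3,5),[(0,1),(1,4),(2,3),(3,5)]),((1,5,2,3),[(0,1),(1,5)]),((1,5,2,4),[(0,1),(1,5),(3,4),(4,5)]),((1,5,3,4),[(0,1),(1,5),(2,3),(3,4)]),((2,3,4,5),[(0,2),(1,3),(2,4),(3,5)]),((2,4,3,5),[(0,2),(1,4),(2,3),(3,5)]),((2,5,3,4),[(0,2),(1,5),(2,3),(3,4)])]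

def comp6 (l m : List ℕ) : List ℕ := m.map fun i => l.getD i 0

def id6 : List ℕ := [0, 1, 2, 3, 4, 5]

theorem encP_getD (a : Equiv.Perm (Fin 6)) (i : Fin 6) : (encP a).getD i.val 0 = (a i).val := by
  fin_cases i <;> rfl

theorem encP_mul (a b : Equiv.Perm (Fin 6)) : encP (a * b) = comp6 (encP a) (encP b) := by
  show [((a * b) 0).val, ((a * b) 1).val, ((a * b) 2).val, ((a * b) 3).val, ((a * b) 4).val, ((a * b) 5).val] =
    [(encP a).getD (b 0).val 0, (encP a).getD (b 1).val 0, (encP a).getD (b 2).val 0, (encP a).getD (b 3).val 0, (encP a).getD (b 4).val 0, (encP a).getD (b 5).val 0]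
  rw [encP_getD a (b 0), encP_getD a (b 1), encP_getD a (b 2), encP_getD a (b 3), encP_getD a (b 4), encP_getD a (b 5)]
  rfl

theorem encP_one : encP 1 = id6 := rfl

theorem encP_inj {a b : Equiv.Perm (Fin 6)} (h : encP a = encP b) : a = b := by
  ext i
  rw [← encP_getD, ← encP_getD, h]

theorem invs_enc : invsA6.map encP = encL := by decide +kernel

theorem mem_invs_iff {g : Equiv.Perm (Fin 6)} : g ∈ invsA6 ↔ encP g ∈ encL := by
  rw [← invs_enc, List.mem_map]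
  constructor
  · intro h
    exact ⟨g, h, rfl⟩
  · rintro ⟨c, hc, e⟩
    rwa [← encP_inj e]

theorem pair_model : ∀ a ∈ encL, ∀ b ∈ encL,
    comp6 (comp6 a b) (comp6 a b) = id6 ∨
    comp6 (comp6 a b) (comp6 (comp6 a b) (comp6 a b)) = id6 ∨
    comp6 (comp6 a b) (comp6 (comp6 a b) (comp6 (comp6 a b) (comp6 (comp6 a b) (comp6 a b)))) = id6 ∨
    (comp6 (comp6 a b) (comp6 (comp6 a b) (comp6 (comp6 a b) (comp6 a b))) = id6 ∧
      comp6 (comp6 a b) (comp6 a b) ≠ id6 ∧ comp6 (comp6 a b) (comp6 a b) ∈ encL) := by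
  decide +kernel

theorem pair_tbl : ∀ a ∈ invsA6, ∀ b ∈ invsA6, (a * b) ^ 2 = 1 ∨ (a * b) ^ 3 = 1 ∨ (a * b) ^ 5 = 1 ∨
    ((a * b) ^ 4 = 1 ∧ (a * b) ^ 2 ≠ 1 ∧ (a * b) ^ 2 ∈ invsA6) := by
  intro a ha b hb
  have h := pair_model _ (mem_invs_iff.mp ha) _ (mem_invs_iff.mp hb)
  have e1 : comp6 (encP a) (encP b) = encP (a * b) := (encP_mul a b).symm
  rw [e1] at h
  generalize a * b = r at h
  have e2 : comp6 (encP r) (encP r) = encP (r ^ 2) := by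
    rw [pow_two, encP_mul]
  have e3 : comp6 (encP r) (encP (r ^ 2)) = encP (r ^ 3) := by
    rw [pow_succ' r 2, encP_mul]
  have e4 : comp6 (encP r) (encP (r ^ 3)) = encP (r ^ 4) := by
    rw [pow_succ' r 3, encP_mul]
  have e5 : comp6 (encP r) (encP (r ^ 4)) = encP (r ^ 5) := by
    rw [pow_succ' r 4, encP_mul]
  simp only [e2, e3, e4, e5, ← encP_one] at h
  rcases h with h | h | h | ⟨h1, h2, h3⟩
  · exact Or.inl (encP_inj h)
  · exact Or.inr (Or.inl (encP_inj h))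
  · exact Or.inr (Or.inr (Or.inl (encP_inj h)))
  · exact Or.inr (Or.inr (Or.inr ⟨encP_inj h1, fun h4 => h2 (by rw [h4]), mem_invs_iff.mpr h3⟩))

theorem spec1 : ∀ g : Equiv.Perm (Fin 6), g * g = 1 → Equiv.Perm.sign g = 1 → g ≠ 1 → g ∈ invsA6 := by
  decide +kernel

theorem spec2 : ∀ g ∈ invsA6, g * g = 1 ∧ Equiv.Perm.sign g = 1 ∧ g ≠ 1 := by
  decide +kernel

theorem conj_tbl : ∀ p ∈ conjT, Equiv.Perm.sign (swaps p.2) = 1 ∧
    mk4 p.1 = swaps p.2 * mk4 (0, 1, 2, 3) * (swaps p.2)⁻¹ := by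
  decide +kernel

theorem conj_cover : ∀ a ∈ names, ∃ p ∈ conjT, p.1 = a := by
  decide +kernel

theorem mem_D {g : ↥(alternatingGroup (Fin 6))} : orderOf g = 2 ↔ (g : Equiv.Perm (Fin 6)) ∈ invsA6 := by
  have hs : Equiv.Perm.sign (g : Equiv.Perm (Fin 6)) = 1 := (Equiv.Perm.mem_alternatingGroup).mp g.2
  haveI : Fact (Nat.Prime 2) := ⟨Nat.prime_two⟩
  constructor
  · intro h
    have h1 : g * g = 1 := by
      have := pow_orderOf_eq_one g
      rwa [h, pow_two] at this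
    have h2 : g ≠ 1 := by
      rintro rfl
      simp at h
    exact spec1 _ (congrArg Subtype.val h1) hs (fun h3 => h2 (Subtype.ext h3))
  · intro h
    obtain ⟨h1, -, h2⟩ := spec2 _ h
    apply orderOf_eq_prime
    · rw [pow_two]
      exact Subtype.ext h1
    · exact fun h3 => h2 (congrArg Subtype.val h3)

/-- The involutions of the alternating group of degree 6 form a class of root involutions (a single conjugacy class of involutions generating the group, any two of which commute, have product of odd order, or have product of order 4 whose square is again an involution of the class), and the product of any two of them has order at most 5. -/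
theorem result :
    Cfsg.IsRootInvolutionClass {g : ↥(alternatingGroup (Fin 6)) | orderOf g = 2} ∧
    ∀ d ∈ {g : ↥(alternatingGroup (Fin 6)) | orderOf g = 2}, ∀ e ∈ {g : ↥(alternatingGroup (Fin 6)) | orderOf g = 2},
      orderOf (d * e) ≤ 5 := by
  have hord : ∀ d ∈ {g : ↥(alternatingGroup (Fin 6)) | orderOf g = 2}, ∀ e ∈ {g : ↥(alternatingGroup (Fin 6)) | orderOf g = 2},
      ((d * e) ^ 2 = 1 ∧ d * e = e * d) ∨ (d * e) ^ 3 = 1 ∨ (d * e) ^ 5 = 1 ∨ ((d * e) ^ 4 = 1 ∧ (d * e) ^ 2 ≠ 1 ∧ orderOf ((d * e) ^ 2) = 2) := by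
    intro d hd e he
    have hd' := mem_D.mp hd
    have he' := mem_D.mp he
    have hdd : d * d = 1 := by
      have := pow_orderOf_eq_one d
      rwa [show orderOf d = 2 from hd, pow_two] at this
    have hee : e * e = 1 := by
      have := pow_orderOf_eq_one e
      rwa [show orderOf e = 2 from he, pow_two] at this
    rcases pair_tbl _ hd' _ he' with h | h | h | ⟨h1, h2, h3⟩
    · left
      have h4 : (d * e) ^ 2 = 1 := Subtype.ext h
      refine ⟨h4, ?_⟩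
      have h5 : (d * e) * (d * e) = 1 := by rw [← pow_two]; exact h4
      have h6 := eq_inv_of_mul_eq_one_left h5
      rwa [mul_inv_rev, inv_eq_of_mul_eq_one_left hee, inv_eq_of_mul_eq_one_left hdd] at h6
    · right; left
      exact Subtype.ext h
    · right; right; left
      exact Subtype.ext h
    · right; right; right
      refine ⟨Subtype.ext h1, fun h4 => h2 (congrArg Subtype.val h4), ?_⟩
      exact mem_D.mpr h3
  have hne0 : mk4 (0, 1, 2, 3) ∈ invsA6 := List.mem_map.mpr ⟨_, by decide +kernel, rfl⟩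
  have hs0 := (spec2 _ hne0).2.1
  have h0A : mk4 (0, 1, 2, 3) ∈ alternatingGroup (Fin 6) := Equiv.Perm.mem_alternatingGroup.mpr hs0
  have hconjD : ∀ g : ↥(alternatingGroup (Fin 6)), ∀ d ∈ {g : ↥(alternatingGroup (Fin 6)) | orderOf g = 2}, g * d * g⁻¹ ∈ {g : ↥(alternatingGroup (Fin 6)) | orderOf g = 2} := by
    intro g d hd
    show orderOf (g * d * g⁻¹) = 2
    rw [← hd]
    exact (MulAut.conj g).orderOf_eq d
  refine ⟨⟨⟨fun d hd => hd, ?_, fun d hd g => hconjD g d hd, ?_⟩, ?_, ?_⟩, ?_⟩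
  · -- generation
    haveI hsimple : IsSimpleGroup ↥(alternatingGroup (Fin 6)) := alternatingGroup.isSimpleGroup (by simp)
    have hn : (Subgroup.closure {g : ↥(alternatingGroup (Fin 6)) | orderOf g = 2}).Normal := by
      refine ⟨fun n hn g => ?_⟩
      have hle : Subgroup.closure {g : ↥(alternatingGroup (Fin 6)) | orderOf g = 2} ≤
          (Subgroup.closure {g : ↥(alternatingGroup (Fin 6)) | orderOf g = 2}).comap (MulAut.conj g).toMonoidHom := by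
        rw [Subgroup.closure_le]
        intro d hd
        exact Subgroup.subset_closure (hconjD g d hd)
      exact hle hn
    rcases hsimple.eq_bot_or_eq_top_of_normal _ hn with h | h
    · exfalso
      have h1 : (⟨_, h0A⟩ : ↥(alternatingGroup (Fin 6))) ∈ Subgroup.closure {g : ↥(alternatingGroup (Fin 6)) | orderOf g = 2} :=
        Subgroup.subset_closure (mem_D.mpr hne0)
      rw [h, Subgroup.mem_bot] at h1
      exact (spec2 _ hne0).2.2 (congrArg Subtype.val h1)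
    · exact h
  · -- pair condition
    intro a ha b hb
    rcases hord a ha b hb with ⟨-, h⟩ | h | h | ⟨h1, h2, h3⟩
    · exact Or.inl h
    · right; left
      have h1 : orderOf (a * b) ∣ 3 := orderOf_dvd_of_pow_eq_one h
      exact Odd.of_dvd_nat (by decide) h1
    · right; left
      have h1 : orderOf (a * b) ∣ 5 := orderOf_dvd_of_pow_eq_one h
      exact Odd.of_dvd_nat (by decide) h1
    · right; right
      refine ⟨?_, h3⟩
      haveI : Fact (Nat.Prime 2) := ⟨Nat.prime_two⟩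
      have := orderOf_eq_prime_pow (p := 2) (n := 1) (x := a * b) (by simpa using h2) (by simpa using h1)
      simpa using this
  · -- nonempty
    exact ⟨⟨_, h0A⟩, mem_D.mpr hne0⟩
  · -- single class
    have hkey : ∀ a, ∀ ha : a ∈ invsA6, ∃ g : ↥(alternatingGroup (Fin 6)), a = (g : Equiv.Perm (Fin 6)) * mk4 (0, 1, 2, 3) * (g : Equiv.Perm (Fin 6))⁻¹ := by
      intro a ha
      obtain ⟨n, hn, rfl⟩ := List.mem_map.mp ha
      obtain ⟨p, hp, rfl⟩ := conj_cover n hn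
      obtain ⟨h1, h2⟩ := conj_tbl p hp
      exact ⟨⟨swaps p.2, Equiv.Perm.mem_alternatingGroup.mpr h1⟩, h2⟩
    intro a ha b hb
    obtain ⟨g₁, h1⟩ := hkey _ (mem_D.mp ha)
    obtain ⟨g₂, h2⟩ := hkey _ (mem_D.mp hb)
    refine ⟨g₂ * g₁⁻¹, Subtype.ext ?_⟩
    simp only [Subgroup.coe_mul, Subgroup.coe_inv, h1, h2]
    group
  · -- orders at most five
    intro d hd e he
    rcases hord d hd e he with ⟨h, -⟩ | h | h | ⟨h1, -, -⟩
    · exact (orderOf_le_of_pow_eq_one (by norm_num) h).trans (by norm_num)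
    · exact (orderOf_le_of_pow_eq_one (by norm_num) h).trans (by norm_num)
    · exact orderOf_le_of_pow_eq_one (by norm_num) h
    · exact (orderOf_le_of_pow_eq_one (by norm_num) h1).trans (by norm_num)

end Cfsg.Agent.S5057
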