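import Cfsg.Statements.S5059

set_option autoImplicit false
universe u
open Cfsg

namespace Cfsg.Agent.S5059

open Cfsg

theorem sub_one_mul_zero {k : Type*} [Field k] {M : Type*} [AddCommGroup M] [Module k M]
    {G : Subgroup (LinearMap.GeneralLinearGroup k M)} {σ τ₁ τ₂ : LinearMap.GeneralLinearGroup k M}
    (hσ : σ ∈ minimalQuadraticElements G) (h₁ : τ₁ ∈ sameActionClass G σ) (h₂ : τ₂ ∈ sameActionClass G σ) :
    ((τ₁ : M →ₗ[k] M) - 1) * ((τ₂ : M →ₗ[k] M) - 1) = 0 := by
  have hq := hσ.1.2.1.1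
  ext v
  have h3 : ((τ₂ : M →ₗ[k] M) - 1) v ∈ LinearMap.range ((σ : M →ₗ[k] M) - 1) := by
    rw [← h₂.2.2]
    exact ⟨v, rfl⟩
  obtain ⟨w, hw⟩ := h3
  have h4 : ((τ₂ : M →ₗ[k] M) - 1) v ∈ LinearMap.ker ((τ₁ : M →ₗ[k] M) - 1) := by
    rw [h₁.2.1, LinearMap.mem_ker, ← hw]
    exact congrArg (fun f : Module.End k M => f w) hq
  exact h4

theorem mem_class_of {k : Type*} [Field k] {M : Type*} [AddCommGroup M] [Module k M] [FiniteDimensional k M]
    {G : Subgroup (LinearMap.GeneralLinearGroup k M)} {σ ρ : LinearMap.GeneralLinearGroup k M}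
    (hσ : σ ∈ minimalQuadraticElements G) (hρ : ρ ∈ quadraticElements G)
    (hr : LinearMap.range ((ρ : M →ₗ[k] M) - 1) ≤ LinearMap.range ((σ : M →ₗ[k] M) - 1))
    (hk : LinearMap.ker ((σ : M →ₗ[k] M) - 1) ≤ LinearMap.ker ((ρ : M →ₗ[k] M) - 1)) :
    ρ ∈ sameActionClass G σ := by
  have h1 : commutatorRank σ ≤ commutatorRank ρ := hσ.2 ρ hρ
  have hre : LinearMap.range ((ρ : M →ₗ[k] M) - 1) = LinearMap.range ((σ : M →ₗ[k] M) - 1) :=
    Submodule.eq_of_le_of_finrank_le hr h1
  have hrk : commutatorRank ρ = commutatorRank σ := by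
    unfold commutatorRank
    rw [hre]
  have hke : LinearMap.ker ((ρ : M →ₗ[k] M) - 1) = LinearMap.ker ((σ : M →ₗ[k] M) - 1) := by
    symm
    refine Submodule.eq_of_le_of_finrank_le hk ?_
    have e1 := LinearMap.finrank_range_add_finrank_ker ((ρ : M →ₗ[k] M) - 1)
    have e2 := LinearMap.finrank_range_add_finrank_ker ((σ : M →ₗ[k] M) - 1)
    rw [hre] at e1
    omega
  refine ⟨⟨hρ, fun τ hτ => ?_⟩, hke, hre⟩
  rw [hrk]
  exact hσ.2 τ hτ

theorem mul_mem_class {k : Type*} [Field k] {M : Type*} [AddCommGroup M] [Module k M] [FiniteDimensional k M]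
    {G : Subgroup (LinearMap.GeneralLinearGroup k M)} {σ τ₁ τ₂ : LinearMap.GeneralLinearGroup k M}
    (hσ : σ ∈ minimalQuadraticElements G) (h₁ : τ₁ ∈ sameActionClass G σ) (h₂ : τ₂ ∈ sameActionClass G σ)
    (hne : (τ₁ * τ₂ : LinearMap.GeneralLinearGroup k M) ≠ 1) : τ₁ * τ₂ ∈ sameActionClass G σ := by
  set y₁ := (τ₁ : M →ₗ[k] M) - 1 with hy₁
  set y₂ := (τ₂ : M →ₗ[k] M) - 1 with hy₂
  have h12 : y₁ * y₂ = 0 := sub_one_mul_zero hσ h₁ h₂
  have h21 : y₂ * y₁ = 0 := sub_one_mul_zero hσ h₂ h₁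
  have h11 : y₁ * y₁ = 0 := sub_one_mul_zero hσ h₁ h₁
  have h22 : y₂ * y₂ = 0 := sub_one_mul_zero hσ h₂ h₂
  have ht₁ : (τ₁ : M →ₗ[k] M) = 1 + y₁ := by simp [hy₁]
  have ht₂ : (τ₂ : M →ₗ[k] M) = 1 + y₂ := by simp [hy₂]
  have hρ : ((τ₁ * τ₂ : LinearMap.GeneralLinearGroup k M) : M →ₗ[k] M) - 1 = y₁ + y₂ := by
    rw [Units.val_mul, ht₁, ht₂]
    have : (1 + y₁) * (1 + y₂) = 1 + y₁ + y₂ + y₁ * y₂ := by noncomm_ring
    rw [this, h12]
    abel
  have hunit : ∀ y : Module.End k M, y * y = 0 → ∀ c : k, ∃ u : LinearMap.GeneralLinearGroup k M,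
      (u : M →ₗ[k] M) = 1 + c • y := by
    intro y hy c
    have hz : (c • y) * (c • y) = 0 := by
      rw [smul_mul_smul_comm, hy, smul_zero]
    have h1 : (1 + c • y) * (1 - c • y) = 1 := by
      have : (1 + c • y) * (1 - c • y) = 1 - (c • y) * (c • y) :=
        (fun z : Module.End k M => (by noncomm_ring : (1 + z) * (1 - z) = 1 - z * z)) _
      rw [this, hz, sub_zero]
    have h2 : (1 - c • y) * (1 + c • y) = 1 := by
      have : (1 - c • y) * (1 + c • y) = 1 - (c • y) * (c • y) :=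
        (fun z : Module.End k M => (by noncomm_ring : (1 - z) * (1 + z) = 1 - z * z)) _
      rw [this, hz, sub_zero]
    exact ⟨⟨1 + c • y, 1 - c • y, h1, h2⟩, rfl⟩
  have hG₁ : τ₁ ∈ G := h₁.1.1.1
  have hG₂ : τ₂ ∈ G := h₂.1.1.1
  refine mem_class_of hσ ⟨G.mul_mem hG₁ hG₂, ⟨?_, ?_⟩, ?_⟩ ?_ ?_
  · rw [hρ]
    have : (y₁ + y₂) * (y₁ + y₂) = y₁ * y₁ + y₁ * y₂ + y₂ * y₁ + y₂ * y₂ := by noncomm_ring
    rw [this, h12, h21, h11, h22]
    simp
  · intro h0
    apply hne
    apply Units.ext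
    rw [Units.val_one]
    exact sub_eq_zero.mp h0
  · intro τ' hτ'
    obtain ⟨c, hc⟩ := hτ'
    rw [hρ] at hc
    obtain ⟨u₁, hu₁⟩ := hunit y₁ h11 c
    obtain ⟨u₂, hu₂⟩ := hunit y₂ h22 c
    have hm₁ : u₁ ∈ G := h₁.1.1.2.2 ⟨c, hu₁⟩
    have hm₂ : u₂ ∈ G := h₂.1.1.2.2 ⟨c, hu₂⟩
    have : τ' = u₁ * u₂ := by
      apply Units.ext
      rw [Units.val_mul, hc, hu₁, hu₂]
      have hz : (c • y₁) * (c • y₂) = 0 := by
        rw [smul_mul_smul_comm, h12, smul_zero]
      have : (1 + c • y₁) * (1 + c • y₂) = 1 + c • y₁ + c • y₂ + (c • y₁) * (c • y₂) :=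
        (fun z z' : Module.End k M => (by noncomm_ring : (1 + z) * (1 + z') = 1 + z + z' + z * z')) _ _
      rw [this, hz, add_zero, smul_add, add_assoc]
    rw [this]
    exact G.mul_mem hm₁ hm₂
  · rw [hρ]
    rintro _ ⟨v, rfl⟩
    have a1 : y₁ v ∈ LinearMap.range ((σ : M →ₗ[k] M) - 1) := by
      rw [← h₁.2.2]
      exact ⟨v, rfl⟩
    have a2 : y₂ v ∈ LinearMap.range ((σ : M →ₗ[k] M) - 1) := by
      rw [← h₂.2.2]
      exact ⟨v, rfl⟩
    exact Submodule.add_mem _ a1 a2
  · rw [hρ]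
    intro v hv
    have a1 : v ∈ LinearMap.ker y₁ := by
      rw [hy₁, h₁.2.1]
      exact hv
    have a2 : v ∈ LinearMap.ker y₂ := by
      rw [hy₂, h₂.2.1]
      exact hv
    rw [LinearMap.mem_ker] at a1 a2 ⊢
    simp [a1, a2]

theorem inv_mem_class {k : Type*} [Field k] {M : Type*} [AddCommGroup M] [Module k M] [FiniteDimensional k M]
    {G : Subgroup (LinearMap.GeneralLinearGroup k M)} {σ τ : LinearMap.GeneralLinearGroup k M}
    (hσ : σ ∈ minimalQuadraticElements G) (h : τ ∈ sameActionClass G σ) : τ⁻¹ ∈ sameActionClass G σ := by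
  set y := (τ : M →ₗ[k] M) - 1 with hy
  have hyy : y * y = 0 := sub_one_mul_zero hσ h h
  have ht : (τ : M →ₗ[k] M) = 1 + y := by simp [hy]
  have hinv : ((τ⁻¹ : LinearMap.GeneralLinearGroup k M) : M →ₗ[k] M) = 1 - y := by
    have h1 : ((τ⁻¹ : LinearMap.GeneralLinearGroup k M) : M →ₗ[k] M) * (τ : M →ₗ[k] M) = 1 := Units.inv_mul τ
    have h2 : (τ : M →ₗ[k] M) * (1 - y) = 1 := by
      rw [ht]
      have : (1 + y) * (1 - y) = 1 - y * y := by noncomm_ring
      rw [this, hyy, sub_zero]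
    calc ((τ⁻¹ : LinearMap.GeneralLinearGroup k M) : M →ₗ[k] M)
        = ((τ⁻¹ : LinearMap.GeneralLinearGroup k M) : M →ₗ[k] M) * ((τ : M →ₗ[k] M) * (1 - y)) := by rw [h2, mul_one]
      _ = 1 - y := by rw [← mul_assoc, h1, one_mul]
  have hs : ((τ⁻¹ : LinearMap.GeneralLinearGroup k M) : M →ₗ[k] M) - 1 = -y := by
    rw [hinv]
    abel
  refine mem_class_of hσ ⟨G.inv_mem h.1.1.1, ⟨?_, ?_⟩, ?_⟩ ?_ ?_
  · rw [hs, neg_mul_neg, hyy]
  · rw [hs]
    intro h0
    exact h.1.1.2.1.2 (neg_eq_zero.mp h0)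
  · intro τ' hτ'
    obtain ⟨c, hc⟩ := hτ'
    rw [hs] at hc
    refine h.1.1.2.2 ⟨-c, ?_⟩
    rw [hc, smul_neg, neg_smul]
  · rw [hs, LinearMap.range_neg]
    exact le_of_eq h.2.2
  · rw [hs, LinearMap.ker_neg]
    exact le_of_eq h.2.1.symm


/-- Let k be a field of characteristic not 2 with k not of order 3, M a finite-dimensional k-vector space and G ≤ GL(M) such that (G, M) is a quadratic pair (M irreducible for G, and G generated by its quadratically acting elements σ whose scalar family 1 + c(σ − 1), c ∈ k, lies in G). Write 𝒬_d for the quadratic elements of G of minimal commutator rank, E(σ) for the subgroup generated by the members of 𝒬_d with the same fixed space and commutator space as σ, and Σ for the set of these subgroups. Then for σ ∈ 𝒬_d the subgroup E(σ) consists exactly of those members together with the identity, it is abelian, and if k has prime characteristic p every element of E(σ) has order dividing p. -/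
theorem result {k : Type u} [Field k] (hk2 : ringChar k ≠ 2) (hk3 : Nat.card k ≠ 3)
    {M : Type u} [AddCommGroup M] [Module k M] [FiniteDimensional k M]
    {G : Subgroup (LinearMap.GeneralLinearGroup k M)} (hG : Cfsg.IsQuadraticPair G)
    {σ : LinearMap.GeneralLinearGroup k M} (hσ : σ ∈ Cfsg.minimalQuadraticElements G) :
    (Cfsg.sameActionSubgroup G σ : Set (LinearMap.GeneralLinearGroup k M)) = Cfsg.sameActionClass G σ ∪ {1} ∧
    IsMulCommutative ↥(Cfsg.sameActionSubgroup G σ) ∧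
    (∀ p : ℕ, p.Prime → ringChar k = p → ∀ x ∈ Cfsg.sameActionSubgroup G σ, x ^ p = 1) := by
  classical
  set K : Subgroup (LinearMap.GeneralLinearGroup k M) :=
    { carrier := sameActionClass G σ ∪ {1}
      one_mem' := Or.inr rfl
      mul_mem' := by
        rintro a b (ha | ha) (hb | hb)
        · by_cases hne : a * b = 1
          · exact Or.inr hne
          · exact Or.inl (mul_mem_class hσ ha hb hne)
        · rw [Set.mem_singleton_iff.mp hb, mul_one]
          exact Or.inl ha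
        · rw [Set.mem_singleton_iff.mp ha, one_mul]
          exact Or.inl hb
        · rw [Set.mem_singleton_iff.mp ha, Set.mem_singleton_iff.mp hb, mul_one]
          exact Or.inr rfl
      inv_mem' := by
        rintro a (ha | ha)
        · exact Or.inl (inv_mem_class hσ ha)
        · rw [Set.mem_singleton_iff.mp ha, inv_one]
          exact Or.inr rfl } with hK
  have hcl : sameActionSubgroup G σ = K := by
    apply le_antisymm
    · exact (Subgroup.closure_le K).mpr fun x hx => Or.inl hx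
    · rintro x (hx | hx)
      · exact Subgroup.subset_closure hx
      · rw [Set.mem_singleton_iff.mp hx]
        exact Subgroup.one_mem _
  have hmem : ∀ x, x ∈ sameActionSubgroup G σ ↔ x ∈ sameActionClass G σ ∪ {1} := by
    intro x
    rw [hcl]
    rfl
  refine ⟨?_, ?_, ?_⟩
  · ext x
    exact hmem x
  · refine ⟨⟨fun x y => Subtype.ext ?_⟩⟩
    have hx := (hmem _).mp x.2
    have hy := (hmem _).mp y.2
    show (x : LinearMap.GeneralLinearGroup k M) * y = y * x
    rcases hx with hx | hx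
    · rcases hy with hy | hy
      · apply Units.ext
        rw [Units.val_mul, Units.val_mul]
        have h1 := sub_one_mul_zero hσ hx hy
        have h2 := sub_one_mul_zero hσ hy hx
        have e1 : ((x : LinearMap.GeneralLinearGroup k M) : M →ₗ[k] M) * ((y : LinearMap.GeneralLinearGroup k M) : M →ₗ[k] M) =
            ((x : LinearMap.GeneralLinearGroup k M) : M →ₗ[k] M) + ((y : LinearMap.GeneralLinearGroup k M) : M →ₗ[k] M) - 1 := by
          rw [← sub_eq_zero, ← h1]
          noncomm_ring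
        have e2 : ((y : LinearMap.GeneralLinearGroup k M) : M →ₗ[k] M) * ((x : LinearMap.GeneralLinearGroup k M) : M →ₗ[k] M) =
            ((y : LinearMap.GeneralLinearGroup k M) : M →ₗ[k] M) + ((x : LinearMap.GeneralLinearGroup k M) : M →ₗ[k] M) - 1 := by
          rw [← sub_eq_zero, ← h2]
          noncomm_ring
        rw [e1, e2]
        abel
      · rw [Set.mem_singleton_iff.mp hy, mul_one, one_mul]
    · rw [Set.mem_singleton_iff.mp hx, mul_one, one_mul]
  · intro p hp hchar x hx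
    rcases (hmem x).mp hx with hx | hx
    · set y := (x : M →ₗ[k] M) - 1 with hy
      have hyy : y * y = 0 := sub_one_mul_zero hσ hx hx
      have ht : (x : M →ₗ[k] M) = 1 + y := by simp [hy]
      have hpow : ∀ n : ℕ, ((x ^ n : LinearMap.GeneralLinearGroup k M) : M →ₗ[k] M) = 1 + (n : k) • y := by
        intro n
        induction n with
        | zero => simp
        | succ n ih =>
          rw [pow_succ, Units.val_mul, ih, ht]
          have : (1 + (n : k) • y) * (1 + y) = 1 + y + (n : k) • y + (n : k) • (y * y) := by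
            simp only [add_mul, mul_add, one_mul, mul_one, smul_mul_assoc]
            abel
          rw [this, hyy]
          push_cast
          rw [add_smul]
          simp only [smul_zero, add_zero, one_smul]
          abel
      apply Units.ext
      rw [hpow p, ← hchar]
      simp
    · rw [Set.mem_singleton_iff.mp hx, one_pow]

end Cfsg.Agent.S5059
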