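import Cfsg.Statements.S5067
import Cfsg.Agent.Lib.RankOne

set_option autoImplicit false
open Cfsg

namespace Cfsg.Agent.S5067

theorem comm_le {P : Type*} [Group P] {E : Subgroup P} (hE : IsMulCommutative ↥E) :
    commutator ↥(Subgroup.normalClosure (E : Set P)) ≤
      ((⊤ : Subgroup P).lowerCentralSeries 2).comap (Subgroup.normalClosure (E : Set P)).subtype := by
  open scoped commutatorElement in
  set T := (⊤ : Subgroup P).lowerCentralSeries 2 with hT
  have hle : Subgroup.normalClosure (E : Set P) ≤ E ⊔ commutator P := by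
    unfold Subgroup.normalClosure
    rw [Subgroup.closure_le]
    intro w hw
    rw [Group.mem_conjugatesOfSet_iff] at hw
    obtain ⟨a, ha, hc⟩ := hw
    obtain ⟨g, rfl⟩ := isConj_iff.mp hc
    have e : g * a * g⁻¹ = ⁅g, a⁆ * a := by
      rw [commutatorElement_def]
      group
    rw [e]
    refine Subgroup.mul_mem _ (Subgroup.mem_sup_right ?_) (Subgroup.mem_sup_left ha)
    exact Subgroup.commutator_mem_commutator (Subgroup.mem_top g) (Subgroup.mem_top a)
  have hcentral : ∀ u ∈ commutator P, ∀ g : P, ⁅u, g⁆ ∈ T := by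
    intro u hu g
    have h1 : u ∈ (⊤ : Subgroup P).lowerCentralSeries 1 := hu
    exact Subgroup.commutator_mem_commutator h1 (Subgroup.mem_top g)
  have hn : T.Normal := inferInstance
  rw [commutator_def, Subgroup.commutator_le]
  rintro ⟨x, hx⟩ _ ⟨y, hy⟩ _
  show ⁅x, y⁆ ∈ T
  rw [← QuotientGroup.eq_one_iff]
  have hx' := hle hx
  have hy' := hle hy
  haveI : (commutator P).Normal := inferInstance
  obtain ⟨e, he, u, hu, rfl⟩ := Subgroup.mem_sup_of_normal_right.mp hx'
  obtain ⟨e', he', u', hu', rfl⟩ := Subgroup.mem_sup_of_normal_right.mp hy'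
  have hz : ∀ u ∈ commutator P, ∀ g : P ⧸ T, Commute (QuotientGroup.mk u : P ⧸ T) g := by
    intro u hu g
    obtain ⟨g, rfl⟩ := QuotientGroup.mk_surjective g
    have h2 := (QuotientGroup.eq_one_iff _).mpr (hcentral u hu g)
    have h3 : ⁅(QuotientGroup.mk u : P ⧸ T), (QuotientGroup.mk g : P ⧸ T)⁆ = 1 := h2
    exact commutatorElement_eq_one_iff_mul_comm.mp h3
  have hee : Commute (QuotientGroup.mk e : P ⧸ T) (QuotientGroup.mk e') := by
    show (QuotientGroup.mk (e * e') : P ⧸ T) = QuotientGroup.mk (e' * e)
    rw [Cfsg.Agent.Lib.RankOne.comm_of_mem hE he he']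
  have hcomm : Commute (QuotientGroup.mk (e * u) : P ⧸ T) (QuotientGroup.mk (e' * u')) := by
    show Commute ((QuotientGroup.mk e : P ⧸ T) * QuotientGroup.mk u) ((QuotientGroup.mk e' : P ⧸ T) * QuotientGroup.mk u')
    apply Commute.mul_left
    · exact Commute.mul_right hee (hz u' hu' _).symm
    · exact hz u hu _
  exact commutatorElement_eq_one_iff_mul_comm.mpr hcomm.eq

theorem class_lt {P : Type*} [Group P] [Group.IsNilpotent P] (hna : ¬ IsMulCommutative P) {E : Subgroup P}
    (hE : IsMulCommutative ↥E) :
    Group.nilpotencyClass ↥(Subgroup.normalClosure (E : Set P)) < Group.nilpotencyClass P := by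
  set N := Subgroup.normalClosure (E : Set P) with hN
  have key : ∀ i : ℕ, ((⊤ : Subgroup N).lowerCentralSeries (i + 1)).map N.subtype ≤ (⊤ : Subgroup P).lowerCentralSeries (i + 2) := by
    intro i
    induction i with
    | zero =>
      rw [Subgroup.map_le_iff_le_comap]
      exact comm_le hE
    | succ i ih =>
      rw [Subgroup.lowerCentralSeries_succ, Subgroup.lowerCentralSeries_succ _ (i + 2)]
      rw [Subgroup.map_commutator]
      exact Subgroup.commutator_mono ih le_top
  have hc : (⊤ : Subgroup P).lowerCentralSeries (Group.nilpotencyClass P) = ⊥ := Subgroup.lowerCentralSeries_nilpotencyClass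
  have h2 : 2 ≤ Group.nilpotencyClass P := by
    by_contra hlt
    have hle : Group.nilpotencyClass P ≤ 1 := by omega
    have h1 : (⊤ : Subgroup P).lowerCentralSeries 1 = ⊥ := by
      rw [eq_bot_iff, ← hc]
      exact Subgroup.lowerCentralSeries_antitone _ hle
    rw [Subgroup.top_lowerCentralSeries_one] at h1
    apply hna
    refine ⟨⟨fun a b => ?_⟩⟩
    have : a * b * a⁻¹ * b⁻¹ ∈ commutator P := Subgroup.commutator_mem_commutator (Subgroup.mem_top a) (Subgroup.mem_top b)
    rw [h1, Subgroup.mem_bot, ← commutatorElement_def, commutatorElement_eq_one_iff_mul_comm] at this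
    exact this
  obtain ⟨j, hj⟩ : ∃ j, Group.nilpotencyClass P = j + 2 := ⟨_, (Nat.sub_add_cancel h2).symm⟩
  have h3 : ((⊤ : Subgroup N).lowerCentralSeries (j + 1)).map N.subtype = ⊥ := by
    rw [eq_bot_iff, ← hc, hj]
    exact key j
  have h4 : (⊤ : Subgroup N).lowerCentralSeries (j + 1) = ⊥ :=
    (Subgroup.map_eq_bot_iff_of_injective _ N.subtype_injective).mp h3
  have h5 := (Subgroup.lowerCentralSeries_eq_bot_iff_nilpotencyClass_le).mp h4
  omega

/-- Let P be a non-abelian nilpotent p-group (every element of p-power order; P possibly infinite) generated by two abelian subgroups E and F. Then the normal closure of E in P, and likewise that of F, has nilpotency class strictly smaller than that of P. -/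
theorem result {P : Type*} [Group P] {p : ℕ} [Fact p.Prime] (hP : IsPGroup p P) [Group.IsNilpotent P]
    (hna : ¬ IsMulCommutative P) {E F : Subgroup P} (hE : IsMulCommutative ↥E) (hF : IsMulCommutative ↥F) (hgen : E ⊔ F = ⊤) :
    Group.nilpotencyClass ↥(Subgroup.normalClosure (E : Set P)) < Group.nilpotencyClass P ∧
    Group.nilpotencyClass ↥(Subgroup.normalClosure (F : Set P)) < Group.nilpotencyClass P := by
  haveI : Group.IsNilpotent P := inferInstance
  have hF' := hF
  exact ⟨class_lt hna hE, class_lt hna hF⟩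

end Cfsg.Agent.S5067
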