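import Cfsg.Statements.S5084
import Cfsg.Agent.Lib.FusionSat

set_option autoImplicit false
open Cfsg

namespace Cfsg.Agent.S5084


/-- In a saturated fusion system over a finite p-group S, a subgroup Q is central in the system if and only if Q ≤ S and no element of Q is conjugate in the system to any element other than itself. -/
theorem result {Ω : Type*} [Group Ω] {S : Subgroup Ω} [Finite S] (p : ℕ) [Fact p.Prime] (hS : IsPGroup p S) (F : Cfsg.FusionSystem S) (hF : F.IsSaturated p) (Q : Subgroup Ω) : F.IsCentral Q ↔ (Q ≤ S ∧ ∀ x ∈ Q, ∀ y : Ω, F.IsConjElt x y → y = x) := by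
  open Cfsg.FusionSystem Cfsg.Agent.Lib.FusionBasic Cfsg.Agent.Lib.FusionSat in
  constructor
  · intro h
    refine ⟨h.1, fun x hx y hy => ?_⟩
    obtain ⟨φ, hφ, rfl⟩ := hy
    obtain ⟨ψ, hψ, he, hq⟩ := h.2 _ φ hφ
    have h1 := he ⟨x, Subgroup.mem_zpowers x⟩
    have h2 := hq ⟨x, hx⟩
    rw [← h1]
    exact h2
  · rintro ⟨hQS, hsing⟩
    -- maps fix elements of `Q`
    have hfix : ∀ (R : Subgroup Ω) (θ : R →* Ω), θ ∈ F.Hom R → ∀ x : R, (x : Ω) ∈ Q → θ x = x := by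
      intro R θ hθ x hx
      have hle : Subgroup.zpowers (x : Ω) ≤ R := (Subgroup.zpowers_le).mpr x.2
      exact hsing x hx _ ⟨_, restrict_mem F hθ hle, rfl⟩
    have hcent : ∀ P : Subgroup Ω, P ≤ S → Q ≤ centralizerIn S P := by
      intro P hP q hq
      refine ⟨hQS hq, ?_⟩
      show q ∈ Subgroup.centralizer (P : Set Ω)
      rw [Subgroup.mem_centralizer_iff]
      intro y hy
      have h1 := hfix Q (conjHom Q y) (F.conj_mem hQS (hP hy)) ⟨q, hq⟩ hq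
      have h2 : y * q * y⁻¹ = q := h1
      calc y * q = y * q * y⁻¹ * y := by group
        _ = q * y := by rw [h2]
    refine ⟨hQS, fun P φ hφ => ?_⟩
    have hPS : P ≤ S := source_le F hφ
    set Y := φ.range with hY
    have hYS : Y ≤ S := range_le F hφ
    obtain ⟨R, ⟨χ, hχ, hχr⟩, hRfc⟩ := exists_isConj_fullyCentralized F hYS
    have hrec := IsSaturated.fullyCentralized hS hF hRfc
    have hRS : R ≤ S := hRfc.1
    have hvY : ∀ x : P, φ x ∈ Y := fun x => ⟨x, rfl⟩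
    obtain ⟨φ₁, hφ₁, hφ₁e⟩ := exists_comp F hφ hχ hvY
    have hφ₁r : φ₁.range = R := by
      rw [← hχr]
      ext y
      constructor
      · rintro ⟨x, rfl⟩
        rw [hφ₁e]
        exact ⟨_, rfl⟩
      · rintro ⟨⟨_, x, rfl⟩, rfl⟩
        exact ⟨x, hφ₁e x⟩
    -- extensions over `C_S`
    obtain ⟨θ₁, hθ₁, hθ₁e⟩ := hrec.2 P φ₁ hφ₁ hφ₁r
    obtain ⟨θ₂, hθ₂, hθ₂e⟩ := hrec.2 Y χ hχ hχr
    have hle₁ : P ⊔ Q ≤ extender S P φ₁ :=
      sup_le (le_extender hPS φ₁ (F.le_of_mem hφ₁).2)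
        ((hcent P hPS).trans (centralizerIn_le_extender S P φ₁))
    have hle₂ : Y ⊔ Q ≤ extender S Y χ :=
      sup_le (le_extender hYS χ (F.le_of_mem hχ).2)
        ((hcent Y hYS).trans (centralizerIn_le_extender S Y χ))
    have hm₁ := restrict_mem F hθ₁ hle₁
    have hm₂ := restrict_mem F hθ₂ hle₂
    have hrange₂ : (θ₂.comp (Subgroup.inclusion hle₂)).range = R ⊔ Q := by
      apply le_antisymm
      · rintro _ ⟨z, rfl⟩
        refine sup_values_mem (θ₂.comp (Subgroup.inclusion hle₂)) (fun x hx => ?_) (fun x hx => ?_) z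
        · have h1 : θ₂ ⟨x, hle₂ (Subgroup.mem_sup_left hx)⟩ = χ ⟨x, hx⟩ := hθ₂e x hx _
          show θ₂ ⟨x, hle₂ (Subgroup.mem_sup_left hx)⟩ ∈ R ⊔ Q
          rw [h1]
          exact Subgroup.mem_sup_left (hχr ▸ ⟨_, rfl⟩)
        · have h1 := hfix _ θ₂ hθ₂ ⟨x, hle₂ (Subgroup.mem_sup_right hx)⟩ hx
          show θ₂ ⟨x, hle₂ (Subgroup.mem_sup_right hx)⟩ ∈ R ⊔ Q
          rw [h1]
          exact Subgroup.mem_sup_right hx
      · refine sup_le (fun y hy => ?_) (fun y hy => ?_)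
        · have hy' : y ∈ χ.range := by rw [hχr]; exact hy
          obtain ⟨x, rfl⟩ := hy'
          refine ⟨⟨x, Subgroup.mem_sup_left x.2⟩, ?_⟩
          exact hθ₂e x x.2 _
        · refine ⟨⟨y, Subgroup.mem_sup_right hy⟩, ?_⟩
          exact hfix _ θ₂ hθ₂ ⟨y, hle₂ (Subgroup.mem_sup_right hy)⟩ hy
    obtain ⟨ρ, hρ, hρ1, -, -⟩ := exists_inverse F hm₂ hrange₂
    have hv₁ : ∀ z : ↥(P ⊔ Q), (θ₁.comp (Subgroup.inclusion hle₁)) z ∈ R ⊔ Q := by
      intro z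
      refine sup_values_mem (θ₁.comp (Subgroup.inclusion hle₁)) (fun x hx => ?_) (fun x hx => ?_) z
      · have h1 : θ₁ ⟨x, hle₁ (Subgroup.mem_sup_left hx)⟩ = φ₁ ⟨x, hx⟩ := hθ₁e x hx _
        show θ₁ ⟨x, hle₁ (Subgroup.mem_sup_left hx)⟩ ∈ R ⊔ Q
        rw [h1]
        exact Subgroup.mem_sup_left (hφ₁r ▸ ⟨_, rfl⟩)
      · have h1 := hfix _ θ₁ hθ₁ ⟨x, hle₁ (Subgroup.mem_sup_right hx)⟩ hx
        show θ₁ ⟨x, hle₁ (Subgroup.mem_sup_right hx)⟩ ∈ R ⊔ Q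
        rw [h1]
        exact Subgroup.mem_sup_right hx
    obtain ⟨ξ, hξ, hξe⟩ := exists_comp F hm₁ hρ hv₁
    refine ⟨ξ, hξ, fun x => ?_, fun x => ?_⟩
    · rw [hξe]
      -- `θ₁ x = χ (φ x) = θ₂ (φ x)`
      have h1 : θ₁ ⟨x, hle₁ (Subgroup.mem_sup_left x.2)⟩ = φ₁ x := hθ₁e x x.2 _
      have h2 : θ₂ ⟨φ x, hle₂ (Subgroup.mem_sup_left (hvY x))⟩ = χ ⟨φ x, hvY x⟩ := hθ₂e _ (hvY x) _
      have h3 : (θ₂.comp (Subgroup.inclusion hle₂)) ⟨φ x, Subgroup.mem_sup_left (hvY x)⟩ =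
          (θ₁.comp (Subgroup.inclusion hle₁)) (Subgroup.inclusion le_sup_left x) := by
        show θ₂ ⟨φ x, hle₂ (Subgroup.mem_sup_left (hvY x))⟩ = θ₁ ⟨x, hle₁ (Subgroup.mem_sup_left x.2)⟩
        rw [h1, h2, hφ₁e]
      have hmem : (θ₂.comp (Subgroup.inclusion hle₂)) ⟨φ x, Subgroup.mem_sup_left (hvY x)⟩ ∈ R ⊔ Q := by
        rw [h3]
        exact hv₁ _
      have h4 : ρ ⟨_, hmem⟩ = φ x := hρ1 ⟨φ x, Subgroup.mem_sup_left (hvY x)⟩ hmem
      rw [← h4]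
      congr 1
      exact Subtype.ext h3.symm
    · rw [hξe]
      have h1 : (θ₁.comp (Subgroup.inclusion hle₁)) (Subgroup.inclusion le_sup_right x) = x :=
        hfix _ θ₁ hθ₁ ⟨x, hle₁ (Subgroup.mem_sup_right x.2)⟩ x.2
      have h2 : (θ₂.comp (Subgroup.inclusion hle₂)) ⟨x, Subgroup.mem_sup_right x.2⟩ = x :=
        hfix _ θ₂ hθ₂ ⟨x, hle₂ (Subgroup.mem_sup_right x.2)⟩ x.2
      have hmem : (θ₂.comp (Subgroup.inclusion hle₂)) ⟨x, Subgroup.mem_sup_right x.2⟩ ∈ R ⊔ Q := by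
        rw [h2]
        exact Subgroup.mem_sup_right x.2
      have h4 := hρ1 ⟨x, Subgroup.mem_sup_right x.2⟩ hmem
      have e : (⟨(θ₁.comp (Subgroup.inclusion hle₁)) (Subgroup.inclusion le_sup_right x), hv₁ _⟩ : ↥(R ⊔ Q)) =
          ⟨(θ₂.comp (Subgroup.inclusion hle₂)) ⟨x, Subgroup.mem_sup_right x.2⟩, hmem⟩ :=
        Subtype.ext (h1.trans h2.symm)
      rw [e, h4]

end Cfsg.Agent.S5084
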