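import Cfsg.Statements.S5085
import Cfsg.Agent.Lib.FusionBasic

set_option autoImplicit false
open Cfsg

namespace Cfsg.Agent.S5085


/-- In any fusion system, a characteristic subgroup of a subgroup that is normal in the system is itself normal in the system. -/
theorem result {Ω : Type*} [Group Ω] {S : Subgroup Ω} (F : Cfsg.FusionSystem S) (Q U : Subgroup Ω) (hQ : F.IsNormal Q) (hUQ : U ≤ Q) (hU : (U.subgroupOf Q).Characteristic) : F.IsNormal U := by
  open Cfsg.Agent.Lib.FusionBasic in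
  refine ⟨hUQ.trans hQ.1, fun P φ hφ => ?_⟩
  obtain ⟨ψ, hψ, he, hm⟩ := hQ.2 P φ hφ
  rw [map_subgroupOf_sup_eq_iff] at hm
  have hle : P ⊔ U ≤ P ⊔ Q := sup_le_sup_left hUQ P
  -- the automorphism of `Q` induced by `ψ`
  let f : ↥Q →* ↥Q :=
    { toFun := fun x => ⟨ψ ⟨x, Subgroup.mem_sup_right x.2⟩, hm.1 x x.2⟩
      map_one' := by
        apply Subtype.ext
        exact map_one ψ
      map_mul' := fun a b => by
        apply Subtype.ext
        exact map_mul ψ ⟨a, Subgroup.mem_sup_right a.2⟩ ⟨b, Subgroup.mem_sup_right b.2⟩ }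
  have hfinj : Function.Injective f := by
    intro a b hab
    have h1 : ψ ⟨a, Subgroup.mem_sup_right a.2⟩ = ψ ⟨b, Subgroup.mem_sup_right b.2⟩ :=
      congrArg Subtype.val hab
    have h2 := F.injective_of_mem hψ h1
    exact Subtype.ext (Subtype.mk.inj h2)
  have hfsurj : Function.Surjective f := by
    intro y
    obtain ⟨x, hx, e⟩ := hm.2 y y.2
    exact ⟨⟨x, hx⟩, Subtype.ext e⟩
  let α : ↥Q ≃* ↥Q := MulEquiv.ofBijective f ⟨hfinj, hfsurj⟩
  have hα : (U.subgroupOf Q).comap α.toMonoidHom = U.subgroupOf Q := hU.fixed α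
  have hαmem : ∀ x : ↥Q, ((x : Ω) ∈ U ↔ ψ ⟨x, Subgroup.mem_sup_right x.2⟩ ∈ U) := by
    intro x
    have h1 : x ∈ (U.subgroupOf Q).comap α.toMonoidHom ↔ x ∈ U.subgroupOf Q := by rw [hα]
    exact h1.symm
  refine ⟨ψ.comp (Subgroup.inclusion hle), restrict_mem F hψ hle, fun x => he x, ?_⟩
  rw [map_subgroupOf_sup_eq_iff]
  constructor
  · intro x hx
    exact (hαmem ⟨x, hUQ hx⟩).mp hx
  · intro y hy
    obtain ⟨x, hx, e⟩ := hm.2 y (hUQ hy)
    have hxU : x ∈ U := by
      have := hαmem ⟨x, hx⟩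
      apply this.mpr
      show ψ ⟨x, _⟩ ∈ U
      rw [e]
      exact hy
    exact ⟨x, hxU, e⟩

end Cfsg.Agent.S5085
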