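import Cfsg.Statements.S5087
import Cfsg.Agent.Lib.FusionNormal

set_option autoImplicit false
open Cfsg

namespace Cfsg.Agent.S5087


/-- In a saturated fusion system over a finite p-group S, a subgroup Q is normal in the system if and only if every subgroup P that equals S or is essential contains Q and every element of Aut_F(P) maps Q onto itself. -/
theorem result {Ω : Type*} [Group Ω] {S : Subgroup Ω} [Finite S] (p : ℕ) [Fact p.Prime] (hS : IsPGroup p S) (F : Cfsg.FusionSystem S) (hF : F.IsSaturated p) (Q : Subgroup Ω) : F.IsNormal Q ↔ ∀ P : Subgroup Ω, (P = S ∨ F.IsEssential p P) → (Q ≤ P ∧ ∀ α ∈ F.autGroup P, (Q.subgroupOf P).map α.toMonoidHom = Q.subgroupOf P) := by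
  open Cfsg.Agent.Lib.FusionNormal Cfsg.Agent.Lib.FusionAlperin Cfsg.Agent.Lib.FusionBasic in
  constructor
  · intro h P hP
    have hPS : P ≤ S := by
      rcases hP with rfl | h'
      · exact le_rfl
      · exact h'.1.1
    have hsc := IsNormal.stronglyClosed h
    have hQP : Q ≤ P := by
      rcases hP with rfl | h'
      · exact h.1
      · exact IsNormal.le_of_centric_radical hS h h'.1 (isRadical_of_isEssential hS h')
    refine ⟨hQP, fun α hα => ?_⟩
    ext x
    constructor
    · rintro ⟨y, hy, rfl⟩
      exact StronglyClosed.map_autGroup_mem hsc hPS hα y hy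
    · intro hx
      refine ⟨α⁻¹ x, StronglyClosed.map_autGroup_mem hsc hPS (inv_mem hα) x hx, ?_⟩
      simp
  · intro h
    refine isNormal_of_autGroup hS hF fun P hP => ?_
    obtain ⟨h1, h2⟩ := h P hP
    refine ⟨h1, fun α hα x hx => ?_⟩
    have h3 : α x ∈ (Q.subgroupOf P).map α.toMonoidHom := ⟨x, hx, rfl⟩
    rw [h2 α hα] at h3
    exact h3

end Cfsg.Agent.S5087
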