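import Cfsg.Statements.S5089
import Cfsg.Agent.Lib.FusionNormal

set_option autoImplicit false
open Cfsg

namespace Cfsg.Agent.S5089


/-- A saturated fusion system over a finite p-group has a nontrivial subgroup that is normal in the system (O_p(F) ≠ 1) if and only if some nontrivial abelian subgroup is strongly closed in the system. -/
theorem result {Ω : Type*} [Group Ω] {S : Subgroup Ω} [Finite S] (p : ℕ) [Fact p.Prime] (hS : IsPGroup p S) (F : Cfsg.FusionSystem S) (hF : F.IsSaturated p) : F.core ≠ ⊥ ↔ ∃ Q : Subgroup Ω, Q ≠ ⊥ ∧ IsMulCommutative Q ∧ F.StronglyClosed Q := by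
  open Cfsg.Agent.Lib.FusionNormal Cfsg.Agent.Lib.FusionBasic in
  constructor
  · intro h
    have hn := isNormal_core F
    have hfin : Finite F.core := finite_of_le hn.1
    have hp : IsPGroup p F.core := hS.to_le hn.1
    have hnt : Nontrivial F.core := Subgroup.nontrivial_iff_ne_bot _ |>.mpr h
    have hc := hp.center_nontrivial
    refine ⟨(Subgroup.center F.core).map F.core.subtype, ?_, ?_, ?_⟩
    · intro he
      have : Subgroup.center F.core = ⊥ := by
        rw [eq_bot_iff]
        intro x hx
        have h1 : (x : Ω) ∈ (Subgroup.center F.core).map F.core.subtype := ⟨x, hx, rfl⟩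
        rw [he] at h1
        exact Subtype.ext (Subgroup.mem_bot.mp h1)
      rw [Subgroup.nontrivial_iff_ne_bot] at hc
      exact hc this
    · refine ⟨⟨?_⟩⟩
      rintro ⟨_, x, hx, rfl⟩ ⟨_, y, hy, rfl⟩
      apply Subtype.ext
      show (x : Ω) * y = y * x
      exact congrArg Subtype.val (Subgroup.mem_center_iff.mp hy x)
    · exact IsNormal.stronglyClosed (IsNormal.map_characteristic hn _)
  · rintro ⟨Q, hne, hab, hQ⟩
    have hcomm : ⁅Q, Q⁆ ≤ ⊥ := by
      rw [Subgroup.commutator_le]
      intro x hx y hy
      have := hab.1.comm ⟨x, hx⟩ ⟨y, hy⟩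
      have h1 : x * y = y * x := congrArg Subtype.val this
      rw [Subgroup.mem_bot, commutatorElement_def, h1]
      group
    have hnorm : F.IsNormal Q := by
      refine isNormal_of_stronglyClosed_of_le hS hF hQ fun P hc hr => ?_
      refine le_of_central_chain hS hc hr hQ 1 ![⊥, Q] rfl rfl ?_ ?_ ?_
      · intro i j hij
        fin_cases i <;> fin_cases j <;> simp_all
      · intro i
        fin_cases i
        simpa using hcomm
      · intro i
        fin_cases i
        exact weaklyClosed_bot F
    intro h
    have := IsNormal.le_core hnorm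
    rw [h] at this
    exact hne (le_bot_iff.mp this)

end Cfsg.Agent.S5089
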