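import Cfsg.Statements.S5094
import Cfsg.Agent.Lib.ZStarElem
import Cfsg.Agent.Lib.FitCore
-- import your own Cfsg.Agent.* helpers here

set_option autoImplicit false
open Cfsg

namespace Cfsg.Agent.S5094

/-- Glauberman's Z*-Theorem in fusion language: for a finite group G with Sylow 2-subgroup S, the centre of the fusion system of G on S is the set of elements of S whose image in G/O(G) is central, O(G) being the largest normal subgroup of odd order. -/
theorem result {G : Type*} [Group G] [Finite G] (S : Sylow 2 G) : (Cfsg.groupFusionSystem (S : Subgroup G)).center = (S : Subgroup G) ⊓ (Subgroup.center (G ⧸ Cfsg.oddCore G)).comap (QuotientGroup.mk' (Cfsg.oddCore G)) := by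
  classical
  haveI : Fact (Nat.Prime 2) := ⟨Nat.prime_two⟩
  set K : Subgroup G := Cfsg.oddCore G with hKdef
  haveI hKn : K.Normal := Cfsg.Agent.Lib.FitCore.pPrimeCore_normal 2
  have hKodd : ¬ 2 ∣ Nat.card K := Cfsg.Agent.Lib.FitCore.not_dvd_card_pPrimeCore 2 Nat.prime_two
  have hKT : ∀ (T : Subgroup G), IsPGroup 2 T → ∀ w ∈ T, w ∈ K → w = 1 := by
    intro T hT w hwT hwK
    obtain ⟨e, he⟩ := (IsPGroup.iff_orderOf.1 hT) ⟨w, hwT⟩
    rw [Subgroup.orderOf_mk] at he
    have h1 : orderOf w ∣ Nat.card K := Subgroup.orderOf_dvd_natCard K hwK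
    rw [he] at h1
    rcases e with _ | e
    · rw [pow_zero] at he
      exact orderOf_eq_one_iff.1 he
    · exact absurd ((dvd_pow_self 2 (by omega)).trans h1) hKodd
  apply le_antisymm
  · apply sSup_le
    intro Q hQ x hxQ
    have hQS := hQ.1
    refine ⟨hQS hxQ, ?_⟩
    have hiso : ∀ g : G, g * x * g⁻¹ ∈ (S : Subgroup G) → g * x * g⁻¹ = x := by
      intro g hg
      let P : Subgroup G := Subgroup.zpowers x
      have hPS : P ≤ (S : Subgroup G) := (Subgroup.zpowers_le).2 (hQS hxQ)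
      let φ : P →* G := Cfsg.conjHom P g
      have hφ : φ ∈ (Cfsg.groupFusionSystem (S : Subgroup G)).Hom P := by
        refine ⟨hPS, ?_, g, fun y => rfl⟩
        rintro ⟨_, k, rfl⟩
        show g * x ^ k * g⁻¹ ∈ (S : Subgroup G)
        rw [← conj_zpow]
        exact (S : Subgroup G).zpow_mem hg k
      obtain ⟨ψ, hψ, h1, h2⟩ := hQ.2 P φ hφ
      have e1 := h1 ⟨x, Subgroup.mem_zpowers x⟩
      have e2 := h2 ⟨x, hxQ⟩
      have e3 : Subgroup.inclusion (le_sup_left : P ≤ P ⊔ Q) ⟨x, Subgroup.mem_zpowers x⟩ =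
          Subgroup.inclusion (le_sup_right : Q ≤ P ⊔ Q) ⟨x, hxQ⟩ := Subtype.ext rfl
      rw [e3, e2] at e1
      exact e1.symm
    obtain ⟨N, hNn, hNo, hN⟩ := Cfsg.Agent.Lib.ZStarElem.zstar_elem S x (hQS hxQ) hiso
    have hNO : N ≤ K := le_sSup ⟨hNn, Nat.coprime_two_right.2 hNo⟩
    show (QuotientGroup.mk' K) x ∈ Subgroup.center (G ⧸ K)
    rw [Subgroup.mem_center_iff]
    intro g
    obtain ⟨g, rfl⟩ := QuotientGroup.mk_surjective g
    show ((g * x : G) : G ⧸ K) = ((x * g : G) : G ⧸ K)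
    rw [QuotientGroup.eq]
    have h1 := hNO (hN g⁻¹)
    have h2 := hKn.conj_mem _ h1 x⁻¹
    have e : (g * x)⁻¹ * (x * g) = x⁻¹ * (g⁻¹ * x * g⁻¹⁻¹ * x⁻¹) * x⁻¹⁻¹ := by group
    rw [e]
    exact h2
  · apply le_sSup
    set Q : Subgroup G := (S : Subgroup G) ⊓ (Subgroup.center (G ⧸ K)).comap (QuotientGroup.mk' K) with hQdef
    have hQS : Q ≤ (S : Subgroup G) := inf_le_left
    have hQp : IsPGroup 2 Q := S.isPGroup'.to_le hQS
    have hqK : ∀ q ∈ Q, ∀ a : G, a * q * a⁻¹ * q⁻¹ ∈ K := by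
      intro q hq a
      have h1 : (q : G ⧸ K) ∈ Subgroup.center (G ⧸ K) := hq.2
      have h2 := (Subgroup.mem_center_iff.1 h1) (a : G ⧸ K)
      have h3 : ((a * q : G) : G ⧸ K) = ((q * a : G) : G ⧸ K) := h2
      rw [QuotientGroup.eq] at h3
      have h4 := hKn.conj_mem _ (K.inv_mem h3) (q * a)
      have e2 : a * q * a⁻¹ * q⁻¹ = (q * a) * ((a * q)⁻¹ * (q * a))⁻¹ * (q * a)⁻¹ := by group
      rw [e2]
      exact h4
    have hQZ : ∀ q ∈ Q, ∀ s ∈ (S : Subgroup G), s * q = q * s := by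
      intro q hq s hs
      have h1 := hqK q hq s
      have h2 : s * q * s⁻¹ * q⁻¹ ∈ (S : Subgroup G) :=
        (S : Subgroup G).mul_mem ((S : Subgroup G).mul_mem ((S : Subgroup G).mul_mem hs (hQS hq)) ((S : Subgroup G).inv_mem hs))
          ((S : Subgroup G).inv_mem (hQS hq))
      have h3 := hKT S S.isPGroup' _ h2 h1
      calc s * q = (s * q * s⁻¹ * q⁻¹) * (q * s) := by group
        _ = q * s := by rw [h3, one_mul]
    refine ⟨hQS, ?_⟩
    intro P φ hφ
    obtain ⟨hPS, hφS, g, hg⟩ := hφ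
    -- the centralizer of the image of `P`
    let C : Subgroup G := Subgroup.centralizer {y | ∃ p ∈ P, y = g * p * g⁻¹}
    have hQC : Q ≤ C := by
      intro q hq
      rw [Subgroup.mem_centralizer_iff]
      rintro _ ⟨p, hp, rfl⟩
      have h1 : g * p * g⁻¹ ∈ (S : Subgroup G) := by
        have := hφS ⟨p, hp⟩
        rwa [hg] at this
      exact hQZ q hq _ h1
    let B : Subgroup G := Q.map (MulAut.conj g).toMonoidHom
    have hBp : IsPGroup 2 B := hQp.map _
    have hBC : B ≤ C := by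
      rintro _ ⟨q, hq, rfl⟩
      rw [Subgroup.mem_centralizer_iff]
      rintro _ ⟨p, hp, rfl⟩
      have h1 := hQZ q hq p (hPS hp)
      show g * p * g⁻¹ * (g * q * g⁻¹) = g * q * g⁻¹ * (g * p * g⁻¹)
      calc g * p * g⁻¹ * (g * q * g⁻¹) = g * (p * q) * g⁻¹ := by group
        _ = g * (q * p) * g⁻¹ := by rw [h1]
        _ = g * q * g⁻¹ * (g * p * g⁻¹) := by group
    obtain ⟨u, huC, T, hQT, hBT⟩ := Cfsg.Agent.Lib.ZStarElem.common_sylow C Q B hQp hBp hQC hBC
    have hfixQ : ∀ q ∈ Q, (u * g) * q * (u * g)⁻¹ = q := by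
      intro q hq
      have h1 : (u * g) * q * (u * g)⁻¹ ∈ (T : Subgroup G) := by
        have := hBT (g * q * g⁻¹) ⟨q, hq, rfl⟩
        have e : u * (g * q * g⁻¹) * u⁻¹ = (u * g) * q * (u * g)⁻¹ := by group
        rwa [e] at this
      have h2 := hqK q hq (u * g)
      have h3 : (u * g) * q * (u * g)⁻¹ * q⁻¹ ∈ (T : Subgroup G) :=
        (T : Subgroup G).mul_mem h1 ((T : Subgroup G).inv_mem (hQT hq))
      have h4 := hKT T T.isPGroup' _ h3 h2
      exact mul_inv_eq_one.1 h4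
    have hfixP : ∀ p ∈ P, (u * g) * p * (u * g)⁻¹ = g * p * g⁻¹ := by
      intro p hp
      have h1 := (Subgroup.mem_centralizer_iff.1 huC) (g * p * g⁻¹) ⟨p, hp, rfl⟩
      calc (u * g) * p * (u * g)⁻¹ = (u * (g * p * g⁻¹)) * u⁻¹ := by group
        _ = ((g * p * g⁻¹) * u) * u⁻¹ := by rw [h1]
        _ = g * p * g⁻¹ := by group
    let ψ : (P ⊔ Q : Subgroup G) →* G := Cfsg.conjHom (P ⊔ Q) (u * g)
    have hle : P ⊔ Q ≤ (S : Subgroup G) := sup_le hPS hQS
    have hmem : P ⊔ Q ≤ (S : Subgroup G).comap (MulAut.conj (u * g)).toMonoidHom := by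
      apply sup_le
      · intro p hp
        show (u * g) * p * (u * g)⁻¹ ∈ (S : Subgroup G)
        rw [hfixP p hp]
        have := hφS ⟨p, hp⟩
        rwa [hg] at this
      · intro q hq
        show (u * g) * q * (u * g)⁻¹ ∈ (S : Subgroup G)
        rw [hfixQ q hq]
        exact hQS hq
    refine ⟨ψ, ⟨hle, fun x => hmem x.2, u * g, fun x => rfl⟩, fun x => ?_, fun x => ?_⟩
    · show (u * g) * (x : G) * (u * g)⁻¹ = φ x
      rw [hfixP x x.2, hg]
    · exact hfixQ x x.2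

end Cfsg.Agent.S5094
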