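import Cfsg.Statements.S5101
import Cfsg.Agent.Lib.SylowIn

set_option autoImplicit false
open Cfsg

namespace Cfsg.Agent.S5101


/-- In the fusion system of a finite group G on a Sylow p-subgroup S, a subgroup P ≤ S is fully centralized if and only if C_S(P) is a Sylow p-subgroup of C_G(P). -/
theorem result {G : Type*} [Group G] [Finite G] (p : ℕ) [Fact p.Prime] (S : Sylow p G) (P : Subgroup G) (hP : P ≤ S) : (Cfsg.groupFusionSystem (S : Subgroup G)).IsFullyCentralized P ↔ ∃ R : Sylow p ↥(Subgroup.centralizer (P : Set G)), (R : Subgroup ↥(Subgroup.centralizer (P : Set G))) = (Cfsg.FusionSystem.centralizerIn (S : Subgroup G) P).subgroupOf (Subgroup.centralizer (P : Set G)) := by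
  open Cfsg.Agent.Lib.SylowIn Cfsg.FusionSystem in
  have key := fully_iff_sylow S hP (fun X => Subgroup.centralizer (X : Set G))
    (fun X g => centralizer_map_conj X g) (fun X => Subgroup.centralizer_le_normalizer _)
  refine Iff.trans ?_ key
  constructor
  · rintro ⟨-, h⟩ g hg
    refine h _ ⟨conjHom P g, ⟨hP, fun x => hg ⟨x, x.2, rfl⟩, g, fun x => rfl⟩, ?_⟩
    ext y
    constructor
    · rintro ⟨x, rfl⟩
      exact ⟨x, x.2, rfl⟩
    · rintro ⟨x, hx, rfl⟩
      exact ⟨⟨x, hx⟩, rfl⟩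
  · intro h
    refine ⟨hP, fun Q hQ => ?_⟩
    obtain ⟨φ, ⟨-, hφS, g, hg⟩, rfl⟩ := hQ
    have e : φ.range = P.map (MulAut.conj g).toMonoidHom := by
      ext y
      constructor
      · rintro ⟨x, rfl⟩
        rw [hg]
        exact ⟨x, x.2, rfl⟩
      · rintro ⟨x, hx, rfl⟩
        exact ⟨⟨x, hx⟩, hg _⟩
    rw [e]
    apply h g
    rw [← e]
    rintro _ ⟨x, rfl⟩
    exact hφS x

end Cfsg.Agent.S5101
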