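import Cfsg.Statements.S5102
import Cfsg.Agent.Lib.FusionBasic

set_option autoImplicit false
open Cfsg

namespace Cfsg.Agent.S5102


/-- A normal p-subgroup of a finite group G is normal in the fusion system of G on a Sylow p-subgroup. -/
theorem result {G : Type*} [Group G] [Finite G] (p : ℕ) [Fact p.Prime] (S : Sylow p G) (R : Subgroup G) [R.Normal] (hR : IsPGroup p R) : (Cfsg.groupFusionSystem (S : Subgroup G)).IsNormal R := by
  open Cfsg.Agent.Lib.FusionBasic in
  have hRS : R ≤ (S : Subgroup G) := hR.le_sylow_of_normal S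
  refine ⟨hRS, fun P φ hφ => ?_⟩
  obtain ⟨hP, hφS, g, hg⟩ := hφ
  have hle : P ⊔ R ≤ (S : Subgroup G) := sup_le hP hRS
  have hgR : ∀ x ∈ R, g * x * g⁻¹ ∈ R := fun x hx => ‹R.Normal›.conj_mem x hx g
  refine ⟨conjHom (P ⊔ R) g, ⟨hle, ?_, g, fun x => rfl⟩, fun x => ?_, ?_⟩
  · refine sup_values_mem _ (fun x hx => ?_) (fun x hx => ?_)
    · have : g * x * g⁻¹ = φ ⟨x, hx⟩ := (hg ⟨x, hx⟩).symm
      show g * x * g⁻¹ ∈ (S : Subgroup G)
      rw [this]
      exact hφS _
    · exact hRS (hgR x hx)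
  · exact (hg x).symm
  · rw [map_subgroupOf_sup_eq_iff]
    constructor
    · intro x hx
      exact hgR x hx
    · intro y hy
      have h1 : g⁻¹ * y * g⁻¹⁻¹ ∈ R := ‹R.Normal›.conj_mem y hy g⁻¹
      rw [inv_inv] at h1
      refine ⟨_, h1, ?_⟩
      show g * (g⁻¹ * y * g) * g⁻¹ = y
      group

end Cfsg.Agent.S5102
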