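import Cfsg.Statements.S5103
import Cfsg.Agent.Lib.FusionModel

set_option autoImplicit false
open Cfsg

namespace Cfsg.Agent.S5103


/-- A fusion system over a finite p-group that has a model (a finite group realizing it on a Sylow p-subgroup with self-centralizing largest normal p-subgroup) is constrained. -/
theorem result {Ω : Type*} [Group Ω] {S : Subgroup Ω} [Finite S] (p : ℕ) [Fact p.Prime] (hS : IsPGroup p S) (F : Cfsg.FusionSystem S) {G : Type*} [Group G] (ι : S →* G) (hG : F.IsModel p G ι) : F.IsConstrained p := by
  exact Cfsg.Agent.Lib.FusionModel.isConstrained_of_isModel hG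

end Cfsg.Agent.S5103
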