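import Cfsg.Statements.S5104
import Cfsg.Agent.Lib.FusionBasic

set_option autoImplicit false
open Cfsg

namespace Cfsg.Agent.S5104


/-- In a saturated fusion system over a finite p-group S, a fully centralized subgroup U with C_S(U) ≤ U is centric. -/
theorem result {Ω : Type*} [Group Ω] {S : Subgroup Ω} [Finite S] (p : ℕ) [Fact p.Prime] (hS : IsPGroup p S) (F : Cfsg.FusionSystem S) (hF : F.IsSaturated p) (U : Subgroup Ω) (hU : F.IsFullyCentralized U) (hC : Cfsg.FusionSystem.centralizerIn S U ≤ U) : F.IsCentric U := by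
  open Cfsg.Agent.Lib.FusionBasic Cfsg.FusionSystem in
  have hUS : U ≤ S := hU.1
  refine ⟨hUS, fun V hV => ?_⟩
  obtain ⟨Q, hUQ, -, hQr⟩ := hF U hUS
  have hQc : F.IsFullyCentralized Q := IsReceptive.isFullyCentralized hQr
  have hcard : Nat.card (centralizerIn S U) = Nat.card (centralizerIn S Q) :=
    card_centralizerIn_eq_of_fullyCentralized hU hQc hUQ
  -- `C_S(Q) ≤ Q`
  have hCQ : centralizerIn S Q ≤ Q := by
    obtain ⟨θ, hθ, hθQ⟩ := hUQ
    obtain ⟨ψ, hψ, he, hc⟩ := receptive_map_centralizer hQr hθ hθQ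
    have hfinC : Finite (centralizerIn S Q) :=
      finite_of_le (P := centralizerIn S Q) inf_le_left
    have hfinU : Finite (centralizerIn S U) :=
      finite_of_le (P := centralizerIn S U) inf_le_left
    let f : centralizerIn S U → centralizerIn S Q := fun x => ⟨ψ ⟨x, centralizerIn_le_extender S U θ x.2⟩, hc x x.2⟩
    have hf : Function.Injective f := by
      intro a b hab
      have h1 : ψ ⟨a, centralizerIn_le_extender S U θ a.2⟩ = ψ ⟨b, centralizerIn_le_extender S U θ b.2⟩ :=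
        congrArg Subtype.val hab
      have h2 := F.injective_of_mem hψ h1
      exact Subtype.ext (Subtype.mk.inj h2)
    have hsurj : Function.Surjective f := by
      exact (Nat.bijective_iff_injective_and_card f).mpr ⟨hf, hcard⟩ |>.2
    intro y hy
    obtain ⟨x, hx⟩ := hsurj ⟨y, hy⟩
    have hxU : (x : Ω) ∈ U := hC x.2
    have hm : f x = θ ⟨x, hxU⟩ := by
      show ψ _ = _
      exact he x hxU _
    have : y = θ ⟨x, hxU⟩ := by
      rw [← hm, hx]
    rw [this, ← hθQ]
    exact ⟨_, rfl⟩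
  -- conclude for `V`
  obtain ⟨ρ, hρ, hρQ⟩ := isConj_trans F (isConj_symm F hV) hUQ
  obtain ⟨ψ, hψ, he, hc⟩ := receptive_map_centralizer hQr hρ hρQ
  intro x hx
  have h1 : ψ ⟨x, centralizerIn_le_extender S V ρ hx⟩ ∈ Q := hCQ (hc x hx)
  rw [← hρQ] at h1
  obtain ⟨v, hv⟩ := h1
  have hVle : V ≤ extender S V ρ := le_extender (source_le F hρ) ρ (map_mem_S F hρ)
  have h2 : ψ ⟨v, hVle v.2⟩ = ρ v := he v v.2 _
  have h3 : ψ ⟨v, hVle v.2⟩ = ψ ⟨x, centralizerIn_le_extender S V ρ hx⟩ := h2.trans hv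
  have h4 := F.injective_of_mem hψ h3
  have h5 : (v : Ω) = x := Subtype.mk.inj h4
  rw [← h5]
  exact v.2

end Cfsg.Agent.S5104
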