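import Cfsg.Statements.S5107
import Cfsg.Agent.Lib.FusionNormal
import Cfsg.Agent.S5076

set_option autoImplicit false
open Cfsg

namespace Cfsg.Agent.S5107


/-- If a Sylow p-subgroup S of a finite group G has nilpotency class at most two and its centre is strongly closed in S with respect to G, then every map of the fusion system of G on S is conjugation by an element of N_G(S), and S is the largest subgroup normal in that fusion system. -/
theorem result {G : Type*} [Group G] [Finite G] (p : ℕ) [Fact p.Prime] (S : Sylow p G) (hcl : ⁅(S : Subgroup G), (S : Subgroup G)⁆ ≤ (S : Subgroup G) ⊓ Subgroup.centralizer ((S : Subgroup G) : Set G)) (hZ : Cfsg.IsStronglyClosed ((S : Subgroup G) ⊓ Subgroup.centralizer ((S : Subgroup G) : Set G)) (S : Subgroup G)) : (∀ (P : Subgroup G) (φ : P →* G), φ ∈ (Cfsg.groupFusionSystem (S : Subgroup G)).Hom P → ∃ g ∈ Subgroup.normalizer ((S : Subgroup G) : Set G), ∀ x : P, φ x = g * (x : G) * g⁻¹) ∧ (Cfsg.groupFusionSystem (S : Subgroup G)).core = S := by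
  open Cfsg.FusionSystem Cfsg.Agent.Lib.FusionBasic Cfsg.Agent.Lib.FusionNormal in
  have hF := Cfsg.Agent.S5076.result p S
  have hSp : IsPGroup p (S : Subgroup G) := S.isPGroup'
  set F := Cfsg.groupFusionSystem (S : Subgroup G) with hFdef
  set Z : Subgroup G := (S : Subgroup G) ⊓ Subgroup.centralizer ((S : Subgroup G) : Set G) with hZdef
  have hZsc : F.StronglyClosed Z := by
    refine ⟨inf_le_left, fun R hR φ hφ x => ?_⟩
    obtain ⟨-, hv, g, hg⟩ := hφ
    have h1 := hv x
    rw [hg] at h1 ⊢
    exact hZ.2 x (hR x.2) g h1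
  have hSsc : F.StronglyClosed (S : Subgroup G) := ⟨le_rfl, fun R _ φ hφ x => hφ.2.1 x⟩
  have hnorm : F.IsNormal (S : Subgroup G) := by
    refine isNormal_of_stronglyClosed_of_le hSp hF hSsc fun P hc hr => ?_
    refine le_of_central_chain hSp hc hr hSsc 2 ![⊥, Z, (S : Subgroup G)] rfl rfl ?_ ?_ ?_
    · intro i j hij
      have hZS : Z ≤ (S : Subgroup G) := inf_le_left
      fin_cases i <;> fin_cases j <;> simp_all <;> first | exact hZS | exact le_rfl | exact bot_le | skip
    · intro i
      fin_cases i
      · show ⁅Z, (S : Subgroup G)⁆ ≤ ⊥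
        rw [Subgroup.commutator_le]
        intro x hx y hy
        have h1 : y * x = x * y := Subgroup.mem_centralizer_iff.mp hx.2 y hy
        rw [Subgroup.mem_bot, commutatorElement_def, ← h1]
        group
      · exact hcl
    · intro i
      fin_cases i
      · exact weaklyClosed_bot F
      · exact StronglyClosed.weaklyClosed hZsc
  refine ⟨fun P φ hφ => ?_, ?_⟩
  · obtain ⟨ψ, hψ, he, hm⟩ := hnorm.2 P φ hφ
    rw [map_subgroupOf_sup_eq_iff] at hm
    obtain ⟨-, hv, g, hg⟩ := hψ
    refine ⟨g, ?_, fun x => ?_⟩
    · rw [Subgroup.mem_normalizer_iff]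
      intro y
      have hkey : ∀ y ∈ (S : Subgroup G), g * y * g⁻¹ ∈ (S : Subgroup G) := by
        intro y hy
        have := hm.1 y hy
        rwa [hg] at this
      have hsurj : ∀ y ∈ (S : Subgroup G), g⁻¹ * y * g ∈ (S : Subgroup G) := by
        intro y hy
        obtain ⟨x, hx, e⟩ := hm.2 y hy
        rw [hg] at e
        have : g⁻¹ * y * g = x := by
          rw [← e]
          show g⁻¹ * (g * x * g⁻¹) * g = x
          group
        rw [this]
        exact hx
      refine ⟨hkey y, fun h => ?_⟩
      have := hsurj _ h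
      simpa [mul_assoc] using this
    · rw [← he x, hg]
      rfl
  · apply le_antisymm
    · exact (isNormal_core F).1
    · exact IsNormal.le_core hnorm

end Cfsg.Agent.S5107
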