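import Cfsg.Statements.S5111
import Cfsg.Agent.Lib.FusionHyp

set_option autoImplicit false
open Cfsg

namespace Cfsg.Agent.S5111

open Cfsg.FusionSystem Cfsg.Agent.Lib.FusionBasic Cfsg.Agent.Lib.FusionAut Cfsg.Agent.Lib.FusionSat Cfsg.Agent.Lib.FusionAlperin Cfsg.Agent.Lib.FusionNormal Cfsg.Agent.Lib.FusionPuig Cfsg.Agent.Lib.FusionCentric in
/-- The inductive step: `P` fully normalized, all larger fully normalized subgroups fully automized. -/
theorem step {Ω : Type*} [Group Ω] {S : Subgroup Ω} [Finite S] {p : ℕ} [Fact p.Prime]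
    (hS : IsPGroup p S) {F : Cfsg.FusionSystem S}
    (hrecAll : ∀ P : Subgroup Ω, F.IsFullyNormalized P → F.IsReceptive P)
    {P : Subgroup Ω} (hP : F.IsFullyNormalized P) (hPlt : P < S)
    (hIH : ∀ Q : Subgroup Ω, F.IsFullyNormalized Q → Nat.card P < Nat.card Q → F.IsFullyAutomized p Q) :
    F.IsFullyAutomized p P := by
  have hPS : P ≤ S := hP.1
  have hfinP : Finite P := finite_of_le hPS
  have hfinA : Finite (MulAut P) := mulAut_finite
  refine ⟨hPS, ?_⟩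
  set B : Subgroup (F.autGroup P) := (Cfsg.autInducedBy S P).subgroupOf (F.autGroup P) with hB
  have hBle : ∀ b ∈ B, (b : MulAut P) ∈ Cfsg.autInducedBy S P := fun b hb => hb
  have hBp : IsPGroup p B :=
    (isPGroup_autInducedBy (p := p) hS P).comap_of_injective (F.autGroup P).subtype
      Subtype.val_injective
  obtain ⟨R, hR⟩ := hBp.exists_le_sylow
  refine ⟨R, ?_⟩
  by_contra hne
  have hlt : B < (R : Subgroup _) := lt_of_le_of_ne hR (Ne.symm hne)
  have hfinAut : Finite (F.autGroup P) := inferInstance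
  have hRp : IsPGroup p (R : Subgroup (F.autGroup P)) := R.isPGroup'
  obtain ⟨τ, hτR, hτB, hτN⟩ := exists_mem_normalizer_of_lt' hRp hlt
  set ν : MulAut P := τ.1 with hν
  have hνS : ∀ x ∈ (⊤ : Subgroup (MulAut P)), x ∈ Cfsg.autInducedBy S P →
      ν * x * ν⁻¹ ∈ Cfsg.autInducedBy S P := by
    intro β _ hβ
    have hβA : β ∈ F.autGroup P := autInducedBy_le_autGroup F hPS hβ
    have hβB : (⟨β, hβA⟩ : F.autGroup P) ∈ B := hβ
    have h1 := (Subgroup.mem_normalizer_iff.mp hτN _).mp hβB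
    exact h1
  have hPN : P < normalizerIn S P := lt_normalizerIn hS hPlt
  set N := normalizerIn S P with hN
  have hNS : N ≤ S := inf_le_left
  have hfinN : Finite N := finite_of_le hNS
  have hνm := (mem_autGroup_iff F hPS).mp τ.2
  have hNE : N ≤ extender S P (P.subtype.comp ν.toMonoidHom) := fun x hx =>
    mem_extender_of_conj hνS hx.1 hx.2 (Subgroup.mem_top _)
  obtain ⟨ψ, hψ, hψe⟩ := (hrecAll P hP).2 P _ hνm (range_subtype_comp ν)
  have hτhm := restrict_mem F hψ hNE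
  set τh := ψ.comp (Subgroup.inclusion hNE) with hτh
  have hτhP : ∀ (x : Ω) (hx : x ∈ P) (hN : x ∈ N), τh ⟨x, hN⟩ = ((ν ⟨x, hx⟩ : P) : Ω) := fun x hx hN =>
    hψe x hx (hNE hN)
  have hτhv : ∀ n : N, τh n ∈ N := by
    intro n
    refine ⟨map_mem_S F hτhm n, ?_⟩
    refine map_mem_normalizer (A := N) (Q := P) (P := P) τh (fun w hw hA => ?_) (fun y hy => ?_) n.2 n.2.2
    · rw [hτhP w hw hA]
      exact (ν ⟨w, hw⟩).2
    · refine ⟨(ν⁻¹ ⟨y, hy⟩ : P), (ν⁻¹ ⟨y, hy⟩).2, hPN.le (ν⁻¹ ⟨y, hy⟩).2, ?_⟩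
      rw [hτhP _ (ν⁻¹ ⟨y, hy⟩).2]
      have : ν ⟨_, (ν⁻¹ ⟨y, hy⟩).2⟩ = ⟨y, hy⟩ := by simp
      rw [this]
  have hτhr : τh.range = N :=
    Subgroup.eq_of_le_of_card_ge (by rintro _ ⟨y, rfl⟩; exact hτhv y) (card_range_eq F hτhm).ge
  set τ₁ := isoOfRange hτhm hτhr with hτ₁
  have hτ₁F : τ₁ ∈ F.autGroup N := isoOfRange_mem_autGroup hτhm hτhr
  have hfinAN : Finite (MulAut N) := mulAut_finite
  obtain ⟨a, m, hm, hnm⟩ := Nat.exists_eq_pow_mul_and_not_dvd (orderOf_pos τ₁).ne' p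
    (Fact.out : p.Prime).ne_one
  set τ₂ := τ₁ ^ m with hτ₂
  have hτ₂F : τ₂ ∈ F.autGroup N := pow_mem hτ₁F m
  have hτ₂k : τ₂ ^ (p ^ a) = 1 := by
    rw [hτ₂, ← pow_mul, mul_comm, ← hnm, pow_orderOf_eq_one]
  have hpow : ∀ (k : ℕ) (x : Ω) (hx : x ∈ P), (((τ₁ ^ k) ⟨x, hPN.le hx⟩ : N) : Ω) = (((ν ^ k) ⟨x, hx⟩ : P) : Ω) := by
    intro k
    induction k with
    | zero => intro x hx; rfl
    | succ k ih =>
      intro x hx
      rw [pow_succ, pow_succ]
      have e1 : τ₁ ⟨x, hPN.le hx⟩ = ⟨((ν ⟨x, hx⟩ : P) : Ω), hPN.le (ν ⟨x, hx⟩).2⟩ := by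
        apply Subtype.ext
        exact hτhP x hx (hPN.le hx)
      show (((τ₁ ^ k) (τ₁ ⟨x, hPN.le hx⟩) : N) : Ω) = (((ν ^ k) (ν ⟨x, hx⟩) : P) : Ω)
      rw [e1, ih _ (ν ⟨x, hx⟩).2]
  -- a fully normalized conjugate of `N`
  obtain ⟨N', ⟨θ, hθ, hr'⟩, hfull⟩ := exists_isConj_fullyNormalized F hNS
  have hfinN' : Finite N' := finite_of_le hfull.1
  have hcardN' : Nat.card N' = Nat.card N := by
    rw [← hr']
    exact card_range_eq F hθ
  have hcardP : Nat.card P < Nat.card N :=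
    lt_of_not_ge fun h => hPN.ne (Subgroup.eq_of_le_of_card_ge hPN.le h)
  have hauto := hIH N' hfull (by omega)
  set e := isoOfRange hθ hr' with he
  have hγ : MulAut.congr e τ₂ ∈ F.autGroup N' := congr_mem_autGroup hθ hr' hτ₂F
  have hγk : (MulAut.congr e τ₂) ^ (p ^ a) = 1 := by
    rw [← map_pow, hτ₂k, map_one]
  obtain ⟨σ, hσ, hσc⟩ := exists_conj_autInducedBy hauto hγ hγk
  obtain ⟨s, hsS, hs⟩ := mem_autInducedBy_iff.mp hσc
  let ζ : N ≃* N' := e.trans σ
  have hζF : N'.subtype.comp ζ.toMonoidHom ∈ F.Hom N := by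
    obtain ⟨χ, hχ, eχ⟩ := exists_comp F hθ ((mem_autGroup_iff F hfull.1).mp hσ)
      (fun x => by rw [← hr']; exact ⟨x, rfl⟩)
    refine hom_of_eq hχ fun x => ?_
    rw [eχ]
    rfl
  have hζ : ∀ y : N, ((ζ (τ₂ y) : N') : Ω) = s * (ζ y : N') * s⁻¹ := by
    intro y
    have h1 := hs (ζ y)
    have h2 : (σ * MulAut.congr e τ₂ * σ⁻¹) (ζ y) = ζ (τ₂ y) := by
      show σ (e (τ₂ (e.symm (σ.symm (σ (e y)))))) = σ (e (τ₂ y))
      simp
    rw [h2] at h1
    exact h1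
  -- the image of `P`
  set ζm := N'.subtype.comp ζ.toMonoidHom with hζm
  have hres := restrict_mem F hζF hPN.le
  set P₁ := (ζm.comp (Subgroup.inclusion hPN.le)).range with hP₁
  have hconj : F.IsConj P P₁ := ⟨_, hres, rfl⟩
  have hcardle := hP.2 P₁ hconj
  have hN'N : N' ≤ normalizerIn S P₁ := by
    intro w hw
    refine ⟨hfull.1 hw, ?_⟩
    have h1 := map_mem_normalizer (A := N) (Q := P) (P := P₁) ζm
      (fun x hx hA => ⟨⟨x, hx⟩, rfl⟩) (fun y hy => by
        obtain ⟨x, rfl⟩ := hy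
        exact ⟨x, x.2, hPN.le x.2, rfl⟩) (ζ.symm ⟨w, hw⟩).2 (ζ.symm ⟨w, hw⟩).2.2
    have e2 : ζm ⟨_, (ζ.symm ⟨w, hw⟩).2⟩ = w := by
      show ((ζ (ζ.symm ⟨w, hw⟩) : N') : Ω) = w
      simp
    rw [e2] at h1
    exact h1
  have hfinNP₁ : Finite (normalizerIn S P₁) := finite_of_le inf_le_left
  have heqN' : N' = normalizerIn S P₁ :=
    Subgroup.eq_of_le_of_card_ge hN'N (by rw [hcardN']; exact hcardle)
  have hτ₂P : ∀ (x : Ω) (hx : x ∈ P), ((τ₂ ⟨x, hPN.le hx⟩ : N) : Ω) = (((ν ^ m) ⟨x, hx⟩ : P) : Ω) :=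
    fun x hx => hpow m x hx
  have hsN : s ∈ Subgroup.normalizer (P₁ : Set Ω) := by
    rw [Subgroup.mem_normalizer_iff]
    intro h
    constructor
    · rintro ⟨x, rfl⟩
      have h1 := hζ (Subgroup.inclusion hPN.le x)
      refine ⟨(ν ^ m) x, ?_⟩
      show _ = s * ((ζ (Subgroup.inclusion hPN.le x) : N') : Ω) * s⁻¹
      rw [← h1]
      show ((ζ (Subgroup.inclusion hPN.le ((ν ^ m) x)) : N') : Ω) = _
      have e3 : Subgroup.inclusion hPN.le ((ν ^ m) x) = τ₂ (Subgroup.inclusion hPN.le x) :=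
        Subtype.ext (hτ₂P x x.2).symm
      rw [e3]
    · rintro ⟨x, hx⟩
      let x' : P := (ν ^ m)⁻¹ x
      have hx' : (ν ^ m) x' = x := by simp [x']
      have h1 := hζ (Subgroup.inclusion hPN.le x')
      have h2 : τ₂ (Subgroup.inclusion hPN.le x') = Subgroup.inclusion hPN.le x := by
        apply Subtype.ext
        rw [← hx']
        exact hτ₂P x' x'.2
      rw [h2] at h1
      have h3 : s * h * s⁻¹ = s * ((ζ (Subgroup.inclusion hPN.le x') : N') : Ω) * s⁻¹ := by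
        rw [← h1, ← hx]
        rfl
      have h4 : h = ((ζ (Subgroup.inclusion hPN.le x') : N') : Ω) :=
        mul_left_cancel (mul_right_cancel h3)
      exact ⟨x', h4.symm⟩
  have hsN' : s ∈ N' := by
    rw [heqN']
    exact ⟨hsS, hsN⟩
  let n : N := ζ.symm ⟨s, hsN'⟩
  have hζn : ((ζ n : N') : Ω) = s := by simp [n]
  have hτ₂c : ∀ y : N, τ₂ y = n * y * n⁻¹ := by
    intro y
    apply ζ.injective
    apply Subtype.ext
    rw [hζ y, map_mul, map_mul, map_inv]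
    show s * _ * s⁻¹ = ((ζ n : N') : Ω) * _ * ((ζ n : N') : Ω)⁻¹
    rw [hζn]
  have hνm2 : ν ^ m ∈ Cfsg.autInducedBy S P := by
    refine mem_autInducedBy_iff.mpr ⟨n, hNS n.2, fun x => ?_⟩
    rw [← hτ₂P x x.2, hτ₂c]
    rfl
  have hτmB : τ ^ m ∈ B := hνm2
  have hordτ : (m).Coprime (orderOf τ) := by
    obtain ⟨j, hj⟩ := hRp ⟨τ, hτR⟩
    have hj' : τ ^ p ^ j = 1 := congrArg Subtype.val hj
    have h1 : orderOf τ ∣ p ^ j := orderOf_dvd_of_pow_eq_one hj'
    exact Nat.Coprime.coprime_dvd_right h1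
      (Nat.Coprime.pow_right _ ((Nat.Prime.coprime_iff_not_dvd (Fact.out : p.Prime)).2 hm).symm)
  obtain ⟨k, hk⟩ := exists_pow_eq_self_of_coprime hordτ
  apply hτB
  rw [← hk]
  exact pow_mem hτmB k

/-- A fusion system over a finite p-group S is saturated if and only if the inner automorphisms of S form a Sylow p-subgroup of Aut_F(S) and every fully normalized subgroup of S is receptive. -/
theorem result {Ω : Type*} [Group Ω] {S : Subgroup Ω} [Finite S] (p : ℕ) [Fact p.Prime] (hS : IsPGroup p S) (F : Cfsg.FusionSystem S) : F.IsSaturated p ↔ (F.IsFullyAutomized p S ∧ ∀ P : Subgroup Ω, F.IsFullyNormalized P → F.IsReceptive P) := by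
  open Cfsg.FusionSystem Cfsg.Agent.Lib.FusionBasic Cfsg.Agent.Lib.FusionAut Cfsg.Agent.Lib.FusionSat Cfsg.Agent.Lib.FusionAlperin Cfsg.Agent.Lib.FusionNormal in
  constructor
  · intro hF
    exact ⟨IsSaturated.fullyAutomized_self hF, fun P hP => (IsSaturated.fullyNormalized hS hF hP).2⟩
  · rintro ⟨htop, hrec⟩
    have key : ∀ n : ℕ, ∀ P : Subgroup Ω, F.IsFullyNormalized P → Nat.card S - Nat.card P = n →
        F.IsFullyAutomized p P := by
      intro n
      induction n using Nat.strong_induction_on with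
      | _ n ih =>
        intro P hP hn
        by_cases hSP : S ≤ P
        · have e : P = S := le_antisymm hP.1 hSP
          rw [e]
          exact htop
        have hlt : P < S := lt_of_le_not_ge hP.1 hSP
        refine step hS hrec hP hlt fun Q hQ hc => ?_
        have hc2 : Nat.card Q ≤ Nat.card S := Subgroup.card_le_of_le hQ.1
        exact ih (Nat.card S - Nat.card Q) (by omega) Q hQ rfl
    intro P hP
    obtain ⟨Q, hPQ, hfull⟩ := exists_isConj_fullyNormalized F hP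
    exact ⟨Q, hPQ, key _ Q hfull rfl, hrec Q hfull⟩

end Cfsg.Agent.S5111
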