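import Cfsg.Statements.S5112
import Cfsg.Agent.Lib.FusionSat
import Cfsg.Agent.Lib.AutTwoGroup

set_option autoImplicit false
open Cfsg

namespace Cfsg.Agent.S5112


/-- If S is a dihedral or generalized quaternion 2-group of order at least 16, then in every saturated fusion system over S (at the prime 2) the automorphism group Aut_F(S) consists of the inner automorphisms of S. -/
theorem result {Ω : Type*} [Group Ω] {S : Subgroup Ω} [Finite S] (n : ℕ) (hn : 4 ≤ n) (hshape : Nonempty (S ≃* DihedralGroup (2 ^ (n - 1))) ∨ Nonempty (S ≃* QuaternionGroup (2 ^ (n - 2)))) (F : Cfsg.FusionSystem S) (hF : F.IsSaturated 2) : F.autGroup S = Cfsg.Inn S := by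
  haveI : Fact (Nat.Prime 2) := ⟨Nat.prime_two⟩
  have hP : IsPGroup 2 (MulAut S) := by
    rcases hshape with ⟨⟨e⟩⟩ | ⟨⟨e⟩⟩
    · exact (Cfsg.Agent.Lib.AutTwoGroup.isPGroup_two_mulAut_dihedral (n - 1) (by omega)).of_equiv
        (MulAut.congr e).symm
    · exact (Cfsg.Agent.Lib.AutTwoGroup.isPGroup_two_mulAut_quaternion (n - 2) (by omega)).of_equiv
        (MulAut.congr e).symm
  exact Cfsg.Agent.Lib.FusionSat.autGroup_self_eq_inn hF (hP.to_subgroup _)

end Cfsg.Agent.S5112
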