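import Cfsg.Statements.S5128
import Cfsg.Agent.Lib.FusionPuig

set_option autoImplicit false
open Cfsg

namespace Cfsg.Agent.S5128


/-- In a saturated fusion system over a finite p-group S, the product of two strongly closed subgroups is strongly closed. -/
theorem result {Ω : Type*} [Group Ω] {S : Subgroup Ω} [Finite S] (p : ℕ) [Fact p.Prime] (hS : IsPGroup p S) (F : Cfsg.FusionSystem S) (hF : F.IsSaturated p) (T₁ T₂ : Subgroup Ω) (h₁ : F.StronglyClosed T₁) (h₂ : F.StronglyClosed T₂) : F.StronglyClosed (T₁ ⊔ T₂) := by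
  open Cfsg.FusionSystem Cfsg.Agent.Lib.FusionBasic Cfsg.Agent.Lib.FusionNormal Cfsg.Agent.Lib.FusionPuig in
  open scoped Pointwise in
  refine ⟨sup_le h₁.1 h₂.1, fun R hR φ hφ x => ?_⟩
  obtain ⟨ψ, hψ, hc⟩ := extMod hS hF h₁ hφ
  have hn : T₂ ≤ Subgroup.normalizer (T₁ : Set Ω) := h₂.1.trans (StronglyClosed.le_normalizer h₁)
  have hx : (x : Ω) ∈ T₂ ⊔ T₁ := by
    rw [sup_comm]
    exact hR x.2
  have hxm : (x : Ω) ∈ ((T₂ : Set Ω) * (T₁ : Set Ω)) := by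
    rw [← Subgroup.coe_mul_of_left_le_normalizer_right T₂ T₁ hn]
    exact hx
  obtain ⟨t₂, ht₂, t₁, ht₁, e⟩ := hxm
  have hxR : (x : Ω) ∈ R ⊔ T₁ := Subgroup.mem_sup_left x.2
  have ht₁R : t₁ ∈ R ⊔ T₁ := Subgroup.mem_sup_right ht₁
  have ht₂R : t₂ ∈ R ⊔ T₁ := by
    have : t₂ = (x : Ω) * t₁⁻¹ := by
      rw [← e]
      group
    rw [this]
    exact Subgroup.mul_mem _ hxR (Subgroup.inv_mem _ ht₁R)
  have hψ₁ : ψ ⟨t₁, ht₁R⟩ ∈ T₁ := map_mem_of_le h₁ le_sup_right hψ _ ht₁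
  have hres := restrict_mem F hψ (inf_le_left : (R ⊔ T₁) ⊓ T₂ ≤ R ⊔ T₁)
  have hψ₂ : ψ ⟨t₂, ht₂R⟩ ∈ T₂ := h₂.2 _ inf_le_right _ hres ⟨t₂, ht₂R, ht₂⟩
  have e2 : (Subgroup.inclusion le_sup_left x : ↥(R ⊔ T₁)) = ⟨t₂, ht₂R⟩ * ⟨t₁, ht₁R⟩ :=
    Subtype.ext e.symm
  have hx3 : ψ (Subgroup.inclusion le_sup_left x) ∈ T₁ ⊔ T₂ := by
    rw [e2, map_mul]
    exact Subgroup.mul_mem _ (Subgroup.mem_sup_right hψ₂) (Subgroup.mem_sup_left hψ₁)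
  have e3 : φ x = ψ (Subgroup.inclusion le_sup_left x) *
      ((ψ (Subgroup.inclusion le_sup_left x))⁻¹ * φ x) := by group
  rw [e3]
  exact Subgroup.mul_mem _ hx3 (Subgroup.mem_sup_left (hc x))

end Cfsg.Agent.S5128
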