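import Cfsg.Statements.S5139
import Cfsg.Agent.Lib.FusionPIdx
import Cfsg.Agent.Lib.FusionHypGroup
import Cfsg.Agent.Lib.FusionSubgroup

set_option autoImplicit false
open Cfsg

namespace Cfsg.Agent.S5139

open Cfsg.FusionSystem Cfsg.Agent.Lib.FusionBasic Cfsg.Agent.Lib.FusionAut Cfsg.Agent.Lib.FusionPIdx
  Cfsg.Agent.Lib.FusionSubgroup Cfsg.Agent.Lib.FusionHypGroup Cfsg.Agent.Lib.PResidual

variable {G : Type*} [Group G] {p : ℕ} [Fact p.Prime]

theorem hidx_sub [Finite G] (S : Sylow p G) {P : Subgroup G} (hP : P ≤ (S : Subgroup G) ⊓ pResidual p G) :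
    (pResidual p ((groupFusionSystem (S : Subgroup G)).autGroup P)).map
        ((groupFusionSystem (S : Subgroup G)).autGroup P).subtype ≤
      (fusionSystemOfSubgroup (pResidual p G) ((S : Subgroup G) ⊓ pResidual p G) inf_le_right).autGroup P := by
  rw [Subgroup.map_le_iff_le_comap]
  refine (Subgroup.closure_le _).2 ?_
  intro α hα
  have hα' : (orderOf α).Coprime p := hα
  have hα2 : (orderOf (α : MulAut P)).Coprime p := by rwa [Subgroup.orderOf_coe]
  obtain ⟨g, hg⟩ := aut_conj_exists (hP.trans inf_le_left) α.2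
  obtain ⟨t, ht, htg⟩ := exists_coprime_conj hg hα2
  show (α : MulAut P) ∈ (fusionSystemOfSubgroup (pResidual p G) ((S : Subgroup G) ⊓ pResidual p G) inf_le_right).autGroup P
  rw [mem_autGroup_iff _ hP]
  refine ⟨hP, fun x => ?_, t, mem_pResidual_of_coprime ht, fun x => htg x⟩
  exact hP (α.1 x).2

/-- Let G be a finite group with Sylow p-subgroup S and O^p(G) the subgroup generated by the elements of order prime to p. Then the p-residual subsystem of the fusion system of G on S — the saturated subsystem of p-power index over the hyperfocal subgroup — is the fusion system of O^p(G) on S ∩ O^p(G): its maps are exactly the conjugation maps by elements of O^p(G) between subgroups of S ∩ O^p(G). -/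
theorem result {G : Type*} [Group G] [Finite G] (p : ℕ) [Fact p.Prime] (S : Sylow p G) (E : Cfsg.FusionSystem ((Cfsg.groupFusionSystem (S : Subgroup G)).hyperfocalSubgroup p)) (hE : (Cfsg.groupFusionSystem (S : Subgroup G)).IsPResidual p E) : ∃ h : (S : Subgroup G) ⊓ Cfsg.pResidual p G ≤ Cfsg.pResidual p G, ∀ P : Subgroup G, E.Hom P = (Cfsg.fusionSystemOfSubgroup (Cfsg.pResidual p G) ((S : Subgroup G) ⊓ Cfsg.pResidual p G) h).Hom P := by
  have hyp := hyp_eq (p := p) S
  refine ⟨inf_le_right, ?_⟩
  have hSp : IsPGroup p (S : Subgroup G) := S.isPGroup'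
  have hinfS : (S : Subgroup G) ⊓ pResidual p G ≤ S := inf_le_left
  have hTp : IsPGroup p ((S : Subgroup G) ⊓ pResidual p G : Subgroup G) := hSp.to_le hinfS
  have hHp : IsPGroup p ((groupFusionSystem (S : Subgroup G)).hyperfocalSubgroup p : Subgroup G) := hSp.to_le (hyp.le.trans hinfS)
  have hsat : (fusionSystemOfSubgroup (pResidual p G) ((S : Subgroup G) ⊓ pResidual p G) inf_le_right).IsSaturated p := by
    haveI : (pResidual p G).Normal := pResidual_normal p G
    exact isSaturated_fusionSystemOfSubgroup _ _ _ (isSylowIn_inf S _)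
  have hsub : (fusionSystemOfSubgroup (pResidual p G) ((S : Subgroup G) ⊓ pResidual p G) inf_le_right).IsSubsystemOf
      (groupFusionSystem (S : Subgroup G)) := by
    rintro P φ ⟨hP, hφ, g, -, hg⟩
    exact ⟨hP.trans hinfS, fun x => hinfS (hφ x), g, hg⟩
  intro P
  apply Set.Subset.antisymm
  · exact subsystem_of_index hHp hE.1 hE.2.1 (hyp.le.trans hinfS) _ hyp.le (fun Q hQ => hidx_sub S hQ) P
  · exact subsystem_of_index hTp hsat hsub hinfS E hyp.ge (fun Q hQ => hE.2.2.2 Q hQ) P

end Cfsg.Agent.S5139
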