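import Cfsg.Statements.S5167
import Cfsg.Agent.Lib.GolayMathieuFus
import Cfsg.Agent.Lib.GolayFusM12

set_option autoImplicit false
open Cfsg

namespace Cfsg.Agent.S5167

open Cfsg Cfsg.Agent.Lib.GolayCode Cfsg.Agent.Lib.GolayPerm Cfsg.Agent.Lib.GolayM12 Cfsg.Agent.Lib.GolayOrbit
  Cfsg.Agent.Lib.GolayFusionCert Cfsg.Agent.Lib.GolayMathieuFus Cfsg.Agent.Lib.GolayFusM12

theorem hpc : pcCheck sch = true := by decide +kernel
theorem hall : sch.all (fun g => m12P g.x) = true := by decide +kernel
theorem hzg : isAut zz = true := by decide +kernel
theorem hz : centerCheck sch zz = true := by decide +kernel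
theorem hsteps : stepsCheck m12P sch steps [zz] = true := by decide +kernel
theorem hrun : treeRun ff t0 levels sch [allMask] = true := by decide +kernel

/-- The 2-fusion system of the Mathieu group M₁₂ (as the explicit permutation group carved out of the automorphism group of the binary Golay code) on a Sylow 2-subgroup is simple: saturated, over a nontrivial 2-group, with no normal subsystem other than the trivial one and itself. -/
theorem result (S : Sylow 2 Cfsg.Spor.M12) : (Cfsg.groupFusionSystem (S : Subgroup Cfsg.Spor.M12)).IsSimple 2 := by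
  have hP : ∀ t, isAut t = true → m12P t = true → toPerm t ∈ Cfsg.Spor.M12 := fun t ha hp => by
    rw [M12_eq]
    exact toPerm_mem_stabS ha hp
  exact isSimple_of_cert hP hpc (chainP_le hP hpc hall) 6 1485 rfl (by norm_num) (by rw [card_M12]; norm_num) (by decide)
    hzg hz hsteps hrun (fun g _ h => eq_one_of_fix_all h) S

end Cfsg.Agent.S5167
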