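import Cfsg.Statements.S5168
import Cfsg.Agent.Lib.GolayMathieuFus
import Cfsg.Agent.Lib.GolayFusM22

set_option autoImplicit false
open Cfsg

namespace Cfsg.Agent.S5168

open Cfsg Cfsg.Agent.Lib.GolayCode Cfsg.Agent.Lib.GolayPerm Cfsg.Agent.Lib.GolayM12 Cfsg.Agent.Lib.GolayOrbit
  Cfsg.Agent.Lib.GolayFusionCert Cfsg.Agent.Lib.GolayMathieuFus Cfsg.Agent.Lib.GolayFusM22

/-- Points fixed by the elements of `M22`. -/
def m22P (t : List ℕ) : Bool := img t 23 == 23 && img t 0 == 0

theorem hpc : pcCheck sch = true := by decide +kernel
theorem hall : sch.all (fun g => m22P g.x) = true := by decide +kernel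
theorem hzg : isAut zz = true := by decide +kernel
theorem hz : centerCheck sch zz = true := by decide +kernel
theorem hsteps : stepsCheck m22P sch steps [zz] = true := by decide +kernel
theorem hrun : treeRun ff t0 levels sch [allMask] = true := by decide +kernel
/-- The witness for the fixed points. -/
def wit : List ℕ := [14, 5, 22, 9, 1, 23, 18, 20, 10, 21, 13, 3, 2, 4, 17, 8, 12, 6, 7, 16, 19, 15, 0, 11]
theorem hwit : isAut wit = true := by decide +kernel
theorem hwit2 : allBelow (fun j => ff.testBit (img wit (Cfsg.Agent.Lib.GolayChain.bs j))) 7 = true := by decide +kernel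

/-- The 2-fusion system of the Mathieu group M₂₂ (as the explicit permutation group carved out of the automorphism group of the binary Golay code) on a Sylow 2-subgroup is simple: saturated, over a nontrivial 2-group, with no normal subsystem other than the trivial one and itself. -/
theorem result (S : Sylow 2 Cfsg.Spor.M22) : (Cfsg.groupFusionSystem (S : Subgroup Cfsg.Spor.M22)).IsSimple 2 := by
  have hP : ∀ t, isAut t = true → m22P t = true → toPerm t ∈ Cfsg.Spor.M22 := fun t ha hp => by
    simp only [m22P, Bool.and_eq_true, beq_iff_eq] at hp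
    have hm := toPerm_mem_M24 ha
    refine ⟨⟨hm, ?_⟩, ?_⟩
    · refine MulAction.mem_stabilizer_iff.mpr ?_
      rw [Equiv.Perm.smul_def]
      have := toPerm_idxPt (isAut_valid ha) (i := 23) (by norm_num)
      rw [hp.1] at this
      exact this
    · refine MulAction.mem_stabilizer_iff.mpr ?_
      rw [Equiv.Perm.smul_def]
      have := toPerm_idxPt (isAut_valid ha) (i := 0) (by norm_num)
      rw [hp.2] at this
      exact this
  exact isSimple_of_cert hP hpc (chainP_le hP hpc hall) 7 3465 rfl (by norm_num) (by rw [card_M22]; norm_num) (by decide)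
    hzg hz hsteps hrun (fun g hg h => eq_one_of_witness hwit hwit2 (M22_le hg) h) S

end Cfsg.Agent.S5168
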