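import Cfsg.Statements.S5170
import Cfsg.Agent.Lib.GolayMathieuFus
import Cfsg.Agent.Lib.GolayFusM24

set_option autoImplicit false
open Cfsg

namespace Cfsg.Agent.S5170

open Cfsg Cfsg.Agent.Lib.GolayCode Cfsg.Agent.Lib.GolayPerm Cfsg.Agent.Lib.GolayM12 Cfsg.Agent.Lib.GolayOrbit
  Cfsg.Agent.Lib.GolayFusionCert Cfsg.Agent.Lib.GolayMathieuFus Cfsg.Agent.Lib.GolayFusM24

/-- No condition on `M24`. -/
def m24P (_ : List ℕ) : Bool := true

theorem hpc : pcCheck sch = true := by decide +kernel
theorem hzg : isAut zz = true := by decide +kernel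
theorem hz : centerCheck sch zz = true := by decide +kernel
theorem hsteps : stepsCheck m24P sch steps [zz] = true := by decide +kernel
theorem hrun : treeRun ff t0 levels sch [allMask] = true := by decide +kernel
/-- The witness for the fixed points. -/
def wit : List ℕ := [11, 20, 18, 0, 2, 14, 22, 6, 10, 7, 19, 12, 15, 5, 1, 16, 23, 17, 8, 13, 4, 21, 3, 9]
theorem hwit : isAut wit = true := by decide +kernel
theorem hwit2 : allBelow (fun j => ff.testBit (img wit (Cfsg.Agent.Lib.GolayChain.bs j))) 7 = true := by decide +kernel

/-- The 2-fusion system of the Mathieu group M₂₄ (as the explicit permutation group of the 24 points preserving the binary Golay code) on a Sylow 2-subgroup is simple: saturated, over a nontrivial 2-group, with no normal subsystem other than the trivial one and itself. -/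
theorem result (S : Sylow 2 Cfsg.M24) : (Cfsg.groupFusionSystem (S : Subgroup Cfsg.M24)).IsSimple 2 := by
  have hP : ∀ t, isAut t = true → m24P t = true → toPerm t ∈ Cfsg.M24 := fun t ha _ => toPerm_mem_M24 ha
  exact isSimple_of_cert hP hpc (chainP_le hP hpc (by simp [m24P])) 10 239085 rfl (by norm_num)
    (by rw [Cfsg.Agent.Lib.GolayChain.card_M24]; norm_num) (by decide)
    hzg hz hsteps hrun (fun g hg h => eq_one_of_witness hwit hwit2 hg h) S

end Cfsg.Agent.S5170
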