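import Cfsg.Statements.S5344
import Mathlib

set_option autoImplicit false
open Cfsg

namespace Cfsg.Agent.S5344

def genPerm (x : Fin 3) : Equiv.Perm (Fin 4) :=
  match x with
  | 0 => Equiv.swap 0 1
  | 1 => Equiv.swap 1 2
  | 2 => Equiv.swap 2 3

def wordPerm : List (Fin 3) → Equiv.Perm (Fin 4)
  | [] => 1
  | x :: l => genPerm x * wordPerm l

def stepW : List (Fin 3) → List (Fin 3)
  | 0 :: 0 :: l => l
  | 1 :: 1 :: l => l
  | 2 :: 2 :: l => l
  | 2 :: 0 :: l => 0 :: 2 :: l
  | 1 :: 0 :: 1 :: l => 0 :: 1 :: 0 :: l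
  | 2 :: 1 :: 2 :: l => 1 :: 2 :: 1 :: l
  | 2 :: 1 :: 0 :: 2 :: l => 1 :: 2 :: 1 :: 0 :: l
  | x :: l => x :: stepW l
  | [] => []

def nfTable : List (List (Fin 3)) :=
  [[], [0], [1], [2], [0, 1], [0, 2], [1, 0], [1, 2], [2, 1], [0, 1, 0], [0, 1, 2], [0, 2, 1], [1, 0, 2], [1, 2, 1], [2, 1, 0], [0, 1, 0, 2], [0, 1, 2, 1], [0, 2, 1, 0], [1, 0, 2, 1], [1, 2, 1, 0], [0, 1, 0, 2, 1], [0, 1, 2, 1, 0], [1, 0, 2, 1, 0], [0, 1, 0, 2, 1, 0]]

def nfW (σ : Equiv.Perm (Fin 4)) : List (Fin 3) :=
  (nfTable.find? (fun w => decide (wordPerm w = σ))).getD []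

theorem nfW_one : nfW 1 = [] := by decide +kernel

theorem nfW_spec : ∀ σ : Equiv.Perm (Fin 4), wordPerm (nfW σ) = σ := by decide +kernel

theorem nfW_step : ∀ (x : Fin 3) (σ : Equiv.Perm (Fin 4)),
    stepW (stepW (stepW (stepW (stepW (stepW (x :: nfW σ)))))) = nfW (genPerm x * σ) := by decide +kernel

theorem kernel_check : ∀ σ : Equiv.Perm (Fin 4), σ ≠ 1 →
    ∃ τ₁ τ₂ : Equiv.Perm (Fin 4), τ₁ * σ * τ₁⁻¹ * (τ₂ * σ * τ₂⁻¹) = Equiv.swap 0 1 * Equiv.swap 2 3 := by
  decide +kernel

section
variable {G : Type*} [Group G] (a b c : G)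

def gen3 (x : Fin 3) : G :=
  match x with
  | 0 => a
  | 1 => b
  | 2 => c

def evW : List (Fin 3) → G
  | [] => 1
  | x :: l => gen3 a b c x * evW l

variable {a b c}

theorem evW_stepW (haa : a * a = 1) (hbb : b * b = 1) (hcc : c * c = 1) (hca : c * a = a * c)
    (hbab : b * a * b = a * b * a) (hcbc : c * b * c = b * c * b) :
    ∀ l : List (Fin 3), evW a b c (stepW l) = evW a b c l := by
  have haa' : ∀ x, a * (a * x) = x := fun x => by rw [← mul_assoc, haa, one_mul]
  have hbb' : ∀ x, b * (b * x) = x := fun x => by rw [← mul_assoc, hbb, one_mul]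
  have hcc' : ∀ x, c * (c * x) = x := fun x => by rw [← mul_assoc, hcc, one_mul]
  have hca' : ∀ x, c * (a * x) = a * (c * x) := fun x => by rw [← mul_assoc, hca, mul_assoc]
  have hbab' : ∀ x, b * (a * (b * x)) = a * (b * (a * x)) := fun x => by
    simp only [← mul_assoc, hbab]
  have hcbc' : ∀ x, c * (b * (c * x)) = b * (c * (b * x)) := fun x => by
    simp only [← mul_assoc, hcbc]
  intro l
  induction l using stepW.induct with
  | case1 l => simp only [stepW, evW, gen3, haa']
  | case2 l => simp only [stepW, evW, gen3, hbb']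
  | case3 l => simp only [stepW, evW, gen3, hcc']
  | case4 l => simp only [stepW, evW, gen3, hca']
  | case5 l => simp only [stepW, evW, gen3, hbab']
  | case6 l => simp only [stepW, evW, gen3, hcbc']
  | case7 l =>
    simp only [stepW, evW, gen3]
    rw [show c * (b * (a * (c * evW a b c l))) = c * (b * (c * (a * evW a b c l))) by rw [hca'], hcbc']
  | case8 x l h1 h2 h3 h4 h5 h6 h7 ih =>
    rw [stepW]
    · simp only [evW, ih]
    all_goals first | exact h1 | exact h2 | exact h3 | exact h4 | exact h5 | exact h6 | exact h7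
  | case9 => rfl

end

/-- In a set of 3-transpositions, let a, b, c be members with a and c different and commuting, while neither a nor c commutes with b (a 3-string). Then there is an injective homomorphism from the symmetric group of degree 4 into the ambient group sending the transpositions (0 1), (1 2), (2 3) to a, b, c; so a, b, c generate a copy of the symmetric group of degree 4 in which they are transpositions. -/
theorem result {G : Type*} [Group G] {D : Set G} (hD : Cfsg.IsThreeTranspositionSet D) {a b c : G} (ha : a ∈ D) (hb : b ∈ D) (hc : c ∈ D) (hac : a ≠ c) (hac' : Commute a c) (hab : ¬ Commute a b) (hbc : ¬ Commute b c) : ∃ φ : Equiv.Perm (Fin 4) →* G, Function.Injective φ ∧ φ (Equiv.swap 0 1) = a ∧ φ (Equiv.swap 1 2) = b ∧ φ (Equiv.swap 2 3) = c := by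
  have hinv2 : ∀ d ∈ D, d * d = 1 := by
    intro d hd
    have := pow_orderOf_eq_one d
    rw [hD.1 d hd, pow_two] at this
    exact this
  have haa := hinv2 a ha
  have hbb := hinv2 b hb
  have hcc := hinv2 c hc
  have haa' : ∀ x, a * (a * x) = x := fun x => by rw [← mul_assoc, haa, one_mul]
  have hbb' : ∀ x, b * (b * x) = x := fun x => by rw [← mul_assoc, hbb, one_mul]
  have hcc' : ∀ x, c * (c * x) = x := fun x => by rw [← mul_assoc, hcc, one_mul]
  have hbraid : ∀ u ∈ D, ∀ v ∈ D, ¬ Commute u v → u * v * u = v * u * v := by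
    intro u hu v hv huv
    have huu' : ∀ x, u * (u * x) = x := fun x => by rw [← mul_assoc, hinv2 u hu, one_mul]
    have hvv' : ∀ x, v * (v * x) = x := fun x => by rw [← mul_assoc, hinv2 v hv, one_mul]
    rcases hD.2 u hu v hv with h | h
    · exfalso
      apply huv
      show u * v = v * u
      have h3 : (u * v) * (u * v) = 1 := by rw [← pow_two]; exact h
      have h4 := eq_inv_of_mul_eq_one_left h3
      rwa [mul_inv_rev, inv_eq_of_mul_eq_one_left (hinv2 u hu), inv_eq_of_mul_eq_one_left (hinv2 v hv)] at h4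
    · -- u v u v u v = 1
      have h3 : u * v * u * (v * u * v) = 1 := by
        rw [← h]
        simp only [pow_succ, pow_zero, one_mul, mul_assoc]
      have h4 := eq_inv_of_mul_eq_one_left h3
      rw [h4]
      simp only [mul_inv_rev, inv_eq_of_mul_eq_one_left (hinv2 u hu), inv_eq_of_mul_eq_one_left (hinv2 v hv), mul_assoc]
  have hbab : b * a * b = a * b * a := hbraid b hb a ha (fun h => hab h.symm)
  have hcbc : c * b * c = b * c * b := hbraid c hc b hb (fun h => hbc h.symm)
  have hca : c * a = a * c := hac'.symm.eq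
  have hstep := evW_stepW (a := a) (b := b) (c := c) haa hbb hcc hca hbab hcbc
  -- the map
  let f : Equiv.Perm (Fin 4) → G := fun σ => evW a b c (nfW σ)
  have hf1 : ∀ (x : Fin 3) (σ), f (genPerm x * σ) = gen3 a b c x * f σ := by
    intro x σ
    show evW a b c (nfW _) = _
    rw [← nfW_step, hstep, hstep, hstep, hstep, hstep, hstep]
    rfl
  have hmul : ∀ (w : List (Fin 3)) (τ : Equiv.Perm (Fin 4)), f (wordPerm w * τ) = f (wordPerm w) * f τ := by
    intro w τ
    have h1 : f 1 = 1 := by
      show evW a b c (nfW 1) = 1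
      rw [nfW_one]
      rfl
    induction w with
    | nil =>
      show f (1 * τ) = f 1 * f τ
      rw [one_mul, h1, one_mul]
    | cons x w ih =>
      show f ((genPerm x * wordPerm w) * τ) = f (genPerm x * wordPerm w) * f τ
      rw [mul_assoc, hf1, hf1, ih, mul_assoc]
  let φ : Equiv.Perm (Fin 4) →* G := MonoidHom.mk' f (by
    intro σ τ
    have := hmul (nfW σ) τ
    rwa [nfW_spec] at this)
  have hφ0 : φ (Equiv.swap 0 1) = a := by
    have := hf1 0 1
    rw [mul_one] at this
    have h1 : f 1 = 1 := by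
      show evW a b c (nfW 1) = 1
      rw [nfW_one]
      rfl
    rw [h1, mul_one] at this
    exact this
  have hφ1 : φ (Equiv.swap 1 2) = b := by
    have := hf1 1 1
    rw [mul_one] at this
    have h1 : f 1 = 1 := by
      show evW a b c (nfW 1) = 1
      rw [nfW_one]
      rfl
    rw [h1, mul_one] at this
    exact this
  have hφ2 : φ (Equiv.swap 2 3) = c := by
    have := hf1 2 1
    rw [mul_one] at this
    have h1 : f 1 = 1 := by
      show evW a b c (nfW 1) = 1
      rw [nfW_one]
      rfl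
    rw [h1, mul_one] at this
    exact this
  refine ⟨φ, ?_, hφ0, hφ1, hφ2⟩
  rw [injective_iff_map_eq_one]
  intro σ hσ
  by_contra hne
  obtain ⟨τ₁, τ₂, h⟩ := kernel_check σ hne
  have h2 : φ (Equiv.swap 0 1 * Equiv.swap 2 3) = 1 := by
    rw [← h]
    simp only [map_mul, map_inv, hσ, mul_one, one_mul, mul_inv_cancel]
  rw [map_mul, hφ0, hφ2] at h2
  apply hac
  have := inv_eq_of_mul_eq_one_right h2
  rw [inv_eq_of_mul_eq_one_left haa] at this
  exact this

end Cfsg.Agent.S5344
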