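import Cfsg.Statements.S5345
import Mathlib

set_option autoImplicit false
open Cfsg

namespace Cfsg.Agent.S5345

theorem commute_of_closure_comm {G : Type*} [Group G] {E : Set G} (hE : ∀ a ∈ E, ∀ b ∈ E, Commute a b) :
    ∀ x ∈ Subgroup.closure E, ∀ y ∈ Subgroup.closure E, Commute x y := by
  intro x hx y hy
  have h1 : Subgroup.closure E ≤ Subgroup.centralizer (Subgroup.closure E : Set G) := by
    rw [Subgroup.closure_le]
    intro a ha
    show a ∈ Subgroup.centralizer (Subgroup.closure E : Set G)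
    rw [Subgroup.mem_centralizer_iff]
    intro z hz
    have h2 : Subgroup.closure E ≤ Subgroup.centralizer {a} := by
      rw [Subgroup.closure_le]
      intro b hb
      rw [SetLike.mem_coe, Subgroup.mem_centralizer_iff]
      intro c hc
      have hca : c = a := hc
      rw [hca]
      exact (hE a ha b hb).eq
    have := h2 hz
    rw [Subgroup.mem_centralizer_iff] at this
    exact (this a rfl).symm
  have := h1 hx
  rw [Subgroup.mem_centralizer_iff] at this
  exact (this y hy).symm

theorem sq_eq_one_of_closure {G : Type*} [Group G] {E : Set G} (hE : ∀ a ∈ E, ∀ b ∈ E, Commute a b)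
    (hE2 : ∀ a ∈ E, a ^ 2 = 1) : ∀ x ∈ Subgroup.closure E, x ^ 2 = 1 := by
  intro x hx
  induction hx using Subgroup.closure_induction with
  | mem x hx => exact hE2 x hx
  | one => simp
  | mul x y hx hy ihx ihy =>
    rw [(commute_of_closure_comm hE x hx y hy).mul_pow, ihx, ihy, one_mul]
  | inv x hx ih => rw [inv_pow, ih, inv_one]

/-- Let D be a conjugation-invariant generating set of 3-transpositions of a finite group G and T a Sylow 2-subgroup of G. Then the members of D lying in T generate an abelian subgroup, and their number is the width of D (the largest number of pairwise commuting members of D). -/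
theorem result {G : Type*} [Group G] [Finite G] {D : Set G} (hD : Cfsg.IsThreeTranspositionGroup D) (T : Sylow 2 G) : IsMulCommutative (Subgroup.closure {d : G | d ∈ D ∧ d ∈ T}) ∧ {d : G | d ∈ D ∧ d ∈ T}.ncard = Cfsg.commutingWidth D := by
  open scoped Pointwise in
  have hinv2 : ∀ d ∈ D, d ^ 2 = 1 := by
    intro d hd
    rw [← hD.1.1 d hd]
    exact pow_orderOf_eq_one d
  -- two members of `D` in a 2-subgroup commute
  have hcomm2 : ∀ (P : Subgroup G), IsPGroup 2 P → ∀ a ∈ D, a ∈ P → ∀ b ∈ D, b ∈ P → Commute a b := by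
    intro P hP a ha haP b hb hbP
    have hab : a * b ∈ P := P.mul_mem haP hbP
    obtain ⟨k, hk⟩ := hP ⟨_, hab⟩
    have hk' : (a * b) ^ 2 ^ k = 1 := by
      have := congrArg Subtype.val hk
      simpa using this
    have h2 : (a * b) ^ 2 = 1 := by
      rcases hD.1.2 a ha b hb with h | h
      · exact h
      · have h1 : orderOf (a * b) ∣ 1 := by
          have := Nat.dvd_gcd (orderOf_dvd_of_pow_eq_one hk') (orderOf_dvd_of_pow_eq_one h)
          have h3 : Nat.Coprime (2 ^ k) 3 := Nat.Coprime.pow_left k (by norm_num)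
          rwa [h3.gcd_eq_one] at this
        rw [orderOf_eq_one_iff.mp (Nat.dvd_one.mp h1), one_pow]
    have hai : a⁻¹ = a := by
      apply inv_eq_of_mul_eq_one_left
      rw [← pow_two]; exact hinv2 a ha
    have hbi : b⁻¹ = b := by
      apply inv_eq_of_mul_eq_one_left
      rw [← pow_two]; exact hinv2 b hb
    show a * b = b * a
    have h3 : (a * b) * (a * b) = 1 := by rw [← pow_two]; exact h2
    have h4 := eq_inv_of_mul_eq_one_left h3
    rwa [mul_inv_rev, hai, hbi] at h4
  have hT : IsPGroup 2 (T : Subgroup G) := T.isPGroup'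
  set E₀ : Set G := {d : G | d ∈ D ∧ d ∈ T} with hE₀
  have hE₀c : ∀ a ∈ E₀, ∀ b ∈ E₀, Commute a b := fun a ha b hb =>
    hcomm2 T hT a ha.1 ha.2 b hb.1 hb.2
  refine ⟨⟨⟨?_⟩⟩, ?_⟩
  · rintro ⟨x, hx⟩ ⟨y, hy⟩
    exact Subtype.ext (commute_of_closure_comm hE₀c x hx y hy).eq
  -- the width
  have hfin : E₀.Finite := Set.toFinite _
  unfold Cfsg.commutingWidth
  have hub : ∀ n ∈ {n : ℕ | ∃ E : Set G, E ⊆ D ∧ E.Finite ∧ (∀ a ∈ E, ∀ b ∈ E, Commute a b) ∧ E.ncard = n}, n ≤ E₀.ncard := by
    rintro n ⟨E, hED, -, hEc, rfl⟩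
    have hA : IsPGroup 2 (Subgroup.closure E) := by
      intro x
      refine ⟨1, Subtype.ext ?_⟩
      have := sq_eq_one_of_closure hEc (fun a ha => hinv2 a (hED ha)) x x.2
      simpa using this
    obtain ⟨Q, hQ⟩ := hA.exists_le_sylow
    obtain ⟨g, hg⟩ := MulAction.exists_smul_eq G Q T
    have hinj : Function.Injective (fun x : G => g * x * g⁻¹) := fun x y h => by
      simpa using h
    rw [← Set.ncard_image_of_injective E hinj]
    apply Set.ncard_le_ncard _ hfin
    rintro _ ⟨e, he, rfl⟩
    refine ⟨hD.2.1 g e (hED he), ?_⟩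
    have h1 : e ∈ (Q : Subgroup G) := hQ (Subgroup.subset_closure he)
    have h2 : (MulAut.conj g) • e ∈ (MulAut.conj g) • (Q : Subgroup G) :=
      Subgroup.smul_mem_pointwise_smul _ _ _ h1
    rw [← hg]
    exact h2
  apply le_antisymm
  · apply le_csSup ⟨_, hub⟩
    exact ⟨E₀, fun x hx => hx.1, hfin, hE₀c, rfl⟩
  · apply csSup_le'
    exact hub

end Cfsg.Agent.S5345
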