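import Cfsg.Statements.S5346
import Cfsg.Agent.Lib.ZStarThree
import Cfsg.Agent.Lib.PCore
-- import your own Cfsg.Agent.* helpers here

set_option autoImplicit false
open Cfsg

namespace Cfsg.Agent.S5346

/-- Let D be a conjugation-invariant generating set of 3-transpositions of a finite group G and d a member of D. Then D has width 1 (no two different members of D commute) if and only if G is the product of the subgroup generated by d with the largest normal 3-subgroup of G. -/
theorem result {G : Type*} [Group G] [Finite G] {D : Set G} (hD : Cfsg.IsThreeTranspositionGroup D) {d : G} (hd : d ∈ D) : Cfsg.commutingWidth D = 1 ↔ Subgroup.zpowers d ⊔ Cfsg.pCore 3 G = ⊤ := by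
  classical
  haveI : Fact (Nat.Prime 3) := ⟨Nat.prime_three⟩
  obtain ⟨⟨hord, hpr⟩, hcj, hgen⟩ := hD
  have hsq : ∀ a ∈ D, a * a = 1 := fun a ha => by
    rw [← pow_two, ← hord a ha]
    exact pow_orderOf_eq_one a
  have hone : ∀ a ∈ D, a ≠ 1 := fun a ha e => by
    have := hord a ha
    rw [e, orderOf_one] at this
    omega
  have hdd := hsq d hd
  set S : Set ℕ := {n | ∃ E : Set G, E ⊆ D ∧ E.Finite ∧ (∀ a ∈ E, ∀ b ∈ E, Commute a b) ∧ E.ncard = n} with hS
  have hwd : Cfsg.commutingWidth D = sSup S := rfl
  have hbdd : BddAbove S := by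
    refine ⟨Nat.card G, ?_⟩
    rintro n ⟨E, -, -, -, rfl⟩
    have := Set.ncard_le_ncard (Set.subset_univ E) Set.finite_univ
    rwa [Set.ncard_univ] at this
  have h1S : 1 ∈ S := ⟨{d}, by simpa using hd, Set.finite_singleton d, by
    intro a ha b hb
    rw [Set.mem_singleton_iff.mp ha, Set.mem_singleton_iff.mp hb], Set.ncard_singleton d⟩
  constructor
  · intro h1
    have hnc : ∀ a ∈ D, ∀ b ∈ D, a ≠ b → ¬ Commute a b := by
      intro a ha b hb hab hc
      have h2 : 2 ∈ S := by
        refine ⟨{a, b}, ?_, Set.toFinite _, ?_, Set.ncard_pair hab⟩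
        · intro x hx
          rcases hx with rfl | rfl
          · exact ha
          · exact hb
        · intro x hx y hy
          rcases hx with rfl | rfl <;> rcases hy with rfl | rfl
          · exact Commute.refl _
          · exact hc
          · exact hc.symm
          · exact Commute.refl _
      have h3 := le_csSup hbdd h2
      rw [← hwd, h1] at h3
      omega
    have hcom : ∀ a ∈ D, ∀ b ∈ D, (a * b) ^ 2 = 1 → Commute a b := by
      intro a ha b hb h
      have h1 := hsq a ha
      have h2 := hsq b hb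
      have hai : a⁻¹ = a := inv_eq_of_mul_eq_one_left h1
      have hbi : b⁻¹ = b := inv_eq_of_mul_eq_one_left h2
      rw [pow_two] at h
      have h3 : (a * b)⁻¹ = a * b := inv_eq_of_mul_eq_one_left h
      rw [mul_inv_rev, hai, hbi] at h3
      exact h3.symm
    have h3 : ∀ a ∈ D, ∀ b ∈ D, a ≠ b → orderOf (a * b) = 3 := by
      intro a ha b hb hab
      rcases hpr a ha b hb with h | h
      · exact absurd (hcom a ha b hb h) (hnc a ha b hb hab)
      · refine orderOf_eq_prime h ?_
        intro e
        apply hab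
        have := eq_inv_of_mul_eq_one_left e
        rwa [inv_eq_of_mul_eq_one_left (hsq b hb)] at this
    have hDc : ∀ a ∈ D, a ∈ conjugatesOf d := by
      intro a ha
      by_cases hda : d = a
      · rw [← hda]
        exact mem_conjugatesOf_self
      · have h4 : Odd (orderOf (d * a)) := by
          rw [h3 d hd a ha hda]
          decide
        obtain ⟨l, hl⟩ := Cfsg.Agent.Lib.ZStarThree.conj_odd hdd (hsq a ha) h4
        exact isConj_iff.mpr ⟨_, hl⟩
    have hcD : ∀ b ∈ conjugatesOf d, b ∈ D := by
      intro b hb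
      obtain ⟨g, rfl⟩ := isConj_iff.mp hb
      exact hcj g d hd
    have hprod : ∀ a ∈ conjugatesOf d, ∀ b ∈ conjugatesOf d, ∃ k : ℕ, orderOf (a * b) = 3 ^ k := by
      intro a ha b hb
      by_cases hab : a = b
      · refine ⟨0, ?_⟩
        rw [hab, hsq b (hcD b hb), orderOf_one, pow_zero]
      · exact ⟨1, by rw [pow_one]; exact h3 a (hcD a ha) b (hcD b hb) hab⟩
    have hcore := Cfsg.Agent.Lib.ZStarThree.main d (hord d hd) hprod
    rw [eq_top_iff, ← hgen, Subgroup.closure_le]
    intro a ha
    have h5 : a * d ∈ Cfsg.pCore 3 G := hcore a (hDc a ha) d mem_conjugatesOf_self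
    have e : a = (a * d) * d := by rw [mul_assoc, hdd, mul_one]
    rw [SetLike.mem_coe, e]
    exact Subgroup.mul_mem _ (Subgroup.mem_sup_right h5) (Subgroup.mem_sup_left (Subgroup.mem_zpowers d))
  · intro h
    have hPp := Cfsg.Agent.Lib.PCore.isPGroup_pCore 3 G
    have hP2 : ∀ x ∈ Cfsg.pCore 3 G, x * x = 1 → x = 1 := by
      intro x hx hxx
      obtain ⟨k, hk⟩ := IsPGroup.iff_orderOf.mp hPp ⟨x, hx⟩
      have h1 : orderOf x = 3 ^ k := by
        rw [← hk]
        exact (Subgroup.orderOf_mk x hx).symm
      have h2 : orderOf x ∣ 2 := orderOf_dvd_of_pow_eq_one (by rw [pow_two]; exact hxx)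
      rw [h1] at h2
      have h3 : k = 0 := by
        by_contra hk0
        have h4 : 3 ∣ 2 := (dvd_pow_self 3 hk0).trans h2
        omega
      rw [h3, pow_zero, orderOf_eq_one_iff] at h1
      exact h1
    have hform : ∀ g : G, g ∈ Cfsg.pCore 3 G ∨ d * g ∈ Cfsg.pCore 3 G := by
      intro g
      have hg : g ∈ Subgroup.zpowers d ⊔ Cfsg.pCore 3 G := by
        rw [h]
        trivial
      haveI := Cfsg.Agent.Lib.PCore.pCore_normal 3 G
      have hg' : g ∈ ((Subgroup.zpowers d ⊔ Cfsg.pCore 3 G : Subgroup G) : Set G) := hg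
      rw [Subgroup.mul_normal] at hg'
      obtain ⟨x, ⟨k, rfl⟩, p, hp, rfl⟩ := hg'
      have hd2 : d ^ (2 : ℤ) = 1 := by
        rw [show (2 : ℤ) = ((2 : ℕ) : ℤ) by rfl, zpow_natCast, pow_two, hdd]
      rcases Int.even_or_odd k with hk | hk
      · left
        obtain ⟨l, rfl⟩ := hk
        show d ^ (l + l) * p ∈ _
        rw [← two_mul, zpow_mul, hd2, one_zpow, one_mul]
        exact hp
      · right
        obtain ⟨l, rfl⟩ := hk
        show d * (d ^ (2 * l + 1) * p) ∈ _
        rw [zpow_add, zpow_mul, hd2, one_zpow, one_mul, zpow_one, ← mul_assoc, hdd, one_mul]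
        exact hp
    have hDP : ∀ a ∈ D, d * a ∈ Cfsg.pCore 3 G := by
      intro a ha
      rcases hform a with h1 | h1
      · exact absurd (hP2 a h1 (hsq a ha)) (hone a ha)
      · exact h1
    have huniq : ∀ a ∈ D, ∀ b ∈ D, Commute a b → a = b := by
      intro a ha b hb hc
      have h1 := hDP a ha
      have h2 := hDP b hb
      have h3 : a * b ∈ Cfsg.pCore 3 G := by
        have h4 := (Cfsg.pCore 3 G).inv_mem h1
        have h5 : (d * a)⁻¹ * (d * b) = a * b := by
          rw [mul_inv_rev, inv_eq_of_mul_eq_one_left (hsq a ha), inv_eq_of_mul_eq_one_left hdd]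
          calc a * d * (d * b) = a * (d * d) * b := by group
            _ = a * b := by rw [hdd, mul_one]
        rw [← h5]
        exact (Cfsg.pCore 3 G).mul_mem h4 h2
      have h6 : (a * b) * (a * b) = 1 := by
        calc (a * b) * (a * b) = a * (b * a) * b := by group
          _ = a * (a * b) * b := by rw [hc.eq]
          _ = (a * a) * (b * b) := by group
          _ = 1 := by rw [hsq a ha, hsq b hb, one_mul]
      have h7 := hP2 _ h3 h6
      have := eq_inv_of_mul_eq_one_left h7
      rwa [inv_eq_of_mul_eq_one_left (hsq b hb)] at this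
    rw [hwd]
    refine IsGreatest.csSup_eq ⟨h1S, ?_⟩
    rintro n ⟨E, hED, hEf, hEc, rfl⟩
    rw [Set.ncard_le_one hEf]
    intro a ha b hb
    exact huniq a (hED ha) b (hED hb) (hEc a ha b hb)

end Cfsg.Agent.S5346
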