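import Cfsg.Statements.S5347
import Mathlib

set_option autoImplicit false
open Cfsg

namespace Cfsg.Agent.S5347


/-- Let D be a conjugation-invariant generating set of 3-transpositions of a finite group G, p a prime bigger than 3, and P a p-subgroup of G. If a member d of D normalizes P then d centralizes P. -/
theorem result {G : Type*} [Group G] [Finite G] {D : Set G} (hD : Cfsg.IsThreeTranspositionGroup D) {p : ℕ} (hp : p.Prime) (hp3 : 3 < p) (P : Subgroup G) (hP : IsPGroup p P) {d : G} (hd : d ∈ D) (hnorm : d ∈ Subgroup.normalizer (P : Set G)) : ∀ x ∈ P, Commute d x := by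
  intro x hx
  have hd2 : d * d = 1 := by
    have := pow_orderOf_eq_one d
    rw [hD.1.1 d hd, pow_two] at this
    exact this
  have hdi : d⁻¹ = d := inv_eq_of_mul_eq_one_left hd2
  have he : x * d * x⁻¹ ∈ D := hD.2.1 x d hd
  have hprod := hD.1.2 d hd _ he
  have hw : d * (x * d * x⁻¹) ∈ P := by
    have h1 : d * x * d⁻¹ ∈ P := (Subgroup.mem_normalizer_iff.mp hnorm x).mp hx
    have h2 : d * (x * d * x⁻¹) = (d * x * d⁻¹) * x⁻¹ := by rw [hdi]; group
    rw [h2]
    exact P.mul_mem h1 (P.inv_mem hx)
  obtain ⟨k, hk⟩ := hP ⟨_, hw⟩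
  have hk' : (d * (x * d * x⁻¹)) ^ p ^ k = 1 := by
    have := congrArg Subtype.val hk
    simpa using this
  have hone : d * (x * d * x⁻¹) = 1 := by
    have hdvd : orderOf (d * (x * d * x⁻¹)) ∣ p ^ k := orderOf_dvd_of_pow_eq_one hk'
    have hp2 : Nat.Coprime p 2 := (Nat.coprime_primes hp Nat.prime_two).mpr (by omega)
    have hp3' : Nat.Coprime p 3 := (Nat.coprime_primes hp Nat.prime_three).mpr (by omega)
    rcases hprod with h | h
    · have h2 := orderOf_dvd_of_pow_eq_one h
      have : orderOf (d * (x * d * x⁻¹)) ∣ 1 := by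
        have hc : Nat.Coprime (p ^ k) 2 := Nat.Coprime.pow_left k hp2
        have := Nat.dvd_gcd hdvd h2
        rwa [hc.gcd_eq_one] at this
      exact orderOf_eq_one_iff.mp (Nat.dvd_one.mp this)
    · have h2 := orderOf_dvd_of_pow_eq_one h
      have : orderOf (d * (x * d * x⁻¹)) ∣ 1 := by
        have hc : Nat.Coprime (p ^ k) 3 := Nat.Coprime.pow_left k hp3'
        have := Nat.dvd_gcd hdvd h2
        rwa [hc.gcd_eq_one] at this
      exact orderOf_eq_one_iff.mp (Nat.dvd_one.mp this)
  have : d * x * d = x := by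
    have h3 : d * x * d * x⁻¹ = 1 := by rw [← hone]; group
    exact mul_inv_eq_one.mp h3
  show d * x = x * d
  calc d * x = d * x * d * d := by rw [mul_assoc (d * x), hd2, mul_one]
    _ = x * d := by rw [this]

end Cfsg.Agent.S5347
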