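import Cfsg.Statements.S5348
import Mathlib

set_option autoImplicit false
open Cfsg

namespace Cfsg.Agent.S5348


/-- Let D be a conjugation-invariant generating set of 3-transpositions of a finite group G and d a member of D. Let V be the set of members of D commuting with exactly the same members of D as d, and W the set of members w of D such that the members of D other than w commuting with w are precisely the members of D other than d commuting with d. Then V = {d} or W = {d}. -/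
theorem result {G : Type*} [Group G] [Finite G] {D : Set G} (hD : Cfsg.IsThreeTranspositionGroup D) {d : G} (hd : d ∈ D) : {v : G | v ∈ D ∧ ∀ e ∈ D, Commute v e ↔ Commute d e} = {d} ∨ {w : G | w ∈ D ∧ {y : G | y ∈ D ∧ y ≠ d ∧ Commute d y} = {y : G | y ∈ D ∧ y ≠ w ∧ Commute w y}} = {d} := by
  by_contra hcon
  simp only [not_or] at hcon
  obtain ⟨h1, h2⟩ := hcon
  have hdV : d ∈ {v : G | v ∈ D ∧ ∀ e ∈ D, Commute v e ↔ Commute d e} := ⟨hd, fun _ _ => Iff.rfl⟩
  have hdW : d ∈ {w : G | w ∈ D ∧ {y : G | y ∈ D ∧ y ≠ d ∧ Commute d y} = {y : G | y ∈ D ∧ y ≠ w ∧ Commute w y}} := ⟨hd, rfl⟩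
  obtain ⟨v, hv, hvd⟩ : ∃ v ∈ {v : G | v ∈ D ∧ ∀ e ∈ D, Commute v e ↔ Commute d e}, v ≠ d := by
    by_contra h
    simp only [not_exists, not_and, not_not] at h
    exact h1 (Set.eq_singleton_iff_unique_mem.mpr ⟨hdV, h⟩)
  obtain ⟨w, hw, hwd⟩ : ∃ w ∈ {w : G | w ∈ D ∧ {y : G | y ∈ D ∧ y ≠ d ∧ Commute d y} = {y : G | y ∈ D ∧ y ≠ w ∧ Commute w y}}, w ≠ d := by
    by_contra h
    simp only [not_exists, not_and, not_not] at h
    exact h2 (Set.eq_singleton_iff_unique_mem.mpr ⟨hdW, h⟩)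
  -- `v` commutes with `d`
  have hvd' : Commute d v := ((hv.2 d hd).mpr (Commute.refl d)).symm
  -- `d` does not commute with `w`
  have hdw : ¬ Commute d w := by
    intro hc
    have : w ∈ {y : G | y ∈ D ∧ y ≠ d ∧ Commute d y} := ⟨hw.1, hwd, hc⟩
    rw [hw.2] at this
    exact this.2.1 rfl
  have hvw : ¬ Commute v w := fun hc => hdw ((hv.2 w hw.1).mp hc)
  have : v ∈ {y : G | y ∈ D ∧ y ≠ d ∧ Commute d y} := ⟨hv.1, hvd, hvd'⟩
  rw [hw.2] at this
  exact hvw this.2.2.symm

end Cfsg.Agent.S5348
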