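import Cfsg.Statements.S5349
import Mathlib
import Cfsg.Agent.Lib.ThreeTrans
import Cfsg.Agent.Lib.BaerSuzuki
import Cfsg.Agent.Lib.PCore

set_option autoImplicit false
open Cfsg

namespace Cfsg.Agent.S5349

open Cfsg.Agent.Lib.ThreeTrans

section Core
variable {G : Type*} [Group G]

/-- the `S₄` computation: `c` commutes with its conjugate under `ab`. -/
theorem s4_comm {a b c : G} (ha : a * a = 1) (hb : b * b = 1) (hc : c * c = 1) (hab : a * b = b * a)
    (hac : c * a * c = a * c * a) (hbc : c * b * c = b * c * b) :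
    Commute c (a * b * c * (a * b)⁻¹) := by
  have hai : a⁻¹ = a := inv_eq ha
  have hbi : b⁻¹ = b := inv_eq hb
  have hx : a * b * c * (a * b)⁻¹ = a * (c * b * c) * a := by
    rw [mul_inv_rev, hai, hbi, hbc]
    simp only [mul_assoc]
  have h1 : c * (a * b * c * (a * b)⁻¹) * c = a * b * c * (a * b)⁻¹ := by
    rw [hx]
    have haba : a * b * a = b := by
      rw [hab, mul_assoc, ha, mul_one]
    calc c * (a * (c * b * c) * a) * c = (c * a * c) * b * (c * a * c) := by simp only [mul_assoc]
      _ = (a * c * a) * b * (a * c * a) := by rw [hac]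
      _ = a * c * (a * b * a) * c * a := by simp only [mul_assoc]
      _ = a * (c * b * c) * a := by rw [haba]; simp only [mul_assoc]
  show c * _ = _ * c
  calc c * (a * b * c * (a * b)⁻¹) = c * (a * b * c * (a * b)⁻¹) * (c * c) := by rw [hc, mul_one]
    _ = (c * (a * b * c * (a * b)⁻¹) * c) * c := by simp only [mul_assoc]
    _ = _ := by rw [h1]

theorem s4_conj {d v e : G} (hd : d * d = 1) (hv : v * v = 1) (he : e * e = 1) (hdv : d * v = v * d)
    (hde : e * d * e = d * e * d) (hve : e * v * e = v * e * v) :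
    (e * (d * v) * e⁻¹ * (d * v)⁻¹) * d * (e * (d * v) * e⁻¹ * (d * v)⁻¹)⁻¹ = v := by
  have A : ∀ x, e * (d * (e * x)) = d * (e * (d * x)) := fun x => by
    have := congrArg (· * x) hde
    simpa only [mul_assoc] using this
  have B : ∀ x, e * (v * (e * x)) = v * (e * (v * x)) := fun x => by
    have := congrArg (· * x) hve
    simpa only [mul_assoc] using this
  have C : ∀ x, d * (v * x) = v * (d * x) := fun x => by
    have := congrArg (· * x) hdv
    simpa only [mul_assoc] using this
  have D : ∀ x, d * (d * x) = x := fun x => by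
    rw [← mul_assoc, hd, one_mul]
  have hei : e⁻¹ = e := inv_eq he
  have hdi : d⁻¹ = d := inv_eq hd
  have hvi : v⁻¹ = v := inv_eq hv
  have hg : e * (d * v) * e⁻¹ * (d * v)⁻¹ = e * (d * (v * (e * (v * d)))) := by
    rw [mul_inv_rev, hei, hdi, hvi]
    simp only [mul_assoc]
  rw [hg]
  rw [mul_inv_eq_iff_eq_mul]
  -- g d = v g
  have L : e * (d * (v * (e * (v * d)))) * d = e * (v * (d * (e * v))) := by
    calc e * (d * (v * (e * (v * d)))) * d = e * (d * (v * (e * (v * (d * d))))) := by simp only [mul_assoc]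
      _ = e * (d * (v * (e * v))) := by rw [hd, mul_one]
      _ = e * (v * (d * (e * v))) := by rw [C]
  have R : v * (e * (d * (v * (e * (v * d))))) = e * (v * (d * (e * v))) := by
    calc v * (e * (d * (v * (e * (v * d))))) = v * (e * (v * (d * (e * (v * d))))) := by rw [C]
      _ = e * (v * (e * (d * (e * (v * d))))) := by rw [B]
      _ = e * (v * (d * (e * (d * (v * d))))) := by rw [A]
      _ = e * (v * (d * (e * (v * (d * d))))) := by rw [C]
      _ = e * (v * (d * (e * v))) := by rw [hd, mul_one]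
  rw [L, R]

theorem isPGroup_zpowers_invol {x : G} (hx : x * x = 1) : IsPGroup 2 ↥(Subgroup.zpowers x) := by
  rintro ⟨y, hy⟩
  obtain ⟨n, rfl⟩ := Subgroup.mem_zpowers_iff.mp hy
  refine ⟨1, Subtype.ext ?_⟩
  show (x ^ n) ^ (2 ^ 1) = 1
  rw [pow_one, ← zpow_natCast, ← zpow_mul, mul_comm, zpow_mul, zpow_natCast, pow_two, hx, one_zpow]

theorem norm_of_conj_le {H : Subgroup G} {u : G} (hu : u * u = 1) (h : ∀ x ∈ H, u * x * u⁻¹ ∈ H) :
    u ∈ Subgroup.normalizer (H : Set G) := by
  rw [Subgroup.mem_normalizer_iff]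
  intro x
  refine ⟨h x, fun hx => ?_⟩
  have h1 := h _ hx
  have hui : u⁻¹ = u := inv_eq hu
  rw [hui] at h1
  have h2 : u * (u * x * u) * u = x := by
    calc u * (u * x * u) * u = (u * u) * x * (u * u) := by simp only [mul_assoc]
      _ = x := by rw [hu, one_mul, mul_one]
  rwa [h2] at h1

theorem two_group_of {t t' : G} (ht : t * t = 1) (ht' : t' * t' = 1) (hc : Commute t' (t * t' * t⁻¹)) :
    IsPGroup 2 ↥(Subgroup.zpowers t ⊔ Subgroup.zpowers t') := by
  haveI : Fact (Nat.Prime 2) := ⟨Nat.prime_two⟩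
  have hti : t⁻¹ = t := inv_eq ht
  set s := t * t' * t⁻¹ with hs
  have hss : s * s = 1 := by
    rw [hs, hti]
    calc t * t' * t * (t * t' * t) = t * t' * (t * t) * t' * t := by simp only [mul_assoc]
      _ = 1 := by rw [ht, mul_one, mul_assoc t, ht', mul_one, ht]
  let K := Subgroup.zpowers t' ⊔ Subgroup.zpowers s
  have hK : IsPGroup 2 ↥K := by
    refine IsPGroup.to_sup_of_normal_right' (isPGroup_zpowers_invol ht') (isPGroup_zpowers_invol hss) ?_
    rw [Subgroup.zpowers_le]
    apply norm_of_conj_le ht'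
    intro x hx
    obtain ⟨n, rfl⟩ := Subgroup.mem_zpowers_iff.mp hx
    have : Commute t' (s ^ n) := hc.zpow_right n
    rw [this.eq, mul_inv_cancel_right]
    exact hx
  have hK2 : IsPGroup 2 ↥(Subgroup.zpowers t ⊔ K) := by
    refine IsPGroup.to_sup_of_normal_right' (isPGroup_zpowers_invol ht) hK ?_
    rw [Subgroup.zpowers_le]
    apply norm_of_conj_le ht
    have hle : K ≤ K.comap (MulAut.conj t).toMonoidHom := by
      refine sup_le ?_ ?_
      · rw [Subgroup.zpowers_le]
        show t * t' * t⁻¹ ∈ K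
        exact (le_sup_right : Subgroup.zpowers s ≤ K) (Subgroup.mem_zpowers s)
      · rw [Subgroup.zpowers_le]
        show t * s * t⁻¹ ∈ K
        have : t * s * t⁻¹ = t' := by
          rw [hs, hti]
          calc t * (t * t' * t) * t = (t * t) * t' * (t * t) := by simp only [mul_assoc]
            _ = t' := by rw [ht, one_mul, mul_one]
        rw [this]
        exact (le_sup_left : Subgroup.zpowers t' ≤ K) (Subgroup.mem_zpowers t')
    intro x hx
    exact hle hx
  exact hK2.to_le (sup_le_sup_left le_sup_left _)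

theorem comm_conj_iff (g x y : G) : Commute (g * x * g⁻¹) y ↔ Commute x (g⁻¹ * y * g) := by
  constructor
  · intro h
    have := h.map (MulAut.conj g⁻¹).toMonoidHom
    simpa [mul_assoc] using this
  · intro h
    have := h.map (MulAut.conj g).toMonoidHom
    simpa [mul_assoc] using this

variable {D : Set G}

/-- `b` has the same commuting partners in `D` as `a`. -/
def SameC (D : Set G) (a b : G) : Prop := ∀ e ∈ D, Commute b e ↔ Commute a e

theorem sameC_conj (hconj : ∀ g : G, ∀ d ∈ D, g * d * g⁻¹ ∈ D) {a b : G} (h : SameC D a b) (g : G) :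
    SameC D (g * a * g⁻¹) (g * b * g⁻¹) := by
  intro e he
  have he' : g⁻¹ * e * g ∈ D := by
    have := hconj g⁻¹ e he
    simpa using this
  rw [comm_conj_iff, comm_conj_iff]
  exact h _ he'

theorem core_comm (hT : IsThreeTranspositionSet D) (hconj : ∀ g : G, ∀ d ∈ D, g * d * g⁻¹ ∈ D)
    {a b a' b' : G} (ha : a ∈ D) (hb : b ∈ D) (ha' : a' ∈ D) (hb' : b' ∈ D)
    (hab : SameC D a b) (hab' : SameC D a' b') :
    Commute (a' * b') ((a * b) * (a' * b') * (a * b)⁻¹) := by
  have haa := sq_eq (hT.1 a ha)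
  have hbb := sq_eq (hT.1 b hb)
  have haa' := sq_eq (hT.1 a' ha')
  have hc1 : Commute a b := ((hab a ha).mpr (Commute.refl a)).symm
  by_cases hcom : Commute a' a
  · have h1 : Commute a' b := by
      have : Commute a a' := hcom.symm
      exact ((hab a' ha').mpr this).symm
    have h2 : Commute b' a := (hab' a ha).mpr hcom
    have h3 : Commute b' b := (hab' b hb).mpr h1
    have h4 : Commute (a' * b') (a * b) := by
      apply Commute.mul_left
      · exact hcom.mul_right h1
      · exact h2.mul_right h3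
    rw [h4.symm.eq, mul_inv_cancel_right]
  · have hnb : ¬ Commute a' b := by
      intro h
      exact hcom ((hab a' ha').mp h.symm).symm
    have hac : a' * a * a' = a * a' * a := by
      rcases comm_or_braid hT ha ha' with h | h
      · exact absurd h.symm hcom
      · exact h
    have hbc : a' * b * a' = b * a' * b := by
      rcases comm_or_braid hT hb ha' with h | h
      · exact absurd h.symm hnb
      · exact h
    have hs4 := s4_comm haa hbb haa' hc1.eq hac hbc
    set t := a * b with ht
    have hxD : t * a' * t⁻¹ ∈ D := hconj t a' ha'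
    have hyD : t * b' * t⁻¹ ∈ D := hconj t b' hb'
    have hbx : Commute b' (t * a' * t⁻¹) := (hab' _ hxD).mpr hs4
    have hsame := sameC_conj hconj hab' t
    have h1 : Commute (t * b' * t⁻¹) a' := (hsame _ ha').mpr hs4.symm
    have h2 : Commute (t * b' * t⁻¹) b' := (hsame _ hb').mpr hbx.symm
    have h3 : t * (a' * b') * t⁻¹ = (t * a' * t⁻¹) * (t * b' * t⁻¹) := by
      simp [mul_assoc]
    rw [h3]
    apply Commute.mul_left
    · exact hs4.mul_right h1.symm
    · exact hbx.mul_right h2.symm

theorem mem_core [Finite G] (hT : IsThreeTranspositionSet D) (hconj : ∀ g : G, ∀ d ∈ D, g * d * g⁻¹ ∈ D)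
    {a b : G} (ha : a ∈ D) (hb : b ∈ D) (hab : SameC D a b) : a * b ∈ Cfsg.pCore 2 G := by
  haveI : Fact (Nat.Prime 2) := ⟨Nat.prime_two⟩
  have haa := sq_eq (hT.1 a ha)
  have hbb := sq_eq (hT.1 b hb)
  have hc1 : Commute a b := ((hab a ha).mpr (Commute.refl a)).symm
  have htt : (a * b) * (a * b) = 1 := by
    calc (a * b) * (a * b) = a * (b * a) * b := by simp only [mul_assoc]
      _ = a * (a * b) * b := by rw [hc1.eq]
      _ = (a * a) * (b * b) := by simp only [mul_assoc]
      _ = 1 := by rw [haa, hbb, one_mul]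
  have hle : Subgroup.zpowers (a * b) ≤ Cfsg.pCore 2 G := by
    apply Cfsg.Agent.Lib.BaerSuzuki.le_pCore_of_conj _ (isPGroup_zpowers_invol htt)
    intro g
    rw [MonoidHom.map_zpowers]
    have hconjt : (MulAut.conj g).toMonoidHom (a * b) = (g * a * g⁻¹) * (g * b * g⁻¹) := by
      simp [mul_assoc]
    rw [hconjt]
    have ha' := hconj g a ha
    have hb' := hconj g b hb
    have hc := core_comm hT hconj ha hb ha' hb' hab (sameC_conj hconj hab g)
    refine two_group_of htt ?_ hc
    have h2 : (g * a * g⁻¹) * (g * b * g⁻¹) = g * (a * b) * g⁻¹ := by simp [mul_assoc]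
    rw [h2]
    calc g * (a * b) * g⁻¹ * (g * (a * b) * g⁻¹) = g * ((a * b) * (a * b)) * g⁻¹ := by simp [mul_assoc]
      _ = 1 := by rw [htt]; simp
  exact hle (Subgroup.mem_zpowers _)

theorem same_of_core [Finite G] (hT : IsThreeTranspositionSet D) {a b e : G} (ha : a ∈ D) (hb : b ∈ D) (he : e ∈ D)
    (hq : a⁻¹ * b ∈ Cfsg.pCore 2 G) (hae : Commute a e) : Commute b e := by
  haveI : Fact (Nat.Prime 2) := ⟨Nat.prime_two⟩
  by_contra hne
  have hNorm := Cfsg.Agent.Lib.PCore.pCore_normal 2 G
  have hbb := sq_eq (hT.1 b hb)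
  have hee := sq_eq (hT.1 e he)
  have haa := sq_eq (hT.1 a ha)
  have hbi : b⁻¹ = b := inv_eq hbb
  have hei : e⁻¹ = e := inv_eq hee
  have hai : a⁻¹ = a := inv_eq haa
  have h3 : (b * e) ^ 3 = 1 := by
    rcases hT.2 b hb e he with h | h
    · exact absurd (commute_of_sq hbb hee h) hne
    · exact h
  -- the commutator of the core element with `e`
  set q := a⁻¹ * b with hqdef
  have h1 : q * e * q⁻¹ * e⁻¹ ∈ Cfsg.pCore 2 G := by
    have : e * q⁻¹ * e⁻¹ ∈ Cfsg.pCore 2 G := hNorm.conj_mem _ ((Cfsg.pCore 2 G).inv_mem hq) e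
    have h5 := (Cfsg.pCore 2 G).mul_mem hq this
    have h6 : q * (e * q⁻¹ * e⁻¹) = q * e * q⁻¹ * e⁻¹ := by simp only [mul_assoc]
    rwa [h6] at h5
  have h2 : q * e * q⁻¹ * e⁻¹ = a * ((b * e) ^ 2) * a⁻¹ := by
    rw [hqdef, mul_inv_rev, inv_inv, hai, hbi, hei, pow_two]
    have hae' : a * e = e * a := hae.eq
    calc a * b * e * (b * a) * e = a * b * e * b * (a * e) := by simp only [mul_assoc]
      _ = a * b * e * b * (e * a) := by rw [hae']
      _ = a * (b * e * (b * e)) * a := by simp only [mul_assoc]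
  rw [h2] at h1
  have h4 : (b * e) ^ 2 ∈ Cfsg.pCore 2 G := by
    have := hNorm.conj_mem _ h1 a⁻¹
    simpa [mul_assoc] using this
  have h5 : b * e = ((b * e) ^ 2)⁻¹ := by
    rw [eq_inv_iff_mul_eq_one, ← pow_succ']
    exact h3
  have h6 : b * e ∈ Cfsg.pCore 2 G := by
    rw [h5]
    exact (Cfsg.pCore 2 G).inv_mem h4
  obtain ⟨k, hk⟩ := Cfsg.Agent.Lib.PCore.isPGroup_pCore 2 G ⟨b * e, h6⟩
  have h7 : (b * e) ^ 2 ^ k = 1 := by
    have := congrArg (fun y : ↥(Cfsg.pCore 2 G) => (y : G)) hk
    simpa using this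
  have h8 : orderOf (b * e) ∣ 1 := by
    have h9 := Nat.dvd_gcd (orderOf_dvd_of_pow_eq_one h7) (orderOf_dvd_of_pow_eq_one h3)
    have h10 : Nat.gcd (2 ^ k) 3 = 1 := Nat.Coprime.pow_left k (by norm_num)
    rwa [h10] at h9
  have h11 : b * e = 1 := orderOf_eq_one_iff.mp (Nat.dvd_one.mp h8)
  apply hne
  have h12 : b = e⁻¹ := eq_inv_of_mul_eq_one_left h11
  rw [h12]
  exact Commute.inv_left (Commute.refl e)

end Core

/-- Let D be a conjugacy class of 3-transpositions generating the finite group G, with at least two members, and d a member of D. Then the set of members of D commuting with exactly the same members of D as d coincides with the set of members of D lying in the coset of d modulo the largest normal 2-subgroup of G, and also with the orbit of d under conjugation by that normal 2-subgroup. -/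
theorem result {G : Type*} [Group G] [Finite G] {D : Set G} (hD : Cfsg.IsThreeTranspositionClass D) (hD2 : ∃ a ∈ D, ∃ b ∈ D, a ≠ b) {d : G} (hd : d ∈ D) : {v : G | v ∈ D ∧ ∀ e ∈ D, Commute v e ↔ Commute d e} = {v : G | v ∈ D ∧ d⁻¹ * v ∈ Cfsg.pCore 2 G} ∧ {v : G | v ∈ D ∧ ∀ e ∈ D, Commute v e ↔ Commute d e} = {v : G | ∃ g ∈ Cfsg.pCore 2 G, v = g * d * g⁻¹} := by
  obtain ⟨hT, ⟨d₀, hd₀, hDeq⟩, hgen⟩ := hD
  have hNorm := Cfsg.Agent.Lib.PCore.pCore_normal 2 G
  have hconj : ∀ g : G, ∀ x ∈ D, g * x * g⁻¹ ∈ D := by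
    intro g x hx
    rw [hDeq] at hx ⊢
    exact IsConj.trans hx (isConj_iff.mpr ⟨g, rfl⟩)
  have hP1 : ∀ v ∈ D, d⁻¹ * v ∈ Cfsg.pCore 2 G → ∀ e ∈ D, (Commute v e ↔ Commute d e) := by
    intro v hv hq e he
    refine ⟨fun h => same_of_core hT hv hd he ?_ h, fun h => same_of_core hT hd hv he hq h⟩
    have : v⁻¹ * d = (d⁻¹ * v)⁻¹ := by simp
    rw [this]
    exact (Cfsg.pCore 2 G).inv_mem hq
  have hP2 : ∀ v ∈ D, (∀ e ∈ D, (Commute v e ↔ Commute d e)) → d⁻¹ * v ∈ Cfsg.pCore 2 G := by
    intro v hv h
    have h1 := mem_core hT hconj hd hv h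
    rwa [← inv_eq (sq_eq (hT.1 d hd))] at h1
  constructor
  · ext v
    constructor
    · rintro ⟨hv, h⟩
      exact ⟨hv, hP2 v hv h⟩
    · rintro ⟨hv, h⟩
      exact ⟨hv, hP1 v hv h⟩
  · ext v
    constructor
    · rintro ⟨hv, h⟩
      by_cases hvd : v = d
      · exact ⟨1, (Cfsg.pCore 2 G).one_mem, by simp [hvd]⟩
      · -- some member of D does not commute with d
        have hex : ∃ e ∈ D, ¬ Commute d e := by
          by_contra hno
          push_neg at hno
          have hcen : d ∈ Subgroup.center G := by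
            rw [Subgroup.mem_center_iff]
            intro g
            have : g ∈ Subgroup.closure D := by rw [hgen]; trivial
            induction this using Subgroup.closure_induction with
            | mem x hx => exact (hno x hx).symm.eq
            | one => simp
            | mul x y _ _ hx hy =>
              rw [mul_assoc, hy, ← mul_assoc, hx, mul_assoc]
            | inv x _ hx =>
              rw [eq_mul_inv_iff_mul_eq, mul_assoc, ← hx, inv_mul_cancel_left]
          apply hvd
          have hvc : IsConj d v := by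
            have h1 : IsConj d₀ d := by rw [hDeq] at hd; exact hd
            have h2 : IsConj d₀ v := by rw [hDeq] at hv; exact hv
            exact h1.symm.trans h2
          obtain ⟨g, hg⟩ := isConj_iff.mp hvc
          rw [← hg, Subgroup.mem_center_iff.mp hcen g, mul_inv_cancel_right]
        obtain ⟨e, he, hde⟩ := hex
        have hve : ¬ Commute v e := fun hc => hde ((h e he).mp hc)
        have hdd := sq_eq (hT.1 d hd)
        have hvv := sq_eq (hT.1 v hv)
        have hee := sq_eq (hT.1 e he)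
        have hdv : d * v = v * d := ((h d hd).mpr (Commute.refl d)).symm.eq
        have h1 : e * d * e = d * e * d := by
          rcases comm_or_braid hT hd he with h' | h'
          · exact absurd h' hde
          · exact h'
        have h2 : e * v * e = v * e * v := by
          rcases comm_or_braid hT hv he with h' | h'
          · exact absurd h' hve
          · exact h'
        have hiden := s4_conj hdd hvv hee hdv h1 h2
        refine ⟨e * (d * v) * e⁻¹ * (d * v)⁻¹, ?_, hiden.symm⟩
        have ht : d * v ∈ Cfsg.pCore 2 G := by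
          have := hP2 v hv h
          rwa [inv_eq hdd] at this
        exact (Cfsg.pCore 2 G).mul_mem (hNorm.conj_mem _ ht e) ((Cfsg.pCore 2 G).inv_mem ht)
    · rintro ⟨g, hg, rfl⟩
      have hv := hconj g d hd
      refine ⟨hv, hP1 _ hv ?_⟩
      have : d⁻¹ * (g * d * g⁻¹) = (d⁻¹ * g * d) * g⁻¹ := by simp only [mul_assoc]
      rw [this]
      have h3 := hNorm.conj_mem _ hg d⁻¹
      rw [inv_inv] at h3
      exact (Cfsg.pCore 2 G).mul_mem h3 ((Cfsg.pCore 2 G).inv_mem hg)

end Cfsg.Agent.S5349
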