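import Cfsg.Statements.S5355
import Cfsg.Agent.Lib.ThreeTransS4

set_option autoImplicit false
open Cfsg

namespace Cfsg.Agent.S5355


/-- Let D be a conjugacy class of 3-transpositions generating the finite group G, with at least two members, and d a member of D. Suppose that every member of D commuting with d commutes with exactly the same members of D as d does, and that exactly one member of D other than d commutes with d. Then G is isomorphic to the symmetric group of degree 4. -/
theorem result {G : Type*} [Group G] [Finite G] {D : Set G} (hD : Cfsg.IsThreeTranspositionClass D) (hD2 : ∃ a ∈ D, ∃ b ∈ D, a ≠ b) {d : G} (hd : d ∈ D) (hV : {y : G | y ∈ D ∧ Commute d y} = {v : G | v ∈ D ∧ ∀ e ∈ D, Commute v e ↔ Commute d e}) (hm : {y : G | y ∈ D ∧ Commute d y}.ncard = 2) : Nonempty (G ≃* Equiv.Perm (Fin 4)) := by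
  classical
  have S := Cfsg.Agent.Lib.ThreeTransS4.setup_of_class hD hd hV hm
  obtain ⟨hT, ⟨d₀, hd₀, hcl⟩, hgen⟩ := hD
  refine Cfsg.Agent.Lib.ThreeTransS4.iso_of_setup S hgen hd ?_
  by_contra hcon
  have hcon' : ∀ b ∈ D, Commute d b := by
    intro b hb
    by_contra h
    exact hcon ⟨b, hb, h⟩
  have hle : Subgroup.closure D ≤ Subgroup.centralizer ({d} : Set G) := by
    rw [Subgroup.closure_le]
    intro b hb
    rw [SetLike.mem_coe, Subgroup.mem_centralizer_iff]
    intro h hh
    rw [Set.mem_singleton_iff] at hh
    rw [hh]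
    exact hcon' b hb
  have hcen : ∀ g : G, g * d = d * g := by
    intro g
    have hg : g ∈ Subgroup.closure D := by rw [hgen]; exact Subgroup.mem_top g
    have h1 := hle hg
    rw [Subgroup.mem_centralizer_iff] at h1
    exact (h1 d rfl).symm
  obtain ⟨x', hx', hne, -, -, -⟩ := S.part d hd
  have h1 : IsConj d₀ d := by
    rw [hcl] at hd
    exact hd
  have h2 : IsConj d₀ x' := by
    rw [hcl] at hx'
    exact hx'
  obtain ⟨g, hg⟩ := isConj_iff.1 (h1.symm.trans h2)
  apply hne
  rw [← hg, hcen g, mul_inv_cancel_right]

end Cfsg.Agent.S5355
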