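import Cfsg.Statements.S5358
import Mathlib

set_option autoImplicit false
open scoped MatrixGroups
open Cfsg

namespace Cfsg.Agent.S5358


/-- Let Q be a non-degenerate quadratic form on the n-dimensional coordinate space over the field with three elements and u, v vectors of the same non-zero norm Q(u) = Q(v) spanning different lines (v ≠ u and v ≠ −u). Then the reflection matrices of u and v commute if and only if u and v are orthogonal for the polar form of Q. -/
theorem result (n : ℕ) (Q : QuadraticForm (ZMod 3) (Fin n → ZMod 3)) (hQ : (QuadraticMap.polarBilin Q).Nondegenerate) (u v : Fin n → ZMod 3) (hu : Q u ≠ 0) (huv : Q u = Q v) (h1 : v ≠ u) (h2 : v ≠ -u) : Commute (Cfsg.reflectionMatrix (⇑Q) u) (Cfsg.reflectionMatrix (⇑Q) v) ↔ QuadraticMap.polar (⇑Q) u v = 0 := by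
  set c := Q u with hc
  have hQv : Q v = c := huv.symm
  have hbil : ∀ x y : Fin n → ZMod 3, QuadraticMap.polar (⇑Q) x y = QuadraticMap.polarBilin Q x y := fun _ _ => rfl
  -- the polar vector pairs as the polar form
  have hpair : ∀ x y : Fin n → ZMod 3, (Cfsg.polarVec (⇑Q) x) ⬝ᵥ y = QuadraticMap.polar (⇑Q) x y := by
    intro x y
    have hy : y = ∑ j, y j • Pi.single j (1 : ZMod 3) := by
      ext i
      simp [Finset.sum_apply, Pi.single_apply]
    conv_rhs => rw [hy, hbil, map_sum]
    unfold dotProduct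
    refine Finset.sum_congr rfl fun j _ => ?_
    rw [map_smul, smul_eq_mul, mul_comm]
    rfl
  have hsymm : ∀ x y : Fin n → ZMod 3, QuadraticMap.polar (⇑Q) x y = QuadraticMap.polar (⇑Q) y x :=
    fun x y => QuadraticMap.polar_comm _ _ _
  -- product of reflection matrices
  have hprod : ∀ x y : Fin n → ZMod 3, Q x = c → Q y = c → Cfsg.reflectionMatrix (⇑Q) x * Cfsg.reflectionMatrix (⇑Q) y
      = 1 - c⁻¹ • Matrix.vecMulVec x (Cfsg.polarVec (⇑Q) x) - c⁻¹ • Matrix.vecMulVec y (Cfsg.polarVec (⇑Q) y)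
        + (c⁻¹ * c⁻¹ * QuadraticMap.polar (⇑Q) x y) • Matrix.vecMulVec x (Cfsg.polarVec (⇑Q) y) := by
    intro x y hx hy
    unfold Cfsg.reflectionMatrix
    rw [hx, hy]
    rw [sub_mul, mul_sub, mul_sub, one_mul, mul_one, one_mul, Matrix.smul_mul, Matrix.mul_smul]
    have : Matrix.vecMulVec x (Cfsg.polarVec (⇑Q) x) * Matrix.vecMulVec y (Cfsg.polarVec (⇑Q) y)
        = (QuadraticMap.polar (⇑Q) x y) • Matrix.vecMulVec x (Cfsg.polarVec (⇑Q) y) := by
      rw [Matrix.vecMulVec_mul_vecMulVec, hpair]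
      ext i j
      simp [Matrix.vecMulVec_apply]
      ring
    rw [this]
    simp only [smul_smul]
    rw [mul_assoc c⁻¹ c⁻¹]
    abel
  have hcne : c ≠ 0 := hu
  have hcinv : c⁻¹ * c⁻¹ * QuadraticMap.polar (⇑Q) u v = 0 ↔ QuadraticMap.polar (⇑Q) u v = 0 := by
    simp [hcne]
  constructor
  · intro hcomm
    by_contra hne
    have hh1 := hcomm.eq
    rw [hprod u v rfl hQv, hprod v u hQv rfl, hsymm v u] at hh1
    have hh2 : (c⁻¹ * c⁻¹ * QuadraticMap.polar (⇑Q) u v) • Matrix.vecMulVec u (Cfsg.polarVec (⇑Q) v)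
        = (c⁻¹ * c⁻¹ * QuadraticMap.polar (⇑Q) u v) • Matrix.vecMulVec v (Cfsg.polarVec (⇑Q) u) := by
      have : ∀ A B X Y : Matrix (Fin n) (Fin n) (ZMod 3), 1 - A - B + X = 1 - B - A + Y → X = Y := by
        intro A B X Y h
        have h3 : 1 - A - B = 1 - B - A := by abel
        rw [h3] at h
        exact add_left_cancel h
      exact this _ _ _ _ hh1
    have hk : (c⁻¹ * c⁻¹ * QuadraticMap.polar (⇑Q) u v) ≠ 0 := fun h => hne (hcinv.mp h)
    have h3 : Matrix.vecMulVec u (Cfsg.polarVec (⇑Q) v) = Matrix.vecMulVec v (Cfsg.polarVec (⇑Q) u) :=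
      smul_right_injective _ hk hh2
    -- some coordinate of the polar vector of `v` is non-zero
    have hfv : ∃ j, Cfsg.polarVec (⇑Q) v j ≠ 0 := by
      by_contra hall
      simp only [not_exists, not_not] at hall
      apply hne
      rw [hsymm, ← hpair]
      have : Cfsg.polarVec (⇑Q) v = 0 := funext hall
      rw [this, zero_dotProduct]
    obtain ⟨j, hj⟩ := hfv
    have hall : ∀ i, u i * Cfsg.polarVec (⇑Q) v j = v i * Cfsg.polarVec (⇑Q) u j := by
      intro i
      have := congrFun (congrFun h3 i) j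
      simpa [Matrix.vecMulVec_apply] using this
    set l := Cfsg.polarVec (⇑Q) u j * (Cfsg.polarVec (⇑Q) v j)⁻¹ with hl
    have huv' : u = l • v := by
      ext i
      simp only [Pi.smul_apply, smul_eq_mul, hl]
      field_simp
      rw [hall i]
      ring
    have hcases : ∀ x : ZMod 3, x = 0 ∨ x = 1 ∨ x = -1 := by decide
    rcases hcases l with h0 | h0 | h0
    · rw [h0, zero_smul] at huv'
      apply hu
      rw [hc, huv']
      simp
    · rw [h0, one_smul] at huv'
      exact h1 huv'.symm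
    · rw [h0, neg_one_smul] at huv'
      apply h2
      rw [huv', neg_neg]
  · intro h0
    show _ = _
    rw [hprod u v rfl hQv, hprod v u hQv rfl, hsymm v u, h0]
    simp only [mul_zero, zero_smul, add_zero]
    abel

end Cfsg.Agent.S5358
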