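import Cfsg.Statements.S5364
import Mathlib

set_option autoImplicit false
open Cfsg

namespace Cfsg.Agent.S5364


/-- Let D be a conjugation-invariant set of involutions of a finite group G and t an involution in the centre of G such that d t does not lie in D for any d in D. If the images of the members of D in G modulo the subgroup generated by t satisfy the 3-transposition order conditions (each has order 2 and any two have product of order at most 3), then so do the members of D. -/
theorem result {G : Type*} [Group G] [Finite G] {D : Set G} (hinv : ∀ d ∈ D, orderOf d = 2) (hconj : ∀ g : G, ∀ d ∈ D, g * d * g⁻¹ ∈ D) (t : G) (ht : orderOf t = 2) (htZ : t ∈ Subgroup.center G) (hDt : ∀ d ∈ D, d * t ∉ D) [(Subgroup.zpowers t).Normal] (himg : Cfsg.IsThreeTranspositionSet ((QuotientGroup.mk : G → G ⧸ Subgroup.zpowers t) '' D)) : Cfsg.IsThreeTranspositionSet D := by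
  refine ⟨hinv, fun a ha b hb => ?_⟩
  have hinv2 : ∀ d ∈ D, d * d = 1 := by
    intro d hd
    have := pow_orderOf_eq_one d
    rw [hinv d hd, pow_two] at this
    exact this
  have hmem : ∀ k : ℕ, ((QuotientGroup.mk (a * b) : G ⧸ Subgroup.zpowers t)) ^ k = 1 → (a * b) ^ k = 1 ∨ (a * b) ^ k = t := by
    intro k hk
    have h1 : (a * b) ^ k ∈ Subgroup.zpowers t := by
      rw [← QuotientGroup.eq_one_iff]
      rw [QuotientGroup.mk_pow]
      exact hk
    have ht2 : t ^ 2 = 1 := by rw [← ht]; exact pow_orderOf_eq_one t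
    obtain ⟨n, hn⟩ := Subgroup.mem_zpowers_iff.mp h1
    rcases Int.even_or_odd' n with ⟨m, rfl | rfl⟩
    · left
      rw [← hn, zpow_mul, zpow_ofNat, ht2, one_zpow]
    · right
      rw [← hn, zpow_add, zpow_mul, zpow_ofNat, ht2, one_zpow, one_mul, zpow_one]
  have ht_comm : ∀ g : G, g * t = t * g := by
    intro g
    exact (Subgroup.mem_center_iff.mp htZ g)
  obtain ⟨-, himg2⟩ := himg
  have himg3 := himg2 _ ⟨a, ha, rfl⟩ _ ⟨b, hb, rfl⟩
  have hmul : (QuotientGroup.mk a * QuotientGroup.mk b : G ⧸ Subgroup.zpowers t) = QuotientGroup.mk (a * b) := rfl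
  rw [hmul] at himg3
  have hbab : b * a * b⁻¹ ∈ D := hconj b a ha
  have haba : a * b * a⁻¹ ∈ D := hconj a b hb
  have hai : a⁻¹ = a := inv_eq_of_mul_eq_one_left (hinv2 a ha)
  have hbi : b⁻¹ = b := inv_eq_of_mul_eq_one_left (hinv2 b hb)
  have haa' : ∀ x, a * (a * x) = x := fun x => by rw [← mul_assoc, hinv2 a ha, one_mul]
  have hbb' : ∀ x, b * (b * x) = x := fun x => by rw [← mul_assoc, hinv2 b hb, one_mul]
  rcases himg3 with h | h
  · rcases hmem 2 h with h2 | h2
    · exact Or.inl h2
    · exfalso
      refine hDt b hb ?_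
      have : b * t = a * b * a⁻¹ := by
        rw [ht_comm b, ← h2, hai]
        simp only [pow_succ, pow_zero, one_mul, mul_assoc, haa', hbb', hinv2 b hb, mul_one]
      rw [this]
      exact haba
  · rcases hmem 3 h with h2 | h2
    · exact Or.inr h2
    · exfalso
      refine hDt _ hbab ?_
      have : b * a * b⁻¹ * t = a * b * a⁻¹ := by
        rw [ht_comm, ← h2, hai, hbi]
        simp only [pow_succ, pow_zero, one_mul, mul_assoc, haa', hbb', hinv2 b hb, hinv2 a ha, mul_one]
      rw [this]
      exact haba

end Cfsg.Agent.S5364
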