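import Cfsg.Statements.S5366
import Mathlib

set_option autoImplicit false
open Cfsg

namespace Cfsg.Agent.S5366

open Cfsg.LineSystem

section Model
variable {Y : Type*}

/-- the line-map properties of a model plane -/
def ModelOK (M : Set (Set Y)) : Prop :=
  ∀ x : Y, ∃ τ : Y → Y,
    (∀ y, y ≠ x → (∃ l ∈ M, x ∈ l ∧ y ∈ l) → τ y ≠ x ∧ τ y ≠ y ∧ ({x, y, τ y} : Set Y) ∈ M) ∧
    (∀ y, (y = x ∨ ¬ ∃ l ∈ M, x ∈ l ∧ y ∈ l) → τ y = y) ∧
    ∀ l ∈ M, τ '' l ∈ M

theorem zmod3_cases : ∀ c : ZMod 3, c = 0 ∨ c = 1 ∨ c = -1 := by decide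

theorem modelOK_ag : ModelOK affinePlaneThree := by
  intro x
  have h3 : ∀ a : ZMod 3, a + a + a = 0 := by decide
  have hu : ∀ u : Fin 2 → ZMod 3, -u - u = u := by
    intro u
    funext i
    have := h3 (u i)
    simp only [Pi.sub_apply, Pi.neg_apply]
    linear_combination -this
  have hxy : ∀ y : Fin 2 → ZMod 3, y ≠ x → -x - y ≠ x ∧ -x - y ≠ y := by
    intro y hy
    constructor
    · intro h
      apply hy
      have h2 : y = -x - (-x - y) := by abel
      rw [h] at h2
      rw [h2, hu]
    · intro h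
      apply hy
      have h2 : x = -(-x - y) - y := by abel
      rw [h] at h2
      rw [hu] at h2
      exact h2.symm
  refine ⟨fun y => -x - y, ?_, ?_, ?_⟩
  · intro y hy _
    refine ⟨(hxy y hy).1, (hxy y hy).2, x, y - x, sub_ne_zero.mpr hy, ?_⟩
    ext z
    simp only [Set.mem_insert_iff, Set.mem_singleton_iff, Set.mem_setOf_eq]
    constructor
    · rintro (rfl | rfl | rfl)
      · exact ⟨0, by simp⟩
      · exact ⟨1, by simp⟩
      · refine ⟨-1, ?_⟩
        have := hu x
        simp only [neg_smul, one_smul]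
        nth_rewrite 1 [← this]
        abel
    · rintro ⟨c, rfl⟩
      rcases zmod3_cases c with rfl | rfl | rfl
      · left; simp
      · right; left; simp
      · right; right
        have := hu x
        simp only [neg_smul, one_smul]
        nth_rewrite 2 [← this]
        abel
  · intro y hy
    rcases hy with rfl | hy
    · exact hu y
    · exfalso
      by_cases hne : y = x
      · subst hne
        apply hy
        exact ⟨{z | ∃ c : ZMod 3, z = y + c • (fun _ => (1 : ZMod 3))}, ⟨y, fun _ => 1, fun h => by simpa using congrFun h 0, rfl⟩, ⟨0, by simp⟩, ⟨0, by simp⟩⟩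
      · apply hy
        exact ⟨{z | ∃ c : ZMod 3, z = x + c • (y - x)}, ⟨x, y - x, sub_ne_zero.mpr hne, rfl⟩, ⟨0, by simp⟩, ⟨1, by simp⟩⟩
  · rintro l ⟨v, w, hw, rfl⟩
    refine ⟨-x - v, w, hw, ?_⟩
    ext z
    constructor
    · rintro ⟨_, ⟨c, rfl⟩, rfl⟩
      exact ⟨-c, by simp only [neg_smul]; abel⟩
    · rintro ⟨c, rfl⟩
      exact ⟨v + (-c) • w, ⟨-c, rfl⟩, by simp only [neg_smul]; abel⟩

theorem dual_check : ∀ a b : Fin 4, a ≠ b → ∀ s : Finset (Fin 4), s.card = 2 →
     (s ≠ {a, b} → ∀ i, i ∉ ({a, b} : Finset (Fin 4)) → i ∉ s →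
        s.image (Equiv.swap a b) ≠ {a, b} ∧ s.image (Equiv.swap a b) ≠ s ∧
          ∀ t : Finset (Fin 4), t.card = 2 → (i ∉ t ↔ t = {a, b} ∨ t = s ∨ t = s.image (Equiv.swap a b))) ∧
     ((s = {a, b} ∨ ∀ i, i ∉ ({a, b} : Finset (Fin 4)) → i ∈ s) → s.image (Equiv.swap a b) = s) := by
  decide

theorem modelOK_dual : ModelOK dualAffinePlaneTwo := by
  intro x
  obtain ⟨a, b, hab, hx⟩ := Finset.card_eq_two.mp x.2
  have hinj := (Equiv.swap a b).injective
  refine ⟨fun s => ⟨s.val.image (Equiv.swap a b), by rw [Finset.card_image_of_injective _ hinj]; exact s.2⟩, ?_, ?_, ?_⟩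
  · intro y hy hc
    obtain ⟨_, ⟨i, rfl⟩, hxi, hyi⟩ := hc
    have hyne : y.val ≠ {a, b} := fun h => hy (Subtype.ext (h.trans hx.symm))
    have hxi' : i ∉ ({a, b} : Finset (Fin 4)) := by
      rw [← hx]; exact hxi
    obtain ⟨h1, h2, h3⟩ := (dual_check a b hab y.val y.2).1 hyne i hxi' hyi
    refine ⟨fun h => h1 ?_, fun h => h2 ?_, i, ?_⟩
    · rw [← hx]; exact congrArg Subtype.val h
    · exact congrArg Subtype.val h
    · ext t
      simp only [Set.mem_insert_iff, Set.mem_singleton_iff]
      have h4 := h3 t.val t.2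
      rw [← hx] at h4
      show _ ↔ i ∉ t.val
      rw [h4]
      constructor
      · rintro (rfl | rfl | rfl)
        · exact Or.inl rfl
        · exact Or.inr (Or.inl rfl)
        · exact Or.inr (Or.inr rfl)
      · rintro (h | h | h)
        · exact Or.inl (Subtype.ext h)
        · exact Or.inr (Or.inl (Subtype.ext h))
        · exact Or.inr (Or.inr (Subtype.ext h))
  · intro y hy
    apply Subtype.ext
    refine (dual_check a b hab y.val y.2).2 ?_
    rcases hy with rfl | hy
    · exact Or.inl hx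
    · right
      intro i hi
      by_contra hyi
      apply hy
      refine ⟨_, ⟨i, rfl⟩, ?_, hyi⟩
      show i ∉ x.val
      rw [hx]; exact hi
  · rintro l ⟨i, rfl⟩
    refine ⟨Equiv.swap a b i, ?_⟩
    ext s
    constructor
    · rintro ⟨t, ht, rfl⟩
      show Equiv.swap a b i ∉ t.val.image (Equiv.swap a b)
      rw [hinj.mem_finset_image]
      exact ht
    · intro hs
      have hs' : Equiv.swap a b i ∉ s.val := hs
      refine ⟨⟨s.val.image (Equiv.swap a b), by rw [Finset.card_image_of_injective _ hinj]; exact s.2⟩, ?_, ?_⟩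
      · show i ∉ s.val.image (Equiv.swap a b)
        intro h
        apply hs'
        have : Equiv.swap a b i ∈ (s.val.image (Equiv.swap a b)).image (Equiv.swap a b) := Finset.mem_image_of_mem _ h
        rw [Finset.image_image] at this
        have hid : (⇑(Equiv.swap a b) ∘ ⇑(Equiv.swap a b)) = id := by
          funext k
          simp
        rwa [hid, Finset.image_id] at this
      · apply Subtype.ext
        show (s.val.image (Equiv.swap a b)).image (Equiv.swap a b) = s.val
        rw [Finset.image_image]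
        have hid : (⇑(Equiv.swap a b) ∘ ⇑(Equiv.swap a b)) = id := by
          funext k
          simp
        rw [hid, Finset.image_id]

end Model

section Space
variable {X : Type*} {L : Set (Set X)}

theorem lm_third (hP : IsPartialLinear L) {x y z : X} (hzx : z ≠ x) (hzy : z ≠ y) (hxy : x ≠ y)
    (hl : ({x, y, z} : Set X) ∈ L) : lineMap L x y = z := by
  have hex : ∃ z : X, z ≠ x ∧ z ≠ y ∧ x ≠ y ∧ ({x, y, z} : Set X) ∈ L := ⟨z, hzx, hzy, hxy, hl⟩
  have hch : lineMap L x y = hex.choose := dif_pos hex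
  rw [hch]
  obtain ⟨h1, h2, _, h4⟩ := hex.choose_spec
  have h5 := hP _ h4 _ hl x y hxy (by simp) (by simp) (by simp) (by simp)
  have h6 : hex.choose ∈ ({x, y, z} : Set X) := by
    rw [← h5]; simp
  simp only [Set.mem_insert_iff, Set.mem_singleton_iff] at h6
  rcases h6 with h6 | h6 | h6
  · exact absurd h6 h1
  · exact absurd h6 h2
  · exact h6

theorem lm_none {x y : X} (h : ¬ ∃ z : X, z ≠ x ∧ z ≠ y ∧ x ≠ y ∧ ({x, y, z} : Set X) ∈ L) :
    lineMap L x y = y := dif_neg h

theorem line_form (hlen : ∀ l ∈ L, l.ncard = 3) {l : Set X} (hl : l ∈ L) {x y : X} (hx : x ∈ l)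
    (hy : y ∈ l) (hxy : x ≠ y) : ∃ z, z ≠ x ∧ z ≠ y ∧ l = {x, y, z} := by
  have h3 := hlen l hl
  have hfin : l.Finite := Set.finite_of_ncard_ne_zero (by rw [h3]; norm_num)
  obtain ⟨z, hz, hz'⟩ := Set.exists_mem_notMem_of_ncard_lt_ncard (s := {x, y}) (t := l) (by rw [Set.ncard_pair hxy, h3]; norm_num) (Set.toFinite _)
  simp only [Set.mem_insert_iff, Set.mem_singleton_iff, not_or] at hz'
  refine ⟨z, hz'.1, hz'.2, ?_⟩
  symm
  apply Set.eq_of_subset_of_ncard_le
  · intro q hq
    simp only [Set.mem_insert_iff, Set.mem_singleton_iff] at hq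
    rcases hq with rfl | rfl | rfl <;> assumption
  · rw [h3, Set.ncard_eq_three.mpr ⟨x, y, z, hxy, fun h => hz'.1 h.symm, fun h => hz'.2 h.symm, rfl⟩]
  · exact hfin

theorem lm_invol (hP : IsPartialLinear L) (x y : X) : lineMap L x (lineMap L x y) = y := by
  by_cases h : ∃ z : X, z ≠ x ∧ z ≠ y ∧ x ≠ y ∧ ({x, y, z} : Set X) ∈ L
  · obtain ⟨z, h1, h2, h3, h4⟩ := h
    rw [lm_third hP h1 h2 h3 h4]
    refine lm_third hP (Ne.symm h3) (Ne.symm h2) (Ne.symm h1) ?_
    rwa [Set.pair_comm z y]
  · rw [lm_none h, lm_none h]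

theorem isSubspace_span (S : Set X) : IsSubspace L (span L S) := by
  intro l hl x hx y hy hxy hxl hyl q hq T hT
  exact hT.2 l hl x (hx T hT) y (hy T hT) hxy hxl hyl hq

theorem subset_span' (S : Set X) : S ⊆ span L S := fun _ hq _ hT => hT.1 hq

theorem transport {Y : Type*} (hP : IsPartialLinear L) {S : Set X} (hS : IsSubspace L S) {x : X} (hxS : x ∈ S)
    {M : Set (Set Y)} (hM : ModelOK M) (e : S ≃ Y) (he : IsIso (restrict L S) M e)
    {l : Set X} (hl : l ∈ L) (hlS : l ⊆ S) : lineMap L x '' l ∈ L := by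
  let x' : S := ⟨x, hxS⟩
  obtain ⟨τ, h1, h2, h3⟩ := hM (e x')
  let ρ : S → S := fun p => e.symm (τ (e p))
  have hew : ∀ p : S, e (ρ p) = τ (e p) := fun p => e.apply_symm_apply _
  have key : ∀ p : S, lineMap L x p = ρ p := by
    intro p
    by_cases hc : (p : X) ≠ x ∧ ∃ n ∈ L, x ∈ n ∧ (p : X) ∈ n
    · obtain ⟨hne, n, hn, hxn, hpn⟩ := hc
      have hnS : n ⊆ S := hS n hn x hxS p p.2 (Ne.symm hne) hxn hpn
      have hnr : {q : S | (q : X) ∈ n} ∈ restrict L S := ⟨n, hn, hnS, rfl⟩
      have hM' : e '' {q : S | (q : X) ∈ n} ∈ M := (he _).mp hnr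
      have hpne : e p ≠ e x' := fun h => hne (congrArg Subtype.val (e.injective h))
      obtain ⟨ha, hb, hc⟩ := h1 (e p) hpne ⟨_, hM', ⟨x', hxn, rfl⟩, ⟨p, hpn, rfl⟩⟩
      have hset : e '' ({x', p, ρ p} : Set S) = {e x', e p, τ (e p)} := by
        rw [Set.image_insert_eq, Set.image_insert_eq, Set.image_singleton, hew]
      have hr : ({x', p, ρ p} : Set S) ∈ restrict L S := (he _).mpr (by rw [hset]; exact hc)
      obtain ⟨l', hl', hl'S, heq⟩ := hr
      have hl'eq : l' = {x, (p : X), (ρ p : X)} := by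
        ext q
        constructor
        · intro hq
          have : (⟨q, hl'S hq⟩ : S) ∈ ({x', p, ρ p} : Set S) := by
            rw [heq]; exact hq
          simp only [Set.mem_insert_iff, Set.mem_singleton_iff] at this
          simp only [Set.mem_insert_iff, Set.mem_singleton_iff]
          rcases this with h | h | h
          · exact Or.inl (congrArg Subtype.val h)
          · exact Or.inr (Or.inl (congrArg Subtype.val h))
          · exact Or.inr (Or.inr (congrArg Subtype.val h))
        · intro hq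
          have hmem : ∀ r : S, r ∈ ({x', p, ρ p} : Set S) → (r : X) ∈ l' := by
            intro r hr
            rw [heq] at hr
            exact hr
          simp only [Set.mem_insert_iff, Set.mem_singleton_iff] at hq
          rcases hq with rfl | rfl | rfl
          · exact hmem x' (by simp)
          · exact hmem p (by simp)
          · exact hmem (ρ p) (by simp)
      have hzx : (ρ p : X) ≠ x := by
        intro h
        apply ha
        rw [← hew]
        exact congrArg e (Subtype.ext h)
      have hzy : (ρ p : X) ≠ p := by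
        intro h
        apply hb
        rw [← hew]
        exact congrArg e (Subtype.ext h)
      exact lm_third hP hzx hzy (Ne.symm hne) (hl'eq ▸ hl')
    · have hnone : ¬ ∃ z : X, z ≠ x ∧ z ≠ (p : X) ∧ x ≠ (p : X) ∧ ({x, (p : X), z} : Set X) ∈ L := by
        rintro ⟨z, _, _, h3', h4'⟩
        exact hc ⟨Ne.symm h3', _, h4', by simp, by simp⟩
      rw [lm_none hnone]
      have hfix : τ (e p) = e p := by
        apply h2
        by_cases hpx : (p : X) = x
        · left
          exact congrArg e (Subtype.ext hpx)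
        · right
          rintro ⟨m, hm, hxm, hpm⟩
          have hm' : e '' (e.symm '' m) = m := by
            rw [Set.image_image]
            simp
          have hr : e.symm '' m ∈ restrict L S := (he _).mpr (by rw [hm']; exact hm)
          obtain ⟨n, hn, _, heq⟩ := hr
          have hx1 : x' ∈ e.symm '' m := ⟨e x', hxm, by simp⟩
          have hp1 : p ∈ e.symm '' m := ⟨e p, hpm, by simp⟩
          rw [heq] at hx1 hp1
          exact hc ⟨hpx, n, hn, hx1, hp1⟩
      show (p : X) = ((e.symm (τ (e p)) : S) : X)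
      rw [hfix]
      simp
  have hlr : {q : S | (q : X) ∈ l} ∈ restrict L S := ⟨l, hl, hlS, rfl⟩
  have hM1 : τ '' (e '' {q : S | (q : X) ∈ l}) ∈ M := h3 _ ((he _).mp hlr)
  have hm' : e '' (e.symm '' (τ '' (e '' {q : S | (q : X) ∈ l}))) = τ '' (e '' {q : S | (q : X) ∈ l}) := by
    rw [Set.image_image (g := e)]
    simp
  have hr : e.symm '' (τ '' (e '' {q : S | (q : X) ∈ l})) ∈ restrict L S := (he _).mpr (by rw [hm']; exact hM1)
  obtain ⟨l', hl', hl'S, heq⟩ := hr
  have hfin : lineMap L x '' l = l' := by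
    ext q
    constructor
    · rintro ⟨p, hp, rfl⟩
      have h5 : ρ ⟨p, hlS hp⟩ ∈ e.symm '' (τ '' (e '' {q : S | (q : X) ∈ l})) :=
        ⟨_, ⟨_, ⟨⟨p, hlS hp⟩, hp, rfl⟩, rfl⟩, rfl⟩
      rw [heq] at h5
      have h6 := key ⟨p, hlS hp⟩
      simp only at h6
      rw [h6]
      exact h5
    · intro hq
      have h5 : (⟨q, hl'S hq⟩ : S) ∈ e.symm '' (τ '' (e '' {q : S | (q : X) ∈ l})) := by
        rw [heq]; exact hq
      obtain ⟨_, ⟨_, ⟨p, hp, rfl⟩, rfl⟩, h7⟩ := h5
      refine ⟨p, hp, ?_⟩
      rw [key p]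
      exact congrArg Subtype.val h7
  rw [hfin]
  exact hl'

theorem image_line (hF : IsFischerSpace L) (x : X) {l : Set X} (hl : l ∈ L) : lineMap L x '' l ∈ L := by
  obtain ⟨hP, hlen, hpl⟩ := hF
  by_cases hxl : x ∈ l
  · have hex : ∃ y ∈ l, y ≠ x := by
      by_contra hno
      push_neg at hno
      have h1 : l ⊆ {x} := fun q hq => hno q hq
      have h2 := Set.ncard_le_ncard h1 (Set.toFinite _)
      rw [hlen l hl, Set.ncard_singleton] at h2
      omega
    obtain ⟨y, hy, hyx⟩ := hex
    obtain ⟨z, hzx, hzy, hleq⟩ := line_form hlen hl hxl hy (Ne.symm hyx)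
    have hlxyz : ({x, y, z} : Set X) ∈ L := hleq ▸ hl
    have h1 : lineMap L x y = z := lm_third hP hzx hzy (Ne.symm hyx) hlxyz
    have h2 : lineMap L x z = y := by
      rw [← h1]; exact lm_invol hP x y
    have h3 : lineMap L x x = x := lm_none (by
      rintro ⟨_, _, _, h, _⟩
      exact h rfl)
    have himg : lineMap L x '' l = l := by
      rw [hleq, Set.image_insert_eq, Set.image_insert_eq, Set.image_singleton, h1, h2, h3, Set.pair_comm z y]
    rw [himg]
    exact hl
  · by_cases hfix : ∀ y ∈ l, lineMap L x y = y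
    · have himg : lineMap L x '' l = l := by
        rw [Set.image_congr hfix]
        exact Set.image_id l
      rw [himg]
      exact hl
    · push_neg at hfix
      obtain ⟨a, ha, hane⟩ := hfix
      have hex : ∃ z : X, z ≠ x ∧ z ≠ a ∧ x ≠ a ∧ ({x, a, z} : Set X) ∈ L := by
        by_contra hno
        exact hane (lm_none hno)
      obtain ⟨z, _, _, _, hm⟩ := hex
      have hne : l ≠ {x, a, z} := by
        intro h
        apply hxl
        rw [h]
        simp
      have hnon : (l ∩ {x, a, z}).Nonempty := ⟨a, ha, by simp⟩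
      have hSsub : IsSubspace L (span L (l ∪ {x, a, z})) := isSubspace_span _
      have hxS : x ∈ span L (l ∪ {x, a, z}) := subset_span' _ (Or.inr (by simp))
      have hlS : l ⊆ span L (l ∪ {x, a, z}) := fun q hq => subset_span' _ (Or.inl hq)
      rcases hpl l hl _ hm hne hnon with ⟨e, he⟩ | ⟨e, he⟩
      · exact transport hP hSsub hxS modelOK_dual e he hl hlS
      · exact transport hP hSsub hxS modelOK_ag e he hl hlS

end Space
section Final
variable {X : Type*} {L : Set (Set X)}

/-- the involution attached to a point -/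
noncomputable def tPerm (hP : IsPartialLinear L) (x : X) : Equiv.Perm X where
  toFun := lineMap L x
  invFun := lineMap L x
  left_inv := lm_invol hP x
  right_inv := lm_invol hP x

theorem tPerm_coe (hP : IsPartialLinear L) (x : X) : ⇑(tPerm hP x) = lineMap L x := rfl

theorem tPerm_mul_self (hP : IsPartialLinear L) (x : X) : tPerm hP x * tPerm hP x = 1 := by
  ext y
  exact lm_invol hP x y

theorem tPerm_iso (hF : IsFischerSpace L) (x : X) : IsIso L L (tPerm hF.1 x) := by
  intro l
  constructor
  · intro hl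
    exact image_line hF x hl
  · intro hl
    have h1 := image_line hF x hl
    have h2 : lineMap L x '' (⇑(tPerm hF.1 x) '' l) = l := by
      rw [Set.image_image]
      have : ∀ y, lineMap L x (tPerm hF.1 x y) = y := lm_invol hF.1 x
      simp [this]
    rwa [h2] at h1

theorem lm_conj (hP : IsPartialLinear L) (τ : Equiv.Perm X) (hτ : IsIso L L τ) (x y : X) :
    lineMap L (τ x) (τ y) = τ (lineMap L x y) := by
  by_cases h : ∃ z : X, z ≠ x ∧ z ≠ y ∧ x ≠ y ∧ ({x, y, z} : Set X) ∈ L
  · obtain ⟨z, h1, h2, h3, h4⟩ := h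
    rw [lm_third hP h1 h2 h3 h4]
    refine lm_third hP (fun h => h1 (τ.injective h)) (fun h => h2 (τ.injective h)) (fun h => h3 (τ.injective h)) ?_
    have := (hτ _).mp h4
    rwa [Set.image_insert_eq, Set.image_insert_eq, Set.image_singleton] at this
  · rw [lm_none h]
    apply lm_none
    rintro ⟨z', h1, h2, h3, h4⟩
    apply h
    refine ⟨τ.symm z', fun h' => h1 ?_, fun h' => h2 ?_, fun h' => h3 (congrArg τ h'), ?_⟩
    · rw [← h']; simp
    · rw [← h']; simp
    · apply (hτ _).mpr
      rw [Set.image_insert_eq, Set.image_insert_eq, Set.image_singleton]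
      simpa using h4

theorem tPerm_conj (hF : IsFischerSpace L) (x y : X) :
    tPerm hF.1 (lineMap L x y) = tPerm hF.1 x * tPerm hF.1 y * tPerm hF.1 x := by
  ext p
  have h1 := lm_conj hF.1 (tPerm hF.1 x) (tPerm_iso hF x) y (lineMap L x p)
  have h2 : lineMap L x (lineMap L x p) = p := lm_invol hF.1 x p
  have h3 : (tPerm hF.1 x) y = lineMap L x y := rfl
  have h4 : (tPerm hF.1 x) (lineMap L x p) = p := lm_invol hF.1 x p
  rw [h3, h4] at h1
  show lineMap L (lineMap L x y) p = lineMap L x (lineMap L y (lineMap L x p))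
  rw [h1]
  rfl

end Final

/-- Let L be a nondegenerate Fischer space on the point type X (every point on a line). Then for every point x the map t(x) — sending a point collinear with x to the third point of their common line and fixing every other point — is a permutation of X of order 2 and an automorphism of the line system; and the set of all t(x) satisfies the 3-transposition order conditions in the permutation group of X (any two have product of order at most 3). -/
theorem result {X : Type*} (L : Set (Set X)) (hL : Cfsg.IsFischerSpace L) (hnd : Cfsg.LineSystem.IsNondegenerate L) : (∀ x : X, ∃ σ : Equiv.Perm X, ⇑σ = Cfsg.LineSystem.lineMap L x ∧ orderOf σ = 2 ∧ Cfsg.LineSystem.IsIso L L σ) ∧ Cfsg.IsThreeTranspositionSet {σ : Equiv.Perm X | ∃ x : X, ⇑σ = Cfsg.LineSystem.lineMap L x} := by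
  have hP := hL.1
  have hord : ∀ x : X, orderOf (tPerm hP x) = 2 := by
    intro x
    haveI : Fact (Nat.Prime 2) := ⟨Nat.prime_two⟩
    apply orderOf_eq_prime
    · rw [pow_two, tPerm_mul_self]
    · intro h1
      obtain ⟨l, hl, hxl⟩ := hnd x
      have hex : ∃ y ∈ l, y ≠ x := by
        by_contra hno
        push_neg at hno
        have h1 : l ⊆ {x} := fun q hq => hno q hq
        have h2 := Set.ncard_le_ncard h1 (Set.toFinite _)
        rw [hL.2.1 l hl, Set.ncard_singleton] at h2
        omega
      obtain ⟨y, hy, hyx⟩ := hex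
      obtain ⟨z, hzx, hzy, hleq⟩ := line_form hL.2.1 hl hxl hy (Ne.symm hyx)
      have h2 : lineMap L x y = z := lm_third hP hzx hzy (Ne.symm hyx) (hleq ▸ hl)
      have h3 : (tPerm hP x) y = y := by rw [h1]; rfl
      exact hzy (h2.symm.trans h3)
  refine ⟨fun x => ⟨tPerm hP x, tPerm_coe hP x, hord x, tPerm_iso hL x⟩, ?_, ?_⟩
  · rintro d ⟨x, hx⟩
    have : d = tPerm hP x := Equiv.coe_fn_injective hx
    rw [this]
    exact hord x
  · rintro d ⟨x, hx⟩ e ⟨y, hy⟩
    have h1 : d = tPerm hP x := Equiv.coe_fn_injective hx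
    have h2 : e = tPerm hP y := Equiv.coe_fn_injective hy
    subst h1 h2
    by_cases h : ∃ z : X, z ≠ x ∧ z ≠ y ∧ x ≠ y ∧ ({x, y, z} : Set X) ∈ L
    · right
      obtain ⟨z, h3, h4, h5, h6⟩ := h
      have h7 : lineMap L x y = z := lm_third hP h3 h4 h5 h6
      have h8 : lineMap L y x = z := by
        refine lm_third hP h4 h3 (Ne.symm h5) ?_
        rwa [Set.insert_comm]
      have h9 := tPerm_conj hL x y
      have h10 := tPerm_conj hL y x
      rw [h7] at h9
      rw [h8] at h10
      have h11 : tPerm hP x * tPerm hP y * tPerm hP x * (tPerm hP y * tPerm hP x * tPerm hP y) = 1 := by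
        rw [← h9, ← h10, tPerm_mul_self]
      calc (tPerm hP x * tPerm hP y) ^ 3 = tPerm hP x * tPerm hP y * tPerm hP x * (tPerm hP y * tPerm hP x * tPerm hP y) := by
            simp only [pow_succ, pow_zero, one_mul, mul_assoc]
        _ = 1 := h11
    · left
      have h7 : lineMap L x y = y := lm_none h
      have h9 := tPerm_conj hL x y
      rw [h7] at h9
      have h11 : tPerm hP x * tPerm hP y * tPerm hP x * tPerm hP y = 1 := by
        rw [← h9, tPerm_mul_self]
      calc (tPerm hP x * tPerm hP y) ^ 2 = tPerm hP x * tPerm hP y * tPerm hP x * tPerm hP y := by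
            simp only [pow_succ, pow_zero, one_mul, mul_assoc]
        _ = 1 := h11

end Cfsg.Agent.S5366
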