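import Cfsg.Statements.S5393
import Cfsg.Agent.Lib.GolayM12

set_option autoImplicit false
open Cfsg

namespace Cfsg.Agent.S5393

open Cfsg Cfsg.Agent.Lib.GolayCode Cfsg.Agent.Lib.GolayFacts Cfsg.Agent.Lib.GolayPerm
  Cfsg.Agent.Lib.GolayChain Cfsg.Agent.Lib.GolayTrans Cfsg.Agent.Lib.GolayOrbit Cfsg.Agent.Lib.GolayM12

theorem support_add (v w : GolayPt → ZMod 2) :
    support₂ (v + w) = symmDiff (support₂ v) (support₂ w) := by
  ext p
  simp only [Finset.mem_symmDiff, mem_support, Pi.add_apply]
  generalize v p = a
  generalize w p = b
  revert a b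
  decide

theorem mem_of_support_eq {W : Submodule (ZMod 2) (GolayPt → ZMod 2)} {v w : GolayPt → ZMod 2}
    (hv : v ∈ W) (h : support₂ w = support₂ v) : w ∈ W := by
  rw [support_inj h]
  exact hv

theorem one_mem_golay : (fun _ : GolayPt => (1 : ZMod 2)) ∈ golayCode :=
  Submodule.subset_span (Or.inr rfl)

theorem card_support (w : GolayPt → ZMod 2) : (support₂ w).card = hammingNorm w := by
  unfold support₂ hammingNorm
  congr 1

theorem mem_golay_of_support {w : GolayPt → ZMod 2} (hw : w ∈ golayCode) :
    support₂ w ∈ supports (golayCode : Set (GolayPt → ZMod 2)) := ⟨w, hw, rfl⟩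

/-- Octad words generate. -/
theorem all_of_octad {W : Submodule (ZMod 2) (GolayPt → ZMod 2)}
    (h1 : (fun _ => (1 : ZMod 2)) ∈ W) (hinv : ∀ σ ∈ M24, ∀ w ∈ W, mapWord σ w ∈ W)
    {v : GolayPt → ZMod 2} (hv : v ∈ W) (hvc : v ∈ golayCode) (hv8 : hammingNorm v = 8) :
    golayCode ≤ W := by
  have hvo : support₂ v ∈ octads := ⟨mem_golay_of_support hvc, by rw [card_support, hv8]⟩
  have hoct : ∀ w ∈ golayCode, hammingNorm w = 8 → w ∈ W := by
    intro w hw h8
    have hwo : support₂ w ∈ octads := ⟨mem_golay_of_support hw, by rw [card_support, h8]⟩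
    obtain ⟨g, hg, he⟩ := exists_map_octad hvo hwo
    refine mem_of_support_eq (hinv g hg v hv) ?_
    rw [support_mapWord, he]
  have hd0 : dec dod0 ∈ W := by
    have hm : dod0 = 2564625 ^^^ 2232654 := by decide +kernel
    have ho1 : isOctad 2564625 = true := by decide +kernel
    have ho2 : isOctad 2232654 = true := by decide +kernel
    have hc1 := dec_mem_of_isCode (m := 2564625) (by decide +kernel)
    have hc2 := dec_mem_of_isCode (m := 2232654) (by decide +kernel)
    rw [hm, dec_xor]
    refine W.add_mem (hoct _ hc1 ?_) (hoct _ hc2 ?_)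
    · rw [hammingNorm_dec]; decide +kernel
    · rw [hammingNorm_dec]; decide +kernel
  intro w hw
  rcases weights_of_mem hw with h | h | h | h | h
  · have : w = 0 := by
      have h3 := hammingNorm_eq_zero.mp h
      exact h3
    rw [this]
    exact W.zero_mem
  · exact hoct w hw h
  · have hwd : support₂ w ∈ dodecads := ⟨mem_golay_of_support hw, by rw [card_support, h]⟩
    obtain ⟨g, hg, he⟩ := exists_map_dod0 hwd
    refine mem_of_support_eq (hinv g hg _ hd0) ?_
    rw [support_mapWord, support_dec, he]
  · have hw1 : w + (fun _ => (1 : ZMod 2)) ∈ golayCode := golayCode.add_mem hw one_mem_golay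
    have h8 : hammingNorm (w + (fun _ => (1 : ZMod 2))) = 8 := by
      rw [← card_support]
      have h3 : (support₂ (w + (fun _ => (1 : ZMod 2)))) = (support₂ w)ᶜ := by
        ext p
        simp only [mem_support, Pi.add_apply, Finset.mem_compl]
        generalize w p = a
        revert a
        decide
      rw [h3, Finset.card_compl, card_support, h]
      decide
    have h4 := W.add_mem (hoct _ hw1 h8) h1
    have h5 : w + (fun _ => (1 : ZMod 2)) + (fun _ => (1 : ZMod 2)) = w := by
      funext p
      simp only [Pi.add_apply]
      generalize w p = a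
      revert a
      decide
    rwa [h5] at h4
  · have h3 : support₂ w = Finset.univ := by
      apply Finset.eq_univ_of_card
      rw [card_support, h]
      decide
    refine mem_of_support_eq h1 ?_
    rw [h3]
    ext p
    simp [mem_support]


/-- The length-24 code built from the squares modulo 23 contains the all-ones word, and the code modulo the all-ones word is an irreducible module over the field with two elements for the code's automorphism group: a subspace of the code that contains the all-ones word and is invariant under every coordinate permutation preserving the code is either the span of the all-ones word or the whole code. -/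
theorem result : (fun _ : Cfsg.GolayPt => (1 : ZMod 2)) ∈ Cfsg.golayCode ∧ ∀ W : Submodule (ZMod 2) (Cfsg.GolayPt → ZMod 2), (fun _ => (1 : ZMod 2)) ∈ W → W ≤ Cfsg.golayCode → (∀ σ ∈ Cfsg.M24, ∀ w ∈ W, (fun p => w (σ.symm p)) ∈ W) → W = Submodule.span (ZMod 2) {fun _ => (1 : ZMod 2)} ∨ W = Cfsg.golayCode := by
  refine ⟨one_mem_golay, fun W h1 hle hinv => ?_⟩
  have hinv' : ∀ σ ∈ M24, ∀ w ∈ W, mapWord σ w ∈ W := by
    intro σ hσ w hw
    exact hinv σ hσ w hw
  by_cases hWs : W ≤ Submodule.span (ZMod 2) {fun _ => (1 : ZMod 2)}
  · left
    exact le_antisymm hWs ((Submodule.span_singleton_le_iff_mem _ _).mpr h1)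
  right
  obtain ⟨w, hw, hwn⟩ := Set.not_subset.mp hWs
  have hwc := hle hw
  have hw0 : w ≠ 0 := by
    rintro rfl
    exact hwn (Submodule.zero_mem _)
  have hw24 : hammingNorm w ≠ 24 := by
    intro h
    apply hwn
    have h3 : support₂ w = Finset.univ := by
      apply Finset.eq_univ_of_card
      rw [card_support, h]
      decide
    have h4 : w = fun _ => (1 : ZMod 2) := by
      apply support_inj
      rw [h3]
      ext p
      simp [mem_support]
    rw [h4]
    exact Submodule.mem_span_singleton_self _
  apply le_antisymm hle
  rcases weights_of_mem hwc with h | h | h | h | h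
  · exact absurd (hammingNorm_eq_zero.mp h) hw0
  · exact all_of_octad h1 hinv' hw hwc h
  · -- a dodecad: pass to an octad
    have hwd : support₂ w ∈ dodecads := ⟨mem_golay_of_support hwc, by rw [card_support, h]⟩
    have hcount := ncard_dodecads_meet_dodecad hwd 8
    rw [count_dod8] at hcount
    have hne : {e : Finset GolayPt | e ∈ dodecads ∧ (support₂ w ∩ e).card = 8}.Nonempty := by
      by_contra hemp
      rw [Set.not_nonempty_iff_eq_empty] at hemp
      rw [hemp] at hcount
      simp at hcount
    obtain ⟨e, he, hc⟩ := hne
    obtain ⟨g, hg, hge⟩ := exists_map_dodecad hwd he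
    have hm : mapWord g w ∈ W := hinv' g hg w hw
    have hmc : mapWord g w ∈ golayCode := hle hm
    refine all_of_octad h1 hinv' (W.add_mem hw hm) (golayCode.add_mem hwc hmc) ?_
    rw [← card_support, support_add, support_mapWord, hge]
    have h5 := card_symmDiff_add (support₂ w) e
    have h6 : (support₂ w).card = 12 := by rw [card_support, h]
    have h7 : e.card = 12 := he.2
    omega
  · have hw1 : w + (fun _ => (1 : ZMod 2)) ∈ W := W.add_mem hw h1
    refine all_of_octad h1 hinv' hw1 (hle hw1) ?_
    rw [← card_support]
    have h3 : (support₂ (w + (fun _ => (1 : ZMod 2)))) = (support₂ w)ᶜ := by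
      ext p
      simp only [mem_support, Pi.add_apply, Finset.mem_compl]
      generalize w p = a
      revert a
      decide
    rw [h3, Finset.card_compl, card_support, h]
    decide
  · exact absurd h hw24

end Cfsg.Agent.S5393
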