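import Cfsg.Statements.S5394
import Cfsg.Agent.Lib.GolayInvol

set_option autoImplicit false
open Cfsg

namespace Cfsg.Agent.S5394

open Cfsg.Agent.Lib.GolayInvol Cfsg.Agent.Lib.GolayFix Cfsg.Agent.Lib.GolayPerm Cfsg.Agent.Lib.GolayInvolData in
theorem noFix_iff (g : Equiv.Perm Cfsg.GolayPt) : (∀ p, g p ≠ p) ↔ (fixF g).card = 0 := by
  rw [Finset.card_eq_zero]
  constructor
  · intro h
    rw [Finset.eq_empty_iff_forall_notMem]
    intro p hp
    exact h p (mem_fixF.mp hp)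
  · intro h p hp
    have : p ∈ fixF g := mem_fixF.mpr hp
    rw [h] at this
    simp at this


/-- The automorphism group of the length-24 code built from the squares modulo 23 has exactly two conjugacy classes of involutions: an involution either fixes exactly the eight points of an octad or has no fixed points, both kinds occur, and any two involutions of the same kind are conjugate in the group. -/
theorem result : (∀ g ∈ Cfsg.M24, orderOf g = 2 → (Finset.univ.filter fun p => g p = p) ∈ Cfsg.octads ∨ ∀ p, g p ≠ p) ∧ (∃ g ∈ Cfsg.M24, orderOf g = 2 ∧ (Finset.univ.filter fun p => g p = p) ∈ Cfsg.octads) ∧ (∃ g ∈ Cfsg.M24, orderOf g = 2 ∧ ∀ p, g p ≠ p) ∧ ∀ g ∈ Cfsg.M24, ∀ h ∈ Cfsg.M24, orderOf g = 2 → orderOf h = 2 → ((∀ p, g p ≠ p) ↔ (∀ p, h p ≠ p)) → ∃ k ∈ Cfsg.M24, k * g * k⁻¹ = h := by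
  classical
  open Cfsg.Agent.Lib.GolayInvol Cfsg.Agent.Lib.GolayFix Cfsg.Agent.Lib.GolayPerm Cfsg.Agent.Lib.GolayInvolData Cfsg.Agent.Lib.GolayDecomp in
  refine ⟨?_, ?_, ?_, ?_⟩
  · intro g hg h2
    rcases invol_classify hg h2 with ⟨h0, -⟩ | ⟨h8, -⟩
    · exact Or.inr ((noFix_iff g).mpr h0)
    · left
      convert fixF_mem_octads hg h2 h8
      ext p
      simp
  · refine ⟨toPerm rep8, toPerm_mem_M24 rep8_isAut, orderOf_rep8, ?_⟩
    convert fixF_mem_octads (toPerm_mem_M24 rep8_isAut) orderOf_rep8 card_fix_rep8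
    ext p
    simp
  · exact ⟨toPerm rep0, toPerm_mem_M24 rep0_isAut, orderOf_rep0, (noFix_iff _).mpr card_fix_rep0⟩
  · intro g hg h hh h2g h2h hiff
    rw [noFix_iff, noFix_iff] at hiff
    have hfin : ∀ r : Equiv.Perm Cfsg.GolayPt, (∃ k ∈ Cfsg.M24, k * g * k⁻¹ = r) → (∃ k ∈ Cfsg.M24, k * h * k⁻¹ = r) →
        ∃ k ∈ Cfsg.M24, k * g * k⁻¹ = h := by
      rintro r ⟨a, ha, hag⟩ ⟨b, hb, hbh⟩
      refine ⟨b⁻¹ * a, mul_mem (inv_mem hb) ha, ?_⟩
      have : (b⁻¹ * a) * g * (b⁻¹ * a)⁻¹ = b⁻¹ * (a * g * a⁻¹) * b := by group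
      rw [this, hag, ← hbh]
      group
    rcases invol_classify hg h2g with ⟨h0, e⟩ | ⟨h8, e⟩ <;>
      rcases invol_classify hh h2h with ⟨h0', e'⟩ | ⟨h8', e'⟩
    · exact hfin _ e e'
    · have := hiff.mp h0
      omega
    · have := hiff.mpr h0'
      omega
    · exact hfin _ e e'

end Cfsg.Agent.S5394
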