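import Cfsg.Statements.S5395

set_option autoImplicit false
open Cfsg

namespace Cfsg.Agent.S5395


/-- For a finite extraspecial 2-group E, an automorphism of E that induces the identity on E modulo its centre is inner (so these automorphisms form exactly the inner automorphism group, an elementary abelian 2-group of order |E|/2). -/
theorem result {E : Type*} [Group E] [Finite E] (hE : Cfsg.IsExtraspecial 2 E) (φ : E ≃* E) (hφ : ∀ x : E, φ x * x⁻¹ ∈ Subgroup.center E) : ∃ g : E, ∀ x : E, φ x = g * x * g⁻¹ := by
  open scoped commutatorElement in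
  classical
  obtain ⟨⟨h2, hfr, hcomm⟩, hcard⟩ := hE
  letI iZ : CommGroup (Subgroup.center E) :=
    { (inferInstance : Group (Subgroup.center E)) with
      mul_comm := fun a b => Subtype.ext (Subgroup.mem_center_iff.mp b.2 a.1) }
  -- a faithful character of the centre
  have hZ2 : Nat.card (Subgroup.center E) = 2 := hcard
  obtain ⟨a, ha⟩ : ∃ a : Subgroup.center E, a ≠ 1 := by
    haveI : Nontrivial (Subgroup.center E) := by
      apply (Finite.one_lt_card_iff_nontrivial).mp
      rw [hZ2]
      norm_num
    exact exists_ne 1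
  haveI : NeZero (Monoid.exponent (Subgroup.center E)) := ⟨Monoid.exponent_ne_zero_of_finite⟩
  obtain ⟨ι, hι⟩ := CommGroup.exists_apply_ne_one_of_hasEnoughRootsOfUnity (Subgroup.center E) ℂ ha
  have hιinj : ∀ x : Subgroup.center E, ι x = 1 → x = 1 := by
    intro x hx
    by_contra hne
    obtain ⟨y, -, hy⟩ := (Nat.card_eq_two_iff' (1 : Subgroup.center E)).mp hZ2
    have h1 := hy x hne
    have h3 := hy a ha
    rw [h1, ← h3] at hx
    exact hι hx
  -- the commutator homomorphisms
  have hmem : ∀ g x : E, ⁅g, x⁆ ∈ Subgroup.center E := by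
    intro g x
    rw [← hcomm]
    exact Subgroup.commutator_mem_commutator (Subgroup.mem_top g) (Subgroup.mem_top x)
  let β : E → (E →* Subgroup.center E) := fun g =>
    { toFun := fun x => ⟨⁅g, x⁆, hmem g x⟩
      map_one' := by
        apply Subtype.ext
        simp
      map_mul' := by
        intro x y
        apply Subtype.ext
        have hc := (Subgroup.mem_center_iff.mp (hmem g y)) x
        show ⁅g, x * y⁆ = ⁅g, x⁆ * ⁅g, y⁆
        rw [commutatorElement_def] at hc ⊢
        rw [commutatorElement_def, commutatorElement_def]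
        calc g * (x * y) * g⁻¹ * (x * y)⁻¹ = g * x * g⁻¹ * (g * y * g⁻¹ * y⁻¹ * x⁻¹) := by group
          _ = g * x * g⁻¹ * (x⁻¹ * (x * (g * y * g⁻¹ * y⁻¹)) * x⁻¹) := by group
          _ = g * x * g⁻¹ * (x⁻¹ * ((g * y * g⁻¹ * y⁻¹) * x) * x⁻¹) := by rw [hc]
          _ = _ := by group }
  have hβ : ∀ g x, ((β g x : Subgroup.center E) : E) = ⁅g, x⁆ := fun _ _ => rfl
  have hβmul : ∀ g h x, β (g * h) x = β g x * β h x := by
    intro g h x
    apply Subtype.ext
    show ⁅g * h, x⁆ = ⁅g, x⁆ * ⁅h, x⁆
    have hc := Subgroup.mem_center_iff.mp (hmem h x)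
    rw [commutatorElement_def] at hc ⊢
    rw [commutatorElement_def, commutatorElement_def]
    set c := h * x * h⁻¹ * x⁻¹ with hcdef
    calc g * h * x * (g * h)⁻¹ * x⁻¹ = g * c * x * g⁻¹ * x⁻¹ := by rw [hcdef]; group
      _ = c * g * x * g⁻¹ * x⁻¹ := by rw [hc g]
      _ = c * (g * x * g⁻¹ * x⁻¹) := by group
      _ = _ := (hc _).symm
  -- the dual group
  haveI : NeZero (Monoid.exponent (Abelianization E)) := ⟨Monoid.exponent_ne_zero_of_finite⟩
  have hcardHom : Nat.card (Abelianization E →* ℂˣ) = Nat.card (Abelianization E) :=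
    CommGroup.card_monoidHom_of_hasEnoughRootsOfUnity _ _
  let Ψ : E →* (Abelianization E →* ℂˣ) :=
    { toFun := fun g => Abelianization.lift (ι.comp (β g))
      map_one' := by
        apply Abelianization.hom_ext
        ext x
        have : β 1 x = 1 := by
          apply Subtype.ext
          show ⁅(1 : E), x⁆ = 1
          simp
        simp [this]
      map_mul' := by
        intro g h
        apply Abelianization.hom_ext
        ext x
        simp [hβmul] }
  have hΨ : ∀ g x, Ψ g (Abelianization.of x) = ι (β g x) := by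
    intro g x
    exact Abelianization.lift_apply_of _ _ 
  have hker : Ψ.ker = Subgroup.center E := by
    ext g
    rw [MonoidHom.mem_ker, Subgroup.mem_center_iff]
    constructor
    · intro hg x
      have h1 : ι (β g x) = 1 := by
        rw [← hΨ, hg]
        rfl
      have h2 := hιinj _ h1
      have h3 : ⁅g, x⁆ = 1 := by
        rw [← hβ, h2]
        rfl
      exact (commutatorElement_eq_one_iff_mul_comm.mp h3).symm
    · intro hg
      apply Abelianization.hom_ext
      ext x
      rw [MonoidHom.comp_apply, hΨ]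
      have h1 : β g x = 1 := by
        apply Subtype.ext
        show ⁅g, x⁆ = 1
        exact commutatorElement_eq_one_iff_mul_comm.mpr (hg x).symm
      rw [h1]
      simp
  have hsurj : Function.Surjective Ψ := by
    rw [← MonoidHom.range_eq_top]
    apply Subgroup.eq_top_of_card_eq
    rw [hcardHom]
    have h1 : Nat.card Ψ.range = Nat.card (E ⧸ Ψ.ker) :=
      (Nat.card_congr (QuotientGroup.quotientKerEquivRange Ψ).toEquiv).symm
    rw [h1, hker]
    show Nat.card (E ⧸ Subgroup.center E) = Nat.card (E ⧸ commutator E)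
    rw [hcomm]
  let f : E →* Subgroup.center E :=
    { toFun := fun x => ⟨φ x * x⁻¹, hφ x⟩
      map_one' := by
        apply Subtype.ext
        simp
      map_mul' := by
        intro x y
        apply Subtype.ext
        have hc := Subgroup.mem_center_iff.mp (hφ y)
        show φ (x * y) * (x * y)⁻¹ = φ x * x⁻¹ * (φ y * y⁻¹)
        rw [map_mul]
        calc φ x * φ y * (x * y)⁻¹ = φ x * (φ y * y⁻¹) * x⁻¹ := by group
          _ = φ x * (x⁻¹ * (x * (φ y * y⁻¹))) * x⁻¹ := by group
          _ = φ x * (x⁻¹ * ((φ y * y⁻¹) * x)) * x⁻¹ := by rw [hc]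
          _ = _ := by group }
  obtain ⟨g, hg⟩ := hsurj (Abelianization.lift (ι.comp f))
  refine ⟨g, fun x => ?_⟩
  have h1 : ι (β g x) = ι (f x) := by
    rw [← hΨ, hg]
    exact Abelianization.lift_apply_of _ _
  have h2 : β g x = f x := by
    have h3 : ι (β g x * (f x)⁻¹) = 1 := by
      rw [map_mul, map_inv, h1, mul_inv_cancel]
    have h4 := hιinj _ h3
    exact mul_inv_eq_one.mp h4
  have h3 : ⁅g, x⁆ = φ x * x⁻¹ := congrArg Subtype.val h2
  rw [commutatorElement_def] at h3
  exact (mul_right_cancel h3).symm

end Cfsg.Agent.S5395
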