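import Cfsg.Statements.S5420
import Cfsg.Agent.Lib.FusionAlperin

set_option autoImplicit false
open Cfsg

namespace Cfsg.Agent.S5420


/-- Let Q be an extraspecial 2-subgroup of the finite group G whose centralizer in G is its centre Z and which is normal in the centralizer of Z. If Z lies in the largest normal 2-subgroup of G, then Q is a large extraspecial 2-subgroup of G: it normalizes no non-trivial subgroup of G of odd order. -/
theorem result {G : Type*} [Group G] [Finite G] (Q : Subgroup G) (hL1 : Cfsg.IsExtraspecial 2 ↥Q) (hL2 : Subgroup.centralizer (Q : Set G) = ((Subgroup.center ↥Q).map Q.subtype)) (hL3 : Subgroup.centralizer (((Subgroup.center ↥Q).map Q.subtype) : Set G) ≤ Subgroup.normalizer (Q : Set G)) (hZ : ((Subgroup.center ↥Q).map Q.subtype) ≤ Cfsg.pCore 2 G) : Cfsg.IsLargeExtraspecial Q := by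
  open Cfsg.Agent.Lib.FusionAlperin in
  haveI : Fact (Nat.Prime 2) := ⟨Nat.prime_two⟩
  refine ⟨hL1, hL2, hL3, ?_⟩
  intro K hK hQK
  set Z : Subgroup G := (Subgroup.center ↥Q).map Q.subtype with hZdef
  have hOdd : ∀ x ∈ K, ∀ k : ℕ, x ^ 2 ^ k = 1 → x = 1 := by
    intro x hx k hk
    have h1 : orderOf x ∣ 2 ^ k := orderOf_dvd_of_pow_eq_one hk
    have h2 : orderOf x ∣ Nat.card K := by
      have := orderOf_dvd_natCard (⟨x, hx⟩ : K)
      rwa [Subgroup.orderOf_mk] at this
    have h3 : orderOf x ∣ 1 := by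
      have := Nat.dvd_gcd h1 h2
      have hc : Nat.Coprime (2 ^ k) (Nat.card K) := Nat.Coprime.pow_left k (Nat.coprime_two_left.mpr hK)
      rwa [hc.gcd_eq_one] at this
    exact orderOf_eq_one_iff.mp (Nat.dvd_one.mp h3)
  -- `K` centralizes `Z`
  have hKZ : K ≤ Subgroup.centralizer (Z : Set G) := by
    intro k hk
    rw [Subgroup.mem_centralizer_iff]
    intro z hz
    have hzO : z ∈ Cfsg.pCore 2 G := hZ hz
    have hzQ : z ∈ Q := by
      obtain ⟨w, -, rfl⟩ := hz
      exact w.2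
    have hn : (Cfsg.pCore 2 G).Normal := pCore_normal' (X := G) 2
    have hp : IsPGroup 2 (Cfsg.pCore 2 G) := isPGroup_pCore' (X := G) 2
    -- the commutator lies in `K` and in `O₂`
    have h1 : z * k * z⁻¹ * k⁻¹ ∈ K := by
      have h2 := (Subgroup.mem_normalizer_iff.mp (hQK hzQ) k).mp hk
      exact K.mul_mem h2 (K.inv_mem hk)
    have h2 : z * k * z⁻¹ * k⁻¹ ∈ Cfsg.pCore 2 G := by
      have h3 := hn.conj_mem z⁻¹ ((Cfsg.pCore 2 G).inv_mem hzO) k
      have e : z * k * z⁻¹ * k⁻¹ = z * (k * z⁻¹ * k⁻¹) := by group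
      rw [e]
      exact (Cfsg.pCore 2 G).mul_mem hzO h3
    obtain ⟨n, hn2⟩ := hp ⟨_, h2⟩
    have h4 : (z * k * z⁻¹ * k⁻¹) ^ 2 ^ n = 1 := by
      have := congrArg Subtype.val hn2
      simpa using this
    have h5 := hOdd _ h1 n h4
    have h6 : z * k * z⁻¹ = k := mul_inv_eq_one.mp h5
    calc z * k = z * k * z⁻¹ * z := by group
      _ = k * z := by rw [h6]
  -- `K` normalizes `Q`, and so centralizes it
  have hKQ : K ≤ Subgroup.centralizer (Q : Set G) := by
    intro k hk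
    rw [Subgroup.mem_centralizer_iff]
    intro q hq
    have hkN := hL3 (hKZ hk)
    have h1 : q * k * q⁻¹ * k⁻¹ ∈ K := by
      have h2 := (Subgroup.mem_normalizer_iff.mp (hQK hq) k).mp hk
      exact K.mul_mem h2 (K.inv_mem hk)
    have h2 : q * k * q⁻¹ * k⁻¹ ∈ Q := by
      have h3 := (Subgroup.mem_normalizer_iff.mp hkN q⁻¹).mp (Q.inv_mem hq)
      have e : q * k * q⁻¹ * k⁻¹ = q * (k * q⁻¹ * k⁻¹) := by group
      rw [e]
      exact Q.mul_mem hq h3
    obtain ⟨n, hn2⟩ := hL1.1.1 ⟨_, h2⟩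
    have h4 : (q * k * q⁻¹ * k⁻¹) ^ 2 ^ n = 1 := by
      have := congrArg Subtype.val hn2
      simpa using this
    have h5 := hOdd _ h1 n h4
    have h6 : q * k * q⁻¹ = k := mul_inv_eq_one.mp h5
    calc q * k = q * k * q⁻¹ * q := by group
      _ = k * q := by rw [h6]
  rw [eq_bot_iff]
  intro k hk
  have h1 : k ∈ Z := by
    rw [← hL2]
    exact hKQ hk
  have hkQ : k ∈ Q := by
    obtain ⟨w, -, rfl⟩ := h1
    exact w.2
  obtain ⟨n, hn2⟩ := hL1.1.1 ⟨k, hkQ⟩
  have h4 : k ^ 2 ^ n = 1 := by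
    have := congrArg Subtype.val hn2
    simpa using this
  exact hOdd k hk n h4

end Cfsg.Agent.S5420
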