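import Cfsg.Statements.S5422
import Cfsg.Agent.Lib.LargeExtra
import Cfsg.Agent.S5421

set_option autoImplicit false
open Cfsg

namespace Cfsg.Agent.S5422


/-- Let Q be an extraspecial 2-subgroup of the finite group G whose centralizer in G is its centre Z and which is normal in the centralizer of Z; suppose Q has width at least 2 (order 2^(2w+1) with w ≥ 2) and g is an element of G not normalizing Z with g Z g⁻¹ inside Q. Then Z lies inside g Q g⁻¹; writing V for the subgroup generated by Z and g Z g⁻¹ (a four-group), the normalizer of V induces on V its full automorphism group, that is, the centralizer of V has index 6 in the normalizer of V; and Q is a large extraspecial 2-subgroup of G. -/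
theorem result {G : Type*} [Group G] [Finite G] (Q : Subgroup G) (hL1 : Cfsg.IsExtraspecial 2 ↥Q) (hL2 : Subgroup.centralizer (Q : Set G) = ((Subgroup.center ↥Q).map Q.subtype)) (hL3 : Subgroup.centralizer (((Subgroup.center ↥Q).map Q.subtype) : Set G) ≤ Subgroup.normalizer (Q : Set G)) (w : ℕ) (hw : 2 ≤ w) (hcard : Nat.card ↥Q = 2 ^ (2 * w + 1)) (g : G) (hg : g ∉ Subgroup.normalizer (((Subgroup.center ↥Q).map Q.subtype) : Set G)) (hZg : (((Subgroup.center ↥Q).map Q.subtype)).map (MulAut.conj g).toMonoidHom ≤ Q) : ((Subgroup.center ↥Q).map Q.subtype) ≤ (Q).map (MulAut.conj g).toMonoidHom ∧ (Subgroup.centralizer ((((Subgroup.center ↥Q).map Q.subtype) ⊔ (((Subgroup.center ↥Q).map Q.subtype)).map (MulAut.conj g).toMonoidHom : Subgroup G) : Set G)).relIndex (Subgroup.normalizer ((((Subgroup.center ↥Q).map Q.subtype) ⊔ (((Subgroup.center ↥Q).map Q.subtype)).map (MulAut.conj g).toMonoidHom : Subgroup G) : Set G)) = 6 ∧ Cfsg.IsLargeExtraspecial Q := by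
  classical
  open Cfsg.Agent.Lib.LargeExtra in
  obtain ⟨z, hES, hZmem⟩ := exists_ES hL1
  open Cfsg.Agent.Lib.LargeExtra in
  have hES' := hES.conj g
  set Z := (Subgroup.center ↥Q).map Q.subtype with hZdef
  set z' := g * z * g⁻¹ with hz'def
  set Q' := Q.map (MulAut.conj g).toMonoidHom with hQ'def
  have hmem : ∀ x, x ∈ Q' ↔ g⁻¹ * x * g ∈ Q := by
    intro x
    constructor
    · rintro ⟨a, ha, rfl⟩
      have : g⁻¹ * ((MulAut.conj g).toMonoidHom a) * g = a := by
        simp [MulAut.conj_apply]
        group
      rw [this]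
      exact ha
    · intro hx
      refine ⟨_, hx, ?_⟩
      simp [MulAut.conj_apply]
      group
  have hz'Q : z' ∈ Q := hZg ⟨z, (hZmem z).mpr (Or.inr rfl), rfl⟩
  have hz1 : z ≠ 1 := hES.ne_one
  have hz'1 : z' ≠ 1 := hES'.ne_one
  have hne : z' ≠ z := by
    intro h
    apply hg
    rw [Subgroup.mem_normalizer_iff]
    intro x
    constructor
    · intro hx
      rcases (hZmem x).mp hx with rfl | rfl
      · simpa using Z.one_mem
      · have : g * x * g⁻¹ = x := h
        rw [this]
        exact hx
    · intro hx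
      rcases (hZmem _).mp hx with h1 | h1
      · have : x = 1 := by
          have h2 : x = g⁻¹ * (g * x * g⁻¹) * g := by group
          rw [h2, h1]
          group
        rw [this]
        exact Z.one_mem
      · have : x = z := by
          have h2 : x = g⁻¹ * (g * x * g⁻¹) * g := by group
          have h3 : z = g⁻¹ * (g * z * g⁻¹) * g := by group
          rw [h2, h1]
          have h4 : g⁻¹ * z * g = z := by
            nth_rewrite 1 [← h]
            rw [hz'def]
            group
          exact h4
        rw [this]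
        exact (hZmem z).mpr (Or.inr rfl)
  have N1 : ∀ x, x * z = z * x → ∀ a ∈ Q, x * a * x⁻¹ ∈ Q := by
    intro x hx a ha
    have hxC : x ∈ Subgroup.centralizer (Z : Set G) := by
      rw [Subgroup.mem_centralizer_iff]
      intro w hw
      rcases (hZmem w).mp hw with rfl | rfl
      · simp
      · exact hx.symm
    exact (Subgroup.mem_normalizer_iff.mp (hL3 hxC) a).mp ha
  have N2 : ∀ x, x * z' = z' * x → ∀ a ∈ Q', x * a * x⁻¹ ∈ Q' := by
    intro x hx a ha
    rw [hmem] at ha ⊢
    have h1 : (g⁻¹ * x * g) * z = z * (g⁻¹ * x * g) := by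
      have : x * (g * z * g⁻¹) = (g * z * g⁻¹) * x := hx
      calc (g⁻¹ * x * g) * z = g⁻¹ * (x * (g * z * g⁻¹)) * g := by group
        _ = g⁻¹ * ((g * z * g⁻¹) * x) * g := by rw [this]
        _ = _ := by group
    have h2 := N1 _ h1 _ ha
    have h3 : (g⁻¹ * x * g) * (g⁻¹ * a * g) * (g⁻¹ * x * g)⁻¹ = g⁻¹ * (x * a * x⁻¹) * g := by group
    rwa [h3] at h2
  have CQ' : ∀ x, (∀ a ∈ Q', a * x = x * a) → x = 1 ∨ x = z' := by
    intro x hx
    have h1 : g⁻¹ * x * g ∈ Subgroup.centralizer (Q : Set G) := by
      rw [Subgroup.mem_centralizer_iff]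
      intro a ha
      have ha' : g * a * g⁻¹ ∈ Q' := ⟨a, ha, rfl⟩
      have h2 := hx _ ha'
      calc a * (g⁻¹ * x * g) = g⁻¹ * ((g * a * g⁻¹) * x) * g := by group
        _ = g⁻¹ * (x * (g * a * g⁻¹)) * g := by rw [h2]
        _ = _ := by group
    rw [hL2] at h1
    rcases (hZmem _).mp h1 with h2 | h2
    · left
      have h3 : x = g * (g⁻¹ * x * g) * g⁻¹ := by group
      rw [h3, h2]
      group
    · right
      have h3 : x = g * (g⁻¹ * x * g) * g⁻¹ := by group
      rw [h3, h2]
  -- non-abelian stabilizer of z'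
  open Cfsg.Agent.Lib.LargeExtra in
  obtain ⟨y, hyQ, hy⟩ := exists_swap hES hz'Q hz'1 hne
  open Cfsg.Agent.Lib.LargeExtra in
  obtain ⟨r, hr, r', hr', hrz, hr'z, hrr⟩ : ∃ r ∈ Q, ∃ r' ∈ Q, r * z' = z' * r ∧ r' * z' = z' * r' ∧ B r r' = z := by
    by_contra hcon
    push Not at hcon
    have hab : ∀ r ∈ Q, ∀ r' ∈ Q, r * z' = z' * r → r' * z' = z' * r' → B r r' = 1 := by
      intro r hr r' hr' h1 h2
      exact (hES.comm r hr r' hr').resolve_right (hcon r hr r' hr' h1 h2)
    have hzinv : z⁻¹ = z := inv_z hES
    have hz'inv : z'⁻¹ = z' := inv_z hES'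
    have hsplit : ∀ q ∈ Q, q * z' = z' * q ∨ (y⁻¹ * q) * z' = z' * (y⁻¹ * q) := by
      intro q hq
      rcases hES.comm q hq z' hz'Q with h1 | h1
      · exact Or.inl (B_eq_one_iff.mp h1)
      · right
        apply B_eq_one_iff.mp
        rw [B_mul_left hES (Q.inv_mem hyQ) hq hz'Q, B_inv_left hES hyQ hz'Q, hy, h1, hzinv, hES.sq]
    have hW : ∀ r ∈ Q, r * z' = z' * r → r = 1 ∨ r = z ∨ r = z' ∨ r = z * z' := by
      intro r hr hrz
      have hgen : ∀ t ∈ Q, t * z' = z' * t → B t y = 1 → ∀ q ∈ Q, t * q = q * t := by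
        intro t ht htz hty q hq
        apply B_eq_one_iff.mp
        rcases hsplit q hq with h1 | h1
        · exact hab t ht q hq htz h1
        · have h2 := hab t ht _ (Q.mul_mem (Q.inv_mem hyQ) hq) htz h1
          have h3 : q = y * (y⁻¹ * q) := by group
          rw [h3, B_mul_right hES ht hyQ (Q.mul_mem (Q.inv_mem hyQ) hq), hty, h2, one_mul]
      by_cases hry : B r y = 1
      · rcases hES.cen r hr (hgen r hr hrz hry) with h1 | h1
        · exact Or.inl h1
        · exact Or.inr (Or.inl h1)
      · have hryz : B r y = z := (hES.comm r hr y hyQ).resolve_left hry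
        have hrz'Q : r * z' ∈ Q := Q.mul_mem hr hz'Q
        have hrz'c : (r * z') * z' = z' * (r * z') := by
          calc (r * z') * z' = r * (z' * z') := by group
            _ = r * 1 := by rw [hES'.sq]
            _ = (r * z') * z'⁻¹ := by group
            _ = (z' * r) * z'⁻¹ := by rw [hrz]
            _ = z' * r * z' := by rw [hz'inv]
            _ = _ := by group
        have hty : B (r * z') y = 1 := by
          rw [B_mul_left hES hr hz'Q hyQ, hryz, B_swap y z', hy, hzinv, hES.sq]
        rcases hES.cen _ hrz'Q (hgen _ hrz'Q hrz'c hty) with h1 | h1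
        · right; right; left
          have h2 := eq_inv_of_mul_eq_one_left h1
          rw [h2, hz'inv]
        · right; right; right
          have h2 := eq_mul_inv_of_mul_eq h1
          rw [h2, hz'inv]
    have hsub : ∀ q ∈ Q, q ∈ ([1, z, z', z * z', y, y * z, y * z', y * (z * z')] : List G) := by
      intro q hq
      rcases hsplit q hq with h1 | h1
      · rcases hW q hq h1 with rfl | rfl | rfl | rfl <;> simp
      · have hq' : q = y * (y⁻¹ * q) := by group
        rcases hW _ (Q.mul_mem (Q.inv_mem hyQ) hq) h1 with h2 | h2 | h2 | h2 <;> rw [hq', h2] <;> simp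
    have hle : Nat.card Q ≤ 8 := by
      have h1 : ((Q : Set G)).ncard ≤ ((([1, z, z', z * z', y, y * z, y * z', y * (z * z')] : List G).toFinset : Finset G) : Set G).ncard := by
        apply Set.ncard_le_ncard
        · intro q hq
          simpa using hsub q hq
        · exact Finset.finite_toSet _
      rw [Set.ncard_coe_finset] at h1
      have h2 := List.toFinset_card_le ([1, z, z', z * z', y, y * z, y * z', y * (z * z')] : List G)
      have h3 : Nat.card Q = (Q : Set G).ncard := (Nat.card_coe_set_eq _)
      rw [h3]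
      simpa using h1.trans h2
    rw [hcard] at hle
    have h4 : (2 : ℕ) ^ 5 ≤ 2 ^ (2 * w + 1) := Nat.pow_le_pow_right (by norm_num) (by omega)
    omega
  open Cfsg.Agent.Lib.LargeExtra in
  have hzQ' : z ∈ Q' := core hES hES' hmem rfl hz'Q hne N1 N2 CQ' hr hr' hrz hr'z hrr
  refine ⟨?_, ?_, ?_⟩
  · intro x hx
    rcases (hZmem x).mp hx with rfl | rfl
    · exact Q'.one_mem
    · exact hzQ'
  · open Cfsg.Agent.Lib.LargeExtra in
    obtain ⟨k, hkQ, hk⟩ := exists_swap hES' hzQ' hz1 hne.symm
    have hzsq : z * z = 1 := hES.sq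
    have hz'sq : z' * z' = 1 := hES'.sq
    have hzz' : z' * z = z * z' := hES.zcen z' hz'Q
    have hyc : y * z * y⁻¹ = z := by
      have : y * z = z * y := hES.zcen y hyQ
      rw [this]
      group
    have hyic : y⁻¹ * z * y = z := by
      have : y * z = z * y := hES.zcen y hyQ
      calc y⁻¹ * z * y = y⁻¹ * (z * y) := by group
        _ = y⁻¹ * (y * z) := by rw [this]
        _ = z := by group
    have hkc : k * z' * k⁻¹ = z' := by
      have : k * z' = z' * k := hES'.zcen k hkQ
      rw [this]
      group
    have hkic : k⁻¹ * z' * k = z' := by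
      have : k * z' = z' * k := hES'.zcen k hkQ
      calc k⁻¹ * z' * k = k⁻¹ * (z' * k) := by group
        _ = k⁻¹ * (k * z') := by rw [this]
        _ = z' := by group
    open Cfsg.Agent.Lib.LargeExtra in
    have hy1 : y * z' * y⁻¹ = z * z' := swap_conj hES hyQ hy
    open Cfsg.Agent.Lib.LargeExtra in
    have hy2 : y⁻¹ * z' * y = z * z' := swap_conj_inv hES hyQ hy
    open Cfsg.Agent.Lib.LargeExtra in
    have hk1 : k * z * k⁻¹ = z * z' := by
      rw [swap_conj hES' hkQ hk, hzz']
    open Cfsg.Agent.Lib.LargeExtra in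
    have hk2 : k⁻¹ * z * k = z * z' := by
      rw [swap_conj_inv hES' hkQ hk, hzz']
    have hconjmul : ∀ n a b : G, n * (a * b) * n⁻¹ = (n * a * n⁻¹) * (n * b * n⁻¹) := by
      intro n a b
      group
    have hy3 : y * (z * z') * y⁻¹ = z' := by
      rw [hconjmul, hyc, hy1, ← mul_assoc, hzsq, one_mul]
    have hy4 : y⁻¹ * (z * z') * y = z' := by
      have : y⁻¹ * (z * z') * y = (y⁻¹ * z * y) * (y⁻¹ * z' * y) := by group
      rw [this, hyic, hy2, ← mul_assoc, hzsq, one_mul]
    have hk3 : k * (z * z') * k⁻¹ = z := by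
      rw [hconjmul, hk1, hkc, mul_assoc, hz'sq, mul_one]
    have hk4 : k⁻¹ * (z * z') * k = z := by
      have : k⁻¹ * (z * z') * k = (k⁻¹ * z * k) * (k⁻¹ * z' * k) := by group
      rw [this, hk2, hkic, mul_assoc, hz'sq, mul_one]
    set V : Subgroup G := Z ⊔ Z.map (MulAut.conj g).toMonoidHom with hVdef
    have hZg' : ∀ x, x ∈ Z.map (MulAut.conj g).toMonoidHom ↔ x = 1 ∨ x = z' := by
      intro x
      constructor
      · rintro ⟨a, ha, rfl⟩
        rcases (hZmem a).mp ha with rfl | rfl
        · left
          exact map_one _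
        · right
          rfl
      · rintro (rfl | rfl)
        · exact Subgroup.one_mem _
        · exact ⟨z, (hZmem z).mpr (Or.inr rfl), rfl⟩
    have hV : ∀ x, x ∈ V ↔ x = 1 ∨ x = z ∨ x = z' ∨ x = z * z' := by
      intro x
      constructor
      · intro hx
        open Cfsg.Agent.Lib.LargeExtra in
        obtain ⟨a, ha, c, hc, rfl⟩ := mem_sup_of_comm (A := Z) (C := Z.map (MulAut.conj g).toMonoidHom) (by
          intro a ha c hc
          rcases (hZmem a).mp ha with rfl | rfl
          · simp
          · rcases (hZg' c).mp hc with rfl | rfl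
            · simp
            · exact hzz'.symm) hx
        rcases (hZmem a).mp ha with rfl | rfl <;> rcases (hZg' c).mp hc with rfl | rfl <;> simp
      · have h1 : z ∈ V := Subgroup.mem_sup_left ((hZmem z).mpr (Or.inr rfl))
        have h2 : z' ∈ V := Subgroup.mem_sup_right ((hZg' z').mpr (Or.inr rfl))
        rintro (rfl | rfl | rfl | rfl)
        · exact V.one_mem
        · exact h1
        · exact h2
        · exact V.mul_mem h1 h2
    have hVne : ∀ x, (x ∈ V ∧ x ≠ 1) ↔ x = z ∨ x = z' ∨ x = z * z' := by
      intro x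
      rw [hV]
      constructor
      · rintro ⟨h1 | h1, h2⟩
        · exact absurd h1 h2
        · exact h1
      · intro h
        refine ⟨Or.inr h, ?_⟩
        rcases h with rfl | rfl | rfl
        · exact hz1
        · exact hz'1
        · intro h1
          apply hne
          have := eq_inv_of_mul_eq_one_right h1
          rw [this, inv_eq_iff_mul_eq_one]
          exact hzsq
    set N := Subgroup.normalizer (V : Set G) with hNdef
    have hNmem : ∀ n : G, (∀ h ∈ V, n * h * n⁻¹ ∈ V) → (∀ h ∈ V, n⁻¹ * h * n ∈ V) → n ∈ N := by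
      intro n h1 h2
      rw [hNdef, Subgroup.mem_normalizer_iff]
      intro h
      constructor
      · exact h1 h
      · intro h3
        have := h2 _ h3
        have h4 : n⁻¹ * (n * h * n⁻¹) * n = h := by group
        rwa [h4] at this
    have hyN : y ∈ N := by
      apply hNmem
      · intro h hh
        rw [hV] at hh ⊢
        rcases hh with rfl | rfl | rfl | rfl
        · left; group
        · right; left; exact hyc
        · right; right; right; exact hy1
        · right; right; left; exact hy3
      · intro h hh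
        rw [hV] at hh ⊢
        rcases hh with rfl | rfl | rfl | rfl
        · left; group
        · right; left; exact hyic
        · right; right; right; exact hy2
        · right; right; left; exact hy4
    have hkN : k ∈ N := by
      apply hNmem
      · intro h hh
        rw [hV] at hh ⊢
        rcases hh with rfl | rfl | rfl | rfl
        · left; group
        · right; right; right; exact hk1
        · right; right; left; exact hkc
        · right; left; exact hk3
      · intro h hh
        rw [hV] at hh ⊢
        rcases hh with rfl | rfl | rfl | rfl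
        · left; group
        · right; right; right; exact hk2
        · right; right; left; exact hkic
        · right; left; exact hk4
    -- the action on the three involutions
    let Ω : Set G := {a | a ∈ V ∧ a ≠ 1}
    have hΩact : ∀ (n : N) (a : G), a ∈ Ω ↔ (MulAut.conj (n : G)).toEquiv a ∈ Ω := by
      intro n a
      show (a ∈ V ∧ a ≠ 1) ↔ ((n : G) * a * (n : G)⁻¹ ∈ V ∧ (n : G) * a * (n : G)⁻¹ ≠ 1)
      have h1 := Subgroup.mem_normalizer_iff.mp n.2 a
      rw [h1]
      constructor
      · rintro ⟨h2, h3⟩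
        refine ⟨h2, fun h4 => h3 ?_⟩
        have h5 : a = (n : G)⁻¹ * ((n : G) * a * (n : G)⁻¹) * n := by group
        rw [h5, h4]
        group
      · rintro ⟨h2, h3⟩
        refine ⟨h2, fun h4 => h3 ?_⟩
        rw [h4]
        group
    let φ : N →* Equiv.Perm Ω :=
      { toFun := fun n => (MulAut.conj (n : G)).toEquiv.subtypeEquiv (hΩact n)
        map_one' := by
          ext a
          simp
        map_mul' := by
          intro m n
          ext a
          simp [MulAut.conj_apply, mul_assoc] }
    have hφ : ∀ (n : N) (a : Ω), ((φ n a : Ω) : G) = (n : G) * a * (n : G)⁻¹ := fun _ _ => rfl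
    have hker : (Subgroup.centralizer (V : Set G)).subgroupOf N = φ.ker := by
      ext n
      rw [Subgroup.mem_subgroupOf, MonoidHom.mem_ker, Subgroup.mem_centralizer_iff]
      constructor
      · intro h
        ext a
        show (n : G) * (a : G) * (n : G)⁻¹ = a
        have := h a a.2.1
        rw [← this]
        group
      · intro h a ha
        by_cases ha1 : a = 1
        · rw [ha1]
          simp
        · have h1 := hφ n ⟨a, ha, ha1⟩
          rw [h] at h1
          have h2 : a = (n : G) * a * (n : G)⁻¹ := h1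
          calc a * n = ((n : G) * a * (n : G)⁻¹) * n := by rw [← h2]
            _ = _ := by group
    rw [Subgroup.relIndex, hker, Subgroup.index_ker]
    have hΩcard : Nat.card Ω = 3 := by
      rw [Nat.card_coe_set_eq, Set.ncard_eq_three]
      refine ⟨z, z', z * z', hne.symm, ?_, ?_, ?_⟩
      · intro h
        exact hz'1 (by simpa using h)
      · intro h
        exact hz1 (by simpa using h.symm)
      · ext x
        exact hVne x
    have hpermcard : Nat.card (Equiv.Perm Ω) = 6 := by
      haveI : Fintype Ω := Fintype.ofFinite _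
      rw [Nat.card_eq_fintype_card, Fintype.card_perm, ← Nat.card_eq_fintype_card, hΩcard]
      rfl
    have hzΩ : z ∈ Ω := (hVne z).mpr (Or.inl rfl)
    have hz'Ω : z' ∈ Ω := (hVne z').mpr (Or.inr (Or.inl rfl))
    have hzz'Ω : z * z' ∈ Ω := (hVne _).mpr (Or.inr (Or.inr rfl))
    have hΩcases : ∀ a : Ω, a = ⟨z, hzΩ⟩ ∨ a = ⟨z', hz'Ω⟩ ∨ a = ⟨z * z', hzz'Ω⟩ := by
      intro a
      rcases (hVne a).mp a.2 with h | h | h
      · left; exact Subtype.ext h
      · right; left; exact Subtype.ext h
      · right; right; exact Subtype.ext h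
    -- element of order 2 in the image
    have hord2 : orderOf (φ ⟨y, hyN⟩) = 2 := by
      apply orderOf_eq_prime
      · rw [pow_two]
        ext a
        show y * (y * (a : G) * y⁻¹) * y⁻¹ = a
        rcases hΩcases a with rfl | rfl | rfl
        · show y * (y * z * y⁻¹) * y⁻¹ = z
          rw [hyc, hyc]
        · show y * (y * z' * y⁻¹) * y⁻¹ = z'
          rw [hy1, hy3]
        · show y * (y * (z * z') * y⁻¹) * y⁻¹ = z * z'
          rw [hy3, hy1]
      · intro h
        have h1 := hφ ⟨y, hyN⟩ ⟨z', hz'Ω⟩
        rw [h] at h1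
        have h2 : z' = z * z' := by
          rw [← hy1]
          exact h1
        exact hz1 (by simpa using h2.symm)
    have hρN : y * k ∈ N := N.mul_mem hyN hkN
    have hρ1 : (y * k) * z * (y * k)⁻¹ = z' := by
      have : (y * k) * z * (y * k)⁻¹ = y * (k * z * k⁻¹) * y⁻¹ := by group
      rw [this, hk1, hy3]
    have hρ2 : (y * k) * z' * (y * k)⁻¹ = z * z' := by
      have : (y * k) * z' * (y * k)⁻¹ = y * (k * z' * k⁻¹) * y⁻¹ := by group
      rw [this, hkc, hy1]
    have hρ3 : (y * k) * (z * z') * (y * k)⁻¹ = z := by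
      have : (y * k) * (z * z') * (y * k)⁻¹ = y * (k * (z * z') * k⁻¹) * y⁻¹ := by group
      rw [this, hk3, hyc]
    have hord3 : orderOf (φ ⟨y * k, hρN⟩) = 3 := by
      apply orderOf_eq_prime
      · ext a
        show (y * k) * ((y * k) * ((y * k) * (a : G) * (y * k)⁻¹) * (y * k)⁻¹) * (y * k)⁻¹ = a
        rcases hΩcases a with rfl | rfl | rfl
        · show (y * k) * ((y * k) * ((y * k) * z * (y * k)⁻¹) * (y * k)⁻¹) * (y * k)⁻¹ = z
          rw [hρ1, hρ2, hρ3]
        · show (y * k) * ((y * k) * ((y * k) * z' * (y * k)⁻¹) * (y * k)⁻¹) * (y * k)⁻¹ = z'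
          rw [hρ2, hρ3, hρ1]
        · show (y * k) * ((y * k) * ((y * k) * (z * z') * (y * k)⁻¹) * (y * k)⁻¹) * (y * k)⁻¹ = z * z'
          rw [hρ3, hρ1, hρ2]
      · intro h
        have h1 := hφ ⟨y * k, hρN⟩ ⟨z, hzΩ⟩
        rw [h] at h1
        have h2 : z = z' := by
          rw [← hρ1]
          exact h1
        exact hne h2.symm
    have hd2 : 2 ∣ Nat.card φ.range := by
      have h1 := orderOf_dvd_natCard (⟨φ ⟨y, hyN⟩, ⟨⟨y, hyN⟩, rfl⟩⟩ : φ.range)
      rw [← Subgroup.orderOf_coe] at h1
      have h2 : orderOf (φ ⟨y, hyN⟩) ∣ Nat.card φ.range := h1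
      rwa [hord2] at h2
    have hd3 : 3 ∣ Nat.card φ.range := by
      have h1 := orderOf_dvd_natCard (⟨φ ⟨y * k, hρN⟩, ⟨⟨y * k, hρN⟩, rfl⟩⟩ : φ.range)
      rw [← Subgroup.orderOf_coe] at h1
      have h2 : orderOf (φ ⟨y * k, hρN⟩) ∣ Nat.card φ.range := h1
      rwa [hord3] at h2
    have hd6 : 6 ∣ Nat.card φ.range := Nat.Coprime.mul_dvd_of_dvd_of_dvd (by norm_num : Nat.Coprime 2 3) hd2 hd3
    have hd6' : Nat.card φ.range ∣ 6 := by
      have := Subgroup.card_subgroup_dvd_card φ.range
      rwa [hpermcard] at this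
    exact Nat.dvd_antisymm hd6' hd6
  · have hzC : z ∈ Subgroup.centralizer ({z'} : Set G) := by
      rw [Subgroup.mem_centralizer_iff]
      intro w hw
      have hw' : w = z' := hw
      rw [hw']
      exact (hES'.zcen z hzQ').symm
    refine Cfsg.Agent.S5421.result Q hL1 hL2 hL3 z' hz'Q ?_ ?_ ?_
    · intro h
      rcases (hZmem _).mp h with h1 | h1
      · exact hz'1 h1
      · exact hne h1
    · exact orderOf_eq_prime (by rw [pow_two]; exact hES'.sq) hz'1
    · intro x hx
      rcases (hZmem x).mp hx with rfl | rfl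
      · exact Subgroup.one_mem _
      · refine ⟨⟨x, hzC⟩, ?_, rfl⟩
        have hle : Q'.subgroupOf (Subgroup.centralizer ({z'} : Set G)) ≤ Cfsg.pCore 2 ↥(Subgroup.centralizer ({z'} : Set G)) := by
          apply le_sSup
          refine ⟨⟨?_⟩, ?_⟩
          · intro n hn c
            rw [Subgroup.mem_subgroupOf] at hn ⊢
            have hcz : (c : G) * z' = z' * c := by
              have := Subgroup.mem_centralizer_iff.mp c.2 z' rfl
              exact this.symm
            exact N2 _ hcz _ hn
          · intro t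
            refine ⟨2, ?_⟩
            have hxt : ((t : Subgroup.centralizer ({z'} : Set G)) : G) ∈ Q' := Subgroup.mem_subgroupOf.mp t.2
            apply Subtype.ext
            apply Subtype.ext
            have hp4 : ∀ u : G, u ^ (2 ^ 2) = (u * u) * (u * u) := by
              intro u
              rw [show (2 : ℕ) ^ 2 = 2 + 2 from rfl, pow_add, pow_two]
            have h5 : (((t : Subgroup.centralizer ({z'} : Set G)) : G)) ^ (2 ^ 2) = 1 := by
              rw [hp4]
              rcases hES'.pow2 _ hxt with h6 | h6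
              · rw [h6, one_mul]
              · rw [h6]
                exact hES'.sq
            simpa using h5
        exact hle (Subgroup.mem_subgroupOf.mpr hzQ')

end Cfsg.Agent.S5422
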