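import Cfsg.Statements.S5427
import Cfsg.Agent.Lib.LargeExtraF

set_option autoImplicit false
open Cfsg

namespace Cfsg.Agent.S5427


/-- Let z be an involution of the finite group G whose centralizer C has generalized Fitting subgroup Q, an extraspecial 2-group of width at least 2 (order 2^(2w+1), w ≥ 2). Let K be a subgroup of G such that the subgroup U generated by the K-conjugates of z is abelian and C is generated by the C-conjugates of U. Suppose that either some K-conjugate of z other than z lies in Q, or some element u of U ∩ Q outside the subgroup generated by z has z in the largest normal 2-subgroup of its centralizer. Then G is simple and Q is a large extraspecial 2-subgroup of G. -/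
theorem result {G : Type*} [Group G] [Finite G] (z : G) (hz : orderOf z = 2) (Q : Subgroup G) (hQC : Q ≤ Subgroup.centralizer ({z} : Set G)) (hF : (Cfsg.generalizedFittingSubgroup ↥(Subgroup.centralizer ({z} : Set G))).map (Subgroup.centralizer ({z} : Set G)).subtype = Q) (hQ : Cfsg.IsExtraspecial 2 ↥Q) (w : ℕ) (hw : 2 ≤ w) (hcard : Nat.card ↥Q = 2 ^ (2 * w + 1)) (K U : Subgroup G) (hU : U = Subgroup.closure {x : G | ∃ k ∈ K, x = k * z * k⁻¹}) (hUab : IsMulCommutative ↥U) (hgen : Subgroup.closure {x : G | ∃ c ∈ Subgroup.centralizer ({z} : Set G), ∃ u ∈ U, x = c * u * c⁻¹} = Subgroup.centralizer ({z} : Set G)) (h3 : (∃ k ∈ K, k * z * k⁻¹ ∈ Q ∧ k * z * k⁻¹ ≠ z) ∨ ∃ u ∈ U ⊓ Q, u ∉ Subgroup.zpowers z ∧ (∃ hz' : z ∈ Subgroup.centralizer ({u} : Set G), (⟨z, hz'⟩ : ↥(Subgroup.centralizer ({u} : Set G))) ∈ Cfsg.pCore 2 ↥(Subgroup.centralizer ({u} : Set G)))) : IsSimpleGroup G ∧ Cfsg.IsLargeExtraspecial Q := by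
  classical
  obtain ⟨hES, hZmem, hL2, hL3⟩ := Cfsg.Agent.Lib.LargeExtraPair.pre_of_genFitting hz hQC hF hQ
  have hLarge : Cfsg.IsLargeExtraspecial Q := by
    rcases h3 with ⟨k, hk, hkQ, hkne⟩ | ⟨u, huUQ, huZ, hz', hp⟩
    · exact Cfsg.Agent.Lib.LargeExtraPair.large_of_conj hQ hL2 hL3 hES hZmem hw hcard hkne hkQ
    · have huU : u ∈ U := huUQ.1
      have huQ : u ∈ Q := huUQ.2
      have hsq : ∀ a ∈ U, a * a = 1 := by
        have hcomm : ∀ a ∈ U, ∀ b ∈ U, a * b = b * a := by
          intro a ha b hb
          have := hUab.is_comm.comm ⟨a, ha⟩ ⟨b, hb⟩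
          exact congrArg Subtype.val this
        intro a ha
        have ha' := ha
        rw [hU] at ha'
        induction ha' using Subgroup.closure_induction with
        | mem x hx =>
          obtain ⟨k, hk, rfl⟩ := hx
          have hzz : z * z = 1 := hES.sq
          calc k * z * k⁻¹ * (k * z * k⁻¹) = k * (z * z) * k⁻¹ := by group
            _ = 1 := by rw [hzz]; group
        | one => group
        | mul x y hx hy ihx ihy =>
          have hxU : x ∈ U := by rw [hU]; exact hx
          have hyU : y ∈ U := by rw [hU]; exact hy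
          have h1 := hcomm x hxU y hyU
          calc x * y * (x * y) = x * (y * x) * y := by group
            _ = x * (x * y) * y := by rw [h1]
            _ = (x * x) * (y * y) := by group
            _ = 1 := by rw [ihx hxU, ihy hyU]; group
        | inv x hx ihx =>
          have hxU : x ∈ U := by rw [hU]; exact hx
          have h1 := ihx hxU
          rw [← mul_inv_rev, h1, inv_one]
      have hu1 : u ≠ 1 := by
        intro h
        apply huZ
        rw [h]
        exact Subgroup.one_mem _
      refine Cfsg.Agent.S5421.result Q hQ hL2 hL3 u huQ ?_ ?_ ?_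
      · intro h
        rcases (hZmem u).mp h with h1 | h1
        · exact hu1 h1
        · apply huZ
          rw [h1]
          exact Subgroup.mem_zpowers z
      · apply orderOf_eq_prime
        · rw [pow_two]
          exact hsq u huU
        · exact hu1
      · intro x hx
        rcases (hZmem x).mp hx with rfl | rfl
        · exact Subgroup.one_mem _
        · exact ⟨⟨x, hz'⟩, hp, rfl⟩
  refine ⟨?_, hLarge⟩
  apply Cfsg.Agent.Lib.LargeExtraPair.simple_of_large hLarge hES hZmem
  intro N hN hzN
  have hUN : U ≤ N := by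
    rw [hU, Subgroup.closure_le]
    rintro _ ⟨k, -, rfl⟩
    exact hN.conj_mem z hzN k
  rw [← hgen, Subgroup.closure_le]
  rintro _ ⟨c, -, u, hu, rfl⟩
  exact hN.conj_mem u (hUN hu) c

end Cfsg.Agent.S5427
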