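import Cfsg.Statements.S5430
import Cfsg.Agent.Lib.LargeExtraX

set_option autoImplicit false
open Cfsg

namespace Cfsg.Agent.S5430


/-- Let Q be a large extraspecial 2-subgroup of the finite group G (extraspecial; centralizer equal to its centre; normal in the centralizer of its centre; normalizing no non-trivial subgroup of odd order) with centre generated by z, an involution, of width w ≥ 2 (order 2^(2w+1)); let g be an element outside the centralizer H of z with g z g⁻¹ in Q; write V for the subgroup generated by z and g z g⁻¹, X for the subgroup generated by Q and g Q g⁻¹, R for the subgroup generated by the centralizer of z in g Q g⁻¹ and the centralizer of g z g⁻¹ in Q, and E for the intersection of Q and g Q g⁻¹. Then R is the centralizer of V in X and is the largest normal 2-subgroup of X, and X/R is isomorphic to the symmetric group of degree 3; moreover the normalizer of V is the product of X and the centralizer of V in H, X is normal in it, and modulo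 R it is the direct product of X/R and of the centralizer of V in H modulo R. -/
theorem result {G : Type*} [Group G] [Finite G] (Q : Subgroup G) (hQ : Cfsg.IsLargeExtraspecial Q) (z : G) (hz : ((Subgroup.center ↥Q).map Q.subtype) = Subgroup.zpowers z) (hz2 : orderOf z = 2) (w : ℕ) (hw : 2 ≤ w) (hcard : Nat.card ↥Q = 2 ^ (2 * w + 1)) (g : G) (hgH : g ∉ Subgroup.centralizer ({z} : Set G)) (hgQ : g * z * g⁻¹ ∈ Q) (V X R E : Subgroup G) (hV : V = Subgroup.closure ({z, g * z * g⁻¹} : Set G)) (hX : X = Q ⊔ (Q).map (MulAut.conj g).toMonoidHom) (hR : R = ((Q).map (MulAut.conj g).toMonoidHom ⊓ Subgroup.centralizer ({z} : Set G)) ⊔ (Q ⊓ Subgroup.centralizer ({g * z * g⁻¹} : Set G))) (hE : E = Q ⊓ (Q).map (MulAut.conj g).toMonoidHom) : R = X ⊓ Subgroup.centralizer (V : Set G) ∧ R = (Cfsg.pCore 2 ↥X).map X.subtype ∧ (∃ h : (R.subgroupOf X).Normal, Nonempty (↥X ⧸ R.subgroupOf X ≃* Equiv.Perm (Fin 3))) ∧ Subgroup.normalizer (V : Set G) = X ⊔ (Subgroup.centralizer ({z} : Set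 G) ⊓ Subgroup.centralizer (V : Set G)) ∧ (∀ y ∈ Subgroup.normalizer (V : Set G), ∀ x ∈ X, y * x * y⁻¹ ∈ X) ∧ R ≤ Subgroup.centralizer ({z} : Set G) ⊓ Subgroup.centralizer (V : Set G) ∧ (∀ x ∈ X, ∀ c ∈ Subgroup.centralizer ({z} : Set G) ⊓ Subgroup.centralizer (V : Set G), x * c * x⁻¹ * c⁻¹ ∈ R) ∧ X ⊓ (Subgroup.centralizer ({z} : Set G) ⊓ Subgroup.centralizer (V : Set G)) = R := by
  classical
  open Cfsg.Agent.Lib.LargeExtra Cfsg.Agent.Lib.LargeExtraPair in
  obtain ⟨z₀, hES, hZmem⟩ := exists_ES hQ.1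
  have hzmem : z ∈ (Subgroup.center ↥Q).map Q.subtype := by
    rw [hz]
    exact Subgroup.mem_zpowers z
  have hz1 : z ≠ 1 := by
    intro h
    rw [h] at hz2
    simp at hz2
  have hzz₀ : z = z₀ := ((hZmem z).mp hzmem).resolve_left hz1
  subst hzz₀
  have hgz : g * z * g⁻¹ ≠ z := by
    intro h
    apply hgH
    rw [Cfsg.Agent.Lib.LargeExtraPair.mem_cent_singleton]
    exact mul_inv_eq_iff_eq_mul.mp h
  have hLE := Cfsg.Agent.Lib.LargeExtraPair.LE.of_large hQ hES hZmem hw hcard hgz hgQ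
  set z' := g * z * g⁻¹ with hz'def
  set Q' := Q.map (MulAut.conj g).toMonoidHom with hQ'def
  subst hV hX hR hE
  set R := (Q' ⊓ Subgroup.centralizer ({z} : Set G)) ⊔ (Q ⊓ Subgroup.centralizer ({z'} : Set G)) with hR
  set V := Subgroup.closure ({z, z'} : Set G) with hV
  set X := Q ⊔ Q' with hX
  have cent1 := @Cfsg.Agent.Lib.LargeExtraPair.mem_cent_singleton G _
  obtain ⟨y, hyQ, hy⟩ := hLE.exists_y
  obtain ⟨k, hkQ, hk⟩ := hLE.symm.exists_y
  have hz'1 : z' ≠ 1 := hLE.z'_ne_one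
  have hne : z' ≠ z := hLE.ne
  have hzsq : z * z = 1 := hES.sq
  have hz'sq : z' * z' = 1 := hLE.es'.sq
  have hzz' : z' * z = z * z' := hLE.comm_zz
  have hyc : y * z * y⁻¹ = z := hLE.conj_z_of_mem hyQ
  have hkc : k * z' * k⁻¹ = z' := hLE.symm.conj_z_of_mem hkQ
  open Cfsg.Agent.Lib.LargeExtra in
  have hy1 : y * z' * y⁻¹ = z * z' := swap_conj hES hyQ hy
  open Cfsg.Agent.Lib.LargeExtra in
  have hk1 : k * z * k⁻¹ = z * z' := by
    rw [swap_conj hLE.es' hkQ hk, hzz']
  have hconjmul : ∀ n a b : G, n * (a * b) * n⁻¹ = (n * a * n⁻¹) * (n * b * n⁻¹) := by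
    intro n a b
    group
  have hy3 : y * (z * z') * y⁻¹ = z' := by
    rw [hconjmul, hyc, hy1, ← mul_assoc, hzsq, one_mul]
  have hk3 : k * (z * z') * k⁻¹ = z := by
    rw [hconjmul, hk1, hkc, mul_assoc, hz'sq, mul_one]
  have hzV : z ∈ V := Subgroup.subset_closure (Or.inl rfl)
  have hz'V : z' ∈ V := Subgroup.subset_closure (Or.inr rfl)
  have hVne : ∀ x, (x ∈ V ∧ x ≠ 1) ↔ x = z ∨ x = z' ∨ x = z * z' := by
    intro x
    rw [hLE.mem_V]
    constructor
    · rintro ⟨h1 | h1, h2⟩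
      · exact absurd h1 h2
      · exact h1
    · intro h
      refine ⟨Or.inr h, ?_⟩
      rcases h with rfl | rfl | rfl
      · exact hz1
      · exact hz'1
      · intro h1
        apply hne
        have := eq_inv_of_mul_eq_one_right h1
        rw [this, inv_eq_iff_mul_eq_one]
        exact hzsq
  have hcommV : ∀ x, x * z = z * x → x * z' = z' * x → x ∈ Subgroup.centralizer (V : Set G) := by
    intro x h1 h2
    rw [Subgroup.mem_centralizer_iff]
    intro a ha
    rw [SetLike.mem_coe, hLE.mem_V] at ha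
    rcases ha with rfl | rfl | rfl | rfl
    · group
    · exact h1.symm
    · exact h2.symm
    · calc z * z' * x = z * (z' * x) := by group
        _ = z * (x * z') := by rw [h2]
        _ = (z * x) * z' := by group
        _ = (x * z) * z' := by rw [h1]
        _ = _ := by group
  have hVcomm : ∀ x ∈ Subgroup.centralizer (V : Set G), x * z = z * x ∧ x * z' = z' * x := by
    intro x hx
    rw [Subgroup.mem_centralizer_iff] at hx
    exact ⟨(hx z hzV).symm, (hx z' hz'V).symm⟩
  have hVcomm' := hVcomm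
  have hRX : R ≤ X := sup_le (inf_le_left.trans le_sup_right) (inf_le_left.trans le_sup_left)
  have hRXC : R = X ⊓ Subgroup.centralizer (V : Set G) := by
    apply le_antisymm
    · intro r hr
      have h1 := hLE.R_comm hr
      exact ⟨hRX hr, hcommV r h1.1 h1.2⟩
    · rintro x ⟨hx, hxC⟩
      have h1 := hVcomm x hxC
      exact hLE.mem_R_of_comm hyQ hy hkQ hk hx h1.1 h1.2
  have hXV : X ≤ Subgroup.normalizer (V : Set G) := hLE.X_le_normV
  let Ω : Set G := {a | a ∈ V ∧ a ≠ 1}
  let φ := Cfsg.Agent.Lib.LargeExtraPair.actOn V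
  let ψ : X →* Equiv.Perm Ω := φ.comp (Subgroup.inclusion hXV)
  have hψ : ∀ (x : X) (a : Ω), ((ψ x a : Ω) : G) = (x : G) * a * (x : G)⁻¹ := fun _ _ => rfl
  have hφ : ∀ (x : Subgroup.normalizer (V : Set G)) (a : Ω), ((φ x a : Ω) : G) = (x : G) * a * (x : G)⁻¹ := fun _ _ => rfl
  have hker : R.subgroupOf X = ψ.ker := by
    ext x
    rw [Subgroup.mem_subgroupOf, MonoidHom.mem_ker]
    show (x : G) ∈ R ↔ φ (Subgroup.inclusion hXV x) = 1
    rw [Cfsg.Agent.Lib.LargeExtraPair.actOn_eq_one_iff]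
    constructor
    · intro hr
      rw [hRXC] at hr
      exact hr.2
    · intro hr
      rw [hRXC]
      exact ⟨x.2, hr⟩
  have hΩcard : Nat.card Ω = 3 := by
    rw [Nat.card_coe_set_eq, Set.ncard_eq_three]
    refine ⟨z, z', z * z', hne.symm, ?_, ?_, ?_⟩
    · intro h
      exact hz'1 (by simpa using h)
    · intro h
      exact hz1 (by simpa using h.symm)
    · ext x
      exact hVne x
  have hpermcard : Nat.card (Equiv.Perm Ω) = 6 := by
    haveI : Fintype Ω := Fintype.ofFinite _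
    rw [Nat.card_eq_fintype_card, Fintype.card_perm, ← Nat.card_eq_fintype_card, hΩcard]
    rfl
  have hzΩ : z ∈ Ω := (hVne z).mpr (Or.inl rfl)
  have hz'Ω : z' ∈ Ω := (hVne z').mpr (Or.inr (Or.inl rfl))
  have hzz'Ω : z * z' ∈ Ω := (hVne _).mpr (Or.inr (Or.inr rfl))
  have hΩcases : ∀ a : Ω, a = ⟨z, hzΩ⟩ ∨ a = ⟨z', hz'Ω⟩ ∨ a = ⟨z * z', hzz'Ω⟩ := by
    intro a
    rcases (hVne a).mp a.2 with h | h | h
    · left; exact Subtype.ext h
    · right; left; exact Subtype.ext h
    · right; right; exact Subtype.ext h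
  have hyX : y ∈ X := Subgroup.mem_sup_left hyQ
  have hkX : k ∈ X := Subgroup.mem_sup_right hkQ
  have hord2 : orderOf (ψ ⟨y, hyX⟩) = 2 := by
    apply orderOf_eq_prime
    · rw [pow_two]
      ext a
      show y * (y * (a : G) * y⁻¹) * y⁻¹ = a
      rcases hΩcases a with rfl | rfl | rfl
      · show y * (y * z * y⁻¹) * y⁻¹ = z
        rw [hyc, hyc]
      · show y * (y * z' * y⁻¹) * y⁻¹ = z'
        rw [hy1, hy3]
      · show y * (y * (z * z') * y⁻¹) * y⁻¹ = z * z'
        rw [hy3, hy1]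
    · intro h
      have h1 := hψ ⟨y, hyX⟩ ⟨z', hz'Ω⟩
      rw [h] at h1
      have h2 : z' = z * z' := by
        rw [← hy1]
        exact h1
      exact hz1 (by simpa using h2.symm)
  have hρX : y * k ∈ X := X.mul_mem hyX hkX
  have hρ1 : (y * k) * z * (y * k)⁻¹ = z' := by
    have : (y * k) * z * (y * k)⁻¹ = y * (k * z * k⁻¹) * y⁻¹ := by group
    rw [this, hk1, hy3]
  have hρ2 : (y * k) * z' * (y * k)⁻¹ = z * z' := by
    have : (y * k) * z' * (y * k)⁻¹ = y * (k * z' * k⁻¹) * y⁻¹ := by group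
    rw [this, hkc, hy1]
  have hρ3 : (y * k) * (z * z') * (y * k)⁻¹ = z := by
    have : (y * k) * (z * z') * (y * k)⁻¹ = y * (k * (z * z') * k⁻¹) * y⁻¹ := by group
    rw [this, hk3, hyc]
  have hord3 : orderOf (ψ ⟨y * k, hρX⟩) = 3 := by
    apply orderOf_eq_prime
    · ext a
      show (y * k) * ((y * k) * ((y * k) * (a : G) * (y * k)⁻¹) * (y * k)⁻¹) * (y * k)⁻¹ = a
      rcases hΩcases a with rfl | rfl | rfl
      · show (y * k) * ((y * k) * ((y * k) * z * (y * k)⁻¹) * (y * k)⁻¹) * (y * k)⁻¹ = z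
        rw [hρ1, hρ2, hρ3]
      · show (y * k) * ((y * k) * ((y * k) * z' * (y * k)⁻¹) * (y * k)⁻¹) * (y * k)⁻¹ = z'
        rw [hρ2, hρ3, hρ1]
      · show (y * k) * ((y * k) * ((y * k) * (z * z') * (y * k)⁻¹) * (y * k)⁻¹) * (y * k)⁻¹ = z * z'
        rw [hρ3, hρ1, hρ2]
    · intro h
      have h1 := hψ ⟨y * k, hρX⟩ ⟨z, hzΩ⟩
      rw [h] at h1
      have h2 : z = z' := by
        rw [← hρ1]
        exact h1
      exact hne h2.symm
  have hd2 : 2 ∣ Nat.card ψ.range := by
    have h1 := orderOf_dvd_natCard (⟨ψ ⟨y, hyX⟩, ⟨⟨y, hyX⟩, rfl⟩⟩ : ψ.range)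
    rw [← Subgroup.orderOf_coe] at h1
    have h2 : orderOf (ψ ⟨y, hyX⟩) ∣ Nat.card ψ.range := h1
    rwa [hord2] at h2
  have hd3 : 3 ∣ Nat.card ψ.range := by
    have h1 := orderOf_dvd_natCard (⟨ψ ⟨y * k, hρX⟩, ⟨⟨y * k, hρX⟩, rfl⟩⟩ : ψ.range)
    rw [← Subgroup.orderOf_coe] at h1
    have h2 : orderOf (ψ ⟨y * k, hρX⟩) ∣ Nat.card ψ.range := h1
    rwa [hord3] at h2
  have hd6 : 6 ∣ Nat.card ψ.range := Nat.Coprime.mul_dvd_of_dvd_of_dvd (by norm_num : Nat.Coprime 2 3) hd2 hd3
  have hd6' : Nat.card ψ.range ∣ 6 := by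
    have := Subgroup.card_subgroup_dvd_card ψ.range
    rwa [hpermcard] at this
  have hrange : ψ.range = ⊤ := by
    apply Subgroup.eq_top_of_card_eq
    rw [hpermcard]
    exact Nat.dvd_antisymm hd6' hd6
  have hsurj : Function.Surjective ψ := MonoidHom.range_eq_top.mp hrange
  let e : Ω ≃ Fin 3 := Finite.equivFinOfCardEq hΩcard
  let ψ' : X →* Equiv.Perm (Fin 3) := (e.permCongrHom.toMonoidHom).comp ψ
  have hsurj' : Function.Surjective ψ' := e.permCongrHom.surjective.comp hsurj
  have hker' : R.subgroupOf X = ψ'.ker := by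
    rw [hker]
    ext x
    rw [MonoidHom.mem_ker, MonoidHom.mem_ker]
    show ψ x = 1 ↔ e.permCongrHom (ψ x) = 1
    rw [map_eq_one_iff _ e.permCongrHom.injective]
  refine ⟨hRXC, ?_, ?_, ?_, ?_, ?_, ?_, ?_⟩
  · -- R is the largest normal 2-subgroup of X
    apply le_antisymm
    · intro r hr
      refine ⟨⟨r, hRX hr⟩, ?_, rfl⟩
      have hle : R.subgroupOf X ≤ Cfsg.pCore 2 ↥X := by
        apply le_sSup
        refine ⟨?_, ?_⟩
        · rw [hker]
          infer_instance
        · intro t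
          refine ⟨2, ?_⟩
          have ht : ((t : X) : G) ∈ R := Subgroup.mem_subgroupOf.mp t.2
          have hp4 : ∀ u : G, u ^ (2 ^ 2) = (u * u) * (u * u) := by
            intro u
            rw [show (2 : ℕ) ^ 2 = 2 + 2 from rfl, pow_add, pow_two]
          apply Subtype.ext
          apply Subtype.ext
          have h5 : (((t : X) : G)) ^ (2 ^ 2) = 1 := by
            rw [hp4]
            have h6 := hLE.R_sq_mem ht
            exact hLE.inter_sq h6.1 h6.2
          simpa using h5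
      exact hle (Subgroup.mem_subgroupOf.mpr hr)
    · rintro _ ⟨p, hp, rfl⟩
      show (p : G) ∈ R
      have hpker : p ∈ ψ'.ker := by
        rw [MonoidHom.mem_ker]
        haveI : Fact (Nat.Prime 2) := ⟨Nat.prime_two⟩
        have hPn := Cfsg.Agent.Lib.FusionAlperin.pCore_normal' (X := X) 2
        have hPp := Cfsg.Agent.Lib.FusionAlperin.isPGroup_pCore' (X := X) 2
        have hsq : ∀ q ∈ Cfsg.pCore 2 ↥X, (ψ' q) ^ 2 = 1 := by
          intro q hq
          obtain ⟨m, hm⟩ := hPp ⟨q, hq⟩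
          have h1 : q ^ (2 ^ m) = 1 := congrArg Subtype.val hm
          have h2 : (ψ' q) ^ (2 ^ m) = 1 := by
            rw [← map_pow, h1, map_one]
          have hdec : ∀ ξ : Equiv.Perm (Fin 3), ξ ^ 2 = 1 ∨ ξ ^ 3 = 1 := by decide
          rcases hdec (ψ' q) with h3 | h3
          · exact h3
          · have h4 : orderOf (ψ' q) ∣ 3 := orderOf_dvd_of_pow_eq_one h3
            have h5 : orderOf (ψ' q) ∣ 2 ^ m := orderOf_dvd_of_pow_eq_one h2
            have h6 : Nat.Coprime (orderOf (ψ' q)) (2 ^ m) :=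
              Nat.Coprime.coprime_dvd_left h4 (Nat.Coprime.pow_right m (by norm_num))
            have h7 := Nat.Coprime.eq_one_of_dvd h6 h5
            rw [orderOf_eq_one_iff] at h7
            rw [h7, one_pow]
        have hdec2 : ∀ ξ : Equiv.Perm (Fin 3), (∀ σ : Equiv.Perm (Fin 3), (ξ * (σ * ξ * σ⁻¹)) ^ 2 = 1) → ξ = 1 := by
          decide +kernel
        apply hdec2
        intro σ
        obtain ⟨x, hx⟩ := hsurj' σ
        have h1 := hsq (p * (x * p * x⁻¹)) (Subgroup.mul_mem _ hp (hPn.conj_mem p hp x))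
        rw [map_mul, map_mul, map_mul, map_inv, hx] at h1
        exact h1
      rw [← hker'] at hpker
      exact Subgroup.mem_subgroupOf.mp hpker
  · have hnorm : (R.subgroupOf X).Normal := by
      rw [hker']
      infer_instance
    refine ⟨hnorm, ⟨?_⟩⟩
    exact (QuotientGroup.quotientMulEquivOfEq hker').trans (QuotientGroup.quotientKerEquivOfSurjective ψ' hsurj')
  · apply le_antisymm
    · intro n hn
      obtain ⟨x, hx⟩ := hsurj (φ ⟨n, hn⟩)
      have h1 : φ ((⟨(x : G), hXV x.2⟩ : Subgroup.normalizer (V : Set G))⁻¹ * ⟨n, hn⟩) = 1 := by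
        rw [map_mul, map_inv, ← hx]
        exact inv_mul_cancel _
      have hc : (x : G)⁻¹ * n ∈ Subgroup.centralizer (V : Set G) :=
        (Cfsg.Agent.Lib.LargeExtraPair.actOn_eq_one_iff _ _).mp h1
      have h2 : n = (x : G) * ((x : G)⁻¹ * n) := by group
      rw [h2]
      exact Subgroup.mul_mem _ (Subgroup.mem_sup_left x.2)
        (Subgroup.mem_sup_right ⟨(cent1).mpr (hVcomm' _ hc).1, hc⟩)
    · apply sup_le hXV
      rintro c ⟨-, hc⟩
      replace hc : c ∈ Subgroup.centralizer (V : Set G) := hc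
      rw [Subgroup.mem_normalizer_iff]
      intro a
      rw [Subgroup.mem_centralizer_iff] at hc
      constructor
      · intro ha
        have := hc a ha
        have h1 : c * a * c⁻¹ = a := by rw [← this]; group
        rw [h1]
        exact ha
      · intro ha
        have := hc _ ha
        have h1 : c * (c * a * c⁻¹) * c⁻¹ = c * a * c⁻¹ := by rw [← this]; group
        have h2 : c * a * c⁻¹ = a := by
          have h3 := mul_left_cancel (a := c) (b := c * a * c⁻¹ * c⁻¹) (c := a * c⁻¹) (by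
            calc c * (c * a * c⁻¹ * c⁻¹) = c * (c * a * c⁻¹) * c⁻¹ := by group
              _ = c * a * c⁻¹ := h1
              _ = c * (a * c⁻¹) := by group)
          exact mul_right_cancel h3
        rwa [h2] at ha
  · intro n hn x hx
    have hVmem : ∀ v ∈ V, v ≠ 1 → n * v * n⁻¹ = z ∨ n * v * n⁻¹ = z' ∨ n * v * n⁻¹ = z * z' := by
      intro v hv hv1
      apply (hVne _).mp
      refine ⟨(Subgroup.mem_normalizer_iff.mp hn v).mp hv, fun h1 => hv1 ?_⟩
      have h2 : v = n⁻¹ * (n * v * n⁻¹) * n := by group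
      rw [h2, h1]
      group
    have hgz' : g⁻¹ * z' * g = z := by rw [hz'def]; group
    have hgen : ∀ m, (m * z * m⁻¹ = z ∨ m * z * m⁻¹ = z' ∨ m * z * m⁻¹ = z * z') → ∀ a ∈ Q, m * a * m⁻¹ ∈ X := by
      intro m hm a ha
      rcases hm with hm | hm | hm
      · exact Subgroup.mem_sup_left (hLE.N1 m (mul_inv_eq_iff_eq_mul.mp hm) a ha)
      · apply Subgroup.mem_sup_right
        rw [hLE.mem']
        have h1 : (g⁻¹ * m) * z = z * (g⁻¹ * m) := by
          have h2 : (g⁻¹ * m) * z * (g⁻¹ * m)⁻¹ = z := by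
            calc (g⁻¹ * m) * z * (g⁻¹ * m)⁻¹ = g⁻¹ * (m * z * m⁻¹) * g := by group
              _ = g⁻¹ * z' * g := by rw [hm]
              _ = z := hgz'
          exact mul_inv_eq_iff_eq_mul.mp h2
        have h3 := hLE.N1 _ h1 a ha
        have h4 : (g⁻¹ * m) * a * (g⁻¹ * m)⁻¹ = g⁻¹ * (m * a * m⁻¹) * g := by group
        rwa [h4] at h3
      · have h1 : (k⁻¹ * m) * z = z * (k⁻¹ * m) := by
          have h2 : (k⁻¹ * m) * z * (k⁻¹ * m)⁻¹ = z := by
            calc (k⁻¹ * m) * z * (k⁻¹ * m)⁻¹ = k⁻¹ * (m * z * m⁻¹) * k := by group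
              _ = k⁻¹ * (z * z') * k := by rw [hm]
              _ = k⁻¹ * (k * z * k⁻¹) * k := by rw [hk1]
              _ = z := by group
          exact mul_inv_eq_iff_eq_mul.mp h2
        have h3 := hLE.N1 _ h1 a ha
        have h4 : m * a * m⁻¹ = k * ((k⁻¹ * m) * a * (k⁻¹ * m)⁻¹) * k⁻¹ := by group
        rw [h4]
        exact X.mul_mem (X.mul_mem hkX (Subgroup.mem_sup_left h3)) (X.inv_mem hkX)
    have hle : X ≤ X.comap (MulAut.conj n).toMonoidHom := by
      apply sup_le
      · intro a ha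
        exact hgen n (hVmem z hzV hz1) a ha
      · intro a ha
        show n * a * n⁻¹ ∈ X
        have ha0 := (hLE.mem' a).mp ha
        have h1 := hgen (n * g) (by
          have h2 : (n * g) * z * (n * g)⁻¹ = n * z' * n⁻¹ := by
            rw [hz'def]
            group
          rw [h2]
          exact hVmem z' hz'V hz'1) _ ha0
        have h3 : (n * g) * (g⁻¹ * a * g) * (n * g)⁻¹ = n * a * n⁻¹ := by group
        rwa [h3] at h1
    exact hle hx
  · intro r hr
    have h1 := hLE.R_comm hr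
    exact ⟨(cent1).mpr h1.1, hcommV r h1.1 h1.2⟩
  · intro x hx c hc
    have hcz := (cent1).mp hc.1
    have hcz' := (hVcomm' c hc.2).2
    have hle : X ≤ Cfsg.Agent.Lib.LargeExtraPair.commSub R c := by
      apply sup_le
      · intro q hq
        have h1 := hLE.conj_comm_z' hq hcz hcz'
        exact ⟨hLE.Q_le_normR hq, Subgroup.mem_sup_right ⟨h1.1, (cent1).mpr h1.2⟩⟩
      · intro q hq
        have h1 := hLE.symm.conj_comm_z' hq hcz' hcz
        exact ⟨hLE.Q'_le_normR hq, Subgroup.mem_sup_left ⟨h1.1, (cent1).mpr h1.2⟩⟩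
    exact (hle hx).2
  · rw [hRXC]
    ext x
    constructor
    · rintro ⟨h1, -, h2⟩
      exact ⟨h1, h2⟩
    · rintro ⟨h1, h2⟩
      exact ⟨h1, (cent1).mpr (hVcomm' x h2).1, h2⟩

end Cfsg.Agent.S5430
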