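import Cfsg.Statements.S5431
import Cfsg.Agent.Lib.LargeExtraPair

set_option autoImplicit false
open Cfsg

namespace Cfsg.Agent.S5431


/-- Let Q be a large extraspecial 2-subgroup of the finite group G (extraspecial; centralizer equal to its centre; normal in the centralizer of its centre; normalizing no non-trivial subgroup of odd order) with centre generated by z, an involution, of width w ≥ 2 (order 2^(2w+1)); let g be an element outside the centralizer H of z with g z g⁻¹ in Q; write V for the subgroup generated by z and g z g⁻¹, X for the subgroup generated by Q and g Q g⁻¹, R for the subgroup generated by the centralizer of z in g Q g⁻¹ and the centralizer of g z g⁻¹ in Q, and E for the intersection of Q and g Q g⁻¹. Then V is the centre of R, E lies in the second centre of R, R is nilpotent of class at most 3, E and R/E are elementary abelian, R/E is the direct product of the images of the centralizer of g z g⁻¹ in Q and of the centralizer of z in g Q g⁻¹ (R is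 their product and they meet in E), and the commutator subgroup of X and E lies in V. -/
theorem result {G : Type*} [Group G] [Finite G] (Q : Subgroup G) (hQ : Cfsg.IsLargeExtraspecial Q) (z : G) (hz : ((Subgroup.center ↥Q).map Q.subtype) = Subgroup.zpowers z) (hz2 : orderOf z = 2) (w : ℕ) (hw : 2 ≤ w) (hcard : Nat.card ↥Q = 2 ^ (2 * w + 1)) (g : G) (hgH : g ∉ Subgroup.centralizer ({z} : Set G)) (hgQ : g * z * g⁻¹ ∈ Q) (V X R E : Subgroup G) (hV : V = Subgroup.closure ({z, g * z * g⁻¹} : Set G)) (hX : X = Q ⊔ (Q).map (MulAut.conj g).toMonoidHom) (hR : R = ((Q).map (MulAut.conj g).toMonoidHom ⊓ Subgroup.centralizer ({z} : Set G)) ⊔ (Q ⊓ Subgroup.centralizer ({g * z * g⁻¹} : Set G))) (hE : E = Q ⊓ (Q).map (MulAut.conj g).toMonoidHom) : (Subgroup.center ↥R).map R.subtype = V ∧ E ≤ (Subgroup.upperCentralSeries ↥R 2).map R.subtype ∧ Subgroup.upperCentralSeries ↥R 3 = ⊤ ∧ Cfsg.IsElementaryAbelian 2 E ∧ (∀ x ∈ R, ∀ y ∈ R, x * y * x⁻¹ * y⁻¹ ∈ E ∧ x ^ 2 ∈ E) ∧ ((Q).map (MulAut.conj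 g).toMonoidHom ⊓ Subgroup.centralizer ({z} : Set G)) ⊓ (Q ⊓ Subgroup.centralizer ({g * z * g⁻¹} : Set G)) = E ∧ ⁅X, E⁆ ≤ V := by
  open scoped commutatorElement in
  classical
  open Cfsg.Agent.Lib.LargeExtra Cfsg.Agent.Lib.LargeExtraPair in
  obtain ⟨z₀, hES, hZmem⟩ := exists_ES hQ.1
  have hzmem : z ∈ (Subgroup.center ↥Q).map Q.subtype := by
    rw [hz]
    exact Subgroup.mem_zpowers z
  have hz1 : z ≠ 1 := by
    intro h
    rw [h] at hz2
    simp at hz2
  have hzz₀ : z = z₀ := ((hZmem z).mp hzmem).resolve_left hz1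
  subst hzz₀
  have hgz : g * z * g⁻¹ ≠ z := by
    intro h
    apply hgH
    rw [Cfsg.Agent.Lib.LargeExtraPair.mem_cent_singleton]
    exact mul_inv_eq_iff_eq_mul.mp h
  have hLE := Cfsg.Agent.Lib.LargeExtraPair.LE.of_large hQ hES hZmem hw hcard hgz hgQ
  set z' := g * z * g⁻¹ with hz'def
  set Q' := Q.map (MulAut.conj g).toMonoidHom with hQ'def
  subst hV hX hR hE
  set R := (Q' ⊓ Subgroup.centralizer ({z} : Set G)) ⊔ (Q ⊓ Subgroup.centralizer ({z'} : Set G)) with hR
  have hZ2 : ∀ u : R, (u : G) ∈ Q ⊓ Q' → u ∈ Subgroup.upperCentralSeries ↥R 2 := by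
    intro u hu
    rw [show (2 : ℕ) = 1 + 1 from rfl, Subgroup.mem_upperCentralSeries_succ_iff]
    intro y
    rw [Subgroup.upperCentralSeries_one]
    have hRX : R ≤ Q ⊔ Q' := sup_le (inf_le_left.trans le_sup_right) (inf_le_left.trans le_sup_left)
    have h2 : ((⁅u, y⁆ : R) : G) ∈ (Subgroup.center ↥R).map R.subtype := by
      rw [hLE.center_R]
      have h3 : ((⁅u, y⁆ : R) : G) = Cfsg.Agent.Lib.LargeExtra.B (u : G) y := by
        rw [commutatorElement_def]
        rfl
      rw [h3, Cfsg.Agent.Lib.LargeExtra.B_swap]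
      exact Subgroup.inv_mem _ (hLE.comm_X_E (hRX y.2) hu)
    obtain ⟨w, hw, hwe⟩ := h2
    have : w = ⁅u, y⁆ := Subtype.ext hwe
    rwa [← this]
  refine ⟨hLE.center_R, ?_, ?_, ?_, ?_, hLE.inf_W, ?_⟩
  · intro e he
    exact ⟨⟨e, hLE.inter_le_R he⟩, hZ2 _ he, rfl⟩
  · rw [eq_top_iff]
    intro x _
    rw [show (3 : ℕ) = 2 + 1 from rfl, Subgroup.mem_upperCentralSeries_succ_iff]
    intro y
    apply hZ2
    have h1 := hLE.R_comm_mem x.2 y.2
    rw [commutatorElement_def]
    exact h1
  · refine ⟨⟨⟨fun a b => Subtype.ext (hLE.inter_comm a.2.1 a.2.2 b.2.1 b.2.2)⟩⟩, ?_⟩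
    intro a ha
    rw [pow_two]
    exact hLE.inter_sq ha.1 ha.2
  · intro x hx y hy
    refine ⟨hLE.R_comm_mem hx hy, ?_⟩
    rw [pow_two]
    exact hLE.R_sq_mem hx
  · rw [Subgroup.commutator_le]
    intro x hx e he
    rw [commutatorElement_def]
    exact hLE.comm_X_E hx he

end Cfsg.Agent.S5431
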