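import Cfsg.Statements.S5433
import Cfsg.Agent.Lib.RankOne

set_option autoImplicit false
open Cfsg

namespace Cfsg.Agent.S5433


/-- Let Q be a large extraspecial 2-subgroup of the finite group G (extraspecial; centralizer equal to its centre; normal in the centralizer of its centre; normalizing no non-trivial subgroup of odd order), and L a normal subgroup of G containing Q. Then G is the product of L and the normalizer of Q. -/
theorem result {G : Type*} [Group G] [Finite G] (Q : Subgroup G) (hQ : Cfsg.IsLargeExtraspecial Q) (L : Subgroup G) [L.Normal] (hQL : Q ≤ L) : L ⊔ Subgroup.normalizer (Q : Set G) = ⊤ := by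
  open Cfsg.Agent.Lib.RankOne in
  haveI : Fact (Nat.Prime 2) := ⟨Nat.prime_two⟩
  obtain ⟨hL1, hL2, hL3, -⟩ := hQ
  set Z : Subgroup G := (Subgroup.center ↥Q).map Q.subtype with hZdef
  have hL2' : Subgroup.centralizer (Q : Set G) = Z := hL2
  have hZ2 : Nat.card Z = 2 := by
    have e : Subgroup.center ↥Q ≃* Z := (Subgroup.center ↥Q).equivMapOfInjective _ Q.subtype_injective
    rw [← Nat.card_congr e.toEquiv]
    exact hL1.2
  -- a Sylow 2-subgroup of `L` containing `Q`
  have hQL' : IsPGroup 2 (Q.subgroupOf L) := by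
    intro x
    obtain ⟨n, hn⟩ := hL1.1.1 ⟨(x : L), x.2⟩
    refine ⟨n, Subtype.ext (Subtype.ext ?_)⟩
    have := congrArg Subtype.val hn
    simpa using this
  obtain ⟨T, hT⟩ := hQL'.exists_le_sylow
  set T' : Subgroup G := (T : Subgroup L).map L.subtype with hT'
  have hQT : Q ≤ T' := by
    intro q hq
    exact ⟨⟨q, hQL hq⟩, hT hq, rfl⟩
  have htop := Sylow.normalizer_sup_eq_top T
  rw [eq_top_iff, ← htop, sup_comm]
  refine sup_le le_sup_left (le_trans ?_ le_sup_right)
  intro g hg
  -- `g` normalizes the centre of `T'`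
  have hgT := Subgroup.mem_normalizer_iff.mp hg
  have hT'p : IsPGroup 2 T' := by
    intro x
    obtain ⟨y, hy, hyx⟩ := x.2
    obtain ⟨n, hn⟩ := T.isPGroup' ⟨y, hy⟩
    refine ⟨n, Subtype.ext ?_⟩
    have := congrArg (fun w : (T : Subgroup L) => ((w : L) : G)) hn
    simpa [← hyx] using this
  have hfinT' : Finite T' := inferInstance
  -- a non-identity element of `Z`
  have hZne : Nontrivial Z := by
    apply (Finite.one_lt_card_iff_nontrivial).mp
    rw [hZ2]
    norm_num
  have hQle : Z ≤ Q := by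
    rintro _ ⟨w, -, rfl⟩
    exact w.2
  haveI : Nontrivial T' := by
    obtain ⟨⟨z, hz⟩, hz1⟩ := exists_ne (1 : Z)
    refine ⟨⟨⟨z, hQT (hQle hz)⟩, 1, ?_⟩⟩
    intro h
    apply hz1
    have h3 : z = 1 := congrArg (fun w : T' => (w : G)) h
    exact Subtype.ext h3
  haveI := hT'p.center_nontrivial
  obtain ⟨⟨t, ht⟩, ht1⟩ := exists_ne (1 : Subgroup.center T')
  have ht1' : (t : G) ≠ 1 := by
    intro h
    apply ht1
    exact Subtype.ext (Subtype.ext h)
  have htcen : ∀ s ∈ T', s * (t : G) = (t : G) * s := by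
    intro s hs
    have := (Subgroup.mem_center_iff.mp ht) ⟨s, hs⟩
    exact congrArg Subtype.val this
  have hincent : ∀ w ∈ T', (∀ s ∈ T', s * w = w * s) → w ∈ Z := by
    intro w _ hw
    rw [← hL2', Subgroup.mem_centralizer_iff]
    intro q hq
    exact hw q (hQT hq)
  have htZ : (t : G) ∈ Z := hincent _ t.2 htcen
  have huniq : ∀ u ∈ Z, u ≠ 1 → u = (t : G) := by
    intro u hu hu1
    obtain ⟨y, -, hy⟩ := (Nat.card_eq_two_iff' (1 : Z)).mp hZ2
    have h1 := hy ⟨u, hu⟩ (fun h => hu1 (congrArg Subtype.val h))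
    have h2 := hy ⟨t, htZ⟩ (fun h => ht1' (congrArg Subtype.val h))
    exact congrArg Subtype.val (h1.trans h2.symm)
  -- `g` fixes `t`
  have hgt : g * (t : G) * g⁻¹ = (t : G) := by
    apply huniq
    · apply hincent
      · exact (hgT _).mp t.2
      · intro s hs
        have h1 : g⁻¹ * s * g ∈ T' := by
          rw [(hgT _)]
          convert hs using 1
          group
        have h2 := htcen _ h1
        calc s * (g * (t : G) * g⁻¹) = g * ((g⁻¹ * s * g) * (t : G)) * g⁻¹ := by group
          _ = g * ((t : G) * (g⁻¹ * s * g)) * g⁻¹ := by rw [h2]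
          _ = g * (t : G) * g⁻¹ * s := by group
    · intro h
      apply ht1'
      have : (t : G) = g⁻¹ * (g * (t : G) * g⁻¹) * g := by group
      rw [this, h]
      simp
  apply hL3
  rw [Subgroup.mem_centralizer_iff]
  intro z hz
  by_cases hz1 : z = 1
  · rw [hz1]
    simp
  · rw [huniq z hz hz1]
    calc (t : G) * g = (g * (t : G) * g⁻¹) * g := by rw [hgt]
      _ = g * (t : G) := by group

end Cfsg.Agent.S5433
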