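import Cfsg.Statements.S5434
import Cfsg.Agent.Lib.ExtraSub
import Cfsg.Agent.Lib.SchurZ
import Cfsg.Agent.Lib.LargeExtraPair

set_option autoImplicit false
open Cfsg

namespace Cfsg.Agent.S5434


/-- Let Q be a large extraspecial 2-subgroup of the finite group G (extraspecial; centralizer equal to its centre; normal in the centralizer of its centre; normalizing no non-trivial subgroup of odd order), and A a non-trivial subgroup of odd order of the normalizer of Q. Then Q is the central product of the centralizer of A in Q and the commutator subgroup [Q, A] (they generate Q and commute elementwise), [Q, A] is extraspecial, and the centralizer of A in Q is either the centre of Q or extraspecial. -/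
theorem result {G : Type*} [Group G] [Finite G] (Q : Subgroup G) (hQ : Cfsg.IsLargeExtraspecial Q) (A : Subgroup G) (hA : A ≤ Subgroup.normalizer (Q : Set G)) (hAodd : Odd (Nat.card ↥A)) (hA1 : A ≠ ⊥) : (Q ⊓ Subgroup.centralizer (A : Set G)) ⊔ ⁅Q, A⁆ = Q ∧ (∀ x ∈ Q ⊓ Subgroup.centralizer (A : Set G), ∀ y ∈ ⁅Q, A⁆, x * y = y * x) ∧ Cfsg.IsExtraspecial 2 ↥⁅Q, A⁆ ∧ (Q ⊓ Subgroup.centralizer (A : Set G) = ((Subgroup.center ↥Q).map Q.subtype) ∨ Cfsg.IsExtraspecial 2 ↥(Q ⊓ Subgroup.centralizer (A : Set G))) := by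
  open scoped commutatorElement in
  classical
  open Cfsg.Agent.Lib.LargeExtra in
  obtain ⟨z, hES, hZmem⟩ := exists_ES hQ.1
  obtain ⟨hL1, hL2, hL3, hL4⟩ := hQ
  haveI : Fact (Nat.Prime 2) := ⟨Nat.prime_two⟩
  set E := ⁅Q, A⁆ with hEdef
  set C := Q ⊓ Subgroup.centralizer (A : Set G) with hCdef
  have hAQ : ∀ a ∈ A, ∀ q ∈ Q, a * q * a⁻¹ ∈ Q := by
    intro a ha q hq
    exact (Subgroup.mem_normalizer_iff.mp (hA ha) q).mp hq
  have hzone : z ≠ 1 := hES.ne_one
  -- A fixes z
  have hAz : ∀ a ∈ A, a * z * a⁻¹ = z := by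
    intro a ha
    have h1 : a * z * a⁻¹ ∈ Q := hAQ a ha z hES.mem
    have h2 : ∀ b ∈ Q, (a * z * a⁻¹) * b = b * (a * z * a⁻¹) := by
      intro b hb
      have h3 := hES.zcen _ (hAQ a⁻¹ (A.inv_mem ha) b hb)
      rw [inv_inv] at h3
      calc (a * z * a⁻¹) * b = a * (z * (a⁻¹ * b * a)) * a⁻¹ := by group
        _ = a * ((a⁻¹ * b * a) * z) * a⁻¹ := by rw [← h3]
        _ = _ := by group
    rcases hES.cen _ h1 h2 with h3 | h3
    · exfalso
      apply hzone
      have h4 : z = a⁻¹ * (a * z * a⁻¹) * a := by group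
      rw [h4, h3]
      group
    · exact h3
  have hEgen : ∀ q ∈ Q, ∀ a ∈ A, q * a * q⁻¹ * a⁻¹ ∈ E := by
    intro q hq a ha
    have := Subgroup.commutator_mem_commutator hq ha
    rwa [commutatorElement_def] at this
  have hEQ : E ≤ Q := by
    rw [hEdef, Subgroup.commutator_le]
    intro q hq a ha
    rw [commutatorElement_def]
    have : q * a * q⁻¹ * a⁻¹ = q * (a * q⁻¹ * a⁻¹) := by group
    rw [this]
    exact Q.mul_mem hq (hAQ a ha _ (Q.inv_mem hq))
  have hAEfwd : ∀ a ∈ A, ∀ e ∈ E, a * e * a⁻¹ ∈ E := by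
    intro a ha e he
    have hle : E ≤ E.comap (MulAut.conj a).toMonoidHom := by
      rw [hEdef, Subgroup.commutator_le]
      intro q hq b hb
      show a * ⁅q, b⁆ * a⁻¹ ∈ ⁅Q, A⁆
      rw [commutatorElement_def]
      have h1 : a * (q * b * q⁻¹ * b⁻¹) * a⁻¹ =
          (a * q * a⁻¹) * (a * b * a⁻¹) * (a * q * a⁻¹)⁻¹ * (a * b * a⁻¹)⁻¹ := by group
      rw [h1]
      exact hEgen _ (hAQ a ha q hq) _ (A.mul_mem (A.mul_mem ha hb) (A.inv_mem ha))
    exact hle he
  have hAE : A ≤ Subgroup.normalizer (E : Set G) := by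
    intro a ha
    rw [Subgroup.mem_normalizer_iff]
    intro e
    constructor
    · exact hAEfwd a ha e
    · intro he
      have h1 := hAEfwd a⁻¹ (A.inv_mem ha) _ he
      have h2 : a⁻¹ * (a * e * a⁻¹) * a⁻¹⁻¹ = e := by group
      rwa [h2] at h1
  have hEp : IsPGroup 2 E := IsPGroup.of_injective hL1.1.1 (Subgroup.inclusion hEQ) (Subgroup.inclusion_injective hEQ)
  have hcop : Nat.Coprime (Nat.card E) (Nat.card A) := by
    obtain ⟨n, hn⟩ := IsPGroup.iff_card.mp hEp
    rw [hn]
    exact Nat.Coprime.pow_left n (Nat.coprime_two_left.mpr hAodd)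
  have hs : Group.IsSolvable E ∨ Group.IsSolvable A := by
    left
    haveI := hEp.isNilpotent
    infer_instance
  have hfix : ∀ q ∈ Q, ∃ n ∈ E, n * q ∈ Subgroup.centralizer (A : Set G) := by
    intro q hq
    exact Cfsg.Agent.Lib.SchurZ.exists_fixed E A hAE q (hEgen q hq) hcop hs
  open Cfsg.Agent.Lib.LargeExtra in
  have hcomm : ∀ x ∈ C, ∀ y ∈ E, x * y = y * x := by
    intro x hx y hy
    have hxQ : x ∈ Q := hx.1
    have hxA : x ∈ Subgroup.centralizer (A : Set G) := hx.2
    rw [Subgroup.mem_centralizer_iff] at hxA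
    have hle : E ≤ Subgroup.centralizer ({x} : Set G) := by
      rw [hEdef, Subgroup.commutator_le]
      intro q hq a ha
      rw [Cfsg.Agent.Lib.LargeExtraPair.mem_cent_singleton]
      rw [commutatorElement_def]
      have h0 := hxA a ha
      have h1 : a * x * a⁻¹ = x := by rw [h0]; group
      have hq' : a * q * a⁻¹ ∈ Q := hAQ a ha q hq
      have h2 : B x (a * q * a⁻¹) = B x q := by
        have h3 := B_conj a x q
        rw [h1] at h3
        rw [← h3]
        rcases hES.comm x hxQ q hq with h4 | h4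
        · rw [h4]; group
        · rw [h4, hAz a ha]
      have h3 : q * a * q⁻¹ * a⁻¹ = q * (a * q * a⁻¹)⁻¹ := by group
      have h4 : B x (q * (a * q * a⁻¹)⁻¹) = 1 := by
        rw [B_mul_right hES hxQ hq (Q.inv_mem hq'), B_inv_right hES hxQ hq', h2]
        group
      rw [h3]
      exact (B_eq_one_iff.mp h4).symm
    have := Cfsg.Agent.Lib.LargeExtraPair.mem_cent_singleton.mp (hle hy)
    exact this.symm
  have hdec : ∀ q ∈ Q, ∃ e ∈ E, ∃ c ∈ C, q = e * c := by
    intro q hq
    obtain ⟨n, hn, hnq⟩ := hfix q hq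
    refine ⟨n⁻¹, E.inv_mem hn, n * q, ⟨Q.mul_mem (hEQ hn) hq, hnq⟩, by group⟩
  have hcen_all : ∀ h ∈ Q, (∀ x ∈ C, h * x = x * h) → (∀ y ∈ E, h * y = y * h) → h = 1 ∨ h = z := by
    intro h hh h1 h2
    apply hES.cen h hh
    intro b hb
    obtain ⟨e, he, c, hc, rfl⟩ := hdec b hb
    calc h * (e * c) = (h * e) * c := by group
      _ = (e * h) * c := by rw [h2 e he]
      _ = e * (h * c) := by group
      _ = e * (c * h) := by rw [h1 c hc]
      _ = _ := by group
  have hzC : z ∈ C := by
    refine ⟨hES.mem, ?_⟩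
    show z ∈ Subgroup.centralizer (A : Set G)
    rw [Subgroup.mem_centralizer_iff]
    intro a ha
    have := hAz a ha
    exact mul_inv_eq_iff_eq_mul.mp this
  open Cfsg.Agent.Lib.LargeExtra in
  obtain ⟨u, hu, v, hv, huv⟩ : ∃ u ∈ E, ∃ v ∈ E, B u v ≠ 1 := by
    by_contra hcon
    push Not at hcon
    have hEZ : ∀ e ∈ E, e = 1 ∨ e = z := by
      intro e he
      exact hcen_all e (hEQ he) (fun x hx => (hcomm x hx e he).symm)
        (fun y hy => B_eq_one_iff.mp (hcon e he y hy))
    have hQC : Q ≤ C := by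
      intro q hq
      obtain ⟨e, he, c, hc, rfl⟩ := hdec q hq
      rcases hEZ e he with rfl | rfl
      · rwa [one_mul]
      · exact C.mul_mem hzC hc
    apply hA1
    rw [eq_bot_iff]
    intro a ha
    rw [Subgroup.mem_bot]
    have haC : a ∈ Subgroup.centralizer (Q : Set G) := by
      rw [Subgroup.mem_centralizer_iff]
      intro q hq
      have h1 : q ∈ Subgroup.centralizer (A : Set G) := (hQC hq).2
      rw [Subgroup.mem_centralizer_iff] at h1
      exact (h1 a ha).symm
    rw [hL2] at haC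
    rcases (hZmem a).mp haC with h1 | h1
    · exact h1
    · exfalso
      have h2 : orderOf a ∣ Nat.card A := by
        have := orderOf_dvd_natCard (⟨a, ha⟩ : A)
        rwa [Subgroup.orderOf_mk] at this
      have h3 : orderOf a = 2 := by
        rw [h1]
        exact orderOf_eq_prime (by rw [pow_two]; exact hES.sq) hzone
      rw [h3] at h2
      rcases hAodd with ⟨m, hm⟩
      omega
  refine ⟨?_, hcomm, ?_, ?_⟩
  · apply le_antisymm
    · exact sup_le inf_le_left hEQ
    · intro q hq
      obtain ⟨e, he, c, hc, rfl⟩ := hdec q hq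
      exact Subgroup.mul_mem _ (Subgroup.mem_sup_right he) (Subgroup.mem_sup_left hc)
  · exact Cfsg.Agent.Lib.LargeExtra.isExtraspecial_of_le hES hEQ hu hv huv (by
      intro h hh h1
      exact hcen_all h (hEQ hh) (fun x hx => (hcomm x hx h hh).symm) h1)
  · open Cfsg.Agent.Lib.LargeExtra in
    by_cases hCab : ∀ a ∈ C, ∀ b ∈ C, B a b = 1
    · left
      apply le_antisymm
      · intro x hx
        rw [hZmem]
        exact hcen_all x hx.1 (fun y hy => B_eq_one_iff.mp (hCab x hx y hy)) (fun y hy => hcomm x hx y hy)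
      · intro x hx
        rcases (hZmem x).mp hx with rfl | rfl
        · exact C.one_mem
        · exact hzC
    · right
      push Not at hCab
      obtain ⟨a, ha, b, hb, hab⟩ := hCab
      exact isExtraspecial_of_le hES inf_le_left ha hb hab (by
        intro h hh h1
        exact hcen_all h hh.1 h1 (fun y hy => hcomm h hh y hy))

end Cfsg.Agent.S5434
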