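import Cfsg.Statements.S5436
import Cfsg.Agent.Lib.LargeExtraF

set_option autoImplicit false
open Cfsg

namespace Cfsg.Agent.S5436


/-- Let z be an involution of the finite group G with centralizer H whose generalized Fitting subgroup Q is extraspecial of width at least 2 (order 2^(2w+1), w ≥ 2); suppose some conjugate of z other than z lies in Q, H/Q is a non-abelian simple group, H acts irreducibly by conjugation on Q modulo the subgroup generated by z (the only H-invariant subgroups of Q containing z are that subgroup and Q), and Q is not the subgroup generated by the conjugates of z lying in H. Then G is simple. -/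
theorem result {G : Type*} [Group G] [Finite G] (z : G) (hz : orderOf z = 2) (Q : Subgroup (Subgroup.centralizer ({z} : Set G))) [Q.Normal] (hF : Cfsg.generalizedFittingSubgroup ↥(Subgroup.centralizer ({z} : Set G)) = Q) (hQ : Cfsg.IsExtraspecial 2 ↥Q) (w : ℕ) (hw : 2 ≤ w) (hcard : Nat.card ↥Q = 2 ^ (2 * w + 1)) (hnwc : ∃ g : G, (∃ hq : g * z * g⁻¹ ∈ Subgroup.centralizer ({z} : Set G), (⟨g * z * g⁻¹, hq⟩ : Subgroup.centralizer ({z} : Set G)) ∈ Q) ∧ g * z * g⁻¹ ≠ z) (hsimp : IsSimpleGroup (↥(Subgroup.centralizer ({z} : Set G)) ⧸ Q)) (hna : ¬ IsMulCommutative (↥(Subgroup.centralizer ({z} : Set G)) ⧸ Q)) (hirr : ∀ W : Subgroup (Subgroup.centralizer ({z} : Set G)), W.Normal → W ≤ Q → (W = Q ∨ ∀ x ∈ W, (x : G) ∈ Subgroup.zpowers z)) (hwcl : Subgroup.closure {x : Subgroup.centralizer ({z} : Set G) | IsConj z (x : G)} ≠ Q) : IsSimpleGroup G := by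
  classical
  have hcardQ2 : 2 < Nat.card Q := by
    rw [hcard]
    have h4 : (2 : ℕ) ^ 5 ≤ 2 ^ (2 * w + 1) := Nat.pow_le_pow_right (by norm_num) (by omega)
    omega
  set Q₀ := Q.map (Subgroup.centralizer ({z} : Set G)).subtype with hQ₀
  have hQ₀ex : Cfsg.IsExtraspecial 2 ↥Q₀ :=
    Cfsg.Agent.Lib.LargeExtra.isExtraspecial_map hQ (Subgroup.centralizer ({z} : Set G)).subtype (Subgroup.centralizer ({z} : Set G)).subtype_injective hcardQ2
  have hQ₀C : Q₀ ≤ Subgroup.centralizer ({z} : Set G) := by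
    rintro _ ⟨c, -, rfl⟩
    exact c.2
  have hF₀ : (Cfsg.generalizedFittingSubgroup ↥(Subgroup.centralizer ({z} : Set G))).map (Subgroup.centralizer ({z} : Set G)).subtype = Q₀ := by
    rw [hF]
  obtain ⟨hES, hZmem, hL2, hL3⟩ := Cfsg.Agent.Lib.LargeExtraPair.pre_of_genFitting hz hQ₀C hF₀ hQ₀ex
  obtain ⟨g, ⟨hgC, hgQ⟩, hgne⟩ := hnwc
  have hgQ₀ : g * z * g⁻¹ ∈ Q₀ := ⟨_, hgQ, rfl⟩
  have hcard₀ : Nat.card ↥Q₀ = 2 ^ (2 * w + 1) := by
    rw [← hcard]
    exact Subgroup.card_map_of_injective (Subgroup.centralizer ({z} : Set G)).subtype_injective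
  have hLarge := Cfsg.Agent.Lib.LargeExtraPair.large_of_conj hQ₀ex hL2 hL3 hES hZmem hw hcard₀ hgne hgQ₀
  apply Cfsg.Agent.Lib.LargeExtraPair.simple_of_large hLarge hES hZmem
  intro N hN hzN
  set W : Subgroup ↥(Subgroup.centralizer ({z} : Set G)) := Subgroup.closure {x : ↥(Subgroup.centralizer ({z} : Set G)) | IsConj z (x : G)} with hW
  have hWN : ∀ x ∈ W, (x : G) ∈ N := by
    have hle : W ≤ N.comap (Subgroup.centralizer ({z} : Set G)).subtype := by
      rw [hW, Subgroup.closure_le]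
      intro x hx
      obtain ⟨c, hc⟩ := isConj_iff.mp hx
      show (x : G) ∈ N
      rw [← hc]
      exact hN.conj_mem z hzN c
    exact fun x hx => hle hx
  have hWnorm : W.Normal := by
    refine ⟨fun n hn c => ?_⟩
    have hle : W ≤ W.comap (MulAut.conj c).toMonoidHom := by
      rw [hW, Subgroup.closure_le]
      intro x hx
      apply Subgroup.subset_closure
      show IsConj z ((c * x * c⁻¹ : ↥(Subgroup.centralizer ({z} : Set G))) : G)
      have hx' : IsConj z (x : G) := hx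
      refine hx'.trans ?_
      exact isConj_iff.mpr ⟨c, rfl⟩
    exact hle hn
  have hzCm : g * z * g⁻¹ ∈ (Subgroup.centralizer ({z} : Set G)) := hgC
  have hz'W : (⟨g * z * g⁻¹, hgC⟩ : ↥(Subgroup.centralizer ({z} : Set G))) ∈ W :=
    Subgroup.subset_closure (isConj_iff.mpr ⟨g, rfl⟩)
  have hz1 : z ≠ 1 := hES.ne_one
  have hz'ne1 : g * z * g⁻¹ ≠ 1 := by
    intro h
    apply hz1
    have h3 : z = g⁻¹ * (g * z * g⁻¹) * g := by group
    rw [h3, h]
    group
  have hnotz : g * z * g⁻¹ ∉ Subgroup.zpowers z := by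
    intro h
    have h1 : z * z = 1 := hES.sq
    have hz2' : ∀ x ∈ Subgroup.zpowers z, x = 1 ∨ x = z := by
      intro x hx
      have : Subgroup.zpowers z ≤ Cfsg.Agent.Lib.LargeExtraPair.two z h1 := by
        rw [Subgroup.zpowers_le]
        exact Or.inr rfl
      exact this hx
    rcases hz2' _ h with h2 | h2
    · exact hz'ne1 h2
    · exact hgne h2
  have hWQ : Q ≤ W := by
    have h1 := hirr (W ⊓ Q) ⟨fun n hn c => ⟨hWnorm.conj_mem n hn.1 c, (inferInstance : Q.Normal).conj_mem n hn.2 c⟩⟩ inf_le_right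
    rcases h1 with h1 | h1
    · rw [← h1]
      exact inf_le_left
    · exfalso
      exact hnotz (h1 ⟨g * z * g⁻¹, hgC⟩ ⟨hz'W, hgQ⟩)
  have hWtop : W = ⊤ := by
    have h1 := hsimp.eq_bot_or_eq_top_of_normal (W.map (QuotientGroup.mk' Q))
      (hWnorm.map _ (QuotientGroup.mk'_surjective Q))
    rcases h1 with h1 | h1
    · exfalso
      apply hwcl
      apply le_antisymm _ hWQ
      intro x hx
      have h2 : QuotientGroup.mk' Q x ∈ W.map (QuotientGroup.mk' Q) := ⟨x, hx, rfl⟩
      rw [h1, Subgroup.mem_bot] at h2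
      exact (QuotientGroup.eq_one_iff x).mp h2
    · rw [eq_top_iff]
      intro c _
      have h2 : QuotientGroup.mk' Q c ∈ W.map (QuotientGroup.mk' Q) := by
        rw [h1]
        trivial
      obtain ⟨x, hx, hxc⟩ := h2
      have h3 : x⁻¹ * c ∈ Q := QuotientGroup.eq.mp hxc
      have h4 : c = x * (x⁻¹ * c) := by group
      rw [h4]
      exact W.mul_mem hx (hWQ h3)
  intro c hc
  have := hWN ⟨c, hc⟩ (by rw [hWtop]; trivial)
  exact this

end Cfsg.Agent.S5436
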