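import Cfsg.Statements.S5437
import Mathlib

set_option autoImplicit false
open Cfsg

namespace Cfsg.Agent.S5437


/-- Let I be a set of involutions of the finite group G closed under conjugation, and H a subgroup of G. The following are equivalent: (1) for every member x of I lying in H, the conjugates of x lying in H form a single H-class and the centralizer of x lies in H; (2) for every g outside H, no member of I lies in both H and g H g⁻¹; (3) every member of I lying in H fixes exactly one coset in the action of G on the cosets of H. -/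
theorem result {G : Type*} [Group G] [Finite G] (I : Set G) (hI : ∀ x ∈ I, orderOf x = 2) (hIc : ∀ g : G, ∀ x ∈ I, g * x * g⁻¹ ∈ I) (H : Subgroup G) : ((∀ x ∈ I, x ∈ H → (∀ g : G, g * x * g⁻¹ ∈ H → ∃ h ∈ H, h * x * h⁻¹ = g * x * g⁻¹) ∧ Subgroup.centralizer ({x} : Set G) ≤ H) ↔ (∀ g : G, g ∉ H → ∀ x ∈ I, ¬ (x ∈ H ∧ x ∈ (H : Subgroup G).map (MulAut.conj g).toMonoidHom))) ∧ ((∀ g : G, g ∉ H → ∀ x ∈ I, ¬ (x ∈ H ∧ x ∈ (H : Subgroup G).map (MulAut.conj g).toMonoidHom)) ↔ ∀ x ∈ I, x ∈ H → ∃! c : G ⧸ H, x • c = c) := by
  have hfixiff : ∀ (x g : G), x • (QuotientGroup.mk g : G ⧸ H) = QuotientGroup.mk g ↔ g⁻¹ * x * g ∈ H := by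
    intro x g
    have e : (x * g)⁻¹ * g = (g⁻¹ * x * g)⁻¹ := by group
    rw [MulAction.Quotient.smul_mk, QuotientGroup.eq, smul_eq_mul, e, H.inv_mem_iff]
  have hmapiff : ∀ (x g : G), x ∈ (H : Subgroup G).map (MulAut.conj g).toMonoidHom ↔ g⁻¹ * x * g ∈ H := by
    intro x g
    constructor
    · rintro ⟨y, hy, rfl⟩
      have : g⁻¹ * (MulAut.conj g).toMonoidHom y * g = y := by
        simp [MulAut.conj_apply]
        group
      rw [this]
      exact hy
    · intro h
      refine ⟨_, h, ?_⟩
      simp [MulAut.conj_apply]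
      group
  constructor
  · constructor
    · rintro h g hg x hx ⟨hxH, hxg⟩
      rw [hmapiff] at hxg
      have hy : g⁻¹ * x * g ∈ I := by
        have := hIc g⁻¹ x hx
        simpa using this
      obtain ⟨h1, h2⟩ := h _ hy hxg
      obtain ⟨u, hu, e⟩ := h1 g (by simpa [mul_assoc] using hxH)
      apply hg
      have hc : u⁻¹ * g ∈ Subgroup.centralizer ({g⁻¹ * x * g} : Set G) := by
        rw [Subgroup.mem_centralizer_iff]
        rintro w rfl
        generalize g⁻¹ * x * g = y at e
        symm
        calc (u⁻¹ * g) * y = u⁻¹ * (g * y * g⁻¹) * g := by group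
          _ = u⁻¹ * (u * y * u⁻¹) * g := by rw [← e]
          _ = y * (u⁻¹ * g) := by group
      have := h2 hc
      have h3 : g = u * (u⁻¹ * g) := by group
      rw [h3]
      exact H.mul_mem hu this
    · intro h x hx hxH
      refine ⟨fun g hg => ⟨g, ?_, rfl⟩, ?_⟩
      · by_contra hgH
        apply h g hgH _ (hIc g x hx)
        refine ⟨hg, ?_⟩
        rw [hmapiff]
        convert hxH using 1
        group
      · intro c hc
        by_contra hcH
        apply h c hcH x hx
        refine ⟨hxH, ?_⟩
        rw [hmapiff]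
        rw [Subgroup.mem_centralizer_iff] at hc
        have h1 := hc x rfl
        have : c⁻¹ * x * c = x := by
          rw [mul_assoc, h1]
          group
        rw [this]
        exact hxH
  · constructor
    · intro h x hx hxH
      refine ⟨QuotientGroup.mk 1, ?_, ?_⟩
      · show x • (QuotientGroup.mk 1 : G ⧸ H) = _
        rw [hfixiff]
        simpa using hxH
      · intro c hc
        obtain ⟨g, rfl⟩ := QuotientGroup.mk_surjective c
        have hc' : x • (QuotientGroup.mk g : G ⧸ H) = QuotientGroup.mk g := hc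
        rw [hfixiff] at hc'
        by_contra hne
        have hg : g ∉ H := by
          intro hgH
          apply hne
          rw [QuotientGroup.eq]
          simpa using hgH
        exact h g hg x hx ⟨hxH, (hmapiff x g).mpr hc'⟩
    · rintro h g hg x hx ⟨hxH, hxg⟩
      rw [hmapiff] at hxg
      obtain ⟨c, -, huniq⟩ := h x hx hxH
      have h1 := huniq (QuotientGroup.mk g) ((hfixiff x g).mpr hxg)
      have h2 := huniq (QuotientGroup.mk 1) ((hfixiff x 1).mpr (by simpa using hxH))
      have h3 : (QuotientGroup.mk g : G ⧸ H) = QuotientGroup.mk 1 := h1.trans h2.symm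
      apply hg
      rw [QuotientGroup.eq] at h3
      simpa using h3

end Cfsg.Agent.S5437
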