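import Cfsg.Statements.S5438
import Cfsg.Agent.Lib.SylowIn

set_option autoImplicit false
open Cfsg

namespace Cfsg.Agent.S5438

theorem pg_zpowers {G : Type*} [Group G] {x : G} {k : ℕ} (h : x ^ 2 ^ k = 1) : IsPGroup 2 (Subgroup.zpowers x) := by
  rintro ⟨y, hy⟩
  obtain ⟨n, rfl⟩ := Subgroup.mem_zpowers_iff.mp hy
  refine ⟨k, Subtype.ext ?_⟩
  show (x ^ n) ^ 2 ^ k = 1
  rw [← zpow_natCast, ← zpow_mul, mul_comm, zpow_mul, zpow_natCast, h, one_zpow]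

/-- Let z be a 2-central involution of the finite group G (an involution central in some Sylow 2-subgroup) and H a subgroup containing z such that the coset H is the only coset of H fixed by z (in the action of G on the cosets of H). Then H has odd index in G, and for every 2-element x of H the conjugates of x lying in H form a single H-class. -/
theorem result {G : Type*} [Group G] [Finite G] (z : G) (hz : Cfsg.IsTwoCentralInvolution z) (H : Subgroup G) (hzH : z ∈ H) (hfix : ∀ g : G, g⁻¹ * z * g ∈ H → g ∈ H) : Odd H.index ∧ ∀ x ∈ H, (∃ k : ℕ, orderOf x = 2 ^ k) → ∀ g : G, g * x * g⁻¹ ∈ H → ∃ h ∈ H, h * x * h⁻¹ = g * x * g⁻¹ := by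
  open Cfsg.Agent.Lib.SylowIn in
  haveI : Fact (Nat.Prime 2) := ⟨Nat.prime_two⟩
  obtain ⟨hz2, P, hzP, hzc⟩ := hz
  have hPH : (P : Subgroup G) ≤ H := by
    intro p hp
    apply hfix p
    have h1 : p⁻¹ * z * p = z := by
      have := hzc p hp
      rw [mul_assoc, ← this]
      group
    rw [h1]
    exact hzH
  have hodd : Odd H.index := by
    have h1 : H.index ∣ (P : Subgroup G).index := Subgroup.index_dvd_of_le hPH
    have h2 : ¬ 2 ∣ (P : Subgroup G).index := P.not_dvd_index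
    rw [← Nat.not_even_iff_odd, even_iff_two_dvd]
    exact fun h => h2 (h.trans h1)
  refine ⟨hodd, ?_⟩
  -- every 2-subgroup containing `z` lies in `H`
  have h2sub : ∀ R : Subgroup G, IsPGroup 2 R → z ∈ R → R ≤ H := by
    intro R hR hzR r hr
    obtain ⟨g, hg⟩ := exists_conj_mem_sylow P hR
    have h1 : g⁻¹ ∈ H := by
      apply hfix
      rw [inv_inv]
      exact hPH (hg z hzR)
    have h2 : g ∈ H := by simpa using H.inv_mem h1
    have h3 := hPH (hg r hr)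
    have h4 : r = g⁻¹ * (g * r * g⁻¹) * g := by group
    rw [h4]
    exact H.mul_mem (H.mul_mem h1 h3) h2
  -- conjugating into `P` inside `H`
  have hconjP : ∀ x ∈ H, ∀ k : ℕ, x ^ 2 ^ k = 1 → ∃ h ∈ H, h * x * h⁻¹ ∈ P := by
    intro x hx k hk
    have hT : IsPGroup 2 (Subgroup.zpowers (⟨x, hx⟩ : H)) := pg_zpowers (k := k) (by
      apply Subtype.ext
      simpa using hk)
    obtain ⟨h, hh⟩ := exists_conj_mem_sylow (P.subtype hPH) hT
    have h1 := hh ⟨x, hx⟩ (Subgroup.mem_zpowers _)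
    have h2 : h * ⟨x, hx⟩ * h⁻¹ ∈ ((P.subtype hPH : Sylow 2 H) : Subgroup H) := h1
    rw [Sylow.coe_subtype, Subgroup.mem_subgroupOf] at h2
    have h3 : (h : G) * x * (h : G)⁻¹ ∈ (P : Subgroup G) := by simpa using h2
    exact ⟨h, h.2, h3⟩
  intro x hx hord g hy
  obtain ⟨k, hk⟩ := hord
  have hxk : x ^ 2 ^ k = 1 := by
    rw [← hk]
    exact pow_orderOf_eq_one x
  have hyk : (g * x * g⁻¹) ^ 2 ^ k = 1 := by
    rw [conj_pow, hxk]
    group
  obtain ⟨h₁, hh₁, hx₁⟩ := hconjP x hx k hxk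
  obtain ⟨h₂, hh₂, hy₁⟩ := hconjP _ hy k hyk
  set x₁ := h₁ * x * h₁⁻¹ with hx₁def
  set g₁ := h₂ * g * h₁⁻¹ with hg₁def
  have hg₁ : g₁ * x₁ * g₁⁻¹ = h₂ * (g * x * g⁻¹) * h₂⁻¹ := by
    rw [hg₁def, hx₁def]
    group
  set C := Subgroup.centralizer ({x₁} : Set G) with hC
  have hzC : z ∈ C := by
    rw [hC, Subgroup.mem_centralizer_iff]
    intro w hw
    have hw' : w = x₁ := hw
    rw [hw']
    exact hzc x₁ hx₁
  have hz1C : g₁⁻¹ * z * g₁ ∈ C := by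
    rw [hC, Subgroup.mem_centralizer_iff]
    intro w hw
    have hw' : w = x₁ := hw
    rw [hw']
    have h3 : z * (g₁ * x₁ * g₁⁻¹) = (g₁ * x₁ * g₁⁻¹) * z := by
      rw [hg₁]
      exact (hzc _ hy₁).symm
    calc x₁ * (g₁⁻¹ * z * g₁) = g₁⁻¹ * ((g₁ * x₁ * g₁⁻¹) * z) * g₁ := by group
      _ = g₁⁻¹ * (z * (g₁ * x₁ * g₁⁻¹)) * g₁ := by rw [h3]
      _ = (g₁⁻¹ * z * g₁) * x₁ := by group
  have hzz : z ^ 2 ^ 1 = 1 := by
    rw [← hz2]
    simpa using pow_orderOf_eq_one z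
  have hT1 : IsPGroup 2 (Subgroup.zpowers (⟨z, hzC⟩ : C)) := pg_zpowers (k := 1) (by
    apply Subtype.ext
    simpa using hzz)
  have hT2 : IsPGroup 2 (Subgroup.zpowers (⟨g₁⁻¹ * z * g₁, hz1C⟩ : C)) := pg_zpowers (k := 1) (by
    apply Subtype.ext
    show (g₁⁻¹ * z * g₁) ^ 2 ^ 1 = 1
    have e : (g₁⁻¹ * z * g₁) = g₁⁻¹ * z * (g₁⁻¹)⁻¹ := by group
    rw [e, conj_pow, hzz]
    group)
  obtain ⟨Q, hQ⟩ := hT1.exists_le_sylow
  obtain ⟨c, hc⟩ := exists_conj_mem_sylow Q hT2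
  have hc1 := hc ⟨_, hz1C⟩ (Subgroup.mem_zpowers _)
  have hQp : IsPGroup 2 ((Q : Subgroup C).map C.subtype) := Q.isPGroup'.map _
  have hzQ : z ∈ (Q : Subgroup C).map C.subtype := ⟨⟨z, hzC⟩, hQ (Subgroup.mem_zpowers _), rfl⟩
  have hle := h2sub _ hQp hzQ
  have hin : (c : G) * (g₁⁻¹ * z * g₁) * (c : G)⁻¹ ∈ H := by
    apply hle
    exact ⟨_, hc1, by simp⟩
  set u := g₁ * (c : G)⁻¹ with hu
  have huH : u ∈ H := by
    apply hfix
    convert hin using 1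
    rw [hu]
    group
  have hcx : (c : G) * x₁ * (c : G)⁻¹ = x₁ := by
    have := Subgroup.mem_centralizer_iff.mp c.2 x₁ rfl
    rw [← this]
    group
  have hux : u * x₁ * u⁻¹ = g₁ * x₁ * g₁⁻¹ := by
    rw [hu]
    have h5 : (c : G)⁻¹ * x₁ * (c : G) = x₁ := by
      have := Subgroup.mem_centralizer_iff.mp c.2 x₁ rfl
      rw [mul_assoc, this]
      group
    calc g₁ * (c : G)⁻¹ * x₁ * (g₁ * (c : G)⁻¹)⁻¹ = g₁ * ((c : G)⁻¹ * x₁ * (c : G)) * g₁⁻¹ := by group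
      _ = g₁ * x₁ * g₁⁻¹ := by rw [h5]
  refine ⟨h₂⁻¹ * u * h₁, H.mul_mem (H.mul_mem (H.inv_mem hh₂) huH) hh₁, ?_⟩
  calc h₂⁻¹ * u * h₁ * x * (h₂⁻¹ * u * h₁)⁻¹ = h₂⁻¹ * (u * x₁ * u⁻¹) * h₂ := by
        rw [hx₁def]
        group
    _ = h₂⁻¹ * (h₂ * (g * x * g⁻¹) * h₂⁻¹) * h₂ := by rw [hux, hg₁]
    _ = g * x * g⁻¹ := by group

end Cfsg.Agent.S5438
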