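import Cfsg.Statements.S5439
import Mathlib

set_option autoImplicit false
open Cfsg

namespace Cfsg.Agent.S5439


/-- Let I and J be two different conjugacy classes of involutions of the finite group G and H a subgroup such that every member of I ∪ J fixes exactly one coset in the action on the cosets of H, and such that for every a in I ∩ H and every b in (I ∪ J) ∩ H different from a and commuting with it, the centralizer of a b lies in H. Then H = G. -/
theorem result {G : Type*} [Group G] [Finite G] (I J : Set G) (a₀ b₀ : G) (ha₀ : orderOf a₀ = 2) (hb₀ : orderOf b₀ = 2) (hI : I = {x | IsConj a₀ x}) (hJ : J = {x | IsConj b₀ x}) (hIJ : I ≠ J) (H : Subgroup G) (hfix : ∀ x ∈ I ∪ J, ∃! c : G ⧸ H, x • c = c) (hcent : ∀ a ∈ I, a ∈ H → ∀ b ∈ I ∪ J, b ∈ H → a ≠ b → a * b = b * a → Subgroup.centralizer ({a * b} : Set G) ≤ H) : H = ⊤ := by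
  have hfixiff : ∀ (x g : G), x • (QuotientGroup.mk g : G ⧸ H) = QuotientGroup.mk g ↔ g⁻¹ * x * g ∈ H := by
    intro x g
    have e : (x * g)⁻¹ * g = (g⁻¹ * x * g)⁻¹ := by group
    rw [MulAction.Quotient.smul_mk, QuotientGroup.eq, smul_eq_mul, e, H.inv_mem_iff]
  have hIconj : ∀ g : G, ∀ x ∈ I, g * x * g⁻¹ ∈ I := by
    intro g x hx
    rw [hI] at hx ⊢
    exact hx.trans (isConj_iff.mpr ⟨g, rfl⟩)
  have hJconj : ∀ g : G, ∀ x ∈ J, g * x * g⁻¹ ∈ J := by
    intro g x hx
    rw [hJ] at hx ⊢
    exact hx.trans (isConj_iff.mpr ⟨g, rfl⟩)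
  have hdisj : ∀ x, x ∈ I → x ∈ J → False := by
    intro x hx hy
    apply hIJ
    rw [hI, hJ] at *
    have h1 : IsConj a₀ b₀ := hx.trans hy.symm
    ext w
    exact ⟨fun h => h1.symm.trans h, fun h => h1.trans h⟩
  have hDconj : ∀ g : G, ∀ x ∈ I ∪ J, g * x * g⁻¹ ∈ I ∪ J := by
    rintro g x (hx | hx)
    · exact Or.inl (hIconj g x hx)
    · exact Or.inr (hJconj g x hx)
  have hDinv : ∀ x ∈ I ∪ J, x * x = 1 := by
    rintro x (hx | hx)
    · rw [hI] at hx
      obtain ⟨g, rfl⟩ := isConj_iff.mp hx
      have h2 : a₀ * a₀ = 1 := by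
        have := pow_orderOf_eq_one a₀
        rwa [ha₀, pow_two] at this
      calc g * a₀ * g⁻¹ * (g * a₀ * g⁻¹) = g * (a₀ * a₀) * g⁻¹ := by group
        _ = 1 := by rw [h2]; group
    · rw [hJ] at hx
      obtain ⟨g, rfl⟩ := isConj_iff.mp hx
      have h2 : b₀ * b₀ = 1 := by
        have := pow_orderOf_eq_one b₀
        rwa [hb₀, pow_two] at this
      calc g * b₀ * g⁻¹ * (g * b₀ * g⁻¹) = g * (b₀ * b₀) * g⁻¹ := by group
        _ = 1 := by rw [h2]; group
  -- elements in `H` from `I ∪ J`: commuting elements lie in `H`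
  have hcomm : ∀ x ∈ I ∪ J, x ∈ H → ∀ c : G, c * x = x * c → c ∈ H := by
    intro x hx hxH c hc
    obtain ⟨w, -, huniq⟩ := hfix x hx
    have h1 := huniq (QuotientGroup.mk 1) ((hfixiff x 1).mpr (by simpa using hxH))
    have h2 := huniq (QuotientGroup.mk c) ((hfixiff x c).mpr (by
      have : c⁻¹ * x * c = x := by
        rw [mul_assoc, ← hc]
        group
      rw [this]
      exact hxH))
    have h3 : (QuotientGroup.mk c : G ⧸ H) = QuotientGroup.mk 1 := h2.trans h1.symm
    rw [QuotientGroup.eq] at h3
    simpa using h3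
  -- the key claim
  have key : ∀ x ∈ I, x ∈ H → ∀ y ∈ J, y ∈ H := by
    intro x hx hxH y hy
    have hxx := hDinv x (Or.inl hx)
    have hyy := hDinv y (Or.inr hy)
    have hxi : x⁻¹ = x := inv_eq_of_mul_eq_one_left hxx
    have hyi : y⁻¹ = y := inv_eq_of_mul_eq_one_left hyy
    have hpow : ∀ m : ℕ, (x * y) ^ m * x ∈ I ∪ J ∧ (x * y) ^ (m + 1) * x ∈ I ∪ J := by
      intro m
      have hab : (x * y)⁻¹ = y * x := by
        rw [mul_inv_rev, hxi, hyi]
      induction m with
      | zero =>
        constructor
        · simpa using Or.inl hx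
        · have := hDconj x y (Or.inr hy)
          rw [hxi] at this
          simpa using this
      | succ m ih =>
        refine ⟨ih.2, ?_⟩
        have := hDconj (x * y) _ ih.1
        rw [hab] at this
        have h2 : x * y * ((x * y) ^ m * x) * (y * x) = (x * y) ^ (m + 1 + 1) * x := by
          have h3 : (x * y) ^ (m + 1 + 1) = (x * y) * (x * y) ^ m * (x * y) := by
            rw [pow_succ, pow_succ']
          rw [h3]
          simp only [mul_assoc]
        rwa [h2] at this
    rcases Nat.even_or_odd' (orderOf (x * y)) with ⟨m, hm | hm⟩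
    · -- even order
      have hm0 : m ≠ 0 := by
        rintro rfl
        have := (orderOf_pos (x * y)).ne'
        omega
      set t := (x * y) ^ m with ht
      have ht2 : t * t = 1 := by
        rw [ht, ← pow_add, ← two_mul, ← hm, pow_orderOf_eq_one]
      have ht1 : t ≠ 1 := by
        intro h1
        have h2 := orderOf_dvd_of_pow_eq_one (show (x * y) ^ m = 1 from h1)
        have h3 := Nat.le_of_dvd (Nat.pos_of_ne_zero hm0) h2
        omega
      have hinvab : ∀ k : ℕ, x * (x * y) ^ k * x = (y * x) ^ k := by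
        intro k
        induction k with
        | zero => simp [hxx]
        | succ k ih =>
          calc x * (x * y) ^ (k + 1) * x = (x * (x * y) ^ k * x) * (x * (x * y) * x) := by
                rw [pow_succ]
                simp only [mul_assoc, hxx]
                congr 3
                rw [← mul_assoc x x, hxx, one_mul]
            _ = (y * x) ^ (k + 1) := by
                rw [ih, pow_succ]
                congr 1
                rw [← mul_assoc x x, hxx, one_mul]
      have hinvz : (y * x) ^ m = t := by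
        have h1 : (y * x) = (x * y)⁻¹ := by rw [mul_inv_rev, hxi, hyi]
        rw [h1, inv_pow]
        exact inv_eq_of_mul_eq_one_left ht2
      have hzx : x * t = t * x := by
        have := hinvab m
        rw [hinvz] at this
        calc x * t = x * t * x * x := by rw [mul_assoc (x * t), hxx, mul_one]
          _ = t * x := by rw [this]
      have hzy : y * t = t * y := by
        have h1 : y = x * (x * y) := by rw [← mul_assoc, hxx, one_mul]
        have h2 : Commute (x * y) t := (Commute.refl _).pow_right m
        have h3 : Commute x t := hzx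
        have := h3.mul_left h2
        rw [← h1] at this
        exact this
      have hb : t * x ∈ I ∪ J := (hpow m).1
      have hbH : t * x ∈ H := by
        apply hcomm x (Or.inl hx) hxH
        rw [← mul_assoc x, hzx]
      have hne : x ≠ t * x := by
        intro h1
        exact ht1 (mul_eq_right.mp h1.symm)
      have hc := hcent x hx hxH (t * x) hb hbH hne (by rw [← mul_assoc, hzx, mul_assoc])
      have hprod : x * (t * x) = t := by
        rw [← mul_assoc, hzx, mul_assoc, hxx, mul_one]
      rw [hprod] at hc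
      apply hc
      rw [Subgroup.mem_centralizer_iff]
      rintro w rfl
      exact hzy.symm
    · -- odd order: `x` and `y` conjugate, contradiction
      exfalso
      have hr : (x * y) ^ m * x * ((x * y) ^ m)⁻¹ = y := by
        have hinvx : ∀ k : ℕ, x * ((x * y) ^ k)⁻¹ = (x * y) ^ k * x := by
          intro k
          induction k with
          | zero => simp
          | succ k ih =>
            have h0 : x * (x * y)⁻¹ = (x * y) * x := by
              rw [mul_inv_rev, hxi, hyi, mul_assoc]
            calc x * ((x * y) ^ (k + 1))⁻¹ = (x * (x * y)⁻¹) * ((x * y) ^ k)⁻¹ := by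
                  rw [pow_succ, mul_inv_rev, mul_assoc]
              _ = (x * y) * (x * ((x * y) ^ k)⁻¹) := by rw [h0, mul_assoc]
              _ = (x * y) * ((x * y) ^ k * x) := by rw [ih]
              _ = (x * y) ^ (k + 1) * x := by
                rw [pow_succ']
                simp only [mul_assoc]
        rw [mul_assoc, hinvx, ← mul_assoc, ← pow_add, ← two_mul]
        have h1 : (x * y) ^ (2 * m) * (x * y) = 1 := by
          rw [← pow_succ, ← hm, pow_orderOf_eq_one]
        have h2 : (x * y) ^ (2 * m) = (x * y)⁻¹ := eq_inv_of_mul_eq_one_left h1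
        rw [h2, mul_inv_rev, hxi, hyi, mul_assoc, hxx, mul_one]
      have : y ∈ I := by
        rw [← hr]
        exact hIconj _ x hx
      exact hdisj y this hy
  -- conclusion
  obtain ⟨c₀, hc₀, -⟩ := hfix a₀ (Or.inl (by rw [hI]; exact IsConj.refl a₀))
  obtain ⟨g₀, rfl⟩ := QuotientGroup.mk_surjective c₀
  have hg₀ := (hfixiff a₀ g₀).mp hc₀
  have ha : g₀⁻¹ * a₀ * g₀ ∈ I := by
    have := hIconj g₀⁻¹ a₀ (by rw [hI]; exact IsConj.refl a₀)
    simpa using this
  have hJH := key _ ha hg₀
  have hb₀J : b₀ ∈ J := by rw [hJ]; exact IsConj.refl b₀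
  rw [eq_top_iff]
  intro g _
  obtain ⟨c, -, huniq⟩ := hfix b₀ (Or.inr hb₀J)
  have h1 := huniq (QuotientGroup.mk 1) ((hfixiff b₀ 1).mpr (by simpa using hJH b₀ hb₀J))
  have h2 := huniq (QuotientGroup.mk g) ((hfixiff b₀ g).mpr (by
    apply hJH
    have := hJconj g⁻¹ b₀ hb₀J
    simpa using this))
  have h3 : (QuotientGroup.mk g : G ⧸ H) = QuotientGroup.mk 1 := h2.trans h1.symm
  rw [QuotientGroup.eq] at h3
  simpa using h3

end Cfsg.Agent.S5439
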