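import Cfsg.Statements.S5459

set_option autoImplicit false
open Cfsg

namespace Cfsg.Agent.S5459

open scoped commutatorElement

variable {G : Type*} [Group G]

/-- Fourth roots in a subgroup of odd order. -/
theorem exists_fourth_root [Finite G] {Z : Subgroup G} (hodd : Odd (Nat.card Z)) {c : G} (hc : c ∈ Z) :
    ∃ w ∈ Z, w ^ 4 = c := by
  obtain ⟨a, ha⟩ := hodd
  refine ⟨c ^ ((a + 1) ^ 2), pow_mem hc _, ?_⟩
  have h1 : c ^ (Nat.card Z) = 1 := by
    have h := congrArg (fun t : Z => (t : G)) (pow_card_eq_one' (x := (⟨c, hc⟩ : Z)))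
    simpa only [Subgroup.coe_pow, Subgroup.coe_one] using h
  rw [← pow_mul]
  have h2 : (a + 1) ^ 2 * 4 = Nat.card Z * (Nat.card Z + 2) + 1 := by
    rw [ha]
    ring
  rw [h2, pow_succ, pow_mul, h1, one_pow, one_mul]

/-- A key computation: a commuting lift. -/
theorem commute_lift {x y c w : G} (hx2 : x * x = 1) (hxw : x * w * x⁻¹ = w⁻¹) (hyw : y * w * y⁻¹ = w⁻¹)
    (hc : x * y * x⁻¹ * y⁻¹ = c) (hw : w ^ 4 = c⁻¹) : Commute x (w⁻¹ * y * w) := by
  have h1 : y * w = w⁻¹ * y := by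
    rw [← hyw]
    group
  have h2 : w⁻¹ * y * w = w⁻¹ * w⁻¹ * y := by
    rw [mul_assoc, h1, mul_assoc]
  have hxinv : x⁻¹ = x := inv_eq_of_mul_eq_one_left hx2
  have h3 : x * w⁻¹ * x⁻¹ = w := by
    have : x * w⁻¹ * x⁻¹ = (x * w * x⁻¹)⁻¹ := by group
    rw [this, hxw, inv_inv]
  have h4 : x * y * x⁻¹ = c * y := by
    rw [← hc]
    group
  have h5 : c = w⁻¹ * w⁻¹ * w⁻¹ * w⁻¹ := by
    have : c⁻¹ = w ^ 4 := hw.symm
    rw [← inv_inv c, this]
    group
  show x * (w⁻¹ * y * w) = (w⁻¹ * y * w) * x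
  rw [h2]
  have h6 : x * (w⁻¹ * w⁻¹ * y) * x⁻¹ = w⁻¹ * w⁻¹ * y := by
    have : x * (w⁻¹ * w⁻¹ * y) * x⁻¹ = (x * w⁻¹ * x⁻¹) * (x * w⁻¹ * x⁻¹) * (x * y * x⁻¹) := by group
    rw [this, h3, h4, h5]
    group
  rw [← mul_inv_eq_iff_eq_mul, h6]


open Cfsg in
/-- Conjugation of the vertices of the graph. -/
def cv (d g : G) (x : conjugatesOf d) : conjugatesOf d :=
  ⟨g * x * g⁻¹, by
    obtain ⟨a, ha⟩ := isConj_iff.mp x.2
    exact isConj_iff.mpr ⟨g * a, by rw [← ha]; group⟩⟩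

theorem cv_coe (d g : G) (x : conjugatesOf d) : (cv d g x : G) = g * x * g⁻¹ := rfl

open Cfsg in
theorem adj_cv (d g : G) {x y : conjugatesOf d} (h : (commutingGraph (conjugatesOf d)).Adj x y) :
    (commutingGraph (conjugatesOf d)).Adj (cv d g x) (cv d g y) := by
  rw [commutingGraph, SimpleGraph.fromRel_adj] at h ⊢
  obtain ⟨h1, h2⟩ := h
  refine ⟨?_, ?_⟩
  · intro he
    apply h1
    have h3 := congrArg (fun t : conjugatesOf d => (t : G)) he
    simp only [cv_coe] at h3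
    apply Subtype.ext
    have h4 := mul_left_cancel (mul_right_cancel h3)
    exact h4
  · have key : ∀ a b : G, Commute a b → Commute (g * a * g⁻¹) (g * b * g⁻¹) := by
      intro a b hab
      show g * a * g⁻¹ * (g * b * g⁻¹) = g * b * g⁻¹ * (g * a * g⁻¹)
      have e1 : g * a * g⁻¹ * (g * b * g⁻¹) = g * (a * b) * g⁻¹ := by group
      have e2 : g * b * g⁻¹ * (g * a * g⁻¹) = g * (b * a) * g⁻¹ := by group
      rw [e1, e2, hab.eq]
    rcases h2 with h2 | h2
    · exact Or.inl (key _ _ h2)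
    · exact Or.inr (key _ _ h2)

open Cfsg in
theorem reach_cv (d g : G) {x y : conjugatesOf d}
    (h : (commutingGraph (conjugatesOf d)).Reachable x y) :
    (commutingGraph (conjugatesOf d)).Reachable (cv d g x) (cv d g y) :=
  h.map (⟨cv d g, fun hxy => adj_cv d g hxy⟩ : commutingGraph (conjugatesOf d) →g commutingGraph (conjugatesOf d))


theorem cv_mul (d g h : G) (x : conjugatesOf d) : cv d (g * h) x = cv d g (cv d h x) := by
  apply Subtype.ext
  simp only [cv_coe]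
  group

theorem cv_one (d : G) (x : conjugatesOf d) : cv d 1 x = x := by
  apply Subtype.ext
  simp [cv_coe]

theorem commutator_central {t₁ t₂ a b : G} (h1 : ∀ x : G, t₁ * x = x * t₁) (h2 : ∀ x : G, t₂ * x = x * t₂) :
    ⁅t₁ * a, t₂ * b⁆ = ⁅a, b⁆ := by
  rw [commutatorElement_def, commutatorElement_def]
  have e1 : t₁ * a * (t₂ * b) = t₂ * (t₁ * a * b) := by
    rw [← mul_assoc, ← h2 (t₁ * a)]
    group
  have e2 : t₁ * (a * b * a⁻¹) = (a * b * a⁻¹) * t₁ := h1 _
  have e3 : t₂ * (t₁ * (a * b * a⁻¹) * t₁⁻¹ * b⁻¹) = (t₁ * (a * b * a⁻¹) * t₁⁻¹ * b⁻¹) * t₂ := h2 _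
  have e4 : t₁ * a * (t₂ * b) * (t₁ * a)⁻¹ * (t₂ * b)⁻¹ =
      t₂ * (t₁ * (a * b * a⁻¹) * t₁⁻¹ * b⁻¹) * t₂⁻¹ := by
    rw [e1]
    group
  rw [e4, e3, e2]
  group

/-- The main argument. -/
theorem main [Finite G] (L : Subgroup G) [L.Normal] (hL : Cfsg.IsQuasisimple ↥L) (d : G) (hd : orderOf d = 2)
    (hodd : Odd (Nat.card ↥(Subgroup.center ↥L)))
    (hinv : ∀ c ∈ (Subgroup.center ↥L).map L.subtype, d * c * d⁻¹ = c⁻¹)
    [hn : ((Subgroup.center ↥L).map L.subtype).Normal] (hgen : L ⊔ Subgroup.zpowers d = ⊤)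
    (hconn : (Cfsg.commutingGraph (conjugatesOf (QuotientGroup.mk d : G ⧸ (Subgroup.center ↥L).map L.subtype))).Connected) :
    (Cfsg.commutingGraph (conjugatesOf d)).Connected := by
  classical
  set Z := (Subgroup.center ↥L).map L.subtype with hZ
  have hZcard : Odd (Nat.card Z) := by
    rw [hZ, Subgroup.card_map_of_injective L.subtype_injective]
    exact hodd
  have hZL : Z ≤ L := by
    rintro _ ⟨a, -, rfl⟩
    exact a.2
  have hd2 : d * d = 1 := by
    rw [← pow_two, ← hd]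
    exact pow_orderOf_eq_one d
  have hA : ∀ x : conjugatesOf d, ∀ c ∈ Z, (x : G) * c * (x : G)⁻¹ = c⁻¹ := by
    rintro ⟨x, hx⟩ c hc
    obtain ⟨a, rfl⟩ := isConj_iff.mp hx
    have h1 : a⁻¹ * c * a ∈ Z := by
      have := hn.conj_mem c hc a⁻¹
      rwa [inv_inv] at this
    have h2 := hinv _ h1
    calc (a * d * a⁻¹) * c * (a * d * a⁻¹)⁻¹ = a * (d * (a⁻¹ * c * a) * d⁻¹) * a⁻¹ := by group
      _ = a * (a⁻¹ * c * a)⁻¹ * a⁻¹ := by rw [h2]
      _ = c⁻¹ := by group
  have hB : ∀ x : conjugatesOf d, (x : G) * x = 1 := by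
    rintro ⟨x, hx⟩
    obtain ⟨a, rfl⟩ := isConj_iff.mp hx
    have : a * d * a⁻¹ * (a * d * a⁻¹) = a * (d * d) * a⁻¹ := by group
    show a * d * a⁻¹ * (a * d * a⁻¹) = 1
    rw [this, hd2]
    group
  -- lifting an edge
  have hedge : ∀ x y : conjugatesOf d, Commute (x : G ⧸ Z) (y : G ⧸ Z) → (x : G ⧸ Z) ≠ (y : G ⧸ Z) →
      ∃ y' : conjugatesOf d, ((y' : G) : G ⧸ Z) = (y : G ⧸ Z) ∧ (Cfsg.commutingGraph (conjugatesOf d)).Adj x y' := by
    intro x y hc hne
    have hcZ : (x : G) * y * (x : G)⁻¹ * (y : G)⁻¹ ∈ Z := by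
      rw [← QuotientGroup.eq_one_iff]
      simp only [QuotientGroup.mk_mul, QuotientGroup.mk_inv]
      rw [hc.eq]
      group
    obtain ⟨w, hw, hw4⟩ := exists_fourth_root hZcard (inv_mem hcZ)
    have hwq : ((w : G) : G ⧸ Z) = 1 := (QuotientGroup.eq_one_iff w).mpr hw
    refine ⟨cv d w⁻¹ y, ?_, ?_⟩
    · simp only [cv_coe, QuotientGroup.mk_mul, QuotientGroup.mk_inv, hwq]
      group
    · rw [Cfsg.commutingGraph, SimpleGraph.fromRel_adj]
      have hcm := commute_lift (hB x) (hA x w hw) (hA y w hw) rfl hw4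
      refine ⟨?_, Or.inl ?_⟩
      · intro he
        apply hne
        have h3 := congrArg (fun t : conjugatesOf d => ((t : G) : G ⧸ Z)) he
        simp only [cv_coe, QuotientGroup.mk_mul, QuotientGroup.mk_inv, hwq] at h3
        rw [h3]
        group
      · simp only [cv_coe, inv_inv]
        exact hcm
  -- vertices of the quotient lift
  have hlift : ∀ c : conjugatesOf ((d : G) : G ⧸ Z), ∃ y : conjugatesOf d, ((y : G) : G ⧸ Z) = c := by
    rintro ⟨c, hc⟩
    obtain ⟨a, rfl⟩ := isConj_iff.mp hc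
    obtain ⟨a, rfl⟩ := QuotientGroup.mk_surjective a
    refine ⟨⟨a * d * a⁻¹, isConj_iff.mpr ⟨a, rfl⟩⟩, ?_⟩
    simp
  have hmem : ∀ x : conjugatesOf d, ((x : G) : G ⧸ Z) ∈ conjugatesOf ((d : G) : G ⧸ Z) := by
    rintro ⟨x, hx⟩
    obtain ⟨a, rfl⟩ := isConj_iff.mp hx
    exact isConj_iff.mpr ⟨(a : G ⧸ Z), by simp⟩
  -- lifting a walk
  have hwalk : ∀ (a b : conjugatesOf ((d : G) : G ⧸ Z))
      (_ : (Cfsg.commutingGraph (conjugatesOf ((d : G) : G ⧸ Z))).Walk a b),
      ∀ x : conjugatesOf d, ((x : G) : G ⧸ Z) = a →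
      ∃ x' : conjugatesOf d, ((x' : G) : G ⧸ Z) = b ∧ (Cfsg.commutingGraph (conjugatesOf d)).Reachable x x' := by
    intro a b p
    induction p with
    | nil => exact fun x hx => ⟨x, hx, SimpleGraph.Reachable.refl _⟩
    | @cons u v w hadj q ih =>
      intro x hx
      rw [Cfsg.commutingGraph, SimpleGraph.fromRel_adj] at hadj
      obtain ⟨hne, hcm⟩ := hadj
      obtain ⟨y, hy⟩ := hlift v
      have hc : Commute ((x : G) : G ⧸ Z) ((y : G) : G ⧸ Z) := by
        rw [hx, hy]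
        rcases hcm with h | h
        · exact h
        · exact h.symm
      have hne' : ((x : G) : G ⧸ Z) ≠ ((y : G) : G ⧸ Z) := by
        rw [hx, hy]
        intro he
        exact hne (Subtype.ext he)
      obtain ⟨y', hy', hadj'⟩ := hedge x y hc hne'
      obtain ⟨x', hx', hr⟩ := ih y' (hy'.trans hy)
      exact ⟨x', hx', hadj'.reachable.trans hr⟩
  let d₀ : conjugatesOf d := ⟨d, mem_conjugatesOf_self⟩
  let H : Subgroup G :=
    { carrier := {g | (Cfsg.commutingGraph (conjugatesOf d)).Reachable d₀ (cv d g d₀)}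
      one_mem' := by
        show (Cfsg.commutingGraph (conjugatesOf d)).Reachable d₀ (cv d 1 d₀)
        rw [cv_one]
      mul_mem' := by
        intro g h hg hh
        show (Cfsg.commutingGraph (conjugatesOf d)).Reachable d₀ (cv d (g * h) d₀)
        rw [cv_mul]
        exact SimpleGraph.Reachable.trans hg (reach_cv d g hh)
      inv_mem' := by
        intro g hg
        show (Cfsg.commutingGraph (conjugatesOf d)).Reachable d₀ (cv d g⁻¹ d₀)
        have h1 := reach_cv d g⁻¹ hg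
        rw [← cv_mul, inv_mul_cancel, cv_one] at h1
        exact h1.symm }
  have hmemH : ∀ g, g ∈ H ↔ (Cfsg.commutingGraph (conjugatesOf d)).Reachable d₀ (cv d g d₀) := fun g => Iff.rfl
  -- `G = Z H`
  have hZH : ∀ g : G, ∃ t ∈ Z, t * g ∈ H := by
    intro g
    let x := cv d g d₀
    obtain ⟨p⟩ := hconn.preconnected (⟨_, hmem x⟩ : conjugatesOf ((d : G) : G ⧸ Z)) (⟨_, hmem d₀⟩ : conjugatesOf ((d : G) : G ⧸ Z))
    obtain ⟨x', hx', hr⟩ := hwalk _ _ p x rfl
    have hu : (x' : G) * d⁻¹ ∈ Z := by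
      rw [← QuotientGroup.eq_one_iff]
      simp only [QuotientGroup.mk_mul, QuotientGroup.mk_inv]
      rw [hx']
      show ((d : G) : G ⧸ Z) * ((d : G) : G ⧸ Z)⁻¹ = 1
      group
    obtain ⟨w, hw, hw4⟩ := exists_fourth_root hZcard (inv_mem hu)
    have ht : w ^ 2 ∈ Z := pow_mem hw 2
    set t := w ^ 2 with htdef
    have hx'eq : x' = cv d t⁻¹ d₀ := by
      apply Subtype.ext
      simp only [cv_coe, inv_inv]
      have h1 : d * t * d⁻¹ = t⁻¹ := hinv t ht
      have h2 : d * t = t⁻¹ * d := by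
        rw [← h1]
        group
      have h3 : t⁻¹ * d * t = t⁻¹ * t⁻¹ * d := by
        rw [mul_assoc, h2, mul_assoc]
      show (x' : G) = t⁻¹ * d * t
      rw [h3]
      have h4 : t⁻¹ * t⁻¹ = (x' : G) * d⁻¹ := by
        have h5 : (t * t)⁻¹ = (w ^ 4)⁻¹ := by
          congr 1
          rw [htdef]
          group
        rw [hw4, inv_inv] at h5
        rw [← h5]
        group
      rw [h4]
      group
    subst hx'eq
    refine ⟨t, ht, ?_⟩
    rw [hmemH, cv_mul]
    have h6 := reach_cv d t hr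
    have e1 : cv d t (cv d t⁻¹ d₀) = d₀ := by rw [← cv_mul, mul_inv_cancel, cv_one]
    rw [e1] at h6
    exact h6.symm
  -- `L ≤ H`
  have hLH : L ≤ H := by
    have hcomm : commutator ↥L ≤ H.subgroupOf L := by
      rw [commutator_def, Subgroup.commutator_le]
      intro a _ b _
      obtain ⟨t₁, ht₁, h1⟩ := hZH (a : G)
      obtain ⟨t₂, ht₂, h2⟩ := hZH (b : G)
      obtain ⟨z₁, hz₁, e₁⟩ := ht₁
      obtain ⟨z₂, hz₂, e₂⟩ := ht₂
      have hc1 : ∀ x : ↥L, z₁ * x = x * z₁ := fun x => ((Subgroup.mem_center_iff.mp hz₁) x).symm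
      have hc2 : ∀ x : ↥L, z₂ * x = x * z₂ := fun x => ((Subgroup.mem_center_iff.mp hz₂) x).symm
      have h3 := commutator_central (a := a) (b := b) hc1 hc2
      rw [← h3, Subgroup.mem_subgroupOf]
      have h4 : ((z₁ * a : ↥L) : G) ∈ H := by
        show (z₁ : G) * a ∈ H
        rw [show (z₁ : G) = t₁ from e₁]
        exact h1
      have h5 : ((z₂ * b : ↥L) : G) ∈ H := by
        show (z₂ : G) * b ∈ H
        rw [show (z₂ : G) = t₂ from e₂]
        exact h2
      have h6 : ((⁅z₁ * a, z₂ * b⁆ : ↥L) : G) = ⁅((z₁ * a : ↥L) : G), ((z₂ * b : ↥L) : G)⁆ := rfl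
      rw [h6, commutatorElement_def]
      exact mul_mem (mul_mem (mul_mem h4 h5) (inv_mem h4)) (inv_mem h5)
    have htop : H.subgroupOf L = ⊤ := by
      rw [eq_top_iff, ← hL.1.commutator_eq_top]
      exact hcomm
    intro x hx
    have : (⟨x, hx⟩ : ↥L) ∈ H.subgroupOf L := by
      rw [htop]
      exact Subgroup.mem_top _
    exact this
  have htopH : ∀ g, g ∈ H := by
    intro g
    obtain ⟨t, ht, h1⟩ := hZH g
    have h2 : t ∈ H := hLH (hZL ht)
    have h3 : g = t⁻¹ * (t * g) := by group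
    rw [h3]
    exact mul_mem (inv_mem h2) h1
  have hreach : ∀ x : conjugatesOf d, (Cfsg.commutingGraph (conjugatesOf d)).Reachable d₀ x := by
    rintro ⟨x, hx⟩
    obtain ⟨a, rfl⟩ := isConj_iff.mp hx
    exact htopH a
  haveI : Nonempty (conjugatesOf d) := ⟨d₀⟩
  exact ⟨fun x y => (hreach x).symm.trans (hreach y)⟩


/-- Let G be a finite group with a quasisimple normal subgroup L and an involution d such that G is generated by L and d, the centre of L has odd order, and d inverts every element of the centre of L. If the commuting graph on the conjugacy class of the image of d in G modulo the centre of L is connected, then the commuting graph on the conjugacy class of d is connected. -/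
theorem result {G : Type*} [Group G] [Finite G] (L : Subgroup G) [L.Normal] (hL : Cfsg.IsQuasisimple ↥L) (d : G) (hd : orderOf d = 2) (hgen : L ⊔ Subgroup.zpowers d = ⊤) (hodd : Odd (Nat.card ↥(Subgroup.center ↥L))) (hinv : ∀ c ∈ (Subgroup.center ↥L).map L.subtype, d * c * d⁻¹ = c⁻¹) [hn : ((Subgroup.center ↥L).map L.subtype).Normal] (hconn : (Cfsg.commutingGraph (conjugatesOf (QuotientGroup.mk d : G ⧸ (Subgroup.center ↥L).map L.subtype))).Connected) : (Cfsg.commutingGraph (conjugatesOf d)).Connected := by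
  exact main L hL d hd hodd hinv hgen hconn

end Cfsg.Agent.S5459
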