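import Cfsg.Statements.S5541


set_option autoImplicit false
open Cfsg

namespace Cfsg.Agent.S5541

/-- Let ρ be a representation of a group H on a finite-dimensional real vector space U whose only ρ-invariant subspaces are the zero subspace and U, and suppose U carries a non-zero ρ-invariant symmetric bilinear form. Then the following are equivalent: (1) there is a non-zero ρ-equivariant commutative bilinear product on U of which every ρ-equivariant bilinear product is a scalar multiple; (2) there is a non-zero ρ-invariant trilinear form on U that is symmetric under all permutations of its arguments and of which every ρ-invariant trilinear form is a scalar multiple. -/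
theorem result {H : Type*} [Group H] {U : Type*} [AddCommGroup U] [Module ℝ U] [FiniteDimensional ℝ U] (ρ : Representation ℝ H U) (hirr : ∀ W : Submodule ℝ U, (∀ g : H, W.map (ρ g) ≤ W) → W = ⊥ ∨ W = ⊤) (B : LinearMap.BilinForm ℝ U) (hB0 : B ≠ 0) (hBs : ∀ u v, B u v = B v u) (hBi : ∀ (g : H) (u v : U), B (ρ g u) (ρ g v) = B u v) : (∃ m : U →ₗ[ℝ] U →ₗ[ℝ] U, m ≠ 0 ∧ (∀ u v, m u v = m v u) ∧ (∀ (g : H) (u v : U), m (ρ g u) (ρ g v) = ρ g (m u v)) ∧ ∀ m' : U →ₗ[ℝ] U →ₗ[ℝ] U, (∀ (g : H) (u v : U), m' (ρ g u) (ρ g v) = ρ g (m' u v)) → ∃ c : ℝ, m' = c • m) ↔ (∃ t : U →ₗ[ℝ] U →ₗ[ℝ] U →ₗ[ℝ] ℝ, t ≠ 0 ∧ (∀ u v w, t u v w = t v u w ∧ t u v w = t u w v) ∧ (∀ (g : H) (u v w : U), t (ρ g u) (ρ g v) (ρ g w) = t u v w) ∧ ∀ t' : U →ₗ[ℝ] U →ₗ[ℝ] U →ₗ[ℝ] ℝ, (∀ (g : H) (u v w : U), t' (ρ g u) (ρ g v) (ρ g w) = t' u v w) → ∃ c : ℝ, t' = c • t) := by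
  classical
  have hρ : ∀ (g : H) (v : U), ρ g (ρ g⁻¹ v) = v := by
    intro g v
    have h1 : ρ g * ρ g⁻¹ = 1 := by rw [← map_mul, mul_inv_cancel, map_one]
    exact congrArg (fun f : U →ₗ[ℝ] U => f v) h1
  -- nondegeneracy
  have hker : LinearMap.ker B = ⊥ := by
    rcases hirr (LinearMap.ker B) (by
      rintro g _ ⟨u, hu, rfl⟩
      have hu : B u = 0 := hu
      rw [LinearMap.mem_ker]
      ext v
      have h1 := hBi g u (ρ g⁻¹ v)
      rw [hρ] at h1
      rw [h1]
      simp [hu]) with h | h
    · exact h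
    · exfalso
      apply hB0
      ext u v
      have : u ∈ LinearMap.ker B := by rw [h]; trivial
      rw [LinearMap.mem_ker] at this
      simp [this]
  have hinj : Function.Injective B := LinearMap.ker_eq_bot.mp hker
  let e : U ≃ₗ[ℝ] Module.Dual ℝ U :=
    LinearMap.linearEquivOfInjective B hinj (Subspace.dual_finrank_eq).symm
  have he : ∀ u, e u = B u := fun u => rfl
  have hB_e : ∀ (φ : Module.Dual ℝ U) (w : U), B (e.symm φ) w = φ w := by
    intro φ w
    rw [← he, LinearEquiv.apply_symm_apply]
  have hnd : ∀ x y : U, (∀ w, B x w = B y w) → x = y := by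
    intro x y h
    apply hinj
    ext w
    exact h w
  constructor
  · rintro ⟨m, hm0, hmc, hme, hmu⟩
    let t : U →ₗ[ℝ] U →ₗ[ℝ] U →ₗ[ℝ] ℝ := m.compr₂ B
    have ht : ∀ u v w, t u v w = B (m u v) w := fun u v w => rfl
    have ht0 : t ≠ 0 := by
      intro h
      apply hm0
      ext u v
      apply congrArg (fun x : U => x) 
      have : m u v = 0 := by
        apply hinj
        ext w
        rw [map_zero]
        have h1 : t u v w = 0 := by rw [h]; rfl
        rw [← ht, h1]
        rfl
      rw [this]
      rfl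
    have hinv : ∀ (g : H) (u v w : U), t (ρ g u) (ρ g v) (ρ g w) = t u v w := by
      intro g u v w
      rw [ht, ht, hme, hBi]
    -- uniqueness for t
    have huniq : ∀ t' : U →ₗ[ℝ] U →ₗ[ℝ] U →ₗ[ℝ] ℝ, (∀ (g : H) (u v w : U), t' (ρ g u) (ρ g v) (ρ g w) = t' u v w) →
        ∃ c : ℝ, t' = c • t := by
      intro t' ht'
      let m' : U →ₗ[ℝ] U →ₗ[ℝ] U := t'.compr₂ e.symm.toLinearMap
      have hm' : ∀ u v w, B (m' u v) w = t' u v w := by
        intro u v w
        exact hB_e _ _
      obtain ⟨c, hc⟩ := hmu m' (by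
        intro g u v
        apply hnd
        intro w
        have h1 := ht' g u v (ρ g⁻¹ w)
        rw [hρ] at h1
        rw [hm', h1]
        have h2 := hBi g (m' u v) (ρ g⁻¹ w)
        rw [hρ] at h2
        rw [h2, hm'])
      refine ⟨c, ?_⟩
      ext u v w
      rw [← hm', hc]
      simp [ht]
    -- symmetry in the last two variables
    let tf : U →ₗ[ℝ] U →ₗ[ℝ] U →ₗ[ℝ] ℝ :=
      LinearMap.mk₂ ℝ (fun u v => (t u).flip v)
        (fun u u' v => by ext w; simp)
        (fun c u v => by ext w; simp)
        (fun u v v' => by ext w; simp)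
        (fun c u v => by ext w; simp)
    have htf : ∀ u v w, tf u v w = t u w v := fun u v w => rfl
    obtain ⟨c, hc⟩ := huniq tf (fun g u v w => by
      rw [htf, htf, hinv])
    have hc' : ∀ u v w, t u w v = c * t u v w := by
      intro u v w
      rw [← htf, hc]
      rfl
    have hsym1 : ∀ u v w, t u v w = t v u w := by
      intro u v w
      rw [ht, ht, hmc]
    have hc1 : c = 1 := by
      -- c ^ 2 = 1 since t ≠ 0
      obtain ⟨u, v, w, hne⟩ : ∃ u v w, t u v w ≠ 0 := by
        by_contra hall
        push Not at hall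
        apply ht0
        ext u v w
        exact hall u v w
      have h2 : t u v w = c * (c * t u v w) := by
        rw [← hc' u v w, ← hc' u w v]
      have h3 : c * c = 1 := by
        have : (c * c - 1) * t u v w = 0 := by linarith
        rcases mul_eq_zero.mp this with h | h
        · linarith
        · exact absurd h hne
      have h4 : (c - 1) * (c + 1) = 0 := by linarith
      rcases mul_eq_zero.mp h4 with h | h
      · linarith
      · exfalso
        have hm1 : c = -1 := by linarith
        have hanti : ∀ u v w, t u w v = - t u v w := by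
          intro u v w
          rw [hc', hm1]
          ring
        have h5 : t u v w = - t u v w := by
          calc t u v w = t v u w := hsym1 _ _ _
            _ = - t v w u := hanti _ _ _
            _ = - t w v u := by rw [hsym1 v w u]
            _ = t w u v := by rw [hanti w u v]; ring
            _ = t u w v := hsym1 _ _ _
            _ = - t u v w := hanti _ _ _
        apply hne
        linarith
    refine ⟨t, ht0, fun u v w => ⟨hsym1 u v w, ?_⟩, hinv, huniq⟩
    rw [hc' u w v, hc1, one_mul]
  · rintro ⟨t, ht0, hts, hti, htu⟩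
    let m : U →ₗ[ℝ] U →ₗ[ℝ] U := t.compr₂ e.symm.toLinearMap
    have hm : ∀ u v w, B (m u v) w = t u v w := by
      intro u v w
      exact hB_e _ _
    refine ⟨m, ?_, ?_, ?_, ?_⟩
    · intro h
      apply ht0
      ext u v w
      rw [← hm, h]
      simp
    · intro u v
      apply hnd
      intro w
      rw [hm, hm]
      exact (hts u v w).1
    · intro g u v
      apply hnd
      intro w
      have h1 := hti g u v (ρ g⁻¹ w)
      rw [hρ] at h1
      rw [hm, h1]
      have h2 := hBi g (m u v) (ρ g⁻¹ w)
      rw [hρ] at h2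
      rw [h2, hm]
    · intro m' hm'
      let t' : U →ₗ[ℝ] U →ₗ[ℝ] U →ₗ[ℝ] ℝ := m'.compr₂ B
      have ht' : ∀ u v w, t' u v w = B (m' u v) w := fun u v w => rfl
      obtain ⟨c, hc⟩ := htu t' (fun g u v w => by
        rw [ht', ht', hm', hBi])
      refine ⟨c, ?_⟩
      ext u v
      apply congrArg (fun x : U => x)
      apply hnd
      intro w
      rw [← ht', hc]
      simp [hm]

end Cfsg.Agent.S5541
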