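import Cfsg.Statements.S5551
import Cfsg.Agent.Lib.LeechBase

set_option autoImplicit false
open Cfsg

namespace Cfsg.Agent.S5551

/-- In the Leech lattice of the definitions (integer coordinates, minimal squared length 32), let v and w be non-zero lattice vectors of squared length at most 64 that are congruent modulo twice the lattice. Then they have the same squared length, and if that length is less than 64 then w = v or w = −v. (So a class that contains a non-zero vector of squared length at most 64 has a well-defined type 2, 3 or 4, and a class of type 2 or 3 contains no such vector other than v and −v.) -/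
theorem result (v w : Cfsg.GolayPt → ℤ) (hv : v ∈ Cfsg.leechLattice) (hw : w ∈ Cfsg.leechLattice) (hv0 : v ≠ 0) (hw0 : w ≠ 0) (hvn : Cfsg.sqNorm v ≤ 64) (hwn : Cfsg.sqNorm w ≤ 64) (hc : ∃ z ∈ Cfsg.leechLattice, v - w = 2 • z) : Cfsg.sqNorm v = Cfsg.sqNorm w ∧ (Cfsg.sqNorm v < 64 → w = v ∨ w = -v) := by
  by_cases he : v = w
  · subst he
    exact ⟨rfl, fun _ => Or.inl rfl⟩
  · rcases Cfsg.Agent.Lib.LeechBase.congr_small hv hw he hvn hwn hc with h | ⟨h1, h2, h3⟩
    · have hn : Cfsg.sqNorm v = Cfsg.sqNorm w := by
        rw [h]
        simp [Cfsg.sqNorm]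
      refine ⟨hn, fun _ => Or.inr ?_⟩
      rw [h, neg_neg]
    · exact ⟨h1.trans h2.symm, fun h => by omega⟩

end Cfsg.Agent.S5551
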