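import Cfsg.Statements.S5594
import Cfsg.Agent.Lib.LeechCo

set_option autoImplicit false
open Cfsg

namespace Cfsg.Agent.S5594

/-- The automorphism group of the Leech lattice contains the negation map, and the subgroup of order 2 it generates has no complement: the automorphism group is a non-split extension of its quotient by that subgroup (it is not the direct product of a group of order 2 with the first Conway group). -/
theorem result :
    ∃ n : ↥Cfsg.Co0, (∀ v : ↥Cfsg.leechLattice, ((n • v : ↥Cfsg.leechLattice) : Cfsg.GolayPt → ℤ) = -(v : Cfsg.GolayPt → ℤ)) ∧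
    ∀ K : Subgroup ↥Cfsg.Co0, ¬ (Subgroup.zpowers n).IsComplement' K := by
  obtain ⟨n, hn⟩ := Cfsg.Agent.Lib.LeechCo.exists_neg
  refine ⟨n, hn, ?_⟩
  intro K hK
  obtain ⟨g, hg⟩ := Cfsg.Agent.Lib.LeechCo.exists_sq_neg
  have hgn : g * g = n := by
    apply Subtype.ext
    apply Equiv.ext
    intro v
    apply Subtype.ext
    have h1 := hg v
    have h2 := hn v
    exact h1.trans h2.symm
  -- `n` is central of order two
  have hcomm : ∀ c : ↥Cfsg.Co0, c * n = n * c := by
    intro c
    apply Subtype.ext
    apply Equiv.ext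
    intro v
    apply Subtype.ext
    have hc := c.2.1
    have h3 : ((c * n) • v : ↥Cfsg.leechLattice) = c • (n • v) := mul_smul _ _ _
    have h4 : ((n * c) • v : ↥Cfsg.leechLattice) = n • (c • v) := mul_smul _ _ _
    have h5 : (n • v : ↥Cfsg.leechLattice) = -v := Subtype.ext (hn v)
    have h6 : (n • (c • v) : ↥Cfsg.leechLattice) = -(c • v) := Subtype.ext (hn _)
    have h7 : (c • (-v) : ↥Cfsg.leechLattice) = -(c • v) := by
      have h8 : (c • (-v) : ↥Cfsg.leechLattice) + c • v = 0 := by
        have h9 := hc (-v) v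
        have h10 : (-v + v : ↥Cfsg.leechLattice) = 0 := by simp
        rw [h10] at h9
        have h11 : (c : Equiv.Perm ↥Cfsg.leechLattice) 0 = 0 := by
          have h12 := hc 0 0
          simp only [add_zero] at h12
          exact left_eq_add.mp h12
        rw [h11] at h9
        exact h9.symm
      exact eq_neg_of_add_eq_zero_left h8
    show ((((c * n) • v : ↥Cfsg.leechLattice) : ↥Cfsg.leechLattice) : Cfsg.GolayPt → ℤ) = (((n * c) • v : ↥Cfsg.leechLattice) : Cfsg.GolayPt → ℤ)
    rw [h3, h4, h5, h6, h7]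
  have hsq : n * n = 1 := by
    apply Subtype.ext
    apply Equiv.ext
    intro v
    apply Subtype.ext
    have h1 := hn (n • v)
    have h2 := hn v
    have h3 : ((n * n) • v : ↥Cfsg.leechLattice) = n • (n • v) := mul_smul _ _ _
    show (((n * n) • v : ↥Cfsg.leechLattice) : Cfsg.GolayPt → ℤ) = (v : Cfsg.GolayPt → ℤ)
    rw [h3, h1, h2, neg_neg]
  -- decomposition of `g`
  obtain ⟨⟨⟨h, hh⟩, ⟨k, hk⟩⟩, hprod, -⟩ := hK.existsUnique g
  have hprod' : h * k = g := hprod
  obtain ⟨z, hz⟩ := Subgroup.mem_zpowers_iff.mp hh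
  have hhh : h * h = 1 := by
    rw [← hz, ← zpow_add, ← two_mul, zpow_mul, zpow_two, hsq, one_zpow]
  have hcomm' : Commute h k := by
    rw [← hz]
    exact Commute.zpow_left (hcomm k).symm z
  have hnk : n = k * k := by
    rw [← hgn, ← hprod']
    calc h * k * (h * k) = h * (k * h) * k := by simp only [mul_assoc]
      _ = h * (h * k) * k := by rw [hcomm'.eq.symm]
      _ = (h * h) * (k * k) := by simp only [mul_assoc]
      _ = k * k := by rw [hhh, one_mul]
  have hnK : n ∈ K := by
    rw [hnk]
    exact K.mul_mem hk hk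
  have hn1 : n = 1 := by
    have hd := hK.disjoint
    exact Subgroup.disjoint_def.mp hd (Subgroup.mem_zpowers n) hnK
  obtain ⟨x, hx, hx0⟩ := Cfsg.Agent.Lib.LeechCo.exists_nonzero
  have h1 := hn ⟨x, hx⟩
  rw [hn1, one_smul] at h1
  apply hx0
  funext i
  have h2 := congrFun h1 i
  simp only [Pi.neg_apply] at h2
  simp only [Pi.zero_apply]
  omega

end Cfsg.Agent.S5594
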