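import Cfsg.Statements.S5606
import Cfsg.Agent.Lib.GolayCounts

set_option autoImplicit false
open scoped Pointwise
open Cfsg

namespace Cfsg.Agent.S5606

/-- A fixed-point-free involution of the group of the length-24 code maps to themselves exactly 15 octads, exactly 75 trios and exactly 51 sextets. -/
theorem result (g : Equiv.Perm Cfsg.GolayPt) (hg : g ∈ Cfsg.M24) (h₂ : orderOf g = 2) (h₀ : ∀ p, g p ≠ p) : {o : Finset Cfsg.GolayPt | o ∈ Cfsg.octads ∧ g • o = o}.ncard = 15 ∧ {T : Finset (Finset Cfsg.GolayPt) | T ∈ Cfsg.trios ∧ g • T = T}.ncard = 75 ∧ {S : Finset (Finset Cfsg.GolayPt) | S ∈ Cfsg.sextets ∧ g • S = S}.ncard = 51 := by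
  rcases Cfsg.Agent.Lib.GolayClass.invol_conj hg h₂ with ⟨-, c, hc, he⟩ | ⟨h8, -⟩
  · obtain ⟨h1, -, h3, h4⟩ := Cfsg.Agent.Lib.GolayObjs.counts_conj hc (Cfsg.Agent.Lib.GolayEnum.isAutN_ok Cfsg.Agent.Lib.GolayClass.rZ0_ok) he
    refine ⟨h1.trans Cfsg.Agent.Lib.GolayCounts.cO0, h3.trans Cfsg.Agent.Lib.GolayCounts.cT0, h4.trans Cfsg.Agent.Lib.GolayCounts.cS0⟩
  · exfalso
    have h0 := Cfsg.Agent.Lib.GolayClass.fix_iff.mpr h₀
    omega

end Cfsg.Agent.S5606
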