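import Cfsg.Statements.S5628
import Cfsg.Agent.Lib.Plane4

set_option autoImplicit false
open Cfsg

namespace Cfsg.Agent.S5628

/-- In a projective plane of order 4 (a Steiner system S(2, 5, 21)), every permutation of the six points of a hyperoval (a 6-set met by no line in more than two points) is the restriction of exactly one automorphism of the plane. In particular the stabiliser of a hyperoval in the automorphism group is isomorphic to the symmetric group of degree 6 acting faithfully on the hyperoval. -/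
theorem result {α : Type*} [Fintype α] [DecidableEq α] (hα : Fintype.card α = 21) (L : Set (Finset α)) (hL : Cfsg.IsSteinerSystem 2 5 L) (H : Finset α) (hH : (H.card = 6 ∧ ∀ l ∈ L, (l ∩ H).card ≤ 2)) (σ : Equiv.Perm ↥H) : ∃! g : Equiv.Perm α, g ∈ Cfsg.setSystemAut L ∧ ∀ p : ↥H, g p = σ p := by
  classical
  obtain ⟨ι₁, ι₂, h1, h2, hp, hq⟩ := Cfsg.Agent.Lib.Plane4.exists_lab hH.1 hH.2 σ
  obtain ⟨Φ₁, hΦ₁, hI₁⟩ := h1.exists_coord hα hL
  obtain ⟨Φ₂, hΦ₂, hI₂⟩ := h2.exists_coord hα hL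
  have hmem : ∀ g : Equiv.Perm α, g ∈ Cfsg.setSystemAut L ↔ (fun b : Finset α => b.image g) '' L = L :=
    Cfsg.Agent.Lib.Plane4.mem_aut_iff
  have hg2 : ∀ g ∈ Cfsg.setSystemAut L, ∀ l ∈ L, l.image g ∈ L := by
    intro g hg l hl
    have := (hmem g).mp hg
    rw [← this]
    exact ⟨l, hl, rfl⟩
  have hon : ∀ i, (Φ₁.trans Φ₂.symm) (ι₁ i) = ι₂ i := by
    intro i
    simp only [Equiv.trans_apply]
    rw [hΦ₁, ← hΦ₂, Equiv.symm_apply_apply]
  refine ⟨Φ₁.trans Φ₂.symm, ⟨(hmem _).mpr (Cfsg.Agent.Lib.Plane4.iso_of_coord Φ₁ Φ₂ hI₁ hI₂), ?_⟩, ?_⟩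
  · intro p
    obtain ⟨i, hi1, hi2⟩ := hp p
    rw [← hi1, ← hi2]
    exact hon i
  · rintro g' ⟨hg', hg'p⟩
    have hgA : (Φ₁.trans Φ₂.symm : Equiv.Perm α) ∈ Cfsg.setSystemAut L :=
      (hmem _).mpr (Cfsg.Agent.Lib.Plane4.iso_of_coord Φ₁ Φ₂ hI₁ hI₂)
    have hk : (Φ₁.trans Φ₂.symm : Equiv.Perm α)⁻¹ * g' ∈ Cfsg.setSystemAut L := mul_mem (inv_mem hgA) hg'
    have hone : (Φ₁.trans Φ₂.symm : Equiv.Perm α)⁻¹ * g' = 1 := by
      apply h1.aut_trivial hα hL _ (hg2 _ hk)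
      intro i
      obtain ⟨p, hp1, hp2⟩ := hq i
      rw [Equiv.Perm.mul_apply, hp1, hg'p, ← hp2, ← hon i]
      simp [hp1]
    have := mul_left_cancel (a := (Φ₁.trans Φ₂.symm : Equiv.Perm α)⁻¹) (b := g')
      (c := (Φ₁.trans Φ₂.symm : Equiv.Perm α)) (by rw [hone]; simp)
    exact this

end Cfsg.Agent.S5628
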