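import Cfsg.Statements.S5632
import Cfsg.Agent.Lib.SubspaceStab

open Cfsg.Agent.Lib.SubspaceStab Cfsg.Agent.Lib.Transvection Cfsg.Agent.Lib.LinAlgAux

set_option autoImplicit false
open Cfsg

namespace Cfsg.Agent.S5632

/-- For a finite field F and subspaces 0 < W < U of F^n with dim W + dim U = n, the elements of SL_n(F) stabilising both W and U form a subgroup that is not maximal in SL_n(F): some subgroup lies strictly between it and SL_n(F). -/
theorem result {F : Type*} [Field F] [Fintype F] (n : ℕ) (W U : Submodule F (Fin n → F)) (hW0 : W ≠ ⊥) (hWU : W < U) (hdim : Module.finrank F W + Module.finrank F U = n) : ∃ K : Subgroup (Matrix.GeneralLinearGroup (Fin n) F), Cfsg.Geo.subspaceStabilizer W ⊓ Cfsg.Geo.subspaceStabilizer U ⊓ Cfsg.Geo.specialLinear (Fin n) F < K ∧ K < Cfsg.Geo.specialLinear (Fin n) F := by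
  classical
  have hU1 : U ≠ ⊤ := by
    rintro rfl
    have h1 : Module.finrank F (⊤ : Submodule F (Fin n → F)) = n := by simp
    have h2 : Module.finrank F W ≠ 0 := fun h => hW0 (Submodule.finrank_eq_zero.1 h)
    omega
  have hW1 : W ≠ ⊤ := fun h => hU1 (eq_top_iff.2 (h ▸ hWU.le))
  refine ⟨Cfsg.Geo.subspaceStabilizer W ⊓ Cfsg.Geo.specialLinear (Fin n) F, ?_, ?_⟩
  · refine lt_of_le_of_ne (le_inf (inf_le_left.trans inf_le_left) inf_le_right) ?_
    intro heq
    obtain ⟨u, huU, huW⟩ := SetLike.exists_of_lt hWU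
    obtain ⟨z, hz⟩ : ∃ z, z ∉ U := by
      by_contra hcon
      push Not at hcon
      exact hU1 (eq_top_iff.2 fun x _ => hcon x)
    have hsep : u ∉ W ⊔ Submodule.span F {z} := by
      intro hm
      obtain ⟨a, ha, b, hb, hab⟩ := Submodule.mem_sup.1 hm
      obtain ⟨c, rfl⟩ := Submodule.mem_span_singleton.1 hb
      by_cases hc : c = 0
      · subst hc
        apply huW
        simp only [zero_smul, add_zero] at hab
        exact hab ▸ ha
      · apply hz
        have : z = c⁻¹ • (u - a) := by
          rw [← hab]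
          simp [smul_smul, inv_mul_cancel₀ hc]
        rw [this]
        exact U.smul_mem _ (U.sub_mem huU (hWU.le ha))
    obtain ⟨φ, h1, h2⟩ := exists_functional_of_notMem hsep
    have h2W : ∀ y ∈ W, φ y = 0 := fun y hy => h2 y (Submodule.mem_sup_left hy)
    have h2z : φ z = 0 := h2 _ (Submodule.mem_sup_right (Submodule.mem_span_singleton_self _))
    have hmem : tv φ z h2z ∈ Cfsg.Geo.subspaceStabilizer W ⊓ Cfsg.Geo.specialLinear (Fin n) F :=
      ⟨tv_mem_stab_of_ann _ h2z h2W, tv_mem_specialLinear _ _ _⟩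
    rw [← heq] at hmem
    refine not_mem_stab_of huU ?_ hmem.1.2
    rw [tv_mulVec, h1, one_smul]
    intro hm
    apply hz
    have := U.sub_mem hm huU
    simpa using this
  · exact (stab_isMaximalIn hW0 hW1).1

end Cfsg.Agent.S5632
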