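import Cfsg.Statements.S5633
import Cfsg.Agent.Lib.SubspaceStab

open Cfsg.Agent.Lib.SubspaceStab Cfsg.Agent.Lib.Transvection Cfsg.Agent.Lib.LinAlgAux

set_option autoImplicit false
open Cfsg

namespace Cfsg.Agent.S5633

/-- For a finite field F and complementary non-zero subspaces W ⊕ U = F^n with dim W < dim U, the elements of SL_n(F) stabilising both W and U form a subgroup that is not maximal in SL_n(F): some subgroup lies strictly between it and SL_n(F). -/
theorem result {F : Type*} [Field F] [Fintype F] (n : ℕ) (W U : Submodule F (Fin n → F)) (hW0 : W ≠ ⊥) (hWU : W ⊓ U = ⊥) (hWU' : W ⊔ U = ⊤) (hdim : Module.finrank F W < Module.finrank F U) : ∃ K : Subgroup (Matrix.GeneralLinearGroup (Fin n) F), Cfsg.Geo.subspaceStabilizer W ⊓ Cfsg.Geo.subspaceStabilizer U ⊓ Cfsg.Geo.specialLinear (Fin n) F < K ∧ K < Cfsg.Geo.specialLinear (Fin n) F := by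
  classical
  have hU0 : U ≠ ⊥ := by
    rintro rfl
    simp only [finrank_bot] at hdim
    omega
  have hW1 : W ≠ ⊤ := by
    rintro rfl
    apply hU0
    simpa using hWU
  refine ⟨Cfsg.Geo.subspaceStabilizer W ⊓ Cfsg.Geo.specialLinear (Fin n) F, ?_, ?_⟩
  · refine lt_of_le_of_ne (le_inf (inf_le_left.trans inf_le_left) inf_le_right) ?_
    intro heq
    obtain ⟨z, hz, hz0⟩ := Submodule.exists_mem_ne_zero_of_ne_bot hW0
    obtain ⟨u, hu, hu0⟩ := Submodule.exists_mem_ne_zero_of_ne_bot hU0
    have hdisj : ∀ x, x ∈ W → x ∈ U → x = 0 := fun x h1 h2 => by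
      have : x ∈ W ⊓ U := ⟨h1, h2⟩
      rw [hWU] at this
      simpa using this
    have hsep : u ∉ Submodule.span F {z} := by
      intro hm
      exact hu0 (hdisj u (Submodule.span_le.2 (by simpa using hz) hm) hu)
    obtain ⟨φ, h1, h2⟩ := exists_functional_of_not_mem_span hsep
    have hmem : tv φ z h2 ∈ Cfsg.Geo.subspaceStabilizer W ⊓ Cfsg.Geo.specialLinear (Fin n) F :=
      ⟨tv_mem_stab_of_center _ h2 hz, tv_mem_specialLinear _ _ _⟩
    rw [← heq] at hmem
    refine not_mem_stab_of hu ?_ hmem.1.2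
    rw [tv_mulVec, h1, one_smul]
    intro hm
    apply hz0
    refine hdisj z hz ?_
    have := U.sub_mem hm hu
    simpa using this
  · exact (stab_isMaximalIn hW0 hW1).1

end Cfsg.Agent.S5633
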