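import Cfsg.Statements.S5648
import Cfsg.Agent.Lib.SymplecticDecomp

set_option autoImplicit false
open Cfsg

namespace Cfsg.Agent.S5648

open scoped MatrixGroups Matrix
open Cfsg.Geo
open Cfsg.Agent.Lib.Transvection Cfsg.Agent.Lib.SymplecticTv Cfsg.Agent.Lib.SubspaceStab
  Cfsg.Agent.Lib.LinAlgAux Cfsg.Agent.Lib.SymplecticMax Cfsg.Agent.Lib.SymplecticDecomp

variable {ι : Type} [Fintype ι] [DecidableEq ι] {F : Type*} [Field F]
  {f : (ι → F) → (ι → F) → F}

theorem f2_cases [Fintype F] (hq : Fintype.card F = 2) (a : F) : a = 0 ∨ a = 1 := by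
  by_contra h
  push Not at h
  have : 2 < Fintype.card F := Fintype.two_lt_card_iff.2 ⟨0, 1, a, zero_ne_one, h.1.symm, h.2.symm⟩
  omega

theorem f2_two [Fintype F] (hq : Fintype.card F = 2) : (2 : F) = 0 := by
  rcases f2_cases hq (2 : F) with h | h
  · exact h
  · exfalso
    have : (1 : F) + 1 = 1 := by
      rw [one_add_one_eq_two]
      exact h
    have h2 : (1 : F) = 0 := by linear_combination this
    exact one_ne_zero h2

theorem f2_add_self [Fintype F] (hq : Fintype.card F = 2) (a : F) : a + a = 0 := by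
  have := f2_two hq
  linear_combination a * this

theorem f2_vec_add_self [Fintype F] (hq : Fintype.card F = 2) (v : ι → F) : v + v = 0 := by
  funext i
  exact f2_add_self hq (v i)

theorem f2_ne_zero [Fintype F] (hq : Fintype.card F = 2) {a : F} (h : a ≠ 0) : a = 1 :=
  (f2_cases hq a).resolve_left h

section
variable {hf : IsSymplecticForm f} {t r : ℕ} {D : Fin t → Submodule F (ι → F)} (S : SB hf D 2 r)

open Classical in
/-- The block function. -/
noncomputable def qq (v : ι → F) : F := if v = 0 then 0 else 1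

/-- The quadratic form counting the support modulo two. -/
noncomputable def cntQ (S : SB hf D 2 r) (x : ι → F) : F := ∑ i, qq (S.pr i x)

theorem qq_zero : qq (0 : ι → F) = 0 := by simp [qq]

theorem qq_of_ne {v : ι → F} (h : v ≠ 0) : qq v = 1 := by simp [qq, h]

include S

theorem block_polar [Fintype F] (hq : Fintype.card F = 2) {i : Fin t} {v w : ι → F} (hv : v ∈ D i)
    (hw : w ∈ D i) : qq (v + w) + qq v + qq w = f v w := by
  classical
  have htwo := f2_two hq
  by_cases hv0 : v = 0
  · subst hv0
    rw [zero_add, qq_zero, f_zero_left hf, add_zero]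
    exact f2_add_self hq _
  by_cases hw0 : w = 0
  · subst hw0
    rw [add_zero, qq_zero, f_zero_right hf, add_zero]
    exact f2_add_self hq _
  by_cases hvw : v = w
  · subst hvw
    rw [f2_vec_add_self hq, qq_zero, hf.alternating, zero_add]
    exact f2_add_self hq _
  have hvw0 : v + w ≠ 0 := by
    intro h
    apply hvw
    have h2 := f2_vec_add_self hq w
    have : v + w = w + w := by rw [h, h2]
    exact add_right_cancel this
  rw [qq_of_ne hvw0, qq_of_ne hv0, qq_of_ne hw0]
  have h1 : (1 : F) + 1 + 1 = 1 := by linear_combination htwo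
  rw [h1]
  symm
  apply f2_ne_zero hq
  intro h0
  -- `v` would be in the radical of the block
  have hli : LinearIndependent F ![v, w] := by
    rw [LinearIndependent.pair_iff]
    intro s u hsu
    rcases f2_cases hq s with rfl | rfl <;> rcases f2_cases hq u with rfl | rfl
    · exact ⟨rfl, rfl⟩
    · simp only [zero_smul, zero_add, one_smul] at hsu
      exact absurd hsu hw0
    · simp only [zero_smul, add_zero, one_smul] at hsu
      exact absurd hsu hv0
    · simp only [one_smul] at hsu
      exact absurd hsu hvw0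
  have hPfin : Module.finrank F (Submodule.span F {v, w} : Submodule F (ι → F)) = 2 := by
    have := finrank_span_eq_card hli
    have e : Set.range ![v, w] = {v, w} := by
      ext z
      simp only [Set.mem_range, Set.mem_insert_iff, Set.mem_singleton_iff]
      constructor
      · rintro ⟨i, rfl⟩
        fin_cases i
        · simp
        · simp
      · rintro (rfl | rfl)
        · exact ⟨0, rfl⟩
        · exact ⟨1, rfl⟩
    rw [e] at this
    simpa using this
  have hle : (Submodule.span F {v, w} : Submodule F (ι → F)) ≤ D i := by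
    rw [Submodule.span_le]
    rintro z (rfl | rfl)
    · exact hv
    · exact hw
  have heq := Submodule.eq_of_le_of_finrank_eq hle (by rw [hPfin, S.hD.decomp.finrank_eq])
  obtain ⟨-, ⟨y, hy, hvy⟩⟩ := S.hD.nondegenerate i v hv hv0
  rw [← heq] at hy
  obtain ⟨a, b, rfl⟩ := Submodule.mem_span_pair.1 hy
  apply hvy
  rw [hf.bilinear.add_right, hf.bilinear.smul_right, hf.bilinear.smul_right, hf.alternating, h0]
  simp

theorem QQ_polar [Fintype F] (hq : Fintype.card F = 2) (x y : ι → F) :
    cntQ S (x + y) + cntQ S x + cntQ S y = f x y := by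
  rw [S.f_eq_sum x y, cntQ, cntQ, cntQ, ← Finset.sum_add_distrib, ← Finset.sum_add_distrib]
  refine Finset.sum_congr rfl fun i _ => ?_
  rw [map_add]
  exact block_polar S hq (S.pr_mem i x) (S.pr_mem i y)

theorem QQ_add [Fintype F] (hq : Fintype.card F = 2) (x y : ι → F) :
    cntQ S (x + y) = cntQ S x + cntQ S y + f x y := by
  have h := QQ_polar S hq x y
  have h2 := f2_two hq
  linear_combination h + (-cntQ S x - cntQ S y) * h2

theorem QQ_of_comps (J : Finset (Fin t)) (c : Fin t → ι → F) (hc : ∀ i, c i ∈ D i)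
    (hJ : ∀ i, c i ≠ 0 ↔ i ∈ J) : cntQ S (∑ i, c i) = (J.card : F) := by
  classical
  rw [cntQ]
  have : ∀ i, qq (S.pr i (∑ i, c i)) = if i ∈ J then 1 else 0 := by
    intro i
    rw [S.pr_sum c hc]
    by_cases hi : i ∈ J
    · rw [if_pos hi, qq_of_ne ((hJ i).2 hi)]
    · rw [if_neg hi]
      have : c i = 0 := by
        by_contra h
        exact hi ((hJ i).1 h)
      rw [this, qq_zero]
  simp only [this, Finset.sum_ite_mem, Finset.univ_inter, Finset.sum_const, nsmul_eq_mul, mul_one]

/-- Isometries permuting the blocks preserve `QQ`. -/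
theorem QQ_of_mem {g : GL ι F} (hg : g ∈ decompositionStabilizer D) (x : ι → F) :
    cntQ S ((g : Matrix ι ι F) *ᵥ x) = cntQ S x := by
  classical
  obtain ⟨σ, hσ⟩ := hg
  have hmem : ∀ i, ∀ v ∈ D i, (g : Matrix ι ι F) *ᵥ v ∈ D (σ i) := by
    intro i v hv
    rw [← hσ i]
    exact ⟨v, hv, by rw [Matrix.toLin'_apply]⟩
  have hpr : ∀ i, S.pr (σ i) ((g : Matrix ι ι F) *ᵥ x) = (g : Matrix ι ι F) *ᵥ (S.pr i x) := by
    intro i
    have e : (g : Matrix ι ι F) *ᵥ x = ∑ i', (g : Matrix ι ι F) *ᵥ (S.pr (σ.symm i') x) := by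
      have e1 : (g : Matrix ι ι F) *ᵥ x = ∑ i', glLin g (S.pr i' x) := by
        conv_lhs => rw [← S.sum_pr x]
        rw [← glLin_apply, map_sum]
      rw [e1]
      exact (Equiv.sum_comp σ.symm (fun i => glLin g (S.pr i x))).symm
    rw [e, S.pr_sum (fun i' => (g : Matrix ι ι F) *ᵥ (S.pr (σ.symm i') x))]
    · simp
    · intro i'
      have := hmem _ _ (S.pr_mem (σ.symm i') x)
      simpa using this
  have hqq : ∀ v : ι → F, qq ((g : Matrix ι ι F) *ᵥ v) = qq v := by
    intro v
    by_cases hv : v = 0
    · subst hv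
      rw [Matrix.mulVec_zero]
    · rw [qq_of_ne hv, qq_of_ne]
      intro h
      apply hv
      have := congrArg (fun z => ((g⁻¹ : GL ι F) : Matrix ι ι F) *ᵥ z) h
      simpa [gl_inv_mulVec_mulVec] using this
  rw [cntQ, cntQ, ← Equiv.sum_comp σ]
  refine Finset.sum_congr rfl fun i _ => ?_
  rw [hpr, hqq]

/-- A transvection with a mixed centre does not permute the blocks. -/
theorem stv_not_mem' {i0 i1 : Fin t} (hi : i0 ≠ i1) {u : ι → F} (hu0 : S.pr i0 u ≠ 0)
    (hu1 : S.pr i1 u ≠ 0) (c : F) (hc : c ≠ 0) : stv hf u c ∉ decompositionStabilizer D := by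
  rintro ⟨σ, hσ⟩
  set v0 := S.pr i0 u with hv0def
  have hv0 : v0 ∈ D i0 := S.pr_mem i0 u
  have hfv : f v0 u = 0 := by
    rw [S.f_eq_sum v0 u, Finset.sum_eq_single i0]
    · rw [S.pr_self hv0, ← hv0def, hf.alternating]
    · intro j _ hj
      rw [S.pr_other hj hv0, f_zero_left hf]
    · simp
  have hfix : ((stv hf u c : GL ι F) : Matrix ι ι F) *ᵥ v0 = v0 := by
    rw [stv_mulVec, hfv]
    simp
  have hmem : v0 ∈ D (σ i0) := by
    rw [← hσ]
    exact ⟨v0, hv0, by rw [Matrix.toLin'_apply]; exact hfix⟩
  have hσ0 : σ i0 = i0 := by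
    by_contra hne
    apply hu0
    rw [← S.pr_self hv0, S.pr_other (Ne.symm hne) hmem]
  obtain ⟨y, hy, hyv⟩ := S.exists_pair (x := v0) (j := i0) (by rwa [S.pr_self hv0])
  have hyv' : f y v0 ≠ 0 := by rw [f_swap hf]; exact neg_ne_zero.2 hyv
  have hyu : f y u = f y v0 := by
    rw [S.f_eq_sum y u, Finset.sum_eq_single i0]
    · rw [S.pr_self hy]
    · intro j _ hj
      rw [S.pr_other hj hy, f_zero_left hf]
    · simp
  have hmem2 : ((stv hf u c : GL ι F) : Matrix ι ι F) *ᵥ y ∈ D i0 := by
    rw [← hσ0, ← hσ]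
    exact ⟨y, hy, by rw [Matrix.toLin'_apply]⟩
  rw [stv_mulVec, hyu] at hmem2
  have h3 := S.pr_other (Ne.symm hi) hmem2
  rw [map_add, map_smul, S.pr_other (Ne.symm hi) hy, zero_add] at h3
  rcases smul_eq_zero.1 h3 with h4 | h4
  · rcases mul_eq_zero.1 h4 with h5 | h5
    · exact hc h5
    · exact hyv' h5
  · exact hu1 h4

/-- The count of blocks. -/
theorem card_le : Fintype.card ι ≤ 2 * (t * r) := by
  classical
  let T : Finset (ι → F) := (Finset.univ.image S.PP) ∪ (Finset.univ.image S.QQ)
  have hspan : Submodule.span F (T : Set (ι → F)) = ⊤ := by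
    rw [eq_top_iff]
    intro x _
    rw [S.gexp x]
    refine Submodule.sum_mem _ fun a _ => Submodule.sub_mem _ (Submodule.smul_mem _ _ ?_)
      (Submodule.smul_mem _ _ ?_)
    · exact Submodule.subset_span (by simp [T])
    · exact Submodule.subset_span (by simp [T])
  have h1 := finrank_span_finset_le_card (R := F) T
  rw [Set.finrank, hspan] at h1
  simp only [finrank_top, Module.finrank_fintype_fun_eq_card] at h1
  have h2 : T.card ≤ (t * r) + (t * r) := by
    refine (Finset.card_union_le _ _).trans (add_le_add ?_ ?_)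
    · refine Finset.card_image_le.trans ?_
      simp
    · refine Finset.card_image_le.trans ?_
      simp
  omega

end

/-- The main result for a general form. -/
theorem main_aux [Fintype F] (hq : Fintype.card F = 2) (hf : IsSymplecticForm f) {t : ℕ}
    {D : Fin t → Submodule F (ι → F)} (hD : IsNondegenerateMDecomposition f 2 D)
    (hcard : 5 ≤ Fintype.card ι) :
    ∃ K : Subgroup (GL ι F), decompositionStabilizer D ⊓ preserving (glToMat ι F) f < K ∧
      K < preserving (glToMat ι F) f := by
  classical
  obtain ⟨r, ⟨S⟩⟩ := exists_SB hf hD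
  have hr : r = 1 := by have := S.hkr; omega
  subst hr
  have hle := card_le S
  have ht3 : 3 ≤ t := by omega
  let i0 : Fin t := ⟨0, by omega⟩
  let i1 : Fin t := ⟨1, by omega⟩
  let i2 : Fin t := ⟨2, by omega⟩
  have h01 : i0 ≠ i1 := by simp [i0, i1, Fin.ext_iff]
  have h02 : i0 ≠ i2 := by simp [i0, i2, Fin.ext_iff]
  have h12 : i1 ≠ i2 := by simp [i1, i2, Fin.ext_iff]
  have hne := fun j => S.exists_ne_zero j
  choose v hv hv0 using hne
  let K : Subgroup (GL ι F) :=
    { carrier := {g | IsIsom f g ∧ ∀ x, cntQ S ((g : Matrix ι ι F) *ᵥ x) = cntQ S x}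
      mul_mem' := fun {a b} ha hb => ⟨ha.1.mul hb.1, fun x => by
        rw [gl_mul_mulVec, ha.2, hb.2]⟩
      one_mem' := ⟨fun u v => by simp, fun x => by simp⟩
      inv_mem' := fun {a} ha => ⟨ha.1.inv, fun x => by
        have := ha.2 (((a⁻¹ : GL ι F) : Matrix ι ι F) *ᵥ x)
        rw [gl_mulVec_inv_mulVec] at this
        exact this.symm⟩ }
  have htwo := f2_two hq
  refine ⟨K, ?_, ?_⟩
  · refine lt_of_le_of_ne (fun g hg => ⟨hg.2, fun x => QQ_of_mem S hg.1 x⟩) ?_
    intro heq
    -- a centre with support of size three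
    let c : Fin t → ι → F := fun i => if i = i0 ∨ i = i1 ∨ i = i2 then v i else 0
    have hc : ∀ i, c i ∈ D i := by
      intro i
      simp only [c]
      split_ifs
      · exact hv i
      · exact Submodule.zero_mem _
    let u := ∑ i, c i
    have hJ : ∀ i, c i ≠ 0 ↔ i ∈ ({i0, i1, i2} : Finset (Fin t)) := by
      intro i
      simp only [c, Finset.mem_insert, Finset.mem_singleton]
      split_ifs with h
      · simp only [h, iff_true]
        exact hv0 i
      · simp [h]
    have hQu : cntQ S u = 1 := by
      rw [QQ_of_comps S _ c hc hJ, Finset.card_insert_of_notMem (by simp [h01, h02]),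
        Finset.card_insert_of_notMem (by simp [h12]), Finset.card_singleton]
      push_cast
      linear_combination htwo
    have hmem : stv hf u 1 ∈ K := by
      refine ⟨stv_isIsom hf u 1, fun x => ?_⟩
      rw [stv_mulVec, one_mul]
      rcases f2_cases hq (f x u) with h | h
      · rw [h]
        simp
      · rw [h, one_smul, QQ_add S hq, hQu, h]
        linear_combination htwo
    rw [← heq] at hmem
    refine stv_not_mem' S h01 (u := u) ?_ ?_ 1 one_ne_zero hmem.1
    · rw [S.pr_sum c hc]
      exact (hJ i0).2 (by simp)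
    · rw [S.pr_sum c hc]
      exact (hJ i1).2 (by simp)
  · refine lt_of_le_of_ne (fun g hg => hg.1) ?_
    intro heq
    -- a centre with support of size two
    let c : Fin t → ι → F := fun i => if i = i0 ∨ i = i1 then v i else 0
    have hc : ∀ i, c i ∈ D i := by
      intro i
      simp only [c]
      split_ifs
      · exact hv i
      · exact Submodule.zero_mem _
    let u := ∑ i, c i
    have hJ : ∀ i, c i ≠ 0 ↔ i ∈ ({i0, i1} : Finset (Fin t)) := by
      intro i
      simp only [c, Finset.mem_insert, Finset.mem_singleton]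
      split_ifs with h
      · simp only [h, iff_true]
        exact hv0 i
      · simp [h]
    have hQu : cntQ S u = 0 := by
      rw [QQ_of_comps S _ c hc hJ, Finset.card_insert_of_notMem (by simp [h01]),
        Finset.card_singleton]
      push_cast
      linear_combination htwo
    have hu0 : u ≠ 0 := by
      intro h
      have := S.pr_sum c hc i0
      rw [show (∑ i, c i) = u from rfl, h, map_zero] at this
      exact (hJ i0).2 (by simp) this.symm
    have hmem : stv hf u 1 ∈ K := by
      have h1 : stv hf u 1 ∈ preserving (glToMat ι F) f := stv_isIsom hf u 1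
      rw [← heq] at h1
      exact h1
    obtain ⟨⟨x, hx⟩, -⟩ := hf.nondegenerate u hu0
    have h2 := hmem.2 x
    rw [stv_mulVec, one_mul, f2_ne_zero hq hx, one_smul, QQ_add S hq, hQu, f2_ne_zero hq hx] at h2
    apply (one_ne_zero : (1 : F) ≠ 0)
    linear_combination h2

/-- Over the field with 2 elements and for m ≥ 7, let D be a decomposition of F^(2m) into t pairwise orthogonal non-degenerate 2-dimensional subspaces for the standard alternating form (t = m ≥ 2). Then the elements of Sp_2m(2) permuting the members of D form a subgroup that is not maximal: some subgroup lies strictly between it and Sp_2m(2). -/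
theorem result {F : Type*} [Field F] [Fintype F] (m : ℕ) (hm : 7 ≤ m) (hq : Fintype.card F = 2) {t : ℕ} (D : Fin t → Submodule F (Fin m ⊕ Fin m → F)) (hD : Cfsg.Geo.IsNondegenerateMDecomposition (Cfsg.sympForm m F) 2 D) : ∃ K : Subgroup (Matrix.GeneralLinearGroup (Fin m ⊕ Fin m) F), Cfsg.Geo.decompositionStabilizer D ⊓ Cfsg.spGL m F < K ∧ K < Cfsg.spGL m F := by
  refine main_aux hq (sympForm_isSymplectic m) hD ?_
  simp only [Fintype.card_sum, Fintype.card_fin]
  omega

end Cfsg.Agent.S5648
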