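import Cfsg.Statements.S5649
import Cfsg.Agent.Lib.SymplecticLag

set_option autoImplicit false
open Cfsg

namespace Cfsg.Agent.S5649

/-- For a finite field F of odd order and m ≥ 7, let D be a decomposition of F^(2m) into two complementary subspaces of dimension m on each of which the standard alternating form vanishes identically. Then the elements of Sp_2m(F) preserving or interchanging the two subspaces form a maximal subgroup of Sp_2m(F). -/
theorem result {F : Type*} [Field F] [Fintype F] (m : ℕ) (hm : 7 ≤ m) (hodd : Odd (Fintype.card F)) (D : Fin 2 → Submodule F (Fin m ⊕ Fin m → F)) (hD : Cfsg.Geo.IsMDecomposition m D) (hts : ∀ i, Cfsg.Geo.IsTotallySingularFor (Cfsg.sympForm m F) (D i)) : Cfsg.Geo.IsMaximalIn (Cfsg.spGL m F) (Cfsg.Geo.decompositionStabilizer D ⊓ Cfsg.spGL m F) := by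
  have h2 : (2 : F) ≠ 0 := by
    intro h
    have h3 : ringChar F = 2 := CharP.ringChar_of_prime_eq_zero Nat.prime_two (by exact_mod_cast h)
    have h4 := FiniteField.even_card_iff_char_two.1 h3
    obtain ⟨k, hk⟩ := hodd
    omega
  exact Cfsg.Agent.Lib.SymplecticLag.lag_isMaximalIn
    (Cfsg.Agent.Lib.SymplecticTv.sympForm_isSymplectic m)
    (Cfsg.Agent.Lib.SymplecticTv.spGL_le_stvGroup m) hD hts (by omega) h2

end Cfsg.Agent.S5649
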