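import Cfsg.Statements.S5652
import Cfsg.Agent.Lib.OrthogChar2

set_option autoImplicit false
open Cfsg

namespace Cfsg.Agent.S5652

/-- For a finite field F of characteristic two and m ≥ 7, let Q be a non-degenerate quadratic form on F^(2m) whose polar form is the standard alternating form. Then the elements of Sp_2m(F) that are similarities of Q (they are exactly the isometries of Q) form a maximal subgroup of Sp_2m(F). -/
theorem result {F : Type*} [Field F] [Fintype F] (m : ℕ) (hm : 7 ≤ m) (heven : ¬ Odd (Fintype.card F)) (Q : (Fin m ⊕ Fin m → F) → F) (hQ : Cfsg.Geo.IsNondegenerateQuadraticForm Q) (hpol : ∀ u v, QuadraticMap.polar Q u v = Cfsg.sympForm m F u v) : Cfsg.Geo.IsMaximalIn (Cfsg.spGL m F) (Cfsg.Geo.quadSimilarityGroup Q ⊓ Cfsg.spGL m F) := by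
  classical
  have hchar : ringChar F = 2 := by
    have h := (FiniteField.even_card_iff_char_two (F := F))
    apply h.2
    exact Nat.even_iff.1 (Nat.not_odd_iff_even.1 heven)
  have htwo : (2 : F) = 0 := by
    have := ringChar.Nat.cast_ringChar (R := F)
    rw [hchar] at this
    exact_mod_cast this
  have hS : Cfsg.Agent.Lib.OrthogChar2.Setup (sympForm m F) Q :=
    { hf := Cfsg.Agent.Lib.SymplecticTv.sympForm_isSymplectic m
      smul := hQ.smul
      polar := hpol
      two := htwo
      sq := fun a => by
        obtain ⟨s, hs⟩ := FiniteField.isSquare_of_char_two hchar a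
        exact ⟨s, by rw [hs]; ring⟩
      card := by
        simp only [Fintype.card_sum, Fintype.card_fin]
        omega }
  exact hS.isMaximalIn (Cfsg.Agent.Lib.SymplecticTv.spGL_le_stvGroup m)

end Cfsg.Agent.S5652
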