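import Cfsg.Statements.S5656
import Cfsg.Agent.Lib.UnitaryMax

set_option autoImplicit false
open Cfsg

namespace Cfsg.Agent.S5656

open scoped MatrixGroups Matrix
open Cfsg.Geo
open Cfsg.Agent.Lib.Transvection Cfsg.Agent.Lib.UnitaryBase
open Cfsg.Agent.Lib.SymplecticTv (IsIsom)

/-- Vectors of the blocks with non-zero norm. -/
def AA {ι : Type} {F : Type*} [Field F] {t : ℕ} (f : (ι → F) → (ι → F) → F)
    (D : Fin t → Submodule F (ι → F)) (v : ι → F) : Prop :=
  (∃ i, v ∈ D i) ∧ f v v ≠ 0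

/-- The subgroup of `G` stabilising this set of vectors. -/
def KK {ι : Type} [Fintype ι] [DecidableEq ι] {F : Type*} [Field F] {t : ℕ}
    (f : (ι → F) → (ι → F) → F) (D : Fin t → Submodule F (ι → F)) (G : Subgroup (GL ι F)) :
    Subgroup (GL ι F) where
  carrier := {g | g ∈ G ∧ ∀ v, AA f D v ↔ AA f D ((g : Matrix ι ι F) *ᵥ v)}
  mul_mem' {a b} ha hb := ⟨G.mul_mem ha.1 hb.1, fun v => by
    rw [hb.2 v, ha.2, gl_mul_mulVec]⟩
  one_mem' := ⟨G.one_mem, fun v => by simp⟩
  inv_mem' {a} ha := ⟨G.inv_mem ha.1, fun v => by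
    rw [ha.2 (((a⁻¹ : GL ι F) : Matrix ι ι F) *ᵥ v), gl_mulVec_inv_mulVec]⟩

/-- Let F be the field with 4 elements (q = 2) and n ≥ 13. Let D be a decomposition of F^n into t pairwise orthogonal 2-dimensional subspaces, each non-degenerate for the standard unitary form Σ u_i v_i². Then the elements of SU_n(2) permuting the members of D form a subgroup that is not maximal: some subgroup lies strictly between it and SU_n(2). -/
theorem result {F : Type*} [Field F] [Fintype F] (n : ℕ) (hF : Fintype.card F = 4) (hn : 13 ≤ n) {t : ℕ} (D : Fin t → Submodule F (Fin n → F)) (hD : Cfsg.Geo.IsNondegenerateMDecomposition (Cfsg.hermForm n F 2) 2 D) : ∃ K : Subgroup (Matrix.GeneralLinearGroup (Fin n) F), Cfsg.Geo.decompositionStabilizer D ⊓ (Cfsg.GU n F 2 ⊓ Cfsg.Geo.specialLinear (Fin n) F) < K ∧ K < (Cfsg.GU n F 2 ⊓ Cfsg.Geo.specialLinear (Fin n) F) := by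
  classical
  have hF' : Fintype.card F = 2 ^ 2 := by rw [hF]; norm_num
  obtain ⟨σ, hσ⟩ := Cfsg.Agent.Lib.UnitaryHerm.exists_sigma hF'
  have hf := Cfsg.Agent.Lib.UnitaryHerm.hermForm_isUnitary (n := n) hF' hσ
  set f := hermForm n F 2 with hfdef
  set G := GU n F 2 ⊓ specialLinear (Fin n) F with hGdef
  have hG : ∀ g, g ∈ G ↔ IsIsom f g ∧ g ∈ specialLinear (Fin n) F := fun g => Iff.rfl
  have h2 : (2 : F) = 0 := by
    have h1 : ringChar F = 2 := (FiniteField.even_card_iff_char_two).2 (by rw [hF])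
    have h3 := ringChar.Nat.cast_ringChar (R := F)
    rw [h1] at h3
    exact_mod_cast h3
  have hadd : ∀ x : F, x + x = 0 := fun x => by linear_combination x * h2
  have hN : ∀ x : F, x ≠ 0 → x * σ x = 1 := by
    intro x hx
    have := FiniteField.pow_card_sub_one_eq_one x hx
    rw [hF] at this
    rw [hσ]
    linear_combination this
  have hval : ∀ v, f v v ≠ 0 → f v v = 1 := by
    intro v hv
    have h3 := f_self_fix hf v
    rw [hσ] at h3
    have h4 : f v v * (f v v - 1) = 0 := by linear_combination h3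
    exact sub_eq_zero.1 ((mul_eq_zero.1 h4).resolve_left hv)
  have hone : (1 : F) + σ 1 = 0 := by
    rw [map_one, hadd]
  have hdec := hD.decomp
  have hnd := hD.nondegenerate
  have hor : ∀ {i j}, i ≠ j → ∀ {u v}, u ∈ D i → v ∈ D j → f u v = 0 :=
    fun hij _ _ hu hv => hD.orthogonal _ _ hij _ hu _ hv
  -- the number of blocks
  have ht : 4 ≤ t := by
    have hle : ∀ s : Finset (Fin t), Module.finrank F (s.sup D : Submodule F (Fin n → F)) ≤
        s.card * 2 := by
      intro s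
      induction s using Finset.induction_on with
      | empty => simp
      | insert a s ha ih =>
        rw [Finset.sup_insert, Finset.card_insert_of_notMem ha]
        have h3 := Submodule.finrank_add_le_finrank_add_finrank (D a) (s.sup D)
        rw [hdec.finrank_eq a] at h3
        change Module.finrank F ↥(D a ⊔ s.sup D) ≤ _
        omega
    have h3 := hle Finset.univ
    rw [Finset.sup_univ_eq_iSup, hdec.iSup_eq_top, finrank_top, Module.finrank_fintype_fun_eq_card,
      Finset.card_univ, Fintype.card_fin, Fintype.card_fin] at h3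
    omega
  -- units in a block
  have hunit : ∀ i, ∃ v ∈ D i, f v v = 1 := by
    intro i
    have hi0 : D i ≠ ⊥ := by
      intro h0
      have := hdec.finrank_eq i
      rw [h0] at this
      simp at this
    obtain ⟨w, hw, hw0⟩ := Submodule.exists_mem_ne_zero_of_ne_bot hi0
    obtain ⟨w', hw', hw'w⟩ := (hnd i w hw hw0).1
    by_cases h3 : f w w = 0
    · by_cases h4 : f w' w' = 0
      · obtain ⟨x, hx⟩ := exists_trace_ne hf
        have hww' : f w w' = σ (f w' w) := hf.herm _ _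
        set κ := x / f w' w with hκ
        have hκ' : κ * f w' w = x := by rw [hκ]; field_simp
        refine ⟨κ • w' + w, (D i).add_mem ((D i).smul_mem _ hw') hw, hval _ ?_⟩
        simp only [hf.add_left, f_add_right hf, hf.smul_left, f_smul_right hf, h3, h4, hκ', hww']
        have : σ κ * σ (f w' w) = σ x := by rw [← map_mul, hκ']
        rw [this]
        simpa using hx
      · exact ⟨w', hw', hval _ h4⟩
    · exact ⟨w, hw, hval _ h3⟩
  -- the frame lemma
  have hframe : ∀ i, ∀ u ∈ D i, f u u = 1 → ∀ v ∈ D i, f v v ≠ 0 → f v u = 0 ∨ ∃ c : F, v = c • u := by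
    intro i u hu huu v hv hvv
    by_contra hcon
    push Not at hcon
    obtain ⟨hc, hne⟩ := hcon
    set c := f v u with hcdef
    set y := v - c • u with hy
    have hyD : y ∈ D i := (D i).sub_mem hv ((D i).smul_mem _ hu)
    have hyu : f y u = 0 := by
      rw [hy, f_sub_left hf, hf.smul_left, huu, ← hcdef]
      ring
    have huy : f u y = 0 := f_comm_zero hf hyu
    have hy0 : y ≠ 0 := by
      intro h0
      exact hne c (sub_eq_zero.1 h0)
    have hve : v = c • u + y := by rw [hy]; abel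
    have h3 : f v v = c * σ c + f y y := by
      rw [hve]
      simp only [hf.add_left, f_add_right hf, hf.smul_left, f_smul_right hf, huu, hyu, huy]
      ring
    have hyy : f y y ≠ 0 := by
      intro hyy
      -- the block would be spanned by `u` and `y`
      have hli : LinearIndependent F ![u, y] := by
        rw [LinearIndependent.pair_iff]
        intro a b hab
        have h5 := congrArg (fun z => f z u) hab
        simp only [hf.add_left, hf.smul_left, huu, hyu, f_zero_left hf, mul_one, mul_zero,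
          add_zero] at h5
        refine ⟨h5, ?_⟩
        rw [h5, zero_smul, zero_add] at hab
        exact (smul_eq_zero.1 hab).resolve_right hy0
      have hPfin : Module.finrank F (Submodule.span F {u, y} : Submodule F (Fin n → F)) = 2 := by
        have := finrank_span_eq_card hli
        have e : Set.range ![u, y] = {u, y} := by
          ext z
          simp only [Set.mem_range, Set.mem_insert_iff, Set.mem_singleton_iff]
          constructor
          · rintro ⟨i, rfl⟩
            fin_cases i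
            · simp
            · simp
          · rintro (rfl | rfl)
            · exact ⟨0, rfl⟩
            · exact ⟨1, rfl⟩
        rw [e] at this
        simpa using this
      have hle : (Submodule.span F {u, y} : Submodule F (Fin n → F)) ≤ D i := by
        rw [Submodule.span_le]
        rintro z (rfl | rfl)
        · exact hu
        · exact hyD
      have heq := Submodule.eq_of_le_of_finrank_eq hle (by rw [hPfin, hdec.finrank_eq])
      obtain ⟨⟨x, hx, hxy⟩, -⟩ := hnd i y hyD hy0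
      rw [← heq] at hx
      obtain ⟨a, b, rfl⟩ := Submodule.mem_span_pair.1 hx
      apply hxy
      simp only [hf.add_left, hf.smul_left, huy, hyy, mul_zero, add_zero]
    have h4 : c * σ c = 1 := hN c hc
    have h5 : f v v = 0 := by
      rw [h3, h4, hval y hyy, hadd]
    exact hvv h5
  -- four blocks
  let i₀ : Fin t := ⟨0, by omega⟩
  let i₁ : Fin t := ⟨1, by omega⟩
  let i₂ : Fin t := ⟨2, by omega⟩
  let i₃ : Fin t := ⟨3, by omega⟩
  have h01 : i₀ ≠ i₁ := by simp [i₀, i₁, Fin.ext_iff]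
  have h02 : i₀ ≠ i₂ := by simp [i₀, i₂, Fin.ext_iff]
  have h03 : i₀ ≠ i₃ := by simp [i₀, i₃, Fin.ext_iff]
  have h12 : i₁ ≠ i₂ := by simp [i₁, i₂, Fin.ext_iff]
  have h13 : i₁ ≠ i₃ := by simp [i₁, i₃, Fin.ext_iff]
  have h23 : i₂ ≠ i₃ := by simp [i₂, i₃, Fin.ext_iff]
  obtain ⟨v₀, hv₀, hv₀v₀⟩ := hunit i₀
  obtain ⟨v₁, hv₁, hv₁v₁⟩ := hunit i₁
  obtain ⟨v₂, hv₂, hv₂v₂⟩ := hunit i₂
  obtain ⟨v₃, hv₃, hv₃v₃⟩ := hunit i₃
  have hab : ∀ {i j}, i ≠ j → ∀ {u v}, u ∈ D i → v ∈ D j → f u v = 0 ∧ f v u = 0 :=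
    fun hij _ _ hu hv => ⟨hor hij hu hv, hor (Ne.symm hij) hv hu⟩
  obtain ⟨h01a, h01b⟩ := hab h01 hv₀ hv₁
  obtain ⟨h02a, h02b⟩ := hab h02 hv₀ hv₂
  obtain ⟨h03a, h03b⟩ := hab h03 hv₀ hv₃
  obtain ⟨h12a, h12b⟩ := hab h12 hv₁ hv₂
  obtain ⟨h13a, h13b⟩ := hab h13 hv₁ hv₃
  obtain ⟨h23a, h23b⟩ := hab h23 hv₂ hv₃
  -- the swap
  set a₁ := v₀ + v₁ with ha₁
  have ha₁a₁ : f a₁ a₁ = 0 := by
    simp only [ha₁, hf.add_left, f_add_right hf, hv₀v₀, hv₁v₁, h01a, h01b]
    simp [hadd]
  set s := tt hf a₁ 1 with hs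
  have hsG : s ∈ G := (hG s).2 ⟨tt_isIsom hf ha₁a₁ hone, tt_mem_specialLinear hf _ _⟩
  have hsi : IsIsom f s := tt_isIsom hf ha₁a₁ hone
  have hsv : ∀ x, (s : Matrix (Fin n) (Fin n) F) *ᵥ x = x + f x a₁ • a₁ := by
    intro x
    rw [hs, tt_mulVec hf _ ha₁a₁, one_mul]
  have hs2 : ∀ x, (s : Matrix (Fin n) (Fin n) F) *ᵥ ((s : Matrix (Fin n) (Fin n) F) *ᵥ x) = x := by
    intro x
    rw [hsv, hsv]
    simp only [hf.add_left, hf.smul_left, ha₁a₁, mul_zero, add_zero]
    have e : ∀ z : Fin n → F, z + z = 0 := fun z => by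
      ext i
      exact hadd (z i)
    rw [add_assoc, e, add_zero]
  have hsA : ∀ v, AA f D v → AA f D ((s : Matrix (Fin n) (Fin n) F) *ᵥ v) := by
    rintro v ⟨⟨j, hj⟩, hvv⟩
    refine ⟨?_, by rw [hsi]; exact hvv⟩
    have hfixv : f v v₀ = 0 → f v v₁ = 0 → (s : Matrix (Fin n) (Fin n) F) *ᵥ v = v := by
      intro h3 h4
      rw [hsv, ha₁, f_add_right hf, h3, h4]
      simp
    by_cases hj0 : j = i₀
    · subst hj0
      have hv1 : f v v₁ = 0 := (hab h01 hj hv₁).1
      rcases hframe i₀ v₀ hv₀ hv₀v₀ v hj hvv with h3 | ⟨c, rfl⟩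
      · exact ⟨i₀, by rw [hfixv h3 hv1]; exact hj⟩
      · refine ⟨i₁, ?_⟩
        rw [hsv, ha₁]
        simp only [hf.smul_left, f_add_right hf, hv₀v₀, h01a]
        have e : c • v₀ + (c * (1 + 0)) • (v₀ + v₁) = c • v₁ := by
          have : (c + c) • v₀ = 0 := by rw [hadd, zero_smul]
          rw [add_zero, mul_one, smul_add, ← add_assoc, ← add_smul, this, zero_add]
        rw [e]
        exact (D i₁).smul_mem _ hv₁
    · by_cases hj1 : j = i₁
      · subst hj1
        have hv0 : f v v₀ = 0 := (hab (Ne.symm h01) hj hv₀).1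
        rcases hframe i₁ v₁ hv₁ hv₁v₁ v hj hvv with h3 | ⟨c, rfl⟩
        · exact ⟨i₁, by rw [hfixv hv0 h3]; exact hj⟩
        · refine ⟨i₀, ?_⟩
          rw [hsv, ha₁]
          simp only [hf.smul_left, f_add_right hf, hv₁v₁, h01b]
          have e : c • v₁ + (c * (0 + 1)) • (v₀ + v₁) = c • v₀ := by
            have : (c + c) • v₁ = 0 := by rw [hadd, zero_smul]
            rw [zero_add, mul_one, smul_add, add_comm, add_assoc, ← add_smul, this, add_zero]
          rw [e]
          exact (D i₀).smul_mem _ hv₀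
      · exact ⟨j, by rw [hfixv (hor hj0 hj hv₀) (hor hj1 hj hv₁)]; exact hj⟩
  have hsK : s ∈ KK f D G :=
    ⟨hsG, fun v => ⟨hsA v, fun h => by
      have := hsA _ h
      rwa [hs2] at this⟩⟩
  have hHK : decompositionStabilizer D ⊓ G ≤ KK f D G := by
    rintro g ⟨⟨τ, hτ⟩, hgG⟩
    have hgi : IsIsom f g := ((hG g).1 hgG).1
    refine ⟨hgG, fun v => ⟨?_, ?_⟩⟩
    · rintro ⟨⟨i, hi⟩, h⟩
      refine ⟨⟨τ i, ?_⟩, by rw [hgi]; exact h⟩
      rw [← hτ i]
      exact ⟨v, hi, by rw [Matrix.toLin'_apply]⟩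
    · rintro ⟨⟨j, hj⟩, h⟩
      rw [hgi] at h
      refine ⟨⟨τ.symm j, ?_⟩, h⟩
      have e := hτ (τ.symm j)
      rw [Equiv.apply_symm_apply] at e
      rw [← e] at hj
      obtain ⟨w, hw, hwe⟩ := hj
      rw [Matrix.toLin'_apply] at hwe
      have h3 := congrArg (fun z => ((g⁻¹ : GL (Fin n) F) : Matrix (Fin n) (Fin n) F) *ᵥ z) hwe
      simp only [gl_inv_mulVec_mulVec] at h3
      rw [← h3]
      exact hw
  have hsH : s ∉ decompositionStabilizer D ⊓ G := by
    rintro ⟨⟨τ, hτ⟩, -⟩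
    have hsv₀ : (s : Matrix (Fin n) (Fin n) F) *ᵥ v₀ = v₁ := by
      rw [hsv, ha₁, f_add_right hf, hv₀v₀, h01a, add_zero, one_smul, ← add_assoc]
      have e : v₀ + v₀ = 0 := by
        ext i
        exact hadd (v₀ i)
      rw [e, zero_add]
    have h3 : v₁ ∈ D (τ i₀) := by
      rw [← hτ i₀]
      exact ⟨v₀, hv₀, by rw [Matrix.toLin'_apply]; exact hsv₀⟩
    have h4 : τ i₀ = i₁ := by
      by_contra hne
      have := hor hne h3 hv₁
      rw [hv₁v₁] at this
      exact one_ne_zero this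
    have h5 := Cfsg.Agent.Lib.SymplecticTv.finrank_inf_ker_add_one (D i₀) (formL hf v₀)
    rw [hdec.finrank_eq] at h5
    have h6 : (D i₀ ⊓ LinearMap.ker (formL hf v₀)) ≠ ⊥ := by
      intro h0
      rw [h0] at h5
      simp at h5
    obtain ⟨w, hw, hw0⟩ := Submodule.exists_mem_ne_zero_of_ne_bot h6
    have hwv₀ : f w v₀ = 0 := hw.2
    have hwv₁ : f w v₁ = 0 := hor h01 hw.1 hv₁
    have hsw : (s : Matrix (Fin n) (Fin n) F) *ᵥ w = w := by
      rw [hsv, ha₁, f_add_right hf, hwv₀, hwv₁]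
      simp
    have h7 : w ∈ D i₁ := by
      rw [← h4, ← hτ i₀]
      exact ⟨w, hw.1, by rw [Matrix.toLin'_apply]; exact hsw⟩
    obtain ⟨⟨x, hx, hxw⟩, -⟩ := hnd i₀ w hw.1 hw0
    exact hxw (hor h01 hx h7)
  refine ⟨KK f D G, lt_of_le_of_ne hHK ?_, lt_of_le_of_ne (fun g hg => hg.1) ?_⟩
  · intro he
    rw [← he] at hsK
    exact hsH hsK
  · intro he
    set b := v₀ + v₁ + v₂ + v₃ with hb
    have hbb : f b b = 0 := by
      simp only [hb, hf.add_left, f_add_right hf, hv₀v₀, hv₁v₁, hv₂v₂, hv₃v₃, h01a, h01b, h02a, h02b,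
        h03a, h03b, h12a, h12b, h13a, h13b, h23a, h23b]
      linear_combination 2 * h2
    have hT : tt hf b 1 ∈ KK f D G := by
      rw [he]
      exact (hG _).2 ⟨tt_isIsom hf hbb hone, tt_mem_specialLinear hf _ _⟩
    have h3 := (hT.2 v₀).1 ⟨⟨i₀, hv₀⟩, by rw [hv₀v₀]; exact one_ne_zero⟩
    rw [tt_mulVec hf _ hbb] at h3
    obtain ⟨⟨j, hj⟩, -⟩ := h3
    have h4 : f v₀ b = 1 := by
      simp only [hb, f_add_right hf, hv₀v₀, h01a, h02a, h03a]
      simp
    rw [h4] at hj
    have h5 : v₀ + ((1 : F) * 1) • b = v₁ + v₂ + v₃ := by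
      rw [hb, mul_one, one_smul]
      have e : v₀ + v₀ = 0 := by
        ext i
        exact hadd (v₀ i)
      have : v₀ + (v₀ + v₁ + v₂ + v₃) = (v₀ + v₀) + v₁ + v₂ + v₃ := by abel
      rw [this, e, zero_add]
    rw [h5] at hj
    have h6 : f (v₁ + v₂ + v₃) v₁ = 1 := by
      simp only [hf.add_left, hv₁v₁, h12b, h13b]
      simp
    have h7 : f (v₁ + v₂ + v₃) v₂ = 1 := by
      simp only [hf.add_left, hv₂v₂, h12a, h23b]
      simp
    have h8 : j = i₁ := by
      by_contra hne
      have := hor hne hj hv₁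
      rw [h6] at this
      exact one_ne_zero this
    have h9 : j = i₂ := by
      by_contra hne
      have := hor hne hj hv₂
      rw [h7] at this
      exact one_ne_zero this
    exact h12 (h8.symm.trans h9)
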