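import Cfsg.Statements.S5659
import Cfsg.Agent.Lib.UnitaryOrth

set_option autoImplicit false
open Cfsg

namespace Cfsg.Agent.S5659

/-- Let F be the field with q² elements, q odd, n ≥ 13, and F₀ the subfield with q elements. Let P be an invertible matrix such that the standard unitary form takes values in F₀ on the F₀-span of the columns of P (so it restricts to a non-degenerate symmetric bilinear form there). Then the elements of SU_n(q) lying in the subfield group of P form a maximal subgroup of SU_n(q). -/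
theorem result {F : Type*} [Field F] [Fintype F] (n q : ℕ) (hF : Fintype.card F = q ^ 2) (hn : 13 ≤ n) (hodd : Odd q) (F₀ : Subfield F) (hcard : Fintype.card F = Nat.card F₀ ^ 2) (P : Matrix.GeneralLinearGroup (Fin n) F) (hP : Cfsg.Geo.IsFormRationalStructure (Cfsg.hermForm n F q) F₀ 1 P) : Cfsg.Geo.IsMaximalIn (Cfsg.GU n F q ⊓ Cfsg.Geo.specialLinear (Fin n) F) (Cfsg.Geo.subfieldSubgroup F₀ P ⊓ (Cfsg.GU n F q ⊓ Cfsg.Geo.specialLinear (Fin n) F)) := by
  classical
  obtain ⟨σ, hσ⟩ := Cfsg.Agent.Lib.UnitaryHerm.exists_sigma hF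
  have hf := Cfsg.Agent.Lib.UnitaryHerm.hermForm_isUnitary (n := n) hF hσ
  have hN := Cfsg.Agent.Lib.UnitaryHerm.norm_surjective hF hσ
  have hfix := Cfsg.Agent.Lib.UnitaryHerm.subfield_fix hF hσ hcard
  have h2 : (2 : F) ≠ 0 := by
    intro h
    have hr : ringChar F = 2 := by
      have : CharP F 2 := by
        have := CharTwo.of_one_ne_zero_of_two_eq_zero (R := F) one_ne_zero h
        exact this
      exact ringChar.eq F 2
    have h3 := FiniteField.even_card_iff_char_two.1 hr
    rw [hF] at h3
    have h4 : Odd (q ^ 2) := hodd.pow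
    rw [Nat.odd_iff] at h4
    omega
  refine Cfsg.Agent.Lib.UnitaryOrth.subfieldO_isMaximalIn hf hN (by simp; omega) ?_ hfix h2 hP
  intro g
  exact Iff.rfl

end Cfsg.Agent.S5659
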